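import Cfsg.Statements.S1640
import Cfsg.Agent.Lib.H02.CoW
import Cfsg.Agent.Lib.H02.CoVe

set_option autoImplicit false
open Cfsg

namespace Cfsg.Agent.S1640

open Cfsg Cfsg.Agent.H02 Cfsg.Agent.H02.CoK Cfsg.Agent.H02.CoM Cfsg.Agent.H02.CoR Cfsg.Agent.H02.CoU Cfsg.Agent.H02.CoW CoS CoT

theorem hb : okP CoVe.b0 = true := by decide +kernel

theorem hd0 : TE16 CoVe.b0 = true := by decide +kernel

theorem orb : ∀ x ∈ Dv uE (-16), ∀ y ∈ Dv uE (-16), ∃ g : Co0, g • uE = uE ∧ g • x = y :=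
  orb_Dv (Us := CoVe.Us) (b := mkL CoVe.b0 hb) (fix_one dec_PE (by rw [sq_uE]; norm_num))
    ⟨sq_mkL _ _, (tEq_iff hBE rfl rfl (by norm_num [tot]) _).mpr hd0⟩
    (fun hinv => (CoVe.main (mkL _ hb) rfl (by rw [sq_mkL]; norm_num) _ ncard_E16 hinv).2)


/-- The stabiliser of a vector of customary norm 6 is transitive on the 11178 minimal vectors of customary inner product −2 with it. -/
theorem result (u : ↥Cfsg.leechLattice) (hu : Cfsg.sqNorm (u : Cfsg.GolayPt → ℤ) = 48) : {x : ↥Cfsg.leechLattice | Cfsg.sqNorm (x : Cfsg.GolayPt → ℤ) = 32 ∧ Cfsg.dotInt (u : Cfsg.GolayPt → ℤ) (x : Cfsg.GolayPt → ℤ) = -16}.ncard = 11178 ∧ ∀ x ∈ {x : ↥Cfsg.leechLattice | Cfsg.sqNorm (x : Cfsg.GolayPt → ℤ) = 32 ∧ Cfsg.dotInt (u : Cfsg.GolayPt → ℤ) (x : Cfsg.GolayPt → ℤ) = -16}, ∀ x' ∈ {x : ↥Cfsg.leechLattice | Cfsg.sqNorm (x : Cfsg.GolayPt → ℤ) = 32 ∧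 Cfsg.dotInt (u : Cfsg.GolayPt → ℤ) (x : Cfsg.GolayPt → ℤ) = -16}, ∃ g : ↥Cfsg.Co0, g • u = u ∧ g • x = x' := by
  obtain ⟨g0, hg0⟩ := exists_to_uE u hu
  exact ⟨ncard_u16 u hu, fun x hx x' hx' => conj_Dv hg0 orb hx hx'⟩

end Cfsg.Agent.S1640
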