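import Cfsg.Statements.S1574
import Cfsg.Agent.Lib.H02.CoW
import Cfsg.Agent.Lib.H02.CoVa

set_option autoImplicit false
open Cfsg

namespace Cfsg.Agent.S1574

open Cfsg Cfsg.Agent.H02 Cfsg.Agent.H02.CoK Cfsg.Agent.H02.CoM Cfsg.Agent.H02.CoR Cfsg.Agent.H02.CoU Cfsg.Agent.H02.CoW CoS CoT

theorem hb : okP CoVa.b0 = true := by decide +kernel

theorem hd0 : TA16 CoVa.b0 = true := by decide +kernel

theorem orb : ∀ x ∈ Dv uA (-16), ∀ y ∈ Dv uA (-16), ∃ g : Co0, g • uA = uA ∧ g • x = y :=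
  orb_Dv (Us := CoVa.Us) (b := mkL CoVa.b0 hb) (fix_one dec_PA (by rw [sq_uA]; norm_num))
    ⟨sq_mkL _ _, (tEq_iff hBA rfl rfl (by norm_num [tot]) _).mpr hd0⟩
    (fun hinv => (CoVa.main (mkL _ hb) rfl (by rw [sq_mkL]; norm_num) _ ncard_A16 hinv).2)


/-- The stabiliser of a minimal vector is transitive on the minimal vectors of customary inner product −2 with it. -/
theorem result (v w w' : ↥Cfsg.leechLattice) (hv : Cfsg.sqNorm (v : Cfsg.GolayPt → ℤ) = 32) (hw : Cfsg.sqNorm (w : Cfsg.GolayPt → ℤ) = 32) (hw' : Cfsg.sqNorm (w' : Cfsg.GolayPt → ℤ) = 32) (hd : Cfsg.dotInt (v : Cfsg.GolayPt → ℤ) (w : Cfsg.GolayPt → ℤ) = -16) (hd' : Cfsg.dotInt (v : Cfsg.GolayPt → ℤ) (w' : Cfsg.GolayPt → ℤ) = -16) : ∃ g : ↥Cfsg.Co0, g • v = v ∧ g • w = w' := by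
  obtain ⟨g0, hg0⟩ := exists_to_uA v hv
  exact conj_Dv hg0 orb ⟨hw, hd⟩ ⟨hw', hd'⟩

end Cfsg.Agent.S1574
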