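import Cfsg.Statements.S5626
import Cfsg.Agent.Lib.H27.Plane4d

set_option autoImplicit false
open Cfsg

namespace Cfsg.Agent.S5626

open Cfsg.Agent.H27.Plane4


/-- Uniqueness of the projective plane of order 4: any two Steiner systems S(2, 5, 21) (21 points, lines of 5 points, two points on exactly one line) are isomorphic. -/
theorem result {α β : Type*} [Fintype α] [DecidableEq α] [Fintype β] [DecidableEq β] (hα : Fintype.card α = 21) (hβ : Fintype.card β = 21) {L : Set (Finset α)} {L' : Set (Finset β)} (hL : Cfsg.IsSteinerSystem 2 5 L) (hL' : Cfsg.IsSteinerSystem 2 5 L') : Cfsg.SetSystemIso L L' := by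
  have hP : Pl L := ⟨hα, hL⟩
  have hP' : Pl L' := ⟨hβ, hL'⟩
  obtain ⟨H, hH, hI⟩ := hP.exists_hyperoval
  obtain ⟨H', hH', hI'⟩ := hP'.exists_hyperoval
  obtain ⟨e₁, -, h₁⟩ := model_iso hP hH hI (H.equivFinOfCardEq hH)
  obtain ⟨e₂, -, h₂⟩ := model_iso hP' hH' hI' (H'.equivFinOfCardEq hH')
  refine ⟨e₁.trans e₂.symm, ?_⟩
  ext b'
  simp only [Set.mem_image]
  constructor
  · rintro ⟨l, hl, rfl⟩
    have h1 : l.image e₁ ∈ MLF := (h₁ _).mp ⟨l, hl, rfl⟩
    obtain ⟨l', hl', he⟩ := (h₂ _).mpr h1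
    have : l.image (e₁.trans e₂.symm) = l' := by
      have e1 : l.image (e₁.trans e₂.symm) = (l.image e₁).image e₂.symm := by
        rw [Finset.image_image]; rfl
      rw [e1, ← he, Finset.image_image]
      simp
    rw [this]
    exact hl'
  · intro hb'
    have h1 : b'.image e₂ ∈ MLF := (h₂ _).mp ⟨b', hb', rfl⟩
    obtain ⟨l, hl, he⟩ := (h₁ _).mpr h1
    refine ⟨l, hl, ?_⟩
    have e1 : l.image (e₁.trans e₂.symm) = (l.image e₁).image e₂.symm := by
      rw [Finset.image_image]; rfl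
    rw [e1, he, Finset.image_image]
    simp

end Cfsg.Agent.S5626
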