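import Cfsg.Statements.S5625
import Cfsg.Agent.Lib.H27.SteinerCount

set_option autoImplicit false
open Cfsg

namespace Cfsg.Agent.S5625

open Cfsg.Agent.H27.Steiner


/-- In any Steiner system S(5, 8, 24) and for any set Y of three points, the blocks meeting Y in exactly 3, 2, 1 and 0 points number 21, 168, 360 and 210 respectively (so there are 759 blocks in all). -/
theorem result (α : Type*) [Fintype α] [DecidableEq α] (hα : Fintype.card α = 24) (B : Set (Finset α)) (hB : Cfsg.IsSteinerSystem 5 8 B) (Y : Finset α) (hY : Y.card = 3) : {b : Finset α | b ∈ B ∧ (b ∩ Y).card = 3}.ncard = 21 ∧ {b : Finset α | b ∈ B ∧ (b ∩ Y).card = 2}.ncard = 168 ∧ {b : Finset α | b ∈ B ∧ (b ∩ Y).card = 1}.ncard = 360 ∧ {b : Finset α | b ∈ B ∧ (b ∩ Y).card = 0}.ncard = 210 := by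
  classical
  obtain ⟨a, b, c, hab, hac, hbc, rfl⟩ := Finset.card_eq_three.mp hY
  have hL0 : lam B (∅ : Finset α) = 759 := lam0 hα hB _ (by simp)
  have hLa : lam B ({a} : Finset α) = 253 := lam1 hα hB _ (by simp)
  have hLb : lam B ({b} : Finset α) = 253 := lam1 hα hB _ (by simp)
  have hLc : lam B ({c} : Finset α) = 253 := lam1 hα hB _ (by simp)
  have hLab : lam B ({a, b} : Finset α) = 77 := lam2 hα hB _ (Finset.card_pair hab)
  have hLac : lam B ({a, c} : Finset α) = 77 := lam2 hα hB _ (Finset.card_pair hac)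
  have hLbc : lam B ({b, c} : Finset α) = 77 := lam2 hα hB _ (Finset.card_pair hbc)
  have hLabc : lam B ({a, b, c} : Finset α) = 21 := lam3 hα hB _ hY
  have hcard : ∀ x : Finset α, (x ∩ {a, b, c}).card =
      (if a ∈ x then 1 else 0) + (if b ∈ x then 1 else 0) + (if c ∈ x then 1 else 0) := by
    intro x
    have : x ∩ {a, b, c} = (if a ∈ x then {a} else ∅) ∪ (if b ∈ x then {b} else ∅) ∪
        (if c ∈ x then {c} else ∅) := by
      ext y
      by_cases h1 : a ∈ x <;> by_cases h2 : b ∈ x <;> by_cases h3 : c ∈ x <;>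
        simp [h1, h2, h3] <;> grind
    rw [this]
    by_cases h1 : a ∈ x <;> by_cases h2 : b ∈ x <;> by_cases h3 : c ∈ x <;>
      simp [h1, h2, h3, Finset.card_pair, Finset.card_insert_of_notMem, hab, hac, hbc, Finset.union_comm] <;> (try simp [Finset.card_eq_three, Finset.insert_eq]) <;> (try grind)
  simp_rw [ncard_setOf_eq]
  set N3 := ((blocks B).filter (fun x => (x ∩ {a, b, c}).card = 3)).card with hN3
  set N2 := ((blocks B).filter (fun x => (x ∩ {a, b, c}).card = 2)).card with hN2
  set N1 := ((blocks B).filter (fun x => (x ∩ {a, b, c}).card = 1)).card with hN1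
  set N0 := ((blocks B).filter (fun x => (x ∩ {a, b, c}).card = 0)).card with hN0
  have e3 : N3 = lam B {a, b, c} := by
    rw [hN3, lam]
    congr 1
    apply Finset.filter_congr
    intro x _
    rw [hcard, Finset.insert_subset_iff, Finset.insert_subset_iff, Finset.singleton_subset_iff]
    by_cases h1 : a ∈ x <;> by_cases h2 : b ∈ x <;> by_cases h3 : c ∈ x <;> simp [h1, h2, h3]
  have e2 : N2 + 3 * N3 = lam B {a, b} + lam B {a, c} + lam B {b, c} := by
    rw [hN2, hN3, lam, lam, lam]
    simp only [Finset.card_filter, Finset.mul_sum, ← Finset.sum_add_distrib]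
    apply Finset.sum_congr rfl
    intro x _
    simp only [hcard, Finset.insert_subset_iff, Finset.singleton_subset_iff]
    by_cases h1 : a ∈ x <;> by_cases h2 : b ∈ x <;> by_cases h3 : c ∈ x <;> simp [h1, h2, h3]
  have e1 : N1 + 2 * N2 + 3 * N3 = lam B {a} + lam B {b} + lam B {c} := by
    rw [hN1, hN2, hN3, lam, lam, lam]
    simp only [Finset.card_filter, Finset.mul_sum, ← Finset.sum_add_distrib]
    apply Finset.sum_congr rfl
    intro x _
    simp only [hcard, Finset.singleton_subset_iff]
    by_cases h1 : a ∈ x <;> by_cases h2 : b ∈ x <;> by_cases h3 : c ∈ x <;> simp [h1, h2, h3]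
  have e0 : N0 + N1 + N2 + N3 = lam B ∅ := by
    rw [hN0, hN1, hN2, hN3, lam]
    simp only [Finset.card_filter, ← Finset.sum_add_distrib]
    apply Finset.sum_congr rfl
    intro x _
    rw [hcard]
    by_cases h1 : a ∈ x <;> by_cases h2 : b ∈ x <;> by_cases h3 : c ∈ x <;> simp [h1, h2, h3]
  rw [hLabc] at e3
  rw [hLab, hLac, hLbc] at e2
  rw [hLa, hLb, hLc] at e1
  rw [hL0] at e0
  omega

end Cfsg.Agent.S5625
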