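import Mathlib
import Cfsg.Agent.Lib.H01.FrobAct
import Cfsg.Statements.S0058
-- import your own Cfsg.Agent.* helpers here

set_option autoImplicit false
open Cfsg

namespace Cfsg.Agent.S0058

open scoped IsMulCommutative

/-- Generation by centralisers: when a noncyclic abelian group A normalises K with coprime orders, K is generated by the fixed-point subgroups of the nonidentity elements of A. -/
theorem result {G : Type*} [Group G] [Finite G] (A K : Subgroup G)
    [IsMulCommutative A] (hA : ¬ IsCyclic A) (hAK : A ≤ Subgroup.normalizer (K : Set G)) (hcop : (Nat.card A).Coprime (Nat.card K)) :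
    (⨆ a ∈ {a : G | a ∈ A ∧ a ≠ 1}, K ⊓ Subgroup.centralizer {a}) = K := by

  classical
  obtain ⟨p, hp, a, b, hap, hbp, hb1, hi⟩ := Cfsg.Agent.H01.exists_independent_pair (A := A) hA
  haveI : Fact p.Prime := ⟨hp⟩
  have hab : Commute (a : G) (b : G) := by
    have := mul_comm a b
    exact congrArg Subtype.val this
  have hap' : (a : G) ^ p = 1 := congrArg Subtype.val hap
  have hbp' : (b : G) ^ p = 1 := congrArg Subtype.val hbp
  have hob : orderOf b = p := by
    rcases (Nat.dvd_prime hp).mp (orderOf_dvd_of_pow_eq_one hbp) with h | h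
    · exact absurd (orderOf_eq_one_iff.mp h) hb1
    · exact h
  have hpA : p ∣ Nat.card A := hob ▸ orderOf_dvd_natCard b
  have hcop' : (Nat.card K).Coprime p :=
    (Nat.Coprime.coprime_dvd_left hpA hcop).symm
  have h := Cfsg.Agent.H13.fixGen_eq hcop' hab hap' hbp' (hAK a.2) (hAK b.2)
  apply le_antisymm (iSup₂_le fun _ _ => inf_le_left)
  conv_lhs => rw [← h]
  apply iSup_le
  rintro ⟨x, hx⟩
  refine le_iSup₂_of_le x ?_ le_rfl
  rcases hx with rfl | ⟨i, _, rfl⟩
  · exact ⟨b.2, fun h => hb1 (Subtype.ext h)⟩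
  · refine ⟨mul_mem a.2 (pow_mem b.2 i), fun h => hi i (Subtype.ext ?_)⟩
    simpa using h


end Cfsg.Agent.S0058
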