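import Cfsg.Statements.S0668
import Mathlib

set_option autoImplicit false
open Cfsg

namespace Cfsg.Agent.S0668


/-- The equivariant linear maps between the permutation modules of two finite `G`-sets form a space whose dimension is the number of `G`-orbits on the product of the two sets. -/
theorem result {G : Type*} [Group G] {K : Type*} [Field K] {Ω₁ Ω₂ : Type*} [Fintype Ω₁] [Fintype Ω₂] [MulAction G Ω₁] [MulAction G Ω₂] : Module.finrank K ((Cfsg.permRep K G Ω₁).linHom (Cfsg.permRep K G Ω₂)).invariants = Nat.card (MulAction.orbitRel.Quotient G (Ω₁ × Ω₂)) := by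
  classical
  let Q := MulAction.orbitRel.Quotient G (Ω₁ × Ω₂)
  letI : Fintype Q := Fintype.ofFinite _
  let mk : Ω₁ × Ω₂ → Q := fun p => Quotient.mk'' p
  have hmk : ∀ (g : G) (x : Ω₁) (y : Ω₂), mk (g • x, g • y) = mk (x, y) := by
    intro g x y
    apply Quotient.sound'
    exact ⟨g, rfl⟩
  let Ψ : (Q → K) →ₗ[K] ((Ω₁ → K) →ₗ[K] (Ω₂ → K)) :=
    { toFun := fun c => Matrix.mulVecLin (Matrix.of fun (y : Ω₂) (x : Ω₁) => c (mk (x, y)))
      map_add' := by
        intro c d
        refine LinearMap.ext fun f => funext fun y => ?_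
        simp [Matrix.mulVec, dotProduct, add_mul, Finset.sum_add_distrib]
      map_smul' := by
        intro a c
        refine LinearMap.ext fun f => funext fun y => ?_
        simp [Matrix.mulVec, dotProduct, Finset.mul_sum, mul_assoc] }
  have hΨ : ∀ (c : Q → K) (x : Ω₁) (y : Ω₂), Ψ c (Pi.single x 1) y = c (mk (x, y)) := by
    intro c x y
    simp [Ψ, Matrix.mulVec_single_one]
  have hΨf : ∀ (c : Q → K) (f : Ω₁ → K) (y : Ω₂), Ψ c f y = ∑ x, c (mk (x, y)) * f x := by
    intro c f y
    simp [Ψ, Matrix.mulVec, dotProduct]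
  have hinj : Function.Injective Ψ := by
    intro c d h
    funext q
    induction q using Quotient.inductionOn' with
    | h p =>
      obtain ⟨x, y⟩ := p
      have := congrFun (congrArg (fun L => L (Pi.single x 1)) h) y
      simp only [hΨ] at this
      exact this
  have hrange : LinearMap.range Ψ = ((Cfsg.permRep K G Ω₁).linHom (Cfsg.permRep K G Ω₂)).invariants := by
    ext φ
    rw [Representation.mem_invariants]
    constructor
    · rintro ⟨c, rfl⟩ g
      ext x y
      rw [Representation.linHom_apply]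
      simp only [LinearMap.comp_apply]
      show (Ψ c) ((Cfsg.permRep K G Ω₁ g⁻¹) _) (g⁻¹ • y) = _
      rw [hΨf, hΨf]
      refine Fintype.sum_equiv (MulAction.toPerm g) _ _ ?_
      intro a
      simp only [MulAction.toPerm_apply]
      have h1 := hmk g a (g⁻¹ • y)
      rw [smul_inv_smul] at h1
      rw [← h1]
      congr 1
      show (Pi.single x 1 : Ω₁ → K) (g⁻¹⁻¹ • a) = _
      simp
    · intro h
      have hw : ∀ (a b : Ω₁ × Ω₂), (MulAction.orbitRel G (Ω₁ × Ω₂)) a b → φ (Pi.single a.1 1) a.2 = φ (Pi.single b.1 1) b.2 := by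
        rintro ⟨x, y⟩ ⟨x', y'⟩ ⟨g, hg⟩
        simp only [Prod.smul_mk, Prod.mk.injEq] at hg
        obtain ⟨rfl, rfl⟩ := hg
        have h2 := congrArg (fun L => L (Pi.single (g • x') 1) (g • y')) (h g)
        simp only [Representation.linHom_apply, LinearMap.comp_apply] at h2
        show φ (Pi.single (g • x') 1) (g • y') = φ (Pi.single x' 1) y'
        rw [← h2]
        have h3 : (Cfsg.permRep K G Ω₁ g⁻¹) (Pi.single (g • x') 1) = Pi.single x' 1 := by
          funext z
          show (Pi.single (g • x') 1 : Ω₁ → K) (g⁻¹⁻¹ • z) = _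
          simp only [inv_inv, Pi.single_apply, smul_left_cancel_iff]
        rw [h3]
        show φ _ (g⁻¹ • g • y') = _
        rw [inv_smul_smul]
      let c : Q → K := Quotient.lift (s := MulAction.orbitRel G (Ω₁ × Ω₂)) (fun p => φ (Pi.single p.1 1) p.2) hw
      refine ⟨c, ?_⟩
      refine LinearMap.pi_ext' fun x => LinearMap.ext_ring (funext fun y => ?_)
      simp only [LinearMap.comp_apply, LinearMap.coe_single]
      rw [hΨ]
      rfl
  rw [← hrange, LinearMap.finrank_range_of_inj hinj, Module.finrank_fintype_fun_eq_card, Nat.card_eq_fintype_card]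

end Cfsg.Agent.S0668
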