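import Cfsg.Statements.S0669

set_option autoImplicit false
open Cfsg

namespace Cfsg.Agent.S0669


/-- The rank of a transitive action: orbits on ordered pairs correspond to orbits of a point stabiliser. -/
theorem result {G : Type*} [Group G] {Ω : Type*} [Finite Ω] [MulAction G Ω] [MulAction.IsPretransitive G Ω] (a : Ω) : Nat.card (MulAction.orbitRel.Quotient G (Ω × Ω)) = Nat.card (MulAction.orbitRel.Quotient (MulAction.stabilizer G a) Ω) := by
  classical
  let f : MulAction.orbitRel.Quotient (MulAction.stabilizer G a) Ω →
      MulAction.orbitRel.Quotient G (Ω × Ω) :=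
    Quotient.lift (fun b => (Quotient.mk _ (a, b) : MulAction.orbitRel.Quotient G (Ω × Ω))) (by
      intro b c h
      obtain ⟨⟨s, hs⟩, rfl⟩ := h
      apply Quotient.sound
      refine ⟨s, ?_⟩
      have : s • a = a := hs
      simp only [Prod.smul_mk, this]; rfl)
  symm
  apply Nat.card_eq_of_bijective f
  constructor
  · intro x y
    induction x using Quotient.inductionOn with | _ b => ?_
    induction y using Quotient.inductionOn with | _ c => ?_
    intro h
    obtain ⟨g, hg⟩ := Quotient.exact h
    simp only [Prod.smul_mk, Prod.mk.injEq] at hg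
    apply Quotient.sound
    exact ⟨⟨g, hg.1⟩, hg.2⟩
  · intro x
    induction x using Quotient.inductionOn with | _ p => ?_
    obtain ⟨x, y⟩ := p
    obtain ⟨g, hg⟩ := MulAction.exists_smul_eq G a x
    refine ⟨Quotient.mk _ (g⁻¹ • y), ?_⟩
    apply Quotient.sound
    refine ⟨g⁻¹, ?_⟩
    simp [Prod.smul_mk, ← hg]

end Cfsg.Agent.S0669
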