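import Cfsg.Statements.S0739
import Mathlib
import Cfsg.Agent.Lib.H03.ZS1

set_option autoImplicit false
open Cfsg

namespace Cfsg.Agent.S0739

open Cfsg.Agent.H03.ZS

theorem zgroup {G Ω : Type*} [Group G] [Finite G] [MulAction G Ω] [Fintype Ω] (hZ : Cfsg.IsZassenhausGroup G Ω) {a b : Ω} (hab : a ≠ b) (hodd : Odd (Nat.card ↥(MulAction.stabilizer G a ⊓ MulAction.stabilizer G b))) : IsZGroup ↥(MulAction.stabilizer G a ⊓ MulAction.stabilizer G b) := by
  classical
  obtain ⟨hfaith, h2, h3, hne⟩ := zass_facts hZ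
  set H := (MulAction.stabilizer G a ⊓ MulAction.stabilizer G b : Subgroup G) with hH
  obtain ⟨F, hFle, hFn, hreg⟩ := Cfsg.Agent.H03.PR.zass_kernel hfaith h2 h3 hab (hne a b hab)
  obtain ⟨h₀, hh₀, hh₀a, hh₀b⟩ := hne a b hab
  -- a third point
  obtain ⟨c, hc⟩ : ∃ c : Ω, h₀ • c ≠ c := by
    by_contra hcon
    push Not at hcon
    exact hh₀ (hfaith h₀ hcon)
  have hca : c ≠ a := by rintro rfl; exact hc hh₀a
  have hcb : c ≠ b := by rintro rfl; exact hc hh₀b
  have hFne : F ≠ ⊥ := by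
    rintro rfl
    obtain ⟨u, hu, -⟩ := hreg b c hab.symm hca
    have hu1 : u = 1 := Subsingleton.elim _ _
    rw [hu1] at hu
    exact hcb (by simpa using hu.symm)
  have hcardF : Nat.card F = Fintype.card Ω - 1 := by
    have hb : b ≠ a := hab.symm
    let e : F → {x : Ω // x ≠ a} := fun u => ⟨(u : G) • b, by
      intro h
      apply hab
      have h1 : (u : G) • a = a := hFle u.2
      exact MulAction.injective (u : G) (h1.trans h.symm)⟩
    have he : Function.Bijective e := by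
      constructor
      · intro u v huv
        have h1 : (u : G) • b = (v : G) • b := congrArg Subtype.val huv
        obtain ⟨w, -, hw⟩ := hreg b ((u : G) • b) hb (e u).2
        exact (hw u rfl).trans (hw v h1.symm).symm
      · rintro ⟨z, hz⟩
        obtain ⟨w, hw, -⟩ := hreg b z hb hz
        exact ⟨w, Subtype.ext hw⟩
    rw [Nat.card_eq_of_bijective e he, Nat.card_eq_fintype_card, Fintype.card_subtype_compl, Fintype.card_subtype_eq]
  have hdvd := card_dvd_sub_two h3 hab
  have hcard3 : 3 ≤ Fintype.card Ω := by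
    have : ({a, b, c} : Finset Ω).card = 3 := by
      rw [Finset.card_insert_of_notMem, Finset.card_insert_of_notMem, Finset.card_singleton]
      · simpa using hcb.symm
      · simp [hab, hca.symm]
    rw [← this]
    exact Finset.card_le_univ _
  constructor
  intro r hr P
  haveI : Fact r.Prime := ⟨hr⟩
  by_cases hrd : r = 2
  · subst hrd
    have h1 : Nat.card P = 1 := by
      obtain ⟨k, hk⟩ := IsPGroup.iff_card.1 P.2
      have h2 : Nat.card P ∣ Nat.card H := Subgroup.card_subgroup_dvd_card _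
      have h3 : Odd (Nat.card P) := Odd.of_dvd_nat hodd h2
      rw [hk] at h3 ⊢
      cases k with
      | zero => simp
      | succ k =>
        exfalso
        rw [pow_succ] at h3
        exact (Nat.not_even_iff_odd.2 h3) (even_two.mul_left _)
    have : Subsingleton P := (Nat.card_eq_one_iff_unique.1 h1).1
    exact isCyclic_of_subsingleton
  apply Cfsg.Agent.H13.isCyclic_of_pRankLE_one hrd P.2
  intro A hAc hAp
  by_contra hlt
  push Not at hlt
  rw [pow_one] at hlt
  have hr1 : 1 < Nat.card A := lt_trans hr.one_lt hlt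
  -- `b₁ ≠ 1` in `A`
  obtain ⟨b₁, hb₁⟩ : ∃ x : A, x ≠ 1 := by
    haveI : Nontrivial A := (Finite.one_lt_card_iff_nontrivial).1 hr1
    exact exists_ne 1
  have hzc : Nat.card (Subgroup.zpowers b₁) ≤ r := by
    rw [Nat.card_zpowers]
    have h1 : b₁ ^ r = 1 := by
      apply Subtype.ext
      exact hAp _ b₁.2
    exact Nat.le_of_dvd hr.pos (orderOf_dvd_of_pow_eq_one h1)
  obtain ⟨a₁, ha₁⟩ : ∃ x : A, x ∉ Subgroup.zpowers b₁ := by
    by_contra hcon
    push Not at hcon
    have h1 : Subgroup.zpowers b₁ = ⊤ := by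
      ext x
      simp [hcon x]
    have h2 : Nat.card (Subgroup.zpowers b₁) = Nat.card A := by
      rw [h1]
      exact Nat.card_congr Subgroup.topEquiv.toEquiv
    omega
  let ι : A → G := fun x => (((x : P) : H) : G)
  have hιmul : ∀ x y : A, ι (x * y) = ι x * ι y := fun _ _ => rfl
  have hιpow : ∀ (x : A) (n : ℕ), ι (x ^ n) = ι x ^ n := fun _ _ => rfl
  have hιinj : Function.Injective ι := by
    intro x y hxy
    exact Subtype.ext (Subtype.ext (Subtype.ext hxy))
  have hιH : ∀ x : A, ι x ∈ H := fun x => ((x : P) : H).2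
  have hcomm : Commute (ι a₁) (ι b₁) := by
    have h1 : a₁ * b₁ = b₁ * a₁ := hAc.is_comm.comm _ _
    have h2 := congrArg ι h1
    rwa [hιmul, hιmul] at h2
  have hιp : ∀ x : A, ι x ^ r = 1 := by
    intro x
    have h1 : x ^ r = 1 := Subtype.ext (hAp _ x.2)
    have h2 := congrArg ι h1
    rw [hιpow] at h2
    exact h2
  have hnorm : ∀ x : A, ι x ∈ Subgroup.normalizer (F : Set G) := by
    intro x
    rw [Subgroup.mem_normalizer_iff]
    intro u
    have h0 : ι x ∈ MulAction.stabilizer G a := (hιH x).1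
    constructor
    · intro hu
      have h1 := hFn.conj_mem ⟨u, hFle hu⟩ (by rw [Subgroup.mem_subgroupOf]; exact hu) ⟨ι x, h0⟩
      rw [Subgroup.mem_subgroupOf] at h1
      exact h1
    · intro hu
      have h1 := hFn.conj_mem ⟨ι x * u * (ι x)⁻¹, hFle hu⟩ (by rw [Subgroup.mem_subgroupOf]; exact hu) ⟨(ι x)⁻¹, inv_mem h0⟩
      rw [Subgroup.mem_subgroupOf] at h1
      have h2 : (ι x)⁻¹ * (ι x * u * (ι x)⁻¹) * ((ι x)⁻¹)⁻¹ = u := by group
      have h3 : ((⟨(ι x)⁻¹, inv_mem h0⟩ * ⟨ι x * u * (ι x)⁻¹, hFle hu⟩ * (⟨(ι x)⁻¹, inv_mem h0⟩ : MulAction.stabilizer G a)⁻¹ : MulAction.stabilizer G a) : G) = (ι x)⁻¹ * (ι x * u * (ι x)⁻¹) * ((ι x)⁻¹)⁻¹ := rfl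
      rw [h3, h2] at h1
      exact h1
  have hcop : (Nat.card F).Coprime r := by
    rw [hcardF]
    apply Nat.Coprime.symm
    rw [Nat.Prime.coprime_iff_not_dvd hr]
    intro h
    -- `r` divides `|H|` since `A` is nontrivial
    have h1 : r ∣ Nat.card H := by
      have h2 : r ∣ Nat.card A := by
        have h3 : orderOf b₁ ∣ Nat.card A := orderOf_dvd_natCard b₁
        have h4 : orderOf b₁ = r := by
          have h5 : b₁ ^ r = 1 := Subtype.ext (hAp _ b₁.2)
          rw [orderOf_eq_prime_iff] 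
          exact ⟨h5, hb₁⟩
        rwa [h4] at h3
      exact h2.trans ((Subgroup.card_subgroup_dvd_card A).trans (Subgroup.card_subgroup_dvd_card _))
    have h5 := h1.trans hdvd
    have h6 : r ∣ (Fintype.card Ω - 1) - (Fintype.card Ω - 2) := Nat.dvd_sub h h5
    have h7 : (Fintype.card Ω - 1) - (Fintype.card Ω - 2) = 1 := by omega
    rw [h7] at h6
    exact hr.one_lt.ne' (Nat.dvd_one.1 h6)
  have hgen := Cfsg.Agent.H13.fixGen_eq (p := r) hcop hcomm (hιp a₁) (hιp b₁) (hnorm a₁) (hnorm b₁)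
  apply hFne
  rw [← hgen]
  rw [eq_bot_iff]
  apply iSup_le
  rintro ⟨x, hx⟩
  -- `x ≠ 1` and lies in `H`
  have hxH : x ∈ H ∧ x ≠ 1 := by
    rcases hx with rfl | ⟨i, _, rfl⟩
    · refine ⟨hιH _, fun h => hb₁ (hιinj (by rw [h]; rfl))⟩
    · refine ⟨H.mul_mem (hιH _) (H.pow_mem (hιH _) _), fun h => ha₁ ?_⟩
      have h1 : ι (a₁ * b₁ ^ i) = ι 1 := by rw [hιmul, hιpow]; exact h
      have h2 := hιinj h1
      have h3 : a₁ = (b₁ ^ i)⁻¹ := eq_inv_of_mul_eq_one_left h2
      rw [h3]
      exact Subgroup.inv_mem _ (Subgroup.pow_mem _ (Subgroup.mem_zpowers b₁) i)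
  rintro u ⟨huF, huC⟩
  rw [Subgroup.mem_bot]
  refine kernel_commute_eq_one h3 hab F hFle hreg hxH.1.1 hxH.1.2 hxH.2 huF ?_
  have := Subgroup.mem_centralizer_iff.1 huC x (Set.mem_singleton x)
  exact this.symm


/-- In a finite Zassenhaus group whose two-point stabiliser `H = G_{a,b}` has odd order `d`, and which has no normal `q`-complement for any prime `q ∣ d`, `H` is cyclic, `C_G(H) = H`, and every element swapping `a` and `b` inverts each element of `H`. -/
theorem result {G Ω : Type*} [Group G] [Finite G] [MulAction G Ω] [Fintype Ω] (hZ : Cfsg.IsZassenhausGroup G Ω) {a b : Ω} (hab : a ≠ b) (hodd : Odd (Nat.card ↥(MulAction.stabilizer G a ⊓ MulAction.stabilizer G b))) (hnil : ∀ q : ℕ, q.Prime → q ∣ Nat.card ↥(MulAction.stabilizer G a ⊓ MulAction.stabilizer G b) → ¬ ∃ N : Subgroup G, N.Normal ∧ N.index = q ^ (Nat.card G).factorization q) : IsCyclic ↥(MulAction.stabilizer G a ⊓ MulAction.stabilizer G b) ∧ Subgroup.centralizer ((MulAction.stabilizer G a ⊓ MulAction.stabilizer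 G b : Subgroup G) : Set G) = MulAction.stabilizer G a ⊓ MulAction.stabilizer G b ∧ ∀ s : G, s • a = b → s • b = a → ∀ h ∈ MulAction.stabilizer G a ⊓ MulAction.stabilizer G b, s * h * s⁻¹ = h⁻¹ := by
  classical
  obtain ⟨hfaith, h2, h3, hne⟩ := zass_facts hZ
  have hZH := zgroup hZ hab hodd
  set H := (MulAction.stabilizer G a ⊓ MulAction.stabilizer G b : Subgroup G) with hH
  have hidx := card_two_trans h2 hab
  rw [← hH] at hidx
  have hdvd := card_dvd_sub_two h3 hab
  rw [← hH] at hdvd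
  -- the swapping elements
  let S : Set G := {s | s • a = b ∧ s • b = a}
  have hfix : ∀ y ∈ H, y ≠ 1 → ∀ x : Ω, y • x = x → x = a ∨ x = b := by
    intro y hy hy1 x hx
    by_contra hcon
    push Not at hcon
    exact hy1 (h3 y a b x hab (Ne.symm hcon.2) (Ne.symm hcon.1) hy.1 hy.2 hx)
  have hHS : ∀ g : G, ∀ y ∈ H, y ≠ 1 → g * y * g⁻¹ ∈ H → g ∈ H ∨ g ∈ S := by
    intro g y hy hy1 hgy
    have hy'1 : g * y * g⁻¹ ≠ 1 := by
      intro h
      apply hy1
      have : y = g⁻¹ * (g * y * g⁻¹) * g := by group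
      rw [this, h]; group
    have h1 : ∀ x : Ω, y • x = x → (g * y * g⁻¹) • (g • x) = g • x := by
      intro x hx
      rw [← mul_smul]
      simp [mul_smul, hx]
    have ha' := hfix _ hgy hy'1 _ (h1 a hy.1)
    have hb' := hfix _ hgy hy'1 _ (h1 b hy.2)
    have hne' : g • a ≠ g • b := fun h => hab (MulAction.injective g h)
    rcases ha' with ha' | ha' <;> rcases hb' with hb' | hb'
    · exact absurd (ha'.trans hb'.symm) hne'
    · exact Or.inl ⟨ha', hb'⟩
    · exact Or.inr ⟨ha', hb'⟩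
    · exact absurd (ha'.trans hb'.symm) hne'
  have hmain := abstract_main H hodd hZH S ?_ ?_ ?_ ?_ ?_
  · obtain ⟨hcyc, hinv⟩ := hmain
    have hcomm : ∀ x y : H, x * y = y * x := (IsCyclic.isMulCommutative (α := H)).is_comm.comm
    refine ⟨hcyc, ?_, fun s hs1 hs2 h hh => hinv s ⟨hs1, hs2⟩ h hh⟩
    apply le_antisymm
    · intro c hc
      obtain ⟨h₀, hh₀, hh₀a, hh₀b⟩ := hne a b hab
      have hh₀H : h₀ ∈ H := ⟨hh₀a, hh₀b⟩
      have hcomm₀ : c * h₀ * c⁻¹ = h₀ := by
        have := Subgroup.mem_centralizer_iff.1 hc h₀ hh₀H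
        rw [← this]; group
      rcases hHS c h₀ hh₀H hh₀ (by rw [hcomm₀]; exact hh₀H) with h | h
      · exact h
      · exfalso
        have h4 := hinv c h h₀ hh₀H
        rw [hcomm₀] at h4
        -- `h₀ = h₀⁻¹`
        have h5 : (⟨h₀, hh₀H⟩ : H) ^ 2 = 1 := by
          apply Subtype.ext
          show h₀ ^ 2 = 1
          rw [pow_two]
          nth_rewrite 1 [h4]
          group
        have h6 : orderOf (⟨h₀, hh₀H⟩ : H) ∣ 2 := orderOf_dvd_of_pow_eq_one h5
        have h7 : orderOf (⟨h₀, hh₀H⟩ : H) ∣ Nat.card H := orderOf_dvd_natCard _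
        have h8 : Odd (orderOf (⟨h₀, hh₀H⟩ : H)) := Odd.of_dvd_nat hodd h7
        have h9 : orderOf (⟨h₀, hh₀H⟩ : H) = 1 := by
          rcases (Nat.dvd_prime Nat.prime_two).1 h6 with h | h
          · exact h
          · rw [h] at h8; exact absurd h8 (by decide)
        have h10 := orderOf_eq_one_iff.1 h9
        exact hh₀ (congrArg Subtype.val h10)
    · intro x hx
      rw [Subgroup.mem_centralizer_iff]
      intro y hy
      exact congrArg Subtype.val (hcomm ⟨y, hy⟩ ⟨x, hx⟩)
  · obtain ⟨s, hs1, hs2⟩ := h2 a b b a hab hab.symm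
    exact ⟨s, hs1, hs2⟩
  · rintro s ⟨hs1, hs2⟩ h ⟨hha, hhb⟩
    constructor
    · show (s * h * s⁻¹) • a = a
      have : s⁻¹ • a = b := by rw [← hs2]; simp
      simp [mul_smul, this, show h • b = b from hhb, hs2]
    · show (s * h * s⁻¹) • b = b
      have : s⁻¹ • b = a := by rw [← hs1]; simp
      simp [mul_smul, this, show h • a = a from hha, hs1]
  · rintro s ⟨hs1, hs2⟩
    constructor
    · show (s * s) • a = a
      simp [mul_smul, hs1, hs2]
    · show (s * s) • b = b
      simp [mul_smul, hs1, hs2]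
  · rintro s ⟨hs1, hs2⟩ s' ⟨hs1', hs2'⟩
    constructor
    · show (s⁻¹ * s') • a = a
      have : s⁻¹ • b = a := by rw [← hs1]; simp
      simp [mul_smul, hs1', this]
    · show (s⁻¹ * s') • b = b
      have : s⁻¹ • a = b := by rw [← hs2]; simp
      simp [mul_smul, hs2', this]
  · intro r _ hrd P
    have hr : r.Prime := Fact.out
    have hrne : ¬ r ∣ H.index := by
      rw [hidx]
      intro h
      have hcard2 : 2 ≤ Fintype.card Ω := Fintype.one_lt_card_iff.2 ⟨a, b, hab⟩
      have h5 := hrd.trans hdvd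
      rcases (Nat.Prime.dvd_mul hr).1 h with h | h
      · have hr2 : r ≠ 2 := by
          rintro rfl
          exact (Nat.not_even_iff_odd.2 hodd) (even_iff_two_dvd.2 hrd)
        have h6 : r ∣ Fintype.card Ω - (Fintype.card Ω - 2) := Nat.dvd_sub h h5
        have h7 : Fintype.card Ω - (Fintype.card Ω - 2) = 2 := by omega
        rw [h7] at h6
        exact hr2 ((Nat.prime_dvd_prime_iff_eq hr Nat.prime_two).1 h6)
      · have h6 : r ∣ (Fintype.card Ω - 1) - (Fintype.card Ω - 2) := Nat.dvd_sub h h5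
        have h7 : (Fintype.card Ω - 1) - (Fintype.card Ω - 2) = 1 := by omega
        rw [h7] at h6
        exact hr.one_lt.ne' (Nat.dvd_one.1 h6)
    set R : Subgroup G := (P : Subgroup H).map H.subtype with hR
    have hRp : IsPGroup r R := P.2.map H.subtype
    have hRidx : ¬ r ∣ R.index := by
      rw [hR, Subgroup.index_map_subtype]
      intro h
      rcases (Nat.Prime.dvd_mul hr).1 h with h | h
      · exact P.not_dvd_index h
      · exact hrne h
    let Q : Sylow r G := hRp.toSylow hRidx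
    have hQ : (Q : Subgroup G) = R := rfl
    have hmemR : ∀ y : G, y ∈ R ↔ ∃ y' ∈ P, (y' : G) = y := fun y => by
      rw [hR, Subgroup.mem_map]
      exact Iff.rfl
    have hnot : ¬ Subgroup.normalizer (R : Set G) ≤ Subgroup.centralizer (R : Set G) := by
      intro hle
      obtain ⟨T, hTn, hTc⟩ := Cfsg.Agent.H19.burnside_complement Q hle
      apply hnil r hr hrd
      refine ⟨T, hTn, ?_⟩
      rw [hTc.symm.index_eq_card]
      exact Sylow.card_eq_multiplicity Q
    obtain ⟨g, hgN, hgC⟩ := Set.not_subset.1 hnot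
    obtain ⟨y₁, hy₁, hgy₁⟩ : ∃ y ∈ P, g * (y : G) ≠ (y : G) * g := by
      by_contra hcon
      push Not at hcon
      apply hgC
      rw [SetLike.mem_coe, Subgroup.mem_centralizer_iff]
      intro y hy
      obtain ⟨y', hy', rfl⟩ := (hmemR y).1 hy
      exact (hcon y' hy').symm
    have hgnR : ∀ y ∈ P, g * (y : G) * g⁻¹ ∈ R := by
      intro y hy
      exact (Subgroup.mem_normalizer_iff.1 hgN y).1 ((hmemR _).2 ⟨y, hy, rfl⟩)
    have hy₁1 : (y₁ : G) ≠ 1 := by
      intro h
      apply hgy₁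
      rw [h]; group
    have hyH : g * (y₁ : G) * g⁻¹ ∈ H := by
      obtain ⟨y', -, he⟩ := (hmemR _).1 (hgnR y₁ hy₁)
      rw [← he]
      exact y'.2
    exact ⟨g, hHS g y₁ y₁.2 hy₁1 hyH, hgnR, y₁, hy₁, hgy₁⟩

end Cfsg.Agent.S0739
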