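import Cfsg.Statements.S1137
import Cfsg.Agent.Lib.H26.Suzuki
import Mathlib

set_option autoImplicit false
set_option linter.style.haveILetI false
set_option linter.unusedVariables false
open Cfsg

namespace Cfsg.Agent.S1137

/-- In a Suzuki 2-group `P` (a finite non-abelian 2-group with more than one involution admitting a cyclic group of automorphisms regular on its involutions) the involutions are exactly the non-identity central elements, and `Z(P)` is elementary abelian. -/
theorem result {P : Type*} [Group P] (hP : Cfsg.IsSuzukiTwoGroup P) :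
    (∀ x : P, (x ≠ 1 ∧ x * x = 1) ↔ (x ∈ Subgroup.center P ∧ x ≠ 1)) ∧
      ∀ z ∈ Subgroup.center P, z * z = 1 := by
  obtain ⟨hfin, h2, hnab, hne, K, hcyc, hreg⟩ := hP
  haveI := hfin
  obtain ⟨C⟩ := H26.Suzuki.nonempty_ctx h2 hne K hcyc hreg
  have hZ := H26.Suzuki.center_sq C h2 hnab
  refine ⟨fun x => ⟨?_, ?_⟩, hZ⟩
  · rintro ⟨hx1, hxx⟩
    exact ⟨Subgroup.mem_center_iff.mpr (fun y => (C.hOmZ x ((C.hOm x).2 hxx) y).symm), hx1⟩
  · rintro ⟨hxc, hx1⟩
    exact ⟨hx1, hZ x hxc⟩

end Cfsg.Agent.S1137
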