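import Cfsg.Statements.S1453
import Cfsg.Agent.Lib.H06.SCN

set_option autoImplicit false
open Cfsg

namespace Cfsg.Agent.S1453

variable {R : Type*} [Group R] [Finite R] {p : ℕ} [Fact p.Prime]

theorem central_comm {x y : R} (hx : x ∈ Subgroup.center R) : y * x = x * y :=
  (Subgroup.mem_center_iff.mp hx) y

theorem mem_Omega {x : R} (hx : x ∈ Subgroup.closure {x : R | x ∈ Subgroup.center R ∧ x ^ p = 1}) :
    x ∈ Subgroup.center R ∧ x ^ p = 1 := by
  induction hx using Subgroup.closure_induction with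
  | mem y hy => exact hy
  | one => exact ⟨Subgroup.one_mem _, one_pow p⟩
  | mul a b _ _ ha hb =>
    refine ⟨Subgroup.mul_mem _ ha.1 hb.1, ?_⟩
    have h : Commute a b := (central_comm ha.1).symm
    rw [h.mul_pow, ha.2, hb.2, one_mul]
  | inv a _ ha =>
    refine ⟨Subgroup.inv_mem _ ha.1, ?_⟩
    rw [inv_pow, ha.2, inv_one]

theorem mem_Z2_iff {x : R} : x ∈ Subgroup.upperCentralSeries R 2 ↔
    ∀ y, x * y * x⁻¹ * y⁻¹ ∈ Subgroup.center R := by
  rw [Subgroup.mem_upperCentralSeries_succ_iff, Subgroup.upperCentralSeries_one]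
  exact Iff.rfl

theorem mem_W (hp2 : p ≠ 2) {x : R}
    (hx : x ∈ Subgroup.closure {x : R | x ∈ Subgroup.upperCentralSeries R 2 ∧ x ^ p = 1}) :
    x ∈ Subgroup.upperCentralSeries R 2 ∧ x ^ p = 1 := by
  have hprime : p.Prime := Fact.out
  induction hx using Subgroup.closure_induction with
  | mem y hy => exact hy
  | one => exact ⟨Subgroup.one_mem _, one_pow p⟩
  | mul a b _ _ ha hb =>
    refine ⟨Subgroup.mul_mem _ ha.1 hb.1, ?_⟩
    have hc := mem_Z2_iff.mp hb.1 a
    have h1 := H06.mul_pow_prime_of_class_two hprime hp2 (x := a) (z := b)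
      (c := b * a * b⁻¹ * a⁻¹) rfl ((central_comm hc).symm) ((central_comm hc).symm)
      (by rw [hb.2]; group)
    rw [h1, ha.2, hb.2, one_mul]
  | inv a _ ha =>
    refine ⟨Subgroup.inv_mem _ ha.1, ?_⟩
    rw [inv_pow, ha.2, inv_one]

/-- In a p-group: commutators of p-th-root-of-1 elements with an element of `Z₂` of order `p`
lie in `Ω`. -/
theorem comm_mem_Omega {w e : R} (hw : w ∈ Subgroup.upperCentralSeries R 2) (he : e ^ p = 1) :
    w * e * w⁻¹ * e⁻¹ ∈ Subgroup.closure {x : R | x ∈ Subgroup.center R ∧ x ^ p = 1} := by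
  apply Subgroup.subset_closure
  have hc := mem_Z2_iff.mp hw e
  refine ⟨hc, ?_⟩
  have h1 : w * e * w⁻¹ = (w * e * w⁻¹ * e⁻¹) * e := by group
  have h2 : (w * e * w⁻¹) ^ p = 1 := by
    rw [conj_pow, he]; group
  rw [h1] at h2
  have h3 : Commute (w * e * w⁻¹ * e⁻¹) e := (central_comm hc).symm
  rw [h3.mul_pow, he, mul_one] at h2
  exact h2

theorem result {R : Type*} [Group R] [Finite R] (p : ℕ) [Fact p.Prime] (hp : p ≠ 2) (hR : IsPGroup p R) (hr : ¬ Cfsg.PRankLE p 2 R)
    (E : Subgroup R) (hE : Cfsg.IsElementaryAbelian p E) (hE2 : Nat.card E = p ^ 2)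
    (hEmax : ∀ B : Subgroup R, Cfsg.IsElementaryAbelian p B → E ≤ B → B = E) :
    ¬ E ≤ Subgroup.centralizer ((Subgroup.closure {x : R | x ∈ Subgroup.upperCentralSeries R 2 ∧ x ^ p = 1} : Subgroup R) : Set R) ∧
      Nat.card ↥(Subgroup.closure {x : R | x ∈ Subgroup.center R ∧ x ^ p = 1}) = p ∧
      (Cfsg.IsElementaryAbelian p (Subgroup.closure {x : R | x ∈ Subgroup.upperCentralSeries R 2 ∧ x ^ p = 1}) ∧
        Nat.card ↥(Subgroup.closure {x : R | x ∈ Subgroup.upperCentralSeries R 2 ∧ x ^ p = 1}) = p ^ 2) ∧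
      (Subgroup.centralizer ((Subgroup.closure {x : R | x ∈ Subgroup.upperCentralSeries R 2 ∧ x ^ p = 1} : Subgroup R) : Set R)).Characteristic ∧
      (Subgroup.centralizer ((Subgroup.closure {x : R | x ∈ Subgroup.upperCentralSeries R 2 ∧ x ^ p = 1} : Subgroup R) : Set R)).index = p := by
  have hprime : p.Prime := Fact.out
  have hp1 : 1 < p := hprime.one_lt
  have hpp : p < p ^ 2 := by nlinarith
  unfold Cfsg.PRankLE at hr
  push Not at hr
  obtain ⟨B, hBc, hBp, hB⟩ := hr
  have hEc : ∀ a ∈ E, ∀ b ∈ E, a * b = b * a := fun a ha b hb =>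
    congrArg Subtype.val (hE.1.is_comm.comm (⟨a, ha⟩ : E) ⟨b, hb⟩)
  have hBc' : ∀ a ∈ B, ∀ b ∈ B, a * b = b * a := fun a ha b hb =>
    congrArg Subtype.val (hBc.is_comm.comm (⟨a, ha⟩ : B) ⟨b, hb⟩)
  -- elements commuting with `E` of order `p` lie in `E`
  have hmax : ∀ w : R, w ^ p = 1 → (∀ e ∈ E, e * w = w * e) → w ∈ E := by
    intro w hwp hwc
    have h1 := hEmax _ (H06.isElementaryAbelian_sup_zpowers hE hwp hwc) le_sup_left
    rw [← h1]
    exact Subgroup.mem_sup_right (Subgroup.mem_zpowers w)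
  -- `E` is not normal
  have hEnn : ¬ E.Normal := by
    intro hEn
    obtain ⟨f₀, _, hf₀E, hf₀p, hf₀c⟩ := H06.exists_f0 hR hEn hEc hE.2 hE2 hBc' hBp hB
    exact hf₀E (hmax f₀ hf₀p hf₀c)
  -- `Ω`
  set Ω : Subgroup R := Subgroup.closure {x : R | x ∈ Subgroup.center R ∧ x ^ p = 1} with hΩ
  have hΩc : ∀ x ∈ Ω, ∀ y : R, y * x = x * y := fun x hx y => central_comm (mem_Omega hx).1
  have hΩp : ∀ x ∈ Ω, x ^ p = 1 := fun x hx => (mem_Omega hx).2
  have hΩE : Ω ≤ E := fun x hx => hmax x (hΩp x hx) (fun e _ => hΩc x hx e)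
  have hΩn : Ω.Normal := by
    constructor
    intro n hn g
    have h2 : g * n * g⁻¹ = n := by rw [hΩc n hn g]; group
    rw [h2]; exact hn
  haveI hRne : Nontrivial R := by
    have h1 : 1 < Nat.card B := by
      have : 1 < p ^ 2 := by nlinarith
      omega
    by_contra hnt
    rw [not_nontrivial_iff_subsingleton] at hnt
    have h2 : Nat.card B ≤ Nat.card R := Subgroup.card_le_card_group B
    rw [Nat.card_of_subsingleton (1 : R)] at h2
    omega
  have hΩne : Ω ≠ ⊥ := by
    haveI : Nontrivial (Subgroup.center R) := hR.center_nontrivial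
    have hdvd : p ∣ Nat.card (Subgroup.center R) := by
      obtain ⟨n, hn⟩ := IsPGroup.iff_card.mp (hR.to_subgroup (Subgroup.center R))
      rw [hn]
      have : n ≠ 0 := by
        rintro rfl
        rw [pow_zero] at hn
        have := Finite.one_lt_card (α := Subgroup.center R)
        omega
      exact dvd_pow_self p this
    obtain ⟨x, hx⟩ := exists_prime_orderOf_dvd_card' p hdvd
    intro hbot
    have h1 : (x : R) ^ p = 1 := by
      have := pow_orderOf_eq_one x
      rw [hx] at this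
      exact congrArg Subtype.val this
    have h2 : (x : R) ∈ Ω := Subgroup.subset_closure ⟨x.2, h1⟩
    rw [hbot, Subgroup.mem_bot] at h2
    have h3 : x = 1 := Subtype.ext h2
    rw [h3, orderOf_one] at hx
    exact hprime.one_lt.ne hx
  have hΩcard : Nat.card Ω = p := by
    have h1 : Nat.card Ω ∣ p ^ 2 := hE2 ▸ Subgroup.card_dvd_of_le hΩE
    obtain ⟨i, hi, hi2⟩ := (Nat.dvd_prime_pow hprime).mp h1
    interval_cases i
    · exfalso
      apply hΩne
      rw [← Subgroup.card_eq_one]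
      simpa using hi2
    · simpa using hi2
    · exfalso
      have hΩeq : Ω = E := Subgroup.eq_of_le_of_card_ge hΩE (by rw [hE2, hi2])
      apply hEnn
      rw [← hΩeq]
      exact hΩn
  have hΩlt : Ω < E := by
    refine lt_of_le_of_ne hΩE ?_
    intro h
    rw [← h, hΩcard] at hE2
    omega
  -- an element `e` of `E` outside `Ω`
  obtain ⟨e, heE, heΩ⟩ := SetLike.exists_of_lt hΩlt
  have hep : e ^ p = 1 := hE.2 e heE
  have hEgen : Ω ⊔ Subgroup.zpowers e = E := by
    have hle : Ω ⊔ Subgroup.zpowers e ≤ E := sup_le hΩE ((Subgroup.zpowers_le).mpr heE)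
    apply Subgroup.eq_of_le_of_card_ge hle
    have hlt : Ω < Ω ⊔ Subgroup.zpowers e := by
      refine lt_of_le_of_ne le_sup_left ?_
      intro h
      exact heΩ (h ▸ Subgroup.mem_sup_right (Subgroup.mem_zpowers e))
    have h1 : Nat.card (Ω ⊔ Subgroup.zpowers e : Subgroup R) ∣ p ^ 2 :=
      hE2 ▸ Subgroup.card_dvd_of_le hle
    have h2 := H06.card_lt_of_lt hlt
    rw [hΩcard] at h2
    obtain ⟨i, hi, hi2⟩ := (Nat.dvd_prime_pow hprime).mp h1
    rw [hi2] at h2 ⊢
    rw [hE2]
    have hi3 : i = 2 := by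
      interval_cases i
      · simp at h2; omega
      · simp at h2
      · rfl
    rw [hi3]
  -- the element `f`
  obtain ⟨f, hfΩ, hfp, hfc, hfz⟩ := H06.exists_central_elt hR hp hΩn
    (fun a ha b _ => (hΩc a ha b).symm) hΩp heΩ hep (fun x hx => (hΩc x hx e).symm)
  have hfZ2 : f ∈ Subgroup.upperCentralSeries R 2 := by
    rw [mem_Z2_iff]
    intro y
    have h1 := (mem_Omega (hfz y)).1
    have h2 : f * y * f⁻¹ * y⁻¹ = (y * f * y⁻¹ * f⁻¹)⁻¹ := by group
    rw [h2]
    exact Subgroup.inv_mem _ h1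
  set W : Subgroup R := Subgroup.closure {x : R | x ∈ Subgroup.upperCentralSeries R 2 ∧ x ^ p = 1} with hW
  have hfW : f ∈ W := Subgroup.subset_closure ⟨hfZ2, hfp⟩
  have hWmem : ∀ w ∈ W, w ∈ Subgroup.upperCentralSeries R 2 ∧ w ^ p = 1 := fun w hw => mem_W hp hw
  have hΩW : Ω ≤ W := by
    intro x hx
    refine Subgroup.subset_closure ⟨?_, hΩp x hx⟩
    rw [mem_Z2_iff]
    intro y
    have h2 : x * y * x⁻¹ * y⁻¹ = 1 := by
      rw [← hΩc x hx y]; group
    rw [h2]
    exact Subgroup.one_mem _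
  have hWn : W.Normal := by
    constructor
    intro w hw g
    have hZn : (Subgroup.upperCentralSeries R 2).Normal := inferInstance
    refine Subgroup.subset_closure ⟨hZn.conj_mem w (hWmem w hw).1 g, ?_⟩
    rw [conj_pow, (hWmem w hw).2]; group
  -- `E` not inside `W`
  have hEW : ¬ E ≤ W := by
    intro hle
    apply hEnn
    constructor
    intro x hx g
    have h1 : g * x * g⁻¹ * x⁻¹ ∈ E := by
      have h2 : g * x * g⁻¹ * x⁻¹ = ((x * g * x⁻¹ * g⁻¹))⁻¹ := by group
      rw [h2]
      apply Subgroup.inv_mem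
      have hxZ := (hWmem x (hle hx)).1
      have hc := mem_Z2_iff.mp hxZ g
      apply hΩE
      refine Subgroup.subset_closure ⟨hc, ?_⟩
      have h3 : x * g * x⁻¹ * g⁻¹ = x * (g * x⁻¹ * g⁻¹) := by group
      have hxp := hE.2 x hx
      have h4 : (g * x⁻¹ * g⁻¹) ^ p = 1 := by
        rw [conj_pow, inv_pow, hxp]; group
      -- `x` and `g x⁻¹ g⁻¹` commute since their commutator is central and ...
      have h5 : x * g * x⁻¹ * g⁻¹ * (g * x * g⁻¹) = x := by group
      have h6 : (x * g * x⁻¹ * g⁻¹) ^ p * (g * x * g⁻¹) ^ p = x ^ p := by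
        have hcomm : Commute (x * g * x⁻¹ * g⁻¹) (g * x * g⁻¹) := (central_comm hc).symm
        rw [← hcomm.mul_pow, h5]
      have h7 : (g * x * g⁻¹) ^ p = 1 := by
        rw [conj_pow, hxp]; group
      rw [h7, mul_one, hxp] at h6
      exact h6
    have h8 : g * x * g⁻¹ = (g * x * g⁻¹ * x⁻¹) * x := by group
    rw [h8]
    exact E.mul_mem h1 hx
  have hEWcard : Nat.card ↥(E ⊓ W) ≤ p := by
    have hle : E ⊓ W ≤ E := inf_le_left
    have hlt : E ⊓ W < E := by
      refine lt_of_le_of_ne hle ?_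
      intro h
      exact hEW (h ▸ inf_le_right)
    have h2 := H06.card_lt_of_lt hlt
    have h1 : Nat.card ↥(E ⊓ W) ∣ p ^ 2 := hE2 ▸ Subgroup.card_dvd_of_le hle
    obtain ⟨i, hi, hi2⟩ := (Nat.dvd_prime_pow hprime).mp h1
    rw [hi2, hE2] at h2
    rw [hi2]
    have hi3 : i < 2 := (Nat.pow_lt_pow_iff_right hp1).mp h2
    calc p ^ i ≤ p ^ 1 := Nat.pow_le_pow_right hprime.pos (by omega)
      _ = p := pow_one p
  -- `|W| ≤ p ^ 2`
  have hWle : Nat.card W ≤ p ^ 2 := by
    have h1 := H06.card_le_card_inf_centralizer_mul (B := W) (Z := Ω) (e := e) hΩc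
      (fun b hb => comm_mem_Omega (hWmem b hb).1 hep)
    rw [hΩcard] at h1
    have h2 : W ⊓ Subgroup.centralizer ({e} : Set R) ≤ E ⊓ W := by
      intro w hw
      obtain ⟨hw1, hw2⟩ := Subgroup.mem_inf.mp hw
      refine Subgroup.mem_inf.mpr ⟨?_, hw1⟩
      apply hmax w (hWmem w hw1).2
      intro x hx
      have h3 : E ≤ Subgroup.centralizer ({w} : Set R) := by
        rw [← hEgen]
        apply sup_le
        · intro y hy
          rw [Subgroup.mem_centralizer_iff]
          intro z hz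
          rw [Set.mem_singleton_iff.mp hz]
          exact hΩc y hy w
        · rw [Subgroup.zpowers_le, Subgroup.mem_centralizer_iff]
          intro z hz
          rw [Set.mem_singleton_iff.mp hz]
          exact (Subgroup.mem_centralizer_iff.mp hw2 e rfl).symm
      exact (Subgroup.mem_centralizer_iff.mp (h3 hx) w rfl).symm
    have h3 : Nat.card ↥(W ⊓ Subgroup.centralizer ({e} : Set R)) ≤ p :=
      (Subgroup.card_le_of_le h2).trans hEWcard
    calc Nat.card W ≤ _ := h1
      _ ≤ p * p := Nat.mul_le_mul_right p h3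
      _ = p ^ 2 := (pow_two p).symm
  -- `W = Ω ⟨f⟩`
  have hfcΩ : ∀ x ∈ Ω, x * f = f * x := fun x hx => (hΩc x hx f).symm
  have hWgen : Ω ⊔ Subgroup.zpowers f = W := by
    have hle : Ω ⊔ Subgroup.zpowers f ≤ W := sup_le hΩW ((Subgroup.zpowers_le).mpr hfW)
    apply Subgroup.eq_of_le_of_card_ge hle
    have hlt : Ω < Ω ⊔ Subgroup.zpowers f := by
      refine lt_of_le_of_ne le_sup_left ?_
      intro h
      exact hfΩ (h ▸ Subgroup.mem_sup_right (Subgroup.mem_zpowers f))
    have h2 := H06.card_lt_of_lt hlt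
    rw [hΩcard] at h2
    obtain ⟨i, hi⟩ := IsPGroup.iff_card.mp (hR.to_subgroup (Ω ⊔ Subgroup.zpowers f))
    rw [hi] at h2 ⊢
    have hi2 : 1 < i := by
      have : p ^ 1 < p ^ i := by simpa using h2
      exact (Nat.pow_lt_pow_iff_right hp1).mp this
    calc Nat.card W ≤ p ^ 2 := hWle
      _ ≤ p ^ i := Nat.pow_le_pow_right hprime.pos hi2
  have hΩel : IsElementaryAbelian p Ω :=
    ⟨⟨⟨fun a b => Subtype.ext (hΩc b b.2 a)⟩⟩, hΩp⟩
  have hWel : IsElementaryAbelian p W := by
    rw [← hWgen]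
    exact H06.isElementaryAbelian_sup_zpowers hΩel hfp hfcΩ
  have hWcard : Nat.card W = p ^ 2 := by
    apply le_antisymm hWle
    have hlt : Ω < W := by
      refine lt_of_le_of_ne hΩW ?_
      intro h
      exact hfΩ (h ▸ hfW)
    have h2 := H06.card_lt_of_lt hlt
    rw [hΩcard] at h2
    obtain ⟨i, hi⟩ := IsPGroup.iff_card.mp (hR.to_subgroup W)
    rw [hi] at h2 ⊢
    have hi2 : 1 < i := by
      have : p ^ 1 < p ^ i := by simpa using h2
      exact (Nat.pow_lt_pow_iff_right hp1).mp this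
    exact Nat.pow_le_pow_right hprime.pos hi2
  have hEC : ¬ E ≤ Subgroup.centralizer (W : Set R) := by
    intro hle
    have hfE : f ∈ E := hmax f hfp (fun x hx => by
      have := Subgroup.mem_centralizer_iff.mp (hle hx) f hfW
      exact this.symm)
    have hWE : W ≤ E := by
      rw [← hWgen]
      exact sup_le hΩE ((Subgroup.zpowers_le).mpr hfE)
    have hWeq : W = E := Subgroup.eq_of_le_of_card_ge hWE (by rw [hE2, hWcard])
    apply hEnn
    rw [← hWeq]
    exact hWn
  have hWchar : W.Characteristic := by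
    rw [Subgroup.characteristic_iff_map_le]
    intro φ
    rw [hW, MonoidHom.map_closure]
    apply Subgroup.closure_mono
    rintro _ ⟨x, ⟨hx1, hx2⟩, rfl⟩
    refine ⟨?_, ?_⟩
    · have hc : (Subgroup.upperCentralSeries R 2).Characteristic := inferInstance
      have h1 := (Subgroup.characteristic_iff_map_le.mp hc) φ
      exact h1 ⟨x, hx1, rfl⟩
    · show (φ x) ^ p = 1
      rw [← map_pow, hx2, map_one]
  refine ⟨hEC, hΩcard, ⟨hWel, hWcard⟩, inferInstance, ?_⟩
  -- the index
  have hCeq : Subgroup.centralizer (W : Set R) = Subgroup.centralizer ({f} : Set R) := by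
    apply le_antisymm
    · apply Subgroup.centralizer_le
      intro x hx
      rw [Set.mem_singleton_iff.mp hx]
      exact hfW
    · intro x hx
      rw [Subgroup.mem_centralizer_iff] at hx ⊢
      have h1 := hx f rfl
      have h3 : W ≤ Subgroup.centralizer ({x} : Set R) := by
        rw [← hWgen]
        apply sup_le
        · intro y hy
          rw [Subgroup.mem_centralizer_iff]
          intro z hz
          rw [Set.mem_singleton_iff.mp hz]
          exact hΩc y hy x
        · rw [Subgroup.zpowers_le, Subgroup.mem_centralizer_iff]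
          intro z hz
          rw [Set.mem_singleton_iff.mp hz]
          exact h1.symm
      intro y hy
      exact (Subgroup.mem_centralizer_iff.mp (h3 hy) x rfl).symm
  have h1 := H06.card_le_card_inf_centralizer_mul (B := ⊤) (Z := Ω) (e := f) hΩc
    (fun b _ => hfz b)
  rw [hΩcard, top_inf_eq, Subgroup.card_top] at h1
  rw [← hCeq] at h1
  have h2 := (Subgroup.centralizer (W : Set R)).card_mul_index
  have hpos : 0 < Nat.card ↥(Subgroup.centralizer (W : Set R)) := Nat.card_pos
  have hle : (Subgroup.centralizer (W : Set R)).index ≤ p := by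
    rw [← h2] at h1
    exact Nat.le_of_mul_le_mul_left h1 hpos
  obtain ⟨n, hn⟩ := IsPGroup.iff_card.mp hR
  have hdvd : (Subgroup.centralizer (W : Set R)).index ∣ p ^ n := by
    rw [← hn]
    exact Subgroup.index_dvd_card _
  obtain ⟨i, _, hi⟩ := (Nat.dvd_prime_pow hprime).mp hdvd
  have hi0 : i ≠ 0 := by
    rintro rfl
    rw [pow_zero] at hi
    apply hEC
    rw [Subgroup.index_eq_one.mp hi]
    exact le_top
  rw [hi] at hle ⊢
  have hi1 : i = 1 := by
    by_contra hne
    have h3 : 2 ≤ i := by omega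
    have : p ^ 2 ≤ p ^ i := Nat.pow_le_pow_right hprime.pos h3
    omega
  rw [hi1, pow_one]

end Cfsg.Agent.S1453
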