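import Cfsg.Statements.S1465
import Cfsg.Agent.Lib.H06.Quad5
import Cfsg.Agent.Lib.H08.Bender2
import Cfsg.Agent.Lib.H13.KeyChar2

set_option autoImplicit false

open Cfsg

namespace Cfsg.Agent.S1465

open Cfsg.Agent.H06

open scoped commutatorElement

/-- Let p be an odd prime, G a solvable group of odd order, P a normal p-subgroup of G, and X the subgroup generated by a family of abelian p-subgroups of G each normalized by P. Then the image of X in G/C_G(P) lies in O_p(G/C_G(P)); and if O_{p'}(G) = 1 and O_p(G) ∩ C_G(P) ≤ P then X ≤ O_p(G). -/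
theorem result {G : Type*} [Group G] [Finite G] [Group.IsSolvable G] (hodd : Odd (Nat.card G)) (p : ℕ) [Fact p.Prime] (hp : p ≠ 2) (P : Subgroup G) [P.Normal] (hP : IsPGroup p P)
    (S : Set (Subgroup G)) (hS : ∀ B ∈ S, IsMulCommutative B ∧ IsPGroup p B ∧ P ≤ Subgroup.normalizer (B : Set G)) :
    (sSup S).map (QuotientGroup.mk' (Subgroup.centralizer (P : Set G))) ≤ Cfsg.pCore p (G ⧸ Subgroup.centralizer (P : Set G)) ∧
      (Cfsg.pPrimeCore p G = ⊥ → Cfsg.pCore p G ⊓ Subgroup.centralizer (P : Set G) ≤ P → sSup S ≤ Cfsg.pCore p G) := by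
  classical
  set C := Subgroup.centralizer (P : Set G) with hC
  have h1 : ∀ B ∈ S, ∀ b ∈ B, QuotientGroup.mk' C b ∈ pCore p (G ⧸ C) := by
    intro B hB b hb
    obtain ⟨hc, hp', hn⟩ := hS B hB
    refine quad_image_pCore hodd p hp P hP C le_rfl b ?_ ?_
    · obtain ⟨e, he⟩ := hp' ⟨b, hb⟩
      refine ⟨e, ?_⟩
      have := congrArg Subtype.val he
      simpa using this
    · intro v hv
      have h1 : v * b * v⁻¹ ∈ B := (Subgroup.mem_normalizer_iff.mp (hn hv) b).mp hb
      have h2 : ⁅v, b⁆ ∈ B := by
        rw [commutatorElement_def]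
        exact mul_mem h1 (inv_mem hb)
      rw [commutatorElement_eq_one_iff_mul_comm]
      have h3 := hc.is_comm.comm ⟨_, h2⟩ ⟨b, hb⟩
      exact congrArg Subtype.val h3
  constructor
  · rw [Subgroup.map_le_iff_le_comap]
    exact sSup_le (fun B hB b hb => h1 B hB b hb)
  · intro hO hle
    -- `C` is a `p`-group
    have hCp : IsPGroup p C := by
      haveI hCn : C.Normal := inferInstance
      -- characteristic subgroups of `C` are normal in `G`
      have hnorm : ∀ (K : Subgroup C), K.Characteristic → (K.map C.subtype).Normal := by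
        intro K hK
        refine ⟨?_⟩
        intro y hy g
        have hN : g ∈ Subgroup.normalizer (C : Set G) := by
          rw [Subgroup.normalizer_eq_top_iff.mpr hCn]
          trivial
        have h2 := Cfsg.Agent.H13.normalizer_le_normalizer_map_of_characteristic C K hN
        exact (Subgroup.mem_normalizer_iff.mp h2 y).mp hy
      have hO1 : pPrimeCore p C = ⊥ := by
        have hch : (pPrimeCore p C).Characteristic := pPrimeCore_characteristic C p
        have hc2 : (Nat.card ((pPrimeCore p C).map C.subtype)).Coprime p := by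
          rw [Subgroup.card_map_of_injective C.subtype_injective]
          exact coprime_card_pPrimeCore p
        have h3 : (pPrimeCore p C).map C.subtype ≤ pPrimeCore p G := le_sSup ⟨hnorm _ hch, hc2⟩
        rw [hO] at h3
        rw [eq_bot_iff]
        intro z hz
        have h4 := h3 ⟨z, hz, rfl⟩
        exact Subtype.ext h4
      have hT : (pCore p C).map C.subtype ≤ P := by
        have hch : (pCore p C).Characteristic := Cfsg.Agent.H08.Bender.pCore_char p C
        have h3 : (pCore p C).map C.subtype ≤ pCore p G :=
          le_sSup ⟨hnorm _ hch, (Cfsg.Agent.H01.pCore_isPGroup (G := C) p).map _⟩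
        refine le_trans (le_inf h3 ?_) hle
        rintro _ ⟨z, -, rfl⟩
        exact z.2
      have hHH : Subgroup.centralizer (pCore p C : Set C) ≤ pCore p C :=
        Cfsg.Agent.H03.centralizer_pCore_le_of_isPSolvable (isPSolvable_of_isSolvable p C) hO1
      have hall : ∀ z : C, z ∈ pCore p C := by
        intro z
        apply hHH
        rw [Subgroup.mem_centralizer_iff]
        intro t ht
        have h5 : (t : G) ∈ P := hT ⟨t, ht, rfl⟩
        have h6 := (Subgroup.mem_centralizer_iff.mp z.2) _ h5
        exact Subtype.ext h6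
      intro z
      obtain ⟨e, he⟩ := (Cfsg.Agent.H01.pCore_isPGroup (G := C) p) ⟨z, hall z⟩
      refine ⟨e, ?_⟩
      have := congrArg Subtype.val he
      exact this
    refine sSup_le (fun B hB b hb => ?_)
    exact mem_pCore_of_quot p C hCp (h1 B hB b hb)

end Cfsg.Agent.S1465
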