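import Cfsg.Statements.S1593
import Mathlib
import Cfsg.Agent.Lib.H07.Ternary2
-- import your own Cfsg.Agent.* helpers here

set_option autoImplicit false
open Cfsg

namespace Cfsg.Agent.S1593

/-- The only sign changes preserving the length-12 ternary code are the identity and negation of all coordinates. -/
theorem result (c : Cfsg.ArrayPt → (ZMod 3)ˣ) (h : (∀ x ∈ Cfsg.ternaryGolayCode, Cfsg.monomialMap 1 c x ∈ Cfsg.ternaryGolayCode)) : (∀ p, c p = 1) ∨ (∀ p, c p = -1) := by
  classical
  open Cfsg.Agent.H07.Ternary in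
  have hconst : ∀ p q : Cfsg.ArrayPt, c p = c q := by
    intro p q
    obtain ⟨b, hb, hpb, hqb⟩ := exists_hexad_pair p q
    obtain ⟨x, hx, rfl, hxc⟩ := (mem_hexads b).mp hb
    -- the scaled word
    have hy := h x hx
    have hp0 : x p ≠ 0 := (mem_support _ _).mp hpb
    have hq0 : x q ≠ 0 := (mem_support _ _).mp hqb
    set y := Cfsg.monomialMap 1 c x with hydef
    have hyr : ∀ r, y r = (c r : ZMod 3) * x r := fun r => rfl
    have hz : y - ((c p : (ZMod 3)ˣ) : ZMod 3) • x ∈ Cfsg.ternaryGolayCode :=
      Cfsg.ternaryGolayCode.sub_mem hy (Cfsg.ternaryGolayCode.smul_mem _ hx)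
    have hsub : Cfsg.ternarySupport (y - ((c p : (ZMod 3)ˣ) : ZMod 3) • x) ⊆ (Cfsg.ternarySupport x).erase p := by
      intro r hr
      have hr' := (mem_support _ _).mp hr
      rw [Finset.mem_erase]
      constructor
      · rintro rfl
        apply hr'
        simp [hyr]
      · rw [mem_support]
        intro h0
        apply hr'
        simp [hyr, h0]
    have hcard : (Cfsg.ternarySupport (y - ((c p : (ZMod 3)ˣ) : ZMod 3) • x)).card < 6 := by
      have := Finset.card_le_card hsub
      rw [Finset.card_erase_of_mem hpb, hxc] at this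
      omega
    have hzero := eq_zero_of_small hz hcard
    have hq := congrFun hzero q
    simp only [Pi.sub_apply, Pi.smul_apply, smul_eq_mul, Pi.zero_apply, hyr] at hq
    have hq1 : ((c q : (ZMod 3)ˣ) : ZMod 3) * x q = (c p : ZMod 3) * x q := sub_eq_zero.mp hq
    have := mul_right_cancel₀ hq0 hq1
    exact (Units.ext this).symm
  have hu : ∀ u : (ZMod 3)ˣ, u = 1 ∨ u = -1 := by decide
  rcases hu (c (0, 0)) with h1 | h1
  · left; intro p; rw [hconst p (0, 0), h1]
  · right; intro p; rw [hconst p (0, 0), h1]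

end Cfsg.Agent.S1593
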