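import Mathlib
import Cfsg.Statements.S2564
import Cfsg.Agent.Lib.H11.F2

set_option autoImplicit false
open Cfsg

namespace Cfsg.Agent.S2564

open Cfsg.Agent.H11 Module

lemma zmod2_cases (a : ZMod 2) : a = 0 ∨ a = 1 := by
  revert a
  decide

lemma fP_smul_left {m : ℕ} (c : ZMod 2) (u v : V2 m) : fP (c • u) v = c * fP u v := by
  simp only [fP, Pi.smul_apply, smul_eq_mul, Finset.mul_sum]
  apply Finset.sum_congr rfl
  intro i _
  ring

lemma fP_smul_right {m : ℕ} (c : ZMod 2) (u v : V2 m) : fP u (c • v) = c * fP u v := by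
  rw [fP_comm, fP_smul_left, fP_comm]

theorem result (m : ℕ) (hm : 1 ≤ m) (q : (Fin m ⊕ Fin m → ZMod 2) → ZMod 2) (hq : (∀ u v : (Fin m ⊕ Fin m → ZMod 2), q (u + v) = q u + q v + (Cfsg.quadFormPlus m (ZMod 2) (u + v) - Cfsg.quadFormPlus m (ZMod 2) u - Cfsg.quadFormPlus m (ZMod 2) v))) (w : (Fin m ⊕ Fin m → ZMod 2)) :
    (∀ u v : (Fin m ⊕ Fin m → ZMod 2), (q (u + v) + (Cfsg.quadFormPlus m (ZMod 2) (u + v + w) - Cfsg.quadFormPlus m (ZMod 2) (u + v) - Cfsg.quadFormPlus m (ZMod 2) w)) =
        (q u + (Cfsg.quadFormPlus m (ZMod 2) (u + w) - Cfsg.quadFormPlus m (ZMod 2) u - Cfsg.quadFormPlus m (ZMod 2) w)) + (q v + (Cfsg.quadFormPlus m (ZMod 2) (v + w) - Cfsg.quadFormPlus m (ZMod 2) v - Cfsg.quadFormPlus m (ZMod 2) w)) +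
        (Cfsg.quadFormPlus m (ZMod 2) (u + v) - Cfsg.quadFormPlus m (ZMod 2) u - Cfsg.quadFormPlus m (ZMod 2) v)) ∧
    ((∃ g : (Fin m ⊕ Fin m → ZMod 2) ≃ₗ[ZMod 2] (Fin m ⊕ Fin m → ZMod 2), ∀ v, q v + (Cfsg.quadFormPlus m (ZMod 2) (v + w) - Cfsg.quadFormPlus m (ZMod 2) v - Cfsg.quadFormPlus m (ZMod 2) w) = q (g v)) ↔ q w = 0) := by
  have hq' : PolF q := (polF_iff q).1 hq
  simp only [fP_spec]
  constructor
  · intro u v
    rw [hq', fP_add_left]
    ring
  · constructor
    · rintro ⟨g, hg⟩
      by_contra hw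
      have hw1 : q w = 1 := (zmod2_cases _).resolve_left hw
      have h1 : gaussS q = ∑ v, chi (q (g v)) :=
        (Fintype.sum_equiv g.toEquiv _ _ (fun _ => rfl)).symm
      have h2 : ∀ v, q (g v) = q (v + w) + 1 := by
        intro v
        rw [← hg, hq', hw1]
        have h3 : ∀ a b : ZMod 2, a + b = a + 1 + b + 1 := by decide
        exact h3 _ _
      have h4 : ∑ v, chi (q (g v)) = - gaussS q := by
        simp only [h2, chi_add, chi_one]
        have : ∑ v : V2 m, chi (q (v + w)) = gaussS q :=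
          Fintype.sum_equiv (Equiv.addRight w) _ _ (fun _ => rfl)
        rw [← this, ← Finset.sum_neg_distrib]
        apply Finset.sum_congr rfl
        intro v _
        ring
      have h5 := gaussS_ne_zero hq'
      omega
    · intro hw
      let T : (V2 m) →ₗ[ZMod 2] (V2 m) :=
        { toFun := fun v => v + fP v w • w
          map_add' := fun a b => by
            simp only [fP_add_left, add_smul]
            abel
          map_smul' := fun c a => by
            simp only [fP_smul_left, RingHom.id_apply, smul_add, smul_smul] }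
      have hT : ∀ v, T v = v + fP v w • w := fun _ => rfl
      have hinv : Function.Involutive T := by
        intro v
        rw [hT, hT, fP_add_left, fP_smul_left, fP_self, mul_zero, add_zero, add_assoc, ← add_smul]
        have : fP v w + fP v w = 0 := CharTwo.add_self_eq_zero _
        rw [this, zero_smul, add_zero]
      refine ⟨LinearEquiv.ofInvolutive T hinv, ?_⟩
      intro v
      change _ = q (T v)
      rw [hT]
      rcases zmod2_cases (fP v w) with h0 | h1
      · rw [h0, zero_smul, add_zero, add_zero]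
      · rw [h1, one_smul, hq', hw, h1]
        ring

end Cfsg.Agent.S2564
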