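import Mathlib
import Cfsg.Statements.S2561
import Cfsg.Agent.Lib.H11.Std
import Cfsg.Agent.Lib.H11.F2
import Cfsg.Agent.S2617
import Cfsg.Agent.S2564

set_option autoImplicit false
open Cfsg

namespace Cfsg.Agent.S2561

open Cfsg.Agent.H11 Module QuadraticMap

variable {m : ℕ}

lemma exists_form {q : V2 m → ZMod 2} (hq : PolF q) :
    ∃ Q : QuadraticForm (ZMod 2) (V2 m), (∀ v, Q v = q v) ∧ (polarBilin Q).Nondegenerate := by
  let B : LinearMap.BilinForm (ZMod 2) (V2 m) :=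
    LinearMap.mk₂ (ZMod 2) fP fP_add_left (fun c u v => by simpa using Cfsg.Agent.S2564.fP_smul_left c u v)
      fP_add_right (fun c u v => by simpa using Cfsg.Agent.S2564.fP_smul_right c u v)
  let Q : QuadraticForm (ZMod 2) (V2 m) :=
    { toFun := q
      toFun_smul := fun a x => by
        rcases Cfsg.Agent.S2564.zmod2_cases a with rfl | rfl
        · simp [hq.map_zero]
        · simp
      exists_companion' := ⟨B, fun x y => hq x y⟩ }
  refine ⟨Q, fun _ => rfl, ?_⟩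
  apply nondeg_of_left
  intro x hx
  by_contra hne
  obtain ⟨v, hv⟩ := fP_nondeg hne
  have h1 : polar Q x v = fP x v := by
    have := hq x v
    simp only [polar]
    change q (x + v) - q x - q v = _
    rw [this]
    ring
  have h2 := hx v
  rw [h1, fP_comm, hv] at h2
  exact one_ne_zero h2

lemma zmod2_no_root (ζ : ZMod 2) (h : ∀ t : ZMod 2, t ^ 2 + t + ζ ≠ 0) : ζ = 1 := by
  revert ζ
  decide

/-- a vector representing a linear functional -/
lemma exists_rep_fP (l : V2 m → ZMod 2) (hl : ∀ a b, l (a + b) = l a + l b) : ∃ w, ∀ v, l v = fP v w := by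
  classical
  let L : V2 m →ₗ[ZMod 2] ZMod 2 := (AddMonoidHom.mk' l hl).toZModLinearMap 2
  have hL : ∀ v, L v = l v := fun _ => rfl
  refine ⟨Sum.elim (fun i => l (Pi.single (Sum.inr i) 1)) (fun i => l (Pi.single (Sum.inl i) 1)), fun v => ?_⟩
  rw [← hL, LinearMap.pi_apply_eq_sum_univ L v, Fintype.sum_sum_type, ← Finset.sum_add_distrib]
  simp only [fP]
  apply Finset.sum_congr rfl
  intro i _
  simp only [Sum.elim_inl, Sum.elim_inr, smul_eq_mul]
  have h1 : (fun j : Fin m ⊕ Fin m => if Sum.inl i = j then (1 : ZMod 2) else 0) = Pi.single (Sum.inl i) 1 := by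
    ext j; simp [Pi.single_apply, eq_comm]
  have h2 : (fun j : Fin m ⊕ Fin m => if Sum.inr i = j then (1 : ZMod 2) else 0) = Pi.single (Sum.inr i) 1 := by
    ext j; simp [Pi.single_apply, eq_comm]
  rw [h1, h2, hL, hL]
  ring

lemma polF_plus : PolF (Cfsg.quadFormPlus m (ZMod 2)) := by
  intro u v
  rw [← fP_spec]
  ring

lemma polF_plus_add (w : V2 m) : PolF (fun v => Cfsg.quadFormPlus m (ZMod 2) v + fP v w) := by
  intro u v
  simp only
  rw [polF_plus u v, fP_add_left]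
  ring

/-- the parametrisation of the set of forms -/
lemma exists_param {q : V2 m → ZMod 2} (hq : PolF q) : ∃ w, q = fun v => Cfsg.quadFormPlus m (ZMod 2) v + fP v w := by
  obtain ⟨w, hw⟩ := exists_rep_fP (fun v => q v - Cfsg.quadFormPlus m (ZMod 2) v) (by
    intro a b
    rw [hq, polF_plus a b]
    ring)
  refine ⟨w, ?_⟩
  funext v
  rw [← hw]
  ring

lemma param_injective {w w' : V2 m} (h : (fun v => Cfsg.quadFormPlus m (ZMod 2) v + fP v w) = fun v => Cfsg.quadFormPlus m (ZMod 2) v + fP v w') : w = w' := by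
  by_contra hne
  have hne' : w + w' ≠ 0 := by
    intro h0
    apply hne
    have : w = -w' := eq_neg_of_add_eq_zero_left h0
    rw [this]
    funext i
    exact CharTwo.neg_eq _
  obtain ⟨v, hv⟩ := fP_nondeg hne'
  have h1 : Cfsg.quadFormPlus m (ZMod 2) v + fP v w = Cfsg.quadFormPlus m (ZMod 2) v + fP v w' := congrFun h v
  rw [fP_add_right] at hv
  have h2 : fP v w = fP v w' := add_left_cancel h1
  rw [h2] at hv
  rw [CharTwo.add_self_eq_zero] at hv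
  exact zero_ne_one hv

/-- the value of the Gauss sum of the plus form -/
lemma gaussS_plus : gaussS (Cfsg.quadFormPlus m (ZMod 2)) = 2 ^ m := by
  classical
  have h1 : gaussS (Cfsg.quadFormPlus m (ZMod 2)) =
      ∑ x : Fin m → ZMod 2, ∑ y : Fin m → ZMod 2, chi (∑ i, x i * y i) := by
    rw [← Fintype.sum_prod_type', gaussS]
    apply Fintype.sum_equiv (Equiv.sumArrowEquivProdArrow (Fin m) (Fin m) (ZMod 2))
    intro v
    simp [Cfsg.quadFormPlus, Equiv.sumArrowEquivProdArrow]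
  rw [h1, Finset.sum_eq_single (0 : Fin m → ZMod 2)]
  · simp [chi_zero]
  · intro x _ hx
    obtain ⟨j, hj⟩ : ∃ j, x j ≠ 0 := by
      by_contra hcon
      push Not at hcon
      exact hx (funext hcon)
    have hj1 : x j = 1 := (Cfsg.Agent.S2564.zmod2_cases _).resolve_left hj
    apply sum_chi_eq_zero (fun y : Fin m → ZMod 2 => ∑ i, x i * y i) _ (Pi.single j 1)
    · rw [Finset.sum_eq_single j]
      · simp [hj1]
      · intro i _ hi
        simp [Pi.single_apply, hi]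
      · simp
    · intro a b
      simp only [Pi.add_apply, mul_add, Finset.sum_add_distrib]
  · simp

/-- number of zeros of the plus form -/
lemma card_zeros_plus (hm : 1 ≤ m) : Nat.card {w : V2 m // Cfsg.quadFormPlus m (ZMod 2) w = 0} = 2 ^ (2 * m - 1) + 2 ^ (m - 1) := by
  classical
  have h1 := gaussS_plus (m := m)
  let Z := Fintype.card {w : V2 m // Cfsg.quadFormPlus m (ZMod 2) w = 0}
  have h2 : gaussS (Cfsg.quadFormPlus m (ZMod 2)) = 2 * (Z : ℤ) - 4 ^ m := by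
    have h3 : ∀ x : ZMod 2, chi x = 2 * (if x = 0 then 1 else 0) - 1 := by decide
    simp only [gaussS, h3]
    rw [Finset.sum_sub_distrib, ← Finset.mul_sum, Finset.sum_boole]
    have hZ : Z = (Finset.univ.filter (fun w : V2 m => Cfsg.quadFormPlus m (ZMod 2) w = 0)).card := Fintype.card_subtype _
    rw [← hZ]
    simp only [Finset.sum_const, Finset.card_univ, Fintype.card_pi, Fintype.card_sum, Fintype.card_fin, ZMod.card,
      Finset.prod_const, nsmul_eq_mul, mul_one]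
    push_cast
    congr 1
    rw [pow_add, ← mul_pow]
    norm_num
  rw [Nat.card_eq_fintype_card]
  change Z = _
  obtain ⟨k, rfl⟩ : ∃ k, m = k + 1 := ⟨m - 1, by omega⟩
  have h4 : (4 : ℤ) ^ (k + 1) = 2 * 2 ^ (2 * k + 1) := by
    have : (4 : ℤ) ^ (k + 1) = 2 ^ (2 * (k + 1)) := by
      rw [pow_mul]
      norm_num
    rw [this]
    ring
  have h5 : (2 : ℤ) ^ (k + 1) = 2 * 2 ^ k := by ring
  rw [h1, h4, h5] at h2
  have h6 : (Z : ℤ) = 2 ^ (2 * k + 1) + 2 ^ k := by linarith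
  have h7 : 2 * (k + 1) - 1 = 2 * k + 1 := by omega
  rw [h7, Nat.add_sub_cancel]
  exact_mod_cast h6

theorem result (m : ℕ) (hm : 1 ≤ m) :
    Nat.card {q : (Fin m ⊕ Fin m → ZMod 2) → ZMod 2 // (∀ u v : (Fin m ⊕ Fin m → ZMod 2), q (u + v) = q u + q v + (Cfsg.quadFormPlus m (ZMod 2) (u + v) - Cfsg.quadFormPlus m (ZMod 2) u - Cfsg.quadFormPlus m (ZMod 2) v))} = 2 ^ (2 * m) ∧
    (∀ q : (Fin m ⊕ Fin m → ZMod 2) → ZMod 2, (∀ u v : (Fin m ⊕ Fin m → ZMod 2), q (u + v) = q u + q v + (Cfsg.quadFormPlus m (ZMod 2) (u + v) - Cfsg.quadFormPlus m (ZMod 2) u - Cfsg.quadFormPlus m (ZMod 2) v)) →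
      (∃ g : (Fin m ⊕ Fin m → ZMod 2) ≃ₗ[ZMod 2] (Fin m ⊕ Fin m → ZMod 2), ∀ v, q v = Cfsg.quadFormPlus m (ZMod 2) (g v)) ∨
      (∃ g : (Fin m ⊕ Fin m → ZMod 2) ≃ₗ[ZMod 2] ((Fin (m - 1) ⊕ Fin (m - 1)) ⊕ Fin 2 → ZMod 2), ∀ v, q v = Cfsg.quadFormMinus (m - 1) (ZMod 2) 1 1 (g v))) ∧
    Nat.card {q : (Fin m ⊕ Fin m → ZMod 2) → ZMod 2 // (∀ u v : (Fin m ⊕ Fin m → ZMod 2), q (u + v) = q u + q v + (Cfsg.quadFormPlus m (ZMod 2) (u + v) - Cfsg.quadFormPlus m (ZMod 2) u - Cfsg.quadFormPlus m (ZMod 2) v)) ∧ ∃ g : (Fin m ⊕ Fin m → ZMod 2) ≃ₗ[ZMod 2] (Fin m ⊕ Fin m → ZMod 2), ∀ v, q v = Cfsg.quadFormPlus m (ZMod 2) (g v)} = 2 ^ (2 * m - 1) + 2 ^ (m - 1) ∧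
    Nat.card {q : (Fin m ⊕ Fin m → ZMod 2) → ZMod 2 // (∀ u v : (Fin m ⊕ Fin m → ZMod 2), q (u + v) = q u + q v + (Cfsg.quadFormPlus m (ZMod 2) (u + v) - Cfsg.quadFormPlus m (ZMod 2) u - Cfsg.quadFormPlus m (ZMod 2) v)) ∧ ∃ g : (Fin m ⊕ Fin m → ZMod 2) ≃ₗ[ZMod 2] ((Fin (m - 1) ⊕ Fin (m - 1)) ⊕ Fin 2 → ZMod 2), ∀ v, q v = Cfsg.quadFormMinus (m - 1) (ZMod 2) 1 1 (g v)} = 2 ^ (2 * m - 1) - 2 ^ (m - 1) := by
  classical
  simp only [polF_iff]
  -- the classification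
  have hclass : ∀ q : V2 m → ZMod 2, PolF q →
      (∃ g : V2 m ≃ₗ[ZMod 2] V2 m, ∀ v, q v = Cfsg.quadFormPlus m (ZMod 2) (g v)) ∨
      (∃ g : V2 m ≃ₗ[ZMod 2] ((Fin (m - 1) ⊕ Fin (m - 1)) ⊕ Fin 2 → ZMod 2), ∀ v, q v = Cfsg.quadFormMinus (m - 1) (ZMod 2) 1 1 (g v)) := by
    intro q hq
    obtain ⟨Q, hQ, hnd⟩ := exists_form hq
    have hV : finrank (ZMod 2) (V2 m) = 2 * m := by
      rw [finrank_fintype_fun_eq_card]
      simp [two_mul]
    rcases exists_isometry_standard hm hV Q hnd with ⟨g, hg⟩ | ⟨g, ζ, hζ, hg⟩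
    · left
      exact ⟨g, fun v => by rw [← hQ, hg]⟩
    · right
      have := zmod2_no_root ζ hζ
      subst this
      exact ⟨g, fun v => by rw [← hQ, hg]⟩
  -- card of all forms
  have hall : Nat.card {q : V2 m → ZMod 2 // PolF q} = 2 ^ (2 * m) := by
    let Φ : V2 m → {q : V2 m → ZMod 2 // PolF q} := fun w => ⟨_, polF_plus_add w⟩
    have hΦ : Function.Bijective Φ := by
      constructor
      · intro a b hab
        exact param_injective (congrArg Subtype.val hab)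
      · rintro ⟨q, hq⟩
        obtain ⟨w, rfl⟩ := exists_param hq
        exact ⟨w, rfl⟩
    rw [← Nat.card_congr (Equiv.ofBijective Φ hΦ), Nat.card_eq_fintype_card]
    simp [two_mul, pow_add]
  -- card of the plus forms
  have hplus : Nat.card {q : V2 m → ZMod 2 // PolF q ∧ ∃ g : V2 m ≃ₗ[ZMod 2] V2 m, ∀ v, q v = Cfsg.quadFormPlus m (ZMod 2) (g v)} = 2 ^ (2 * m - 1) + 2 ^ (m - 1) := by
    have hS := fun w => (Cfsg.Agent.S2564.result m hm (Cfsg.quadFormPlus m (ZMod 2)) ((polF_iff _).2 polF_plus) w).2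
    simp only [fP_spec] at hS
    let Φ : {w : V2 m // Cfsg.quadFormPlus m (ZMod 2) w = 0} → {q : V2 m → ZMod 2 // PolF q ∧ ∃ g : V2 m ≃ₗ[ZMod 2] V2 m, ∀ v, q v = Cfsg.quadFormPlus m (ZMod 2) (g v)} :=
      fun w => ⟨fun v => Cfsg.quadFormPlus m (ZMod 2) v + fP v w.1, polF_plus_add w.1, (hS w.1).2 w.2⟩
    have hΦ : Function.Bijective Φ := by
      constructor
      · intro a b hab
        apply Subtype.ext
        exact param_injective (congrArg Subtype.val hab)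
      · rintro ⟨q, hq, hg⟩
        obtain ⟨w, rfl⟩ := exists_param hq
        exact ⟨⟨w, (hS w).1 hg⟩, rfl⟩
    rw [← Nat.card_congr (Equiv.ofBijective Φ hΦ), card_zeros_plus hm]
  -- disjointness
  have hdisj : ∀ q : V2 m → ZMod 2, (∃ g : V2 m ≃ₗ[ZMod 2] V2 m, ∀ v, q v = Cfsg.quadFormPlus m (ZMod 2) (g v)) →
      (∃ g : V2 m ≃ₗ[ZMod 2] ((Fin (m - 1) ⊕ Fin (m - 1)) ⊕ Fin 2 → ZMod 2), ∀ v, q v = Cfsg.quadFormMinus (m - 1) (ZMod 2) 1 1 (g v)) → False := by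
    rintro q ⟨g₁, hg₁⟩ ⟨g₂, hg₂⟩
    apply Cfsg.Agent.S2617.result hm (1 : ZMod 2) (by decide) (g₁.symm.trans g₂)
    intro v
    have h1 := hg₁ (g₁.symm v)
    have h2 := hg₂ (g₁.symm v)
    rw [LinearEquiv.apply_symm_apply] at h1
    rw [← h1, h2]
    rfl
  refine ⟨hall, hclass, hplus, ?_⟩
  -- the complement
  have hsum : Nat.card {q : V2 m → ZMod 2 // PolF q ∧ ∃ g : V2 m ≃ₗ[ZMod 2] V2 m, ∀ v, q v = Cfsg.quadFormPlus m (ZMod 2) (g v)} +
      Nat.card {q : V2 m → ZMod 2 // PolF q ∧ ∃ g : V2 m ≃ₗ[ZMod 2] ((Fin (m - 1) ⊕ Fin (m - 1)) ⊕ Fin 2 → ZMod 2), ∀ v, q v = Cfsg.quadFormMinus (m - 1) (ZMod 2) 1 1 (g v)} =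
      Nat.card {q : V2 m → ZMod 2 // PolF q} := by
    rw [← Nat.card_sum]
    let Φ : {q : V2 m → ZMod 2 // PolF q ∧ ∃ g : V2 m ≃ₗ[ZMod 2] V2 m, ∀ v, q v = Cfsg.quadFormPlus m (ZMod 2) (g v)} ⊕
        {q : V2 m → ZMod 2 // PolF q ∧ ∃ g : V2 m ≃ₗ[ZMod 2] ((Fin (m - 1) ⊕ Fin (m - 1)) ⊕ Fin 2 → ZMod 2), ∀ v, q v = Cfsg.quadFormMinus (m - 1) (ZMod 2) 1 1 (g v)} →
        {q : V2 m → ZMod 2 // PolF q} := Sum.elim (fun x => ⟨x.1, x.2.1⟩) (fun x => ⟨x.1, x.2.1⟩)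
    apply Nat.card_congr (Equiv.ofBijective Φ ?_)
    constructor
    · rintro (⟨a, ha⟩ | ⟨a, ha⟩) (⟨b, hb⟩ | ⟨b, hb⟩) hab
      · have : a = b := congrArg Subtype.val hab
        subst this
        rfl
      · have : a = b := congrArg Subtype.val hab
        subst this
        exact (hdisj a ha.2 hb.2).elim
      · have : a = b := congrArg Subtype.val hab
        subst this
        exact (hdisj a hb.2 ha.2).elim
      · have : a = b := congrArg Subtype.val hab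
        subst this
        rfl
    · rintro ⟨q, hq⟩
      rcases hclass q hq with h | h
      · exact ⟨Sum.inl ⟨q, hq, h⟩, rfl⟩
      · exact ⟨Sum.inr ⟨q, hq, h⟩, rfl⟩
  rw [hplus, hall] at hsum
  have h2 : 2 ^ (2 * m) = 2 ^ (2 * m - 1) + 2 ^ (2 * m - 1) := by
    obtain ⟨k, rfl⟩ : ∃ k, m = k + 1 := ⟨m - 1, by omega⟩
    have : 2 * (k + 1) - 1 = 2 * k + 1 := by omega
    rw [this]
    ring
  rw [h2] at hsum
  change Nat.card {q : V2 m → ZMod 2 // PolF q ∧ ∃ g : V2 m ≃ₗ[ZMod 2] ((Fin (m - 1) ⊕ Fin (m - 1)) ⊕ Fin 2 → ZMod 2), ∀ v, q v = Cfsg.quadFormMinus (m - 1) (ZMod 2) 1 1 (g v)} = _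
  generalize 2 ^ (2 * m - 1) = A at hsum ⊢
  generalize 2 ^ (m - 1) = B at hsum ⊢
  omega

end Cfsg.Agent.S2561
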