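import Cfsg.Statements.S1683
import Cfsg.Agent.Lib.H16.CE.S1683.C0
import Cfsg.Agent.Lib.H16.CE.S1683.R1
import Cfsg.Agent.Lib.H16.CE.S1683.O2

set_option autoImplicit false
open Cfsg

namespace Cfsg.Agent.S1683

open Cfsg.Agent.H16.CosetEnum Cfsg.Agent.H16.CE.S1683

def code (x : Cfsg.Spor.He.Gen × Bool) : ℕ :=
  match x.1 with
  | .a => 0
  | .b => 1
  | .c => 2
  | .d => 3
  | .e => 4
  | .f => 5
  | .g => 6


def gs (a : ℕ) : Cfsg.Spor.He.Gen × Bool :=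
  match a with
  | 0 => (.a, true)
  | 1 => (.b, true)
  | 2 => (.c, true)
  | 3 => (.d, true)
  | 4 => (.e, true)
  | 5 => (.f, true)
  | 6 => (.g, true)
  | _ => (.a, true)

abbrev R : Set (FreeGroup Cfsg.Spor.He.Gen) := Cfsg.Spor.coxRelators Cfsg.Spor.He.edges ∪ {r | r ∈ Cfsg.Spor.He.extra}
abbrev S : Set (FreeGroup Cfsg.Spor.He.Gen) := {Cfsg.Spor.He.a, Cfsg.Spor.He.c, Cfsg.Spor.He.d, Cfsg.Spor.He.e, Cfsg.Spor.He.f, (Cfsg.Spor.He.a * Cfsg.Spor.He.b) ^ 2, (Cfsg.Spor.He.b * Cfsg.Spor.He.c * Cfsg.Spor.He.d * Cfsg.Spor.He.e) ^ 7}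
def SL : List (FreeGroup Cfsg.Spor.He.Gen) := [Cfsg.Spor.He.a, Cfsg.Spor.He.c, Cfsg.Spor.He.d, Cfsg.Spor.He.e, Cfsg.Spor.He.f, (Cfsg.Spor.He.a * Cfsg.Spor.He.b) ^ 2, (Cfsg.Spor.He.b * Cfsg.Spor.He.c * Cfsg.Spor.He.d * Cfsg.Spor.He.e) ^ 7]
noncomputable def dd : D := ⟨F, PL, iv, 7, rlT, hwT⟩

theorem hW1 : ((coxList Cfsg.Spor.He.edges Cfsg.Spor.He.extra).map (letters code)).all (fun w => decide (w ∈ WL0)) = true := by decide +kernel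
theorem hW2 : WL0.all (fun w => decide (w ∈ (coxList Cfsg.Spor.He.edges Cfsg.Spor.He.extra).map (letters code))) = true := by decide +kernel
theorem hder : ∀ W ∈ rlT.words, derivedOK iv WL0 W = true := by decide +kernel
theorem hhw : hwL = SL.map (letters code) := by decide +kernel
theorem hsub : ∀ W ∈ WL0, W ∈ WLc := by decide +kernel
theorem hivw : ∀ a < 7, [a, iv a] ∈ WLc := by decide +kernel

theorem base : Base R S gs code 7 dd SL WL0 :=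
  base_of (by rintro ⟨g, b⟩; cases g <;> cases b <;> decide) (by decide) rfl
    (by rintro ⟨g, b⟩; cases g <;> cases b <;> rfl) (fun _ h => h)
    (by intro s; simp [S, SL]) hW1 hW2 hder (hwT_words.trans hhw)

theorem facts : ∀ m < 20948, FactTrue (subH R S) (lt R gs 7) dd m := by
  have h0 := (fact_start (R := R) (S := S) (gs := gs) (k := 7) (d := dd))
  have h1 : ∀ m < 20948, FactTrue (subH R S) (lt R gs 7) dd m := base.extend h0 hc0 ht0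
  exact h1
theorem cosets : ∀ i < 2058, allAt LL i = true := by
  have h0 := range_start (P := allAt LL)
  have h1 : ∀ i < 1529, allAt LL i = true := range_step h0 hr0 rfl
  have h2 : ∀ i < 2058, allAt LL i = true := range_step h1 hr1 rfl
  exact h2

instance instNZ : NeZero 2058 := ⟨by norm_num⟩

theorem hfix' : ∀ W ∈ dd.hw.words, Cfsg.Agent.H16.Enum.walk tt 0 W = 0 := by
  intro W hW
  have e : dd.hw.words = hwL := hwT_words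
  rw [e] at hW
  exact hfix W hW

theorem main : ∃ act : PresentedGroup R →* (Equiv.Perm (Fin 2058))ᵐᵒᵖ,
      TableOK (subH R S) (lt R gs 7) tt 7 2058 (fun i => rep (lt R gs 7) dd (AA i)) act tp ta ∧
      ∀ (r : FreeGroup Cfsg.Spor.He.Gen) (i : Fin 2058), (ract act (PresentedGroup.mk R r) i : ℕ) = Cfsg.Agent.H16.Enum.walk tt i (letters code r) :=
  base.tableOK (M := 20948) facts (EF := EF) (A := AA) (L := LL) (WLc := WLc) hL cosets hsub hivw hA0 hfix'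


/-- In the presented Held group, let H be the subgroup generated by the images of a, c, d, e, f, (ab)^2 and (bcde)^7. Then H has index 2058, there are four distinct H-orbits on the cosets of H other than H itself, of sizes 136, 136, 425 and 1360. -/
theorem result : (((Subgroup.closure ({Cfsg.Spor.He.a, Cfsg.Spor.He.c, Cfsg.Spor.He.d, Cfsg.Spor.He.e, Cfsg.Spor.He.f, (Cfsg.Spor.He.a * Cfsg.Spor.He.b) ^ 2, (Cfsg.Spor.He.b * Cfsg.Spor.He.c * Cfsg.Spor.He.d * Cfsg.Spor.He.e) ^ 7} : Set (FreeGroup Cfsg.Spor.He.Gen))).map (PresentedGroup.mk (Cfsg.Spor.coxRelators Cfsg.Spor.He.edges ∪ {r | r ∈ Cfsg.Spor.He.extra})))).index = 2058 ∧ ∃ q₁ q₂ q₃ q₄ : Cfsg.Spor.He ⧸ (((Subgroup.closure ({Cfsg.Spor.He.a, Cfsg.Spor.He.c, Cfsg.Spor.He.d, Cfsg.Spor.He.e, Cfsg.Spor.He.f, (Cfsg.Spor.He.a * Cfsg.Spor.He.b) ^ 2, (Cfsg.Spor.He.b * Cfsg.Spor.He.c * Cfsg.Spor.He.d * Cfsg.Spor.He.e)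 ^ 7} : Set (FreeGroup Cfsg.Spor.He.Gen))).map (PresentedGroup.mk (Cfsg.Spor.coxRelators Cfsg.Spor.He.edges ∪ {r | r ∈ Cfsg.Spor.He.extra})))), MulAction.orbit (((Subgroup.closure ({Cfsg.Spor.He.a, Cfsg.Spor.He.c, Cfsg.Spor.He.d, Cfsg.Spor.He.e, Cfsg.Spor.He.f, (Cfsg.Spor.He.a * Cfsg.Spor.He.b) ^ 2, (Cfsg.Spor.He.b * Cfsg.Spor.He.c * Cfsg.Spor.He.d * Cfsg.Spor.He.e) ^ 7} : Set (FreeGroup Cfsg.Spor.He.Gen))).map (PresentedGroup.mk (Cfsg.Spor.coxRelators Cfsg.Spor.He.edges ∪ {r | r ∈ Cfsg.Spor.He.extra})))) q₁ ≠ MulAction.orbit (((Subgroup.closure ({Cfsg.Spor.He.a, Cfsg.Spor.He.c, Cfsg.Spor.He.d, Cfsg.Spor.He.e, Cfsg.Spor.He.f, (Cfsg.Spor.He.a * Cfsg.Spor.He.b) ^ 2, (Cfsg.Spor.He.b * Cfsg.Spor.He.c * Cfsg.Spor.He.d * Cfsg.Spor.He.e) ^ 7} : Set (FreeGroup Cfsg.Spor.He.Gen))).map (PresentedGroup.mk (Cfsg.Spor.coxRelators Cfsg.Spor.He.edges ∪ {r | r ∈ Cfsg.Spor.He.extra}))))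 q₂ ∧ (MulAction.orbit (((Subgroup.closure ({Cfsg.Spor.He.a, Cfsg.Spor.He.c, Cfsg.Spor.He.d, Cfsg.Spor.He.e, Cfsg.Spor.He.f, (Cfsg.Spor.He.a * Cfsg.Spor.He.b) ^ 2, (Cfsg.Spor.He.b * Cfsg.Spor.He.c * Cfsg.Spor.He.d * Cfsg.Spor.He.e) ^ 7} : Set (FreeGroup Cfsg.Spor.He.Gen))).map (PresentedGroup.mk (Cfsg.Spor.coxRelators Cfsg.Spor.He.edges ∪ {r | r ∈ Cfsg.Spor.He.extra})))) q₁).ncard = 136 ∧ (MulAction.orbit (((Subgroup.closure ({Cfsg.Spor.He.a, Cfsg.Spor.He.c, Cfsg.Spor.He.d, Cfsg.Spor.He.e, Cfsg.Spor.He.f, (Cfsg.Spor.He.a * Cfsg.Spor.He.b) ^ 2, (Cfsg.Spor.He.b * Cfsg.Spor.He.c * Cfsg.Spor.He.d * Cfsg.Spor.He.e) ^ 7} : Set (FreeGroup Cfsg.Spor.He.Gen))).map (PresentedGroup.mk (Cfsg.Spor.coxRelators Cfsg.Spor.He.edges ∪ {r | r ∈ Cfsg.Spor.He.extra})))) q₂).ncard = 136 ∧ (MulAction.orbit (((Subgroup.closure ({Cfsg.Spor.He.a, Cfsg.Spor.He.c, Cfsg.Spor.He.d,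 Cfsg.Spor.He.e, Cfsg.Spor.He.f, (Cfsg.Spor.He.a * Cfsg.Spor.He.b) ^ 2, (Cfsg.Spor.He.b * Cfsg.Spor.He.c * Cfsg.Spor.He.d * Cfsg.Spor.He.e) ^ 7} : Set (FreeGroup Cfsg.Spor.He.Gen))).map (PresentedGroup.mk (Cfsg.Spor.coxRelators Cfsg.Spor.He.edges ∪ {r | r ∈ Cfsg.Spor.He.extra})))) q₃).ncard = 425 ∧ (MulAction.orbit (((Subgroup.closure ({Cfsg.Spor.He.a, Cfsg.Spor.He.c, Cfsg.Spor.He.d, Cfsg.Spor.He.e, Cfsg.Spor.He.f, (Cfsg.Spor.He.a * Cfsg.Spor.He.b) ^ 2, (Cfsg.Spor.He.b * Cfsg.Spor.He.c * Cfsg.Spor.He.d * Cfsg.Spor.He.e) ^ 7} : Set (FreeGroup Cfsg.Spor.He.Gen))).map (PresentedGroup.mk (Cfsg.Spor.coxRelators Cfsg.Spor.He.edges ∪ {r | r ∈ Cfsg.Spor.He.extra})))) q₄).ncard = 1360 := by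
  obtain ⟨act, T, hact⟩ := main
  refine ⟨T.index, ?_⟩
  have hS : ∀ s, s ∈ S ↔ s ∈ SL := by intro s; simp [S, SL]
  have o1 := T.orbit_card hact hS hhw (j := 46) (by norm_num) hb0 hc0' hm0
  have o2 := T.orbit_card hact hS hhw (j := 65) (by norm_num) hb1 hc1' hm1
  have o3 := T.orbit_card hact hS hhw (j := 2) (by norm_num) hb2 hc2' hm2
  have o4 := T.orbit_card hact hS hhw (j := 1) (by norm_num) hb3 hc3' hm3
  refine ⟨lc _ _ 46, lc _ _ 65, lc _ _ 2, lc _ _ 1, ?_, o1.2, o2.2, o3.2, o4.2⟩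
  intro h
  have h1 : lc (subH R S) (fun i => rep (lt R gs 7) dd (AA i)) 46 ∈ MulAction.orbit (subH R S) (lc (subH R S) (fun i => rep (lt R gs 7) dd (AA i)) 65) := by
    rw [← h]; exact MulAction.mem_orbit_self _
  rw [o2.1] at h1
  obtain ⟨i, ⟨hi, hV⟩, he⟩ := h1
  have h2 := T.rel_inj hi (by norm_num) (lc_eq_iff.1 he)
  subst h2
  exact absurd hV (by decide +kernel)

end Cfsg.Agent.S1683
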