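import Cfsg.Statements.S1687
import Cfsg.Agent.Lib.H16.CE.S1687.C0
import Cfsg.Agent.Lib.H16.CE.S1687.R1
import Cfsg.Agent.Lib.H16.CE.S1687.O2

set_option autoImplicit false
open Cfsg

namespace Cfsg.Agent.S1687

open Cfsg.Agent.H16.CosetEnum Cfsg.Agent.H16.CE.S1687

def code (x : Cfsg.Spor.Fi22.Gen × Bool) : ℕ :=
  match x.1 with
  | .a => 0
  | .b => 1
  | .c => 2
  | .d => 3
  | .e => 4
  | .f => 5
  | .g => 6
  | .h => 7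
  | .i => 8


def gs (a : ℕ) : Cfsg.Spor.Fi22.Gen × Bool :=
  match a with
  | 0 => (.a, true)
  | 1 => (.b, true)
  | 2 => (.c, true)
  | 3 => (.d, true)
  | 4 => (.e, true)
  | 5 => (.f, true)
  | 6 => (.g, true)
  | 7 => (.h, true)
  | 8 => (.i, true)
  | _ => (.a, true)

abbrev R : Set (FreeGroup Cfsg.Spor.Fi22.Gen) := Cfsg.Spor.coxRelators Cfsg.Spor.Fi22.edges ∪ {r | r ∈ Cfsg.Spor.Fi22.extra}
abbrev S : Set (FreeGroup Cfsg.Spor.Fi22.Gen) := {Cfsg.Spor.Fi22.a, Cfsg.Spor.Fi22.c, Cfsg.Spor.Fi22.d, Cfsg.Spor.Fi22.e, Cfsg.Spor.Fi22.f, Cfsg.Spor.Fi22.g, Cfsg.Spor.Fi22.h, Cfsg.Spor.Fi22.i, (Cfsg.Spor.Fi22.a * Cfsg.Spor.Fi22.b * Cfsg.Spor.Fi22.c * Cfsg.Spor.Fi22.d * Cfsg.Spor.Fi22.e * Cfsg.Spor.Fi22.h) ^ 5}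
def SL : List (FreeGroup Cfsg.Spor.Fi22.Gen) := [Cfsg.Spor.Fi22.a, Cfsg.Spor.Fi22.c, Cfsg.Spor.Fi22.d, Cfsg.Spor.Fi22.e, Cfsg.Spor.Fi22.f, Cfsg.Spor.Fi22.g, Cfsg.Spor.Fi22.h, Cfsg.Spor.Fi22.i, (Cfsg.Spor.Fi22.a * Cfsg.Spor.Fi22.b * Cfsg.Spor.Fi22.c * Cfsg.Spor.Fi22.d * Cfsg.Spor.Fi22.e * Cfsg.Spor.Fi22.h) ^ 5]
noncomputable def dd : D := ⟨F, PL, iv, 9, rlT, hwT⟩

theorem hW1 : ((coxList Cfsg.Spor.Fi22.edges Cfsg.Spor.Fi22.extra).map (letters code)).all (fun w => decide (w ∈ WL0)) = true := by decide +kernel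
theorem hW2 : WL0.all (fun w => decide (w ∈ (coxList Cfsg.Spor.Fi22.edges Cfsg.Spor.Fi22.extra).map (letters code))) = true := by decide +kernel
theorem hder : ∀ W ∈ rlT.words, derivedOK iv WL0 W = true := by decide +kernel
theorem hhw : hwL = SL.map (letters code) := by decide +kernel
theorem hsub : ∀ W ∈ WL0, W ∈ WLc := by decide +kernel
theorem hivw : ∀ a < 9, [a, iv a] ∈ WLc := by decide +kernel

theorem base : Base R S gs code 9 dd SL WL0 :=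
  base_of (by rintro ⟨g, b⟩; cases g <;> cases b <;> decide) (by decide) rfl
    (by rintro ⟨g, b⟩; cases g <;> cases b <;> rfl) (fun _ h => h)
    (by intro s; simp [S, SL]) hW1 hW2 hder (hwT_words.trans hhw)

theorem facts : ∀ m < 19008, FactTrue (subH R S) (lt R gs 9) dd m := by
  have h0 := (fact_start (R := R) (S := S) (gs := gs) (k := 9) (d := dd))
  have h1 : ∀ m < 19008, FactTrue (subH R S) (lt R gs 9) dd m := base.extend h0 hc0 ht0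
  exact h1
theorem cosets : ∀ i < 3510, allAt LL i = true := by
  have h0 := range_start (P := allAt LL)
  have h1 : ∀ i < 829, allAt LL i = true := range_step h0 hr0 rfl
  have h2 : ∀ i < 1658, allAt LL i = true := range_step h1 hr1 rfl
  have h3 : ∀ i < 2487, allAt LL i = true := range_step h2 hr2 rfl
  have h4 : ∀ i < 3316, allAt LL i = true := range_step h3 hr3 rfl
  have h5 : ∀ i < 3510, allAt LL i = true := range_step h4 hr4 rfl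
  exact h5

instance instNZ : NeZero 3510 := ⟨by norm_num⟩

theorem hfix' : ∀ W ∈ dd.hw.words, Cfsg.Agent.H16.Enum.walk tt 0 W = 0 := by
  intro W hW
  have e : dd.hw.words = hwL := hwT_words
  rw [e] at hW
  exact hfix W hW

theorem main : ∃ act : PresentedGroup R →* (Equiv.Perm (Fin 3510))ᵐᵒᵖ,
      TableOK (subH R S) (lt R gs 9) tt 9 3510 (fun i => rep (lt R gs 9) dd (AA i)) act tp ta ∧
      ∀ (r : FreeGroup Cfsg.Spor.Fi22.Gen) (i : Fin 3510), (ract act (PresentedGroup.mk R r) i : ℕ) = Cfsg.Agent.H16.Enum.walk tt i (letters code r) :=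
  base.tableOK (M := 19008) facts (EF := EF) (A := AA) (L := LL) (WLc := WLc) hL cosets hsub hivw hA0 hfix'


/-- In the presented Fischer group Fi₂₂, let H be the subgroup generated by the images of a, c, d, e, f, g, h, i and (abcdeh)^5. Then H has index 3510, H has orbits of sizes 693 and 2816 on the cosets of H other than H itself. -/
theorem result : (((Subgroup.closure ({Cfsg.Spor.Fi22.a, Cfsg.Spor.Fi22.c, Cfsg.Spor.Fi22.d, Cfsg.Spor.Fi22.e, Cfsg.Spor.Fi22.f, Cfsg.Spor.Fi22.g, Cfsg.Spor.Fi22.h, Cfsg.Spor.Fi22.i, (Cfsg.Spor.Fi22.a * Cfsg.Spor.Fi22.b * Cfsg.Spor.Fi22.c * Cfsg.Spor.Fi22.d * Cfsg.Spor.Fi22.e * Cfsg.Spor.Fi22.h) ^ 5} : Set (FreeGroup Cfsg.Spor.Fi22.Gen))).map (PresentedGroup.mk (Cfsg.Spor.coxRelators Cfsg.Spor.Fi22.edges ∪ {r | r ∈ Cfsg.Spor.Fi22.extra})))).index = 3510 ∧ ∃ q₁ q₂ : Cfsg.Spor.Fi22 ⧸ (((Subgroup.closure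 ({Cfsg.Spor.Fi22.a, Cfsg.Spor.Fi22.c, Cfsg.Spor.Fi22.d, Cfsg.Spor.Fi22.e, Cfsg.Spor.Fi22.f, Cfsg.Spor.Fi22.g, Cfsg.Spor.Fi22.h, Cfsg.Spor.Fi22.i, (Cfsg.Spor.Fi22.a * Cfsg.Spor.Fi22.b * Cfsg.Spor.Fi22.c * Cfsg.Spor.Fi22.d * Cfsg.Spor.Fi22.e * Cfsg.Spor.Fi22.h) ^ 5} : Set (FreeGroup Cfsg.Spor.Fi22.Gen))).map (PresentedGroup.mk (Cfsg.Spor.coxRelators Cfsg.Spor.Fi22.edges ∪ {r | r ∈ Cfsg.Spor.Fi22.extra})))), (MulAction.orbit (((Subgroup.closure ({Cfsg.Spor.Fi22.a, Cfsg.Spor.Fi22.c, Cfsg.Spor.Fi22.d, Cfsg.Spor.Fi22.e, Cfsg.Spor.Fi22.f, Cfsg.Spor.Fi22.g, Cfsg.Spor.Fi22.h, Cfsg.Spor.Fi22.i, (Cfsg.Spor.Fi22.a * Cfsg.Spor.Fi22.b * Cfsg.Spor.Fi22.c * Cfsg.Spor.Fi22.d * Cfsg.Spor.Fi22.e * Cfsg.Spor.Fi22.h) ^ 5} : Set (FreeGroup Cfsg.Spor.Fi22.Gen))).map (PresentedGroup.mk (Cfsg.Spor.coxRelators Cfsg.Spor.Fi22.edges ∪ {r | r ∈ Cfsg.Spor.Fi22.extra}))))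 q₁).ncard = 693 ∧ (MulAction.orbit (((Subgroup.closure ({Cfsg.Spor.Fi22.a, Cfsg.Spor.Fi22.c, Cfsg.Spor.Fi22.d, Cfsg.Spor.Fi22.e, Cfsg.Spor.Fi22.f, Cfsg.Spor.Fi22.g, Cfsg.Spor.Fi22.h, Cfsg.Spor.Fi22.i, (Cfsg.Spor.Fi22.a * Cfsg.Spor.Fi22.b * Cfsg.Spor.Fi22.c * Cfsg.Spor.Fi22.d * Cfsg.Spor.Fi22.e * Cfsg.Spor.Fi22.h) ^ 5} : Set (FreeGroup Cfsg.Spor.Fi22.Gen))).map (PresentedGroup.mk (Cfsg.Spor.coxRelators Cfsg.Spor.Fi22.edges ∪ {r | r ∈ Cfsg.Spor.Fi22.extra})))) q₂).ncard = 2816 := by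
  obtain ⟨act, T, hact⟩ := main
  refine ⟨T.index, ?_⟩
  have hS : ∀ s, s ∈ S ↔ s ∈ SL := by intro s; simp [S, SL]
  have o1 := T.orbit_card hact hS hhw (j := 6) (by norm_num) hb0 hc0' hm0
  have o2 := T.orbit_card hact hS hhw (j := 1) (by norm_num) hb1 hc1' hm1
  exact ⟨lc _ _ 6, lc _ _ 1, o1.2, o2.2⟩

end Cfsg.Agent.S1687
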