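import Cfsg.Statements.S4464
import Cfsg.Agent.Lib.H22.NormalAb
import Cfsg.Agent.Lib.H03.PC2
import Cfsg.Agent.Lib.H23.Crit2

set_option autoImplicit false
open Cfsg

namespace Cfsg.Agent.S4464

open Cfsg.Agent.H21 Cfsg.Agent.H06 Cfsg.Agent.H22
open scoped ComplexConjugate

section Orbits

variable {G : Type*} [Group G] [Fintype G] {Ω : Type*} [Fintype Ω] [MulAction G Ω]

/-- Inner product of permutation character with the trivial character. -/
theorem perm_inner_one :
    classInner (fun g : G => (Nat.card (MulAction.fixedBy Ω g) : ℂ)) (fun _ => (1 : ℂ)) =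
      (Nat.card (MulAction.orbitRel.Quotient G Ω) : ℂ) := by
  classical
  haveI : Fintype (MulAction.orbitRel.Quotient G Ω) := Fintype.ofFinite _
  have h := MulAction.sum_card_fixedBy_eq_card_orbits_mul_card_group G Ω
  have h' : ∑ g : G, Nat.card (MulAction.fixedBy Ω g) =
      Nat.card (MulAction.orbitRel.Quotient G Ω) * Nat.card G := by
    simp only [Nat.card_eq_fintype_card]
    exact h
  unfold classInner
  have hG : (Nat.card G : ℂ) ≠ 0 := by simp [Nat.card_pos.ne']
  simp only [map_one, mul_one]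
  rw [inv_mul_eq_div, div_eq_iff hG]
  exact_mod_cast h'

/-- Inner product of a permutation character with itself. -/
theorem perm_inner_self :
    classInner (fun g : G => (Nat.card (MulAction.fixedBy Ω g) : ℂ))
      (fun g : G => (Nat.card (MulAction.fixedBy Ω g) : ℂ)) =
      (Nat.card (MulAction.orbitRel.Quotient G (Ω × Ω)) : ℂ) := by
  classical
  haveI : Fintype (MulAction.orbitRel.Quotient G (Ω × Ω)) := Fintype.ofFinite _
  have h := MulAction.sum_card_fixedBy_eq_card_orbits_mul_card_group G (Ω × Ω)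
  have hfix : ∀ g : G, Nat.card (MulAction.fixedBy (Ω × Ω) g) =
      Nat.card (MulAction.fixedBy Ω g) * Nat.card (MulAction.fixedBy Ω g) := by
    intro g
    rw [← Nat.card_prod]
    refine Nat.card_congr
      { toFun := fun x => (⟨x.1.1, ?_⟩, ⟨x.1.2, ?_⟩)
        invFun := fun y => ⟨(y.1.1, y.2.1), ?_⟩
        left_inv := fun x => ?_
        right_inv := fun y => ?_ }
    · exact congrArg Prod.fst x.2
    · exact congrArg Prod.snd x.2
    · exact Prod.ext y.1.2 y.2.2
    · rfl
    · rfl
  have h' : ∑ g : G, Nat.card (MulAction.fixedBy Ω g) * Nat.card (MulAction.fixedBy Ω g) =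
      Nat.card (MulAction.orbitRel.Quotient G (Ω × Ω)) * Nat.card G := by
    calc ∑ g : G, Nat.card (MulAction.fixedBy Ω g) * Nat.card (MulAction.fixedBy Ω g)
        = ∑ g : G, Nat.card (MulAction.fixedBy (Ω × Ω) g) := by simp only [hfix]
      _ = _ := by
        simp only [Nat.card_eq_fintype_card]
        exact h
  unfold classInner
  have hG : (Nat.card G : ℂ) ≠ 0 := by simp [Nat.card_pos.ne']
  simp only [Complex.conj_natCast]
  rw [inv_mul_eq_div, div_eq_iff hG]
  exact_mod_cast h'

/-- Orbits of a subgroup of a transitive group on `Ω` dominate the `G`-orbits on `Ω × Ω`. -/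
theorem orbits_pairs_le [MulAction.IsPretransitive G Ω] (H : Subgroup G) (x₀ : Ω)
    (hx₀ : ∀ h ∈ H, h • x₀ = x₀) :
    Nat.card (MulAction.orbitRel.Quotient G (Ω × Ω)) ≤ Nat.card (MulAction.orbitRel.Quotient H Ω) := by
  classical
  let φ : MulAction.orbitRel.Quotient H Ω → MulAction.orbitRel.Quotient G (Ω × Ω) :=
    Quotient.lift (fun y : Ω => (Quotient.mk'' (x₀, y) : MulAction.orbitRel.Quotient G (Ω × Ω)))
      (by
        intro a b hab
        obtain ⟨h, rfl⟩ := MulAction.orbitRel_apply.1 hab
        apply Quotient.sound'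
        refine MulAction.orbitRel_apply.2 ⟨(h : G), ?_⟩
        show ((h : G) • x₀, (h : G) • b) = _
        rw [hx₀ _ h.2]
        rfl)
  apply Nat.card_le_card_of_surjective φ
  intro ω
  obtain ⟨⟨a, b⟩, rfl⟩ := Quotient.mk''_surjective ω
  obtain ⟨g, hg⟩ := MulAction.exists_smul_eq G a x₀
  refine ⟨Quotient.mk'' (g • b), ?_⟩
  apply Quotient.sound'
  exact MulAction.orbitRel_apply.2 ⟨g, Prod.ext hg rfl⟩

/-- Counting: a unique fixed point and all other orbits of size at least `p`. -/
theorem card_orbits_bound (H : Subgroup G) (x₀ : Ω) (p : ℕ)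
    (hx₀ : ∀ h ∈ H, h • x₀ = x₀) (hsize : ∀ y : Ω, y ≠ x₀ → p ≤ Nat.card (MulAction.orbit H y)) :
    1 + p * (Nat.card (MulAction.orbitRel.Quotient H Ω) - 1) ≤ Nat.card Ω := by
  classical
  haveI : Fintype (MulAction.orbitRel.Quotient H Ω) := Fintype.ofFinite _
  let f : Ω → MulAction.orbitRel.Quotient H Ω := Quotient.mk''
  let ω₀ := f x₀
  have h1 : Nat.card Ω = ∑ ω : MulAction.orbitRel.Quotient H Ω,
      (Finset.univ.filter fun y => f y = ω).card := by
    rw [Nat.card_eq_fintype_card, ← Finset.card_univ]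
    exact Finset.card_eq_sum_card_fiberwise (fun _ _ => Finset.mem_univ _)
  have h2 : 1 ≤ (Finset.univ.filter fun y => f y = ω₀).card :=
    Finset.card_pos.2 ⟨x₀, by simp [ω₀]⟩
  have h3 : ∀ ω ∈ Finset.univ.erase ω₀, p ≤ (Finset.univ.filter fun y => f y = ω).card := by
    intro ω hω
    obtain ⟨y, rfl⟩ := Quotient.mk''_surjective ω
    have hne : y ≠ x₀ := by
      rintro rfl
      exact (Finset.mem_erase.1 hω).1 rfl
    refine (hsize y hne).trans ?_
    rw [Nat.card_eq_fintype_card, ← Set.toFinset_card]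
    apply Finset.card_le_card
    intro z hz
    simp only [Set.mem_toFinset] at hz
    simp only [Finset.mem_filter, Finset.mem_univ, true_and]
    apply Quotient.sound'
    exact MulAction.orbitRel_apply.2 hz
  rw [h1, ← Finset.add_sum_erase Finset.univ _ (Finset.mem_univ ω₀)]
  refine add_le_add h2 ?_
  have h4 := Finset.card_nsmul_le_sum _ _ _ h3
  refine le_trans ?_ h4
  rw [Finset.card_erase_of_mem (Finset.mem_univ _), Finset.card_univ, smul_eq_mul, mul_comm,
    Nat.card_eq_fintype_card]

end Orbits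

/-- Main count: a transitive action where `H` has a unique fixed point with other orbits of size
at least `p`, and all nontrivial irreducible degrees are less than `p`, has one point. -/
theorem card_eq_one_of_degrees {G : Type*} [Group G] [Fintype G] {Ω : Type*} [Fintype Ω] [MulAction G Ω]
    [MulAction.IsPretransitive G Ω] (H : Subgroup G) (x₀ : Ω) (p : ℕ) (hp : 0 < p)
    (hx₀ : ∀ h ∈ H, h • x₀ = x₀) (hsize : ∀ y : Ω, y ≠ x₀ → p ≤ Nat.card (MulAction.orbit H y))
    (hb : ∀ χ : IrrCharacter G, charDegree (χ : G → ℂ) < p) : Nat.card Ω = 1 := by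
  classical
  haveI : Fintype (IrrCharacter G) := Fintype.ofFinite _
  haveI : Nonempty Ω := ⟨x₀⟩
  set π : G → ℂ := fun g : G => (Nat.card (MulAction.fixedBy Ω g) : ℂ) with hπdef
  have hπ : IsCharacter G π := by
    have h := isCharacter_of_rep (Cfsg.permRep ℂ G Ω)
    rwa [Cfsg.Agent.H03.PC.perm_char_fun] at h
  obtain ⟨m, hm, hm2⟩ := isCharacter_decomp hπ
  let one : IrrCharacter G := ⟨fun _ => 1, isIrrCharacter_one⟩
  -- `m one = 1`
  have hm1 : m one = 1 := by
    have h1 := hm2 one
    have h2 : classInner π (one : G → ℂ) = (Nat.card (MulAction.orbitRel.Quotient G Ω) : ℂ) :=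
      perm_inner_one
    have h3 : Nat.card (MulAction.orbitRel.Quotient G Ω) = 1 := by
      haveI : Subsingleton (MulAction.orbitRel.Quotient G Ω) := by
        constructor
        intro a b
        obtain ⟨a, rfl⟩ := Quotient.mk''_surjective a
        obtain ⟨b, rfl⟩ := Quotient.mk''_surjective b
        apply Quotient.sound'
        obtain ⟨g, hg⟩ := MulAction.exists_smul_eq G b a
        exact MulAction.orbitRel_apply.2 ⟨g, hg⟩
      haveI : Nonempty (MulAction.orbitRel.Quotient G Ω) := ⟨Quotient.mk'' x₀⟩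
      exact Nat.card_unique
    rw [h2, h3] at h1
    exact_mod_cast h1.symm
  -- `∑ m² = r`
  have hr : ∑ ψ : IrrCharacter G, m ψ * m ψ = Nat.card (MulAction.orbitRel.Quotient G (Ω × Ω)) := by
    have h1 : classInner π π = ∑ ψ : IrrCharacter G, (m ψ : ℂ) * (m ψ : ℂ) := by
      conv_lhs => rw [hm]
      rw [classInner_sum_left]
      refine Finset.sum_congr rfl fun ψ _ => ?_
      rw [← Nat.cast_smul_eq_nsmul ℂ, classInner_smul_left, ← hm, ← classInner_comm_conj, hm2,
        Complex.conj_natCast]
    have h2 := perm_inner_self (G := G) (Ω := Ω)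
    rw [← hπdef, h1] at h2
    exact_mod_cast h2
  -- degree
  have hn : Nat.card Ω = ∑ ψ : IrrCharacter G, m ψ * charDegree (ψ : G → ℂ) := by
    have h1 : π 1 = (Nat.card Ω : ℂ) := by
      simp only [hπdef]
      congr 1
      exact Nat.card_congr (Equiv.subtypeUnivEquiv fun x => by simp)
    exact Cfsg.Agent.H23.Crit.deg_decomp hπ h1 m hm
  have hdone : charDegree (one : G → ℂ) = 1 := by
    have := one_eq_charDegree (isCharacter_of_irr one.2)
    have h1 : (one : G → ℂ) 1 = 1 := rfl
    rw [h1] at this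
    exact_mod_cast this.symm
  set r := Nat.card (MulAction.orbitRel.Quotient G (Ω × Ω)) with hrdef
  set r' := Nat.card (MulAction.orbitRel.Quotient H Ω) with hr'def
  have hle : r ≤ r' := orbits_pairs_le H x₀ hx₀
  have hbound : 1 + p * (r' - 1) ≤ Nat.card Ω := card_orbits_bound H x₀ p hx₀ hsize
  have hsum : Nat.card Ω ≤ 1 + (p - 1) * (r - 1) := by
    rw [hn, ← Finset.add_sum_erase Finset.univ _ (Finset.mem_univ one), hm1, hdone, one_mul]
    refine add_le_add le_rfl ?_
    have h1 : r - 1 = ∑ ψ ∈ Finset.univ.erase one, m ψ * m ψ := by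
      rw [← hr, ← Finset.add_sum_erase Finset.univ _ (Finset.mem_univ one), hm1]
      simp
    rw [h1, Finset.mul_sum]
    refine Finset.sum_le_sum fun ψ _ => ?_
    have h2 : charDegree (ψ : G → ℂ) ≤ p - 1 := by
      have := hb ψ
      omega
    calc m ψ * charDegree (ψ : G → ℂ) ≤ m ψ * (p - 1) := Nat.mul_le_mul_left _ h2
      _ ≤ m ψ * m ψ * (p - 1) := by
          rcases Nat.eq_zero_or_pos (m ψ) with h0 | h0
          · simp [h0]
          · exact Nat.mul_le_mul_right _ (Nat.le_mul_of_pos_left _ h0)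
      _ = (p - 1) * (m ψ * m ψ) := Nat.mul_comm _ _
  have hfin : r' - 1 = 0 := by
    by_contra hne
    have hpos : 0 < r' - 1 := Nat.pos_of_ne_zero hne
    have h1 : (p - 1) * (r - 1) ≤ (p - 1) * (r' - 1) :=
      Nat.mul_le_mul_left _ (by omega)
    have h2 : p * (r' - 1) ≤ (p - 1) * (r' - 1) := by omega
    have h3 := Nat.le_of_mul_le_mul_right h2 hpos
    omega
  have hr0 : r - 1 = 0 := by omega
  rw [hr0] at hsum
  have hpos : 0 < Nat.card Ω := Nat.card_pos
  omega

/-- Let p be a prime and G a finite group all of whose irreducible character degrees are less than p. Then G has a normal abelian Sylow p-subgroup. -/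
theorem result {G : Type*} [Group G] [Finite G] (p : ℕ) (hp : p.Prime) (hb : ∀ χ : Cfsg.IrrCharacter G, Cfsg.charDegree (χ : G → ℂ) < p) : ∃ P : Subgroup G, P.Normal ∧ (∀ x ∈ P, ∀ y ∈ P, x * y = y * x) ∧ IsPGroup p P ∧ ¬ p ∣ P.index := by
  classical
  haveI : Fact p.Prime := ⟨hp⟩
  haveI := Fintype.ofFinite G
  haveI : Fintype (Sylow p G) := Fintype.ofFinite _
  obtain ⟨P₀⟩ : Nonempty (Sylow p G) := inferInstance
  have hone : Nat.card (Sylow p G) = 1 := by
    refine card_eq_one_of_degrees (P₀ : Subgroup G) P₀ p hp.pos ?_ ?_ hb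
    · intro h hh
      exact Sylow.smul_eq_iff_mem_normalizer.2 (Subgroup.le_normalizer hh)
    · intro y hy
      have hPp : IsPGroup p (P₀ : Subgroup G) := P₀.isPGroup'
      obtain ⟨n, hn⟩ := IsPGroup.iff_card.1 hPp
      haveI : Fintype (MulAction.orbit (P₀ : Subgroup G) y) := Fintype.ofFinite _
      have h1 : Nat.card (MulAction.orbit (P₀ : Subgroup G) y) ∣ p ^ n := by
        rw [← hn]
        have h2 := MulAction.card_orbit_mul_card_stabilizer_eq_card_group (P₀ : Subgroup G) y
        rw [Nat.card_eq_fintype_card, Nat.card_eq_fintype_card]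
        exact Dvd.intro _ h2
      obtain ⟨j, -, hj⟩ := (Nat.dvd_prime_pow hp).1 h1
      rw [hj]
      rcases j with _ | j
      · exfalso
        apply hy
        have h3 : y ∈ MulAction.fixedPoints (P₀ : Subgroup G) (Sylow p G) := by
          intro h
          have h4 : Nat.card (MulAction.orbit (P₀ : Subgroup G) y) = 1 := by simpa using hj
          have h5 := (Nat.card_eq_one_iff_unique.1 h4).1
          have h6 : h • y ∈ MulAction.orbit (P₀ : Subgroup G) y := MulAction.mem_orbit y h
          have h7 : y ∈ MulAction.orbit (P₀ : Subgroup G) y := MulAction.mem_orbit_self y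
          exact congrArg Subtype.val (h5.elim ⟨_, h6⟩ ⟨_, h7⟩)
        have hle := (IsPGroup.sylow_mem_fixedPoints_iff hPp).1 h3
        exact Sylow.ext (P₀.3 y.2 hle)
      · exact Nat.le_self_pow (Nat.succ_ne_zero j) p
  haveI : Subsingleton (Sylow p G) := by
    exact (Nat.card_eq_one_iff_unique.1 hone).1
  refine ⟨(P₀ : Subgroup G), Sylow.normal_of_subsingleton P₀, ?_, P₀.isPGroup', P₀.not_dvd_index⟩
  -- commutativity
  haveI : Fintype (P₀ : Subgroup G) := Fintype.ofFinite _
  have hdeg : ∀ τ : IrrCharacter (P₀ : Subgroup G), charDegree τ.1 = 1 := by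
    intro τ
    have hτ := isCharacter_of_irr τ.2
    have hI := isCharacter_indFun (H := (P₀ : Subgroup G)) hτ
    have h1 : indFun (P₀ : Subgroup G) τ.1 1 ≠ 0 := by
      rw [one_eq_charDegree hI, charDegree_indFun (H := (P₀ : Subgroup G)) hτ]
      have := irr_charDegree_pos τ.2
      have h2 := (P₀ : Subgroup G).index_ne_zero_of_finite
      norm_cast
      exact Nat.mul_ne_zero h2 this.ne'
    obtain ⟨ψ, hψ⟩ := H01.exists_constituent hI h1
    rw [frobenius_reciprocity (H := (P₀ : Subgroup G)) τ.1 ψ.1 (isClassFunction_of_isCharacter (isCharacter_of_irr ψ.2))] at hψ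
    have hres := isCharacter_restrict (P₀ : Subgroup G) (isCharacter_of_irr ψ.2)
    -- `τ` is a constituent of the restriction of `ψ`
    have h3 : classInner (fun h : (P₀ : Subgroup G) => ψ.1 h) τ.1 ≠ 0 := by
      intro h0
      apply hψ
      rw [← classInner_comm_conj, h0]
      simp
    have h4 := H01.degree_le_of_inner_ne hres τ h3
    have h5 : charDegree (fun h : (P₀ : Subgroup G) => ψ.1 h) = charDegree ψ.1 := by
      have h8 := one_eq_charDegree hres
      have h9 := one_eq_charDegree (isCharacter_of_irr ψ.2)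
      have h10 : ψ.1 ((1 : (P₀ : Subgroup G)) : G) = ψ.1 1 := rfl
      rw [h10, h9] at h8
      exact_mod_cast h8.symm
    have h6 : charDegree τ.1 < p := by
      have := hb ψ
      omega
    obtain ⟨n, hn⟩ := IsPGroup.iff_card.1 P₀.isPGroup'
    have h7 : charDegree τ.1 ∣ p ^ n := hn ▸ charDegree_dvd_card τ
    obtain ⟨j, -, hj⟩ := (Nat.dvd_prime_pow hp).1 h7
    rw [hj]
    rcases j with _ | j
    · simp
    · exfalso
      rw [hj] at h6
      have : p ≤ p ^ (j + 1) := Nat.le_self_pow (Nat.succ_ne_zero j) p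
      omega
  intro x hx y hy
  have := comm_of_degrees_one (T := (P₀ : Subgroup G)) hdeg (⟨x, hx⟩ : (P₀ : Subgroup G)) ⟨y, hy⟩
  exact congrArg Subtype.val this

end Cfsg.Agent.S4464
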