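import Cfsg.Statements.S0624
import Mathlib
import Cfsg.Agent.Lib.H03.Stable2
import Cfsg.Agent.Lib.H03.Replacement
import Cfsg.Agent.Lib.H19.Basic
import Cfsg.Agent.Lib.H13.Residual
import Cfsg.Agent.Lib.H01.Coprime4
import Cfsg.Agent.Lib.H01.Fitting

set_option autoImplicit false
open Cfsg

namespace Cfsg.Agent.S0624

open scoped commutatorElement
open Cfsg.Agent.H03

variable {G : Type*} [Group G] 

theorem isEA_closure {p : ℕ} {s : Set G} (hcomm : ∀ y ∈ s, ∀ z ∈ s, y * z = z * y)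
    (hp : ∀ y ∈ s, y ^ p = 1) : Cfsg.IsElementaryAbelian p (Subgroup.closure s) := by
  have h1 : ∀ y ∈ s, Subgroup.closure s ≤ Subgroup.centralizer ({y} : Set G) := by
    intro y hy
    rw [Subgroup.closure_le]
    intro z hz
    change z ∈ Subgroup.centralizer _
    rw [Subgroup.mem_centralizer_iff]
    intro w hw
    rw [Set.mem_singleton_iff] at hw
    subst hw
    exact hcomm _ hy _ hz
  have h2 : ∀ z ∈ Subgroup.closure s, Subgroup.closure s ≤ Subgroup.centralizer ({z} : Set G) := by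
    intro z hz
    rw [Subgroup.closure_le]
    intro y hy
    change y ∈ Subgroup.centralizer _
    rw [Subgroup.mem_centralizer_iff]
    intro w hw
    rw [Set.mem_singleton_iff] at hw
    subst hw
    exact (Subgroup.mem_centralizer_iff.mp (h1 y hy hz) y rfl).symm
  have hab : ∀ y ∈ Subgroup.closure s, ∀ z ∈ Subgroup.closure s, y * z = z * y := by
    intro y hy z hz
    exact Subgroup.mem_centralizer_iff.mp (h2 y hy hz) y rfl
  refine ⟨isMulCommutative_of_forall hab, ?_⟩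
  intro a ha
  have key : a ∈ Subgroup.closure s ∧ a ^ p = 1 := by
    induction ha using Subgroup.closure_induction with
    | mem x hx => exact ⟨Subgroup.subset_closure hx, hp x hx⟩
    | one => exact ⟨one_mem _, one_pow _⟩
    | mul x y _ _ hx hy =>
      refine ⟨mul_mem hx.1 hy.1, ?_⟩
      rw [(show Commute x y from hab x hx.1 y hy.1).mul_pow, hx.2, hy.2, one_mul]
    | inv x _ hx =>
      exact ⟨inv_mem hx.1, by rw [inv_pow, hx.2, inv_one]⟩
  exact key.2

/-- The kernel of the action on `T / Φ(T)` is a `p`-group when `T = O_p(G)` contains its centralizer. -/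
theorem isPGroup_sectionKernel [Finite G] {p : ℕ} [Fact p.Prime]
    (hc : Subgroup.centralizer (Cfsg.pCore p G : Set G) ≤ Cfsg.pCore p G)
    [inst : ((frattini ↥(Cfsg.pCore p G)).map (Cfsg.pCore p G).subtype).Normal] :
    IsPGroup p (Cfsg.sectionKernel (Cfsg.pCore p G)
      ((frattini ↥(Cfsg.pCore p G)).map (Cfsg.pCore p G).subtype)) := by
  classical
  have hTn := Cfsg.Agent.H01.pCore_normal (G := G) p
  have hTp := Cfsg.Agent.H01.pCore_isPGroup (G := G) p
  set T := Cfsg.pCore p G with hT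
  set Φ := (frattini ↥T).map T.subtype with hΦ
  rw [IsPGroup.iff_orderOf]
  rintro ⟨x, hx⟩
  obtain ⟨a, b, hab, hcomm, ⟨k, hk⟩, hb, ha', hb'⟩ := Cfsg.Agent.H19.exists_primary_decomp p x
  have hzK : Subgroup.zpowers x ≤ Cfsg.sectionKernel T Φ := (Subgroup.zpowers_le).mpr hx
  -- `b` centralizes `T`
  have hzb : Subgroup.zpowers b ≤ Subgroup.centralizer (T : Set G) := by
    apply Cfsg.Agent.H01.centralizes_of_trivial_on_frattini_quotient
    · rw [Subgroup.normalizer_eq_top_iff.mpr hTn]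
      exact le_top
    · rw [Nat.card_zpowers]
      obtain ⟨n, hn⟩ := IsPGroup.iff_card.mp (hTp.to_subgroup (frattini ↥T))
      rw [hn]
      exact Nat.Coprime.pow_right _ hb
    · intro c hc' t ht
      have hcK : c ∈ Cfsg.sectionKernel T Φ := hzK ((Subgroup.zpowers_le).mpr hb' hc')
      have h1 : (QuotientGroup.mk c : G ⧸ Φ) ∈
          Subgroup.centralizer ((T.map (QuotientGroup.mk' Φ) : Subgroup (G ⧸ Φ)) : Set (G ⧸ Φ)) := hcK
      have h2 := Subgroup.mem_centralizer_iff.mp h1 (QuotientGroup.mk t) ⟨t, ht, rfl⟩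
      rw [← QuotientGroup.eq_one_iff]
      change (QuotientGroup.mk c : G ⧸ Φ) * QuotientGroup.mk t * (QuotientGroup.mk c)⁻¹ * (QuotientGroup.mk t)⁻¹ = 1
      rw [← h2]
      group
  have hbT : b ∈ T := hc (hzb (Subgroup.mem_zpowers b))
  have hb1 : b = 1 := by
    obtain ⟨m, hm⟩ := (IsPGroup.iff_orderOf.mp hTp) ⟨b, hbT⟩
    have hm' : orderOf b = p ^ m := by
      rw [← hm, Subgroup.orderOf_mk]
    rw [hm'] at hb
    have : m = 0 := by
      by_contra hm0
      have := Nat.Coprime.eq_one_of_dvd hb.symm (dvd_pow_self p hm0)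
      exact (Fact.out : p.Prime).one_lt.ne' this
    rw [this, pow_zero] at hm'
    exact orderOf_eq_one_iff.mp hm'
  refine ⟨k, ?_⟩
  rw [Subgroup.orderOf_mk, hab, hb1, mul_one, hk]

/-- The analogue of the ZJ-Theorem: in an action-p-stable group whose largest normal p-subgroup contains its centralizer, the characteristic subgroup W(S) of a Sylow p-subgroup S is normal. -/
theorem result {G : Type*} [Group G] [Finite G] {p : ℕ} [Fact p.Prime] (hst : Cfsg.IsActionPStable p G) (hc : Subgroup.centralizer (Cfsg.pCore p G : Set G) ≤ Cfsg.pCore p G) (S : Sylow p G) : (((Cfsg.stableNormalClosure p ↥(S : Subgroup G)).map (S : Subgroup G).subtype)).Normal := by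
  classical
  obtain ⟨hst1, hst2, hst3⟩ := hst
  have hTn := Cfsg.Agent.H01.pCore_normal (G := G) p
  have hTp := Cfsg.Agent.H01.pCore_isPGroup (G := G) p
  have hTS : Cfsg.pCore p G ≤ (S : Subgroup G) := Cfsg.Agent.H01.pCore_le_sylow p S
  set T := Cfsg.pCore p G with hT
  set S₀ := (S : Subgroup G) with hS₀
  set W := Cfsg.stableNormalClosure p ↥S₀ with hW
  set W₁ := W.map S₀.subtype with hW₁
  have hSp : IsPGroup p ↥S₀ := S.isPGroup'
  have hWEA : Cfsg.IsElementaryAbelian p W := stableNormalClosure_isEA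
  have hW₁EA : Cfsg.IsElementaryAbelian p W₁ := isEA_map _ hWEA
  have hW₁ab : ∀ x ∈ W₁, ∀ y ∈ W₁, x * y = y * x :=
    fun x hx y hy => mul_comm_of_isMulCommutative hW₁EA.1 hx hy
  have hWchar : ∀ s ∈ S₀, ∀ w ∈ W₁, s * w * s⁻¹ ∈ W₁ := by
    rintro s hs _ ⟨w, hw, rfl⟩
    have h1 := stableNormalClosure_map (p := p) (MulAut.conj (⟨s, hs⟩ : ↥S₀))
    have h2 : (MulAut.conj (⟨s, hs⟩ : ↥S₀)) w ∈ W := by
      rw [hW, ← h1]
      exact ⟨w, hw, rfl⟩
    exact ⟨_, h2, rfl⟩
  -- Step 1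
  have hW₁T : W₁ ≤ T := by
    intro a ha
    have hzW : Subgroup.zpowers a ≤ W₁ := (Subgroup.zpowers_le).mpr ha
    have h1 : ⁅T, Subgroup.zpowers a⁆ ≤ W₁ := by
      rw [Subgroup.commutator_le]
      intro t ht g hg
      rw [commutatorElement_def]
      exact mul_mem (hWchar t (hTS ht) g (hzW hg)) (inv_mem (hzW hg))
    have hq : ⁅⁅T, Subgroup.zpowers a⁆, Subgroup.zpowers a⁆ = ⊥ := by
      rw [eq_bot_iff, Subgroup.commutator_le]
      intro u hu g hg
      rw [Subgroup.mem_bot, commutatorElement_eq_one_iff_mul_comm]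
      exact hW₁ab _ (h1 hu) _ (hzW hg)
    obtain ⟨D, hDn, hKD, ⟨k, hk⟩, haD⟩ := hst2 a (by rw [hq]; exact bot_le)
    have hKp := isPGroup_sectionKernel hc
    have hDp : IsPGroup p D := by
      obtain ⟨m, hm⟩ := IsPGroup.iff_card.mp hKp
      apply IsPGroup.of_card (n := m + k)
      have e1 := Subgroup.card_mul_index
        ((Cfsg.sectionKernel (Cfsg.pCore p G) ((frattini ↥(Cfsg.pCore p G)).map (Cfsg.pCore p G).subtype)).subgroupOf D)
      have e2 : Nat.card ((Cfsg.sectionKernel (Cfsg.pCore p G) ((frattini ↥(Cfsg.pCore p G)).map (Cfsg.pCore p G).subtype)).subgroupOf D)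
          = Nat.card (Cfsg.sectionKernel (Cfsg.pCore p G) ((frattini ↥(Cfsg.pCore p G)).map (Cfsg.pCore p G).subtype)) :=
        Nat.card_congr (Subgroup.subgroupOfEquivOfLe hKD).toEquiv
      rw [e2, hm] at e1
      rw [← e1, pow_add]
      congr 1
    exact Cfsg.Agent.H01.le_pCore hDn hDp haD
  -- Step 2
  have hcomm2 : ∀ g : G, ∀ w ∈ W₁, ∀ w' ∈ W₁, w * (g * w' * g⁻¹) = (g * w' * g⁻¹) * w := by
    intro g w hw w' hw'
    set x := g * w' * g⁻¹ with hx
    have hxT : x ∈ T := hTn.conj_mem w' (hW₁T hw') g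
    have hxS : x ∈ S₀ := hTS hxT
    set Y := W₁.map (MulAut.conj g).toMonoidHom with hY
    have hYab : ∀ y ∈ Y, ∀ z ∈ Y, y * z = z * y := by
      rintro _ ⟨y, hy, rfl⟩ _ ⟨z, hz, rfl⟩
      rw [← map_mul, ← map_mul, hW₁ab y hy z hz]
    have hxY : x ∈ Y := ⟨w', hw', rfl⟩
    have hzY : Subgroup.zpowers x ≤ Y := (Subgroup.zpowers_le).mpr hxY
    have h1 : ⁅W₁, Subgroup.zpowers x⁆ ≤ Y := by
      rw [Subgroup.commutator_le]
      intro u hu v hv
      rw [commutatorElement_def]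
      refine mul_mem ?_ (inv_mem (hzY hv))
      obtain ⟨v', hv', rfl⟩ := hzY hv
      have hu' : g⁻¹ * u * g ∈ S₀ := by
        apply hTS
        have := hTn.conj_mem u (hW₁T hu) g⁻¹
        simpa using this
      refine ⟨_, hWchar _ hu' v' hv', ?_⟩
      change g * ((g⁻¹ * u * g) * v' * (g⁻¹ * u * g)⁻¹) * g⁻¹ = u * (g * v' * g⁻¹) * u⁻¹
      group
    have hq : ⁅⁅W₁, Subgroup.zpowers x⁆, Subgroup.zpowers x⁆ = ⊥ := by
      rw [eq_bot_iff, Subgroup.commutator_le]
      intro u hu v hv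
      rw [Subgroup.mem_bot, commutatorElement_eq_one_iff_mul_comm]
      exact hYab _ (h1 hu) _ (hzY hv)
    have hq' : ⁅⁅W, Subgroup.zpowers (⟨x, hxS⟩ : ↥S₀)⁆, Subgroup.zpowers (⟨x, hxS⟩ : ↥S₀)⁆ = ⊥ := by
      apply (Subgroup.map_eq_bot_iff_of_injective _ S₀.subtype_injective).mp
      rw [Subgroup.map_commutator, Subgroup.map_commutator, MonoidHom.map_zpowers]
      exact hq
    have hc' := noQuad_stableNormalClosure _ hq'
    obtain ⟨w₀, hw₀, rfl⟩ := hw
    have := commute_of_commutator_eq_bot hc' hw₀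
    exact congrArg Subtype.val this
  -- Step 3
  set V₁ := Subgroup.normalClosure (W₁ : Set G) with hV₁
  have hV₁n : V₁.Normal := Subgroup.normalClosure_normal
  have hV₁EA : Cfsg.IsElementaryAbelian p V₁ := by
    apply isEA_closure
    · intro y hy z hz
      rw [Group.mem_conjugatesOfSet_iff] at hy hz
      obtain ⟨w, hw, hwy⟩ := hy
      obtain ⟨w', hw', hwz⟩ := hz
      obtain ⟨c, rfl⟩ := isConj_iff.mp hwy
      obtain ⟨d, rfl⟩ := isConj_iff.mp hwz
      have h1 := hcomm2 (c⁻¹ * d) w hw w' hw'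
      have h2 : c * (w * ((c⁻¹ * d) * w' * (c⁻¹ * d)⁻¹)) * c⁻¹ = c * (((c⁻¹ * d) * w' * (c⁻¹ * d)⁻¹) * w) * c⁻¹ := by
        rw [h1]
      calc (c * w * c⁻¹) * (d * w' * d⁻¹) = c * (w * ((c⁻¹ * d) * w' * (c⁻¹ * d)⁻¹)) * c⁻¹ := by group
        _ = c * (((c⁻¹ * d) * w' * (c⁻¹ * d)⁻¹) * w) * c⁻¹ := h2
        _ = (d * w' * d⁻¹) * (c * w * c⁻¹) := by group
    · intro y hy
      rw [Group.mem_conjugatesOfSet_iff] at hy
      obtain ⟨w, hw, hwy⟩ := hy
      obtain ⟨c, rfl⟩ := isConj_iff.mp hwy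
      rw [conj_pow, hW₁EA.2 w hw]
      simp
  have hW₁V₁ : W₁ ≤ V₁ := Subgroup.le_normalClosure
  have hV₁T : V₁ ≤ T := Subgroup.normalClosure_le_normal hW₁T
  have hV₁S : V₁ ≤ S₀ := hV₁T.trans hTS
  -- Step 4
  have hV₁quad : ∀ a : G, ⁅⁅V₁, Subgroup.zpowers a⁆, Subgroup.zpowers a⁆ = ⊥ →
      ⁅V₁, Subgroup.zpowers a⁆ = ⊥ := by
    intro a ha
    exact quad_key (τ := S₀.subtype) S₀.subtype_injective S (by rw [Subgroup.range_subtype])
      (noQuad_stableNormalClosure) hW₁V₁ rfl (hst1 V₁ hV₁EA) ha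
  -- Step 5
  set V₂ := V₁.comap S₀.subtype with hV₂
  have hV₂n : V₂.Normal := hV₁n.comap _
  have hV₂map : V₂.map S₀.subtype = V₁ := by
    apply Subgroup.map_comap_eq_self
    rw [Subgroup.range_subtype]
    exact hV₁S
  have hV₂EA : Cfsg.IsElementaryAbelian p V₂ := by
    refine ⟨isMulCommutative_of_forall ?_, ?_⟩
    · intro x hx y hy
      apply Subtype.ext
      exact mul_comm_of_isMulCommutative hV₁EA.1 hx hy
    · intro a ha
      apply Subtype.ext
      exact hV₁EA.2 _ ha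
  have hAcent : ∀ A ∈ Cfsg.maxElementaryAbelianSubgroups p ↥S₀,
      A ≤ Subgroup.centralizer (V₂ : Set ↥S₀) := by
    intro A hA
    by_contra hcA
    obtain ⟨a, hq, hne⟩ := exists_quadratic_element hSp hV₂n hV₂EA hA hcA
    have h1 : ⁅⁅V₁, Subgroup.zpowers (a : G)⁆, Subgroup.zpowers (a : G)⁆ = ⊥ := by
      have h2 := congrArg (Subgroup.map S₀.subtype) hq
      rw [Subgroup.map_commutator, Subgroup.map_commutator, MonoidHom.map_zpowers, hV₂map,
        Subgroup.map_bot] at h2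
      exact h2
    have h2 := hV₁quad _ h1
    apply hne
    apply (Subgroup.map_eq_bot_iff_of_injective _ S₀.subtype_injective).mp
    rw [Subgroup.map_commutator, MonoidHom.map_zpowers, hV₂map]
    exact h2
  -- Step 6
  set J₁ := Cfsg.thompsonSubgroupOf p S₀ with hJ₁
  set C := Subgroup.centralizer (V₁ : Set G) with hC
  have hCn : C.Normal := Subgroup.normal_centralizer
  have hAC : ∀ A ∈ Cfsg.maxElementaryAbelianSubgroups p ↥S₀, A.map S₀.subtype ≤ C := by
    rintro A hA _ ⟨a, ha, rfl⟩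
    rw [hC, Subgroup.mem_centralizer_iff]
    intro v hv
    have := Subgroup.mem_centralizer_iff.mp (hAcent A hA ha) ⟨v, hV₁S hv⟩ hv
    exact congrArg Subtype.val this
  -- the normalizer of `S₀ ⊓ C` normalizes `J₁`.
  have hNJ : Subgroup.normalizer ((S₀ ⊓ C : Subgroup G) : Set G) ≤ Subgroup.normalizer (J₁ : Set G) := by
    intro n hn
    apply Cfsg.Agent.H13.mem_normalizer_of_map_conj_le
    rw [hJ₁, Cfsg.thompsonSubgroupOf, Subgroup.map_le_iff_le_comap, Subgroup.map_le_iff_le_comap,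
      Cfsg.thompsonSubgroup]
    refine sSup_le fun A hA => ?_
    rw [← Subgroup.map_le_iff_le_comap, ← Subgroup.map_le_iff_le_comap]
    -- the conjugate of `A`
    set A₁ := A.map S₀.subtype with hA₁
    have hA₁le : A₁.map (MulAut.conj n).toMonoidHom ≤ S₀ ⊓ C := by
      rw [← Cfsg.Agent.H13.map_conj_eq_of_mem_normalizer hn]
      exact Subgroup.map_mono (le_inf (by
        rintro _ ⟨a, _, rfl⟩
        exact a.2) (hAC A hA))
    set A₂ := (A₁.map (MulAut.conj n).toMonoidHom).comap S₀.subtype with hA₂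
    have hA₂map : A₂.map S₀.subtype = A₁.map (MulAut.conj n).toMonoidHom := by
      apply Subgroup.map_comap_eq_self
      rw [Subgroup.range_subtype]
      exact hA₁le.trans inf_le_left
    have hA₁EA : Cfsg.IsElementaryAbelian p A₁ := isEA_map _ hA.1
    have hA₃EA : Cfsg.IsElementaryAbelian p (A₁.map (MulAut.conj n).toMonoidHom) := isEA_map _ hA₁EA
    have hA₂EA : Cfsg.IsElementaryAbelian p A₂ := by
      refine ⟨isMulCommutative_of_forall ?_, ?_⟩
      · intro x hx y hy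
        apply Subtype.ext
        exact mul_comm_of_isMulCommutative hA₃EA.1 hx hy
      · intro a ha
        apply Subtype.ext
        exact hA₃EA.2 _ ha
    have hA₂card : Nat.card A₂ = Nat.card A := by
      have h1 : Nat.card (A₂.map S₀.subtype) = Nat.card A₂ :=
        Subgroup.card_map_of_injective S₀.subtype_injective
      have h2 : Nat.card A₁ = Nat.card A := Subgroup.card_map_of_injective S₀.subtype_injective
      rw [← h1, hA₂map, ← h2]
      exact Cfsg.Agent.H13.card_map_conj n A₁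
    have hA₂max : A₂ ∈ Cfsg.maxElementaryAbelianSubgroups p ↥S₀ :=
      ⟨hA₂EA, fun B hB => by rw [hA₂card]; exact hA.2 B hB⟩
    rw [← hA₂map]
    exact Subgroup.map_mono (le_sSup hA₂max)
  -- Frattini
  obtain ⟨Q, hQ⟩ := Cfsg.Agent.H13.exists_sylow_inf_normal S C
  have hFr := Sylow.normalizer_sup_eq_top (p := p) (N := C) Q
  rw [hQ] at hFr
  -- Step 8
  have hSN : S₀ ≤ Subgroup.normalizer (J₁ : Set G) := by
    intro s hs
    apply Cfsg.Agent.H13.mem_normalizer_of_map_conj_le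
    rintro _ ⟨_, ⟨j, hj, rfl⟩, rfl⟩
    have h1 := thompsonSubgroup_map (p := p) (MulAut.conj (⟨s, hs⟩ : ↥S₀))
    have h2 : (MulAut.conj (⟨s, hs⟩ : ↥S₀)) j ∈ Cfsg.thompsonSubgroup p ↥S₀ := by
      rw [← h1]
      exact ⟨j, hj, rfl⟩
    exact ⟨_, h2, rfl⟩
  set N := Subgroup.normalizer (J₁ : Set G) with hN
  let τ : ↥S₀ →* ↥N := Subgroup.inclusion hSN
  have hτinj : Function.Injective τ := Subgroup.inclusion_injective hSN
  have hτsub : N.subtype.comp τ = S₀.subtype := rfl
  have hτst : Cfsg.IsStableEmbedding p τ := by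
    refine ⟨hτinj, inferInstance, ⟨S.subtype hSN, ?_⟩, ?_, ?_, ?_⟩
    · rw [Sylow.coe_subtype]
      exact (Subgroup.inclusion_range hSN).symm
    · -- centralizer
      have hle : T.subgroupOf N ≤ Cfsg.pCore p ↥N := by
        apply Cfsg.Agent.H01.le_pCore
        · exact hTn.subgroupOf N
        · exact hTp.of_equiv (Subgroup.subgroupOfEquivOfLe (hTS.trans hSN)).symm
      intro x hx
      apply hle
      rw [Subgroup.mem_subgroupOf]
      apply hc
      rw [Subgroup.mem_centralizer_iff]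
      intro t ht
      have h1 : (⟨t, hSN (hTS ht)⟩ : ↥N) ∈ Cfsg.pCore p ↥N := hle ht
      have := Subgroup.mem_centralizer_iff.mp hx _ h1
      exact congrArg Subtype.val this
    · constructor
      rintro _ ⟨j, hj, rfl⟩ n
      have h1 : (j : G) ∈ J₁ := ⟨j, hj, rfl⟩
      have h2 : (n : G) * j * (n : G)⁻¹ ∈ J₁ := (Subgroup.mem_normalizer_iff.mp n.2 j).mp h1
      obtain ⟨j', hj', he⟩ := h2
      refine ⟨j', hj', ?_⟩
      apply Subtype.ext
      exact he
    · intro V _ hV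
      apply hst3 S V
      have := Subgroup.map_mono (f := N.subtype) hV
      rw [Subgroup.map_map, hτsub] at this
      exact this
  have hW₁N : ∀ n ∈ N, ∀ w ∈ W₁, n * w * n⁻¹ ∈ W₁ := by
    rintro n hn _ ⟨w, hw, rfl⟩
    have h1 := stableNormalClosure_map_normal hτst
    obtain ⟨w', hw', he⟩ := h1.conj_mem (τ w) ⟨w, hw, rfl⟩ ⟨n, hn⟩
    refine ⟨w', hw', ?_⟩
    exact congrArg Subtype.val he
  -- Step 9
  constructor
  intro w hw g
  have hg : g ∈ ((Subgroup.normalizer ((S₀ ⊓ C : Subgroup G) : Set G) ⊔ C : Subgroup G) : Set G) := by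
    rw [hFr]
    trivial
  rw [Subgroup.mul_normal] at hg
  obtain ⟨m, hm, c, hc', rfl⟩ := Set.mem_mul.mp hg
  have h1 : c * w = w * c := (Subgroup.mem_centralizer_iff.mp hc' w (hW₁V₁ hw)).symm
  have h2 : m * c * w * (m * c)⁻¹ = m * w * m⁻¹ := by
    calc m * c * w * (m * c)⁻¹ = m * (c * w) * c⁻¹ * m⁻¹ := by group
      _ = m * (w * c) * c⁻¹ * m⁻¹ := by rw [h1]
      _ = m * w * m⁻¹ := by group
  rw [h2]
  exact hW₁N m (hNJ hm) w hw

end Cfsg.Agent.S0624
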