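import Cfsg.Statements.S5638

set_option autoImplicit false
open Cfsg

namespace Cfsg.Agent.S5638

open scoped Matrix MatrixGroups Kronecker
open Cfsg.Geo

section
variable {F : Type*} [Field F]

/-- The elements conjugating `W` to itself or its inverse. -/
def nrm {G : Type*} [Group G] (W : G) : Subgroup G where
  carrier := {g | g * W * g⁻¹ = W ∨ g * W * g⁻¹ = W⁻¹}
  mul_mem' {a b} ha hb := by
    have key : ∀ x : G, a * b * x * (a * b)⁻¹ = a * (b * x * b⁻¹) * a⁻¹ := fun x => by group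
    change a * b * W * (a * b)⁻¹ = W ∨ a * b * W * (a * b)⁻¹ = W⁻¹
    rw [key]
    have hinv : a * W⁻¹ * a⁻¹ = (a * W * a⁻¹)⁻¹ := by group
    rcases ha with ha | ha <;> rcases hb with hb | hb
    · left; rw [hb, ha]
    · right; rw [hb, hinv, ha]
    · right; rw [hb, ha]
    · left; rw [hb, hinv, ha, inv_inv]
  one_mem' := by
    left
    simp
  inv_mem' {a} ha := by
    change a⁻¹ * W * a⁻¹⁻¹ = W ∨ a⁻¹ * W * a⁻¹⁻¹ = W⁻¹
    rcases ha with ha | ha
    · left
      calc a⁻¹ * W * a⁻¹⁻¹ = a⁻¹ * (a * W * a⁻¹) * a⁻¹⁻¹ := by rw [ha]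
        _ = W := by group
    · right
      calc a⁻¹ * W * a⁻¹⁻¹ = a⁻¹ * (a * W * a⁻¹)⁻¹ * a⁻¹⁻¹ := by rw [ha, inv_inv W]
        _ = W⁻¹ := by group

theorem kron_one_eq {n₂ : ℕ} (A : Matrix (Fin 2) (Fin 2) F) :
    (A ⊗ₖ (1 : Matrix (Fin n₂) (Fin n₂) F)) = Matrix.blockDiagonal (fun _ => A) := by
  ext ⟨i, j⟩ ⟨i', j'⟩
  simp [Matrix.kroneckerMap_apply, Matrix.one_apply, Matrix.blockDiagonal_apply]

theorem key_lemma [Fintype F] (hq : Fintype.card F = 2) {n₂ : ℕ} (hn : 2 ≤ n₂) :
    ∃ K : Subgroup (GL (Fin 2 × Fin n₂) F), kroneckerSubgroup 2 n₂ F < K ∧ K < ⊤ := by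
  classical
  have h2 : (2 : F) = 0 := by
    have : (Fintype.card F : F) = 0 := by simp
    rw [hq] at this
    exact_mod_cast this
  have hone : ∀ a : F, a ≠ 0 → a = 1 := by
    intro a ha
    have := FiniteField.pow_card_sub_one_eq_one a ha
    rw [hq] at this
    simpa using this
  have hzo : ∀ a : F, a = 0 ∨ a = 1 := fun a => by
    by_cases ha : a = 0
    · exact Or.inl ha
    · exact Or.inr (hone a ha)
  let ω : Matrix (Fin 2) (Fin 2) F := !![0, 1; 1, 1]
  let ω' : Matrix (Fin 2) (Fin 2) F := !![1, 1; 1, 0]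
  have hωω' : ω * ω' = 1 := by
    ext i j
    fin_cases i <;> fin_cases j <;> simp [ω, ω', Matrix.mul_apply, Fin.sum_univ_two] <;> linear_combination h2
  have hω'ω : ω' * ω = 1 := by
    ext i j
    fin_cases i <;> fin_cases j <;> simp [ω, ω', Matrix.mul_apply, Fin.sum_univ_two] <;> linear_combination h2
  let W : GL (Fin 2 × Fin n₂) F :=
    ⟨ω ⊗ₖ (1 : Matrix (Fin n₂) (Fin n₂) F), ω' ⊗ₖ (1 : Matrix (Fin n₂) (Fin n₂) F),
      by rw [← Matrix.mul_kronecker_mul, hωω', Matrix.one_mul, Matrix.one_kronecker_one],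
      by rw [← Matrix.mul_kronecker_mul, hω'ω, Matrix.one_mul, Matrix.one_kronecker_one]⟩
  have hWv : (W : Matrix (Fin 2 × Fin n₂) (Fin 2 × Fin n₂) F) = Matrix.blockDiagonal (fun _ => ω) := kron_one_eq ω
  have hWiv : ((W⁻¹ : GL (Fin 2 × Fin n₂) F) : Matrix (Fin 2 × Fin n₂) (Fin 2 × Fin n₂) F) = Matrix.blockDiagonal (fun _ => ω') := kron_one_eq ω'
  -- Kronecker products normalise
  have hle : kroneckerSubgroup 2 n₂ F ≤ nrm W := by
    rintro g ⟨a, b, hg⟩
    have hcases : ((a : Matrix (Fin 2) (Fin 2) F) * ω = ω * (a : Matrix (Fin 2) (Fin 2) F)) ∨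
        ((a : Matrix (Fin 2) (Fin 2) F) * ω = ω' * (a : Matrix (Fin 2) (Fin 2) F)) := by
      have hdet : (a : Matrix (Fin 2) (Fin 2) F).det ≠ 0 := by
        have := a.isUnit
        exact ((Matrix.isUnit_iff_isUnit_det _).mp this).ne_zero
      rw [Matrix.det_fin_two] at hdet
      have hex : (a : Matrix (Fin 2) (Fin 2) F) =
          !![(a : Matrix (Fin 2) (Fin 2) F) 0 0, (a : Matrix (Fin 2) (Fin 2) F) 0 1;
             (a : Matrix (Fin 2) (Fin 2) F) 1 0, (a : Matrix (Fin 2) (Fin 2) F) 1 1] := by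
        ext i j
        fin_cases i <;> fin_cases j <;> rfl
      rw [hex]
      generalize (a : Matrix (Fin 2) (Fin 2) F) 0 0 = x00 at *
      generalize (a : Matrix (Fin 2) (Fin 2) F) 0 1 = x01 at *
      generalize (a : Matrix (Fin 2) (Fin 2) F) 1 0 = x10 at *
      generalize (a : Matrix (Fin 2) (Fin 2) F) 1 1 = x11 at *
      have h11 : (1 : F) + 1 = 0 := by linear_combination h2
      have hcond : (x01 = x10 ∧ x11 = x00 + x01) ∨ (x11 = x00 ∧ x01 = x00 + x10) := by
        rcases hzo x00 with rfl | rfl <;> rcases hzo x01 with rfl | rfl <;>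
          rcases hzo x10 with rfl | rfl <;> rcases hzo x11 with rfl | rfl <;>
          first
          | (exfalso; apply hdet; simp [h11]; done)
          | (exfalso; apply hdet; simp [h11, sub_eq_add_neg]; done)
          | (simp [h11]; done)
      rcases hcond with ⟨rfl, rfl⟩ | ⟨rfl, rfl⟩
      · left
        ext i j
        fin_cases i <;> fin_cases j <;> simp [ω, Matrix.mul_apply, Fin.sum_univ_two] <;> ring
      · right
        ext i j
        fin_cases i <;> fin_cases j <;> simp [ω, ω', Matrix.mul_apply, Fin.sum_univ_two] <;> ring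
    have hWk : (W : Matrix (Fin 2 × Fin n₂) (Fin 2 × Fin n₂) F) = ω ⊗ₖ (1 : Matrix (Fin n₂) (Fin n₂) F) := rfl
    have hWik : ((W⁻¹ : GL (Fin 2 × Fin n₂) F) : Matrix (Fin 2 × Fin n₂) (Fin 2 × Fin n₂) F) = ω' ⊗ₖ (1 : Matrix (Fin n₂) (Fin n₂) F) := rfl
    rcases hcases with hc | hc
    · left
      have : g * W = W * g := by
        apply Units.ext
        rw [Units.val_mul, Units.val_mul, hg, hWk, ← Matrix.mul_kronecker_mul, ← Matrix.mul_kronecker_mul, hc,
          Matrix.mul_one, Matrix.one_mul]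
      rw [this]
      group
    · right
      have : g * W = W⁻¹ * g := by
        apply Units.ext
        rw [Units.val_mul, Units.val_mul, hg, hWk, hWik, ← Matrix.mul_kronecker_mul, ← Matrix.mul_kronecker_mul, hc,
          Matrix.mul_one, Matrix.one_mul]
      rw [this]
      group
  let j0 : Fin n₂ := ⟨0, by omega⟩
  let j1 : Fin n₂ := ⟨1, by omega⟩
  have hj : j0 ≠ j1 := by simp [j0, j1, Fin.ext_iff]
  -- a matrix commuting with `W`, not a Kronecker product
  let M : Fin n₂ → Matrix (Fin 2) (Fin 2) F := fun j => if j = j0 then ω else 1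
  let M' : Fin n₂ → Matrix (Fin 2) (Fin 2) F := fun j => if j = j0 then ω' else 1
  have hMM' : ∀ j, M j * M' j = 1 := by
    intro j
    by_cases h : j = j0 <;> simp [M, M', h, hωω']
  have hM'M : ∀ j, M' j * M j = 1 := by
    intro j
    by_cases h : j = j0 <;> simp [M, M', h, hω'ω]
  let g₁ : GL (Fin 2 × Fin n₂) F :=
    ⟨Matrix.blockDiagonal M, Matrix.blockDiagonal M',
      by rw [← Matrix.blockDiagonal_mul]; simp only [hMM']; exact Matrix.blockDiagonal_one,
      by rw [← Matrix.blockDiagonal_mul]; simp only [hM'M]; exact Matrix.blockDiagonal_one⟩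
  have hg₁W : g₁ * W = W * g₁ := by
    apply Units.ext
    rw [Units.val_mul, Units.val_mul, hWv]
    change Matrix.blockDiagonal M * _ = _ * Matrix.blockDiagonal M
    rw [← Matrix.blockDiagonal_mul, ← Matrix.blockDiagonal_mul]
    congr 1
    funext j
    by_cases h : j = j0 <;> simp [M, h]
  have hg₁K : g₁ ∈ nrm W := by
    left
    rw [hg₁W]
    group
  have hg₁N : g₁ ∉ kroneckerSubgroup 2 n₂ F := by
    rintro ⟨a, b, hg⟩
    have hgent : ∀ i i' j j', (Matrix.blockDiagonal M) (i, j) (i', j') =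
        (a : Matrix (Fin 2) (Fin 2) F) i i' * (b : Matrix (Fin n₂) (Fin n₂) F) j j' :=
      fun i i' j j' => congrFun (congrFun hg (i, j)) (i', j')
    have e1 := hgent 0 0 j1 j1
    have e2 := hgent 0 1 j1 j1
    have e3 := hgent 0 1 j0 j0
    have hMj1 : M j1 = 1 := by simp [M, hj.symm]
    have hMj0 : M j0 = ω := by simp [M]
    simp only [Matrix.blockDiagonal_apply, if_true, hMj1, hMj0] at e1 e2 e3
    rw [Matrix.one_apply_eq] at e1
    rw [Matrix.one_apply_ne (by simp)] at e2
    have e3' : (1 : F) = (a : Matrix (Fin 2) (Fin 2) F) 0 1 * (b : Matrix (Fin n₂) (Fin n₂) F) j0 j0 := e3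
    have hβ : (b : Matrix (Fin n₂) (Fin n₂) F) j1 j1 ≠ 0 := by
      intro h0
      rw [h0, mul_zero] at e1
      exact one_ne_zero e1
    have ha : (a : Matrix (Fin 2) (Fin 2) F) 0 1 = 0 := by
      rcases mul_eq_zero.mp e2.symm with h | h
      · exact h
      · exact absurd h hβ
    rw [ha, zero_mul] at e3'
    exact one_ne_zero e3'
  -- a transvection not normalising
  let p : Fin 2 × Fin n₂ := (0, j0)
  let q : Fin 2 × Fin n₂ := (0, j1)
  have hpq : p ≠ q := by simp [p, q, hj]
  have htt : Matrix.transvection p q (1 : F) * Matrix.transvection p q (1 : F) = 1 := by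
    rw [Matrix.transvection_mul_transvection_same _ _ hpq]
    have : (1 : F) + 1 = 0 := by linear_combination h2
    rw [this, Matrix.transvection_zero]
  let g₂ : GL (Fin 2 × Fin n₂) F := ⟨Matrix.transvection p q (1 : F), Matrix.transvection p q (1 : F), htt, htt⟩
  have hg₂v : (g₂ : Matrix (Fin 2 × Fin n₂) (Fin 2 × Fin n₂) F) = 1 + Matrix.single p q (1 : F) := rfl
  have hg₂K : g₂ ∉ nrm W := by
    rintro (h | h)
    · have hc : g₂ * W = W * g₂ := by
        calc g₂ * W = (g₂ * W * g₂⁻¹) * g₂ := by group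
          _ = W * g₂ := by rw [h]
      have e0 : ((g₂ * W : GL (Fin 2 × Fin n₂) F) : Matrix (Fin 2 × Fin n₂) (Fin 2 × Fin n₂) F) = ((W * g₂ : GL (Fin 2 × Fin n₂) F) : Matrix (Fin 2 × Fin n₂) (Fin 2 × Fin n₂) F) := by rw [hc]
      have e := congrFun (congrFun e0 p) (1, j1)
      rw [Units.val_mul, Units.val_mul, hg₂v, Matrix.add_mul, Matrix.mul_add, Matrix.one_mul, Matrix.mul_one,
        Matrix.add_apply, Matrix.add_apply, Matrix.single_mul_apply_same,
        Matrix.mul_single_apply_of_ne (hbj := by simp [q]), hWv] at e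
      simp only [p, q, Matrix.blockDiagonal_apply, if_true, hj, if_false] at e
      simp [ω] at e
    · have hc : g₂ * W = W⁻¹ * g₂ := by
        calc g₂ * W = (g₂ * W * g₂⁻¹) * g₂ := by group
          _ = W⁻¹ * g₂ := by rw [h]
      let r : Fin 2 × Fin n₂ := (1, j0)
      have e0 : ((g₂ * W : GL (Fin 2 × Fin n₂) F) : Matrix (Fin 2 × Fin n₂) (Fin 2 × Fin n₂) F) = ((W⁻¹ * g₂ : GL (Fin 2 × Fin n₂) F) : Matrix (Fin 2 × Fin n₂) (Fin 2 × Fin n₂) F) := by rw [hc]
      have e := congrFun (congrFun e0 r) r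
      rw [Units.val_mul, Units.val_mul, hg₂v, Matrix.add_mul, Matrix.mul_add, Matrix.one_mul, Matrix.mul_one,
        Matrix.add_apply, Matrix.add_apply, Matrix.single_mul_apply_of_ne (h := by simp [p, r]),
        Matrix.mul_single_apply_of_ne (hbj := by simp [q, r, hj]), hWv, hWiv] at e
      simp only [r, Matrix.blockDiagonal_apply, if_true] at e
      simp [ω, ω'] at e
  exact ⟨nrm W, lt_of_le_of_ne hle (fun h => hg₁N (h ▸ hg₁K)),
    lt_of_le_of_ne le_top (fun h => hg₂K (h ▸ Subgroup.mem_top g₂))⟩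

end


/-- Over the field with 2 elements, for n = 2 n₂ ≥ 13, the stabiliser in SL_n of a tensor decomposition with factors of dimensions 2 and n₂ (the conjugate by any P of the Kronecker-product subgroup transported along any bijection Fin n ≃ Fin 2 × Fin n₂, intersected with SL_n) is not a maximal subgroup: some subgroup lies strictly between it and SL_n. -/
theorem result {F : Type*} [Field F] [Fintype F] (n : ℕ) (hn : 13 ≤ n) (hq : Fintype.card F = 2) (n₂ : ℕ) (e : Fin n ≃ Fin 2 × Fin n₂) (P : Matrix.GeneralLinearGroup (Fin n) F) : ∃ K : Subgroup (Matrix.GeneralLinearGroup (Fin n) F), Cfsg.Geo.tensorProductSubgroup 2 n₂ e P ⊓ Cfsg.Geo.specialLinear (Fin n) F < K ∧ K < Cfsg.Geo.specialLinear (Fin n) F := by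
  classical
  have hcard : n = 2 * n₂ := by
    have := Fintype.card_congr e
    simpa using this
  obtain ⟨K', h1, h2⟩ := key_lemma hq (n₂ := n₂) (by omega)
  have hone : ∀ a : F, a ≠ 0 → a = 1 := by
    intro a ha
    have := FiniteField.pow_card_sub_one_eq_one a ha
    rw [hq] at this
    simpa using this
  have hSL : specialLinear (Fin n) F = ⊤ := by
    rw [eq_top_iff]
    intro g _
    rw [specialLinear, MonoidHom.mem_ker]
    apply Units.ext
    exact hone _ (Units.ne_zero _)
  rw [hSL, inf_top_eq]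
  let φ₁ := (glReindex (F := F) e.symm).toMonoidHom
  let φ₂ := (MulAut.conj P).toMonoidHom
  have hφ₁ : Function.Injective φ₁ := (glReindex (F := F) e.symm).injective
  have hφ₂ : Function.Injective φ₂ := (MulAut.conj P).injective
  refine ⟨(K'.map φ₁).map φ₂, ?_, ?_⟩
  · exact (Subgroup.map_lt_map_iff_of_injective hφ₂).mpr ((Subgroup.map_lt_map_iff_of_injective hφ₁).mpr h1)
  · have h3 := (Subgroup.map_lt_map_iff_of_injective hφ₂).mpr ((Subgroup.map_lt_map_iff_of_injective hφ₁).mpr h2)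
    rwa [Subgroup.map_top_of_surjective φ₁ (glReindex (F := F) e.symm).surjective,
      Subgroup.map_top_of_surjective φ₂ (MulAut.conj P).surjective] at h3

end Cfsg.Agent.S5638
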