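import Cfsg.Statements.S5667
import Cfsg.Agent.Lib.H27.GeoDec
import Cfsg.Agent.Lib.H27.TvGL
import Cfsg.Agent.Lib.H27.GeoTens
import Cfsg.Agent.Lib.Lead.SpBasic

set_option autoImplicit false
open Cfsg

namespace Cfsg.Agent.S5667

open scoped Matrix MatrixGroups Kronecker
open Cfsg.Geo Cfsg.Agent.H27.GD Cfsg.Agent.H27.GT

section
variable {F : Type*} [Field F] [Fintype F]

theorem three_eq_zero' (hq : Fintype.card F = 3) : (3 : F) = 0 := by
  have : (Fintype.card F : F) = 0 := by simp
  rw [hq] at this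
  exact_mod_cast this

theorem two_ne_zero'' (hq : Fintype.card F = 3) : (2 : F) ≠ 0 := by
  intro h
  have h3 := three_eq_zero' hq
  have : (1 : F) = 0 := by linear_combination h3 - h
  exact one_ne_zero this

theorem sq_eq_one' (hq : Fintype.card F = 3) {a : F} (ha : a ≠ 0) : a ^ 2 = 1 := by
  have := FiniteField.pow_card_sub_one_eq_one a ha
  rw [hq] at this
  simpa using this

theorem eq_one_or_neg (hq : Fintype.card F = 3) {a : F} (ha : a ≠ 0) : a = 1 ∨ a = -1 := by
  have h := sq_eq_one' hq ha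
  have : (a - 1) * (a + 1) = 0 := by linear_combination h
  rcases mul_eq_zero.mp this with h1 | h1
  · exact Or.inl (sub_eq_zero.mp h1)
  · exact Or.inr (eq_neg_of_add_eq_zero_left h1)

/-- An orthogonal frame with equal norms. -/
theorem exists_frame (hq : Fintype.card F = 3) {f : (Fin 3 → F) → (Fin 3 → F) → F} (hf : IsSymmetricForm f) :
    ∃ (u : Fin 3 → (Fin 3 → F)) (ν : F), ν ≠ 0 ∧ ∀ k l, f (u k) (u l) = if k = l then ν else 0 := by
  classical
  have h3 := three_eq_zero' hq
  have h2 := two_ne_zero'' hq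
  haveI : Invertible (2 : F) := invertibleOfNonzero h2
  let B : LinearMap.BilinForm F (Fin 3 → F) :=
    LinearMap.mk₂ F f hf.bilinear.add_left hf.bilinear.smul_left hf.bilinear.add_right hf.bilinear.smul_right
  have hB : LinearMap.IsSymm B := ⟨fun x y => by
    change f x y = f y x
    exact hf.symm x y⟩
  obtain ⟨v₀, hv₀⟩ := LinearMap.BilinForm.exists_orthogonal_basis hB
  have hrk : Module.finrank F (Fin 3 → F) = 3 := by simp
  let w : Module.Basis (Fin 3) F (Fin 3 → F) := v₀.reindex (finCongr hrk)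
  have hw : ∀ i j, i ≠ j → f (w i) (w j) = 0 := by
    intro i j hij
    have : f (v₀ ((finCongr hrk).symm i)) (v₀ ((finCongr hrk).symm j)) = 0 := hv₀ (by
      intro h
      exact hij ((finCongr hrk).symm.injective h))
    simpa [w, Module.Basis.reindex_apply] using this
  have hn : ∀ i, f (w i) (w i) ≠ 0 := by
    intro i h0
    obtain ⟨⟨x, hx⟩, -⟩ := hf.nondegenerate (w i) (w.ne_zero i)
    apply hx
    let L : (Fin 3 → F) →ₗ[F] F := LinearMap.flip B (w i)
    have hL : L = 0 := by
      apply w.ext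
      intro j
      change f (w j) (w i) = 0
      by_cases hji : j = i
      · rw [hji, h0]
      · exact hw j i hji
    have : L x = 0 := by rw [hL]; rfl
    exact this
  -- the transformation
  have key : ∀ i j k : Fin 3, i ≠ j → i ≠ k → j ≠ k → f (w i) (w i) = f (w j) (w j) → f (w k) (w k) = - f (w i) (w i) →
      ∃ (u : Fin 3 → (Fin 3 → F)) (ν : F), ν ≠ 0 ∧ ∀ k l, f (u k) (u l) = if k = l then ν else 0 := by
    intro i j k hij hik hjk he hk
    refine ⟨![w i + w j, w i - w j, w k], f (w k) (w k), hn k, ?_⟩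
    have hsub : ∀ x y z : Fin 3 → F, f (x - y) z = f x z - f y z := by
      intro x y z
      have : x - y = x + (-1 : F) • y := by simp [sub_eq_add_neg]
      rw [this, hf.bilinear.add_left, hf.bilinear.smul_left]
      ring
    have hsub' : ∀ x y z : Fin 3 → F, f z (x - y) = f z x - f z y := by
      intro x y z
      rw [hf.symm, hsub, hf.symm x, hf.symm y]
    have hal := hf.bilinear.add_left
    have har := hf.bilinear.add_right
    have hwij := hw i j hij
    have hwji := hw j i (Ne.symm hij)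
    have hwik := hw i k hik
    have hwki := hw k i (Ne.symm hik)
    have hwjk := hw j k hjk
    have hwkj := hw k j (Ne.symm hjk)
    intro a b
    fin_cases a <;> fin_cases b <;>
      simp only [Matrix.cons_val_zero, Matrix.cons_val_one, Matrix.cons_val, Fin.isValue, Fin.zero_eta, Fin.mk_one, Fin.reduceFinMk] <;>
      simp only [hal, har, hsub, hsub', hwij, hwji, hwik, hwki, hwjk, hwkj, ← he, hk]
    · simp only [if_true]
      linear_combination f (w i) (w i) * h3
    · simp
    · simp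
    · simp
    · simp only [if_true]
      linear_combination f (w i) (w i) * h3
    · simp
    · simp
    · simp
    · simp
  -- case analysis
  have hneg : ∀ a b : F, a ≠ 0 → b ≠ 0 → a ≠ b → b = -a := by
    intro a b ha hb hab
    rcases eq_one_or_neg hq ha with rfl | rfl <;> rcases eq_one_or_neg hq hb with rfl | rfl
    · exact absurd rfl hab
    · rfl
    · simp
    · exact absurd rfl hab
  by_cases h01 : f (w 0) (w 0) = f (w 1) (w 1)
  · by_cases h02 : f (w 0) (w 0) = f (w 2) (w 2)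
    · refine ⟨w, f (w 0) (w 0), hn 0, fun k l => ?_⟩
      by_cases hkl : k = l
      · subst hkl
        rw [if_pos rfl]
        fin_cases k
        · rfl
        · exact h01.symm
        · exact h02.symm
      · rw [if_neg hkl]
        exact hw k l hkl
    · exact key 0 1 2 (by decide) (by decide) (by decide) h01 (hneg _ _ (hn 0) (hn 2) h02)
  · by_cases h02 : f (w 0) (w 0) = f (w 2) (w 2)
    · exact key 0 2 1 (by decide) (by decide) (by decide) h02 (hneg _ _ (hn 0) (hn 1) h01)
    · have h1 := hneg _ _ (hn 0) (hn 1) h01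
      have h2' := hneg _ _ (hn 0) (hn 2) h02
      have h12 : f (w 1) (w 1) = f (w 2) (w 2) := h1.trans h2'.symm
      refine key 1 2 0 (by decide) (by decide) (by decide) h12 ?_
      rw [h1, neg_neg]


/-- The frame is a basis. -/
theorem frame_basis {f : (Fin 3 → F) → (Fin 3 → F) → F} (hf : IsSymmetricForm f)
    (u : Fin 3 → (Fin 3 → F)) (ν : F) (hν : ν ≠ 0) (hu : ∀ k l, f (u k) (u l) = if k = l then ν else 0) :
    ∃ w : Module.Basis (Fin 3) F (Fin 3 → F), ∀ k, w k = u k := by
  classical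
  have hli : LinearIndependent F u := by
    rw [Fintype.linearIndependent_iff]
    intro g hg i
    have h1 := congrArg (fun z => f z (u i)) hg
    have hz : f 0 (u i) = 0 := by
      have := hf.bilinear.smul_left 0 0 (u i)
      simpa using this
    have hs : ∀ (s : Finset (Fin 3)) (a : Fin 3 → (Fin 3 → F)), f (∑ k ∈ s, a k) (u i) = ∑ k ∈ s, f (a k) (u i) := by
      intro s a
      induction s using Finset.induction_on with
      | empty => simpa using hz
      | insert b s hb ih => rw [Finset.sum_insert hb, Finset.sum_insert hb, hf.bilinear.add_left, ih]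
    simp only [hs, hf.bilinear.smul_left, hu, hz] at h1
    simp only [mul_ite, mul_zero, Finset.sum_ite_eq', Finset.mem_univ, if_true] at h1
    exact (mul_eq_zero.mp h1).resolve_right hν
  refine ⟨basisOfLinearIndependentOfCardEqFinrank hli (by simp), fun k => ?_⟩
  simp only [coe_basisOfLinearIndependentOfCardEqFinrank]

/-- The determinant forces the multiplier of a similarity of a ternary form over `F₃` to be one. -/
theorem mult_eq_one (hq : Fintype.card F = 3) {f : (Fin 3 → F) → (Fin 3 → F) → F} (hf : IsSymmetricForm f)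
    (b : GL (Fin 3) F) (μ : F) (hμ : μ ≠ 0)
    (h : ∀ x y, f ((b : Matrix (Fin 3) (Fin 3) F) *ᵥ x) ((b : Matrix (Fin 3) (Fin 3) F) *ᵥ y) = μ * f x y) : μ = 1 := by
  classical
  let G : Matrix (Fin 3) (Fin 3) F := gramMatrix f
  have hform : ∀ x y, f x y = x ⬝ᵥ (G *ᵥ y) := by
    intro x y
    rw [form_eq_formOfGram_id hf.bilinear]
    simp only [formOfGram, id, dotProduct, Matrix.mulVec, Finset.mul_sum, G]
    exact Finset.sum_congr rfl fun a _ => Finset.sum_congr rfl fun c _ => by ring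
  have hG : ((b : Matrix (Fin 3) (Fin 3) F)ᵀ * G * (b : Matrix (Fin 3) (Fin 3) F)) = μ • G := by
    ext i j
    have h1 := h (Pi.single i 1) (Pi.single j 1)
    rw [hform, hform] at h1
    rw [Matrix.smul_apply, smul_eq_mul]
    have h2 : G i j = (Pi.single i (1 : F) : Fin 3 → F) ⬝ᵥ (G *ᵥ Pi.single j 1) := by
      simp
    rw [h2, ← h1]
    simp [Matrix.mul_apply, dotProduct, Matrix.mulVec, Finset.mul_sum, Finset.sum_mul, Pi.single_apply]
    rw [Finset.sum_comm]
    refine Finset.sum_congr rfl fun a _ => Finset.sum_congr rfl fun c _ => by ring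
  have hdetG : G.det ≠ 0 := by
    intro h0
    obtain ⟨v, hv, hGv⟩ := Matrix.exists_mulVec_eq_zero_iff.mpr h0
    obtain ⟨⟨x, hx⟩, -⟩ := hf.nondegenerate v hv
    apply hx
    rw [hform, hGv]
    simp
  have hdet := congrArg Matrix.det hG
  rw [Matrix.det_mul, Matrix.det_mul, Matrix.det_transpose, Matrix.det_smul] at hdet
  simp only [Fintype.card_fin] at hdet
  have hb : (b : Matrix (Fin 3) (Fin 3) F).det ≠ 0 :=
    ((Matrix.isUnit_iff_isUnit_det _).mp b.isUnit).ne_zero
  have h4 : μ ^ 3 = (b : Matrix (Fin 3) (Fin 3) F).det ^ 2 := by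
    have : (μ ^ 3 - (b : Matrix (Fin 3) (Fin 3) F).det ^ 2) * G.det = 0 := by linear_combination -hdet
    exact sub_eq_zero.mp ((mul_eq_zero.mp this).resolve_right hdetG)
  rw [sq_eq_one' hq hb] at h4
  rcases eq_one_or_neg hq hμ with h5 | h5
  · exact h5
  · exfalso
    rw [h5] at h4
    have h3 := three_eq_zero' hq
    have : (2 : F) = 0 := by linear_combination -h4
    exact two_ne_zero'' hq this

/-- The abstract form of the statement on the product index. -/
theorem main_abs (hq : Fintype.card F = 3) {n₁ : ℕ} (hn : 0 < n₁)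
    (ψ : (Fin n₁ × Fin 3 → F) → (Fin n₁ × Fin 3 → F) → F) (hψb : IsBilinearForm ψ)
    (ψself : ∀ x, ψ x x = 0)
    (f₁ : (Fin n₁ → F) → (Fin n₁ → F) → F) (f₂ : (Fin 3 → F) → (Fin 3 → F) → F)
    (hf₁ : IsSymplecticForm f₁) (hf₂ : IsSymmetricForm f₂) (c : F) (hc : c ≠ 0)
    (hψ : ∀ p r s t, ψ (ptens p s) (ptens r t) = c * (f₁ p r * f₂ s t)) :
    ∃ K : Subgroup (GL (Fin n₁ × Fin 3) F),
      kroneckerSubgroup n₁ 3 F ⊓ isoF ψ < K ∧ K < isoF ψ := by
  classical
  have h3 := three_eq_zero' hq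
  have h20 := two_ne_zero'' hq
  have hal := hψb.add_left
  have har := hψb.add_right
  have hsl := hψb.smul_left
  have hsr := hψb.smul_right
  have hskew : ∀ x y, ψ x y = - ψ y x := by
    intro x y
    have h1 := ψself (x + y)
    rw [hal, har, har, ψself, ψself] at h1
    linear_combination h1
  obtain ⟨u, ν, hν, hu⟩ := exists_frame hq hf₂
  obtain ⟨w, hw⟩ := frame_basis hf₂ u ν hν hu
  haveI : Nonempty (Fin n₁) := ⟨⟨0, hn⟩⟩
  let p : Fin n₁ → F := Pi.single (Classical.arbitrary _) 1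
  have hp0 : p ≠ 0 := by
    intro h
    have := congrFun h (Classical.arbitrary _)
    simp [p] at this
  obtain ⟨⟨r₀, hr₀⟩, -⟩ := hf₁.nondegenerate p hp0
  -- blocks
  let D : Fin 3 → Submodule F (Fin n₁ × Fin 3 → F) := fun k =>
    LinearMap.range
      ({ toFun := fun r => ptens r (u k)
         map_add' := fun a b => ptens_add_left a b _
         map_smul' := fun a r => ptens_smul_left a r _ } : (Fin n₁ → F) →ₗ[F] (Fin n₁ × Fin 3 → F))
  have hmemD : ∀ k r, ptens r (u k) ∈ D k := fun k r => ⟨r, rfl⟩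
  have hDex : ∀ k x, x ∈ D k → ∃ r, x = ptens r (u k) := by
    rintro k x ⟨r, rfl⟩
    exact ⟨r, rfl⟩
  -- isometries: transvections
  have hT : ∀ v, ∃ g : GL (Fin n₁ × Fin 3) F, g ∈ isoF ψ ∧
      (∀ x, (g : Matrix (Fin n₁ × Fin 3) (Fin n₁ × Fin 3) F) *ᵥ x = x + ψ x v • v) := by
    intro v
    let φ : Module.Dual F (Fin n₁ × Fin 3 → F) :=
      { toFun := fun x => ψ x v
        map_add' := fun x y => hal x y _
        map_smul' := fun a x => hsl a x _ }
    obtain ⟨g, hg, hgx⟩ := Cfsg.Agent.H27.Tv.exists_tv φ v (ψself v)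
    refine ⟨g, ?_, hgx⟩
    intro x y
    rw [hgx, hgx]
    change ψ (x + ψ x v • v) (y + ψ y v • v) = ψ x y
    rw [hal, har, har, hsl, hsl, hsr, hsr, ψself v, hskew v y]
    ring
  -- the stabiliser contains the Kronecker part
  have hle : kroneckerSubgroup n₁ 3 F ⊓ isoF ψ ≤ decompositionStabilizer D := by
    rintro g ⟨⟨a, b, hg⟩, hiso⟩
    have hgp : ∀ x y, (g : Matrix (Fin n₁ × Fin 3) (Fin n₁ × Fin 3) F) *ᵥ ptens x y =
        ptens ((a : Matrix (Fin n₁) (Fin n₁) F) *ᵥ x) ((b : Matrix (Fin 3) (Fin 3) F) *ᵥ y) := by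
      intro x y
      rw [hg, kron_mulVec_ptens]
    have hsim0 : ∀ x r s t, f₁ ((a : Matrix (Fin n₁) (Fin n₁) F) *ᵥ x) ((a : Matrix (Fin n₁) (Fin n₁) F) *ᵥ r) *
        f₂ ((b : Matrix (Fin 3) (Fin 3) F) *ᵥ s) ((b : Matrix (Fin 3) (Fin 3) F) *ᵥ t) = f₁ x r * f₂ s t := by
      intro x r s t
      have := hiso (ptens x s) (ptens r t)
      rw [hgp, hgp, hψ, hψ] at this
      exact mul_left_cancel₀ hc this
    -- multiplier
    have hr₀' : f₁ r₀ p ≠ 0 := hr₀
    let l := f₁ ((a : Matrix (Fin n₁) (Fin n₁) F) *ᵥ r₀) ((a : Matrix (Fin n₁) (Fin n₁) F) *ᵥ p)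
    have hl : l ≠ 0 := by
      intro h0
      have := hsim0 r₀ p (u 0) (u 0)
      rw [show f₁ _ _ = l from rfl, h0, zero_mul, hu] at this
      simp only [if_true] at this
      exact mul_ne_zero hr₀' hν this.symm
    let μ := f₁ r₀ p * l⁻¹
    have hμ : μ ≠ 0 := mul_ne_zero hr₀' (inv_ne_zero hl)
    have hsim : ∀ s t, f₂ ((b : Matrix (Fin 3) (Fin 3) F) *ᵥ s) ((b : Matrix (Fin 3) (Fin 3) F) *ᵥ t) = μ * f₂ s t := by
      intro s t
      have := hsim0 r₀ p s t
      simp only [μ]
      field_simp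
      rw [← this]
      simp only [l]
      ring
    have hμ1 := mult_eq_one hq hf₂ b μ hμ hsim
    have hsim' : ∀ s t, f₂ ((b : Matrix (Fin 3) (Fin 3) F) *ᵥ s) ((b : Matrix (Fin 3) (Fin 3) F) *ᵥ t) = f₂ s t := by
      intro s t
      rw [hsim, hμ1, one_mul]
    -- images of the frame
    have hframe : ∀ k, ∃ m, ∃ α : F, α ≠ 0 ∧ (b : Matrix (Fin 3) (Fin 3) F) *ᵥ u k = α • u m := by
      intro k
      have hnorm : f₂ ((b : Matrix (Fin 3) (Fin 3) F) *ᵥ u k) ((b : Matrix (Fin 3) (Fin 3) F) *ᵥ u k) = ν := by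
        rw [hsim', hu, if_pos rfl]
      generalize (b : Matrix (Fin 3) (Fin 3) F) *ᵥ u k = z at hnorm ⊢
      have hzexp : z = w.repr z 0 • u 0 + w.repr z 1 • u 1 + w.repr z 2 • u 2 := by
        have := w.sum_repr z
        simp only [Fin.sum_univ_three, hw] at this
        exact this.symm
      have hnorm' : f₂ z z = ν * ((w.repr z 0) ^ 2 + (w.repr z 1) ^ 2 + (w.repr z 2) ^ 2) := by
        conv_lhs => rw [hzexp]
        simp only [hf₂.bilinear.add_left, hf₂.bilinear.add_right, hf₂.bilinear.smul_left, hf₂.bilinear.smul_right, hu]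
        simp
        ring
      rw [hnorm] at hnorm'
      have hsum : (w.repr z 0) ^ 2 + (w.repr z 1) ^ 2 + (w.repr z 2) ^ 2 = 1 := by
        have : ν * ((w.repr z 0) ^ 2 + (w.repr z 1) ^ 2 + (w.repr z 2) ^ 2 - 1) = 0 := by linear_combination -hnorm'
        exact sub_eq_zero.mp ((mul_eq_zero.mp this).resolve_left hν)
      by_cases h0 : w.repr z 0 = 0 <;> by_cases h1 : w.repr z 1 = 0 <;> by_cases h2 : w.repr z 2 = 0
      · rw [h0, h1, h2] at hsum
        simp at hsum
      · refine ⟨2, w.repr z 2, h2, ?_⟩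
        rw [h0, h1, zero_smul, zero_smul, zero_add, zero_add] at hzexp
        exact hzexp
      · refine ⟨1, w.repr z 1, h1, ?_⟩
        rw [h0, h2, zero_smul, zero_smul, zero_add, add_zero] at hzexp
        exact hzexp
      · exfalso
        rw [h0, sq_eq_one' hq h1, sq_eq_one' hq h2] at hsum
        have : (1 : F) = 0 := by linear_combination hsum
        exact one_ne_zero this
      · refine ⟨0, w.repr z 0, h0, ?_⟩
        rw [h1, h2, zero_smul, zero_smul, add_zero, add_zero] at hzexp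
        exact hzexp
      · exfalso
        rw [h1, sq_eq_one' hq h0, sq_eq_one' hq h2] at hsum
        have : (1 : F) = 0 := by linear_combination hsum
        exact one_ne_zero this
      · exfalso
        rw [h2, sq_eq_one' hq h0, sq_eq_one' hq h1] at hsum
        have : (1 : F) = 0 := by linear_combination hsum
        exact one_ne_zero this
      · exfalso
        rw [sq_eq_one' hq h0, sq_eq_one' hq h1, sq_eq_one' hq h2] at hsum
        have : (1 : F) = 0 := by linear_combination h3 - hsum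
        exact one_ne_zero this
    choose τ α hα hτ using hframe
    have hinj : Function.Injective τ := by
      intro k l hkl
      by_contra hne
      have hkl' : (b : Matrix (Fin 3) (Fin 3) F) *ᵥ (α l • u k - α k • u l) = 0 := by
        rw [Matrix.mulVec_sub, Matrix.mulVec_smul, Matrix.mulVec_smul, hτ, hτ, hkl, smul_smul, smul_smul, mul_comm,
          sub_self]
      have h4 := mulVec_eq_zero_iff.mp hkl'
      have h5 : α l • u k = α k • u l := sub_eq_zero.mp h4
      have h6 := congrArg (fun z => f₂ z (u k)) h5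
      simp only [hf₂.bilinear.smul_left, hu] at h6
      simp only [if_true, Ne.symm hne, if_false, mul_zero] at h6
      exact mul_ne_zero (hα l) hν h6
    let σ : Equiv.Perm (Fin 3) := Equiv.ofBijective τ (Finite.injective_iff_bijective.mp hinj)
    refine ⟨σ, fun k => ?_⟩
    have hσk : σ k = τ k := rfl
    rw [hσk]
    apply le_antisymm
    · rintro _ ⟨x, hx, rfl⟩
      obtain ⟨r, rfl⟩ := hDex k x hx
      change (g : Matrix (Fin n₁ × Fin 3) (Fin n₁ × Fin 3) F) *ᵥ ptens r (u k) ∈ _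
      rw [hgp, hτ, ptens_smul_right, ← ptens_smul_left]
      exact hmemD _ _
    · intro x hx
      obtain ⟨r, rfl⟩ := hDex _ x hx
      refine ⟨ptens ((α k)⁻¹ • (((a⁻¹ : GL (Fin n₁) F) : Matrix (Fin n₁) (Fin n₁) F) *ᵥ r)) (u k), hmemD _ _, ?_⟩
      change (g : Matrix (Fin n₁ × Fin 3) (Fin n₁ × Fin 3) F) *ᵥ _ = _
      rw [hgp, hτ, Matrix.mulVec_smul, Matrix.mulVec_mulVec, ← Units.val_mul, mul_inv_cancel, Units.val_one,
        Matrix.one_mulVec, ptens_smul_left, ptens_smul_right, smul_smul, inv_mul_cancel₀ (hα k), one_smul]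
  -- first element
  let v₁ := ptens p (u 0)
  obtain ⟨g₁, hg₁, hg₁x⟩ := hT v₁
  have hψ0 : ∀ r, ψ (ptens r (u 0)) v₁ = c * (f₁ r p * ν) := by
    intro r
    simp only [v₁]
    rw [hψ, hu, if_pos rfl]
  have hψn : ∀ k r, k ≠ 0 → ψ (ptens r (u k)) v₁ = 0 := by
    intro k r hk
    simp only [v₁]
    rw [hψ, hu, if_neg hk]
    ring
  have hg₁D : ∀ k, ∀ x ∈ D k, (g₁ : Matrix (Fin n₁ × Fin 3) (Fin n₁ × Fin 3) F) *ᵥ x ∈ D k := by
    intro k x hx
    obtain ⟨r, rfl⟩ := hDex k x hx
    rw [hg₁x]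
    by_cases hk : k = 0
    · subst hk
      rw [hψ0]
      simp only [v₁]
      rw [← ptens_smul_left, ← ptens_add_left]
      exact hmemD _ _
    · rw [hψn k r hk, zero_smul, add_zero]
      exact hmemD _ _
  have hg₁sub : ∀ x, (g₁ : Matrix (Fin n₁ × Fin 3) (Fin n₁ × Fin 3) F) *ᵥ (x - ψ x v₁ • v₁) = x := by
    intro x
    rw [hg₁x]
    have : x - ψ x v₁ • v₁ = x + (- ψ x v₁) • v₁ := by simp [sub_eq_add_neg]
    rw [this, hal, hsl, ψself v₁]
    simp
  have hg₁Dsub : ∀ k, ∀ x ∈ D k, x - ψ x v₁ • v₁ ∈ D k := by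
    intro k x hx
    obtain ⟨r, rfl⟩ := hDex k x hx
    by_cases hk : k = 0
    · subst hk
      rw [hψ0]
      simp only [v₁]
      rw [← ptens_smul_left, sub_eq_add_neg, ← neg_one_smul F, ← ptens_smul_left, ← ptens_add_left]
      exact hmemD _ _
    · rw [hψn k r hk, zero_smul, sub_zero]
      exact hmemD _ _
  have hg₁L : g₁ ∈ decompositionStabilizer D := by
    refine ⟨1, fun k => ?_⟩
    apply le_antisymm
    · rintro _ ⟨x, hx, rfl⟩
      exact hg₁D k x hx
    · intro x hx
      exact ⟨_, hg₁Dsub k x hx, hg₁sub x⟩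
  have hg₁N : g₁ ∉ kroneckerSubgroup n₁ 3 F ⊓ isoF ψ := by
    rintro ⟨⟨a, b, hg⟩, -⟩
    have hgp : ∀ x y, (g₁ : Matrix (Fin n₁ × Fin 3) (Fin n₁ × Fin 3) F) *ᵥ ptens x y =
        ptens ((a : Matrix (Fin n₁) (Fin n₁) F) *ᵥ x) ((b : Matrix (Fin 3) (Fin 3) F) *ᵥ y) := by
      intro x y
      rw [hg, kron_mulVec_ptens]
    have hne : ∀ k, (b : Matrix (Fin 3) (Fin 3) F) *ᵥ u k ≠ 0 := fun k h0 => by
      have := mulVec_eq_zero_iff.mp h0
      have h5 := hu k k
      rw [this, if_pos rfl] at h5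
      have h6 := hf₂.bilinear.smul_left 0 0 0
      simp only [smul_zero, zero_mul] at h6
      exact hν (h5.symm.trans h6)
    have e1 : ptens ((a : Matrix (Fin n₁) (Fin n₁) F) *ᵥ r₀) ((b : Matrix (Fin 3) (Fin 3) F) *ᵥ u 1) = ptens r₀ (u 1) := by
      rw [← hgp, hg₁x, hψn 1 r₀ (by decide), zero_smul, add_zero]
    have e0 : ptens ((a : Matrix (Fin n₁) (Fin n₁) F) *ᵥ r₀) ((b : Matrix (Fin 3) (Fin 3) F) *ᵥ u 0) =
        ptens (r₀ + (c * (f₁ r₀ p * ν)) • p) (u 0) := by
      rw [← hgp, hg₁x, hψ0, ptens_add_left, ptens_smul_left]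
    obtain ⟨l1, hl1⟩ := ptens_eq_left (hne 1) e1
    obtain ⟨l0, hl0⟩ := ptens_eq_left (hne 0) e0
    have hκ : c * (f₁ r₀ p * ν) ≠ 0 := mul_ne_zero hc (mul_ne_zero hr₀ hν)
    have e : l1 • r₀ = l0 • (r₀ + (c * (f₁ r₀ p * ν)) • p) := hl1.symm.trans hl0
    have e' := congrArg (fun z => f₁ z p) e
    simp only [hf₁.bilinear.smul_left, hf₁.bilinear.add_left, hf₁.alternating, mul_zero, add_zero] at e'
    have hll : l1 = l0 := mul_right_cancel₀ hr₀ e'
    rw [← hll, smul_add] at e
    have e'' : l1 • (c * (f₁ r₀ p * ν)) • p = 0 := by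
      have := e
      rw [left_eq_add] at this
      exact this
    rw [smul_smul] at e''
    have hl10 : l1 = 0 := by
      rcases mul_eq_zero.mp ((smul_eq_zero.mp e'').resolve_right hp0) with h | h
      · exact h
      · exact absurd h hκ
    rw [hl10, zero_smul] at hl1
    have ht0 := mulVec_eq_zero_iff.mp hl1
    apply hr₀
    rw [ht0]
    have := hf₁.bilinear.smul_left 0 0 p
    simpa using this
  -- second element
  let v₂ := ptens p (u 0 + u 1)
  obtain ⟨g₂, hg₂, hg₂x⟩ := hT v₂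
  have hfu : ∀ k l, f₂ (u k) (u l) = if k = l then ν else 0 := hu
  have hg₂L : g₂ ∉ decompositionStabilizer D := by
    rintro ⟨σ, hσ⟩
    have hm : (g₂ : Matrix (Fin n₁ × Fin 3) (Fin n₁ × Fin 3) F) *ᵥ ptens r₀ (u 0) ∈ D (σ 0) :=
      apply_mem_of_stab hσ (hmemD 0 r₀)
    rw [hg₂x] at hm
    have hκ : ψ (ptens r₀ (u 0)) v₂ = c * (f₁ r₀ p * ν) := by
      simp only [v₂]
      rw [hψ, hf₂.bilinear.add_right, hu, hu]
      simp
    rw [hκ] at hm
    obtain ⟨r, hr⟩ := hDex _ _ hm
    have h10 : (1 : Fin 3) ≠ 0 := by decide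
    have h01 : (0 : Fin 3) ≠ 1 := by decide
    by_cases h1 : σ 0 = 1
    · rw [h1] at hr
      have := congrArg (fun z => ψ z (ptens p (u 0))) hr
      simp only [v₂, hal, hsl, hψ, hf₂.bilinear.add_left, hu, hf₁.alternating, if_true, h10, if_false] at this
      have h5 : c * (f₁ r₀ p * ν) = 0 := by linear_combination this
      exact mul_ne_zero hc (mul_ne_zero hr₀ hν) h5
    · have := congrArg (fun z => ψ z (ptens r₀ (u 1))) hr
      simp only [v₂, hal, hsl, hψ, hf₂.bilinear.add_left, hu, hf₁.alternating, if_true, h01, h1, if_false] at this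
      have hsk : f₁ p r₀ = - f₁ r₀ p := hf₁.skew _ _
      rw [hsk] at this
      have h5 : (c * (f₁ r₀ p * ν)) * (c * (f₁ r₀ p * ν)) = 0 := by linear_combination -this
      exact mul_ne_zero (mul_ne_zero hc (mul_ne_zero hr₀ hν)) (mul_ne_zero hc (mul_ne_zero hr₀ hν)) h5
  exact ⟨_, lt_lt_of_elements inf_le_right hle hg₁ hg₁L hg₁N hg₂ hg₂L⟩

end


/-- Over the field with 3 elements and for m ≥ 7, suppose the standard alternating form on F^(2m) is similar, through P and e, to the tensor product of a non-degenerate symplectic form f₁ on F^(n₁) and a non-degenerate symmetric bilinear form f₂ on F^3. Then the elements of Sp_2m(3) in the stabiliser of this tensor decomposition form a subgroup that is not maximal: some subgroup lies strictly between it and Sp_2m(3). -/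
theorem result {F : Type*} [Field F] [Fintype F] (m : ℕ) (hm : 7 ≤ m) (hq : Fintype.card F = 3) (n₁ : ℕ) (e : (Fin m ⊕ Fin m) ≃ Fin n₁ × Fin 3) (P : Matrix.GeneralLinearGroup (Fin m ⊕ Fin m) F) (f₁ : (Fin n₁ → F) → (Fin n₁ → F) → F) (f₂ : (Fin 3 → F) → (Fin 3 → F) → F) (hf₁ : Cfsg.Geo.IsSymplecticForm f₁) (hf₂ : Cfsg.Geo.IsSymmetricForm f₂) (hT : Cfsg.Geo.IsTensorFormStructure id (Cfsg.sympForm m F) f₁ f₂ e P) : ∃ K : Subgroup (Matrix.GeneralLinearGroup (Fin m ⊕ Fin m) F), Cfsg.Geo.tensorProductSubgroup n₁ 3 e P ⊓ Cfsg.spGL m F < K ∧ K < Cfsg.spGL m F := by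
  classical
  have hcard : m + m = n₁ * 3 := by
    have := Fintype.card_congr e
    simpa using this
  apply transfer e P
  obtain ⟨c, hc, hcf⟩ := hT
  let ψ : (Fin n₁ × Fin 3 → F) → (Fin n₁ × Fin 3 → F) → F := fun x y =>
    Cfsg.sympForm m F (Phi e P x) (Phi e P y)
  have hcomap : (Cfsg.spGL m F).comap (tenIso e P).toMonoidHom = isoF ψ := by
    ext g
    exact tenIso_mem_isoF e P (Cfsg.sympForm m F) g
  rw [hcomap]
  have hb : IsBilinearForm ψ := by
    constructor
    · intro x y z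
      simp only [ψ, Phi_add]
      exact Cfsg.Agent.Lead.sympForm_add_left _ _ _
    · intro a x z
      simp only [ψ, Phi_smul]
      exact Cfsg.Agent.Lead.sympForm_smul_left _ _ _
    · intro x y z
      simp only [ψ, Phi_add]
      exact Cfsg.Agent.Lead.sympForm_add_right _ _ _
    · intro a x z
      simp only [ψ, Phi_smul]
      exact Cfsg.Agent.Lead.sympForm_smul_right _ _ _
  apply main_abs hq (n₁ := n₁) (by omega) ψ hb (fun x => Cfsg.Agent.Lead.sympForm_self _) f₁ f₂ hf₁ hf₂ c hc ?_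
  intro p r s t
  simp only [ψ, Phi]
  rw [hcf, formOfGram_ptens _ (fun x y => rfl), ← form_eq_formOfGram_id hf₁.bilinear,
    ← form_eq_formOfGram_id hf₂.bilinear]

end Cfsg.Agent.S5667
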