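import Cfsg.Statements.S5967
import Cfsg.Agent.Lib.H29.Planes
import Cfsg.Agent.Lib.H29.PrimeStable
import Cfsg.Agent.Lib.H29.PrimeOrd
import Cfsg.Agent.Lib.H29.Unip
-- import your own Cfsg.Agent.* helpers here

set_option autoImplicit false
open scoped MatrixGroups
open Cfsg

namespace Cfsg.Agent.S5967

open Module Polynomial Cfsg.Agent.H29

theorem conj_of_blocks {F : Type*} [Field F] {n : ℕ} (f : (Fin n → F) → (Fin n → F) → F)
    (hf : Cfsg.Geo.IsSymplecticForm f) {S : Type} [Fintype S] [DecidableEq S]
    (H : Basis (Fin 2 × S) F (Fin n → F)) (horth : ∀ k l i j, k ≠ l → f (H (i, k)) (H (j, l)) = 0)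
    (x : Matrix.SpecialLinearGroup (Fin n) F) (A : S → Matrix (Fin 2) (Fin 2) F)
    (B : Basis (Fin 2 × S) F (Fin n → F))
    (hx : ∀ i k, (x : Matrix (Fin n) (Fin n) F).mulVec (B (i, k)) = ∑ i', A k i' i • B (i', k))
    (c : F) (hc0 : c ≠ 0) (hdet : ∀ k, (A k).det = c)
    (hC : ∀ δ : F, δ ≠ 0 → ∃ (k₀ : S) (C₀ : Matrix (Fin 2) (Fin 2) F), C₀ * A k₀ = A k₀ * C₀ ∧ C₀.det = δ) :
    ∃ P : Matrix.SpecialLinearGroup (Fin n) F, P⁻¹ * x * P ∈ ((Cfsg.Geo.similarityGroup f).comap
      (Matrix.SpecialLinearGroup.toGL : Matrix.SpecialLinearGroup (Fin n) F →* GL (Fin n) F)) := by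
  obtain ⟨P, hP⟩ := exists_transport x A B H hx hC
  refine ⟨P, ?_⟩
  show ∃ c : Fˣ, ∀ u v, f (((P⁻¹ * x * P : Matrix.SpecialLinearGroup (Fin n) F) : Matrix (Fin n) (Fin n) F).mulVec u)
    (((P⁻¹ * x * P : Matrix.SpecialLinearGroup (Fin n) F) : Matrix (Fin n) (Fin n) F).mulVec v) = (c : F) * f u v
  exact ⟨Units.mk0 c hc0, similarity_of_blocks f hf H horth _ A c hdet hP⟩

theorem no_neg_pow {F : Type*} [Field F] [Fintype F] {q : ℕ} (hq : Fintype.card F = q) (n : ℕ) (hn0 : n ≠ 0)
    (h20 : (2 : F) ≠ 0) (b : F) (hb : b ≠ 0) (h : b ^ n = -1)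
    (hv : padicValNat 2 (q - 1) ≤ padicValNat 2 n) : False := by
  have hq2 : 2 ≤ q := by
    rw [← hq]
    exact Fintype.one_lt_card
  have hq1 : q - 1 ≠ 0 := by omega
  set e := padicValNat 2 (q - 1) with he
  obtain ⟨n', hn'⟩ : 2 ^ e ∣ n := (padicValNat_dvd_iff_le hn0).2 hv
  obtain ⟨o, ho⟩ : 2 ^ e ∣ q - 1 := pow_padicValNat_dvd
  have hoodd : Odd o := by
    rw [← Nat.not_even_iff_odd]
    rintro ⟨o', ho'⟩
    have h1 : 2 ^ (e + 1) ∣ q - 1 := by
      rw [ho, ho', pow_succ]
      exact ⟨o', by ring⟩
    have h2 := (padicValNat_dvd_iff_le hq1).1 h1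
    omega
  have h1 : b ^ (q - 1) = 1 := by
    rw [← hq]
    exact FiniteField.pow_card_sub_one_eq_one b hb
  have h2 : (b ^ n) ^ o = 1 := by
    rw [← pow_mul, hn']
    have : 2 ^ e * n' * o = (q - 1) * n' := by rw [ho]; ring
    rw [this, pow_mul, h1, one_pow]
  rw [h, hoodd.neg_one_pow] at h2
  apply h20
  have : (2 : F) = 1 - (-1) := by norm_num
  rw [this, h2]
  ring

theorem exists_neg_pow {F : Type*} [Field F] [Fintype F] {q : ℕ} (hq : Fintype.card F = q) (n : ℕ) (hn0 : n ≠ 0)
    (h20 : (2 : F) ≠ 0) (hv : padicValNat 2 n < padicValNat 2 (q - 1)) :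
    ∃ d : F, d ≠ 0 ∧ d ^ n = -1 := by
  have hq2 : 2 ≤ q := by
    rw [← hq]
    exact Fintype.one_lt_card
  have hq1 : q - 1 ≠ 0 := by omega
  set e := padicValNat 2 (q - 1) with he
  set v := padicValNat 2 n with hvv
  have h2dvd : 2 ∣ q - 1 := by
    have h1 : 2 ^ e ∣ q - 1 := pow_padicValNat_dvd
    exact (dvd_pow_self 2 (by omega)).trans h1
  obtain ⟨c, hc0, hcnp, hcord⟩ := exists_not_pow_order (r := 2) hq h2dvd
  have he1 : e = (e - 1) + 1 := by omega
  have hm1 : c ^ 2 ^ (e - 1) = -1 := by
    have h1 : (c ^ 2 ^ (e - 1)) ^ 2 = 1 := by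
      rw [← pow_mul, ← pow_succ, ← he1]
      exact hcord
    have h2 : (c ^ 2 ^ (e - 1) - 1) * (c ^ 2 ^ (e - 1) + 1) = 0 := by
      ring_nf
      rw [show c ^ (2 ^ (e - 1) * 2) = (c ^ 2 ^ (e - 1)) ^ 2 by rw [pow_mul], h1]
      ring
    rcases mul_eq_zero.1 h2 with h3 | h3
    · exfalso
      have h4 := pow_padic_dvd_of_not_pow (r := 2) hq c hcnp _ (sub_eq_zero.1 h3)
      rw [← he] at h4
      have h5 := Nat.le_of_dvd (by positivity) h4
      have h6 : 2 ^ (e - 1) < 2 ^ e := Nat.pow_lt_pow_right (by norm_num) (by omega)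
      omega
    · exact eq_neg_of_add_eq_zero_left h3
  refine ⟨c ^ 2 ^ (e - v - 1), pow_ne_zero _ hc0, ?_⟩
  obtain ⟨w, hw⟩ : 2 ^ v ∣ n := pow_padicValNat_dvd
  have hwodd : Odd w := by
    rw [← Nat.not_even_iff_odd]
    rintro ⟨w', hw'⟩
    have h1 : 2 ^ (v + 1) ∣ n := by
      rw [hw, hw', pow_succ]
      exact ⟨w', by ring⟩
    have h2 := (padicValNat_dvd_iff_le hn0).1 h1
    omega
  rw [hw, ← pow_mul, ← mul_assoc, ← pow_add, show e - v - 1 + v = e - 1 by omega, pow_mul, hm1,
    hwodd.neg_one_pow]

theorem exists_norm_eq {F : Type*} [Field F] [Fintype F] (hodd : Odd (Fintype.card F)) (z δ : F) (hz : z ≠ 0) :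
    ∃ a t : F, a ^ 2 - z * t ^ 2 = δ := by
  have hR : Fintype.card F % 2 = 1 := Nat.odd_iff.1 hodd
  have hf : (X ^ 2 - C δ : F[X]).degree = 2 := by
    apply degree_X_pow_sub_C (by norm_num)
  have hg : (C (-z) * X ^ 2 : F[X]).degree = 2 := by
    rw [degree_C_mul (neg_ne_zero.2 hz), degree_X_pow]
    rfl
  obtain ⟨a, t, h⟩ := FiniteField.exists_root_sum_quadratic hf hg hR
  refine ⟨a, t, ?_⟩
  simp only [eval_sub, eval_pow, eval_X, eval_C, eval_mul] at h
  linear_combination h


/-- Involutions of PSL_n(q) and the symplectic-type subgroups. Here `T = PSL_n(F)` for a field `F` with `q` elements, `n ≥ 4` even, `f` is a nondegenerate alternating form on `F^n`, and `H` is the subgroup of matrices of determinant 1 preserving `f` up to a scalar — a maximal subgroup of type Sp_n(q); Ω is the set of `T`-conjugates of `H` (cosets of `H`), so an element of `T` of prime order `r` (a matrix `x` of determinant 1 with `x^r` scalar, `x` not scalar) fixes a point of Ω when some conjugate of `x` by a matrix of determinant 1 preserves `f` up to a scalar.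 Suppose the index of `H` is even. Then every involution of `T` is conjugate in `T` into `H` if and only if `(q − 1)_2 ≤ (n)_2`. -/
theorem result {F : Type*} [Field F] [Fintype F] {p : ℕ} [Fact p.Prime] [CharP F p] {q : ℕ} (hq : Fintype.card F = q)
    (n : ℕ) (hn : 4 ≤ n) (he : Even n) (f : (Fin n → F) → (Fin n → F) → F) (hf : Cfsg.Geo.IsSymplecticForm f)
    (hΩ : 2 ∣ ((Cfsg.Geo.similarityGroup f).comap (Matrix.SpecialLinearGroup.toGL : Matrix.SpecialLinearGroup (Fin n) F →* GL (Fin n) F)).index) :
    (∀ x : Matrix.SpecialLinearGroup (Fin n) F,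
      (∃ z : F, ((x ^ 2 : Matrix.SpecialLinearGroup (Fin n) F) : Matrix (Fin n) (Fin n) F) = z • (1 : Matrix (Fin n) (Fin n) F)) →
      (∀ z : F, (x : Matrix (Fin n) (Fin n) F) ≠ z • (1 : Matrix (Fin n) (Fin n) F)) →
      ∃ P : Matrix.SpecialLinearGroup (Fin n) F, P⁻¹ * x * P ∈ ((Cfsg.Geo.similarityGroup f).comap (Matrix.SpecialLinearGroup.toGL : Matrix.SpecialLinearGroup (Fin n) F →* GL (Fin n) F))) ↔
    padicValNat 2 (q - 1) ≤ padicValNat 2 n := by
  classical
  have hn0 : 0 < n := by omega
  have hn0' : n ≠ 0 := by omega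
  have hne : Nonempty (Fin n) := ⟨⟨0, hn0⟩⟩
  have hq2 : 2 ≤ q := two_le_card hq
  constructor
  · intro H
    by_contra hlt
    push Not at hlt
    have hqodd : Odd q := by
      by_contra hev
      have hev' : Even q := Nat.not_odd_iff_even.1 hev
      have h1 : Odd (q - 1) := by
        obtain ⟨t, ht⟩ := hev'
        exact ⟨t - 1, by omega⟩
      have h2 : padicValNat 2 (q - 1) = 0 := padicValNat.eq_zero_of_not_dvd (by
        rw [← even_iff_two_dvd]
        exact Nat.not_even_iff_odd.2 h1)
      omega
    have h20 : (2 : F) ≠ 0 := by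
      intro h
      have h1 := (CharP.cast_eq_zero_iff F p 2).1 (by exact_mod_cast h)
      have hp2 : p = 2 := (Nat.prime_dvd_prime_iff_eq Fact.out Nat.prime_two).1 h1
      obtain ⟨f', hf, hf2⟩ := card_eq_pow_char (p := p) hq
      rw [hf2, hp2] at hqodd
      exact (Nat.not_even_iff_odd.2 hqodd) (Even.pow_of_ne_zero even_two (by omega))
    obtain ⟨d, hd0, hdn⟩ := exists_neg_pow hq n hn0' h20 hlt
    let i₀ : Fin n := ⟨0, hn0⟩
    let i₁ : Fin n := ⟨1, by omega⟩
    let i₂ : Fin n := ⟨2, by omega⟩
    have h01 : i₁ ≠ i₀ := by simp [i₀, i₁, Fin.ext_iff]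
    have h02 : i₂ ≠ i₀ := by simp [i₀, i₂, Fin.ext_iff]
    have h12 : i₁ ≠ i₂ := by simp [i₁, i₂, Fin.ext_iff]
    let D : Fin n → F := Function.update (fun _ => -d) i₀ d
    have hDi₀ : D i₀ = d := by simp [D]
    have hDi : ∀ i, i ≠ i₀ → D i = -d := fun i hi => by simp [D, hi]
    have hD2 : ∀ i, D i * D i = d ^ 2 := by
      intro i
      by_cases hi : i = i₀
      · rw [hi, hDi₀, sq]
      · rw [hDi i hi]
        ring
    have hdetD : (Matrix.diagonal D).det = 1 := by
      rw [Matrix.det_diagonal, Finset.prod_update_of_mem (Finset.mem_univ _), Finset.prod_const]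
      have hc : (Finset.univ \ {i₀}).card = n - 1 := by
        rw [Finset.card_sdiff_of_subset (Finset.subset_univ _)]
        simp
      rw [hc]
      have hnm : n = (n - 1) + 1 := by omega
      have hoddm : Odd (n - 1) := by
        obtain ⟨t, ht⟩ := he
        exact ⟨t - 1, by omega⟩
      have h3 : d * (-d) ^ (n - 1) = d ^ n * (-1) ^ (n - 1) := by
        rw [neg_pow d, mul_comm ((-1 : F) ^ (n - 1)), ← mul_assoc, ← pow_succ', ← hnm]
      rw [h3, hdn, hoddm.neg_one_pow]
      ring
    obtain ⟨x, hx⟩ : ∃ x : Matrix.SpecialLinearGroup (Fin n) F,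
        (x : Matrix (Fin n) (Fin n) F) = Matrix.diagonal D := ⟨⟨_, hdetD⟩, rfl⟩
    have hx2 : ((x ^ 2 : Matrix.SpecialLinearGroup (Fin n) F) : Matrix (Fin n) (Fin n) F) =
        (d ^ 2) • (1 : Matrix (Fin n) (Fin n) F) := by
      rw [Matrix.SpecialLinearGroup.coe_pow, hx, sq, Matrix.diagonal_mul_diagonal]
      ext i j
      by_cases hij : i = j
      · subst hij
        simp [hD2]
      · simp [hij]
    have hd2ne : d ≠ -d := by
      intro h
      apply mul_ne_zero h20 hd0
      linear_combination h
    have hns : ∀ z : F, (x : Matrix (Fin n) (Fin n) F) ≠ z • (1 : Matrix (Fin n) (Fin n) F) := by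
      intro z hz
      rw [hx] at hz
      have h1 := congrFun (congrFun hz i₀) i₀
      have h2 := congrFun (congrFun hz i₁) i₁
      simp only [Matrix.diagonal_apply_eq, Matrix.smul_apply, Matrix.one_apply_eq, smul_eq_mul, mul_one] at h1 h2
      rw [hDi₀] at h1
      rw [hDi i₁ h01] at h2
      exact hd2ne (h1.trans h2.symm)
    obtain ⟨P, c₀, hc₀⟩ := H x ⟨_, hx2⟩ hns
    set c : F := (c₀ : F) with hc
    set PM : Matrix (Fin n) (Fin n) F := (P : Matrix (Fin n) (Fin n) F) with hPM
    set PI : Matrix (Fin n) (Fin n) F := ((P⁻¹ : Matrix.SpecialLinearGroup (Fin n) F) : Matrix (Fin n) (Fin n) F) with hPI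
    have hPIP : PI * PM = 1 := by
      rw [hPI, hPM, ← Matrix.SpecialLinearGroup.coe_mul, inv_mul_cancel, Matrix.SpecialLinearGroup.coe_one]
    have hPPI : PM * PI = 1 := by
      rw [hPI, hPM, ← Matrix.SpecialLinearGroup.coe_mul, mul_inv_cancel, Matrix.SpecialLinearGroup.coe_one]
    set g : Matrix (Fin n) (Fin n) F := PI * Matrix.diagonal D * PM with hg
    have hc₀' : ∀ u v, f (g.mulVec u) (g.mulVec v) = c * f u v := by
      intro u v
      have h1 := hc₀ u v
      have h2 : (((Matrix.SpecialLinearGroup.toGL (P⁻¹ * x * P) : GL (Fin n) F)) : Matrix (Fin n) (Fin n) F) = g := by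
        rw [Matrix.SpecialLinearGroup.coe_GL_coe_matrix, Matrix.SpecialLinearGroup.coe_mul,
          Matrix.SpecialLinearGroup.coe_mul, hx]
      rw [h2] at h1
      exact h1
    let E : Fin n → (Fin n → F) := fun i => PI.mulVec (Pi.single i 1)
    have hgE : ∀ i, g.mulVec (E i) = D i • E i := by
      intro i
      simp only [E, hg]
      rw [Matrix.mulVec_mulVec]
      have h1 : PI * Matrix.diagonal D * PM * PI = PI * Matrix.diagonal D := by
        rw [mul_assoc, hPPI, mul_one]
      rw [h1, ← Matrix.mulVec_mulVec, Matrix.mulVec_single_one, ← Matrix.mulVec_smul]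
      congr 1
      ext j
      by_cases hij : j = i
      · subst hij
        simp
      · simp [hij, Matrix.diagonal_apply_ne _ hij]
    have hPE : ∀ i, PM.mulVec (E i) = Pi.single i 1 := by
      intro i
      simp only [E]
      rw [Matrix.mulVec_mulVec, hPPI, Matrix.one_mulVec]
    have hE0 : ∀ i, E i ≠ 0 := by
      intro i h
      have h1 := hPE i
      rw [h, Matrix.mulVec_zero] at h1
      have h2 := congrFun h1 i
      simp at h2
    have hrel : ∀ i j, (D i * D j - c) * f (E i) (E j) = 0 := by
      intro i j
      have h1 := hc₀' (E i) (E j)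
      rw [hgE, hgE, hf.bilinear.smul_left, hf.bilinear.smul_right] at h1
      linear_combination h1
    -- radical test
    have hrad : ∀ w : Fin n → F, (∀ i, f w (E i) = 0) → w = 0 := by
      intro w hw
      by_contra hw0
      obtain ⟨y, hy⟩ := (hf.nondegenerate w hw0).2
      apply hy
      have hy' : y = ∑ i, (PM.mulVec y) i • E i := by
        have h1 : PM.mulVec y = ∑ i, (PM.mulVec y) i • (Pi.single i 1 : Fin n → F) := by
          ext j
          simp [Finset.sum_apply, Pi.single_apply]
        have h2 : y = PI.mulVec (PM.mulVec y) := by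
          rw [Matrix.mulVec_mulVec, hPIP, Matrix.one_mulVec]
        conv_lhs => rw [h2, h1]
        rw [Matrix.mulVec_sum]
        apply Finset.sum_congr rfl
        intro i _
        rw [Matrix.mulVec_smul]
      rw [hy']
      have hsum : ∀ (T : Finset (Fin n)), f w (∑ i ∈ T, (PM.mulVec y) i • E i) = 0 := by
        intro T
        induction T using Finset.induction_on with
        | empty =>
          have := hf.bilinear.smul_right 0 w 0
          simpa using this
        | insert a T ha ih =>
          rw [Finset.sum_insert ha, hf.bilinear.add_right, hf.bilinear.smul_right, hw, ih]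
          ring
      exact hsum _
    -- the multiplier
    have hcval : c = d * (-d) := by
      by_contra hne'
      apply hE0 i₀
      apply hrad
      intro j
      by_cases hj : j = i₀
      · rw [hj]
        exact hf.alternating _
      · have h1 := hrel i₀ j
        rw [hDi₀, hDi j hj] at h1
        exact (mul_eq_zero.1 h1).resolve_left (sub_ne_zero.2 (Ne.symm hne'))
    have h2d2 : d * d - c ≠ 0 := by
      rw [hcval]
      intro h
      apply mul_ne_zero h20 (mul_ne_zero hd0 hd0)
      linear_combination h
    have hzero : ∀ i j, i ≠ i₀ → j ≠ i₀ → f (E i) (E j) = 0 := by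
      intro i j hi hj
      have h1 := hrel i j
      rw [hDi i hi, hDi j hj] at h1
      refine (mul_eq_zero.1 h1).resolve_left ?_
      rw [show -d * -d - c = d * d - c by ring]
      exact h2d2
    set a₁ := f (E i₁) (E i₀) with ha₁
    set a₂ := f (E i₂) (E i₀) with ha₂
    have hbil := hf.bilinear
    by_cases ha₂0 : a₂ = 0
    · apply hE0 i₂
      apply hrad
      intro j
      by_cases hj : j = i₀
      · rw [hj]
        exact ha₂0
      · exact hzero _ _ h02 hj
    · have hw : a₂ • E i₁ - a₁ • E i₂ = 0 := by
        apply hrad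
        intro j
        have h0 : a₂ • E i₁ - a₁ • E i₂ = a₂ • E i₁ + (-a₁) • E i₂ := by
          rw [neg_smul, sub_eq_add_neg]
        rw [h0, hbil.add_left, hbil.smul_left, hbil.smul_left]
        by_cases hj : j = i₀
        · rw [hj, ← ha₁, ← ha₂]
          ring
        · rw [hzero _ _ h01 hj, hzero _ _ h02 hj]
          ring
      have h3 := congrArg PM.mulVec hw
      rw [Matrix.mulVec_sub, Matrix.mulVec_smul, Matrix.mulVec_smul, hPE, hPE, Matrix.mulVec_zero] at h3
      have h4 := congrFun h3 i₁
      simp [h12] at h4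
      exact ha₂0 h4
  · intro hv x ⟨z, hz⟩ hns
    obtain ⟨S, _, _, H, hself, horth⟩ := exists_hyp_basis f hf
    have hcard : Fintype.card (Fin 2 × S) = n := by
      have h1 := Module.finrank_eq_card_basis H
      rw [Module.finrank_fin_fun] at h1
      exact h1.symm
    have hcardS : n = 2 * Fintype.card S := by
      rw [← hcard, Fintype.card_prod, Fintype.card_fin]
    have hSne : Nonempty S := by
      rw [← Fintype.card_pos_iff]
      omega
    obtain ⟨k₀⟩ := hSne
    set X : Matrix (Fin n) (Fin n) F := (x : Matrix (Fin n) (Fin n) F) with hX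
    have hX2 : X * X = z • 1 := by
      rw [← sq, hX, ← Matrix.SpecialLinearGroup.coe_pow]
      exact hz
    have hXX : ∀ v, X.mulVec (X.mulVec v) = z • v := by
      intro v
      rw [Matrix.mulVec_mulVec, hX2, Matrix.smul_mulVec, Matrix.one_mulVec]
    have hz0 : z ≠ 0 := by
      rintro rfl
      have h1 := congrArg Matrix.det hX2
      rw [Matrix.det_mul, hX, x.2, mul_one, zero_smul, Matrix.det_zero] at h1
      exact one_ne_zero h1
    have hXdet : X.det = 1 := x.2
    have hscalarC : ∀ (A : Matrix (Fin 2) (Fin 2) F) (a : F), A = !![a, 0; 0, a] →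
        ∀ δ : F, ∃ C₀ : Matrix (Fin 2) (Fin 2) F, C₀ * A = A * C₀ ∧ C₀.det = δ := by
      intro A a hA δ
      refine ⟨!![δ, 0; 0, 1], ?_, ?_⟩
      · rw [hA]
        ext i j
        fin_cases i <;> fin_cases j <;> simp [Matrix.mul_apply, Fin.sum_univ_two, mul_comm]
      · simp [Matrix.det_fin_two]
    by_cases hodd : Odd q
    · have h20 : (2 : F) ≠ 0 := by
        intro h
        have h1 := (CharP.cast_eq_zero_iff F p 2).1 (by exact_mod_cast h)
        have hp2 : p = 2 := (Nat.prime_dvd_prime_iff_eq Fact.out Nat.prime_two).1 h1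
        obtain ⟨f', hf', hf2⟩ := card_eq_pow_char (p := p) hq
        rw [hf2, hp2] at hodd
        exact (Nat.not_even_iff_odd.2 hodd) (Even.pow_of_ne_zero even_two (by omega))
      have h1ne : (1 : F) ≠ -1 := by
        intro h
        apply h20
        have : (2 : F) = 1 + 1 := by norm_num
        rw [this]
        nth_rewrite 2 [h]
        simp
      by_cases hs : IsSquare z
      · -- `z` is a square: eigenvectors
        obtain ⟨b, rfl⟩ := hs
        have hb0 : b ≠ 0 := by
          rintro rfl
          exact hz0 (by simp)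
        set Y : (Fin n → F) →ₗ[F] (Fin n → F) := Matrix.toLin' (b⁻¹ • X) with hY
        have hYY : ∀ v, Y (Y v) = v := by
          intro v
          rw [hY, Matrix.toLin'_apply, Matrix.toLin'_apply, Matrix.smul_mulVec, Matrix.smul_mulVec,
            Matrix.mulVec_smul, hXX, smul_smul, smul_smul]
          have : b⁻¹ * b⁻¹ * (b * b) = 1 := by field_simp
          rw [this, one_smul]
        obtain ⟨B₀, ε, hBε⟩ := exists_eig_basis Y 1 (-1) h1ne (by
          intro v
          rw [hYY]
          simp)
        let c : Fin n → F := fun i => if ε i then b else -b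
        have hXB : ∀ i, X.mulVec (B₀ i) = c i • B₀ i := by
          intro i
          have h1 := hBε i
          rw [hY, Matrix.toLin'_apply, Matrix.smul_mulVec] at h1
          have h2 : X.mulVec (B₀ i) = b • (b⁻¹ • X.mulVec (B₀ i)) := by
            rw [smul_smul, mul_inv_cancel₀ hb0, one_smul]
          rw [h2, h1, smul_smul]
          simp only [c]
          split_ifs <;> simp
        -- counting
        obtain ⟨Q, hQ⟩ := exists_gl_of_basis B₀
        have hdiag : X * (Q : Matrix (Fin n) (Fin n) F) =
            (Q : Matrix (Fin n) (Fin n) F) * Matrix.diagonal c := by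
          apply matrix_ext_single
          intro i
          rw [← Matrix.mulVec_mulVec, hQ, hXB, ← Matrix.mulVec_mulVec]
          have h1 : (Matrix.diagonal c).mulVec (Pi.single i 1) = c i • (Pi.single i 1 : Fin n → F) := by
            ext j
            by_cases hij : j = i
            · subst hij
              simp
            · simp [hij]
          rw [h1, Matrix.mulVec_smul, hQ]
        have hprod : ∏ i, c i = 1 := by
          have h1 := congrArg Matrix.det hdiag
          rw [Matrix.det_mul, Matrix.det_mul, hXdet, one_mul, Matrix.det_diagonal] at h1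
          have h2 : (Q : Matrix (Fin n) (Fin n) F).det ≠ 0 := (Matrix.isUnits_det_units Q).ne_zero
          exact (mul_left_cancel₀ h2 (by rw [mul_one]; exact h1)).symm
        set T := (Finset.univ.filter fun i => ε i = true) with hT
        set T' := (Finset.univ.filter fun i => ε i = false) with hT'
        have hcardT : T.card + T'.card = n := by
          have h1 := Finset.card_filter_add_card_filter_not (s := (Finset.univ : Finset (Fin n))) (fun i => ε i = true)
          simp only [Finset.card_univ, Fintype.card_fin, Bool.not_eq_true] at h1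
          exact h1
        have hprod2 : ∏ i, c i = b ^ n * (-1) ^ T'.card := by
          have h1 : ∀ i, c i = b * (if ε i = false then -1 else 1) := by
            intro i
            simp only [c]
            cases ε i <;> simp
          simp only [h1]
          rw [Finset.prod_mul_distrib, Finset.prod_const, Finset.card_univ, Fintype.card_fin,
            Finset.prod_ite, Finset.prod_const, Finset.prod_const_one, mul_one]
        have hT'even : Even T'.card := by
          by_contra hodd'
          have h1 : Odd T'.card := Nat.not_even_iff_odd.1 hodd'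
          rw [hprod2, h1.neg_one_pow] at hprod
          exact no_neg_pow hq n hn0' h20 b hb0 (by linear_combination -hprod) hv
        have hTeven : Even T.card := by
          have h1 : Even (T.card + T'.card) := by rw [hcardT]; exact he
          exact (Nat.even_add.1 h1).2 hT'even
        have hfilter1 : (Finset.univ.filter fun s => (id s : Fin n) = s ∧ ε s = true) = T := by
          ext s
          simp [hT]
        have hfilter2 : (Finset.univ.filter fun s => (id s : Fin n) = s ∧ ε s = false) = T' := by
          ext s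
          simp [hT']
        obtain ⟨B, A, e, hBx, hA⟩ := exists_blocks_of_monomial B₀ id (fun _ => rfl) c ε
          (by rw [hfilter1]; exact hTeven) (by rw [hfilter2]; exact hT'even) X (fun s => hXB s) S
          (by rw [Fintype.card_fin]; exact hcardS)
        have hA' : ∀ k, ∃ a, (a = b ∨ a = -b) ∧ A k = !![a, 0; 0, a] := by
          intro k
          rcases hA k with ⟨h1, -, -⟩ | ⟨-, -, h3, h4⟩
          · exfalso
            have h2 : e (0, k) = e (1, k) := h1
            have h3 := e.injective h2
            simp at h3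
          · refine ⟨c (e (0, k)), ?_, ?_⟩
            · simp only [c]
              split_ifs
              · exact Or.inl rfl
              · exact Or.inr rfl
            · have h5 : c (e (0, k)) = c (e (1, k)) := by
                simp only [c, h3]
              rw [h4, ← h5]
        apply conj_of_blocks f hf H horth x A B hBx (b * b) hz0
        · intro k
          obtain ⟨a, ha, hAk⟩ := hA' k
          rw [hAk, Matrix.det_fin_two_of]
          rcases ha with rfl | rfl <;> ring
        · intro δ _
          obtain ⟨a, -, hAk⟩ := hA' k₀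
          obtain ⟨C₀, h1, h2⟩ := hscalarC _ a hAk δ
          exact ⟨k₀, C₀, h1, h2⟩
      · -- `z` is not a square: monomial basis without fixed points
        obtain ⟨S₀, _, _, b, π, c, hπ, hc0, hbX, hcc⟩ := exists_monomial_basis X z hz0 hXX
        have hfree : ∀ s, π s ≠ s := by
          intro s hs'
          apply hs
          have h1 := hcc s
          rw [hs'] at h1
          exact ⟨c s, h1.symm⟩
        have hf1 : (Finset.univ.filter fun s => π s = s ∧ (fun _ : S₀ => true) s = true) = ∅ := by
          ext s
          simp [hfree s]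
        have hf2 : (Finset.univ.filter fun s => π s = s ∧ (fun _ : S₀ => true) s = false) = ∅ := by
          ext s
          simp
        have hcS₀ : Fintype.card S₀ = 2 * Fintype.card S := by
          have h1 := Module.finrank_eq_card_basis b
          rw [Module.finrank_fin_fun] at h1
          omega
        obtain ⟨B, A, e, hBx, hA⟩ := exists_blocks_of_monomial b π hπ c (fun _ => true)
          (by rw [hf1]; simp) (by rw [hf2]; simp) X hbX S hcS₀
        have hA' : ∀ k, (A k).det = -z ∧ ∃ c₀ c₁ : F, c₀ * c₁ = z ∧ A k = !![0, c₁; c₀, 0] := by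
          intro k
          rcases hA k with ⟨h1, -, h3⟩ | ⟨h1, -, -, -⟩
          · have h4 := hcc (e (0, k))
            rw [h1] at h4
            refine ⟨?_, c (e (0, k)), c (e (1, k)), h4, h3⟩
            rw [h3, Matrix.det_fin_two_of, ← h4]
            ring
          · exact absurd h1 (hfree _)
        apply conj_of_blocks f hf H horth x A B hBx (-z) (neg_ne_zero.2 hz0)
        · exact fun k => (hA' k).1
        · intro δ _
          obtain ⟨-, c₀, c₁, hcz, hAk⟩ := hA' k₀
          obtain ⟨a, t, hat⟩ := exists_norm_eq (by rw [hq]; exact hodd) z δ hz0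
          refine ⟨k₀, a • 1 + t • A k₀, ?_, ?_⟩
          · rw [add_mul, mul_add, Matrix.smul_mul, Matrix.mul_smul, Matrix.smul_mul, Matrix.mul_smul, one_mul, mul_one]
          · rw [hAk]
            have h1 : a • (1 : Matrix (Fin 2) (Fin 2) F) + t • !![0, c₁; c₀, 0] = !![a, t * c₁; t * c₀, a] := by
              ext i j
              fin_cases i <;> fin_cases j <;> simp
            rw [h1, Matrix.det_fin_two_of, ← hat, ← hcz]
            ring
    · have hqeven : Even q := Nat.not_odd_iff_even.1 hodd
      have hp2 : p = 2 := by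
        obtain ⟨f', hf', hf2⟩ := card_eq_pow_char (p := p) hq
        rw [hf2] at hqeven
        have h1 := (Nat.even_pow.1 hqeven).1
        exact ((Nat.prime_dvd_prime_iff_eq Nat.prime_two Fact.out).1 (even_iff_two_dvd.1 h1)).symm
      subst hp2
      have hneg : ∀ a : F, -a = a := fun a => by
        have h1 : (2 : F) = 0 := by exact_mod_cast CharP.cast_eq_zero F 2
        linear_combination (-a) * h1
      obtain ⟨S₀, _, _, b, π, c, hπ, hc0, hbX, hcc⟩ := exists_monomial_basis X z hz0 hXX
      have hcS₀ : Fintype.card S₀ = 2 * Fintype.card S := by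
        have h1 := Module.finrank_eq_card_basis b
        rw [Module.finrank_fin_fun] at h1
        omega
      have hfixed : Even (Finset.univ.filter fun s => π s = s ∧ (fun _ : S₀ => true) s = true).card := by
        have h1 : (Finset.univ.filter fun s => π s = s ∧ (fun _ : S₀ => true) s = true) =
            Finset.univ.filter fun s => π s = s := by
          ext s
          simp
        rw [h1]
        have h2 := even_card_of_no_fixed π hπ (Finset.univ.filter fun s => ¬ π s = s)
          (by
            intro s hs
            simp only [Finset.mem_filter, Finset.mem_univ, true_and] at hs ⊢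
            rw [hπ]
            exact fun h => hs h.symm)
          (by
            intro s hs
            simpa using hs)
        have h3 := Finset.card_filter_add_card_filter_not (s := (Finset.univ : Finset S₀)) (fun s => π s = s)
        rw [Finset.card_univ, hcS₀] at h3
        have h4 : Even ((Finset.univ.filter fun s => π s = s).card +
            (Finset.univ.filter fun s => ¬ π s = s).card) := by
          rw [h3]
          exact even_two_mul _
        exact (Nat.even_add.1 h4).2 h2
      have hf2 : (Finset.univ.filter fun s => π s = s ∧ (fun _ : S₀ => true) s = false) = ∅ := by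
        ext s
        simp
      obtain ⟨B, A, e, hBx, hA⟩ := exists_blocks_of_monomial b π hπ c (fun _ => true)
        hfixed (by rw [hf2]; simp) X hbX S hcS₀
      apply conj_of_blocks f hf H horth x A B hBx z hz0
      · intro k
        rcases hA k with ⟨h1, -, h3⟩ | ⟨h1, h2, -, h3⟩
        · have h4 := hcc (e (0, k))
          rw [h1] at h4
          rw [h3, Matrix.det_fin_two_of, ← h4, zero_mul, zero_sub, hneg, mul_comm]
        · have h4 := hcc (e (0, k))
          have h5 := hcc (e (1, k))
          rw [h1] at h4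
          rw [h2] at h5
          have h6 : c (e (0, k)) = c (e (1, k)) := by
            have h7 : (c (e (0, k)) - c (e (1, k))) ^ 2 = 0 := by
              rw [sub_pow_char, sq, sq, h4, h5, sub_self]
            exact sub_eq_zero.1 (pow_eq_zero_iff (by norm_num) |>.1 h7)
          rw [h3, Matrix.det_fin_two_of, ← h6, mul_zero, sub_zero, h4]
      · intro δ _
        obtain ⟨s, hs⟩ := exists_pow_char_eq (F := F) (p := 2) δ
        refine ⟨k₀, s • 1, ?_, ?_⟩
        · rw [Matrix.smul_mul, Matrix.mul_smul, one_mul, mul_one]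
        · rw [Matrix.det_smul, Matrix.det_one, Fintype.card_fin, mul_one, hs]

end Cfsg.Agent.S5967
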