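import Mathlib
import Cfsg.Statements.S0002

set_option autoImplicit false
open Pointwise
open Cfsg

namespace Cfsg.Agent.S0002

open MulOpposite Subgroup

/-- A complement `K` of a normal abelian `A` is exactly the stabilizer of its class. -/
theorem stab_eq {G : Type*} [Group G] [Finite G] (A : Subgroup G) [A.Normal] [IsMulCommutative A]
    (hA : (Nat.card A).Coprime A.index)
    (K : Subgroup G) (hK : Subgroup.IsComplement' A K) :
    ∃ α : A.QuotientDiff, MulAction.stabilizer G α = K := by
  have hT : Subgroup.IsComplement (K : Set G) (A : Set G) := hK.symm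
  let T : A.LeftTransversal := ⟨(K : Set G), hT⟩
  let α : A.QuotientDiff := Quotient.mk'' T
  refine ⟨α, ?_⟩
  have hle : K ≤ MulAction.stabilizer G α := by
    intro k hk
    rw [MulAction.mem_stabilizer_iff]
    show Quotient.mk'' (op k⁻¹ • T) = α
    have : op k⁻¹ • T = T := by
      apply Subtype.ext
      ext x
      show x ∈ op k⁻¹ • (K : Set G) ↔ x ∈ (K : Set G)
      rw [Set.mem_smul_set_iff_inv_smul_mem]
      simp only [← op_inv, inv_inv, SetLike.mem_coe, smul_eq_mul_unop, unop_op]
      constructor
      · intro h
        have := K.mul_mem h (K.inv_mem hk)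
        simpa using this
      · intro h
        exact K.mul_mem h hk
    rw [this]
  have hc := isComplement'_stabilizer_of_coprime (α := α) hA
  symm
  apply Subgroup.eq_of_le_of_card_ge hle
  have h1 := hK.card_mul_card
  have h2 := hc.card_mul_card
  have hpos : 0 < Nat.card A := Nat.card_pos
  exact (Nat.eq_of_mul_eq_mul_left hpos (h2.trans h1.symm)).le

/-- Schur's Theorem, conjugacy part, for an abelian normal subgroup of coprime order and index: any two complements are conjugate by an element of the normal subgroup. -/
theorem result {G : Type*} [Group G] [Finite G] (A : Subgroup G) [A.Normal] [IsMulCommutative A]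
    (hA : (Nat.card A).Coprime A.index)
    (H K : Subgroup G) (hH : Subgroup.IsComplement' A H) (hK : Subgroup.IsComplement' A K) :
    ∃ a ∈ A, MulAut.conj a • H = K := by
  obtain ⟨α, hα⟩ := stab_eq A hA H hH
  obtain ⟨β, hβ⟩ := stab_eq A hA K hK
  obtain ⟨a, ha⟩ := exists_smul_eq hA α β
  refine ⟨a, a.2, ?_⟩
  rw [← hβ, ← hα, ← ha]
  have := MulAction.stabilizer_smul_eq_stabilizer_map_conj (G := G) (a : G) α
  ext x
  rw [Subgroup.mem_pointwise_smul_iff_inv_smul_mem]
  have h2 : ((a:G) • α) = a • α := rfl
  rw [← h2, this]
  simp [Subgroup.mem_map]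
  constructor
  · intro h
    exact ⟨_, h, by group⟩
  · rintro ⟨y, hy, rfl⟩
    convert hy using 2
    group

end Cfsg.Agent.S0002
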