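import Mathlib
import Cfsg.Agent.Lib.H01.HallConverse
import Cfsg.Statements.S0006
-- import your own Cfsg.Agent.* helpers here

set_option autoImplicit false
open Cfsg

namespace Cfsg.Agent.S0006


/-- Converse of Hall's Theorem: if for every prime p a finite group has a subgroup of index equal to the p-part of the group order (a Hall p-complement), then the group is solvable. -/
theorem result {G : Type*} [Group G] [Finite G]
    (h : ∀ p : ℕ, p.Prime → ∃ H : Subgroup G, H.index = p ^ (Nat.card G).factorization p) :
    Group.IsSolvable G := by
  apply Cfsg.Agent.H01.isSolvable_of_hasHallComplements _ G rfl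
  intro p hp
  obtain ⟨H, hH⟩ := h p hp
  refine ⟨H, ⟨_, hH⟩, ?_⟩
  intro hd
  have hcard := H.card_mul_index
  rw [hH] at hcard
  have hne : Nat.card G ≠ 0 := Nat.card_pos.ne'
  have hne2 : Nat.card H ≠ 0 := Nat.card_pos.ne'
  have h3 : (Nat.card H * p ^ (Nat.card G).factorization p).factorization p =
      (Nat.card G).factorization p := by rw [hcard]
  rw [Nat.factorization_mul hne2 (pow_pos hp.pos _).ne', Finsupp.add_apply, Nat.factorization_pow,
    Finsupp.smul_apply, hp.factorization_self] at h3
  have h4 : 0 < (Nat.card H).factorization p :=
    hp.factorization_pos_of_dvd hne2 hd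
  simp at h3
  omega

end Cfsg.Agent.S0006
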