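import Mathlib
import Cfsg.Agent.Lib.H01.Fitting
import Cfsg.Statements.S0009
-- import your own Cfsg.Agent.* helpers here

set_option autoImplicit false
open Cfsg

namespace Cfsg.Agent.S0009


/-- The Fitting subgroup of a finite group is generated by the p-cores, p ranging over the primes. -/
theorem result {G : Type*} [Group G] [Finite G] :
    Cfsg.fittingSubgroup G = ⨆ p : Nat.Primes, Cfsg.pCore (p : ℕ) G := by
  exact Cfsg.Agent.H01.fitting_eq_iSup_pCore


end Cfsg.Agent.S0009
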