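import Mathlib
import Cfsg.Agent.Lib.H01.Basic
import Cfsg.Statements.S0011
-- import your own Cfsg.Agent.* helpers here

set_option autoImplicit false
open Cfsg

namespace Cfsg.Agent.S0011


/-- If the Frattini quotient of a finite group is nilpotent then the group is nilpotent. -/
theorem result {G : Type*} [Group G] [Finite G]
    (h : Group.IsNilpotent (G ⧸ frattini G)) : Group.IsNilpotent G := by
  have hnorm : ∀ (p : ℕ) (_ : Fact p.Prime) (P : Sylow p G), (P : Subgroup G).Normal := by
    intro p _ P
    -- image of `P` in the quotient
    let f := QuotientGroup.mk' (frattini G)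
    have hf : Function.Surjective f := QuotientGroup.mk'_surjective _
    let P' : Sylow p (G ⧸ frattini G) := P.mapSurjective hf
    have hP' : (P' : Subgroup (G ⧸ frattini G)).Normal := inferInstance
    let N : Subgroup G := (P' : Subgroup (G ⧸ frattini G)).comap f
    have hN : N.Normal := hP'.comap f
    have hPN : (P : Subgroup G) ≤ N := by
      intro x hx
      show f x ∈ (P' : Subgroup _)
      exact Subgroup.mem_map_of_mem _ hx
    have hNle : N ≤ (P : Subgroup G) ⊔ frattini G := by
      intro x hx
      have : f x ∈ (P' : Subgroup _) := hx
      obtain ⟨y, hy, hyx⟩ := Subgroup.mem_map.mp this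
      have h1 : y⁻¹ * x ∈ frattini G := by
        rw [← QuotientGroup.eq_one_iff]
        have : f y = f x := hyx
        have h2 : ((y⁻¹ * x : G) : G ⧸ frattini G) = f (y⁻¹ * x) := rfl
        rw [h2, map_mul, map_inv, this, inv_mul_cancel]
      have h3 : x = y * (y⁻¹ * x) := by group
      rw [h3]
      exact Subgroup.mul_mem_sup hy h1
    have hfrat := Sylow.normalizer_sup_eq_top' P hPN
    have htop : Subgroup.normalizer (P : Subgroup G) ⊔ frattini G = ⊤ := by
      rw [eq_top_iff, ← hfrat]
      apply sup_le le_sup_left
      apply hNle.trans
      apply sup_le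
      · exact le_sup_of_le_left Subgroup.le_normalizer
      · exact le_sup_right
    have := frattini_nongenerating htop
    exact Subgroup.normalizer_eq_top_iff.mp this
  exact ((Group.isNilpotent_of_finite_tfae (G := G)).out 0 3).mpr hnorm


end Cfsg.Agent.S0011
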