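import Mathlib
import Cfsg.Agent.Lib.H01.Basic
import Cfsg.Statements.S0014
-- import your own Cfsg.Agent.* helpers here

set_option autoImplicit false
open Cfsg

namespace Cfsg.Agent.S0014

open scoped commutatorElement

/-- Linear algebra core of the basis theorem. -/
theorem basis_core {p : ℕ} [Fact p.Prime] {V : Type*} [AddCommGroup V] [Module (ZMod p) V] [Finite V]
    (n : ℕ) (hn : Nat.card V = p ^ n) :
    (∀ A : Finset V, Submodule.span (ZMod p) (A : Set V) = ⊤ →
      ∃ B : Finset V, B ⊆ A ∧ B.card = n ∧ Submodule.span (ZMod p) (B : Set V) = ⊤) ∧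
    (∀ A : Finset V, Submodule.span (ZMod p) (A : Set V) = ⊤ → n ≤ A.card) := by
  classical
  have hpr : p.Prime := Fact.out
  haveI : Module.Finite (ZMod p) V := Module.Finite.of_finite
  have hfr : Module.finrank (ZMod p) V = n := by
    have h1 := Module.natCard_eq_pow_finrank (K := ZMod p) (V := V)
    rw [hn, Nat.card_zmod] at h1
    exact (Nat.pow_right_injective hpr.two_le h1).symm
  constructor
  · intro A hA
    obtain ⟨b, hbA, hbs, hbi⟩ := exists_linearIndependent (ZMod p) (A : Set V)
    let B : Finset V := A.filter (· ∈ b)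
    have hB : (B : Set V) = b := by
      ext v
      simp only [B, Finset.coe_filter, Set.mem_setOf_eq]
      exact ⟨fun h => h.2, fun h => ⟨hbA h, h⟩⟩
    refine ⟨B, Finset.filter_subset _ _, ?_, ?_⟩
    · have h1 : LinearIndepOn (ZMod p) id (B : Set V) := by
        rw [hB]
        exact hbi
      have h2 := finrank_span_finset_eq_card h1
      rw [hB, hbs, hA, finrank_top, hfr] at h2
      exact h2.symm
    · rw [hB, hbs, hA]
  · intro A hA
    have h1 := finrank_span_finset_le_card (R := ZMod p) A
    unfold Set.finrank at h1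
    rw [hA, finrank_top, hfr] at h1
    exact h1

/-- The main argument, in terms of a surjection onto a vector space. -/
theorem basis_main {G : Type*} [Group G] {p : ℕ} [Fact p.Prime] {V : Type*} [AddCommGroup V]
    [Module (ZMod p) V] [Finite V] (Φ : Subgroup G) (hΦ : ∀ M : Subgroup G, IsCoatom M → Φ ≤ M)
    [IsCoatomic (Subgroup G)]
    (f : G → V) (f_mul : ∀ a b, f (a * b) = f a + f b) (f_surj : Function.Surjective f)
    (hfe : ∀ a b, f a = f b → a⁻¹ * b ∈ Φ) (n : ℕ) (hcard : Nat.card V = p ^ n) :
    (∀ S : Finset G, Subgroup.closure (S : Set G) = ⊤ → ∃ T : Finset G, T ⊆ S ∧ T.card = n ∧ Subgroup.closure (T : Set G) = ⊤) ∧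
    (∀ T : Finset G, Subgroup.closure (T : Set G) = ⊤ → n ≤ T.card) := by
  classical
  have f_one : f 1 = 0 := by
    have := f_mul 1 1
    rw [mul_one] at this
    simpa using this
  have f_inv : ∀ a, f a⁻¹ = - f a := by
    intro a
    have := f_mul a⁻¹ a
    rw [inv_mul_cancel, f_one] at this
    exact eq_neg_of_add_eq_zero_left this.symm
  have f_pow : ∀ (n : ℕ) a, f (a ^ n) = n • f a := by
    intro n a
    induction n with
    | zero => simp [f_one]
    | succ n ih => rw [pow_succ, f_mul, ih, add_smul, one_smul]
  obtain ⟨h₁, h₂⟩ := basis_core (p := p) (V := V) n hcard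
  have hcl : ∀ A : Set G, Subgroup.closure A = ⊤ → Submodule.span (ZMod p) (f '' A) = ⊤ := by
    intro A hA
    rw [eq_top_iff]
    intro v _
    obtain ⟨g, rfl⟩ := f_surj v
    have hg : g ∈ Subgroup.closure A := by rw [hA]; trivial
    induction hg using Subgroup.closure_induction with
    | mem y hy => exact Submodule.subset_span ⟨y, hy, rfl⟩
    | one => rw [f_one]; exact Submodule.zero_mem _
    | mul a b _ _ iha ihb =>
      rw [f_mul]
      exact Submodule.add_mem _ (iha trivial) (ihb trivial)
    | inv a _ iha =>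
      rw [f_inv]
      exact Submodule.neg_mem _ (iha trivial)
  have hcl' : ∀ A : Set G, Submodule.span (ZMod p) (f '' A) = ⊤ → Subgroup.closure A = ⊤ := by
    intro A hA
    set W := Subgroup.closure A with hW
    let S : Submodule (ZMod p) V :=
      { carrier := {v | ∃ w ∈ W, f w = v}
        add_mem' := by
          rintro _ _ ⟨a, ha, rfl⟩ ⟨b, hb, rfl⟩
          exact ⟨a * b, mul_mem ha hb, f_mul a b⟩
        zero_mem' := ⟨1, one_mem _, f_one⟩
        smul_mem' := by
          rintro c _ ⟨a, ha, rfl⟩
          refine ⟨a ^ c.val, pow_mem ha _, ?_⟩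
          rw [f_pow]
          conv_rhs => rw [← ZMod.natCast_zmod_val c]
          rw [Nat.cast_smul_eq_nsmul] }
    have hS : S = ⊤ := by
      rw [eq_top_iff, ← hA, Submodule.span_le]
      rintro _ ⟨a, ha, rfl⟩
      exact ⟨a, Subgroup.subset_closure ha, rfl⟩
    have hdec : ∀ g : G, ∃ w ∈ W, w⁻¹ * g ∈ Φ := by
      intro g
      have h1 : f g ∈ S := by rw [hS]; trivial
      obtain ⟨w, hw, e⟩ := h1
      refine ⟨w, hw, ?_⟩
      exact hfe _ _ e
    by_contra hne
    obtain ⟨M, hM, hWM⟩ := (eq_top_or_exists_le_coatom W).resolve_left hne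
    apply hM.1
    rw [eq_top_iff]
    intro g _
    obtain ⟨w, hw, hg⟩ := hdec g
    have h2 := hΦ M hM hg
    have e : g = w * (w⁻¹ * g) := by group
    rw [e]
    exact mul_mem (hWM hw) h2
  constructor
  · intro S hS
    have h1 := hcl (S : Set G) hS
    have h2 : ((S.image f : Finset V) : Set V) = f '' (S : Set G) := by simp
    rw [← h2] at h1
    obtain ⟨B, hBS, hBn, hB⟩ := h₁ _ h1
    have hch : ∀ v ∈ B, ∃ g ∈ S, f g = v := fun v hv => Finset.mem_image.mp (hBS hv)
    choose! g hgS hgf using hch
    let T : Finset G := B.image g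
    have hinj : Set.InjOn g (B : Set V) := by
      intro a ha b hb e
      rw [← hgf a ha, ← hgf b hb, e]
    refine ⟨T, ?_, ?_, ?_⟩
    · intro x hx
      obtain ⟨v, hv, rfl⟩ := Finset.mem_image.mp hx
      exact hgS v hv
    · rw [Finset.card_image_of_injOn hinj, hBn]
    · apply hcl'
      have h3 : f '' (T : Set G) = (B : Set V) := by
        ext v
        constructor
        · rintro ⟨x, hx, rfl⟩
          obtain ⟨u, hu, rfl⟩ := Finset.mem_image.mp hx
          rw [hgf u hu]
          exact hu
        · intro hv
          exact ⟨g v, Finset.mem_image_of_mem g hv, hgf v hv⟩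
      rw [h3]
      exact hB
  · intro T hT
    have h1 := hcl (T : Set G) hT
    have h2 : ((T.image f : Finset V) : Set V) = f '' (T : Set G) := by simp
    rw [← h2] at h1
    exact (h₂ _ h1).trans Finset.card_image_le



/-- Burnside's basis Theorem: in a finite p-group whose Frattini quotient has order p ^ n, every generating set contains n elements that already generate, and no set with fewer than n elements generates. -/
theorem result {G : Type*} [Group G] [Finite G] (p n : ℕ) [Fact p.Prime]
    (hG : IsPGroup p G) (hn : (frattini G).index = p ^ n) :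
    (∀ S : Finset G, Subgroup.closure (S : Set G) = ⊤ → ∃ T : Finset G, T ⊆ S ∧ T.card = n ∧ Subgroup.closure (T : Set G) = ⊤) ∧
    (∀ T : Finset G, Subgroup.closure (T : Set G) = ⊤ → n ≤ T.card) := by

  classical
  have hpr : p.Prime := Fact.out
  have hcommG : commutator G ≤ frattini G := Cfsg.Agent.H01.commutator_le_frattini_of_isPGroup hG
  have hpowG : ∀ x : G, x ^ p ∈ frattini G := Cfsg.Agent.H01.pow_mem_frattini_of_isPGroup hG
  let Q := G ⧸ frattini G
  letI : CommGroup Q :=
    { (inferInstance : Group Q) with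
      mul_comm := by
        intro a b
        obtain ⟨a, rfl⟩ := QuotientGroup.mk_surjective a
        obtain ⟨b, rfl⟩ := QuotientGroup.mk_surjective b
        show ((a * b : G) : Q) = ((b * a : G) : Q)
        rw [QuotientGroup.eq]
        apply hcommG
        have : (a * b)⁻¹ * (b * a) = ⁅b⁻¹, a⁻¹⁆ := by
          rw [commutatorElement_def]; group
        rw [this]
        exact Subgroup.commutator_mem_commutator (Subgroup.mem_top _) (Subgroup.mem_top _) }
  let V := Additive Q
  let f : G → V := fun g => Additive.ofMul (QuotientGroup.mk g : Q)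
  have f_mul : ∀ a b, f (a * b) = f a + f b := fun _ _ => rfl
  have f_one : f 1 = 0 := rfl
  have f_inv : ∀ a, f a⁻¹ = - f a := fun _ => rfl
  have f_pow : ∀ (n : ℕ) a, f (a ^ n) = n • f a := by
    intro n a
    induction n with
    | zero => simp [f_one]
    | succ n ih => rw [pow_succ, f_mul, ih, add_smul, one_smul]
  have f_surj : Function.Surjective f := fun v => by
    obtain ⟨a, ha⟩ := QuotientGroup.mk_surjective (Additive.toMul v)
    exact ⟨a, by show Additive.ofMul _ = v; rw [ha]; rfl⟩
  have hV : ∀ x : V, p • x = 0 := by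
    intro x
    obtain ⟨a, rfl⟩ := f_surj x
    rw [← f_pow]
    show Additive.ofMul _ = 0
    rw [(QuotientGroup.eq_one_iff _).mpr (hpowG a)]
    rfl
  letI : Module (ZMod p) V := AddCommGroup.zmodModule hV
  have hcard : Nat.card V = p ^ n := by
    rw [← hn]
    exact (Subgroup.index_eq_card _).symm
  haveI hfin : Finite V := inferInstanceAs (Finite Q)
  exact basis_main (frattini G) (fun M hM => frattini_le_coatom hM) f f_mul f_surj
    (fun a b e => QuotientGroup.eq.mp (show (QuotientGroup.mk a : Q) = QuotientGroup.mk b from e)) n hcard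

end Cfsg.Agent.S0014
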