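import Mathlib
import Cfsg.Agent.Lib.H06.Nilp
import Cfsg.Statements.S0015
-- import your own Cfsg.Agent.* helpers here

set_option autoImplicit false
open Cfsg

namespace Cfsg.Agent.S0015


/-- In a finite nilpotent group, an abelian normal subgroup that is maximal among abelian normal subgroups equals its own centralizer. -/
theorem result {G : Type*} [Group G] [Finite G] [Group.IsNilpotent G]
    (N : Subgroup G) [N.Normal] [IsMulCommutative N]
    (hmax : ∀ M : Subgroup G, M.Normal → IsMulCommutative M → N ≤ M → M = N) :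
    Subgroup.centralizer (N : Set G) = N := by
  apply le_antisymm
  swap
  · intro x hx
    rw [Subgroup.mem_centralizer_iff]
    intro y hy
    have := (inferInstance : IsMulCommutative N).is_comm.comm ⟨y, hy⟩ ⟨x, hx⟩
    exact congrArg Subtype.val this
  set C := Subgroup.centralizer (N : Set G) with hC
  have hNC : N ≤ C := by
    intro x hx
    rw [Subgroup.mem_centralizer_iff]
    intro y hy
    have := (inferInstance : IsMulCommutative N).is_comm.comm ⟨y, hy⟩ ⟨x, hx⟩
    exact congrArg Subtype.val this
  have hCn : C.Normal := by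
    constructor
    intro c hc g
    rw [hC, Subgroup.mem_centralizer_iff] at hc ⊢
    intro h hh
    have h1 : g⁻¹ * h * g ∈ N := by
      have := (inferInstance : N.Normal).conj_mem h hh g⁻¹
      simpa using this
    have h2 := hc _ h1
    calc h * (g * c * g⁻¹) = g * (g⁻¹ * h * g * c) * g⁻¹ := by group
      _ = g * (c * (g⁻¹ * h * g)) * g⁻¹ := by rw [h2]
      _ = g * c * g⁻¹ * h := by group
  by_contra hne
  set f := QuotientGroup.mk' N with hf
  have hfs : Function.Surjective f := QuotientGroup.mk'_surjective N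
  have hCb : C.map f ≠ ⊥ := by
    intro h
    apply hne
    have : C ≤ f.ker := (Subgroup.map_eq_bot_iff C).mp h
    rw [QuotientGroup.ker_mk'] at this
    exact this
  haveI : Group.IsNilpotent (G ⧸ N) := inferInstance
  obtain ⟨y, hyC, hy1, hyZ⟩ := Cfsg.Agent.H06.exists_central_of_normal
    (hCn.map f hfs) hCb
  obtain ⟨x, hx, rfl⟩ := hyC
  -- `M` is the preimage of the cyclic central group
  set M := (Subgroup.zpowers (f x)).comap f with hM
  have hzn : (Subgroup.zpowers (f x)).Normal := by
    have hle : Subgroup.zpowers (f x) ≤ Subgroup.center (G ⧸ N) := by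
      rw [Subgroup.zpowers_le]
      exact hyZ
    constructor
    intro n hn g
    have h1 := Subgroup.mem_center_iff.mp (hle hn) g
    rw [h1]
    simpa using hn
  have hMn : M.Normal := hzn.comap f
  have hNM : N ≤ M := by
    intro n hn
    rw [hM, Subgroup.mem_comap]
    have : f n = 1 := by
      rw [← MonoidHom.mem_ker, hf, QuotientGroup.ker_mk']; exact hn
    rw [this]
    exact Subgroup.one_mem _
  have hMform : ∀ a ∈ M, ∃ k : ℤ, ∃ n ∈ N, a = x ^ k * n := by
    intro a ha
    rw [hM, Subgroup.mem_comap, Subgroup.mem_zpowers_iff] at ha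
    obtain ⟨k, hk⟩ := ha
    refine ⟨k, (x ^ k)⁻¹ * a, ?_, by group⟩
    rw [← QuotientGroup.ker_mk' N, MonoidHom.mem_ker]
    show f ((x ^ k)⁻¹ * a) = 1
    rw [map_mul, map_inv, map_zpow, hk]
    simp
  have hxN : ∀ n ∈ N, Commute x n := by
    intro n hn
    have := Subgroup.mem_centralizer_iff.mp hx n hn
    exact this.symm
  have hcomm : ∀ a ∈ M, ∀ b ∈ M, a * b = b * a := by
    intro a ha b hb
    obtain ⟨k, n, hn, rfl⟩ := hMform a ha
    obtain ⟨l, n', hn', rfl⟩ := hMform b hb
    have h1 : Commute (x ^ k) n' := (hxN n' hn').zpow_left k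
    have h2 : Commute (x ^ l) n := (hxN n hn).zpow_left l
    have h3 : Commute n n' := by
      have := (inferInstance : IsMulCommutative N).is_comm.comm ⟨n, hn⟩ ⟨n', hn'⟩
      exact congrArg Subtype.val this
    have h4 : Commute (x ^ k) (x ^ l) := (Commute.refl x).zpow_zpow k l
    have c1 : Commute (x ^ k) (x ^ l * n') := h4.mul_right h1
    have c2 : Commute n (x ^ l * n') := (h2.symm).mul_right h3
    exact (c1.mul_left c2).eq
  have hMab : IsMulCommutative M := ⟨⟨fun a b => Subtype.ext (hcomm a.1 a.2 b.1 b.2)⟩⟩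
  have := hmax M hMn hMab hNM
  have hxM : x ∈ M := by
    rw [hM, Subgroup.mem_comap]
    exact Subgroup.mem_zpowers _
  rw [this] at hxM
  apply hy1
  show f x = 1
  rw [← MonoidHom.mem_ker, hf, QuotientGroup.ker_mk']
  exact hxM


end Cfsg.Agent.S0015
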