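import Mathlib
import Cfsg.Agent.Lib.H01.Solv2
import Cfsg.Agent.Lib.H08.PCoreL
import Cfsg.Statements.S0017
-- import your own Cfsg.Agent.* helpers here

set_option autoImplicit false
open Cfsg

namespace Cfsg.Agent.S0017


/-- In a finite solvable group whose largest normal subgroup of order prime to p is trivial, the centralizer of the p-core is contained in the p-core. -/
theorem result {G : Type*} [Group G] [Finite G] [Group.IsSolvable G] (p : ℕ) [Fact p.Prime]
    (h : Cfsg.pPrimeCore p G = ⊥) :
    Subgroup.centralizer (Cfsg.pCore p G : Set G) ≤ Cfsg.pCore p G := by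
  have hF : Cfsg.fittingSubgroup G = Cfsg.pCore p G := by
    apply le_antisymm
    · rw [Cfsg.Agent.H01.fitting_eq_iSup_pCore]
      apply iSup_le
      intro q
      by_cases hqp : (q : ℕ) = p
      · rw [hqp]
      · haveI : Fact (q : ℕ).Prime := ⟨q.2⟩
        have h1 : Cfsg.pCore (q : ℕ) G ≤ Cfsg.pPrimeCore p G := by
          apply Cfsg.Agent.H08.le_pPrimeCore (Cfsg.Agent.H01.pCore_normal _)
          obtain ⟨k, hk⟩ := IsPGroup.iff_card.mp (Cfsg.Agent.H01.pCore_isPGroup (G := G) (q : ℕ))
          rw [hk]
          apply Nat.Coprime.pow_left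
          exact (Nat.coprime_primes q.2 (Fact.out)).mpr hqp
        rw [h] at h1
        exact h1.trans bot_le
    · exact Cfsg.Agent.H01.pCore_le_fitting p
  rw [← hF]
  exact Cfsg.Agent.H01.centralizer_fitting_le


end Cfsg.Agent.S0017
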