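import Mathlib
import Cfsg.Agent.S0017
import Cfsg.Agent.Lib.H01.Solv2
import Cfsg.Agent.Lib.H08.PCoreL
import Cfsg.Statements.S0018
-- import your own Cfsg.Agent.* helpers here

set_option autoImplicit false
open Cfsg

namespace Cfsg.Agent.S0018


/-- A finite solvable group whose Sylow p-subgroups are abelian has p-length one: a Sylow p-subgroup together with the largest normal subgroup of order prime to p generates a normal subgroup. -/
theorem result {G : Type*} [Group G] [Finite G] [Group.IsSolvable G]
    (p : ℕ) [Fact p.Prime] (P : Sylow p G) (hP : IsMulCommutative P) :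
    ((P : Subgroup G) ⊔ Cfsg.pPrimeCore p G).Normal := by
  set R := Cfsg.pPrimeCore p G with hR
  have hRn : R.Normal := Subgroup.sSup_normal _ (fun _ h => h.1)
  set Q := G ⧸ R
  set f := QuotientGroup.mk' R with hf
  have hfs : Function.Surjective f := QuotientGroup.mk'_surjective R
  have hcore : Cfsg.pPrimeCore p Q = ⊥ := Cfsg.Agent.H08.pPrimeCore_quotient_eq_bot p
  haveI : Group.IsSolvable Q := inferInstance
  have hC := Cfsg.Agent.S0017.result (G := Q) p hcore
  -- image of `P` is a Sylow subgroup
  let S : Sylow p Q := Sylow.mapSurjective hfs P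
  have hSP : (S : Subgroup Q) = (P : Subgroup G).map f := rfl
  have hOS : Cfsg.pCore p Q ≤ S := Cfsg.Agent.H01.pCore_le_sylow p S
  have hScomm : ∀ a ∈ (S : Subgroup Q), ∀ b ∈ (S : Subgroup Q), a * b = b * a := by
    rintro _ ⟨a, ha, rfl⟩ _ ⟨b, hb, rfl⟩
    have := hP.is_comm.comm ⟨a, ha⟩ ⟨b, hb⟩
    have h1 : a * b = b * a := congrArg Subtype.val this
    rw [← map_mul, h1, map_mul]
  have hSO : (S : Subgroup Q) ≤ Cfsg.pCore p Q := by
    intro s hs
    apply hC
    rw [Subgroup.mem_centralizer_iff]
    intro y hy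
    exact hScomm _ (hOS hy) _ hs
  have hSeq : (S : Subgroup Q) = Cfsg.pCore p Q := le_antisymm hSO hOS
  have hSn : (S : Subgroup Q).Normal := hSeq ▸ Cfsg.Agent.H01.pCore_normal p
  have h2 : ((P : Subgroup G).map f).comap f = (P : Subgroup G) ⊔ R := by
    rw [Subgroup.comap_map_eq, hf, QuotientGroup.ker_mk']
  rw [← h2]
  exact Subgroup.Normal.comap hSn f


end Cfsg.Agent.S0018
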