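import Mathlib
import Cfsg.Agent.Lib.H01.SylowSystem
import Cfsg.Statements.S0020
-- import your own Cfsg.Agent.* helpers here

set_option autoImplicit false
open Pointwise
open Cfsg

namespace Cfsg.Agent.S0020


/-- A finite solvable group admits a Sylow system: Sylow subgroups, one for each prime, that pairwise permute as sets. -/
theorem result {G : Type*} [Group G] [Finite G] [Group.IsSolvable G] :
    ∃ S : (p : Nat.Primes) → Sylow (p : ℕ) G,
      ∀ p q : Nat.Primes, (S p : Set G) * (S q : Set G) = (S q : Set G) * (S p : Set G) := by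
  have h : ∀ q : ℕ, ∃ H : Subgroup G, q.Prime → H.index = Cfsg.Agent.H01.pPart G q := by
    intro q
    by_cases hq : q.Prime
    · obtain ⟨H, hH⟩ := Cfsg.Agent.H01.exists_hall_complement (G := G) q hq
      exact ⟨H, fun _ => hH⟩
    · exact ⟨⊤, fun h => absurd h hq⟩
  choose H hH using h
  obtain ⟨T, hT1, hT2⟩ := Cfsg.Agent.H01.sylow_system_of_hall H hH
  refine ⟨fun p =>
    haveI : Fact (p : ℕ).Prime := ⟨p.2⟩
    Sylow.ofCard (T p) (hT1 p p.2), ?_⟩
  intro p q
  exact hT2 p q p.2 q.2


end Cfsg.Agent.S0020
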