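import Mathlib
import Cfsg.Agent.Lib.H01.SylowPermute
import Cfsg.Statements.S0021
-- import your own Cfsg.Agent.* helpers here

set_option autoImplicit false
open Pointwise
open Cfsg

namespace Cfsg.Agent.S0021


/-- A finite group with a family of pairwise permuting Sylow subgroups, one for each prime, is solvable (this direction rests on Burnside's two-prime Theorem). -/
theorem result {G : Type*} [Group G] [Finite G]
    (S : (p : Nat.Primes) → Sylow (p : ℕ) G)
    (hS : ∀ p q : Nat.Primes, (S p : Set G) * (S q : Set G) = (S q : Set G) * (S p : Set G)) :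
    Group.IsSolvable G := by
  classical
  let S' : ℕ → Subgroup G := fun q =>
    if h : q.Prime then
      haveI : Fact (q : ℕ).Prime := ⟨h⟩
      ((S ⟨q, h⟩ : Sylow q G) : Subgroup G)
    else ⊥
  have hS' : ∀ q (h : q.Prime), S' q = (S ⟨q, h⟩ : Subgroup G) := fun q h => by
    simp only [S', dif_pos h]
  apply Cfsg.Agent.H01.isSolvable_of_permuting S'
  · intro p q hp hq
    rw [hS' p hp, hS' q hq]
    exact hS _ _
  · intro p hp
    rw [hS' p hp]
    haveI : Fact p.Prime := ⟨hp⟩
    exact (S ⟨p, hp⟩).card_eq_multiplicity


end Cfsg.Agent.S0021
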