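import Mathlib
import Cfsg.Statements.S0031
-- import your own Cfsg.Agent.* helpers here

set_option autoImplicit false
open Cfsg

namespace Cfsg.Agent.S0031

open Pointwise in
theorem aux {G : Type*} [Group G] [Finite G] (φ : G ≃* G)
    (hφ : MonoidHom.FixedPointFree (φ : G →* G)) (p : ℕ) [Fact p.Prime] :
    ∃ P : Sylow p G, (P : Subgroup G).map (φ : G →* G) = P := by
  classical
  obtain ⟨Q⟩ : Nonempty (Sylow p G) := inferInstance
  let Q' : Sylow p G := Q.mapSurjective (f := (φ : G →* G)) φ.surjective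
  obtain ⟨g, hg⟩ := MulAction.exists_smul_eq G Q Q'
  obtain ⟨y, hy⟩ := MonoidHom.FixedPointFree.commutatorMap_surjective hφ g⁻¹
  refine ⟨y⁻¹ • Q, ?_⟩
  have hg' : (Q : Subgroup G).map (φ : G →* G) = MulAut.conj g • (Q : Subgroup G) := by
    have : ((g • Q : Sylow p G) : Subgroup G) = Q' := by rw [hg]
    rw [Sylow.coe_subgroup_smul] at this
    rw [this]
    rfl
  have hy' : y / φ y = g⁻¹ := hy
  have hgy : g = φ y * y⁻¹ := by
    rw [← inv_inj, ← hy']; simp [div_eq_mul_inv]
  apply Subgroup.eq_of_le_of_card_ge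
  · rintro _ ⟨z, hz, rfl⟩
    rw [SetLike.mem_coe] at hz
    rw [Sylow.coe_subgroup_smul, Subgroup.mem_pointwise_smul_iff_inv_smul_mem] at hz ⊢
    simp only [MulAut.smul_def, map_inv, inv_inv, MulAut.conj_apply] at hz ⊢
    have h1 : φ (y * z * y⁻¹) ∈ MulAut.conj g • (Q : Subgroup G) := by
      rw [← hg']; exact Subgroup.mem_map_of_mem _ hz
    rw [Subgroup.mem_pointwise_smul_iff_inv_smul_mem] at h1
    simp only [MulAut.smul_def, map_inv, inv_inv, MulAut.conj_apply, map_mul] at h1
    convert h1 using 1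
    rw [hgy]
    simp
    group
  · rw [Subgroup.card_map_of_injective φ.injective]

/-- A fixed-point-free automorphism of a finite group maps some Sylow p-subgroup to itself. -/
theorem result {G : Type*} [Group G] [Finite G] (φ : G ≃* G)
    (hφ : MonoidHom.FixedPointFree (φ : G →* G)) (p : ℕ) [Fact p.Prime] :
    ∃ P : Sylow p G, (P : Subgroup G).map (φ : G →* G) = P := by

  exact aux φ hφ p


end Cfsg.Agent.S0031
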