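import Mathlib
import Cfsg.Statements.S0032
-- import your own Cfsg.Agent.* helpers here

set_option autoImplicit false
open Cfsg

namespace Cfsg.Agent.S0032


/-- If an automorphism of a finite group fixes only the identity and maps a normal subgroup N into itself, then the only cosets of N it fixes are those in N: a fixed coset xN forces x ∈ N. -/
theorem result {G : Type*} [Group G] [Finite G] (φ : G ≃* G)
    (hφ : MonoidHom.FixedPointFree (φ : G →* G)) (N : Subgroup G) [N.Normal] (hN : ∀ n ∈ N, φ n ∈ N)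
    (x : G) (hx : (φ x)⁻¹ * x ∈ N) : x ∈ N := by
  -- the map `n ↦ n * (φ n)⁻¹` on `N` is injective hence surjective
  let f : N → N := fun n => ⟨n * (φ n)⁻¹, N.mul_mem n.2 (N.inv_mem (hN n n.2))⟩
  have hinj : Function.Injective f := by
    intro a b hab
    have h1 : (a : G) * (φ a)⁻¹ = b * (φ b)⁻¹ := congrArg Subtype.val hab
    have h2 : φ ((b : G)⁻¹ * a) = (b : G)⁻¹ * a := by
      rw [map_mul, map_inv]
      have : (a : G) = b * (φ b)⁻¹ * φ a := by rw [← h1]; group
      calc (φ b)⁻¹ * φ a = (b : G)⁻¹ * (b * (φ b)⁻¹ * φ a) := by group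
        _ = (b : G)⁻¹ * a := by rw [← this]
    have h3 := hφ _ h2
    apply Subtype.ext
    have := inv_mul_eq_one.mp h3
    exact this.symm
  have hsurj : Function.Surjective f := Finite.surjective_of_injective hinj
  have hx' : x⁻¹ * φ x ∈ N := by
    have := N.inv_mem hx
    simpa using this
  obtain ⟨n, hn⟩ := hsurj ⟨x⁻¹ * φ x, hx'⟩
  have h1 : (n : G) * (φ n)⁻¹ = x⁻¹ * φ x := congrArg Subtype.val hn
  have h2 : φ (x * n) = x * n := by
    rw [map_mul]
    have : φ x = x * (n * (φ n)⁻¹) := by rw [h1]; group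
    rw [this]
    group
  have h3 := hφ _ h2
  have h4 : x = (n : G)⁻¹ := eq_inv_of_mul_eq_one_left h3
  rw [h4]
  exact N.inv_mem n.2


end Cfsg.Agent.S0032
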