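import Mathlib
import Cfsg.Agent.Lib.H01.Frob
import Cfsg.Statements.S0036
-- import your own Cfsg.Agent.* helpers here

set_option autoImplicit false
open Cfsg

namespace Cfsg.Agent.S0036

open scoped Pointwise
open Cfsg.Agent.H01

/-- When a Frobenius complement contains an involution, an elementary argument shows the Frobenius kernel is closed under multiplication (hence a subgroup). -/
theorem result {G : Type*} [Group G] [Finite G] (H : Subgroup G) (hH : Cfsg.IsFrobeniusComplement H)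
    (t : G) (ht : t ∈ H) (ht1 : t ≠ 1) (ht2 : t * t = 1) :
    ∀ x ∈ Cfsg.frobeniusKernel H, ∀ y ∈ Cfsg.frobeniusKernel H, x * y ∈ Cfsg.frobeniusKernel H := by

  classical
  have hinvt : t⁻¹ = t := by rw [inv_eq_iff_mul_eq_one]; exact ht2
  set K' := Cfsg.frobeniusKernel H with hK'
  -- basic closure properties of the kernel
  have hconjK : ∀ x ∈ K', ∀ c : G, c * x * c⁻¹ ∈ K' := by
    rintro x (rfl | hx) c
    · left; group
    · right
      intro g hg
      rw [mem_conj_smul_iff] at hg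
      apply hx (c⁻¹ * g)
      rw [mem_conj_smul_iff]
      have : (c⁻¹ * g)⁻¹ * x * (c⁻¹ * g) = g⁻¹ * (c * x * c⁻¹) * g := by group
      rw [this]
      exact hg
  have hinvK : ∀ x ∈ K', x⁻¹ ∈ K' := by
    rintro x (rfl | hx)
    · left; simp
    · right
      intro g hg
      apply hx g
      have := (MulAut.conj g • H).inv_mem hg
      simpa using this
  set I := conjSet ({t} : Set G) with hI
  have hI_inv : ∀ s ∈ I, s * s = 1 ∧ s ≠ 1 := by
    rintro s ⟨c, a, ha, rfl⟩
    rw [Set.mem_singleton_iff] at ha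
    subst ha
    constructor
    · calc c * a * c⁻¹ * (c * a * c⁻¹) = c * (a * a) * c⁻¹ := by group
        _ = 1 := by rw [ht2]; group
    · intro h
      apply ht1
      have : a = c⁻¹ * (c * a * c⁻¹) * c := by group
      rw [this, h]
      group
  set I₀ : Set G := I ∩ (H : Set G) with hI₀
  set I₁ : Set G := I \ (H : Set G) with hI₁
  have htI₀ : t ∈ I₀ := ⟨⟨1, t, rfl, by group⟩, ht⟩
  have hconjI₀ : conjSet I₀ = I := by
    apply Set.Subset.antisymm
    · rintro _ ⟨g, a, ha, rfl⟩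
      exact conjSet_conj ha.1 g
    · rintro _ ⟨g, a, ha, rfl⟩
      rw [Set.mem_singleton_iff] at ha
      subst ha
      exact ⟨g, a, htI₀, rfl⟩
  have hcardI : Nat.card I = H.index * Nat.card I₀ := by
    rw [← hconjI₀]
    rw [hconjI₀]
    conv_lhs => rw [← hconjI₀]
    apply card_conjSet hH I₀ (fun x hx => hx.2) (fun h => (hI_inv _ h.1).2 rfl)
    intro h hh a ha
    exact ⟨conjSet_conj ha.1 h, H.mul_mem (H.mul_mem hh ha.2) (H.inv_mem hh)⟩
  have hcardsplit : Nat.card I₀ + Nat.card I₁ = Nat.card I := by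
    rw [Nat.card_coe_set_eq, Nat.card_coe_set_eq, Nat.card_coe_set_eq]
    exact Set.ncard_inter_add_ncard_sdiff_eq_ncard I (H : Set G) (Set.toFinite _)
  -- products land in the kernel
  have hprod : ∀ s ∈ I₁, t * s ∈ K' ∧ t * s ≠ 1 := by
    rintro s ⟨hsI, hsH⟩
    have hs := hI_inv s hsI
    have hsinv : s⁻¹ = s := by rw [inv_eq_iff_mul_eq_one]; exact hs.1
    have hts1 : t * s ≠ 1 := by
      intro h
      apply hsH
      have : s = t⁻¹ := by
        rw [eq_inv_iff_mul_eq_one, mul_eq_one_iff_eq_inv] at *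
        rw [h, inv_inv]
      rw [this, hinvt]
      exact ht
    refine ⟨?_, hts1⟩
    right
    intro g hg
    rw [mem_conj_smul_iff] at hg
    set z := g⁻¹ * (t * s) * g with hz
    have hz1 : z ≠ 1 := by
      intro h
      apply hts1
      have : t * s = g * z * g⁻¹ := by rw [hz]; group
      rw [this, h]
      group
    have hzinv : z⁻¹ = g⁻¹ * (s * t) * g := by
      rw [hz]
      simp only [mul_inv_rev, inv_inv, hinvt, hsinv]
      group
    have h1 : (g⁻¹ * t * g) * z * (g⁻¹ * t * g)⁻¹ = z⁻¹ := by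
      rw [hzinv, hz]
      simp only [mul_inv_rev, inv_inv, hinvt]
      calc g⁻¹ * t * g * (g⁻¹ * (t * s) * g) * (g⁻¹ * (t * g)) = g⁻¹ * (t * t) * s * t * g := by group
        _ = g⁻¹ * (s * t) * g := by rw [ht2]; group
    have h2 : (g⁻¹ * s * g) * z * (g⁻¹ * s * g)⁻¹ = z⁻¹ := by
      rw [hzinv, hz]
      simp only [mul_inv_rev, inv_inv, hsinv]
      calc g⁻¹ * s * g * (g⁻¹ * (t * s) * g) * (g⁻¹ * (s * g)) = g⁻¹ * s * t * (s * s) * g := by group
        _ = g⁻¹ * (s * t) * g := by rw [hs.1]; group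
    have ht' : g⁻¹ * t * g ∈ H := frob_conj_mem hH hg hz1 (h1 ▸ H.inv_mem hg)
    have hs' : g⁻¹ * s * g ∈ H := frob_conj_mem hH hg hz1 (h2 ▸ H.inv_mem hg)
    have hg' : g⁻¹ ∈ H := by
      apply frob_conj_mem hH ht ht1
      simpa using ht'
    apply hsH
    have : s = g * (g⁻¹ * s * g) * g⁻¹ := by group
    rw [this]
    have hg'' : g ∈ H := by simpa using H.inv_mem hg'
    exact H.mul_mem (H.mul_mem hg'' hs') hg'
  -- the count
  set T : Set G := {x | x ∈ K' ∧ x ≠ 1} with hT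
  have hTcard : Nat.card T = H.index - 1 := by
    have h1 : T = K' \ {1} := by
      ext x; simp [hT]
    rw [h1, Nat.card_coe_set_eq, Set.ncard_sdiff_singleton_of_mem (show (1 : G) ∈ K' from Or.inl rfl), ← Nat.card_coe_set_eq,
      card_frobeniusKernel hH]
  let φ : I₁ → T := fun s => ⟨t * s, hprod s s.2⟩
  have hφ : Function.Injective φ := by
    intro a b hab
    have h1 : t * (a : G) = t * b := congrArg Subtype.val hab
    exact Subtype.ext (mul_left_cancel h1)
  have hle := Nat.card_le_card_of_injective φ hφ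
  have hn : 1 < H.index := by
    have h1 : H.index ≠ 0 := Subgroup.index_ne_zero_of_finite
    have h2 : H.index ≠ 1 := fun h => hH.2.1 (Subgroup.index_eq_one.mp h)
    omega
  have hm : Nat.card I₀ = 1 := by
    have h1 : 0 < Nat.card I₀ := by
      haveI : Nonempty I₀ := ⟨⟨t, htI₀⟩⟩
      exact Nat.card_pos
    rw [hTcard] at hle
    obtain ⟨n', hn'⟩ : ∃ n', H.index = n' + 2 := ⟨H.index - 2, by omega⟩
    rw [hn'] at hcardI hle
    by_contra hne
    have h3 : 2 ≤ Nat.card I₀ := by omega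
    simp only [Nat.add_succ_sub_one] at hle
    nlinarith
  have hI₀eq : I₀ = {t} := by
    rw [Nat.card_coe_set_eq, Set.ncard_eq_one] at hm
    obtain ⟨a, ha⟩ := hm
    rw [ha] at htI₀ ⊢
    rw [Set.mem_singleton_iff] at htI₀
    rw [htI₀]
  have hI₁card : Nat.card I₁ = H.index - 1 := by
    rw [hm] at hcardI hcardsplit
    omega
  have hφb : Function.Bijective φ :=
    Function.Injective.bijective_of_nat_card_le hφ (by rw [hTcard, hI₁card])
  have hsurj : ∀ x ∈ K', x ≠ 1 → ∃ s ∈ I₁, x = t * s := by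
    intro x hx hx1
    obtain ⟨s, hs⟩ := hφb.2 ⟨x, hx, hx1⟩
    exact ⟨s, s.2, (congrArg Subtype.val hs).symm⟩
  intro x hx y hy
  by_cases hx1 : x = 1
  · rw [hx1, one_mul]; exact hy
  by_cases hy1 : y = 1
  · rw [hy1, mul_one]; exact hx
  obtain ⟨s₁, hs₁, hxs⟩ := hsurj x⁻¹ (hinvK x hx) (by simpa using hx1)
  obtain ⟨s₂, hs₂, hys⟩ := hsurj y hy hy1
  have hs₁I := hs₁.1
  have hs₁inv : s₁⁻¹ = s₁ := by rw [inv_eq_iff_mul_eq_one]; exact (hI_inv _ hs₁I).1
  have hxeq : x = s₁ * t := by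
    have := congrArg (·⁻¹) hxs
    simp only [inv_inv, mul_inv_rev, hs₁inv, hinvt] at this
    exact this
  obtain ⟨g, a, ha, hg⟩ := hs₁I
  rw [Set.mem_singleton_iff] at ha
  subst ha
  set s₃ := g⁻¹ * s₂ * g with hs₃
  have hs₃I : s₃ ∈ I := by
    have := conjSet_conj hs₂.1 g⁻¹
    simpa using this
  have hxy : x * y = g * (a * s₃) * g⁻¹ := by
    rw [hxeq, hys, hs₃, hg]
    calc g * a * g⁻¹ * a * (a * s₂) = g * a * g⁻¹ * (a * a) * s₂ := by group
      _ = g * (a * (g⁻¹ * s₂ * g)) * g⁻¹ := by rw [ht2]; group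
  rw [hxy]
  apply hconjK
  by_cases hs₃H : s₃ ∈ H
  · have : s₃ ∈ I₀ := ⟨hs₃I, hs₃H⟩
    rw [hI₀eq, Set.mem_singleton_iff] at this
    rw [this, ht2]
    exact Or.inl rfl
  · exact (hprod s₃ ⟨hs₃I, hs₃H⟩).1


end Cfsg.Agent.S0036
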