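import Mathlib
import Cfsg.Agent.Lib.H01.Solv2
import Cfsg.Statements.S0044
-- import your own Cfsg.Agent.* helpers here

set_option autoImplicit false
open Cfsg

namespace Cfsg.Agent.S0044


/-- In a finite solvable group, the centraliser of the Fitting subgroup is contained in the Fitting subgroup. -/
theorem result {G : Type*} [Group G] [Finite G] [Group.IsSolvable G] :
    Subgroup.centralizer (Cfsg.fittingSubgroup G : Set G) ≤ Cfsg.fittingSubgroup G := by
  exact Cfsg.Agent.H01.centralizer_fitting_le


end Cfsg.Agent.S0044
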