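import Mathlib
import Cfsg.Agent.Lib.H02.Schmidt
import Cfsg.Statements.S0046
-- import your own Cfsg.Agent.* helpers here

set_option autoImplicit false
open Cfsg

namespace Cfsg.Agent.S0046


/-- Schmidt's Theorem on minimal non-nilpotent groups: a finite group in which every maximal subgroup is nilpotent is solvable. -/
theorem result {G : Type*} [Group G] [Finite G]
    (h : ∀ M : Subgroup G, IsCoatom M → Group.IsNilpotent M) : Group.IsSolvable G := by
  by_cases hn : Group.IsNilpotent G
  · infer_instance
  · apply Cfsg.Agent.H02.minNonNil_solvable _ G rfl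
    refine ⟨hn, ?_⟩
    intro H hH
    obtain ⟨M, hM, hHM⟩ := (eq_top_or_exists_le_coatom H).resolve_left hH
    haveI := h M hM
    let f : H →* M := Subgroup.inclusion hHM
    have hk : f.ker = ⊥ := (MonoidHom.ker_eq_bot_iff f).mpr (Subgroup.inclusion_injective hHM)
    exact isNilpotent_of_ker_le_center f (by rw [hk]; exact bot_le)


end Cfsg.Agent.S0046
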