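import Mathlib
import Cfsg.Agent.Lib.H01.Hall
import Cfsg.Statements.S0047
-- import your own Cfsg.Agent.* helpers here

set_option autoImplicit false
open Cfsg

namespace Cfsg.Agent.S0047

open scoped commutatorElement

/-- A finite group which is the product AB of two abelian subgroups A and B is solvable. -/
theorem result {G : Type*} [Group G] [Finite G] (A B : Subgroup G)
    [IsMulCommutative A] [IsMulCommutative B] (hAB : ∀ g : G, ∃ a ∈ A, ∃ b ∈ B, g = a * b) :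
    Group.IsSolvable G := by

  classical
  have hAc : ∀ a ∈ A, ∀ a' ∈ A, a * a' = a' * a := fun a ha a' ha' =>
    congrArg Subtype.val ((inferInstance : IsMulCommutative A).is_comm.comm ⟨a, ha⟩ ⟨a', ha'⟩)
  have hBc : ∀ b ∈ B, ∀ b' ∈ B, b * b' = b' * b := fun b hb b' hb' =>
    congrArg Subtype.val ((inferInstance : IsMulCommutative B).is_comm.comm ⟨b, hb⟩ ⟨b', hb'⟩)
  -- every element is a product in the other order too
  have hBA : ∀ g : G, ∃ b ∈ B, ∃ a ∈ A, g = b * a := by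
    intro g
    obtain ⟨a, ha, b, hb, h⟩ := hAB g⁻¹
    refine ⟨b⁻¹, B.inv_mem hb, a⁻¹, A.inv_mem ha, ?_⟩
    rw [← mul_inv_rev, ← h, inv_inv]
  -- conjugation formulas
  have L1 : ∀ a ∈ A, ∀ a₁ ∈ A, ∀ b v : G, ∀ u ∈ A, a₁ * b * a₁⁻¹ = v * u →
      a₁ * ⁅a, b⁆ * a₁⁻¹ = ⁅a, v⁆ := by
    intro a ha a₁ ha₁ b v u hu h
    have h1 : a₁ * a = a * a₁ := hAc a₁ ha₁ a ha
    have h2 : a * u = u * a := hAc a ha u hu
    have h3 : a₁ * b = v * u * a₁ := by rw [← h]; group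
    have h4 : b⁻¹ * a₁⁻¹ = a₁⁻¹ * u⁻¹ * v⁻¹ := by
      have : (a₁ * b)⁻¹ = (v * u * a₁)⁻¹ := by rw [h3]
      simpa [mul_inv_rev, mul_assoc] using this
    rw [commutatorElement_def, commutatorElement_def]
    calc a₁ * (a * b * a⁻¹ * b⁻¹) * a₁⁻¹ = (a₁ * a) * b * a⁻¹ * (b⁻¹ * a₁⁻¹) := by group
      _ = a * (a₁ * b) * a⁻¹ * (a₁⁻¹ * u⁻¹ * v⁻¹) := by rw [h1, h4]; group
      _ = a * (v * u * a₁) * a⁻¹ * (a₁⁻¹ * u⁻¹ * v⁻¹) := by rw [h3]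
      _ = a * v * (u * (a₁ * a⁻¹ * a₁⁻¹)) * u⁻¹ * v⁻¹ := by group
      _ = a * v * (u * a⁻¹) * u⁻¹ * v⁻¹ := by
          have : a₁ * a⁻¹ * a₁⁻¹ = a⁻¹ := by
            have h5 : a₁ * a⁻¹ = a⁻¹ * a₁ := by
              have := hAc a₁ ha₁ a⁻¹ (A.inv_mem ha)
              exact this
            rw [h5]; group
          rw [this]
      _ = a * v * (a⁻¹ * u) * u⁻¹ * v⁻¹ := by
          have h5 : u * a⁻¹ = a⁻¹ * u := hAc u hu a⁻¹ (A.inv_mem ha)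
          rw [h5]
      _ = a * v * a⁻¹ * v⁻¹ := by group
  have L2 : ∀ b ∈ B, ∀ b₁ ∈ B, ∀ a x : G, ∀ y ∈ B, b₁ * a * b₁⁻¹ = x * y →
      b₁ * ⁅a, b⁆ * b₁⁻¹ = ⁅x, b⁆ := by
    intro b hb b₁ hb₁ a x y hy h
    have h1 : b₁ * b = b * b₁ := hBc b₁ hb₁ b hb
    have h2 : y * b = b * y := hBc y hy b hb
    have h3 : b₁ * a = x * y * b₁ := by rw [← h]; group
    have h4 : a⁻¹ * b₁⁻¹ = b₁⁻¹ * y⁻¹ * x⁻¹ := by
      have : (b₁ * a)⁻¹ = (x * y * b₁)⁻¹ := by rw [h3]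
      simpa [mul_inv_rev, mul_assoc] using this
    have h6 : b₁ * b⁻¹ * b₁⁻¹ = b⁻¹ := by
      have h5 : b₁ * b⁻¹ = b⁻¹ * b₁ := hBc b₁ hb₁ b⁻¹ (B.inv_mem hb)
      rw [h5]; group
    rw [commutatorElement_def, commutatorElement_def]
    calc b₁ * (a * b * a⁻¹ * b⁻¹) * b₁⁻¹ = (b₁ * a) * (b * (a⁻¹ * b₁⁻¹)) * (b₁ * b⁻¹ * b₁⁻¹) := by group
      _ = (x * y * b₁) * (b * (b₁⁻¹ * y⁻¹ * x⁻¹)) * b⁻¹ := by rw [h3, h4, h6]
      _ = x * y * (b₁ * b * b₁⁻¹) * y⁻¹ * x⁻¹ * b⁻¹ := by group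
      _ = x * (y * b) * y⁻¹ * x⁻¹ * b⁻¹ := by
          have : b₁ * b * b₁⁻¹ = b := by rw [h1]; group
          rw [this]; group
      _ = x * (b * y) * y⁻¹ * x⁻¹ * b⁻¹ := by rw [h2]
      _ = x * b * x⁻¹ * b⁻¹ := by group
  -- commutators commute
  set S : Set G := {g | ∃ a ∈ A, ∃ b ∈ B, ⁅a, b⁆ = g} with hS
  have hcomm : ∀ x ∈ S, ∀ y ∈ S, x * y = y * x := by
    rintro _ ⟨a, ha, b, hb, rfl⟩ _ ⟨a₁, ha₁, b₁, hb₁, rfl⟩
    -- use conjugation by `a₁⁻¹`, `b₁⁻¹`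
    obtain ⟨v, hv, u, hu, huv⟩ := hBA (a₁⁻¹ * b * a₁⁻¹⁻¹)
    obtain ⟨x, hx, y, hy, hxy⟩ := hAB (b₁⁻¹ * a * b₁⁻¹⁻¹)
    have e1 := L1 a ha a₁⁻¹ (A.inv_mem ha₁) b v u hu huv
    have e2 := L2 v hv b₁⁻¹ (B.inv_mem hb₁) a x y hy hxy
    have e3 := L2 b hb b₁⁻¹ (B.inv_mem hb₁) a x y hy hxy
    have e4 := L1 x hx a₁⁻¹ (A.inv_mem ha₁) b v u hu huv
    have e5 : b₁⁻¹ * (a₁⁻¹ * ⁅a, b⁆ * a₁⁻¹⁻¹) * b₁⁻¹⁻¹ = a₁⁻¹ * (b₁⁻¹ * ⁅a, b⁆ * b₁⁻¹⁻¹) * a₁⁻¹⁻¹ := by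
      rw [e1, e2, e3, e4]
    -- so `⁅a₁, b₁⁆` commutes with `⁅a, b⁆`
    set c := ⁅a, b⁆ with hc
    have e6 : (a₁ * b₁ * a₁⁻¹ * b₁⁻¹) * c = c * (a₁ * b₁ * a₁⁻¹ * b₁⁻¹) := by
      have e7 : b₁⁻¹ * a₁⁻¹ * c * (a₁ * b₁) = a₁⁻¹ * b₁⁻¹ * c * (b₁ * a₁) := by
        have := e5
        simp only [inv_inv] at this
        calc b₁⁻¹ * a₁⁻¹ * c * (a₁ * b₁) = b₁⁻¹ * (a₁⁻¹ * c * a₁) * b₁ := by group
          _ = a₁⁻¹ * (b₁⁻¹ * c * b₁) * a₁ := this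
          _ = a₁⁻¹ * b₁⁻¹ * c * (b₁ * a₁) := by group
      calc (a₁ * b₁ * a₁⁻¹ * b₁⁻¹) * c
          = a₁ * b₁ * (a₁⁻¹ * b₁⁻¹ * c * (b₁ * a₁)) * (b₁ * a₁)⁻¹ := by group
        _ = a₁ * b₁ * (b₁⁻¹ * a₁⁻¹ * c * (a₁ * b₁)) * (b₁ * a₁)⁻¹ := by rw [e7]
        _ = c * (a₁ * b₁ * a₁⁻¹ * b₁⁻¹) := by group
    rw [commutatorElement_def a₁ b₁]
    exact e6.symm
  set D := Subgroup.closure S with hD
  -- normality
  have conj_gen : ∀ c : G, (∀ s ∈ S, c * s * c⁻¹ ∈ D) → ∀ x ∈ D, c * x * c⁻¹ ∈ D := by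
    intro c hc x hx
    induction hx using Subgroup.closure_induction with
    | mem s hs => exact hc s hs
    | one => simp [Subgroup.one_mem]
    | mul a b _ _ ha hb =>
      have : c * (a * b) * c⁻¹ = (c * a * c⁻¹) * (c * b * c⁻¹) := by group
      rw [this]
      exact D.mul_mem ha hb
    | inv a _ ha =>
      have : c * a⁻¹ * c⁻¹ = (c * a * c⁻¹)⁻¹ := by group
      rw [this]
      exact D.inv_mem ha
  have hgen : ∀ a ∈ A, ∀ b ∈ B, ⁅a, b⁆ ∈ D := fun a ha b hb =>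
    Subgroup.subset_closure ⟨a, ha, b, hb, rfl⟩
  have hA_D : ∀ a₁ ∈ A, ∀ x ∈ D, a₁ * x * a₁⁻¹ ∈ D := by
    intro a₁ ha₁
    apply conj_gen
    rintro _ ⟨a, ha, b, hb, rfl⟩
    have e : a₁ * ⁅a, b⁆ * a₁⁻¹ = ⁅a₁ * a, b⁆ * ⁅a₁, b⁆⁻¹ := by
      simp only [commutatorElement_def]
      group
    rw [e]
    exact D.mul_mem (hgen _ (A.mul_mem ha₁ ha) _ hb) (D.inv_mem (hgen _ ha₁ _ hb))
  have hB_D : ∀ b₁ ∈ B, ∀ x ∈ D, b₁ * x * b₁⁻¹ ∈ D := by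
    intro b₁ hb₁
    apply conj_gen
    rintro _ ⟨a, ha, b, hb, rfl⟩
    have e : b₁ * ⁅a, b⁆ * b₁⁻¹ = ⁅a, b₁⁆⁻¹ * ⁅a, b₁ * b⁆ := by
      simp only [commutatorElement_def]
      group
    rw [e]
    exact D.mul_mem (D.inv_mem (hgen _ ha _ hb₁)) (hgen _ ha _ (B.mul_mem hb₁ hb))
  have hDn : D.Normal := by
    constructor
    intro x hx g
    obtain ⟨a, ha, b, hb, rfl⟩ := hAB g
    have : a * b * x * (a * b)⁻¹ = a * (b * x * b⁻¹) * a⁻¹ := by group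
    rw [this]
    exact hA_D a ha _ (hB_D b hb x hx)
  -- `D` is abelian
  have hDs : Group.IsSolvable D := by
    letI := Subgroup.closureCommGroupOfComm hcomm
    exact isSolvable_of_comm (fun a b => mul_comm a b)
  -- `G / D` is abelian
  have hQ : Group.IsSolvable (G ⧸ D) := by
    apply isSolvable_of_comm
    intro x y
    obtain ⟨g, rfl⟩ := QuotientGroup.mk'_surjective D x
    obtain ⟨h, rfl⟩ := QuotientGroup.mk'_surjective D y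
    obtain ⟨a, ha, b, hb, rfl⟩ := hAB g
    obtain ⟨a', ha', b', hb', rfl⟩ := hAB h
    set f := QuotientGroup.mk' D with hf
    have hab : ∀ a ∈ A, ∀ b ∈ B, Commute (f a) (f b) := by
      intro a ha b hb
      have h1 : f ⁅a, b⁆ = 1 := by
        rw [← MonoidHom.mem_ker, hf, QuotientGroup.ker_mk']
        exact hgen a ha b hb
      rw [map_commutatorElement, commutatorElement_eq_one_iff_mul_comm] at h1
      exact h1
    have c1 : Commute (f a) (f a') := by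
      show f a * f a' = f a' * f a
      rw [← map_mul, hAc a ha a' ha', map_mul]
    have c2 : Commute (f b) (f b') := by
      show f b * f b' = f b' * f b
      rw [← map_mul, hBc b hb b' hb', map_mul]
    have c3 := hab a ha b' hb'
    have c4 := (hab a' ha' b hb).symm
    simp only [map_mul]
    have c5 : Commute (f a * f b) (f a' * f b') :=
      Commute.mul_left (Commute.mul_right c1 c3) (Commute.mul_right c4 c2)
    exact c5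
  haveI := hDn
  haveI := hDs
  haveI := hQ
  apply solvable_of_ker_le_range D.subtype (QuotientGroup.mk' D)
  rw [QuotientGroup.ker_mk', Subgroup.range_subtype]


end Cfsg.Agent.S0047
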