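import Mathlib
import Cfsg.Agent.Lib.H01.Maximal
import Cfsg.Statements.S0048
-- import your own Cfsg.Agent.* helpers here

set_option autoImplicit false
open Cfsg

namespace Cfsg.Agent.S0048


/-- In a finite solvable group every maximal subgroup has index a prime power. -/
theorem result {G : Type*} [Group G] [Finite G] [Group.IsSolvable G]
    (M : Subgroup G) (hM : IsCoatom M) : IsPrimePow M.index := by
  exact Cfsg.Agent.H01.isPrimePow_index_of_isCoatom _ G rfl M hM


end Cfsg.Agent.S0048
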