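import Mathlib
import Cfsg.Statements.S0049
-- import your own Cfsg.Agent.* helpers here

set_option autoImplicit false
open Cfsg

namespace Cfsg.Agent.S0049


/-- A prime divisor of the order of a finite group also divides the index of the Frattini subgroup. -/
theorem result {G : Type*} [Group G] [Finite G] (p : ℕ) (hp : p.Prime) (hdvd : p ∣ Nat.card G) :
    p ∣ (frattini G).index := by
  by_contra hnot
  haveI : Fact p.Prime := ⟨hp⟩
  set Φ := frattini G with hΦ
  have hcard := Φ.card_mul_index
  have hGne : Nat.card G ≠ 0 := Nat.card_pos.ne'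
  have hΦne : Nat.card Φ ≠ 0 := Nat.card_pos.ne'
  have hidxne : Φ.index ≠ 0 := Subgroup.index_ne_zero_of_finite
  have hfac : (Nat.card G).factorization p = (Nat.card Φ).factorization p := by
    rw [← hcard, Nat.factorization_mul hΦne hidxne]
    simp [Nat.factorization_eq_zero_of_not_dvd hnot]
  haveI : Finite (Sylow p Φ) := inferInstance
  let P : Sylow p Φ := default
  have hPcard : Nat.card (P : Subgroup Φ) = p ^ (Nat.card G).factorization p := by
    rw [hfac]
    exact P.card_eq_multiplicity
  set Q := (P : Subgroup Φ).map Φ.subtype with hQ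
  have hQcard : Nat.card Q = p ^ (Nat.card G).factorization p := by
    rw [hQ, ← hPcard]
    exact Nat.card_congr ((P : Subgroup Φ).equivMapOfInjective _ Φ.subtype_injective).toEquiv.symm
  have hN := Sylow.normalizer_sup_eq_top P
  have hN' := frattini_nongenerating hN
  have hQn : Q.Normal := Subgroup.normalizer_eq_top_iff.mp hN'
  have hQΦ : Q ≤ Φ := Subgroup.map_subtype_le _
  have hidx : Q.index = Nat.card G / p ^ (Nat.card G).factorization p := by
    have := Q.card_mul_index
    rw [hQcard] at this
    exact Nat.eq_div_of_mul_eq_right (pow_pos hp.pos _).ne' this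
  have hcop : (Nat.card Q).Coprime Q.index := by
    rw [hQcard, hidx]
    apply Nat.Coprime.pow_left
    exact (Nat.coprime_ordCompl hp hGne).symm.symm
  obtain ⟨H, hH⟩ := Subgroup.exists_right_complement'_of_coprime hcop
  have hsup : H ⊔ Φ = ⊤ := by
    rw [eq_top_iff, ← hH.sup_eq_top]
    exact sup_le (hQΦ.trans le_sup_right) le_sup_left
  have hHtop := frattini_nongenerating hsup
  have hQbot : Q = ⊥ := by
    have := hH.disjoint
    rw [hHtop, disjoint_top] at this
    exact this
  rw [hQbot, Subgroup.card_bot] at hQcard
  have hfz : (Nat.card G).factorization p = 0 := by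
    by_contra h
    have : 1 < p ^ (Nat.card G).factorization p := Nat.one_lt_pow h hp.one_lt
    omega
  have h5 := (Nat.factorization_eq_zero_iff _ _).mp hfz
  rcases h5 with h6 | h6 | h6
  · exact h6 hp
  · exact h6 hdvd
  · exact hGne h6


end Cfsg.Agent.S0049
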