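import Mathlib
import Cfsg.Agent.Lib.H01.Hall
import Cfsg.Statements.S0050
-- import your own Cfsg.Agent.* helpers here

set_option autoImplicit false
open Cfsg

namespace Cfsg.Agent.S0050

open scoped Pointwise

/-- Frattini argument for Hall subgroups: if L is a solvable normal subgroup and H a subgroup of L of order coprime to its index in L, then L together with the normaliser of H generates the whole group. -/
theorem result {G : Type*} [Group G] [Finite G] (L : Subgroup G) [L.Normal] (hL : Group.IsSolvable L)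
    (H : Subgroup G) (hHL : H ≤ L) (hHall : (Nat.card H).Coprime (H.relIndex L)) :
    L ⊔ Subgroup.normalizer (H : Set G) = ⊤ := by

  rw [eq_top_iff]
  intro g _
  -- conjugate of H inside L
  have hLcard : Nat.card L = Nat.card H * H.relIndex L := by
    have := (H.subgroupOf L).card_mul_index
    rw [Cfsg.Agent.H01.card_subgroupOf_of_le hHL] at this
    exact this.symm
  have hgL : MulAut.conj g • H ≤ L := by
    intro x hx
    rw [Cfsg.Agent.H01.mem_conj_smul_iff] at hx
    have h1 : g * (g⁻¹ * x * g) * g⁻¹ ∈ L := (inferInstance : L.Normal).conj_mem _ (hHL hx) g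
    simpa [mul_assoc] using h1
  obtain ⟨l, hl⟩ := Cfsg.Agent.H01.hall_conj _ L rfl _ _ hLcard hHall (H.subgroupOf L)
    ((MulAut.conj g • H).subgroupOf L) (Cfsg.Agent.H01.card_subgroupOf_of_le hHL)
    (by
      rw [Cfsg.Agent.H01.card_subgroupOf_of_le hgL, Cfsg.Agent.H01.card_conj_smul])
  have h2 := Cfsg.Agent.H01.conj_of_subgroupOf hHL hgL l hl
  -- so `l⁻¹ * g` normalizes `H`
  have h3 : (l : G)⁻¹ * g ∈ Subgroup.normalizer (H : Set G) := by
    rw [Cfsg.Agent.H01.mem_normalizer_iff_smul, Cfsg.Agent.H01.conj_mul_smul, ← h2,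
      ← Cfsg.Agent.H01.conj_mul_smul]
    simp
  have h4 : g = (l : G) * ((l : G)⁻¹ * g) := by group
  rw [h4]
  exact Subgroup.mul_mem_sup l.2 h3


end Cfsg.Agent.S0050
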