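import Mathlib
import Cfsg.Agent.Lib.H01.Hall
import Cfsg.Agent.Lib.H01.Basic
import Cfsg.Statements.S0053
-- import your own Cfsg.Agent.* helpers here

set_option autoImplicit false
open Cfsg

namespace Cfsg.Agent.S0053


/-- An abelian minimal normal subgroup N of a finite group is complemented exactly when N is not inside the Frattini subgroup. -/
theorem result {G : Type*} [Group G] [Finite G]
    (N : Subgroup G) [N.Normal] [IsMulCommutative N] (hN : N ≠ ⊥)
    (hmin : ∀ M : Subgroup G, M.Normal → M ≤ N → M = ⊥ ∨ M = N) :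
    (∃ H : Subgroup G, Subgroup.IsComplement' N H) ↔ ¬ N ≤ frattini G := by
  constructor
  · rintro ⟨H, hH⟩ hle
    have hsup : H ⊔ frattini G = ⊤ := by
      rw [eq_top_iff, ← hH.sup_eq_top]
      exact sup_le (hle.trans le_sup_right) le_sup_left
    have hHtop := frattini_nongenerating hsup
    have := hH.disjoint
    rw [hHtop, disjoint_top] at this
    exact hN this
  · intro hnot
    -- a maximal subgroup not containing `N`
    obtain ⟨M, hM, hNM⟩ : ∃ M : Subgroup G, IsCoatom M ∧ ¬ N ≤ M := by
      by_contra hcon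
      push Not at hcon
      apply hnot
      intro x hx
      apply Cfsg.Agent.H01.mem_frattini_iff.mpr
      intro M hM
      exact hcon M hM hx
    have hsup : N ⊔ M = ⊤ := by
      apply hM.2
      refine lt_of_le_of_ne le_sup_right (fun h => hNM ?_)
      rw [h]; exact le_sup_left
    -- `N ⊓ M` is normal
    have hinfn : (N ⊓ M).Normal := by
      constructor
      intro x hx g
      obtain ⟨hxN, hxM⟩ := hx
      have hg : g ∈ N ⊔ M := by rw [hsup]; trivial
      rw [Subgroup.mem_sup_of_normal_left] at hg
      obtain ⟨n, hn, m, hm, rfl⟩ := hg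
      have hcomm : n * x = x * n :=
        congrArg Subtype.val ((inferInstance : IsMulCommutative N).is_comm.comm ⟨n, hn⟩ ⟨x, hxN⟩)
      have h1 : n * m * x * (n * m)⁻¹ = n * (m * x * m⁻¹) * n⁻¹ := by group
      have h2 : m * x * m⁻¹ ∈ N := (inferInstance : N.Normal).conj_mem x hxN m
      have h3 : n * (m * x * m⁻¹) * n⁻¹ = m * x * m⁻¹ := by
        have hc : n * (m * x * m⁻¹) = (m * x * m⁻¹) * n :=
          congrArg Subtype.val ((inferInstance : IsMulCommutative N).is_comm.comm ⟨n, hn⟩ ⟨_, h2⟩)
        rw [hc]; group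
      rw [h1, h3]
      exact ⟨h2, M.mul_mem (M.mul_mem hm hxM) (M.inv_mem hm)⟩
    have hdisj : N ⊓ M = ⊥ := by
      rcases hmin _ hinfn inf_le_left with h | h
      · exact h
      · exfalso
        apply hNM
        rw [← h]
        exact inf_le_right
    refine ⟨M, ?_⟩
    apply Cfsg.Agent.H01.isComplement'_of_normal
    · exact disjoint_iff.mpr hdisj
    · exact hsup


end Cfsg.Agent.S0053
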