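import Mathlib
import Cfsg.Statements.S0054
-- import your own Cfsg.Agent.* helpers here

set_option autoImplicit false
open Cfsg

namespace Cfsg.Agent.S0054


/-- A regular normal subgroup of a finite 2-transitive group is elementary abelian: it is commutative and all its elements have order dividing one prime. -/
theorem result {G : Type*} [Group G] [Finite G]
    {X : Type*} [Nonempty X] [MulAction G X] (h2 : MulAction.IsMultiplyPretransitive G X 2)
    (N : Subgroup G) [N.Normal] (htrans : MulAction.IsPretransitive N X) (hreg : ∀ x : X, MulAction.stabilizer N x = ⊥) :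
    IsMulCommutative N ∧ ∃ p : ℕ, p.Prime ∧ ∀ n ∈ N, n ^ p = 1 := by
  classical
  have h2' : ∀ {a b c d : X}, a ≠ b → c ≠ d → ∃ g : G, g • a = c ∧ g • b = d :=
    MulAction.is_two_pretransitive_iff.mp h2
  obtain ⟨x₀⟩ := ‹Nonempty X›
  have hfree : ∀ n ∈ N, n • x₀ = x₀ → n = 1 := by
    intro n hn h
    have h1 : (⟨n, hn⟩ : N) ∈ MulAction.stabilizer N x₀ := by
      rw [MulAction.mem_stabilizer_iff]
      exact h
    rw [hreg x₀, Subgroup.mem_bot] at h1
    exact congrArg Subtype.val h1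
  have hconj : ∀ a ∈ N, ∀ b ∈ N, a ≠ 1 → b ≠ 1 → ∃ g : G, g * a * g⁻¹ = b := by
    intro a ha b hb ha1 hb1
    have hax : x₀ ≠ a • x₀ := fun h => ha1 (hfree a ha h.symm)
    have hbx : x₀ ≠ b • x₀ := fun h => hb1 (hfree b hb h.symm)
    obtain ⟨g, hg1, hg2⟩ := h2' hax hbx
    refine ⟨g, ?_⟩
    have hm : g * a * g⁻¹ ∈ N := (inferInstance : N.Normal).conj_mem a ha g
    have hg1' : g⁻¹ • x₀ = x₀ := by
      rw [inv_smul_eq_iff, hg1]
    have h3 : b⁻¹ * (g * a * g⁻¹) = 1 := by
      apply hfree _ (N.mul_mem (N.inv_mem hb) hm)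
      rw [mul_smul, mul_smul, mul_smul, hg1', hg2, inv_smul_smul]
    rw [inv_mul_eq_one] at h3
    exact h3.symm
  by_cases hN : N = ⊥
  · subst hN
    refine ⟨?_, 2, Nat.prime_two, ?_⟩
    · exact ⟨⟨fun a b => Subsingleton.elim _ _⟩⟩
    · intro n hn
      rw [Subgroup.mem_bot] at hn
      simp [hn]
  · have hnt : Nontrivial N := (Subgroup.nontrivial_iff_ne_bot N).mpr hN
    have h1 : 1 < Nat.card N := Finite.one_lt_card_iff_nontrivial.mpr hnt
    obtain ⟨p, hp, hpd⟩ := Nat.exists_prime_and_dvd h1.ne'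
    haveI := Fact.mk hp
    obtain ⟨a, ha⟩ := exists_prime_orderOf_dvd_card' p hpd
    have ha1 : (a : G) ≠ 1 := by
      intro h
      have h3 : a = 1 := Subtype.ext h
      rw [h3, orderOf_one] at ha
      exact hp.one_lt.ne ha
    have hap : (a : G) ^ p = 1 := by
      have := pow_orderOf_eq_one a
      rw [ha] at this
      exact congrArg Subtype.val this
    have hpow : ∀ n ∈ N, n ^ p = 1 := by
      intro n hn
      by_cases hn1 : n = 1
      · simp [hn1]
      · obtain ⟨g, hg⟩ := hconj a a.2 n hn ha1 hn1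
        rw [← hg, conj_pow, hap]
        simp
    have hpg : IsPGroup p N := fun x => ⟨1, by
      apply Subtype.ext
      simpa using hpow x x.2⟩
    haveI hZ := hpg.center_nontrivial
    obtain ⟨z, hz⟩ := exists_ne (1 : Subgroup.center N)
    have hz1 : ((z : N) : G) ≠ 1 := by
      intro h
      apply hz
      apply Subtype.ext
      apply Subtype.ext
      exact h
    refine ⟨⟨⟨?_⟩⟩, p, hp, hpow⟩
    rintro ⟨b, hb⟩ ⟨c, hc⟩
    apply Subtype.ext
    show b * c = c * b
    by_cases hb1 : b = 1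
    · simp [hb1]
    obtain ⟨g, hg⟩ := hconj _ (z : N).2 b hb hz1 hb1
    have hc' : g⁻¹ * c * g ∈ N := by
      have := (inferInstance : N.Normal).conj_mem c hc g⁻¹
      simpa using this
    have h3 : ((z : N) : G) * (g⁻¹ * c * g) = (g⁻¹ * c * g) * ((z : N) : G) := by
      have := Subgroup.mem_center_iff.mp z.2 ⟨_, hc'⟩
      exact (congrArg Subtype.val this).symm
    rw [← hg]
    calc g * ((z : N) : G) * g⁻¹ * c = g * (((z : N) : G) * (g⁻¹ * c * g)) * g⁻¹ := by group
      _ = g * ((g⁻¹ * c * g) * ((z : N) : G)) * g⁻¹ := by rw [h3]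
      _ = c * (g * ((z : N) : G) * g⁻¹) := by group


end Cfsg.Agent.S0054
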