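import Mathlib
import Cfsg.Agent.Lib.H01.Coprime3
import Cfsg.Agent.Lib.H01.CoprimeAb
import Cfsg.Agent.Lib.H20.Commutators
import Cfsg.Statements.S0057
-- import your own Cfsg.Agent.* helpers here

set_option autoImplicit false
open Cfsg

namespace Cfsg.Agent.S0057

open scoped commutatorElement

/-- A Sylow subgroup is transitive on the cosets of a subgroup of prime index `p`. -/
theorem sylow_mul_of_index_prime {K : Type*} [Group K] [Finite K] {p : ℕ} [Fact p.Prime]
    (P : Sylow p K) (C : Subgroup K) (hC : C.index = p) :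
    ∀ k : K, ∃ x ∈ (P : Subgroup K), x⁻¹ * k ∈ C := by
  classical
  have hpr : p.Prime := Fact.out
  let x₀ : K ⧸ C := QuotientGroup.mk 1
  have hcard : Nat.card (K ⧸ C) = p := by rw [← Subgroup.index_eq_card, hC]
  haveI : Finite (K ⧸ C) := inferInstance
  have h1 := MulAction.index_stabilizer (P : Subgroup K) x₀
  obtain ⟨j, hj⟩ := P.isPGroup'.index (MulAction.stabilizer (P : Subgroup K) x₀)
  have h2 : (MulAction.orbit (P : Subgroup K) x₀).ncard ≤ p := by
    have h := Set.ncard_le_ncard (Set.subset_univ (MulAction.orbit (P : Subgroup K) x₀)) Set.finite_univ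
    rw [Set.ncard_univ, hcard] at h
    exact h
  have h3 : (MulAction.orbit (P : Subgroup K) x₀).ncard ≠ 1 := by
    intro h
    rw [← h1, Subgroup.index_eq_one] at h
    have hle : (P : Subgroup K) ≤ C := by
      intro u hu
      have hu' : (⟨u, hu⟩ : (P : Subgroup K)) ∈ MulAction.stabilizer (P : Subgroup K) x₀ := by
        rw [h]; trivial
      have h4 : (⟨u, hu⟩ : (P : Subgroup K)) • x₀ = x₀ := hu'
      have h5 : (QuotientGroup.mk (u * 1) : K ⧸ C) = QuotientGroup.mk 1 := h4
      have h6 := QuotientGroup.eq.mp h5.symm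
      simpa using h6
    have h7 := Subgroup.index_dvd_of_le hle
    rw [hC] at h7
    exact P.not_dvd_index h7
  have h4 : (MulAction.orbit (P : Subgroup K) x₀).ncard = p := by
    rw [← h1, hj] at h2 h3 ⊢
    rcases j with _ | _ | j
    · simp at h3
    · simp
    · exfalso
      have : p ^ (j + 2) = p * p ^ (j + 1) := by ring
      rw [this] at h2
      have h5 : 1 < p ^ (j + 1) := Nat.one_lt_pow (Nat.succ_ne_zero j) hpr.one_lt
      nlinarith [hpr.pos]
  have h5 : MulAction.orbit (P : Subgroup K) x₀ = Set.univ := by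
    apply Set.eq_of_subset_of_ncard_le (Set.subset_univ _) _ Set.finite_univ
    rw [Set.ncard_univ, hcard, h4]
  intro k
  have h6 : (QuotientGroup.mk k : K ⧸ C) ∈ MulAction.orbit (P : Subgroup K) x₀ := by
    rw [h5]; trivial
  obtain ⟨⟨x, hx⟩, hxe⟩ := h6
  refine ⟨x, hx, ?_⟩
  have h7 : (QuotientGroup.mk (x * 1) : K ⧸ C) = QuotientGroup.mk k := hxe
  rw [mul_one] at h7
  exact QuotientGroup.eq.mp h7

/-- Under coprime action, if the centraliser of A in K has prime index p in K then the commutator subgroup [K, A] has order exactly p. -/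
theorem result {G : Type*} [Group G] [Finite G] (A K : Subgroup G) (hAK : A ≤ Subgroup.normalizer (K : Set G))
    (hcop : (Nat.card A).Coprime (Nat.card K)) (hsolv : Group.IsSolvable A ∨ Group.IsSolvable K)
    (p : ℕ) (hp : p.Prime) (hidx : (K ⊓ Subgroup.centralizer (A : Set G)).relIndex K = p) :
    Nat.card (⁅K, A⁆ : Subgroup G) = p := by

  classical
  haveI : Fact p.Prime := ⟨hp⟩
  set C : Subgroup G := K ⊓ Subgroup.centralizer (A : Set G) with hCdef
  set M : Subgroup G := ⁅K, A⁆ with hMdef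
  have hcomm : ∀ a ∈ A, ∀ c ∈ C, a * c = c * a := by
    intro a ha c hc
    exact Subgroup.mem_centralizer_iff.mp hc.2 a ha
  have hMK : M ≤ K := by
    rw [hMdef, Subgroup.commutator_le]
    intro k hk a ha
    rw [commutatorElement_def]
    have h1 : a * k⁻¹ * a⁻¹ ∈ K := (Subgroup.mem_normalizer_iff.mp (hAK ha) _).mp (inv_mem hk)
    have e : k * a * k⁻¹ * a⁻¹ = k * (a * k⁻¹ * a⁻¹) := by group
    rw [e]
    exact mul_mem hk h1
  have hsup : M ⊔ C = K := Cfsg.Agent.H01.commutator_sup_centralizer hAK hcop hsolv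
  have hMM : ⁅M, A⁆ = M := Cfsg.Agent.H01.commutator_commutator_eq hAK hcop hsolv
  obtain ⟨P, hP⟩ := Cfsg.Agent.H01.exists_invariant_sylow hAK hcop hsolv p
  let P₀ : Subgroup G := (P : Subgroup K).map K.subtype
  have hC' : (C.subgroupOf K).index = p := hidx
  have hdec := sylow_mul_of_index_prime P (C.subgroupOf K) hC'
  have hMP : M ≤ P₀ := by
    rw [hMdef, Subgroup.commutator_le]
    intro k hk a ha
    obtain ⟨x, hx, hc⟩ := hdec ⟨k, hk⟩
    have hxP : (x : G) ∈ P₀ := ⟨x, hx, rfl⟩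
    set c : G := (x : G)⁻¹ * k with hcd
    have hcC : c ∈ C := hc
    have hk' : k = (x : G) * c := by rw [hcd]; group
    have hac := hcomm a ha c hcC
    have e : ⁅k, a⁆ = (x : G) * (a * (x : G)⁻¹ * a⁻¹) := by
      rw [commutatorElement_def, hk']
      calc (x : G) * c * a * ((x : G) * c)⁻¹ * a⁻¹ = (x : G) * (c * a) * c⁻¹ * (x : G)⁻¹ * a⁻¹ := by group
        _ = (x : G) * (a * c) * c⁻¹ * (x : G)⁻¹ * a⁻¹ := by rw [hac]
        _ = _ := by group
    rw [e]
    exact mul_mem hxP ((Subgroup.mem_normalizer_iff.mp (hP ha) _).mp (inv_mem hxP))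
  have hMp : IsPGroup p M := IsPGroup.to_le (P.isPGroup'.map K.subtype) hMP
  have hne : C.relIndex M ≠ 1 := by
    intro h
    rw [Subgroup.relIndex_eq_one] at h
    have h1 : ⁅M, A⁆ = ⊥ := by
      rw [Subgroup.commutator_eq_bot_iff_le_centralizer]
      exact h.trans inf_le_right
    rw [hMM] at h1
    rw [h1, bot_sup_eq] at hsup
    have h2 : C.relIndex K = 1 := by
      rw [Subgroup.relIndex_eq_one, hsup]
    rw [h2] at hidx
    exact hp.one_lt.ne hidx
  have hle : C.relIndex M ≤ p := by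
    rw [← hidx]
    exact Subgroup.relIndex_le_of_le_right hMK (by rw [hidx]; exact hp.ne_zero)
  obtain ⟨j, hj⟩ := hMp.index (C.subgroupOf M)
  have hidxM : (C.subgroupOf M).index = p := by
    have h1 : (C.subgroupOf M).index = C.relIndex M := rfl
    rw [h1] at hj ⊢
    rw [hj] at hle hne ⊢
    rcases j with _ | _ | j
    · simp at hne
    · simp
    · exfalso
      have : p ^ (j + 2) = p * p ^ (j + 1) := by ring
      rw [this] at hle
      have h5 : 1 < p ^ (j + 1) := Nat.one_lt_pow (Nat.succ_ne_zero j) hp.one_lt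
      nlinarith [hp.pos]
  -- `C ∩ M` is normal in `M`
  have hC₂n : (C.subgroupOf M).Normal := by
    obtain ⟨m, hm⟩ := IsPGroup.iff_card.mp hMp
    apply Subgroup.normal_of_index_eq_minFac_card
    rw [hidxM, hm]
    have hm0 : m ≠ 0 := by
      rintro rfl
      have h1 := (C.subgroupOf M).card_mul_index
      rw [hm, hidxM, pow_zero] at h1
      exact hp.not_dvd_one (Dvd.intro_left _ h1)
    exact (Nat.Prime.pow_minFac hp hm0).symm
  set C₁ : Subgroup G := M ⊓ C with hC₁
  have hC₁A : C₁ ≤ Subgroup.centralizer (A : Set G) := inf_le_right.trans inf_le_right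
  have hnormC₁ : ⁅M, C₁⁆ ≤ C₁ := by
    rw [Subgroup.commutator_le]
    intro m hm c hc
    have hc1 : c ∈ M := hc.1
    have hc2 : c ∈ C := hc.2
    have h1 : (⟨c, hc1⟩ : M) ∈ C.subgroupOf M := hc2
    have h2 := hC₂n.conj_mem _ h1 ⟨m, hm⟩
    have h3 : m * c * m⁻¹ ∈ C := h2
    rw [commutatorElement_def]
    have h4 : m * c * m⁻¹ * c⁻¹ ∈ M := mul_mem (mul_mem (mul_mem hm hc1) (inv_mem hm)) (inv_mem hc1)
    have h5 : m * c * m⁻¹ * c⁻¹ ∈ C := mul_mem h3 (inv_mem hc2)
    exact ⟨h4, h5⟩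
  have hb1 : ⁅C₁, A⁆ = ⊥ := Subgroup.commutator_eq_bot_iff_le_centralizer.mpr hC₁A
  have h3s := Cfsg.Agent.H20.three_subgroups A M C₁ ⊥ (by
      have h1 : ⁅⁅M, C₁⁆, A⁆ ≤ ⁅C₁, A⁆ := Subgroup.commutator_mono hnormC₁ le_rfl
      rw [hb1] at h1
      exact h1) (by
      rw [hb1, Subgroup.commutator_bot_left])
  rw [Subgroup.commutator_comm A M, hMM] at h3s
  have hcen : ∀ c ∈ C₁, ∀ m ∈ M, m * c = c * m := by
    intro c hc m hm
    have h1 : ⁅m, c⁆ ∈ ⁅M, C₁⁆ := Subgroup.commutator_mem_commutator hm hc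
    have h2 := h3s h1
    rw [Subgroup.mem_bot, commutatorElement_eq_one_iff_commute] at h2
    exact h2
  -- `M` is abelian
  have hcyc : IsCyclic (M ⧸ C.subgroupOf M) := by
    haveI : Fact (Nat.card (M ⧸ C.subgroupOf M)).Prime := ⟨by
      rw [← Subgroup.index_eq_card, hidxM]; exact hp⟩
    exact isCyclic_of_prime_card rfl
  let f : M →* (M ⧸ C.subgroupOf M) := QuotientGroup.mk' _
  have hfk : f.ker ≤ Subgroup.center M := by
    rw [QuotientGroup.ker_mk']
    intro c hc
    rw [Subgroup.mem_center_iff]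
    intro m
    exact Subtype.ext (hcen c ⟨c.2, hc⟩ m m.2)
  have hMcomm : ∀ a b : M, a * b = b * a := (commGroupOfCyclicCenterQuotient f hfk).mul_comm
  haveI hMab : IsMulCommutative M := ⟨⟨hMcomm⟩⟩
  have hAM : A ≤ Subgroup.normalizer (M : Set G) := fun a ha =>
    Cfsg.Agent.H01.mem_normalizer_commutator (hAK ha) (Subgroup.le_normalizer ha)
  have hcopM : (Nat.card A).Coprime (Nat.card M) :=
    Nat.Coprime.coprime_dvd_right (Subgroup.card_dvd_of_le hMK) hcop
  have hdecomp := (Cfsg.Agent.H01.abelian_decomposition A M hAM hcopM).1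
  rw [hMM] at hdecomp
  have hbot : C.subgroupOf M = ⊥ := by
    rw [eq_bot_iff]
    rintro ⟨x, hxM⟩ hx
    have h1 : x ∈ (M ⊓ Subgroup.centralizer (A : Set G)) ⊓ M := ⟨⟨hxM, hx.2⟩, hxM⟩
    rw [hdecomp, Subgroup.mem_bot] at h1
    exact Subtype.ext h1
  rw [hbot, Subgroup.index_bot] at hidxM
  exact hidxM


end Cfsg.Agent.S0057
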