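import Mathlib
import Cfsg.Agent.Lib.H01.Coprime2
import Cfsg.Statements.S0059
-- import your own Cfsg.Agent.* helpers here

set_option autoImplicit false
open Cfsg

namespace Cfsg.Agent.S0059


/-- Let a finite group act on a set on which a normal subgroup K of coprime order and index is transitive, with K or the quotient solvable. Then any complement H of K has a fixed point, and any two H-fixed points are interchanged by an element of K centralising H. -/
theorem result {G : Type*} [Group G] [Finite G] {X : Type*} [Nonempty X] [MulAction G X]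
    (K H : Subgroup G) [K.Normal] (hc : Subgroup.IsComplement' K H) (hcop : (Nat.card K).Coprime K.index)
    (hsolv : Group.IsSolvable K ∨ Group.IsSolvable (G ⧸ K)) (htrans : MulAction.IsPretransitive K X) :
    (∃ x : X, ∀ h ∈ H, h • x = x) ∧
    ∀ x y : X, (∀ h ∈ H, h • x = x) → (∀ h ∈ H, h • y = y) → ∃ k ∈ K ⊓ Subgroup.centralizer (H : Set G), k • x = y := by
  have hs : Group.IsSolvable K ∨ Group.IsSolvable H := by
    rcases hsolv with h | h
    · exact Or.inl h
    · right
      exact solvable_of_surjective (f := (hc.symm.QuotientMulEquiv : G ⧸ K →* H))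
        hc.symm.QuotientMulEquiv.surjective
  have ht : ∀ x y : X, ∃ k ∈ K, (MulAction.toPermHom G X) k x = y := by
    intro x y
    obtain ⟨k, hk⟩ := MulAction.exists_smul_eq K x y
    exact ⟨k, k.2, hk⟩
  constructor
  · obtain ⟨x₀⟩ := ‹Nonempty X›
    obtain ⟨x, hx⟩ := Cfsg.Agent.H01.glauberman_fixed (MulAction.toPermHom G X) K H hc hcop hs ht x₀
    exact ⟨x, hx⟩
  · intro x y hx hy
    obtain ⟨c, hc1, hc2⟩ := Cfsg.Agent.H01.glauberman_trans (MulAction.toPermHom G X) K H hc hcop hs ht x y hx hy
    exact ⟨c, hc1, hc2⟩


end Cfsg.Agent.S0059
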