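import Mathlib
import Cfsg.Agent.Lib.H01.Fitting
import Cfsg.Agent.Lib.H01.SZ
import Cfsg.Agent.Lib.H13.Basic
import Cfsg.Statements.S0060
-- import your own Cfsg.Agent.* helpers here

set_option autoImplicit false
open Pointwise
open Cfsg

namespace Cfsg.Agent.S0060

open scoped Pointwise

/-- Brodkey's Theorem: in a finite group with abelian Sylow p-subgroups and no nontrivial normal p-subgroup, some conjugate of a Sylow p-subgroup meets it trivially. -/
theorem result {G : Type*} [Group G] [Finite G] (p : ℕ) [Fact p.Prime]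
    (S : Sylow p G) (hS : IsMulCommutative S) (hOp : Cfsg.pCore p G = ⊥) :
    ∃ g : G, (S : Subgroup G) ⊓ MulAut.conj g • (S : Subgroup G) = ⊥ := by

  classical
  have hab : ∀ R : Sylow p G, ∀ a ∈ (R : Subgroup G), ∀ b ∈ (R : Subgroup G), a * b = b * a := by
    intro R a ha b hb
    obtain ⟨g, rfl⟩ := MulAction.exists_smul_eq G S R
    rw [Sylow.coe_subgroup_smul] at ha hb
    have ha' := Cfsg.Agent.H01.mem_conj_smul_iff.mp ha
    have hb' := Cfsg.Agent.H01.mem_conj_smul_iff.mp hb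
    have h1 := congrArg Subtype.val (hS.is_comm.comm ⟨_, ha'⟩ ⟨_, hb'⟩)
    simp only [Subgroup.coe_mul] at h1
    have h2 : g * (g⁻¹ * a * g * (g⁻¹ * b * g)) * g⁻¹ = g * (g⁻¹ * b * g * (g⁻¹ * a * g)) * g⁻¹ := by
      rw [h1]
    simpa [mul_assoc] using h2
  obtain ⟨⟨P, Q⟩, hmin⟩ := Finite.exists_min
    (fun x : Sylow p G × Sylow p G => Nat.card ((x.1 : Subgroup G) ⊓ (x.2 : Subgroup G) : Subgroup G))
  simp only at hmin
  set D : Subgroup G := (P : Subgroup G) ⊓ (Q : Subgroup G) with hD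
  set N : Subgroup G := Subgroup.normalizer (D : Set G) with hN
  have hRN : ∀ R : Sylow p G, D ≤ (R : Subgroup G) → (R : Subgroup G) ≤ N := by
    intro R hDR u hu
    apply Cfsg.Agent.H13.mem_normalizer_of_map_conj_le
    rintro _ ⟨z, hz, rfl⟩
    show u * z * u⁻¹ ∈ D
    rw [hab R u hu z (hDR hz)]
    have e : z * u * u⁻¹ = z := by group
    rw [e]
    exact hz
  have hPN : (P : Subgroup G) ≤ N := hRN P inf_le_left
  have hQN : (Q : Subgroup G) ≤ N := hRN Q inf_le_right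
  have hconjD : ∀ n ∈ N, ∀ d ∈ D, n * d * n⁻¹ ∈ D := by
    intro n hn d hd
    exact (Subgroup.mem_normalizer_iff.mp hn d).mp hd
  have hconjD' : ∀ n ∈ N, ∀ d ∈ D, n⁻¹ * d * n ∈ D := by
    intro n hn d hd
    have := hconjD _ (inv_mem hn) d hd
    rwa [inv_inv] at this
  let P' : Sylow p N := P.subtype hPN
  let Q' : Sylow p N := Q.subtype hQN
  have hmemP' : ∀ x : N, x ∈ (P' : Subgroup N) ↔ (x : G) ∈ (P : Subgroup G) := by
    intro x
    rw [Sylow.coe_subtype]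
    rfl
  have hmemQ' : ∀ x : N, x ∈ (Q' : Subgroup N) ↔ (x : G) ∈ (Q : Subgroup G) := by
    intro x
    rw [Sylow.coe_subtype]
    rfl
  obtain ⟨k, hk⟩ := MulAction.exists_smul_eq N P' Q'
  have key : ∀ S₁ : Sylow p G, (S₁ : Subgroup G) ⊓ N ≤ (P : Subgroup G) → D ≤ (S₁ : Subgroup G) := by
    intro S₁ hS₁
    let R : Sylow p G := (k : G) • S₁
    have hmemR : ∀ x, x ∈ (R : Subgroup G) ↔ (k : G)⁻¹ * x * k ∈ (S₁ : Subgroup G) := by
      intro x
      show x ∈ (((k : G) • S₁ : Sylow p G) : Subgroup G) ↔ _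
      rw [Sylow.coe_subgroup_smul, Cfsg.Agent.H01.mem_conj_smul_iff]
    have h1 := hmin (P, R)
    simp only at h1
    let W : Subgroup G := MulAut.conj (k : G)⁻¹ • ((P : Subgroup G) ⊓ (R : Subgroup G))
    have hW : W ≤ D ⊓ (S₁ : Subgroup G) := by
      intro y hy
      have hy' := Cfsg.Agent.H01.mem_conj_smul_iff.mp hy
      rw [inv_inv] at hy'
      obtain ⟨hyP, hyR⟩ := hy'
      have hy1 := (hmemR _).mp hyR
      have e : (k : G)⁻¹ * ((k : G) * y * (k : G)⁻¹) * k = y := by group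
      rw [e] at hy1
      -- `y` lies in `S₁ ⊓ N`
      have hyx : (k : G) * y * (k : G)⁻¹ ∈ N := hPN hyP
      have hyN : y ∈ N := by
        have e2 : y = (k : G)⁻¹ * ((k : G) * y * (k : G)⁻¹) * k := by group
        rw [e2]
        exact mul_mem (mul_mem (inv_mem k.2) hyx) k.2
      have hyP1 : y ∈ (P : Subgroup G) := hS₁ ⟨hy1, hyN⟩
      -- so `k y k⁻¹` lies in `Q`
      have hyQ : (k : G) * y * (k : G)⁻¹ ∈ (Q : Subgroup G) := by
        have h2 : (⟨y, hyN⟩ : N) ∈ (P' : Subgroup N) := (hmemP' _).mpr hyP1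
        have h3 : k * ⟨y, hyN⟩ * k⁻¹ ∈ MulAut.conj k • (P' : Subgroup N) :=
          Cfsg.Agent.H01.conj_mem_conj_smul h2
        rw [← Sylow.coe_subgroup_smul, hk] at h3
        exact (hmemQ' _).mp h3
      have hyD : (k : G) * y * (k : G)⁻¹ ∈ D := ⟨hyP, hyQ⟩
      refine ⟨?_, hy1⟩
      have := hconjD' k k.2 _ hyD
      rwa [e] at this
    have h2 : Nat.card W = Nat.card ((P : Subgroup G) ⊓ (R : Subgroup G) : Subgroup G) :=
      Cfsg.Agent.H01.card_conj_smul _ _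
    have h3 : Nat.card W ≤ Nat.card (D ⊓ (S₁ : Subgroup G) : Subgroup G) := Subgroup.card_le_of_le hW
    have h4 : D ⊓ (S₁ : Subgroup G) = D := by
      apply Subgroup.eq_of_le_of_card_ge inf_le_left
      rw [h2] at h3
      exact h1.trans h3
    exact inf_eq_left.mp h4
  have hall : ∀ S₀ : Sylow p G, D ≤ (S₀ : Subgroup G) := by
    intro S₀
    have hU : IsPGroup p (((S₀ : Subgroup G) ⊓ N).subgroupOf N) :=
      (S₀.isPGroup'.to_le inf_le_left).comap_of_injective N.subtype N.subtype_injective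
    obtain ⟨T', hT'⟩ := hU.exists_le_sylow
    obtain ⟨m, hm⟩ := MulAction.exists_smul_eq N P' T'
    have hm1 : ∀ x ∈ (S₀ : Subgroup G), ∀ hx : x ∈ N, (m : G)⁻¹ * x * m ∈ (P : Subgroup G) := by
      intro x hx hxN
      have h1 : (⟨x, hxN⟩ : N) ∈ (T' : Subgroup N) := hT' ⟨hx, hxN⟩
      rw [← hm, Sylow.coe_subgroup_smul] at h1
      have h2 := Cfsg.Agent.H01.mem_conj_smul_iff.mp h1
      exact (hmemP' _).mp h2
    let S₁ : Sylow p G := (m : G)⁻¹ • S₀
    have hmemS₁ : ∀ x, x ∈ (S₁ : Subgroup G) ↔ (m : G) * x * (m : G)⁻¹ ∈ (S₀ : Subgroup G) := by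
      intro x
      show x ∈ (((m : G)⁻¹ • S₀ : Sylow p G) : Subgroup G) ↔ _
      rw [Sylow.coe_subgroup_smul, Cfsg.Agent.H01.mem_conj_smul_iff, inv_inv]
    have h1 := key S₁ (by
      rintro y ⟨hy, hyN⟩
      have h2 := (hmemS₁ y).mp hy
      have h3 : (m : G) * y * (m : G)⁻¹ ∈ N := mul_mem (mul_mem m.2 hyN) (inv_mem m.2)
      have h4 := hm1 _ h2 h3
      have e : (m : G)⁻¹ * ((m : G) * y * (m : G)⁻¹) * m = y := by group
      rwa [e] at h4)
    intro d hd
    have h2 := hconjD' m m.2 d hd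
    have h3 := (hmemS₁ _).mp (h1 h2)
    have e : (m : G) * ((m : G)⁻¹ * d * m) * (m : G)⁻¹ = d := by group
    rwa [e] at h3
  have hDbot : D = ⊥ := by
    rw [eq_bot_iff, ← hOp, Cfsg.Agent.H01.pCore_eq_iInf_sylow]
    exact le_iInf hall
  -- transport to `S`
  obtain ⟨a, rfl⟩ := MulAction.exists_smul_eq G S P
  obtain ⟨b, rfl⟩ := MulAction.exists_smul_eq G S Q
  refine ⟨a⁻¹ * b, ?_⟩
  rw [eq_bot_iff]
  rintro x ⟨hx, hx'⟩
  have hx1 := Cfsg.Agent.H01.mem_conj_smul_iff.mp hx'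
  have hxD : a * x * a⁻¹ ∈ D := by
    constructor
    · show a * x * a⁻¹ ∈ ((a • S : Sylow p G) : Subgroup G)
      rw [Sylow.coe_subgroup_smul]
      exact Cfsg.Agent.H01.conj_mem_conj_smul hx
    · show a * x * a⁻¹ ∈ ((b • S : Sylow p G) : Subgroup G)
      rw [Sylow.coe_subgroup_smul, Cfsg.Agent.H01.mem_conj_smul_iff]
      have e : b⁻¹ * (a * x * a⁻¹) * b = (a⁻¹ * b)⁻¹ * x * (a⁻¹ * b) := by group
      rw [e]
      exact hx1
  rw [hDbot, Subgroup.mem_bot] at hxD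
  have e : x = a⁻¹ * (a * x * a⁻¹) * a := by group
  rw [e, hxD]
  simp


end Cfsg.Agent.S0060
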