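import Mathlib
import Cfsg.Agent.Lib.Lead.Burnside
import Cfsg.Statements.S0062
-- import your own Cfsg.Agent.* helpers here

set_option autoImplicit false
open Cfsg

namespace Cfsg.Agent.S0062


/-- A finite group of order p^2 * q^2 with p and q prime is solvable. -/
theorem result {G : Type*} [Group G] [Finite G] (p q : ℕ) (hp : p.Prime) (hq : q.Prime)
    (hG : Nat.card G = p ^ 2 * q ^ 2) : Group.IsSolvable G := by
  exact Cfsg.Agent.Lead.burnside_two_prime p q 2 2 hp hq hG


end Cfsg.Agent.S0062
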