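import Mathlib
import Cfsg.Statements.S0063
-- import your own Cfsg.Agent.* helpers here

set_option autoImplicit false
open Cfsg

namespace Cfsg.Agent.S0063

universe u in
theorem aux : ∀ (m : ℕ) (G : Type u) [Group G] [Finite G] (p : ℕ) [Fact p.Prime],
    Nat.card G = p ^ m → 1 < m → Group.nilpotencyClass G ≤ m - 1 := by
  intro m
  induction m using Nat.strong_induction_on with
  | _ m ih =>
  intro G _ _ p _ hG hm
  have hp : p.Prime := Fact.out
  have hpg : IsPGroup p G := IsPGroup.of_card hG
  haveI hnil : Group.IsNilpotent G := hpg.isNilpotent
  haveI : Nontrivial G := by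
    rw [← Finite.one_lt_card_iff_nontrivial, hG]
    exact Nat.one_lt_pow (by omega) hp.one_lt
  by_cases hab : ∀ a b : G, a * b = b * a
  · -- abelian: class at most one
    have hZ : Subgroup.center G = ⊤ := by
      rw [eq_top_iff]
      intro x _
      rw [Subgroup.mem_center_iff]
      intro y
      exact hab y x
    have h1 : Group.nilpotencyClass G ≤ 1 := by
      rw [← upperCentralSeries_eq_top_iff_nilpotencyClass_le, upperCentralSeries_one]
      exact hZ
    omega
  · have hcard := Subgroup.card_eq_card_quotient_mul_card_subgroup (Subgroup.center G)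
    haveI hZnt : Nontrivial (Subgroup.center G) := hpg.center_nontrivial
    have hZ1 : 1 < Nat.card (Subgroup.center G) := Finite.one_lt_card_iff_nontrivial.mpr hZnt
    have hQdvd : Nat.card (G ⧸ Subgroup.center G) ∣ p ^ m := by
      rw [← hG, hcard]
      exact Dvd.intro _ rfl
    obtain ⟨k, hkm, hk⟩ := (Nat.dvd_prime_pow hp).mp hQdvd
    have hklt : k < m := by
      apply lt_of_le_of_ne hkm
      rintro rfl
      rw [hG, hk] at hcard
      have hpos : 0 < p ^ k := pow_pos hp.pos _
      nlinarith
    have hk2 : 1 < k := by
      by_contra hk1
      apply hab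
      have hcyc : IsCyclic (G ⧸ Subgroup.center G) := by
        have : k = 0 ∨ k = 1 := by omega
        rcases this with rfl | rfl
        · rw [pow_zero] at hk
          have : Subsingleton (G ⧸ Subgroup.center G) := (Nat.card_eq_one_iff_unique.mp hk).1
          infer_instance
        · rw [pow_one] at hk
          exact isCyclic_of_prime_card hk
      exact commutative_of_cyclic_center_quotient (QuotientGroup.mk' (Subgroup.center G))
        (le_of_eq (QuotientGroup.ker_mk' _))
    have h2 := ih k hklt (G ⧸ Subgroup.center G) p hk hk2
    rw [nilpotencyClass_eq_quotient_center_plus_one]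
    omega

/-- A finite group of prime-power order p ^ m with m > 1 is nilpotent of class at most m - 1. -/
theorem result {G : Type*} [Group G] [Finite G] (p m : ℕ) [Fact p.Prime]
    (hG : Nat.card G = p ^ m) (hm : 1 < m) : Group.nilpotencyClass G ≤ m - 1 := by

  exact aux m G p hG hm


end Cfsg.Agent.S0063
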