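import Mathlib
import Cfsg.Statements.S0064
-- import your own Cfsg.Agent.* helpers here

set_option autoImplicit false
open Cfsg

namespace Cfsg.Agent.S0064


/-- A finite group is nilpotent exactly when each of its subgroups is subnormal. -/
theorem result {G : Type*} [Group G] [Finite G] :
    Group.IsNilpotent G ↔ ∀ H : Subgroup G, H.IsSubnormal := by
  constructor
  · intro hnil
    have hN : NormalizerCondition G := normalizerCondition_of_isNilpotent
    intro H
    induction H using WellFoundedGT.induction with
    | _ H ih =>
      by_cases hH : H = ⊤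
      · rw [hH]; exact Subgroup.IsSubnormal.top
      · have h1 : H < Subgroup.normalizer (H : Set G) := hN H (lt_top_iff_ne_top.mpr hH)
        exact Subgroup.IsSubnormal.step H _ h1.le (ih _ h1)
          ((Subgroup.normal_subgroupOf_iff_le_normalizer h1.le).mpr le_rfl)
  · intro h
    refine ((Group.isNilpotent_of_finite_tfae (G := G)).out 0 2).mpr ?_
    intro M hM
    obtain ⟨K, hKn, hMK, hK⟩ := (h M).exists_normal_and_le_and_lt_top_of_ne hM.1
    rcases eq_or_lt_of_le hMK with h1 | h1
    · rw [h1]; exact hKn
    · exact absurd (hM.2 K h1) hK.ne


end Cfsg.Agent.S0064
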