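import Cfsg.Statements.S0065


set_option autoImplicit false
open Cfsg

namespace Cfsg.Agent.S0065

/-- A nontrivial normal subgroup of a nilpotent group intersects the centre nontrivially. -/
theorem result {G : Type*} [Group G] [Finite G] [Group.IsNilpotent G]
    (N : Subgroup G) [N.Normal] (hN : N ≠ ⊥) : N ⊓ Subgroup.center G ≠ ⊥ := by
  classical
  intro h
  apply hN
  obtain ⟨n, hn⟩ := Group.IsNilpotent.nilpotent G
  have key : ∀ k, N ⊓ Subgroup.upperCentralSeries G k = ⊥ := by
    intro k
    induction k with
    | zero => simp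
    | succ k ih =>
      rw [eq_bot_iff]
      rintro x ⟨hxN, hxZ⟩
      replace hxZ : x ∈ Subgroup.upperCentralSeries G (k + 1) := hxZ
      replace hxN : x ∈ N := hxN
      rw [Subgroup.mem_upperCentralSeries_succ_iff] at hxZ
      rw [Subgroup.mem_bot]
      by_contra hx
      have hcen : x ∈ Subgroup.center G := by
        rw [Subgroup.mem_center_iff]
        intro g
        have h1 : x * g * x⁻¹ * g⁻¹ ∈ Subgroup.upperCentralSeries G k := hxZ g
        have h2 : x * g * x⁻¹ * g⁻¹ ∈ N := by
          have := (inferInstance : N.Normal).conj_mem x⁻¹ (N.inv_mem hxN) g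
          simpa [mul_assoc] using N.mul_mem hxN this
        have h3 : x * g * x⁻¹ * g⁻¹ ∈ N ⊓ Subgroup.upperCentralSeries G k := ⟨h2, h1⟩
        rw [ih, Subgroup.mem_bot] at h3
        have h4 : x * g * x⁻¹ = g := mul_inv_eq_one.mp h3
        have h5 : x * g = g * x := mul_inv_eq_iff_eq_mul.mp h4
        exact h5.symm
      have : x ∈ N ⊓ Subgroup.center G := ⟨hxN, hcen⟩
      rw [h, Subgroup.mem_bot] at this
      exact hx this
  have := key n
  rwa [hn, inf_top_eq] at this

end Cfsg.Agent.S0065
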