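import Mathlib
import Cfsg.Agent.Lib.H18.Zipper
import Cfsg.Statements.S0066
-- import your own Cfsg.Agent.* helpers here

set_option autoImplicit false
open Pointwise
open Cfsg

namespace Cfsg.Agent.S0066

open scoped Pointwise

universe u

/-- restriction of subnormality to an intermediate group -/
theorem sn_restrict {G : Type*} [Group G] {X Y H : Subgroup G} (hX : X ≤ Y) (hY : Y ≤ H)
    (h : (X.subgroupOf Y).IsSubnormal) :
    ((X.subgroupOf H).subgroupOf (Y.subgroupOf H)).IsSubnormal := by
  let f : Y →* (Y.subgroupOf H) := (Subgroup.subgroupOfEquivOfLe hY).symm.toMonoidHom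
  have hf : Function.Surjective f := (Subgroup.subgroupOfEquivOfLe hY).symm.surjective
  have h1 := h.map hf
  have e : (X.subgroupOf Y).map f = (X.subgroupOf H).subgroupOf (Y.subgroupOf H) := by
    ext ⟨⟨y, hyH⟩, hyY⟩
    constructor
    · rintro ⟨⟨w, hw⟩, hw2, e⟩
      have e2 := congrArg (fun z : Y.subgroupOf H => ((z : H) : G)) e
      have e3 : w = y := e2
      subst e3
      exact hw2
    · intro hx
      have hyY' : y ∈ Y := hyY
      refine ⟨⟨y, hyY'⟩, hx, ?_⟩
      apply Subtype.ext
      apply Subtype.ext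
      rfl
  rwa [e] at h1

theorem aux (n : ℕ) : ∀ (G : Type u) [Group G] [Finite G] (A : Subgroup G), Nat.card G = n →
    (∀ g : G, (A.subgroupOf (A ⊔ MulAut.conj g • A)).IsSubnormal) → A.IsSubnormal := by
  induction n using Nat.strong_induction_on with
  | _ n ih =>
  intro G _ _ A hn h
  by_contra hA
  -- subnormal in each proper overgroup
  have hproper : ∀ H : Subgroup G, A ≤ H → H ≠ ⊤ → (A.subgroupOf H).IsSubnormal := by
    intro H hAH hHne
    have hcard : Nat.card H < n := by
      rw [← hn]
      exact lt_of_le_of_ne (Subgroup.card_le_card_group H) (mt (Subgroup.eq_top_of_card_eq H) hHne)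
    apply ih _ hcard H _ rfl
    intro h₀
    have hg := h (h₀ : G)
    have hJ : A ⊔ MulAut.conj (h₀ : G) • A ≤ H := by
      apply sup_le hAH
      rintro _ ⟨a, ha, rfl⟩
      have : (MulAut.conj (h₀ : G)) a = h₀ * a * (h₀ : G)⁻¹ := rfl
      show (MulAut.conj (h₀ : G)) a ∈ H
      rw [this]
      exact H.mul_mem (H.mul_mem h₀.2 (hAH ha)) (H.inv_mem h₀.2)
    have h2 := sn_restrict le_sup_left hJ hg
    have e : (A ⊔ MulAut.conj (h₀ : G) • A).subgroupOf H =
        A.subgroupOf H ⊔ MulAut.conj h₀ • A.subgroupOf H := by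
      rw [Cfsg.Agent.H18.sup_subgroupOf_of_le hAH ((le_sup_right : MulAut.conj (h₀ : G) • A ≤ _).trans hJ)]
      congr 1
      ext x
      rw [Subgroup.mem_subgroupOf, Subgroup.mem_pointwise_smul_iff_inv_smul_mem,
        Subgroup.mem_pointwise_smul_iff_inv_smul_mem, Subgroup.mem_subgroupOf]
      have : (((MulAut.conj h₀)⁻¹ • x : H) : G) = (MulAut.conj (h₀ : G))⁻¹ • (x : G) := by
        simp [MulAut.smul_def, MulAut.conj_apply, map_inv]
      rw [this]
    rwa [e] at h2
  obtain ⟨M, ⟨hM, hAM⟩, huniq⟩ := Cfsg.Agent.H18.zipper hA hproper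
  have hconj : ∀ g : G, MulAut.conj g • A ≤ M := by
    intro g
    have hne : A ⊔ MulAut.conj g • A ≠ ⊤ := by
      intro htop
      apply hA
      have h1 := h g
      exact Subgroup.IsSubnormal.trans le_sup_left h1 (by rw [htop]; exact Subgroup.IsSubnormal.top)
    obtain ⟨M', hM', hJ⟩ := (eq_top_or_exists_le_coatom _).resolve_left hne
    have h2 := huniq M' ⟨hM', le_sup_left.trans hJ⟩
    rw [← h2]
    exact le_sup_right.trans hJ
  let N : Subgroup G := Subgroup.normalClosure (A : Set G)
  have hNM : N ≤ M := by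
    apply Subgroup.closure_le _ |>.mpr
    intro x hx
    obtain ⟨a, ha, hc⟩ := Group.mem_conjugatesOfSet_iff.mp hx
    obtain ⟨g, rfl⟩ := isConj_iff.mp hc
    exact hconj g ⟨a, ha, rfl⟩
  have hAN : A ≤ N := Subgroup.le_normalClosure
  have hNne : N ≠ ⊤ := by
    intro h3
    apply hM.1
    rw [eq_top_iff, ← h3]
    exact hNM
  have h4 := hproper N hAN hNne
  haveI : N.Normal := Subgroup.normalClosure_normal
  exact hA (Subgroup.IsSubnormal.trans hAN h4 (Subgroup.Normal.isSubnormal inferInstance))


/-- Wielandt's subnormality criterion: a subgroup that is subnormal in its join with each of its conjugates is subnormal in the whole finite group. -/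
theorem result {G : Type*} [Group G] [Finite G] (A : Subgroup G)
    (h : ∀ g : G, (A.subgroupOf (A ⊔ MulAut.conj g • A)).IsSubnormal) : A.IsSubnormal := by

  exact aux _ G A rfl h


end Cfsg.Agent.S0066
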