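import Mathlib
import Cfsg.Agent.S0066
import Cfsg.Agent.Lib.H05.Comp2
import Cfsg.Agent.Lib.H18.Join
import Cfsg.Statements.S0067
-- import your own Cfsg.Agent.* helpers here

set_option autoImplicit false
open Pointwise
open Cfsg

namespace Cfsg.Agent.S0067

open scoped Pointwise


/-- If the join of a subgroup A with each of its conjugates is nilpotent, then A is subnormal in the finite group and contained in the Fitting subgroup. -/
theorem result {G : Type*} [Group G] [Finite G] (A : Subgroup G)
    (h : ∀ g : G, Group.IsNilpotent (A ⊔ MulAut.conj g • A : Subgroup G)) : A.IsSubnormal ∧ A ≤ Cfsg.fittingSubgroup G := by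

  have hsn : A.IsSubnormal := by
    apply Cfsg.Agent.S0066.result
    intro g
    haveI := h g
    exact Cfsg.Agent.H18.isSubnormal_of_isNilpotent _
  refine ⟨hsn, ?_⟩
  have hA : Group.IsNilpotent A := by
    haveI := h 1
    let f : A →* (A ⊔ MulAut.conj (1 : G) • A : Subgroup G) := Subgroup.inclusion le_sup_left
    have hk : f.ker = ⊥ := (MonoidHom.ker_eq_bot_iff f).mpr (Subgroup.inclusion_injective _)
    exact isNilpotent_of_ker_le_center f (by rw [hk]; exact bot_le)
  exact Cfsg.Agent.H05.sn_nil_le_fitting hsn hA


end Cfsg.Agent.S0067
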