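import Mathlib
import Cfsg.Statements.S0068
-- import your own Cfsg.Agent.* helpers here

set_option autoImplicit false
open Cfsg

namespace Cfsg.Agent.S0068

open scoped Pointwise

/-- Frobenius complements of even order: if H complements a nontrivial normal subgroup K, each nonidentity element of H has trivial centraliser in K, and H has even order, then H contains a unique involution s, K is abelian, and s inverts every element of K. -/
theorem result {G : Type*} [Group G] [Finite G] (K H : Subgroup G) [K.Normal]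
    (hc : Subgroup.IsComplement' K H) (hK : K ≠ ⊥) (hfpf : ∀ h ∈ H, h ≠ 1 → K ⊓ Subgroup.centralizer {h} = ⊥)
    (heven : 2 ∣ Nat.card H) :
    (∃ s ∈ H, orderOf s = 2 ∧ (∀ t ∈ H, orderOf t = 2 → t = s) ∧ ∀ k ∈ K, s * k * s⁻¹ = k⁻¹) ∧ IsMulCommutative K := by

  classical
  -- an involution
  haveI : Fact (Nat.Prime 2) := ⟨Nat.prime_two⟩
  have hHfin : Finite H := inferInstance
  have hKfin : Finite K := inferInstance
  have hKab : ∀ s ∈ H, s * s = 1 → s ≠ 1 → ∀ k ∈ K, s * k * s⁻¹ = k⁻¹ := by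
    intro s hs hss hs1
    have hsinv : s⁻¹ = s := by
      rw [inv_eq_iff_mul_eq_one]; exact hss
    -- the map `k ↦ k⁻¹ * (s k s⁻¹)` on `K` is injective
    have hconjK : ∀ k ∈ K, s * k * s⁻¹ ∈ K := fun k hk => (inferInstance : K.Normal).conj_mem k hk s
    let φ : K → K := fun k => ⟨k⁻¹ * (s * k * s⁻¹), K.mul_mem (K.inv_mem k.2) (hconjK k k.2)⟩
    have hinj : Function.Injective φ := by
      intro a b hab
      have h1 : (a : G)⁻¹ * (s * a * s⁻¹) = (b : G)⁻¹ * (s * b * s⁻¹) := congrArg Subtype.val hab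
      -- `b a⁻¹` is fixed by `s`
      have h2 : (b : G) * (a : G)⁻¹ ∈ K ⊓ Subgroup.centralizer {s} := by
        refine Subgroup.mem_inf.mpr ⟨K.mul_mem b.2 (K.inv_mem a.2), ?_⟩
        rw [Subgroup.mem_centralizer_singleton_iff]
        have h3 : s * ((b : G) * (a : G)⁻¹) * s⁻¹ = (b : G) * (a : G)⁻¹ := by
          have h4 : s * (b : G) * s⁻¹ = (b : G) * ((a : G)⁻¹ * (s * a * s⁻¹)) := by
            rw [h1]; group
          calc s * ((b : G) * (a : G)⁻¹) * s⁻¹ = (s * (b : G) * s⁻¹) * (s * (a : G) * s⁻¹)⁻¹ := by group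
            _ = _ := by rw [h4]; group
        have h5 : s * ((b : G) * (a : G)⁻¹) = (b : G) * (a : G)⁻¹ * s :=
          mul_inv_eq_iff_eq_mul.mp h3
        exact h5.symm
      rw [hfpf s hs hs1, Subgroup.mem_bot, mul_inv_eq_one] at h2
      exact Subtype.ext h2.symm
    have hsurj : Function.Surjective φ := Finite.surjective_of_injective hinj
    intro k hk
    obtain ⟨a, ha⟩ := hsurj ⟨k, hk⟩
    have h1 : (a : G)⁻¹ * (s * a * s⁻¹) = k := congrArg Subtype.val ha
    rw [← h1, hsinv]
    have h6 : s * s = 1 := hss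
    calc s * ((a : G)⁻¹ * (s * a * s)) * s = s * (a : G)⁻¹ * (s * a * (s * s)) := by group
      _ = s * (a : G)⁻¹ * (s * a) := by rw [h6]; group
      _ = ((a : G)⁻¹ * (s * a * s))⁻¹ := by
          rw [mul_inv_rev, mul_inv_rev, mul_inv_rev, inv_inv, hsinv]
          group
  obtain ⟨s', hs'⟩ := exists_prime_orderOf_dvd_card' (G := H) 2 heven
  have hs1 : (s' : G) ≠ 1 := by
    intro h
    have h3 : s' = 1 := Subtype.ext h
    rw [h3, orderOf_one] at hs'
    omega
  have hsord : orderOf (s' : G) = 2 := by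
    rw [Subgroup.orderOf_coe]; exact hs'
  have hss : (s' : G) * (s' : G) = 1 := by
    rw [← pow_two, ← hsord]; exact pow_orderOf_eq_one _
  have hinv := hKab s' s'.2 hss hs1
  refine ⟨⟨s', s'.2, hsord, ?_, hinv⟩, ?_⟩
  · intro t ht htord
    have htt : t * t = 1 := by
      rw [← pow_two, ← htord]; exact pow_orderOf_eq_one _
    have ht1 : t ≠ 1 := by
      intro h
      rw [h, orderOf_one] at htord
      omega
    have hinvt := hKab t ht htt ht1
    by_contra hne
    have hts : t * (s' : G) ≠ 1 := by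
      intro h
      apply hne
      have : (s' : G)⁻¹ = s' := by rw [inv_eq_iff_mul_eq_one]; exact hss
      rw [← this]
      exact eq_inv_of_mul_eq_one_left h
    have hcent := hfpf (t * s') (H.mul_mem ht s'.2) hts
    -- `t s` centralizes `K`
    apply hK
    rw [eq_bot_iff]
    intro k hk
    rw [← hcent]
    refine Subgroup.mem_inf.mpr ⟨hk, ?_⟩
    rw [Subgroup.mem_centralizer_singleton_iff]
    have h1 := hinv k hk
    have h2 := hinvt (k⁻¹) (K.inv_mem hk)
    rw [inv_inv] at h2
    have h3 : t * (s' : G) * k * (t * (s' : G))⁻¹ = k := by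
      calc t * (s' : G) * k * (t * (s' : G))⁻¹ = t * ((s' : G) * k * (s' : G)⁻¹) * t⁻¹ := by group
        _ = t * k⁻¹ * t⁻¹ := by rw [h1]
        _ = k := h2
    have h4 : t * (s' : G) * k = k * (t * (s' : G)) := by
      rw [mul_inv_eq_iff_eq_mul] at h3
      exact h3
    exact h4.symm
  · refine ⟨⟨?_⟩⟩
    rintro ⟨a, ha⟩ ⟨b, hb⟩
    apply Subtype.ext
    show a * b = b * a
    have h1 := hinv (a * b) (K.mul_mem ha hb)
    have h2 := hinv a ha
    have h3 := hinv b hb
    have h4 : (s' : G) * (a * b) * (s' : G)⁻¹ = ((s' : G) * a * (s' : G)⁻¹) * ((s' : G) * b * (s' : G)⁻¹) := by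
      group
    rw [h4, h2, h3, mul_inv_rev] at h1
    -- `a⁻¹ * b⁻¹ = b⁻¹ * a⁻¹`
    have h5 := congrArg (·⁻¹) h1
    simp only [mul_inv_rev, inv_inv] at h5
    exact h5.symm


end Cfsg.Agent.S0068
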