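import Mathlib
import Cfsg.Agent.Lib.H01.Fitting
import Cfsg.Agent.Lib.H18.Syl
import Cfsg.Statements.S0070
-- import your own Cfsg.Agent.* helpers here

set_option autoImplicit false
open Cfsg

namespace Cfsg.Agent.S0070

/-- Key lemma: a normal subgroup whose image in the Frattini quotient is nilpotent is nilpotent. -/
theorem nilpotent_of_frattini_quot {G : Type*} [Group G] [Finite G] (L : Subgroup G) [hLn : L.Normal]
    (X : Subgroup (G ⧸ frattini G)) [hXn : X.Normal] (hX : Group.IsNilpotent X)
    (hL : L = X.comap (QuotientGroup.mk' (frattini G))) : Group.IsNilpotent L := by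
  classical
  subst hL
  set f := QuotientGroup.mk' (frattini G) with hfdef
  have hfs : Function.Surjective f := QuotientGroup.mk'_surjective _
  let f₁ : X.comap f →* X := f.subgroupComap X
  have hf₁ : Function.Surjective f₁ := f.subgroupComap_surjective_of_surjective X hfs
  apply (Group.isNilpotent_of_finite_tfae (G := X.comap f)).out 3 0 |>.mp
  intro p hp P
  haveI := hX
  let Q₁ : Sylow p X := P.mapSurjective hf₁
  have hQ₁n : (Q₁ : Subgroup X).Normal := inferInstance
  haveI hQ₁c : (Q₁ : Subgroup X).Characteristic := Sylow.characteristic_of_normal Q₁ hQ₁n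
  let Q : Subgroup (G ⧸ frattini G) := (Q₁ : Subgroup X).map X.subtype
  haveI hQn : Q.Normal := ConjAct.normal_of_characteristic_of_normal
  let A : Subgroup G := Q.comap f
  haveI hAn : A.Normal := Subgroup.Normal.comap hQn f
  let P₀ : Subgroup G := (P : Subgroup (X.comap f)).map (X.comap f).subtype
  have hP₀p : IsPGroup p P₀ := P.isPGroup'.map _
  have hP₀A : P₀ ≤ A := by
    rintro _ ⟨u, hu, rfl⟩
    show f u ∈ Q
    refine ⟨f₁ u, ?_, rfl⟩
    show f₁ u ∈ (Q₁ : Subgroup X)
    rw [Sylow.coe_mapSurjective]
    exact ⟨u, hu, rfl⟩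
  have hAL : A ≤ X.comap f := by
    rintro a ⟨q, -, hq⟩
    show f a ∈ X
    rw [← hq]
    exact q.2
  have hindex : ¬ p ∣ (P₀.subgroupOf A).index := by
    intro hd
    apply P.not_dvd_index
    have h1 : (P : Subgroup (X.comap f)) = P₀.subgroupOf (X.comap f) := by
      show (P : Subgroup (X.comap f)) = ((P : Subgroup (X.comap f)).map (X.comap f).subtype).subgroupOf (X.comap f)
      exact (Subgroup.comap_map_eq_self_of_injective (X.comap f).subtype_injective _).symm
    rw [h1]
    have h2 : (P₀.subgroupOf A).index = P₀.relIndex A := rfl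
    have h3 : (P₀.subgroupOf (X.comap f)).index = P₀.relIndex (X.comap f) := rfl
    rw [h2] at hd
    rw [h3, ← Subgroup.relIndex_mul_relIndex P₀ A (X.comap f) hP₀A hAL]
    exact hd.trans (Nat.dvd_mul_right _ _)
  have hP₀Ap : IsPGroup p (P₀.subgroupOf A) :=
    hP₀p.comap_of_injective A.subtype A.subtype_injective
  let P' : Sylow p A := hP₀Ap.toSylow hindex
  have hmap : (P' : Subgroup A).map A.subtype = P₀ := by
    show (P₀.subgroupOf A).map A.subtype = P₀
    rw [Subgroup.subgroupOf_map_subtype]
    exact inf_eq_left.mpr hP₀A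
  have hfr := Sylow.normalizer_sup_eq_top P'
  have hfr' : Subgroup.normalizer (P₀ : Set G) ⊔ A = ⊤ := by
    have : (P'.map A.subtype) = P₀ := hmap
    rw [this] at hfr
    exact hfr
  have hnorm : Subgroup.normalizer (P₀ : Set G) = ⊤ := by
    by_contra hne
    obtain ⟨M, hM, hNM⟩ := (eq_top_or_exists_le_coatom _).resolve_left hne
    have hΦM : frattini G ≤ M := frattini_le_coatom hM
    have hP₀M : P₀ ≤ M := Subgroup.le_normalizer.trans hNM
    apply hM.1
    rw [eq_top_iff, ← hfr']
    apply sup_le hNM
    rintro a ⟨q, hq, hqe⟩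
    -- `f a ∈ image of P`
    have hq' : q ∈ (Q₁ : Subgroup X) := hq
    rw [Sylow.coe_mapSurjective] at hq'
    obtain ⟨u, hu, hue⟩ := hq'
    have h1 : f (u : G) = f a := by
      have h2 : ((f₁ u : X) : G ⧸ frattini G) = q := congrArg Subtype.val hue
      rw [← hqe]
      exact h2
    have h2 : (u : G)⁻¹ * a ∈ frattini G := QuotientGroup.eq.mp h1
    have e : a = (u : G) * ((u : G)⁻¹ * a) := by group
    rw [e]
    exact mul_mem (hP₀M ⟨u, hu, rfl⟩) (hΦM h2)
  have hP₀n : P₀.Normal := by
    rw [← Subgroup.normalizer_eq_top_iff]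
    exact hnorm
  constructor
  intro n hn g
  have h1 : ((n : X.comap f) : G) ∈ P₀ := ⟨n, hn, rfl⟩
  have h2 := hP₀n.conj_mem _ h1 g
  obtain ⟨m, hm, hme⟩ := h2
  have h3 : m = g * n * g⁻¹ := Subtype.ext hme
  rw [← h3]
  exact hm

/-- The Fitting subgroup commutes with passing to the Frattini quotient: the Fitting subgroup of G modulo its Frattini subgroup is the image of the Fitting subgroup of G. -/
theorem result {G : Type*} [Group G] [Finite G] :
    Cfsg.fittingSubgroup (G ⧸ frattini G) = (Cfsg.fittingSubgroup G).map (QuotientGroup.mk' (frattini G)) := by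

  classical
  apply le_antisymm
  · set X := Cfsg.fittingSubgroup (G ⧸ frattini G) with hX
    haveI hXn : X.Normal := Cfsg.Agent.H01.fitting_normal
    have hXnil : Group.IsNilpotent X := Cfsg.Agent.H01.fitting_nilpotent
    haveI hLn : (X.comap (QuotientGroup.mk' (frattini G))).Normal := Subgroup.Normal.comap hXn _
    have hLnil := nilpotent_of_frattini_quot (X.comap (QuotientGroup.mk' (frattini G))) X hXnil rfl
    have hle := Cfsg.Agent.H01.le_fitting hLn hLnil
    have h1 := Subgroup.map_mono (f := QuotientGroup.mk' (frattini G)) hle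
    rwa [Subgroup.map_comap_eq_self_of_surjective (QuotientGroup.mk'_surjective _)] at h1
  · apply Cfsg.Agent.H01.le_fitting
    · haveI : (Cfsg.fittingSubgroup G).Normal := Cfsg.Agent.H01.fitting_normal
      exact Subgroup.Normal.map inferInstance _ (QuotientGroup.mk'_surjective _)
    · haveI : Group.IsNilpotent (Cfsg.fittingSubgroup G) := Cfsg.Agent.H01.fitting_nilpotent
      let f := QuotientGroup.mk' (frattini G)
      exact nilpotent_of_surjective (f.subgroupMap (Cfsg.fittingSubgroup G)) (f.subgroupMap_surjective _)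


end Cfsg.Agent.S0070
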