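import Mathlib
import Cfsg.Agent.Lib.H13.FrobFusion
import Cfsg.Agent.Lib.H01.NormalComp
import Cfsg.Statements.S0071
-- import your own Cfsg.Agent.* helpers here

set_option autoImplicit false
open Cfsg

namespace Cfsg.Agent.S0071

open scoped Pointwise


/-- The Frobenius normal p-complement Theorem states that a Sylow p-subgroup has a normal complement exactly when, for each of its subgroups Q, every element of the normalizer of Q of order prime to p centralizes Q. -/
theorem result {G : Type*} [Group G] [Finite G] {p : ℕ} [Fact p.Prime] (P : Sylow p G) : (∃ N : Subgroup G, N.Normal ∧ N.IsComplement' (P : Subgroup G)) ↔ ∀ Q : Subgroup G, Q ≤ (P : Subgroup G) → ∀ g ∈ Subgroup.normalizer (Q : Set G), Nat.Coprime (orderOf g) p → g ∈ Subgroup.centralizer (Q : Set G) := by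

  constructor
  · rintro ⟨N, hN, hc⟩ Q hQ g hg hcop
    have h := Cfsg.Agent.H13.frobCond_of_hasNormalPComplement (p := p) (G := G) ⟨P, N, hN, hc⟩
    exact h Q (P.isPGroup'.to_le hQ) g hg hcop
  · intro h
    have hF : Cfsg.Agent.H13.FrobCond p G := by
      intro Q hQ g hg hcop
      obtain ⟨R, hR⟩ := hQ.exists_le_sylow
      obtain ⟨a, ha⟩ := MulAction.exists_smul_eq G R P
      let Q' : Subgroup G := Q.map (MulAut.conj a).toMonoidHom
      have hmem : ∀ y : G, y ∈ Q' ↔ a⁻¹ * y * a ∈ Q := by
        intro y
        constructor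
        · rintro ⟨w, hw, rfl⟩
          have : a⁻¹ * (MulAut.conj a).toMonoidHom w * a = w := by
            simp [MulAut.conj_apply]
            group
          rw [this]; exact hw
        · intro hy
          refine ⟨_, hy, ?_⟩
          simp [MulAut.conj_apply]
          group
      have hQ'P : Q' ≤ (P : Subgroup G) := by
        rintro _ ⟨u, hu, rfl⟩
        rw [← ha, Sylow.coe_subgroup_smul]
        exact Subgroup.smul_mem_pointwise_smul _ _ _ (hR hu)
      have hg' : a * g * a⁻¹ ∈ Subgroup.normalizer (Q' : Set G) := by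
        rw [Subgroup.mem_normalizer_iff]
        intro y
        rw [hmem, hmem]
        have h5 := Subgroup.mem_normalizer_iff.mp hg (a⁻¹ * y * a)
        rw [h5]
        have : a⁻¹ * (a * g * a⁻¹ * y * (a * g * a⁻¹)⁻¹) * a = g * (a⁻¹ * y * a) * g⁻¹ := by group
        rw [this]
      have hord : orderOf (a * g * a⁻¹) = orderOf g := by
        rw [← MulAut.conj_apply, MulEquiv.orderOf_eq]
      have h1 := h Q' hQ'P _ hg' (by rw [hord]; exact hcop)
      rw [Subgroup.mem_centralizer_iff]
      intro x hx
      have h2 := Subgroup.mem_centralizer_iff.mp h1 (a * x * a⁻¹)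
        ((hmem _).mpr (by
          have : a⁻¹ * (a * x * a⁻¹) * a = x := by group
          rw [this]; exact hx))
      have h3 : a * (x * g) * a⁻¹ = a * (g * x) * a⁻¹ := by
        calc a * (x * g) * a⁻¹ = a * x * a⁻¹ * (a * g * a⁻¹) := by group
          _ = a * g * a⁻¹ * (a * x * a⁻¹) := h2
          _ = a * (g * x) * a⁻¹ := by group
      simpa using h3
    obtain ⟨P₀, N, hN, hc⟩ := Cfsg.Agent.H13.hasNormalPComplement_of_frobCond hF
    exact ⟨N, hN, Cfsg.Agent.H01.complement_of_any_sylow P₀ P hc⟩


end Cfsg.Agent.S0071
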