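import Cfsg.Statements.S0072
import Cfsg.Agent.Lib.H13.FrobFusion

set_option autoImplicit false
open Cfsg

namespace Cfsg.Agent.S0072

open Cfsg.Agent.H13

theorem result {G : Type*} [Group G] [Finite G] (p : ℕ) [Fact p.Prime] : Cfsg.HasNormalPComplement p G ↔ ∀ Q : Subgroup G, IsPGroup p Q → Q ≠ ⊥ → Cfsg.HasNormalPComplement p (Subgroup.normalizer (Q : Set G)) := by
  constructor
  · intro h Q _ _
    exact hasNormalPComplement_of_frobCond ((frobCond_of_hasNormalPComplement h).subgroup _)
  · intro h
    apply hasNormalPComplement_of_frobCond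
    intro Q hQ g hg hgc
    by_cases hQ1 : Q = ⊥
    · rw [hQ1, Subgroup.mem_centralizer_iff]
      intro x hx
      have : x = 1 := hx
      rw [this]
      simp
    have hF := frobCond_of_hasNormalPComplement (h Q hQ hQ1)
    set N : Subgroup G := Subgroup.normalizer (Q : Set G) with hN
    have hQN : Q ≤ N := Subgroup.le_normalizer
    have h1 : IsPGroup p (Q.subgroupOf N) := isPGroup_subgroupOf hQ
    have h2 := hF (Q.subgroupOf N) h1 ⟨g, hg⟩ (by
      rw [Subgroup.mem_normalizer_iff]
      rintro ⟨x, hx⟩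
      rw [Subgroup.mem_subgroupOf, Subgroup.mem_subgroupOf]
      exact Subgroup.mem_normalizer_iff.mp hg x) (by rwa [Subgroup.orderOf_mk])
    rw [Subgroup.mem_centralizer_iff] at h2 ⊢
    intro x hx
    have h3 := h2 ⟨x, hQN hx⟩ (by rw [SetLike.mem_coe, Subgroup.mem_subgroupOf]; exact hx)
    exact congrArg Subtype.val h3

end Cfsg.Agent.S0072
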