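import Mathlib
import Cfsg.Agent.Lib.H01.MaxNormal
import Cfsg.Statements.S0129
-- import your own Cfsg.Agent.* helpers here

set_option autoImplicit false
open Cfsg

namespace Cfsg.Agent.S0129


/-- The order of a p-group is bounded by p^(a(a+1)/2) when it has a maximal normal abelian subgroup of order p^a. -/
theorem result {G : Type*} [Group G] [Finite G] {p : ℕ} [Fact p.Prime] (hG : IsPGroup p G) (A : Subgroup G) [A.Normal] (hA : IsMulCommutative A) (hmax : ∀ B : Subgroup G, B.Normal → IsMulCommutative B → A ≤ B → B = A) (a : ℕ) (ha : Nat.card A = p ^ a) : Nat.card G ≤ p ^ (a * (a + 1) / 2) := by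

  classical
  have hpr : p.Prime := Fact.out
  haveI : Group.IsNilpotent G := hG.isNilpotent
  have hAn : A.Normal := inferInstance
  have hC : Subgroup.centralizer (A : Set G) ≤ A :=
    Cfsg.Agent.H18.centralizer_le_of_maximal_normal_abelian hAn hA
      (fun B hB hBc hAB => (hmax B hB hBc hAB).le)
  have hidx := Cfsg.Agent.H01.index_centralizer_le_choose hG a A hAn hA ha
  have hCA : Nat.card (Subgroup.centralizer (A : Set G)) ≤ p ^ a := by
    rw [← ha]; exact Subgroup.card_le_of_le hC
  have hcard := Subgroup.card_mul_index (Subgroup.centralizer (A : Set G))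
  rw [← hcard]
  have he : a * (a + 1) / 2 = a + a.choose 2 := by
    have h1 : (a + 1).choose 2 = a + a.choose 2 := by
      rw [Nat.choose_succ_succ' a 1, Nat.choose_one_right]
    rw [← h1, Nat.choose_two_right]
    simp [mul_comm]
  rw [he, pow_add]
  exact Nat.mul_le_mul hCA hidx


end Cfsg.Agent.S0129
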