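import Mathlib
import Cfsg.Agent.S0129
import Cfsg.Agent.Lib.H01.Basic
import Cfsg.Agent.Lib.H01.OmegaApps
import Cfsg.Statements.S0128
-- import your own Cfsg.Agent.* helpers here

set_option autoImplicit false
open Cfsg

namespace Cfsg.Agent.S0128

universe u

open scoped commutatorElement

theorem card_quot_center_le {X : Type*} [Group X] [Finite X] {p : ℕ} [Fact p.Prime] (hX : IsPGroup p X)
    {k : ℕ} (hc : Nat.card X ≤ p ^ (k + 1)) : Nat.card (X ⧸ Subgroup.center X) ≤ p ^ k := by
  have hpr : p.Prime := Fact.out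
  by_cases hnt : Nontrivial X
  · haveI := hnt
    have h1 := Subgroup.card_mul_index (Subgroup.center X)
    have hZ : p ≤ Nat.card (Subgroup.center X) := by
      haveI := hX.center_nontrivial
      have hZp : IsPGroup p (Subgroup.center X) := hX.to_subgroup _
      obtain ⟨m, hm⟩ := IsPGroup.iff_card.mp hZp
      have h2 : 1 < Nat.card (Subgroup.center X) := Finite.one_lt_card
      rw [hm] at h2 ⊢
      have : m ≠ 0 := by
        rintro rfl
        simp at h2
      exact Nat.le_self_pow this p
    rw [Subgroup.index_eq_card] at h1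
    have h3 : p * Nat.card (X ⧸ Subgroup.center X) ≤ p * p ^ k := by
      rw [← pow_succ']
      calc p * Nat.card (X ⧸ Subgroup.center X)
          ≤ Nat.card (Subgroup.center X) * Nat.card (X ⧸ Subgroup.center X) :=
            Nat.mul_le_mul_right _ hZ
        _ = Nat.card X := h1
        _ ≤ _ := hc
    exact Nat.le_of_mul_le_mul_left h3 hpr.pos
  · rw [not_nontrivial_iff_subsingleton] at hnt
    have h1 : Nat.card (X ⧸ Subgroup.center X) = 1 := by
      rw [Nat.card_eq_one_iff_unique]
      exact ⟨inferInstance, ⟨1⟩⟩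
    rw [h1]
    exact Nat.one_le_pow _ _ hpr.pos

theorem comm_of_card_le_sq {Y : Type*} [Group Y] [Finite Y] {p : ℕ} [Fact p.Prime] (hY : IsPGroup p Y)
    (hc : Nat.card Y ≤ p ^ 2) (a b : Y) : a * b = b * a := by
  have hpr : p.Prime := Fact.out
  obtain ⟨m, hm⟩ := IsPGroup.iff_card.mp hY
  have hm2 : m ≤ 2 := by
    rw [hm] at hc
    exact (Nat.pow_le_pow_iff_right hpr.one_lt).mp hc
  interval_cases m
  · have : Subsingleton Y := by
      rw [pow_zero] at hm
      exact (Nat.card_eq_one_iff_unique.mp hm).1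
    exact Subsingleton.elim _ _
  · rw [pow_one] at hm
    haveI : IsCyclic Y := isCyclic_of_prime_card hm
    exact IsCyclic.commutative.is_comm.comm a b
  · exact IsPGroup.commutative_of_card_eq_prime_sq hm a b

theorem class_three_of_card_le {R : Type*} [Group R] [Finite R] {p : ℕ} [Fact p.Prime] (hR : IsPGroup p R)
    (hc : Nat.card R ≤ p ^ 4) : ⁅⁅commutator R, (⊤ : Subgroup R)⁆, (⊤ : Subgroup R)⁆ = ⊥ := by
  classical
  let Z := Subgroup.center R
  let Q₁ := R ⧸ Z
  let π₁ : R →* Q₁ := QuotientGroup.mk' Z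
  have hπ₁ : Function.Surjective π₁ := QuotientGroup.mk'_surjective Z
  have hQ₁ : IsPGroup p Q₁ := hR.of_surjective π₁ hπ₁
  have hc₁ : Nat.card Q₁ ≤ p ^ 3 := card_quot_center_le hR hc
  let Z₁ := Subgroup.center Q₁
  let Q₂ := Q₁ ⧸ Z₁
  let π₂ : Q₁ →* Q₂ := QuotientGroup.mk' Z₁
  have hπ₂ : Function.Surjective π₂ := QuotientGroup.mk'_surjective Z₁
  have hQ₂ : IsPGroup p Q₂ := hQ₁.of_surjective π₂ hπ₂
  have hc₂ : Nat.card Q₂ ≤ p ^ 2 := card_quot_center_le hQ₁ hc₁
  let Z₂ : Subgroup R := Z₁.comap π₁
  have h1 : commutator R ≤ Z₂ := by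
    rw [commutator_def, Subgroup.commutator_le]
    intro a _ b _
    show π₁ ⁅a, b⁆ ∈ Z₁
    have h2 : π₂ (π₁ ⁅a, b⁆) = 1 := by
      simp only [map_commutatorElement]
      rw [commutatorElement_eq_one_iff_commute]
      exact comm_of_card_le_sq hQ₂ hc₂ _ _
    exact (QuotientGroup.eq_one_iff _).mp h2
  have h2 : ⁅Z₂, (⊤ : Subgroup R)⁆ ≤ Z := by
    rw [Subgroup.commutator_le]
    intro a ha b _
    have h3 : π₁ ⁅a, b⁆ = 1 := by
      rw [map_commutatorElement, commutatorElement_eq_one_iff_commute]
      exact (Subgroup.mem_center_iff.mp ha (π₁ b)).symm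
    exact (QuotientGroup.eq_one_iff _).mp h3
  have h3 : ⁅Z, (⊤ : Subgroup R)⁆ = ⊥ := by
    rw [eq_bot_iff, Subgroup.commutator_le]
    intro a ha b _
    rw [Subgroup.mem_bot, commutatorElement_eq_one_iff_commute]
    exact (Subgroup.mem_center_iff.mp ha b).symm
  rw [eq_bot_iff, ← h3]
  exact Subgroup.commutator_mono ((Subgroup.commutator_mono h1 le_rfl).trans h2) le_rfl

theorem elementary_map {R : Type*} [Group R] {p : ℕ} (H : Subgroup R) (E : Subgroup H)
    (hE : IsElementaryAbelian p E) : IsElementaryAbelian p (E.map H.subtype) ∧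
      Nat.card (E.map H.subtype) = Nat.card E := by
  refine ⟨⟨?_, ?_⟩, Subgroup.card_map_of_injective H.subtype_injective⟩
  · apply Cfsg.Agent.H01.isMulCommutative_of_forall
    rintro _ ⟨a, ha, rfl⟩ _ ⟨b, hb, rfl⟩
    have := Cfsg.Agent.H01.forall_of_isMulCommutative hE.1 a ha b hb
    exact congrArg (fun z : H => (z : R)) this
  · rintro _ ⟨a, ha, rfl⟩
    have := hE.2 a ha
    exact congrArg (fun z : H => (z : R)) this

/-- A `p`-group of exponent `p` and rank at most two has order at most `p ^ 3`. -/
theorem card_le_of_exponent_rank {N : Type*} [Group N] [Finite N] {p : ℕ} [Fact p.Prime]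
    (hN : IsPGroup p N) (hexp : ∀ y : N, y ^ p = 1)
    (hrk : ∀ E : Subgroup N, IsElementaryAbelian p E → Nat.card E ≤ p ^ 2) : Nat.card N ≤ p ^ 3 := by
  classical
  have hpr : p.Prime := Fact.out
  let S : Set (Subgroup N) := {A | A.Normal ∧ IsMulCommutative A}
  have hS : S.Nonempty := ⟨⊥, inferInstance, Cfsg.Agent.H01.isMulCommutative_of_forall (by
    intro a ha b hb
    rw [Subgroup.mem_bot.mp ha, Subgroup.mem_bot.mp hb])⟩
  obtain ⟨A, hA⟩ := S.toFinite.exists_maximal hS
  obtain ⟨hAn, hAc⟩ := hA.prop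
  obtain ⟨a, ha⟩ := IsPGroup.iff_card.mp (hN.to_subgroup A)
  have hle := hrk A ⟨hAc, fun x _ => hexp x⟩
  rw [ha] at hle
  have ha2 : a ≤ 2 := (Nat.pow_le_pow_iff_right hpr.one_lt).mp hle
  haveI := hAn
  have := Cfsg.Agent.S0129.result hN A hAc (fun B hB hBc hAB =>
    le_antisymm (hA.le_of_ge ⟨hB, hBc⟩ hAB) hAB) a ha
  refine this.trans (Nat.pow_le_pow_right hpr.pos ?_)
  interval_cases a <;> simp

theorem aux {p : ℕ} [Fact p.Prime] (hp : 3 < p) : ∀ (n : ℕ) (R : Type u) [Group R] [Finite R],
    Nat.card R = n → IsPGroup p R →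
    (∀ E : Subgroup R, Cfsg.IsElementaryAbelian p E → Nat.card E ≤ p ^ 2) →
    ∀ g ∈ Subgroup.closure {x : R | x ^ p = 1}, g ^ p = 1 := by
  intro n
  induction n using Nat.strong_induction_on with
  | _ n ih =>
  intro R _ _ hn hR hrk g hg
  classical
  have hpr : p.Prime := Fact.out
  have hsubrk : ∀ H : Subgroup R, ∀ E : Subgroup H, Cfsg.IsElementaryAbelian p E → Nat.card E ≤ p ^ 2 := by
    intro H E hE
    obtain ⟨h1, h2⟩ := elementary_map H E hE
    rw [← h2]
    exact hrk _ h1
  by_cases hΩ : Subgroup.closure {x : R | x ^ p = 1} = ⊤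
  · by_cases hnt : Nontrivial R
    · haveI := hnt
      let 𝓝 : Set (Subgroup R) := {N | N ≠ ⊤ ∧ N = Subgroup.closure {x : R | x ∈ N ∧ x ^ p = 1}}
      have hne : 𝓝.Nonempty := by
        refine ⟨⊥, bot_ne_top, ?_⟩
        symm
        rw [eq_bot_iff, Subgroup.closure_le]
        rintro x ⟨hx, -⟩
        exact hx
      obtain ⟨N, hN⟩ := 𝓝.toFinite.exists_maximal hne
      obtain ⟨hNt, hNc⟩ := hN.prop
      obtain ⟨M, hM, hNM⟩ := (eq_top_or_exists_le_coatom N).resolve_left hNt
      obtain ⟨hMn, -⟩ := Cfsg.Agent.H01.isCoatom_normal_index hR hM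
      set O := Subgroup.closure {x : R | x ∈ M ∧ x ^ p = 1} with hO
      have hOM : O ≤ M := by
        rw [hO, Subgroup.closure_le]
        rintro x ⟨hx, -⟩
        exact hx
      have hOmem : O ∈ 𝓝 := by
        refine ⟨fun h => hM.1 (top_le_iff.mp (h ▸ hOM)), ?_⟩
        apply le_antisymm
        · conv_lhs => rw [hO]
          rw [Subgroup.closure_le]
          rintro x ⟨hx, hxp⟩
          exact Subgroup.subset_closure ⟨Subgroup.subset_closure ⟨hx, hxp⟩, hxp⟩
        · rw [Subgroup.closure_le]
          rintro x ⟨hx, -⟩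
          exact hx
      have hNO : N ≤ O := by
        rw [hNc, hO]
        apply Subgroup.closure_mono
        rintro x ⟨hx, hxp⟩
        exact ⟨hNM hx, hxp⟩
      have hNeq : N = O := le_antisymm hNO (hN.le_of_ge hOmem hNO)
      have hNn : N.Normal := by
        rw [hNeq]
        constructor
        intro z hz g
        have hle : O ≤ O.comap (MulAut.conj g).toMonoidHom := by
          conv_lhs => rw [hO]
          rw [Subgroup.closure_le]
          rintro x ⟨hx, hxp⟩
          exact Subgroup.subset_closure ⟨hMn.conj_mem x hx g, by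
            show (g * x * g⁻¹) ^ p = 1
            rw [conj_pow, hxp]; simp⟩
        exact hle hz
      -- an element of `S` outside `N`
      obtain ⟨x, hxp, hxN⟩ : ∃ x : R, x ^ p = 1 ∧ x ∉ N := by
        by_contra hcon
        push Not at hcon
        apply hNt
        rw [eq_top_iff, ← hΩ, Subgroup.closure_le]
        exact fun x hx => hcon x hx
      have hsup : N ⊔ Subgroup.zpowers x = ⊤ := by
        by_contra hne
        have hmem : N ⊔ Subgroup.zpowers x ∈ 𝓝 := by
          refine ⟨hne, ?_⟩
          apply le_antisymm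
          · apply sup_le
            · conv_lhs => rw [hNc]
              apply Subgroup.closure_mono
              rintro z ⟨hz, hzp⟩
              exact ⟨Subgroup.mem_sup_left hz, hzp⟩
            · rw [Subgroup.zpowers_le]
              exact Subgroup.subset_closure ⟨Subgroup.mem_sup_right (Subgroup.mem_zpowers x), hxp⟩
          · rw [Subgroup.closure_le]
            rintro z ⟨hz, -⟩
            exact hz
        exact hxN (hN.le_of_ge hmem le_sup_left (Subgroup.mem_sup_right (Subgroup.mem_zpowers x)))
      have hidx : N.index ≤ p := by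
        have h1 : N.relIndex (N ⊔ Subgroup.zpowers x) = N.relIndex (Subgroup.zpowers x) :=
          Subgroup.relIndex_sup_left _ _
        rw [hsup, Subgroup.relIndex_top_right] at h1
        rw [h1]
        refine (Nat.le_of_dvd Nat.card_pos (Subgroup.relIndex_dvd_card _ _)).trans ?_
        rw [Nat.card_zpowers]
        exact orderOf_le_of_pow_eq_one hpr.pos hxp
      have hNcard : Nat.card N * N.index = Nat.card R := Subgroup.card_mul_index N
      have hidx0 : N.index ≠ 0 := Subgroup.index_ne_zero_of_finite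
      have hidx1 : N.index ≠ 1 := fun h => hNt (Subgroup.index_eq_one.mp h)
      have hlt : Nat.card N < n := by
        rw [← hn, ← hNcard]
        have : 0 < Nat.card N := Nat.card_pos
        have h2 : 2 ≤ N.index := by omega
        nlinarith
      have hexp : ∀ y : N, y ^ p = 1 := by
        intro y
        have hcl : (y : R) ∈ (Subgroup.closure {z : N | z ^ p = 1}).map N.subtype := by
          have hle : N ≤ (Subgroup.closure {z : N | z ^ p = 1}).map N.subtype := by
            conv_lhs => rw [hNc]
            rw [Subgroup.closure_le]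
            rintro z ⟨hz, hzp⟩
            exact ⟨⟨z, hz⟩, Subgroup.subset_closure (Subtype.ext (by simpa using hzp)), rfl⟩
          exact hle y.2
        obtain ⟨z, hz, hzy⟩ := hcl
        have := ih _ hlt N rfl (hR.to_subgroup N) (hsubrk N) z hz
        have hzy' : z = y := Subtype.ext hzy
        rw [← hzy']
        exact this
      have hN3 := card_le_of_exponent_rank (hR.to_subgroup N) hexp (hsubrk N)
      have hR4 : Nat.card R ≤ p ^ 4 := by
        rw [← hNcard]
        calc Nat.card N * N.index ≤ p ^ 3 * p := Nat.mul_le_mul hN3 hidx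
          _ = p ^ 4 := by ring
      exact Cfsg.Agent.H01.pow_eq_one_of_mem_closure
        (fun x y hx hy => Cfsg.Agent.H01.mul_pow_eq_one_class_three hpr hp
          (class_three_of_card_le hR hR4) x y hx hy) hg
    · rw [not_nontrivial_iff_subsingleton] at hnt
      rw [Subsingleton.elim g 1, one_pow]
  · set Ω := Subgroup.closure {x : R | x ^ p = 1} with hΩd
    have hlt : Nat.card Ω < n := by
      rw [← hn]
      exact lt_of_le_of_ne (Subgroup.card_le_card_group Ω) (fun h => hΩ (Subgroup.eq_top_of_card_eq Ω h))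
    have := ih _ hlt Ω rfl (hR.to_subgroup Ω) (hsubrk Ω) ⟨g, hg⟩ (by
      have h1 := Subgroup.closure_closure_coe_preimage (k := {x : R | x ^ p = 1})
      have h2 : ((↑) : Subgroup.closure {x : R | x ^ p = 1} → R) ⁻¹' {x : R | x ^ p = 1} =
          {x : Ω | x ^ p = 1} := by
        ext y
        constructor
        · intro h
          exact Subtype.ext (by simpa using h)
        · intro h
          have := congrArg (fun z : Ω => (z : R)) h
          simpa using this
      rw [h2] at h1
      rw [h1]
      trivial)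
    exact congrArg (fun z : Ω => (z : R)) this


/-- For p > 3, in a p-group of p-rank at most 2 the elements of order dividing p generate a subgroup of exponent dividing p. -/
theorem result {R : Type*} [Group R] [Finite R] {p : ℕ} [Fact p.Prime] (hp : 3 < p) (hR : IsPGroup p R) (hrk : ∀ E : Subgroup R, Cfsg.IsElementaryAbelian p E → Nat.card E ≤ p ^ 2) (g : R) (hg : g ∈ Subgroup.closure {x : R | x ^ p = 1}) : g ^ p = 1 := by

  exact aux hp _ R rfl hR hrk g hg


end Cfsg.Agent.S0128
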