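import Mathlib
import Cfsg.Agent.Lib.H01.BurnsideFix
import Cfsg.Agent.S0128
import Cfsg.Statements.S0073
-- import your own Cfsg.Agent.* helpers here

set_option autoImplicit false
open Cfsg

namespace Cfsg.Agent.S0073


/-- For a finite non-abelian simple group, either the cube of the least prime divisor of the order divides the order, or 12 does. -/
theorem result {G : Type*} [Group G] [Finite G] [IsSimpleGroup G] (hG : ∃ x y : G, x * y ≠ y * x) : (Nat.card G).minFac ^ 3 ∣ Nat.card G ∨ 12 ∣ Nat.card G := by

  classical
  obtain ⟨x, y, hxy⟩ := hG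
  have hnontriv : Nat.card G ≠ 1 := by
    intro h
    haveI := (Nat.card_eq_one_iff_unique.mp h).1
    exact hxy (Subsingleton.elim _ _)
  set p := (Nat.card G).minFac with hp
  have hpr : p.Prime := Nat.minFac_prime hnontriv
  haveI : Fact p.Prime := ⟨hpr⟩
  by_contra hcon
  push Not at hcon
  obtain ⟨h3, h12⟩ := hcon
  obtain ⟨P⟩ : Nonempty (Sylow p G) := inferInstance
  obtain ⟨n, hn⟩ := IsPGroup.iff_card.mp P.isPGroup'
  have hPd : Nat.card (P : Subgroup G) ∣ Nat.card G := Subgroup.card_subgroup_dvd_card _
  have hn2 : n ≤ 2 := by
    by_contra hlt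
    apply h3
    refine dvd_trans ?_ hPd
    rw [hn]
    exact pow_dvd_pow p (by omega)
  have hle : Nat.card (P : Subgroup G) ≤ p ^ 2 := by
    rw [hn]; exact Nat.pow_le_pow_right hpr.pos hn2
  have hab : IsMulCommutative (P : Subgroup G) := by
    constructor
    constructor
    exact Cfsg.Agent.S0128.comm_of_card_le_sq P.isPGroup' hle
  have hcompl : HasNormalPComplement p G := by
    apply Cfsg.Agent.H01.hasNormalPComplement_of_count P hab
    intro r hr hrp hrG j hj
    rw [hn] at hj ⊢
    have hjn : j < n := (Nat.pow_lt_pow_iff_right hpr.one_lt).mp hj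
    have hpr' : p < r := lt_of_le_of_ne (Nat.minFac_le_of_dvd hr.two_le hrG) (Ne.symm hrp)
    have hp2 := hpr.two_le
    have hnotp1 : ¬ r ∣ p - 1 := fun h =>
      absurd (Nat.le_of_dvd (by omega) h) (by omega)
    have hnotp : ¬ r ∣ p := fun h => absurd (Nat.le_of_dvd hpr.pos h) (by omega)
    interval_cases n
    · omega
    · interval_cases j
      simpa using hnotp1
    · interval_cases j
      · intro h
        have key : ∀ q : ℕ, 1 ≤ q → q ^ 2 - q ^ 0 = (q - 1) * (q + 1) := by
          intro q hq
          obtain ⟨k, rfl⟩ : ∃ k, q = k + 1 := ⟨q - 1, by omega⟩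
          simp
          ring_nf
          omega
        rw [key p hpr.pos] at h
        rcases (Nat.Prime.dvd_mul hr).mp h with h' | h'
        · exact hnotp1 h'
        · have hr' : r = p + 1 := by
            have := Nat.le_of_dvd (by omega) h'
            omega
          have hp2' : p = 2 := by
            by_contra hne
            have hodd : Odd p := hpr.odd_of_ne_two hne
            have hev : Even (p + 1) := hodd.add_one
            have : 2 ∣ r := by rw [hr']; exact hev.two_dvd
            have := (Nat.prime_dvd_prime_iff_eq Nat.prime_two hr).mp this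
            omega
          rw [hp2'] at hr'
          have hd4 : 4 ∣ Nat.card G := by
            have h5 := hPd
            rw [hn, hp2'] at h5
            simpa using h5
          have hd3 : 3 ∣ Nat.card G := by
            have h6 : r = 3 := hr'
            rw [← h6]; exact hrG
          apply h12
          exact (Nat.Coprime.mul_dvd_of_dvd_of_dvd (by norm_num) hd4 hd3)
      · intro h
        have key : ∀ q : ℕ, 1 ≤ q → q ^ 2 - q ^ 1 = q * (q - 1) := by
          intro q hq
          obtain ⟨k, rfl⟩ : ∃ k, q = k + 1 := ⟨q - 1, by omega⟩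
          simp
          ring_nf
          omega
        rw [key p hpr.pos] at h
        rcases (Nat.Prime.dvd_mul hr).mp h with h' | h'
        · exact hnotp h'
        · exact hnotp1 h'
  obtain ⟨S, K, hKn, hK⟩ := hcompl
  have hdvdp : p ∣ Nat.card G := Nat.minFac_dvd _
  rcases hKn.eq_bot_or_eq_top with rfl | rfl
  · -- `K = ⊥`: `G` is a `p`-group of class at most two, hence abelian
    have hS : (S : Subgroup G) = ⊤ := by
      have := hK.sup_eq_top
      simpa using this
    have hcardG : Nat.card G ≤ p ^ 2 := by
      have e1 : Nat.card G = Nat.card (S : Subgroup G) := by rw [hS, Subgroup.card_top]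
      have e2 : Nat.card (S : Subgroup G) = Nat.card (P : Subgroup G) := by
        rw [S.card_eq_multiplicity, P.card_eq_multiplicity]
      rw [e1, e2]; exact hle
    have hGp : IsPGroup p G := by
      intro g
      have hm : g ∈ (S : Subgroup G) := by rw [hS]; trivial
      obtain ⟨k, hk⟩ := S.isPGroup' ⟨g, hm⟩
      exact ⟨k, congrArg Subtype.val hk⟩
    exact hxy (Cfsg.Agent.S0128.comm_of_card_le_sq hGp hcardG x y)
  · -- `K = ⊤`: then the Sylow subgroup is trivial, but `p` divides the order
    have hS : (S : Subgroup G) = ⊥ := by
      have := hK.disjoint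
      simpa using this
    have hd : Nat.card (S : Subgroup G) = 1 := by rw [hS, Subgroup.card_bot]
    have := S.not_dvd_index
    rw [hS, Subgroup.index_bot] at this
    exact this hdvdp


end Cfsg.Agent.S0073
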