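import Mathlib
import Cfsg.Agent.Lib.H01.Transfer
import Cfsg.Agent.Lib.H13.Basic
import Cfsg.Statements.S0077
-- import your own Cfsg.Agent.* helpers here

set_option autoImplicit false
open Cfsg

namespace Cfsg.Agent.S0077

open scoped commutatorElement

/-- If a subgroup Z of the centre of a Sylow p-subgroup P is weakly closed in P, then P meets the derived subgroup of G exactly where it meets the derived subgroup of the normalizer of Z. -/
theorem result {G : Type*} [Group G] [Finite G] {p : ℕ} [Fact p.Prime] (P : Sylow p G) (Z : Subgroup G) (hZ : Z ≤ Subgroup.centralizer (P : Set G)) (hW : Cfsg.IsWeaklyClosed Z P) : commutator G ⊓ (P : Subgroup G) = ⁅Subgroup.normalizer (Z : Set G), Subgroup.normalizer (Z : Set G)⁆ ⊓ (P : Subgroup G) := by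

  have hw : Cfsg.IsWeaklyClosedSubgroup p Z := ⟨P, hW⟩
  have hZp : IsPGroup p Z := P.2.to_le hW.1
  have hPN : (P : Subgroup G) ≤ Subgroup.normalizer (Z : Set G) := by
    intro x hx
    rw [Subgroup.mem_normalizer_iff]
    intro z
    have hcomm : ∀ z ∈ Z, x * z * x⁻¹ = z := by
      intro z hz
      have := Subgroup.mem_centralizer_iff.mp (hZ hz) x hx
      rw [this]; group
    constructor
    · intro hz
      rw [hcomm z hz]; exact hz
    · intro hz
      have h4 : x * z * x⁻¹ * x = x * (x * z * x⁻¹) :=
        (Subgroup.mem_centralizer_iff.mp (hZ hz) x hx).symm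
      have h5 : z = x * z * x⁻¹ := by
        have h6 : x * z = x * (x * z * x⁻¹) := by simpa [mul_assoc] using h4
        exact mul_left_cancel h6
      have h2 : x * z * x⁻¹ = z := h5.symm
      rwa [h2] at hz
  apply le_antisymm
  · rw [Subgroup.commutator_inf_eq_focalSubgroup]
    apply le_inf _ (Subgroup.focalSubgroup_le _)
    apply Cfsg.Agent.H01.focal_le_of
    intro x hx u hu
    set y := u * x * u⁻¹ with hy
    set K := Subgroup.centralizer {y} with hK
    have hZK : Z ≤ K := by
      intro z hz
      rw [hK, Subgroup.mem_centralizer_singleton_iff]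
      exact (Subgroup.mem_centralizer_iff.mp (hZ hz) y hu).symm
    have hxz : ∀ z ∈ Z, z * x = x * z := fun z hz =>
      (Subgroup.mem_centralizer_iff.mp (hZ hz) x hx).symm
    have hZuK : Z.map (MulAut.conj u).toMonoidHom ≤ K := by
      rintro _ ⟨z, hz, rfl⟩
      rw [hK, Subgroup.mem_centralizer_singleton_iff]
      simp only [MulEquiv.coe_toMonoidHom, MulAut.conj_apply]
      have := hxz z hz
      calc u * z * u⁻¹ * y = u * (z * x) * u⁻¹ := by rw [hy]; group
        _ = u * (x * z) * u⁻¹ := by rw [this]
        _ = y * (u * z * u⁻¹) := by rw [hy]; group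
    obtain ⟨k, hk, hZk⟩ := Cfsg.Agent.H13.exists_conj_in hw hZp hZK hZuK
    set n := k⁻¹ * u with hn
    have hnN : n ∈ Subgroup.normalizer (Z : Set G) := by
      apply Cfsg.Agent.H13.mem_normalizer_of_map_conj_eq
      rw [hn, ← Cfsg.Agent.H13.map_conj_mul, hZk, Cfsg.Agent.H13.map_conj_mul]
      ext z
      simp
    have hky : k * y = y * k := by
      rw [hK, Subgroup.mem_centralizer_singleton_iff] at hk
      exact hk
    have hnx : n * x * n⁻¹ = y := by
      rw [hn, hy]
      have : k⁻¹ * u * x * (k⁻¹ * u)⁻¹ = k⁻¹ * (u * x * u⁻¹) * k := by group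
      rw [this, ← hy, mul_assoc, ← hky]
      group
    have e : x⁻¹ * y = ⁅x⁻¹, n⁆ := by
      rw [commutatorElement_def, ← hnx]
      group
    rw [e]
    exact Subgroup.commutator_mem_commutator (Subgroup.inv_mem _ (hPN hx)) hnN
  · apply inf_le_inf_right
    exact Subgroup.commutator_mono le_top le_top


end Cfsg.Agent.S0077
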