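import Mathlib
import Cfsg.Agent.Lib.H01.PNormal
import Cfsg.Statements.S0078
-- import your own Cfsg.Agent.* helpers here

set_option autoImplicit false
open Cfsg

namespace Cfsg.Agent.S0078


/-- In a p-normal group, a Sylow p-subgroup P meets O^p(G) exactly where it meets O^p(V), for any subgroup V containing the normalizer of the centre of P. -/
theorem result {G : Type*} [Group G] [Finite G] {p : ℕ} [Fact p.Prime] (P : Sylow p G) (hn : ∀ Q : Sylow p G, (P : Subgroup G) ⊓ Subgroup.centralizer (P : Set G) ≤ (Q : Subgroup G) → (Q : Subgroup G) ⊓ Subgroup.centralizer (Q : Set G) = (P : Subgroup G) ⊓ Subgroup.centralizer (P : Set G)) (V : Subgroup G) (hV : Subgroup.normalizer (((P : Subgroup G) ⊓ Subgroup.centralizer (P : Set G) : Subgroup G) : Set G) ≤ V) : (P : Subgroup G) ⊓ Cfsg.pResidual p G = (P : Subgroup G) ⊓ (Cfsg.pResidual p V).map V.subtype := by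
  classical
  set Z : Subgroup G := (P : Subgroup G) ⊓ Subgroup.centralizer (P : Set G) with hZdef
  have hZcomm : ∀ z ∈ Z, ∀ a ∈ (P : Subgroup G), z * a = a * z := by
    intro z hz a ha
    have : z ∈ Subgroup.centralizer (P : Set G) := hz.2
    exact (Subgroup.mem_centralizer_iff.mp this a ha).symm
  have hPV : (P : Subgroup G) ≤ V := by
    intro u hu
    apply hV
    apply Cfsg.Agent.H13.mem_normalizer_of_map_conj_le
    rintro _ ⟨z, hz, rfl⟩
    show u * z * u⁻¹ ∈ Z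
    have h1 := hZcomm z hz u hu
    rw [← h1]
    have e : z * u * u⁻¹ = z := by group
    rw [e]
    exact hz
  set OV : Subgroup G := (Cfsg.pResidual p V).map V.subtype with hOV
  have hVn : (Cfsg.pResidual p V).Normal := Cfsg.Agent.H13.pResidual_normal'
  have hOVconj : ∀ w ∈ OV, ∀ v ∈ V, v * w * v⁻¹ ∈ OV := by
    rintro _ ⟨w, hw, rfl⟩ v hv
    exact ⟨(⟨v, hv⟩ : V) * w * (⟨v, hv⟩ : V)⁻¹, hVn.conj_mem w hw _, rfl⟩
  have hdec : ∀ v ∈ V, ∃ u ∈ (P : Subgroup G), ∃ w ∈ OV, v = u * w := by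
    intro v hv
    have h1 := Cfsg.Agent.H13.sylow_sup_pResidual (P.subtype hPV)
    have h2 : (⟨v, hv⟩ : V) ∈ ((P.subtype hPV : Sylow p V) : Subgroup V) ⊔ Cfsg.pResidual p V := by
      rw [h1]; trivial
    rw [Subgroup.mem_sup_of_normal_right] at h2
    obtain ⟨u, hu, w, hw, e⟩ := h2
    have hu' : (u : G) ∈ (P : Subgroup G) := by
      rw [Sylow.coe_subtype] at hu
      exact hu
    exact ⟨u, hu', w, ⟨w, hw, rfl⟩, (congrArg Subtype.val e).symm⟩
  have hfus : ∀ x ∈ (P : Subgroup G), ∀ g : G, g * x * g⁻¹ ∈ (P : Subgroup G) →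
      ∃ u ∈ (P : Subgroup G), ∃ w ∈ OV, ∀ _ : Unit, (u * w) * x * (u * w)⁻¹ = g * x * g⁻¹ ∧
        x⁻¹ * w * x * w⁻¹ ∈ OV := by
    intro x hx g hy
    obtain ⟨t, ht, e⟩ := Cfsg.Agent.H01.pnormal_fusion P hn x g hx hy
    obtain ⟨u, hu, w, hw, rfl⟩ := hdec t (hV ht)
    refine ⟨u, hu, w, hw, fun _ => ⟨e, ?_⟩⟩
    have h1 := hOVconj w hw x⁻¹ (inv_mem (hPV hx))
    rw [inv_inv] at h1
    exact mul_mem h1 (inv_mem hw)
  haveI hRn : (OV.subgroupOf (P : Subgroup G)).Normal := by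
    constructor
    intro a ha b
    exact hOVconj _ ha _ (hPV b.2)
  apply le_antisymm
  · rintro x ⟨hx, hxO⟩
    have := Cfsg.Agent.H01.pnormal_main P OV hfus _ (OV.subgroupOf (P : Subgroup G)) hRn rfl
      (fun y hy hy' => hy') x hx hxO
    exact ⟨hx, this⟩
  · rintro x ⟨hx, hxO⟩
    refine ⟨hx, ?_⟩
    have hle : OV ≤ Cfsg.pResidual p G := by
      rw [hOV, Subgroup.map_le_iff_le_comap]
      unfold Cfsg.pResidual
      rw [Subgroup.closure_le]
      intro y hy
      apply Subgroup.subset_closure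
      show Nat.Coprime (orderOf (y : G)) p
      rw [Subgroup.orderOf_coe]
      exact hy
    exact hle hxO


end Cfsg.Agent.S0078
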