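import Mathlib
import Cfsg.Agent.Lib.H01.Fusion
import Cfsg.Agent.Lib.H01.NormalComp
import Cfsg.Agent.Lib.H18.PGroup
import Cfsg.Agent.Lib.H18.Nilp
import Cfsg.Agent.Lib.H05.Transfer
import Cfsg.Statements.S0079
-- import your own Cfsg.Agent.* helpers here

set_option autoImplicit false
open Cfsg

namespace Cfsg.Agent.S0079

/-- The `p`-complement step. -/
theorem step {G : Type*} [Group G] [Finite G] (H : Subgroup G) (hH : Group.IsNilpotent H)
    (hHall : Nat.Coprime (Nat.card H) H.index)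
    (hf : ∀ x ∈ H, ∀ y ∈ H, (∃ g : G, g * x * g⁻¹ = y) → ∃ h ∈ H, h * x * h⁻¹ = y)
    (p : ℕ) (hp : p.Prime) (hd : p ∣ Nat.card H) :
    ∃ K : Subgroup G, K.Normal ∧ K.index = p ^ (Nat.card H).factorization p ∧ ¬ p ∣ Nat.card K := by
  classical
  haveI : Fact p.Prime := ⟨hp⟩
  let P₀ : Sylow p H := default
  have hP₀n : (P₀ : Subgroup H).Normal := by
    haveI := hH
    infer_instance
  have hpi : ¬ p ∣ H.index := fun h => by
    have := Nat.dvd_gcd hd h
    rw [hHall] at this
    exact hp.one_lt.ne' (Nat.dvd_one.mp this)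
  have hP'p : IsPGroup p ((P₀ : Subgroup H).map H.subtype) := P₀.isPGroup'.map H.subtype
  have hP'i : ¬ p ∣ ((P₀ : Subgroup H).map H.subtype).index := by
    rw [Subgroup.index_map_subtype]
    intro h
    rcases (Nat.Prime.dvd_mul hp).mp h with h | h
    · exact P₀.not_dvd_index h
    · exact hpi h
  let S : Sylow p G := hP'p.toSylow hP'i
  have hS : (S : Subgroup G) = (P₀ : Subgroup H).map H.subtype := rfl
  have hSH : (S : Subgroup G) ≤ H := by
    rw [hS]; exact Subgroup.map_subtype_le _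
  have hcompl : Cfsg.HasNormalPComplement p G := by
    apply Cfsg.Agent.H01.hasNormalPComplement_of_fusion S
    intro x hx u hu
    obtain ⟨h, hhH, he⟩ := hf x (hSH hx) _ (hSH hu) ⟨u, rfl⟩
    obtain ⟨h₁, h₂, hh₁, hh₂, hdec, ⟨k, hk⟩, hcop⟩ := Cfsg.Agent.H05.exists_pow_decomp h hp
    have hh₁H : h₁ ∈ H := (Subgroup.zpowers_le.mpr hhH) hh₁
    have hh₂H : h₂ ∈ H := (Subgroup.zpowers_le.mpr hhH) hh₂
    have hh₁S : h₁ ∈ (S : Subgroup G) := by
      rw [hS]
      refine ⟨⟨h₁, hh₁H⟩, ?_, rfl⟩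
      have hU : IsPGroup p (Subgroup.zpowers (⟨h₁, hh₁H⟩ : H)) := by
        rw [IsPGroup.iff_card]
        refine ⟨(orderOf (⟨h₁, hh₁H⟩ : H)).factorization p, ?_⟩
        rw [Nat.card_zpowers]
        have h1 : orderOf (⟨h₁, hh₁H⟩ : H) ∣ p ^ k := orderOf_dvd_of_pow_eq_one (Subtype.ext (by simpa using hk))
        obtain ⟨j, -, hj⟩ := (Nat.dvd_prime_pow hp).mp h1
        rw [hj, hp.factorization_pow]
        simp
      exact Cfsg.Agent.H18.le_of_isPGroup_of_normal_sylow P₀ hP₀n hU (Subgroup.mem_zpowers _)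
    -- `h₂` commutes with `x`
    have hxH : x ∈ H := hSH hx
    have hcomm : Commute h₂ x := by
      haveI := hH
      have hc := Cfsg.Agent.H18.commute_of_coprime_orderOf H (⟨h₂, hh₂H⟩ : H) (⟨x, hxH⟩ : H) (by
        have h1 : orderOf (⟨h₂, hh₂H⟩ : H) = orderOf h₂ := by
          rw [← Subgroup.orderOf_coe]
        have h2 : orderOf (⟨x, hxH⟩ : H) = orderOf x := by
          rw [← Subgroup.orderOf_coe]
        rw [h1, h2]
        have hxp : ∃ j, orderOf x = p ^ j := by
          have h3 : orderOf (⟨x, hx⟩ : (S : Subgroup G)) ∣ Nat.card (S : Subgroup G) := orderOf_dvd_natCard _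
          obtain ⟨m, hm⟩ := IsPGroup.iff_card.mp S.isPGroup'
          rw [hm] at h3
          obtain ⟨j, -, hj⟩ := (Nat.dvd_prime_pow hp).mp h3
          refine ⟨j, ?_⟩
          rw [← hj, ← Subgroup.orderOf_coe]
        obtain ⟨j, hj⟩ := hxp
        rw [hj]
        exact Nat.Coprime.pow_right j hcop)
      exact Subtype.ext_iff.mp hc
    refine ⟨h₁, hh₁S, ?_⟩
    rw [← he, hdec]
    have : h₂ * x * h₂⁻¹ = x := by rw [hcomm.eq]; group
    calc h₁ * x * h₁⁻¹ = h₁ * (h₂ * x * h₂⁻¹) * h₁⁻¹ := by rw [this]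
      _ = h₁ * h₂ * x * (h₁ * h₂)⁻¹ := by group
  obtain ⟨S₁, K, hKn, hK⟩ := hcompl
  refine ⟨K, hKn, ?_, Cfsg.Agent.H01.not_dvd_card_of_complement S₁ hK⟩
  have h1 : K.index = Nat.card (S₁ : Subgroup G) := by
    have h2 := hK.card_mul
    have h3 := K.card_mul_index
    have h4 : 0 < Nat.card K := Nat.card_pos
    exact Nat.eq_of_mul_eq_mul_left h4 (h3.trans h2.symm)
  have h5 : (Nat.card G).factorization p = (Nat.card H).factorization p := by
    rw [← H.card_mul_index, Nat.factorization_mul Nat.card_pos.ne' Subgroup.index_ne_zero_of_finite]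
    simp [Nat.factorization_eq_zero_of_not_dvd hpi]
  rw [h1, S₁.card_eq_multiplicity, h5]

/-- A nilpotent Hall subgroup has a normal complement exactly when elements of it that are conjugate in the whole group are already conjugate inside it. -/
theorem result {G : Type*} [Group G] [Finite G] (H : Subgroup G) (hH : Group.IsNilpotent H) (hHall : Nat.Coprime (Nat.card H) H.index) : (∃ N : Subgroup G, N.Normal ∧ N.IsComplement' H) ↔ ∀ x ∈ H, ∀ y ∈ H, (∃ g : G, g * x * g⁻¹ = y) → ∃ h ∈ H, h * x * h⁻¹ = y := by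

  classical
  constructor
  · rintro ⟨N, hNn, hc⟩ x hx y hy ⟨g, rfl⟩
    haveI := hNn
    have hg : g ∈ N ⊔ H := by rw [hc.sup_eq_top]; trivial
    rw [Subgroup.mem_sup_of_normal_left] at hg
    obtain ⟨n, hn, h, hh, rfl⟩ := hg
    refine ⟨h, hh, ?_⟩
    have hy' : h * x * h⁻¹ ∈ H := mul_mem (mul_mem hh hx) (inv_mem hh)
    set y' := h * x * h⁻¹ with hy'def
    have h1 : n * h * x * (n * h)⁻¹ = n * y' * n⁻¹ := by rw [hy'def]; group
    rw [h1] at hy ⊢
    have h2 : n * y' * n⁻¹ * y'⁻¹ ∈ N ⊓ H := by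
      refine ⟨?_, H.mul_mem hy (H.inv_mem hy')⟩
      have : n * y' * n⁻¹ * y'⁻¹ = n * (y' * n⁻¹ * y'⁻¹) := by group
      rw [this]
      exact mul_mem hn (hNn.conj_mem _ (inv_mem hn) _)
    rw [hc.disjoint.eq_bot, Subgroup.mem_bot] at h2
    exact (mul_inv_eq_one.mp h2).symm
  · intro hf
    have hK := step H hH hHall hf
    have hK' : ∀ p : (Nat.card H).primeFactors, ∃ K : Subgroup G, K.Normal ∧
        K.index = (p : ℕ) ^ (Nat.card H).factorization p ∧ ¬ (p : ℕ) ∣ Nat.card K := by
      intro p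
      exact hK p (Nat.prime_of_mem_primeFactors p.2) (Nat.dvd_of_mem_primeFactors p.2)
    choose K hKn hKi hKc using hK'
    let N : Subgroup G := ⨅ p, K p
    have hNn : N.Normal := by
      constructor
      intro n hn g
      rw [Subgroup.mem_iInf] at hn ⊢
      intro p
      exact (hKn p).conj_mem _ (hn p) g
    refine ⟨N, hNn, ?_⟩
    have hdisj : Disjoint N H := by
      rw [Subgroup.disjoint_def]
      intro x hxN hxH
      by_contra hx
      have h1 : orderOf x ≠ 1 := fun h => hx (orderOf_eq_one_iff.mp h)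
      obtain ⟨q, hq, hqd⟩ := Nat.exists_prime_and_dvd h1
      have h2 : orderOf x ∣ Nat.card H := Subgroup.orderOf_dvd_natCard H hxH
      have h3 : q ∈ (Nat.card H).primeFactors :=
        Nat.mem_primeFactors.mpr ⟨hq, hqd.trans h2, Nat.card_pos.ne'⟩
      have h4 : x ∈ K ⟨q, h3⟩ := (Subgroup.mem_iInf.mp hxN) ⟨q, h3⟩
      exact hKc ⟨q, h3⟩ (hqd.trans (Subgroup.orderOf_dvd_natCard _ h4))
    have hidx : N.index ≤ Nat.card H := by
      have h1 := Subgroup.index_iInf_le K
      have h2 : ∏ p, (K p).index = Nat.card H := by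
        simp_rw [hKi]
        rw [Finset.prod_coe_sort (Nat.card H).primeFactors (fun p => p ^ (Nat.card H).factorization p)]
        conv_rhs => rw [← Nat.factorization_prod_pow_eq_self (Nat.card_pos (α := H)).ne']
        rfl
      rw [h2] at h1
      exact h1
    have hidx2 : Nat.card H ≤ N.index := by
      have h1 := Subgroup.relIndex_dvd_index_of_normal N H
      have h2 : N.relIndex H = Nat.card H := by
        rw [Subgroup.relIndex, ]
        have : N.subgroupOf H = ⊥ := by
          rw [eq_bot_iff]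
          intro x hx
          have := Subgroup.disjoint_def.mp hdisj hx x.2
          simpa using this
        rw [this, Subgroup.index_bot]
      rw [h2] at h1
      exact Nat.le_of_dvd (Nat.pos_of_ne_zero (Subgroup.index_ne_zero_of_finite)) h1
    have hcard : Nat.card N * Nat.card H = Nat.card G := by
      rw [← le_antisymm hidx hidx2, N.card_mul_index]
    exact Subgroup.isComplement'_of_card_mul_and_disjoint hcard hdisj


end Cfsg.Agent.S0079
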