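import Mathlib
import Cfsg.Agent.Lib.H01.Fusion
import Cfsg.Agent.Lib.H01.Tate2
import Cfsg.Agent.Lib.H13.Residual
import Cfsg.Statements.S0082
-- import your own Cfsg.Agent.* helpers here

set_option autoImplicit false
open Cfsg

namespace Cfsg.Agent.S0082


/-- With a cyclic Sylow p-subgroup, either there is a normal p-complement or the elements of order prime to p generate the whole group. -/
theorem result {G : Type*} [Group G] [Finite G] {p : ℕ} [Fact p.Prime] (P : Sylow p G) (hP : IsCyclic P) : Cfsg.HasNormalPComplement p G ∨ Cfsg.pResidual p G = ⊤ := by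
  classical
  by_cases hN : Cfsg.pResidual p G = ⊤
  · exact Or.inr hN
  left
  set N := Cfsg.pResidual p G with hNdef
  haveI hNn : N.Normal := Cfsg.Agent.H13.pResidual_normal' 
  have hM : N.subgroupOf (P : Subgroup G) ≠ ⊤ := by
    intro hM
    apply hN
    have h1 : (P : Subgroup G) ≤ N := Subgroup.subgroupOf_eq_top.mp hM
    have h2 := Cfsg.Agent.H13.sylow_sup_pResidual P
    rw [sup_eq_right.mpr h1] at h2
    exact h2
  have hle := Cfsg.Agent.H01.le_frattini_of_cyclic (p := p) P.isPGroup' hM
  have hΦ : N ⊓ (P : Subgroup G) ≤ (frattini P).map (P : Subgroup G).subtype := by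
    intro x hx
    refine ⟨⟨x, hx.2⟩, ?_, rfl⟩
    apply hle
    exact hx.1
  have hc := Cfsg.Agent.H01.tate_main P _ N hNn rfl hΦ
  exact Cfsg.Agent.H01.hasNormalPComplement_of_quotient N hNn Cfsg.Agent.H13.isPGroup_quotient_pResidual hc


end Cfsg.Agent.S0082
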