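import Mathlib
import Cfsg.Agent.Lib.H01.NormalComp
import Cfsg.Statements.S0083
-- import your own Cfsg.Agent.* helpers here

set_option autoImplicit false
open Cfsg

namespace Cfsg.Agent.S0083

open scoped commutatorElement

/-- For an abelian Sylow p-subgroup P, a normal p-complement exists exactly when the normalizer of P is an internal direct product of P with some subgroup. -/
theorem result {G : Type*} [Group G] [Finite G] {p : ℕ} [Fact p.Prime] (P : Sylow p G) (hP : IsMulCommutative P) : Cfsg.HasNormalPComplement p G ↔ ∃ Q : Subgroup G, Q ≤ Subgroup.centralizer (P : Set G) ∧ Q ⊓ (P : Subgroup G) = ⊥ ∧ Q ⊔ (P : Subgroup G) = Subgroup.normalizer (P : Set G) := by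

  have hPc : ∀ a ∈ (P : Subgroup G), ∀ b ∈ (P : Subgroup G), a * b = b * a := fun a ha b hb =>
    congrArg Subtype.val (hP.is_comm.comm ⟨a, ha⟩ ⟨b, hb⟩)
  constructor
  · rintro ⟨P₀, L, hL, hc⟩
    have hcP : L.IsComplement' (P : Subgroup G) := Cfsg.Agent.H01.complement_of_any_sylow P₀ P hc
    refine ⟨L ⊓ Subgroup.normalizer (P : Set G), ?_, ?_, ?_⟩
    · rintro q ⟨hqL, hqN⟩
      rw [Subgroup.mem_centralizer_iff]
      intro x hx
      have hc1 : ⁅q, x⁆ ∈ L := by
        have e : ⁅q, x⁆ = q * (x * q⁻¹ * x⁻¹) := by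
          rw [commutatorElement_def]; group
        rw [e]
        exact L.mul_mem hqL (hL.conj_mem _ (L.inv_mem hqL) x)
      have hc2 : ⁅q, x⁆ ∈ (P : Subgroup G) := by
        have e : ⁅q, x⁆ = (q * x * q⁻¹) * x⁻¹ := by
          rw [commutatorElement_def]
        rw [e]
        exact Subgroup.mul_mem _ ((Subgroup.mem_normalizer_iff.mp hqN _).mp hx)
          (Subgroup.inv_mem _ hx)
      have hc3 := Subgroup.disjoint_def.mp hcP.disjoint hc1 hc2
      rw [commutatorElement_eq_one_iff_mul_comm] at hc3
      exact hc3.symm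
    · rw [eq_bot_iff]
      rintro x ⟨⟨hxL, -⟩, hxP⟩
      exact Subgroup.disjoint_def.mp hcP.disjoint hxL hxP
    · apply le_antisymm
      · exact sup_le inf_le_right (Subgroup.le_normalizer)
      · intro n hn
        have hntop : n ∈ L ⊔ (P : Subgroup G) := by
          rw [hcP.sup_eq_top]; trivial
        rw [Subgroup.mem_sup_of_normal_left] at hntop
        obtain ⟨l, hl, x, hx, rfl⟩ := hntop
        have hlN : l ∈ Subgroup.normalizer (P : Set G) := by
          have : l = (l * x) * x⁻¹ := by group
          rw [this]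
          exact Subgroup.mul_mem _ hn (Subgroup.inv_mem _ (Subgroup.le_normalizer hx))
        exact Subgroup.mul_mem_sup ⟨hl, hlN⟩ hx
  · rintro ⟨Q, hQC, hQP, hQPN⟩
    have hNC : Subgroup.normalizer (P : Set G) ≤ Subgroup.centralizer (P : Set G) := by
      rw [← hQPN]
      apply sup_le hQC
      intro x hx
      rw [Subgroup.mem_centralizer_iff]
      intro y hy
      exact hPc y hy x hx
    exact ⟨P, _, MonoidHom.normal_ker _, MonoidHom.ker_transferSylow_isComplement' P hNC⟩


end Cfsg.Agent.S0083
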