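import Mathlib
import Cfsg.Agent.Lib.H01.BurnsideFix
import Cfsg.Statements.S0085
-- import your own Cfsg.Agent.* helpers here

set_option autoImplicit false
open Cfsg

namespace Cfsg.Agent.S0085


/-- A group whose Sylow 2-subgroups are elementary abelian of order 8 and whose order is prime to 3 and to 7 has a normal 2-complement. -/
theorem result {G : Type*} [Group G] [Finite G] (T : Sylow 2 G) (h8 : Nat.card T = 8) (he : ∀ x : T, x * x = 1) (h3 : ¬ 3 ∣ Nat.card G) (h7 : ¬ 7 ∣ Nat.card G) : Cfsg.HasNormalPComplement 2 G := by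

  have hc : Nat.card (T : Subgroup G) = 8 := h8
  have hab : IsMulCommutative (T : Subgroup G) := by
    constructor
    constructor
    intro a b
    have h2 : a * a = 1 := he a
    have h3 : b * b = 1 := he b
    calc a * b = a * b * (b * a) * (b * a) := by
          have h4 : (b * a) * (b * a) = 1 := he _
          rw [mul_assoc (a * b), h4, mul_one]
      _ = (a * (b * b) * a) * (b * a) := by simp only [mul_assoc]
      _ = b * a := by rw [h3, mul_one, h2, one_mul]
  apply Cfsg.Agent.H01.hasNormalPComplement_of_count T hab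
  intro r hr hr2 hrG j hj
  rw [hc] at hj ⊢
  have hj2 : j < 3 := by
    by_contra hge
    have : 2 ^ 3 ≤ 2 ^ j := Nat.pow_le_pow_right (by norm_num) (not_lt.mp hge)
    omega
  interval_cases j
  · intro h
    have : r ∣ 7 := by simpa using h
    have h3' := (Nat.prime_dvd_prime_iff_eq hr (by norm_num : Nat.Prime 7)).mp this
    exact h7 (h3' ▸ hrG)
  · intro h
    have h6 : r ∣ 2 * 3 := by simpa using h
    rcases (Nat.Prime.dvd_mul hr).mp h6 with h' | h'
    · exact hr2 ((Nat.prime_dvd_prime_iff_eq hr Nat.prime_two).mp h')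
    · have h3' := (Nat.prime_dvd_prime_iff_eq hr Nat.prime_three).mp h'
      exact h3 (h3' ▸ hrG)
  · intro h
    have h6 : r ∣ 2 ^ 2 := by simpa using h
    exact hr2 ((Nat.prime_dvd_prime_iff_eq hr Nat.prime_two).mp (hr.dvd_of_dvd_pow h6))


end Cfsg.Agent.S0085
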