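import Mathlib
import Cfsg.Agent.Lib.H01.Transfer2
import Cfsg.Statements.S0086
-- import your own Cfsg.Agent.* helpers here

set_option autoImplicit false
open Cfsg

namespace Cfsg.Agent.S0086


/-- A normal complement to a Sylow p-subgroup is exactly the set of elements of order prime to p. -/
theorem result {G : Type*} [Group G] [Finite G] {p : ℕ} [Fact p.Prime] (P : Sylow p G) (N : Subgroup G) [N.Normal] (hN : N.IsComplement' (P : Subgroup G)) (x : G) : x ∈ N ↔ Nat.Coprime (orderOf x) p := by
  have hp : p.Prime := Fact.out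
  have hc := hN.card_mul
  have hG := (P : Subgroup G).card_mul_index
  have hP0 : 0 < Nat.card (P : Subgroup G) := Nat.card_pos
  have hNcard : Nat.card N = (P : Subgroup G).index := by
    apply Nat.eq_of_mul_eq_mul_right hP0
    rw [hc, ← hG, mul_comm]
  constructor
  · intro hx
    have h1 : orderOf x ∣ Nat.card N := Subgroup.orderOf_dvd_natCard N hx
    rw [hNcard] at h1
    rw [Nat.coprime_comm, Nat.Prime.coprime_iff_not_dvd hp]
    intro h2
    exact P.not_dvd_index (h2.trans h1)
  · intro hx
    have hq : Nat.card (G ⧸ N) = Nat.card (P : Subgroup G) := by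
      have h1 := Cfsg.Agent.H01.card_quotient_mul N
      have hN0 : 0 < Nat.card N := Nat.card_pos
      apply Nat.eq_of_mul_eq_mul_right hN0
      rw [h1, ← hc, mul_comm]
    obtain ⟨k, hk⟩ := IsPGroup.iff_card.mp P.2
    have h3 : (QuotientGroup.mk' N x) ^ (p ^ k) = 1 := by
      rw [← hk, ← hq]
      exact pow_card_eq_one'
    have h4 : orderOf (QuotientGroup.mk' N x) ∣ p ^ k := orderOf_dvd_of_pow_eq_one h3
    have h5 : orderOf (QuotientGroup.mk' N x) ∣ orderOf x := orderOf_map_dvd _ _
    have h6 := Nat.eq_one_of_dvd_coprimes (hx.pow_right k) h5 h4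
    have h7 := orderOf_eq_one_iff.mp h6
    rwa [← MonoidHom.mem_ker, QuotientGroup.ker_mk'] at h7


end Cfsg.Agent.S0086
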