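import Mathlib
import Cfsg.Agent.S0079
import Cfsg.Agent.Lib.H01.SZ2
import Cfsg.Agent.Lib.H18.Syl
import Cfsg.Statements.S0087
-- import your own Cfsg.Agent.* helpers here

set_option autoImplicit false
open Cfsg

namespace Cfsg.Agent.S0087

universe u

open scoped Pointwise

open scoped IsMulCommutative in
/-- Strong induction on the order of the group. -/
theorem aux : ∀ (n : ℕ) (G : Type u) [Group G] [Finite G], Nat.card G = n → ∀ H : Subgroup G,
    Nat.Coprime (Nat.card H) H.index →
    Subgroup.normalizer (H : Set G) ≤ Subgroup.centralizer (H : Set G) →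
    ∃ N : Subgroup G, N.Normal ∧ N.IsComplement' H := by
  intro n
  induction n using Nat.strong_induction_on with
  | _ n ih =>
  intro G _ _ hn H hHall hnc
  classical
  have hcomm : ∀ a ∈ H, ∀ b ∈ H, a * b = b * a := by
    intro a ha b hb
    have h1 : a ∈ Subgroup.centralizer (H : Set G) := hnc (Subgroup.le_normalizer ha)
    exact (Subgroup.mem_centralizer_iff.mp h1 b hb).symm
  haveI hHab : IsMulCommutative H := ⟨⟨fun a b => Subtype.ext (hcomm _ a.2 _ b.2)⟩⟩
  have hnil : Group.IsNilpotent H := inferInstance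
  apply (Cfsg.Agent.S0079.result H hnil hHall).mpr
  rintro x hx y hy ⟨g, rfl⟩
  refine ⟨1, H.one_mem, ?_⟩
  simp only [one_mul, inv_one, mul_one]
  set y := g * x * g⁻¹ with hydef
  let C : Subgroup G := Subgroup.centralizer {y}
  have hmemC : ∀ {a : G}, a ∈ C ↔ a * y = y * a := by
    intro a
    show a ∈ Subgroup.centralizer {y} ↔ _
    rw [Subgroup.mem_centralizer_iff]
    simp [eq_comm]
  by_cases hC : C = ⊤
  · have hg : g ∈ C := by rw [hC]; trivial
    have h1 := hmemC.mp hg
    have h2 : g * x = y * g := by rw [hydef]; group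
    have h3 : g * x = g * y := by rw [h2, h1]
    exact mul_left_cancel h3
  -- `C` is a proper subgroup
  have hcard : Nat.card C < n := by
    rw [← hn]
    have h1 := C.card_mul_index
    have h2 : 1 < C.index := Subgroup.one_lt_index_of_ne_top hC
    have h3 : 0 < Nat.card C := Nat.card_pos
    rw [← h1]
    exact lt_mul_of_one_lt_right h3 h2
  have hHC : H ≤ C := by
    intro a ha
    exact hmemC.mpr (hcomm a ha y hy)
  let H' : Subgroup C := H.subgroupOf C
  have hcH' : Nat.card H' = Nat.card H := by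
    show Nat.card (H.subgroupOf C) = _
    rw [Cfsg.Agent.H18.card_subgroupOf, inf_eq_left.mpr hHC]
  have hiH' : H'.index ∣ H.index := by
    show (H.subgroupOf C).index ∣ H.index
    rw [← Subgroup.relIndex]
    exact ⟨C.index, (Subgroup.relIndex_mul_index hHC).symm⟩
  have hHall' : Nat.Coprime (Nat.card H') H'.index := by
    rw [hcH']
    exact Nat.Coprime.coprime_dvd_right hiH' hHall
  have hnc' : Subgroup.normalizer (H' : Set C) ≤ Subgroup.centralizer (H' : Set C) := by
    intro c hc
    rw [Subgroup.mem_normalizer_iff] at hc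
    have hcN : (c : G) ∈ Subgroup.normalizer (H : Set G) := by
      rw [Subgroup.mem_normalizer_iff]
      intro a
      constructor
      · intro ha
        have := (hc ⟨a, hHC ha⟩).mp (by exact ha)
        exact this
      · intro ha
        have ha' : (c : G) * a * (c : G)⁻¹ ∈ C := hHC ha
        have haC : a ∈ C := by
          have : a = (c : G)⁻¹ * ((c : G) * a * (c : G)⁻¹) * c := by group
          rw [this]
          exact mul_mem (mul_mem (inv_mem c.2) ha') c.2
        exact (hc ⟨a, haC⟩).mpr ha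
    have hcC := hnc hcN
    rw [Subgroup.mem_centralizer_iff]
    intro a ha
    apply Subtype.ext
    exact Subgroup.mem_centralizer_iff.mp hcC (a : G) ha
  obtain ⟨L, hLn, hL⟩ := ih _ hcard C rfl H' hHall' hnc'
  -- the conjugate of `H`
  let H₂ : Subgroup G := MulAut.conj g • H
  have hH₂C : H₂ ≤ C := by
    intro a ha
    have h1 : g⁻¹ * a * g ∈ H := Cfsg.Agent.H01.mem_conj_smul_iff.mp ha
    have h2 := hcomm _ h1 x hx
    apply hmemC.mpr
    rw [hydef]
    have h3 : a = g * (g⁻¹ * a * g) * g⁻¹ := by group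
    calc a * (g * x * g⁻¹) = g * ((g⁻¹ * a * g) * x) * g⁻¹ := by group
      _ = g * (x * (g⁻¹ * a * g)) * g⁻¹ := by rw [h2]
      _ = g * x * g⁻¹ * a := by group
  let K : Subgroup C := H₂.subgroupOf C
  have hcK : Nat.card K = Nat.card H := by
    have h1 : Nat.card K = Nat.card H₂ := by
      show Nat.card (H₂.subgroupOf C) = _
      rw [Cfsg.Agent.H18.card_subgroupOf, inf_eq_left.mpr hH₂C]
    rw [h1]
    exact Cfsg.Agent.H01.card_conj_smul g H
  have hLcard : Nat.card L = H'.index := Cfsg.Agent.H01.card_complement_eq_index hL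
  have hcop : Nat.Coprime (Nat.card L) (Nat.card H') := by
    rw [hLcard]
    exact hHall'.symm
  have hcK' : L.IsComplement' K := by
    apply Subgroup.isComplement'_of_coprime
    · rw [hcK, ← hcH']
      exact hL.card_mul
    · rw [hcK, ← hcH']
      exact hcop
  have hLi : L.index = Nat.card H' := by
    have h2 := hL.card_mul
    have h3 := L.card_mul_index
    have h4 : 0 < Nat.card L := Nat.card_pos
    exact Nat.eq_of_mul_eq_mul_left h4 (h3.trans h2.symm)
  haveI : IsMulCommutative H' := ⟨⟨fun a b => Subtype.ext (Subtype.ext (hcomm _ a.2 _ b.2))⟩⟩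
  obtain ⟨c, hc⟩ := Cfsg.Agent.H01.sz_conj_solvable_complement _ C rfl L
    (by rw [hLi]; exact hcop) H' K hL hcK' inferInstance
  -- `t = g⁻¹ c` normalizes `H`
  have ht : g⁻¹ * (c : G) ∈ Subgroup.normalizer (H : Set G) := by
    rw [Subgroup.mem_normalizer_iff]
    intro a
    have hforward : ∀ a ∈ H, g⁻¹ * (c : G) * a * (g⁻¹ * (c : G))⁻¹ ∈ H := by
      intro a ha
      have h1 : c * ⟨a, hHC ha⟩ * c⁻¹ ∈ MulAut.conj c • H' :=
        Cfsg.Agent.H01.conj_mem_conj_smul (g := c) (x := ⟨a, hHC ha⟩) (H := H') ha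
      rw [hc] at h1
      have h2 : (c : G) * a * (c : G)⁻¹ ∈ H₂ := h1
      have h3 := Cfsg.Agent.H01.mem_conj_smul_iff.mp h2
      have e : g⁻¹ * (c : G) * a * (g⁻¹ * (c : G))⁻¹ = g⁻¹ * ((c : G) * a * (c : G)⁻¹) * g := by group
      rw [e]
      exact h3
    constructor
    · exact hforward a
    · intro ha
      have hs : ∀ b ∈ H₂, b ∈ C := fun b hb => hH₂C hb
      have h1 : g * (g⁻¹ * (c : G) * a * (g⁻¹ * (c : G))⁻¹) * g⁻¹ ∈ H₂ :=
        Cfsg.Agent.H01.conj_mem_conj_smul ha
      have h2 : (⟨_, hs _ h1⟩ : C) ∈ K := h1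
      rw [← hc] at h2
      have h3 := Cfsg.Agent.H01.mem_conj_smul_iff.mp h2
      have h4 : ((c⁻¹ * ⟨_, hs _ h1⟩ * c : C) : G) ∈ H := h3
      have e : ((c⁻¹ * ⟨_, hs _ h1⟩ * c : C) : G) = a := by
        show (c : G)⁻¹ * (g * (g⁻¹ * (c : G) * a * (g⁻¹ * (c : G))⁻¹) * g⁻¹) * c = a
        group
      rw [e] at h4
      exact h4
  have hcen := hnc ht
  have hcomm2 := Subgroup.mem_centralizer_iff.mp hcen x hx
  -- conclude
  have h5 : (c : G) * x * (c : G)⁻¹ = y := by
    rw [hydef]
    have h6 : (c : G) * x = g * x * g⁻¹ * c := by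
      have : g * (x * (g⁻¹ * (c : G))) = g * ((g⁻¹ * (c : G)) * x) := by rw [hcomm2]
      calc (c : G) * x = g * ((g⁻¹ * (c : G)) * x) := by group
        _ = g * (x * (g⁻¹ * (c : G))) := this.symm
        _ = g * x * g⁻¹ * c := by group
    rw [h6]; group
  have h7 := hmemC.mp c.2
  have h8 : (c : G) * x = (c : G) * y := by
    rw [h7, ← h5]; group
  exact mul_left_cancel h8

/-- A Hall subgroup that is central in its normalizer has a normal complement. -/
theorem result {G : Type*} [Group G] [Finite G] (H : Subgroup G) (hHall : Nat.Coprime (Nat.card H) H.index) (h : Subgroup.normalizer (H : Set G) ≤ Subgroup.centralizer (H : Set G)) : ∃ N : Subgroup G, N.Normal ∧ N.IsComplement' H := by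

  exact aux _ G rfl H hHall h


end Cfsg.Agent.S0087
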