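import Mathlib
import Cfsg.Agent.Lib.H01.Transfer2
import Cfsg.Statements.S0089
-- import your own Cfsg.Agent.* helpers here

set_option autoImplicit false
open Cfsg

namespace Cfsg.Agent.S0089


/-- When all Sylow subgroups are abelian, the derived subgroup meets the centre trivially. -/
theorem result {G : Type*} [Group G] [Finite G] (h : ∀ p : ℕ, p.Prime → ∀ P : Sylow p G, IsMulCommutative P) : commutator G ⊓ Subgroup.center G = ⊥ := by
  exact Cfsg.Agent.H01.commutator_inf_center_of_abelian_sylows h


end Cfsg.Agent.S0089
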