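import Mathlib
import Cfsg.Agent.Lib.H01.Transfer
import Cfsg.Statements.S0091
-- import your own Cfsg.Agent.* helpers here

set_option autoImplicit false
open Cfsg

namespace Cfsg.Agent.S0091
open scoped commutatorElement


/-- If a nontrivial Sylow p-subgroup controls its own fusion then it is not contained in the derived subgroup. -/
theorem result {G : Type*} [Group G] [Finite G] {p : ℕ} [Fact p.Prime] (P : Sylow p G) (hp : p ∣ Nat.card G) (h : ∀ x ∈ P, ∀ y ∈ P, (∃ g : G, g * x * g⁻¹ = y) → ∃ z ∈ P, z * x * z⁻¹ = y) : ¬ (P : Subgroup G) ≤ commutator G := by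
  intro hle
  -- focal subgroup is the commutator subgroup of `P`
  have hfoc : (P : Subgroup G).focalSubgroup ≤ ⁅(P : Subgroup G), (P : Subgroup G)⁆ := by
    apply Cfsg.Agent.H01.focal_le_of
    intro x hx u hu
    obtain ⟨z, hz, hzz⟩ := h x hx _ hu ⟨u, rfl⟩
    rw [← hzz]
    have e : x⁻¹ * (z * x * z⁻¹) = ⁅x⁻¹, z⁆ := by
      rw [commutatorElement_def]; group
    rw [e]
    exact Subgroup.commutator_mem_commutator (P.inv_mem hx) hz
  have h1 := Subgroup.commutator_inf_eq_focalSubgroup P
  have h2 : commutator G ⊓ (P : Subgroup G) = P := inf_eq_right.mpr hle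
  rw [h2] at h1
  rw [← h1] at hfoc
  -- `P` is perfect: impossible for a nontrivial `p`-group
  have hcomm : commutator (P : Subgroup G) = ⊤ := by
    rw [eq_top_iff]
    rintro ⟨x, hx⟩ -
    have := hfoc hx
    rw [← Subgroup.map_subtype_commutator] at this
    obtain ⟨y, hy, hyx⟩ := this
    have : y = ⟨x, hx⟩ := Subtype.ext hyx
    rw [← this]
    exact hy
  have hnt : Nontrivial P := by
    have hcard := P.card_eq_multiplicity
    have h3 : (Nat.card G).factorization p ≠ 0 := by
      have hne : Nat.card G ≠ 0 := Nat.card_pos.ne'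
      exact (Fact.out : p.Prime).factorization_pos_of_dvd hne hp |>.ne'
    rw [← Finite.one_lt_card_iff_nontrivial, hcard]
    exact Nat.one_lt_pow h3 (Fact.out : p.Prime).one_lt
  have hnil : Group.IsNilpotent (P : Subgroup G) := P.2.isNilpotent
  have hsolv : Group.IsSolvable (P : Subgroup G) := inferInstance
  have h5 := Cfsg.Agent.H01.commutator_subgroup_ne_self (N := (⊤ : Subgroup (P : Subgroup G)))
    (by
      exact solvable_of_solvable_injective (f := Subgroup.subtype ⊤) (Subgroup.subtype_injective ⊤))
    (by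
      exact top_ne_bot)
  apply h5
  exact hcomm


end Cfsg.Agent.S0091
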