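import Mathlib
import Cfsg.Agent.Lib.H01.SplitResidual
import Cfsg.Statements.S0092
-- import your own Cfsg.Agent.* helpers here

set_option autoImplicit false
open Cfsg

namespace Cfsg.Agent.S0092

/-- `O^p(O^p(G)) = O^p(G)`. -/
theorem residual_top {G : Type*} [Group G] [Finite G] (p : ℕ) [Fact p.Prime] :
    Cfsg.pResidual p (Cfsg.pResidual p G) = ⊤ := by
  classical
  rw [eq_top_iff]
  rintro ⟨x, hx⟩ -
  have h1 : ∀ x, x ∈ Subgroup.closure {g : G | Nat.Coprime (orderOf g) p} →
      ∃ hx : x ∈ Cfsg.pResidual p G, (⟨x, hx⟩ : Cfsg.pResidual p G) ∈ Cfsg.pResidual p (Cfsg.pResidual p G) := by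
    intro x hx
    induction hx using Subgroup.closure_induction with
    | mem y hy =>
      have hyN : y ∈ Cfsg.pResidual p G := Subgroup.subset_closure hy
      refine ⟨hyN, Subgroup.subset_closure ?_⟩
      show Nat.Coprime (orderOf _) p
      rw [← Subgroup.orderOf_coe]
      exact hy
    | one => exact ⟨one_mem _, one_mem _⟩
    | mul a b _ _ iha ihb =>
      obtain ⟨ha, ha'⟩ := iha
      obtain ⟨hb, hb'⟩ := ihb
      exact ⟨mul_mem ha hb, mul_mem ha' hb'⟩
    | inv a _ iha =>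
      obtain ⟨ha, ha'⟩ := iha
      exact ⟨inv_mem ha, inv_mem ha'⟩
  obtain ⟨_, h2⟩ := h1 x hx
  exact h2

/-- If the Sylow p-subgroups of O^p(G) are abelian then G splits over O^p(G). -/
theorem result {G : Type*} [Group G] [Finite G] {p : ℕ} [Fact p.Prime] (h : ∀ Q : Sylow p (Cfsg.pResidual p G), IsMulCommutative Q) : ∃ K : Subgroup G, K.IsComplement' (Cfsg.pResidual p G) := by

  classical
  have hpr : p.Prime := Fact.out
  set N := Cfsg.pResidual p G with hNdef
  haveI hNn : N.Normal := Cfsg.Agent.H13.pResidual_normal'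
  have htop : Cfsg.pResidual p N = ⊤ := residual_top p
  let Q₀ : Sylow p N := default
  haveI hQ₀ab : IsMulCommutative (Q₀ : Subgroup N) := h Q₀
  -- `Q₀` has no central part in its normalizer
  have hker : ∀ a ∈ (Q₀ : Subgroup N),
      (∀ u ∈ Subgroup.normalizer ((Q₀ : Subgroup N) : Set N), a * u = u * a) → a = 1 := by
    intro a ha hu
    have h1 := (Cfsg.Agent.H01.abelian_sylow_decomp Q₀).1
    have h2 := Cfsg.Agent.H01.inf_pResidual_abelian_sylow Q₀
    rw [htop, inf_top_eq] at h2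
    have h2' : (Q₀ : Subgroup N) = ⁅(Q₀ : Subgroup N), Subgroup.normalizer ((Q₀ : Subgroup N) : Set N)⁆ := h2
    rw [← h2'] at h1
    have h3 : a ∈ ((Q₀ : Subgroup N) ⊓ Subgroup.centralizer (Subgroup.normalizer ((Q₀ : Subgroup N) : Set N) : Set N)) ⊓ (Q₀ : Subgroup N) := by
      refine ⟨⟨ha, ?_⟩, ha⟩
      show a ∈ Subgroup.centralizer _
      rw [Subgroup.mem_centralizer_iff]
      intro u hu'
      exact (hu u hu').symm
    rw [h1] at h3
    exact h3
  let Q' : Subgroup G := (Q₀ : Subgroup N).map N.subtype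
  let M : Subgroup G := Subgroup.normalizer (Q' : Set G)
  have hfr : M ⊔ N = ⊤ := Sylow.normalizer_sup_eq_top Q₀
  have hQ'N : Q' ≤ N := Subgroup.map_subtype_le _
  have hQ'M : Q' ≤ M := Subgroup.le_normalizer
  let Q : Subgroup M := Q'.subgroupOf M
  let L : Subgroup M := N.subgroupOf M
  haveI hQn : Q.Normal := Subgroup.normal_in_normalizer
  haveI hLn : L.Normal := inferInstance
  have hQL : Q ≤ L := fun x hx => hQ'N hx
  have hQab : ∀ a ∈ Q, ∀ b ∈ Q, a * b = b * a := by
    rintro ⟨a, ha⟩ ⟨a₀, ha₀, ea⟩ ⟨b, hb⟩ ⟨b₀, hb₀, eb⟩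
    apply Subtype.ext
    show a * b = b * a
    have := congrArg Subtype.val (hQ₀ab.is_comm.comm ⟨a₀, ha₀⟩ ⟨b₀, hb₀⟩)
    simp only [Subgroup.coe_mul] at this
    have e1 : a = (a₀ : G) := ea.symm
    have e2 : b = (b₀ : G) := eb.symm
    rw [e1, e2]
    exact congrArg Subtype.val this
  have hcQ : Nat.card Q = Nat.card (Q₀ : Subgroup N) := by
    show Nat.card (Q'.subgroupOf M) = _
    rw [Cfsg.Agent.H18.card_subgroupOf, inf_eq_left.mpr hQ'M]
    exact Nat.card_congr ((Q₀ : Subgroup N).equivMapOfInjective _ N.subtype_injective).toEquiv.symm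
  have hQp : IsPGroup p Q := by
    rw [IsPGroup.iff_card]
    obtain ⟨k, hk⟩ := IsPGroup.iff_card.mp Q₀.isPGroup'
    exact ⟨k, by rw [hcQ, hk]⟩
  have hnd : ¬ p ∣ (Q.subgroupOf L).index := by
    intro hd
    apply Q₀.not_dvd_index
    have h1 := (Q.subgroupOf L).card_mul_index
    have h2 : Nat.card (Q.subgroupOf L) = Nat.card Q := by
      rw [Cfsg.Agent.H18.card_subgroupOf, inf_eq_left.mpr hQL]
    have h3 : Nat.card L = Nat.card (N ⊓ M : Subgroup G) := Cfsg.Agent.H18.card_subgroupOf N M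
    have h4 : Nat.card (N ⊓ M : Subgroup G) ∣ Nat.card N := Subgroup.card_dvd_of_le inf_le_left
    have h5 := (Q₀ : Subgroup N).card_mul_index
    rw [h2, hcQ, h3] at h1
    have h6 : (Q.subgroupOf L).index ∣ (Q₀ : Subgroup N).index := by
      apply Nat.dvd_of_mul_dvd_mul_left (Nat.card_pos (α := (Q₀ : Subgroup N)))
      rw [h1, h5]
      exact h4
    exact hd.trans h6
  have hC : ∀ a ∈ Q, (∀ l ∈ L, a * l = l * a) → a = 1 := by
    rintro ⟨a, ha⟩ ⟨a₀, ha₀, ea⟩ hl
    apply Subtype.ext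
    show a = 1
    have h1 := hker a₀ ha₀ (by
      intro u hu
      have hu1 : (u : G) ∈ M := by
        apply Subgroup.le_normalizer_map N.subtype
        exact ⟨u, hu, rfl⟩
      have hu2 := hl ⟨u, hu1⟩ u.2
      apply Subtype.ext
      have hu3 := congrArg Subtype.val hu2
      simp only [Subgroup.coe_mul] at hu3 ⊢
      rw [show (a₀ : G) = a from ea]
      exact hu3)
    have e : a = (a₀ : G) := ea.symm
    rw [e, h1]
    rfl
  have hML : IsPGroup p (M ⧸ L) := by
    intro y
    obtain ⟨y, rfl⟩ := QuotientGroup.mk_surjective y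
    obtain ⟨k, hk⟩ := Cfsg.Agent.H13.isPGroup_quotient_pResidual (p := p) (G := G) (QuotientGroup.mk (y : G))
    refine ⟨k, ?_⟩
    have h1 : (y : G) ^ p ^ k ∈ N := by
      rw [← QuotientGroup.eq_one_iff]
      exact hk
    show ((QuotientGroup.mk' L) y) ^ p ^ k = 1
    rw [← map_pow]
    exact (QuotientGroup.eq_one_iff _).mpr (by exact h1)
  obtain ⟨K, hKd, hKc⟩ := Cfsg.Agent.H01.exists_complement_of_abelian_core Q L hQL hQab hQp hnd hC hML
  refine ⟨K.map M.subtype, ?_⟩
  have hidx : L.index = N.index := by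
    have h1 : L.index = N.relIndex M := rfl
    rw [h1, ← Subgroup.relIndex_sup_right, hfr, Subgroup.relIndex_top_right]
  apply Subgroup.isComplement'_of_card_mul_and_disjoint
  · have h1 : Nat.card (K.map M.subtype) = Nat.card K :=
      Nat.card_congr (K.equivMapOfInjective _ M.subtype_injective).toEquiv.symm
    rw [h1, hKc, hidx, mul_comm, N.card_mul_index]
  · rw [Subgroup.disjoint_def]
    rintro _ ⟨x, hx, rfl⟩ hxN
    have := Subgroup.disjoint_def.mp hKd hx hxN
    rw [this, map_one]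


end Cfsg.Agent.S0092
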