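import Mathlib
import Cfsg.Agent.Lib.H25.Critical
import Cfsg.Agent.Lib.H01.Basic
import Cfsg.Statements.S0093
-- import your own Cfsg.Agent.* helpers here

set_option autoImplicit false
open Cfsg

namespace Cfsg.Agent.S0093

open scoped commutatorElement

/-- Every finite p-group has a critical subgroup: a characteristic subgroup H whose Frattini subgroup and whose commutator with the whole group lie in the centre of H, and whose centralizer is contained in H. -/
theorem result {P : Type*} [Group P] [Finite P] {p : ℕ} [Fact p.Prime] (hP : IsPGroup p P) : ∃ H : Subgroup P, H.Characteristic ∧ (frattini H).map H.subtype ≤ Subgroup.centralizer (H : Set P) ∧ ⁅H, (⊤ : Subgroup P)⁆ ≤ H ⊓ Subgroup.centralizer (H : Set P) ∧ Subgroup.centralizer (H : Set P) ≤ H := by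

  classical
  obtain ⟨C, hC, hmax⟩ := Cfsg.Agent.H25.exists_crit_maximal p P
  have hcent := Cfsg.Agent.H25.centralizer_le_of_maximal hP hC hmax
  refine ⟨C, hC.char, ?_, ?_, hcent⟩
  · have hle : frattini C ≤ Subgroup.center C := by
      apply Cfsg.Agent.H01.frattini_le_of_comm_pow (p := p)
      · rw [commutator_def, Subgroup.commutator_le]
        intro a _ b _
        have h1 := hC.comm a b b.2
        rw [Subgroup.mem_center_iff]
        intro g
        apply Subtype.ext
        have h2 := (Cfsg.Agent.H25.mem_zc.mp h1).2 g g.2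
        show (g : P) * (a * b * (a : P)⁻¹ * (b : P)⁻¹) = (a * b * (a : P)⁻¹ * (b : P)⁻¹) * g
        exact h2
      · intro x
        have h1 := hC.pow x x.2
        rw [Subgroup.mem_center_iff]
        intro g
        apply Subtype.ext
        have h2 := (Cfsg.Agent.H25.mem_zc.mp h1).2 g g.2
        show (g : P) * (x : P) ^ p = (x : P) ^ p * g
        exact h2
    rintro _ ⟨y, hy, rfl⟩
    have hy' := Subgroup.mem_center_iff.mp (hle hy)
    rw [Subgroup.mem_centralizer_iff]
    intro g hg
    have := hy' ⟨g, hg⟩
    exact congrArg (fun z : C => (z : P)) this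
  · rw [Subgroup.commutator_le]
    intro x hx g _
    have h1 := hC.comm g x hx
    have h2 := (Cfsg.Agent.H25.zc C).inv_mem h1
    rw [show (g * x * g⁻¹ * x⁻¹)⁻¹ = x * g * x⁻¹ * g⁻¹ by group] at h2
    rw [commutatorElement_def]
    exact Cfsg.Agent.H25.mem_zc.mp h2 |> fun ⟨h3, h4⟩ => Subgroup.mem_inf.mpr ⟨h3, Subgroup.mem_centralizer_iff.mpr h4⟩


end Cfsg.Agent.S0093
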