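import Mathlib
import Cfsg.Agent.Lib.H01.Basic
import Cfsg.Statements.S0094
-- import your own Cfsg.Agent.* helpers here

set_option autoImplicit false
open Cfsg

namespace Cfsg.Agent.S0094

open scoped commutatorElement


/-- In a special p-group every central element has order dividing p. -/
theorem result {P : Type*} [Group P] [Finite P] {p : ℕ} [Fact p.Prime] (h : Cfsg.IsSpecial p P) (z : P) (hz : z ∈ Subgroup.center P) : z ^ p = 1 := by
  classical
  obtain ⟨hP, hΦ, hC⟩ := h
  have hcentral : ∀ x : P, x ^ p ∈ Subgroup.center P := by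
    intro x
    rw [← hΦ]
    exact Cfsg.Agent.H01.pow_mem_frattini_of_isPGroup hP x
  have hcc : ∀ a b : P, ⁅a, b⁆ ∈ Subgroup.center P := by
    intro a b
    rw [← hC, commutator_def]
    exact Subgroup.commutator_mem_commutator (Subgroup.mem_top a) (Subgroup.mem_top b)
  have hgen : ∀ a b : P, (⁅a, b⁆) ^ p = 1 := by
    intro a b
    set c := ⁅a, b⁆ with hc
    have hcz := hcc a b
    have key : ∀ n : ℕ, a ^ n * b = c ^ n * b * a ^ n := by
      intro n
      induction n with
      | zero => simp
      | succ n ih =>
        have e : a * b = c * b * a := by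
          rw [hc, commutatorElement_def]; group
        have hcomm : ∀ y : P, y * c = c * y := fun y => (Subgroup.mem_center_iff.mp hcz y)
        calc a ^ (n + 1) * b = a ^ n * (a * b) := by rw [pow_succ]; group
          _ = a ^ n * (c * b * a) := by rw [e]
          _ = (a ^ n * c) * b * a := by group
          _ = (c * a ^ n) * b * a := by rw [hcomm]
          _ = c * (a ^ n * b) * a := by group
          _ = c * (c ^ n * b * a ^ n) * a := by rw [ih]
          _ = (c * c ^ n) * b * (a ^ n * a) := by group
          _ = c ^ (n + 1) * b * a ^ (n + 1) := by rw [pow_succ' c n, pow_succ a n]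
    have h1 := key p
    have h2 : a ^ p * b = b * a ^ p := (Subgroup.mem_center_iff.mp (hcentral a) b).symm
    rw [h2] at h1
    have h3 : c ^ p * (b * a ^ p) = 1 * (b * a ^ p) := by
      rw [one_mul]; rw [← mul_assoc]; exact h1.symm
    exact mul_right_cancel h3
  rw [← hC, commutator_def, Subgroup.commutator_def] at hz
  have hall : z ∈ Subgroup.center P ∧ z ^ p = 1 := by
    induction hz using Subgroup.closure_induction with
    | mem x hx =>
      obtain ⟨a, -, b, -, rfl⟩ := hx
      exact ⟨hcc a b, hgen a b⟩
    | one => simp [Subgroup.one_mem]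
    | mul x y _ _ hx hy =>
      refine ⟨mul_mem hx.1 hy.1, ?_⟩
      have hc : Commute x y := (Subgroup.mem_center_iff.mp hx.1 y).symm
      rw [hc.mul_pow, hx.2, hy.2, one_mul]
    | inv x _ hx =>
      exact ⟨inv_mem hx.1, by simp [hx.2]⟩
  exact hall.2


end Cfsg.Agent.S0094
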