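import Mathlib
import Cfsg.Agent.Lib.H13.ExtraBound2
import Cfsg.Statements.S0095
-- import your own Cfsg.Agent.* helpers here

set_option autoImplicit false
open Cfsg

namespace Cfsg.Agent.S0095

variable {G : Type*} [Group G]

open Cfsg.Agent.H13.ExtraBound in
theorem card_odd_pow [Finite G] {p : ℕ} [Fact p.Prime] {z : G}
    (z1 : z ≠ 1) (zp : z ^ p = 1) :
    ∀ (n : ℕ) (E : Subgroup G), Nat.card E = n → z ∈ E →
      (∀ x ∈ E, x * z = z * x) →
      (∀ x ∈ E, ∀ y ∈ E, x * y * x⁻¹ * y⁻¹ ∈ Subgroup.zpowers z) →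
      (∀ x ∈ E, (∀ y ∈ E, x * y = y * x) → x ∈ Subgroup.zpowers z) →
      ∃ w : ℕ, Nat.card E = p ^ (2 * w + 1) := by
  intro n
  induction n using Nat.strong_induction_on with
  | _ n ih =>
    intro E hn zE zc comm cen
    have hpr : p.Prime := Fact.out
    have hzo : orderOf z = p := orderOf_eq_prime zp z1
    by_cases hall : ∀ x ∈ E, x ∈ Subgroup.zpowers z
    · refine ⟨0, ?_⟩
      have : E = Subgroup.zpowers z := by
        apply le_antisymm
        · intro x hx; exact hall x hx
        · rw [Subgroup.zpowers_le]; exact zE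
      rw [this, Nat.card_zpowers, hzo]; simp
    · push Not at hall
      obtain ⟨a, ha, haz⟩ := hall
      have : ∃ b ∈ E, a * b ≠ b * a := by
        by_contra hcon
        push Not at hcon
        exact haz (cen a ha hcon)
      obtain ⟨b, hb, hab⟩ := this
      have hne : a * b * a⁻¹ * b⁻¹ ≠ 1 := by
        intro h1
        apply hab
        have : a * b * a⁻¹ = b := by
          rw [mul_inv_eq_one] at h1
          exact h1
        rw [mul_inv_eq_iff_eq_mul] at this
        exact this
      have hne' : b * a * b⁻¹ * a⁻¹ ≠ 1 := by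
        intro h1
        apply hab
        have : b * a * b⁻¹ = a := by
          rw [mul_inv_eq_one] at h1
          exact h1
        rw [mul_inv_eq_iff_eq_mul] at this
        exact this.symm
      obtain ⟨h1c, h1d⟩ := index_step (p := p) (K := E) (g := b) (y := a) hzo zc
        (fun x hx => comm x hx b hb) ha hne
      have hbK : b ∈ E ⊓ Subgroup.centralizer ({b} : Set G) := by
        refine Subgroup.mem_inf.2 ⟨hb, Subgroup.mem_centralizer_iff.2 ?_⟩
        intro w hw
        rw [Set.mem_singleton_iff.1 hw]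
      obtain ⟨h2c, h2d⟩ := index_step (p := p) (K := E ⊓ Subgroup.centralizer ({b} : Set G)) (g := a) (y := b) hzo
        (fun x hx => zc x (Subgroup.mem_inf.1 hx).1)
        (fun x hx => comm x (Subgroup.mem_inf.1 hx).1 a ha) hbK hne'
      have hzb : z ∈ Subgroup.centralizer ({b} : Set G) := by
        rw [Subgroup.mem_centralizer_iff]
        intro w hw
        rw [Set.mem_singleton_iff.1 hw]
        exact zc b hb
      have hza : z ∈ Subgroup.centralizer ({a} : Set G) := by
        rw [Subgroup.mem_centralizer_iff]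
        intro w hw
        rw [Set.mem_singleton_iff.1 hw]
        exact zc a ha
      have hEcard : 0 < Nat.card E := Nat.card_pos
      have hlt : Nat.card (E ⊓ Subgroup.centralizer ({b} : Set G) ⊓ Subgroup.centralizer ({a} : Set G) : Subgroup G) < n := by
        rw [← hn, h1c, h2c]
        have : 0 < Nat.card (E ⊓ Subgroup.centralizer ({b} : Set G) ⊓ Subgroup.centralizer ({a} : Set G) : Subgroup G) := Nat.card_pos
        have h2 := hpr.two_le
        nlinarith
      obtain ⟨w, hw⟩ := ih _ hlt (E ⊓ Subgroup.centralizer ({b} : Set G) ⊓ Subgroup.centralizer ({a} : Set G)) rfl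
        (Subgroup.mem_inf.2 ⟨Subgroup.mem_inf.2 ⟨zE, hzb⟩, hza⟩)
        (fun x hx => zc x (Subgroup.mem_inf.1 (Subgroup.mem_inf.1 hx).1).1)
        (fun x hx y hy => comm x (Subgroup.mem_inf.1 (Subgroup.mem_inf.1 hx).1).1 y
          (Subgroup.mem_inf.1 (Subgroup.mem_inf.1 hy).1).1)
        (by
          intro x hx hxc
          apply cen x (Subgroup.mem_inf.1 (Subgroup.mem_inf.1 hx).1).1
          intro y hy
          have hxb : x * b = b * x :=
            ((Subgroup.mem_centralizer_iff.1 (Subgroup.mem_inf.1 (Subgroup.mem_inf.1 hx).1).2) b (Set.mem_singleton b)).symm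
          have hxa : x * a = a * x :=
            ((Subgroup.mem_centralizer_iff.1 (Subgroup.mem_inf.1 hx).2) a (Set.mem_singleton a)).symm
          obtain ⟨k, hk⟩ := h1d y hy
          have hy2 : y * (a ^ k)⁻¹ ∈ E ⊓ Subgroup.centralizer ({b} : Set G) :=
            Subgroup.mem_inf.2 ⟨E.mul_mem hy (E.inv_mem (E.pow_mem ha k)), hk⟩
          obtain ⟨l, hl⟩ := h2d _ hy2
          have hy1 : y * (a ^ k)⁻¹ * (b ^ l)⁻¹ ∈ E ⊓ Subgroup.centralizer ({b} : Set G) ⊓ Subgroup.centralizer ({a} : Set G) :=
            Subgroup.mem_inf.2 ⟨Subgroup.mul_mem _ hy2 (Subgroup.inv_mem _ (Subgroup.pow_mem _ hbK l)), hl⟩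
          have hc1 := hxc _ hy1
          have hxak : Commute x (a ^ k) := (show Commute x a from hxa).pow_right k
          have hxbl : Commute x (b ^ l) := (show Commute x b from hxb).pow_right l
          have e : y = (y * (a ^ k)⁻¹ * (b ^ l)⁻¹) * (b ^ l) * (a ^ k) := by group
          rw [e]
          calc x * ((y * (a ^ k)⁻¹ * (b ^ l)⁻¹) * (b ^ l) * (a ^ k))
              = (x * (y * (a ^ k)⁻¹ * (b ^ l)⁻¹)) * (b ^ l) * (a ^ k) := by group
            _ = ((y * (a ^ k)⁻¹ * (b ^ l)⁻¹) * x) * (b ^ l) * (a ^ k) := by rw [hc1]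
            _ = (y * (a ^ k)⁻¹ * (b ^ l)⁻¹) * (x * (b ^ l)) * (a ^ k) := by group
            _ = (y * (a ^ k)⁻¹ * (b ^ l)⁻¹) * ((b ^ l) * x) * (a ^ k) := by rw [hxbl.eq]
            _ = (y * (a ^ k)⁻¹ * (b ^ l)⁻¹) * (b ^ l) * (x * (a ^ k)) := by group
            _ = (y * (a ^ k)⁻¹ * (b ^ l)⁻¹) * (b ^ l) * ((a ^ k) * x) := by rw [hxak.eq]
            _ = ((y * (a ^ k)⁻¹ * (b ^ l)⁻¹) * (b ^ l) * (a ^ k)) * x := by group)
      refine ⟨w + 1, ?_⟩
      rw [h1c, h2c, hw]
      ring

/-- The order of an extraspecial p-group is an odd power p^(2n+1) of p with n ≥ 1. -/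
theorem result {P : Type*} [Group P] [Finite P] {p : ℕ} [Fact p.Prime] (h : Cfsg.IsExtraspecial p P) : ∃ n : ℕ, 1 ≤ n ∧ Nat.card P = p ^ (2 * n + 1) := by

  classical
  obtain ⟨⟨hP, hΦ, hC⟩, hcard⟩ := h
  have hpr : p.Prime := Fact.out
  -- a generator of the centre
  have hne : Nontrivial (Subgroup.center P) := by
    apply Finite.one_lt_card_iff_nontrivial.mp
    rw [hcard]; exact hpr.one_lt
  obtain ⟨z', hz'⟩ := exists_ne (1 : Subgroup.center P)
  set z : P := (z' : P) with hzdef
  have hz1 : z ≠ 1 := fun h => hz' (Subtype.ext h)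
  have hzp : z ^ p = 1 := by
    have : z' ^ p = 1 := by
      rw [← hcard]; exact pow_card_eq_one'
    exact congrArg Subtype.val this
  have hzo : orderOf z = p := orderOf_eq_prime hzp hz1
  have hzcen : z ∈ Subgroup.center P := z'.2
  have hcz : Subgroup.center P = Subgroup.zpowers z := by
    symm
    apply Subgroup.eq_of_le_of_card_ge
    · rw [Subgroup.zpowers_le]; exact hzcen
    · rw [hcard, Nat.card_zpowers, hzo]
  have hall := card_odd_pow (G := P) hz1 hzp _ ⊤ rfl (Subgroup.mem_top z)
    (fun x _ => (Subgroup.mem_center_iff.mp hzcen x))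
    (fun x _ y _ => by
      rw [← hcz, ← hC, commutator_def]
      have := Subgroup.commutator_mem_commutator (Subgroup.mem_top x) (Subgroup.mem_top y)
      rwa [commutatorElement_def] at this)
    (fun x _ hx => by
      rw [← hcz, Subgroup.mem_center_iff]
      intro y
      exact (hx y (Subgroup.mem_top y)).symm)
  obtain ⟨w, hw⟩ := hall
  rw [Subgroup.card_top] at hw
  rcases w with _ | w
  · -- abelian case is impossible
    exfalso
    have h1 : Nat.card P = Nat.card (Subgroup.center P) := by rw [hw, hcard]; simp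
    have h2 : Subgroup.center P = ⊤ := Subgroup.eq_top_of_card_eq _ h1.symm
    have h3 : commutator P = ⊥ := by
      rw [commutator_def, Subgroup.commutator_eq_bot_iff_le_centralizer]
      intro x _
      rw [Subgroup.mem_centralizer_iff]
      intro y _
      have : x ∈ Subgroup.center P := by rw [h2]; trivial
      exact (Subgroup.mem_center_iff.mp this y)
    rw [hC] at h3
    rw [h3] at hzcen
    exact hz1 (Subgroup.mem_bot.mp hzcen)
  · exact ⟨w + 1, by omega, hw⟩


end Cfsg.Agent.S0095
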