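import Mathlib
import Cfsg.Agent.Lib.H01.ClassThree
import Cfsg.Agent.Lib.H01.Basic
import Cfsg.Statements.S0097
-- import your own Cfsg.Agent.* helpers here

set_option autoImplicit false
open Cfsg

namespace Cfsg.Agent.S0097


/-- For odd p and E extraspecial, the subgroup generated by the elements of order dividing p has exponent dividing p and index at most p. -/
theorem result {E : Type*} [Group E] [Finite E] {p : ℕ} [Fact p.Prime] (hp : p ≠ 2) (h : Cfsg.IsExtraspecial p E) : (Subgroup.closure {x : E | x ^ p = 1}).index ≤ p ∧ ∀ g ∈ Subgroup.closure {x : E | x ^ p = 1}, g ^ p = 1 := by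

  classical
  have hpr : p.Prime := Fact.out
  obtain ⟨⟨hP, hΦ, hC⟩, hcard⟩ := h
  have hcl : ⁅commutator E, (⊤ : Subgroup E)⁆ = ⊥ := by
    rw [eq_bot_iff, Subgroup.commutator_le]
    intro a ha b _
    rw [hC] at ha
    rw [Subgroup.mem_bot, commutatorElement_eq_one_iff_commute]
    exact (Subgroup.mem_center_iff.mp ha b).symm
  have hcz : ∀ z ∈ Subgroup.center E, z ^ p = 1 := by
    intro z hz
    have : (⟨z, hz⟩ : Subgroup.center E) ^ p = 1 := by
      rw [← hcard]; exact pow_card_eq_one'
    exact congrArg Subtype.val this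
  have hmul : ∀ x y : E, (x * y) ^ p = x ^ p * y ^ p := by
    intro x y
    obtain ⟨t, h, ht⟩ := Cfsg.Agent.H01.cl3_of_class_two hcl x y
    rw [hC] at ht
    exact h.mul_pow_eq (Cfsg.Agent.H01.dvd_choose_two_of_ne hpr hp) (by simp) (by simp)
      (hcz t ht) (by simp)
  have hcen : ∀ x : E, x ^ p ∈ Subgroup.center E := by
    intro x
    rw [← hΦ]
    exact Cfsg.Agent.H01.pow_mem_frattini_of_isPGroup hP x
  let f : E →* Subgroup.center E :=
    MonoidHom.mk' (fun x => ⟨x ^ p, hcen x⟩) (fun x y => Subtype.ext (hmul x y))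
  have hker : f.ker = Subgroup.closure {x : E | x ^ p = 1} := by
    apply le_antisymm
    · intro x hx
      apply Subgroup.subset_closure
      have : f x = 1 := hx
      exact congrArg Subtype.val this
    · rw [Subgroup.closure_le]
      intro x hx
      exact Subtype.ext hx
  constructor
  · rw [← hker, Subgroup.index_ker]
    rw [← hcard]
    exact Subgroup.card_le_card_group f.range
  · intro g hg
    exact Cfsg.Agent.H01.pow_eq_one_of_mem_closure
      (fun x y hx hy => by rw [hmul, hx, hy, one_mul]) hg


end Cfsg.Agent.S0097
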