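import Mathlib
import Cfsg.Agent.Lib.H01.ExtraIso
import Cfsg.Statements.S0098
-- import your own Cfsg.Agent.* helpers here

set_option autoImplicit false
open Cfsg

namespace Cfsg.Agent.S0098


/-- For odd p, extraspecial p-groups of exponent p are determined up to isomorphism by their order. -/
theorem result {E₁ : Type*} {E₂ : Type*} [Group E₁] [Group E₂] [Finite E₁] [Finite E₂] {p : ℕ} [Fact p.Prime] (hp : p ≠ 2) (h₁ : Cfsg.IsExtraspecial p E₁) (h₂ : Cfsg.IsExtraspecial p E₂) (he₁ : Monoid.exponent E₁ = p) (he₂ : Monoid.exponent E₂ = p) (hc : Nat.card E₁ = Nat.card E₂) : Nonempty (E₁ ≃* E₂) := by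
  obtain ⟨z₁, w₁, hc₁, h₁'⟩ := Cfsg.Agent.H01.extC_of_extraspecial h₁
  obtain ⟨z₂, w₂, hc₂, h₂'⟩ := Cfsg.Agent.H01.extC_of_extraspecial h₂
  have hpr : p.Prime := Fact.out
  have hw : w₁ = w₂ := by
    rw [hc₁, hc₂] at hc
    have := Nat.pow_right_injective hpr.two_le hc
    omega
  subst hw
  obtain ⟨Γ, hΓ, -⟩ := Cfsg.Agent.H01.graph_of_exp w₁ _ _ _ _ h₁' h₂'
    (fun x _ => by
      rw [← he₁]; exact Monoid.pow_exponent_eq_one x)
    (fun x _ => by
      rw [← he₂]; exact Monoid.pow_exponent_eq_one x)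
  exact hΓ.nonempty_equiv


end Cfsg.Agent.S0098
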