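import Mathlib
import Cfsg.Agent.Lib.H01.ExtraIso
import Cfsg.Statements.S0099
-- import your own Cfsg.Agent.* helpers here

set_option autoImplicit false
open Cfsg

namespace Cfsg.Agent.S0099


/-- Among three extraspecial 2-groups of equal order, some two are isomorphic. -/
theorem result {E₁ : Type*} {E₂ : Type*} {E₃ : Type*} [Group E₁] [Group E₂] [Group E₃] [Finite E₁] [Finite E₂] [Finite E₃] (h₁ : Cfsg.IsExtraspecial 2 E₁) (h₂ : Cfsg.IsExtraspecial 2 E₂) (h₃ : Cfsg.IsExtraspecial 2 E₃) (h12 : Nat.card E₁ = Nat.card E₂) (h23 : Nat.card E₂ = Nat.card E₃) : Nonempty (E₁ ≃* E₂) ∨ Nonempty (E₂ ≃* E₃) ∨ Nonempty (E₁ ≃* E₃) := by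
  haveI : Fact (Nat.Prime 2) := ⟨Nat.prime_two⟩
  obtain ⟨z₁, w₁, hc₁, h₁'⟩ := Cfsg.Agent.H01.extC_of_extraspecial h₁
  obtain ⟨z₂, w₂, hc₂, h₂'⟩ := Cfsg.Agent.H01.extC_of_extraspecial h₂
  obtain ⟨z₃, w₃, hc₃, h₃'⟩ := Cfsg.Agent.H01.extC_of_extraspecial h₃
  have hw : w₁ = w₂ := by
    rw [hc₁, hc₂] at h12
    have := Nat.pow_right_injective (le_refl 2) h12
    omega
  have hw' : w₂ = w₃ := by
    rw [hc₂, hc₃] at h23
    have := Nat.pow_right_injective (le_refl 2) h23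
    omega
  subst hw
  subst hw'
  rcases Cfsg.Agent.H01.graph_of_three w₁ _ _ _ _ _ _ h₁' h₂' h₃' with ⟨Γ, hΓ, -⟩ | ⟨Γ, hΓ, -⟩ | ⟨Γ, hΓ, -⟩
  · exact Or.inl hΓ.nonempty_equiv
  · exact Or.inr (Or.inl hΓ.nonempty_equiv)
  · exact Or.inr (Or.inr hΓ.nonempty_equiv)


end Cfsg.Agent.S0099
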