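import Mathlib
import Cfsg.Agent.Lib.H01.OmegaApps
import Cfsg.Statements.S0100
-- import your own Cfsg.Agent.* helpers here

set_option autoImplicit false
open Cfsg

namespace Cfsg.Agent.S0100


/-- For odd p, a p-group without normal elementary abelian subgroups of order p^3 has p-rank at most 2. -/
theorem result {P : Type*} [Group P] [Finite P] {p : ℕ} [Fact p.Prime] (hp : p ≠ 2) (hP : IsPGroup p P) (h : ∀ A : Subgroup P, A.Normal → IsMulCommutative A → (∀ a ∈ A, a ^ p = 1) → Nat.card A ≠ p ^ 3) (E : Subgroup P) (hE : IsMulCommutative E) (hEe : ∀ e ∈ E, e ^ p = 1) : Nat.card E ≤ p ^ 2 := by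

  classical
  have hpr : p.Prime := Fact.out
  haveI : Group.IsNilpotent P := hP.isNilpotent
  obtain ⟨A, hAn, hAc, hAe, hmax⟩ := Cfsg.Agent.H01.exists_max_normal_elementary (G := P) (p := p)
  have hEc := Cfsg.Agent.H01.forall_of_isMulCommutative hE
  have hAp : IsPGroup p A := hP.to_subgroup A
  obtain ⟨a, ha⟩ := IsPGroup.iff_card.mp hAp
  have ha2 : a ≤ 2 := by
    by_contra hlt
    obtain ⟨D, hDA, hDn, hDc⟩ := Cfsg.Agent.H18.exists_normal_le_card_eq (G := P) hAn
      (Cfsg.Agent.H01.isMulCommutative_of_forall hAc) (d := p ^ 3)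
      (by rw [ha]; exact pow_dvd_pow p (by omega))
    exact h D hDn (Cfsg.Agent.H01.isMulCommutative_of_forall (fun x hx y hy => hAc x (hDA hx) y (hDA hy)))
      (fun x hx => hAe x (hDA hx)) hDc
  have hidx := Cfsg.Agent.H01.index_centralizer_le_choose hP a A hAn
    (Cfsg.Agent.H01.isMulCommutative_of_forall hAc) ha
  set C := Subgroup.centralizer (A : Set P) with hC
  have hEC : E ⊓ C ≤ A := by
    intro x hx
    exact Cfsg.Agent.H01.mem_of_max_normal_elementary hP hp A hAn hAc hAe hmax x
      (Subgroup.mem_inf.mp hx).2 (hEe x (Subgroup.mem_inf.mp hx).1)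
  have hidxp : C.index ≤ p := by
    refine hidx.trans ?_
    calc p ^ a.choose 2 ≤ p ^ 1 := by
          apply Nat.pow_le_pow_right hpr.pos
          interval_cases a <;> simp
      _ = p := pow_one p
  have hrel : C.relIndex E ≤ p := by
    refine le_trans ?_ hidxp
    rw [← Subgroup.relIndex_top_right]
    exact Subgroup.relIndex_le_of_le_right le_top (by
      rw [Subgroup.relIndex_top_right]; exact Subgroup.index_ne_zero_of_finite)
  have hcardE : Nat.card E = Nat.card (E ⊓ C : Subgroup P) * C.relIndex E := by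
    rw [← Subgroup.inf_relIndex_left, ← Subgroup.relIndex_bot_left, ← Subgroup.relIndex_bot_left]
    exact (Subgroup.relIndex_mul_relIndex ⊥ (E ⊓ C) E bot_le inf_le_left).symm
  by_contra hlt
  push Not at hlt
  -- `E ⊓ C = A` by orders, hence `E ≤ A`
  have hdvd : Nat.card (E ⊓ C : Subgroup P) ∣ p ^ a := by
    rw [← ha]; exact Subgroup.card_dvd_of_le hEC
  obtain ⟨j, hj, hjc⟩ := (Nat.dvd_prime_pow hpr).mp hdvd
  have hcase : a = j := by
    by_contra hne
    have hj1 : j ≤ 1 := by omega
    have : Nat.card E ≤ p ^ 1 * p := by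
      rw [hcardE, hjc]
      exact Nat.mul_le_mul (Nat.pow_le_pow_right hpr.pos hj1) hrel
    rw [pow_one, ← sq] at this
    omega
  have hAE : E ⊓ C = A := Subgroup.eq_of_le_of_card_ge hEC (by rw [ha, hjc, hcase])
  have hAle : A ≤ E := by rw [← hAE]; exact inf_le_left
  have hEC' : E ≤ C := by
    intro x hx
    rw [hC, Subgroup.mem_centralizer_iff]
    intro y hy
    exact hEc y (hAle hy) x hx
  have hEA : E ≤ A := by rw [← hAE]; exact le_inf le_rfl hEC'
  have : Nat.card E ≤ p ^ a := by rw [← ha]; exact Subgroup.card_le_of_le hEA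
  have h2 : p ^ a ≤ p ^ 2 := Nat.pow_le_pow_right hpr.pos ha2
  omega


end Cfsg.Agent.S0100
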