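import Mathlib
import Cfsg.Agent.Lib.H01.CentralExt
import Cfsg.Statements.S0102
-- import your own Cfsg.Agent.* helpers here

set_option autoImplicit false
open Cfsg

namespace Cfsg.Agent.S0102


/-- A finite perfect group with cyclic Sylow p-subgroups has no perfect central extension whose kernel has order divisible by p. -/
theorem result {G : Type*} {H : Type*} [Group G] [Group H] [Finite G] [Finite H] (hG : commutator G = ⊤) {p : ℕ} [Fact p.Prime] (hcyc : ∀ P : Sylow p G, IsCyclic P) (σ : H →* G) (hσ : Function.Surjective σ) (hz : σ.ker ≤ Subgroup.center H) (hH : commutator H = ⊤) : ¬ p ∣ Nat.card σ.ker := by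
  classical
  intro hdvd
  obtain ⟨z, hzo⟩ := exists_prime_orderOf_dvd_card' (G := σ.ker) p hdvd
  let x : H := z
  have hxo : orderOf x = p := by rw [Subgroup.orderOf_coe]; exact hzo
  have hxZ : x ∈ Subgroup.center H := hz z.2
  have hzp : IsPGroup p (Subgroup.zpowers x) := by
    apply IsPGroup.of_card (n := 1)
    rw [Nat.card_zpowers, hxo, pow_one]
  obtain ⟨P, hP⟩ := hzp.exists_le_sylow
  have hxP : x ∈ (P : Subgroup H) := hP (Subgroup.mem_zpowers x)
  -- the image of `P` in `G` is a cyclic Sylow subgroup
  let Q : Sylow p G := P.mapSurjective hσ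
  have hQ : IsCyclic Q := hcyc Q
  let f : (P : Subgroup H) →* (Q : Subgroup G) := σ.subgroupMap (P : Subgroup H)
  have hfs : Function.Surjective f := σ.subgroupMap_surjective _
  have hker : f.ker ≤ Subgroup.center (P : Subgroup H) := by
    intro u hu
    have h1 : σ (u : H) = 1 := congrArg Subtype.val hu
    have h2 : (u : H) ∈ Subgroup.center H := hz h1
    rw [Subgroup.mem_center_iff]
    intro g
    apply Subtype.ext
    exact Subgroup.mem_center_iff.mp h2 g
  have hab : ∀ a b : (P : Subgroup H), a * b = b * a := fun a b =>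
    commutative_of_cyclic_center_quotient f hker a b
  have h1 := Cfsg.Agent.H01.central_mem_commutator_sylow hH P hxZ hxP
  have h2 : commutator (P : Subgroup H) = ⊥ := by
    rw [commutator_def, Subgroup.commutator_eq_bot_iff_le_centralizer]
    intro a _ 
    rw [Subgroup.mem_centralizer_iff]
    intro b _
    exact hab b a
  rw [h2, Subgroup.mem_bot] at h1
  have h3 : x = 1 := congrArg Subtype.val h1
  rw [h3] at hxo
  simp at hxo
  exact (Fact.out : p.Prime).one_lt.ne hxo


end Cfsg.Agent.S0102
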