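import Mathlib
import Cfsg.Statements.S0103
-- import your own Cfsg.Agent.* helpers here

set_option autoImplicit false
open Cfsg

namespace Cfsg.Agent.S0103


/-- If a Sylow p-subgroup P intersects every distinct conjugate trivially, then its normalizer controls fusion in P. -/
theorem result {G : Type*} [Group G] [Finite G] {p : ℕ} [Fact p.Prime] (P : Sylow p G) (hTI : ∀ g : G, (P : Subgroup G).map (MulAut.conj g).toMonoidHom ≠ (P : Subgroup G) → (P : Subgroup G) ⊓ (P : Subgroup G).map (MulAut.conj g).toMonoidHom = ⊥) (x y : G) (hx : x ∈ P) (hy : y ∈ P) (hc : ∃ g : G, g * x * g⁻¹ = y) : ∃ n ∈ Subgroup.normalizer (P : Set G), n * x * n⁻¹ = y := by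
  obtain ⟨g, hg⟩ := hc
  by_cases hx1 : x = 1
  · refine ⟨1, one_mem _, ?_⟩
    rw [hx1] at hg ⊢
    simpa using hg
  refine ⟨g, ?_, hg⟩
  by_contra hgN
  have hne : (P : Subgroup G).map (MulAut.conj g).toMonoidHom ≠ (P : Subgroup G) := by
    intro h
    apply hgN
    show g ∈ Subgroup.normalizer ((P : Subgroup G) : Set G)
    rw [Subgroup.mem_normalizer_iff]
    intro z
    constructor
    · intro hz
      have : g * z * g⁻¹ ∈ (P : Subgroup G).map (MulAut.conj g).toMonoidHom := ⟨z, hz, rfl⟩
      rwa [h] at this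
    · intro hz
      rw [← h] at hz
      obtain ⟨w, hw, hwz⟩ := hz
      have : w = z := by
        have h1 : g * w * g⁻¹ = g * z * g⁻¹ := hwz
        simpa using h1
      rwa [← this]
  have h2 := hTI g hne
  have h3 : y ∈ (P : Subgroup G) ⊓ (P : Subgroup G).map (MulAut.conj g).toMonoidHom :=
    ⟨hy, x, hx, hg⟩
  rw [h2, Subgroup.mem_bot] at h3
  apply hx1
  rw [h3] at hg
  have : x = g⁻¹ * (g * x * g⁻¹) * g := by group
  rw [this, hg]; group


end Cfsg.Agent.S0103
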