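import Mathlib
import Cfsg.Agent.Lib.H18.PGroup
import Cfsg.Statements.S0104
-- import your own Cfsg.Agent.* helpers here

set_option autoImplicit false
open Cfsg

namespace Cfsg.Agent.S0104

open scoped Pointwise

theorem memc {G : Type*} [Group G] (Z : Subgroup G) (g y : G) :
    y ∈ Z.map (MulAut.conj g).toMonoidHom ↔ g⁻¹ * y * g ∈ Z := by
  constructor
  · rintro ⟨w, hw, rfl⟩
    have : g⁻¹ * (MulAut.conj g).toMonoidHom w * g = w := by
      simp [MulAut.conj_apply]
      group
    rw [this]; exact hw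
  · intro hy
    refine ⟨_, hy, ?_⟩
    simp [MulAut.conj_apply]
    group


/-- A subgroup Z of a Sylow p-subgroup P that is normalized by N_G(P) is weakly closed in P exactly when it is normal in every Sylow p-subgroup containing it. -/
theorem result {G : Type*} [Group G] [Finite G] {p : ℕ} [Fact p.Prime] (P : Sylow p G) (Z : Subgroup G) (hZP : Z ≤ (P : Subgroup G)) (hZN : Subgroup.normalizer (P : Set G) ≤ Subgroup.normalizer (Z : Set G)) : Cfsg.IsWeaklyClosed Z P ↔ ∀ R : Sylow p G, Z ≤ (R : Subgroup G) → (R : Subgroup G) ≤ Subgroup.normalizer (Z : Set G) := by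

  classical
  have hPZ : (P : Subgroup G) ≤ Subgroup.normalizer (Z : Set G) :=
    (Subgroup.le_normalizer).trans hZN
  constructor
  · rintro ⟨-, hwc⟩ R hZR
    obtain ⟨g, hg⟩ := MulAction.exists_smul_eq G R P
    have hgP : Z.map (MulAut.conj g).toMonoidHom ≤ (P : Subgroup G) := by
      rintro _ ⟨z, hz, rfl⟩
      rw [← hg, Sylow.coe_subgroup_smul]
      exact Subgroup.smul_mem_pointwise_smul _ _ _ (hZR hz)
    have h1 := hwc g hgP
    have hgN : g ∈ Subgroup.normalizer (Z : Set G) := by
      rw [Subgroup.mem_normalizer_iff]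
      intro y
      constructor
      · intro hy
        rw [← h1]
        exact ⟨y, hy, rfl⟩
      · intro hy
        rw [← h1, memc] at hy
        have : g⁻¹ * (g * y * g⁻¹) * g = y := by group
        rwa [this] at hy
    intro r hr
    have hr' : g * r * g⁻¹ ∈ (P : Subgroup G) := by
      rw [← hg, Sylow.coe_subgroup_smul]
      exact Subgroup.smul_mem_pointwise_smul _ _ _ hr
    have h2 := hPZ hr'
    have h3 : r = g⁻¹ * (g * r * g⁻¹) * g := by group
    rw [h3]
    exact mul_mem (mul_mem (inv_mem hgN) h2) hgN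
  · intro h
    refine ⟨hZP, ?_⟩
    intro g hg
    set Zg := Z.map (MulAut.conj g).toMonoidHom with hZg
    have hP2 : (P : Subgroup G) ≤ Subgroup.normalizer (Zg : Set G) := by
      have h1 := h (g⁻¹ • P) (by
        intro z hz
        rw [Sylow.coe_subgroup_smul, Subgroup.mem_pointwise_smul_iff_inv_smul_mem]
        have : (MulAut.conj g⁻¹)⁻¹ • z = g * z * g⁻¹ := by
          simp [MulAut.smul_def, MulAut.conj_apply, map_inv]
        rw [this]
        exact hg ⟨z, hz, rfl⟩)
      intro r hr
      rw [Subgroup.mem_normalizer_iff]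
      intro y
      rw [hZg, memc, memc]
      have hu : g⁻¹ * r * g ∈ Subgroup.normalizer (Z : Set G) := by
        apply h1
        rw [Sylow.coe_subgroup_smul, Subgroup.mem_pointwise_smul_iff_inv_smul_mem]
        have : (MulAut.conj g⁻¹)⁻¹ • (g⁻¹ * r * g) = r := by
          simp [MulAut.smul_def, MulAut.conj_apply, map_inv]
          group
        rw [this]; exact hr
      have h5 := Subgroup.mem_normalizer_iff.mp hu (g⁻¹ * y * g)
      rw [h5]
      have : g⁻¹ * r * g * (g⁻¹ * y * g) * (g⁻¹ * r * g)⁻¹ = g⁻¹ * (r * y * r⁻¹) * g := by group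
      rw [this]
    set Q := (P : Subgroup G).map (MulAut.conj g).toMonoidHom with hQ
    have hQ2 : Q ≤ Subgroup.normalizer (Zg : Set G) := by
      rintro _ ⟨u, hu, rfl⟩
      rw [Subgroup.mem_normalizer_iff]
      intro y
      rw [hZg, memc, memc]
      have h5 := Subgroup.mem_normalizer_iff.mp (hPZ hu) (g⁻¹ * y * g)
      rw [h5]
      have : g⁻¹ * ((MulAut.conj g).toMonoidHom u * y * ((MulAut.conj g).toMonoidHom u)⁻¹) * g =
          u * (g⁻¹ * y * g) * u⁻¹ := by
        simp [MulAut.conj_apply]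
        group
      rw [this]
    have hr : ¬ p ∣ (P : Subgroup G).relIndex (Subgroup.normalizer (Zg : Set G)) := by
      intro hd
      apply P.not_dvd_index
      rw [← Subgroup.relIndex_mul_index hP2]
      exact Dvd.dvd.mul_right hd _
    have hc : Nat.card Q = Nat.card (P : Subgroup G) :=
      Nat.card_congr ((P : Subgroup G).equivMapOfInjective _ (MulAut.conj g).injective).toEquiv.symm
    obtain ⟨x, hxL, hx⟩ := Cfsg.Agent.H18.exists_conj_in_of_not_dvd hP2 hQ2 P.isPGroup' (P.isPGroup'.map _) hr hc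
    have hu : x⁻¹ * g ∈ Subgroup.normalizer ((P : Subgroup G) : Set G) := by
      rw [Subgroup.mem_normalizer_iff]
      intro y
      have e1 : y ∈ (P : Subgroup G) ↔ g * y * g⁻¹ ∈ Q := by
        rw [hQ, memc]
        have : g⁻¹ * (g * y * g⁻¹) * g = y := by group
        rw [this]
      rw [e1, hx, memc]
      have : x⁻¹ * (g * y * g⁻¹) * x = x⁻¹ * g * y * (x⁻¹ * g)⁻¹ := by group
      rw [this]
    have hu2 := hZN hu
    ext y
    rw [hZg]
    have e2 : y ∈ Z.map (MulAut.conj g).toMonoidHom ↔ x * y * x⁻¹ ∈ Z.map (MulAut.conj g).toMonoidHom :=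
      Subgroup.mem_normalizer_iff.mp hxL y
    rw [e2, memc]
    have e3 := Subgroup.mem_normalizer_iff.mp (inv_mem hu2) y
    have e4 : g⁻¹ * (x * y * x⁻¹) * g = (x⁻¹ * g)⁻¹ * y * ((x⁻¹ * g)⁻¹)⁻¹ := by group
    rw [e4, ← e3]


end Cfsg.Agent.S0104
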