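import Mathlib
import Cfsg.Agent.Lib.H01.AbSylow
import Cfsg.Agent.Lib.H13.Residual
import Cfsg.Statements.S0105
-- import your own Cfsg.Agent.* helpers here

set_option autoImplicit false
open Cfsg

namespace Cfsg.Agent.S0105


/-- With an abelian Sylow p-subgroup P, some quotient of G is isomorphic to the part of P central in N_G(P). -/
theorem result {G : Type*} [Group G] [Finite G] {p : ℕ} [Fact p.Prime] (P : Sylow p G) (hP : IsMulCommutative P) : ∃ (N : Subgroup G) (hN : N.Normal), Nonempty (G ⧸ N ≃* ((P : Subgroup G) ⊓ Subgroup.centralizer (Subgroup.normalizer (P : Set G) : Set G) : Subgroup G)) := by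
  classical
  haveI hP' : IsMulCommutative (P : Subgroup G) := hP
  obtain ⟨h1, h2⟩ := Cfsg.Agent.H01.abelian_sylow_decomp P
  have h3 : (P : Subgroup G) ⊓ Cfsg.pResidual p G = ⁅(P : Subgroup G), Subgroup.normalizer ((P : Subgroup G) : Set G)⁆ :=
    Cfsg.Agent.H01.inf_pResidual_abelian_sylow P
  have h4 := Cfsg.Agent.H13.sylow_sup_pResidual P
  let O := Cfsg.pResidual p G
  haveI hO : O.Normal := Cfsg.Agent.H13.pResidual_normal'
  let D : Subgroup G := (P : Subgroup G) ⊓ Subgroup.centralizer (Subgroup.normalizer (P : Set G) : Set G)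
  let π : G →* G ⧸ O := QuotientGroup.mk' O
  have hπ : Function.Surjective π := QuotientGroup.mk'_surjective O
  have hker : ∀ z, π z = 1 ↔ z ∈ O := fun z => QuotientGroup.eq_one_iff z
  let ρ : D →* G ⧸ O := π.comp D.subtype
  have hρinj : Function.Injective ρ := by
    rw [injective_iff_map_eq_one]
    intro x hx
    have hxO : (x : G) ∈ O := (hker _).mp hx
    have hxC : (x : G) ∈ ⁅(P : Subgroup G), Subgroup.normalizer ((P : Subgroup G) : Set G)⁆ := by
      rw [← h3]
      exact ⟨x.2.1, hxO⟩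
    have : (x : G) ∈ D ⊓ ⁅(P : Subgroup G), Subgroup.normalizer ((P : Subgroup G) : Set G)⁆ := ⟨x.2, hxC⟩
    have h5 : (x : G) = 1 := by
      have h6 : D ⊓ ⁅(P : Subgroup G), Subgroup.normalizer ((P : Subgroup G) : Set G)⁆ = ⊥ := h1
      rw [h6] at this
      exact this
    exact Subtype.ext h5
  have hρsurj : Function.Surjective ρ := by
    intro q
    obtain ⟨g, rfl⟩ := hπ q
    have hg : g ∈ (P : Subgroup G) ⊔ O := by rw [h4]; trivial
    rw [Subgroup.mem_sup_of_normal_right] at hg
    obtain ⟨t, ht, o, ho, rfl⟩ := hg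
    have h5 : π t ∈ D.map π := by
      have h6 : (P : Subgroup G).map π ≤ D.map π := by
        have h7 : D ⊔ ⁅(P : Subgroup G), Subgroup.normalizer ((P : Subgroup G) : Set G)⁆ = (P : Subgroup G) := h2
        rw [← h7, Subgroup.map_sup]
        apply sup_le le_rfl
        rintro _ ⟨c, hc, rfl⟩
        have hc' : c ∈ ⁅(P : Subgroup G), Subgroup.normalizer ((P : Subgroup G) : Set G)⁆ := hc
        rw [← h3] at hc'
        have : π c = 1 := (hker c).mpr hc'.2
        rw [this]
        exact one_mem _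
      exact h6 ⟨t, ht, rfl⟩
    obtain ⟨d, hd, hde⟩ := h5
    refine ⟨⟨d, hd⟩, ?_⟩
    show π d = π (t * o)
    rw [map_mul, (hker o).mpr ho, mul_one, hde]
  exact ⟨O, hO, ⟨(MulEquiv.ofBijective ρ ⟨hρinj, hρsurj⟩).symm⟩⟩


end Cfsg.Agent.S0105
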