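import Mathlib
import Cfsg.Agent.S0111
import Cfsg.Statements.S0107
-- import your own Cfsg.Agent.* helpers here

set_option autoImplicit false
open Cfsg

namespace Cfsg.Agent.S0107

def sgn (N : ℕ) : DihedralGroup N →* Multiplicative (ZMod 2) where
  toFun x := match x with
    | DihedralGroup.r _ => 1
    | DihedralGroup.sr _ => Multiplicative.ofAdd 1
  map_one' := rfl
  map_mul' := by
    rintro (a | a) (b | b) <;> first | rfl | (simp only [DihedralGroup.r_mul_r, DihedralGroup.r_mul_sr, DihedralGroup.sr_mul_r, DihedralGroup.sr_mul_sr, mul_one, one_mul]; try rfl)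

theorem ofAdd_one_ne : (Multiplicative.ofAdd (1 : ZMod 2)) ≠ (1 : Multiplicative (ZMod 2)) := by decide

theorem rot_unique (n : ℕ) (hn : 1 ≤ n) (i : ZMod (2 ^ n))
    (hi : orderOf (DihedralGroup.r i) = 2) :
    i = ((2 ^ (n - 1) : ℕ) : ZMod (2 ^ n)) := by
  haveI : NeZero (2 ^ n) := ⟨by positivity⟩
  have h2 : (DihedralGroup.r i) ^ 2 = 1 := by
    have := pow_orderOf_eq_one (DihedralGroup.r i)
    rwa [hi] at this
  rw [DihedralGroup.r_pow, DihedralGroup.one_def] at h2
  have h2' : ((2 : ℕ) : ZMod (2 ^ n)) * i = 0 := by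
    have := DihedralGroup.r.inj h2
    simpa [mul_comm] using this
  have hne : i ≠ 0 := by
    rintro rfl
    rw [← DihedralGroup.one_def, orderOf_one] at hi
    omega
  have hv : 2 ^ n ∣ 2 * i.val := by
    have : ((2 * i.val : ℕ) : ZMod (2 ^ n)) = 0 := by
      push_cast
      rw [ZMod.natCast_zmod_val]
      exact_mod_cast h2'
    exact (ZMod.natCast_eq_zero_iff _ _).mp this
  obtain ⟨k, rfl⟩ : ∃ k, n = k + 1 := ⟨n - 1, by omega⟩
  have hv' : 2 * 2 ^ k ∣ 2 * i.val := (dvd_of_eq (pow_succ' 2 k).symm).trans hv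
  rw [Nat.mul_dvd_mul_iff_left (by norm_num)] at hv'
  have hlt : i.val < 2 * 2 ^ k := by
    calc i.val < 2 ^ (k + 1) := ZMod.val_lt i
      _ = 2 * 2 ^ k := pow_succ' 2 k
  have hne0 : i.val ≠ 0 := by
    intro h
    exact hne ((ZMod.val_eq_zero i).mp h)
  obtain ⟨c, hc⟩ := hv'
  have hc1 : c = 1 := by
    have hpos : 0 < 2 ^ k := by positivity
    rcases c with _ | _ | c
    · simp at hc; exact absurd hc hne
    · rfl
    · exfalso
      rw [hc] at hlt
      nlinarith
  have : i.val = 2 ^ k := by rw [hc, hc1, mul_one]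
  have hfin : i = ((i.val : ℕ) : ZMod (2 ^ (k + 1))) := (ZMod.natCast_zmod_val i).symm
  rw [hfin, this]
  simp

theorem not_index_two {G : Type*} [Group G] [Finite G] (hO : Cfsg.pResidual 2 G = ⊤) (M : Subgroup G)
    (hi : M.index = 2) : False := by
  have hle : Cfsg.pResidual 2 G ≤ M := by
    unfold Cfsg.pResidual
    rw [Subgroup.closure_le]
    intro g hg
    have hg' : Nat.Coprime (orderOf g) 2 := hg
    have h2 : g ^ 2 ∈ M := Subgroup.sq_mem_of_index_two hi g
    have hodd : Odd (orderOf g) := Nat.Coprime.odd_of_right hg'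
    obtain ⟨k, hk⟩ := hodd
    have : g = (g ^ 2) ^ (k + 1) := by
      rw [← pow_mul]
      have : 2 * (k + 1) = orderOf g + 1 := by omega
      rw [this, pow_succ, pow_orderOf_eq_one, one_mul]
    rw [this]
    exact Subgroup.pow_mem _ h2 _
  rw [hO, top_le_iff] at hle
  rw [hle, Subgroup.index_top] at hi
  omega

/-- A finite group with no nontrivial 2-group quotient and dihedral Sylow 2-subgroups of order at least 8 has a single class of involutions. -/
theorem result {G : Type*} [Group G] [Finite G] (T : Sylow 2 G) (n : ℕ) (hn : 2 ≤ n) (hT : Nonempty ((T : Subgroup G) ≃* DihedralGroup (2 ^ n))) (hO : Cfsg.pResidual 2 G = ⊤) (x y : G) (hx : orderOf x = 2) (hy : orderOf y = 2) : ∃ g : G, g * x * g⁻¹ = y := by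

  classical
  obtain ⟨e⟩ := hT
  haveI : Fact (Nat.Prime 2) := ⟨Nat.prime_two⟩
  have hn1 : 1 ≤ n := by omega
  let zd : DihedralGroup (2 ^ n) := DihedralGroup.r ((2 ^ (n - 1) : ℕ) : ZMod (2 ^ n))
  let z : G := ((e.symm zd : (T : Subgroup G)) : G)
  -- homomorphism on T
  let σ : (T : Subgroup G) →* Multiplicative (ZMod 2) := (sgn (2 ^ n)).comp e.toMonoidHom
  have hσ : Function.Surjective σ := by
    intro a
    have ha : a = 1 ∨ a = Multiplicative.ofAdd 1 := by
      induction a using Multiplicative.rec with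
      | ofAdd a =>
        fin_cases a
        · left; rfl
        · right; rfl
    rcases ha with rfl | rfl
    · exact ⟨1, map_one _⟩
    · refine ⟨e.symm (DihedralGroup.sr 0), ?_⟩
      simp [σ]
      rfl
  let Q : Subgroup G := σ.ker.map (T : Subgroup G).subtype
  have hQT : Q ≤ (T : Subgroup G) := by
    rintro _ ⟨x, -, rfl⟩
    exact x.2
  have hQi : Q.relIndex (T : Subgroup G) = 2 := by
    have h1 : Q.subgroupOf (T : Subgroup G) = σ.ker := Subgroup.comap_map_eq_self_of_injective (T : Subgroup G).subtype_injective _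
    rw [Subgroup.relIndex, h1, Subgroup.index_ker, MonoidHom.range_eq_top.mpr hσ]
    simp
  have hker : ∀ u : (T : Subgroup G), σ u = 1 → orderOf (u : G) = 2 → (u : G) = z := by
    intro u hu ho
    have ho' : orderOf (e u) = 2 := by
      rw [MulEquiv.orderOf_eq, ← Subgroup.orderOf_coe, ho]
    rcases hd : e u with i | i
    · rw [hd] at ho'
      have hi := rot_unique n hn1 i ho'
      have : u = e.symm zd := by
        rw [e.eq_symm_apply, hd, hi]
      rw [this]
    · exfalso
      have : σ u = Multiplicative.ofAdd 1 := by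
        show sgn (2 ^ n) (e u) = _
        rw [hd]
        rfl
      rw [this] at hu
      exact ofAdd_one_ne hu
  have hmain : ∀ w : G, orderOf w = 2 → w ∈ (T : Subgroup G) → ∃ g : G, g * w * g⁻¹ = z := by
    intro w ho hw
    by_cases hσw : σ ⟨w, hw⟩ = 1
    · exact ⟨1, by rw [one_mul, inv_one, mul_one]; exact hker ⟨w, hw⟩ hσw ho⟩
    have hwQ : w ∉ Q := by
      rintro ⟨u, hu, huw⟩
      apply hσw
      have : (⟨w, hw⟩ : (T : Subgroup G)) = u := Subtype.ext huw.symm
      rw [this]
      exact hu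
    rcases Cfsg.Agent.S0111.result T Q hQT hQi w ho hw hwQ with ⟨M, -, hMi, -⟩ | ⟨g, hg⟩
    · exact (not_index_two hO M hMi).elim
    · refine ⟨g, ?_⟩
      obtain ⟨u, hu, huw⟩ := hg
      rw [← huw]
      apply hker u hu
      have := huw
      simp only [Subgroup.coe_subtype] at this
      rw [this, ← MulAut.conj_apply, MulEquiv.orderOf_eq, ho]
  have hconj : ∀ w : G, orderOf w = 2 → ∃ g : G, g * w * g⁻¹ = z := by
    intro w ho
    have hp : IsPGroup 2 (Subgroup.zpowers w) := by
      apply IsPGroup.of_card (n := 1)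
      rw [Nat.card_zpowers, ho, pow_one]
    obtain ⟨R, hR⟩ := hp.exists_le_sylow
    obtain ⟨a, ha⟩ := MulAction.exists_smul_eq G R T
    have h1 : a * w * a⁻¹ ∈ (T : Subgroup G) := by
      have hmem : w ∈ (R : Subgroup G) := hR (Subgroup.mem_zpowers w)
      rw [← ha, Sylow.coe_subgroup_smul]
      exact Subgroup.smul_mem_pointwise_smul _ (MulAut.conj a) _ hmem
    obtain ⟨b, hb⟩ := hmain (a * w * a⁻¹) (by rw [← MulAut.conj_apply, MulEquiv.orderOf_eq, ho]) h1
    refine ⟨b * a, ?_⟩
    rw [← hb]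
    group
  obtain ⟨a, ha⟩ := hconj x hx
  obtain ⟨b, hb⟩ := hconj y hy
  refine ⟨b⁻¹ * a, ?_⟩
  have : b⁻¹ * a * x * (b⁻¹ * a)⁻¹ = b⁻¹ * (a * x * a⁻¹) * b := by group
  rw [this, ha, ← hb]
  group


end Cfsg.Agent.S0107
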