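import Mathlib
import Cfsg.Agent.Lib.H01.MaxNormal
import Cfsg.Agent.Lib.H01.OmegaCentralizer
import Cfsg.Agent.Lib.H18.Syl
import Cfsg.Statements.S0110
-- import your own Cfsg.Agent.* helpers here

set_option autoImplicit false
open Cfsg

namespace Cfsg.Agent.S0110

open scoped commutatorElement

theorem relIndex_centralizer_singleton_le {G : Type*} [Group G] [Finite G] (C₀ : Subgroup G) (b : G)
    (T : Subgroup G) (hT : ∀ g ∈ C₀, g * b * g⁻¹ * b⁻¹ ∈ T) :
    (C₀ ⊓ Subgroup.centralizer ({b} : Set G)).relIndex C₀ ≤ Nat.card T := by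
  classical
  set C := C₀ ⊓ Subgroup.centralizer ({b} : Set G) with hC
  let f : (C₀ ⧸ C.subgroupOf C₀) → T := fun q =>
    Quotient.liftOn' q (fun x : C₀ => (⟨(x : G) * b * (x : G)⁻¹ * b⁻¹, hT x x.2⟩ : T)) (by
      intro x y hxy
      apply Subtype.ext
      rw [QuotientGroup.leftRel_apply, Subgroup.mem_subgroupOf] at hxy
      have h1 : ((x : G)⁻¹ * y) ∈ C := by simpa using hxy
      have h2 : ((x : G)⁻¹ * y) * b = b * ((x : G)⁻¹ * y) := by
        have := Subgroup.mem_centralizer_iff.mp (Subgroup.mem_inf.mp h1).2 b (Set.mem_singleton b)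
        exact this.symm
      show (x : G) * b * (x : G)⁻¹ * b⁻¹ = (y : G) * b * (y : G)⁻¹ * b⁻¹
      have h3 : (x : G) * b * (x : G)⁻¹ = y * b * (y : G)⁻¹ := by
        have h4 : (y : G) * b = x * ((x : G)⁻¹ * y * b) := by group
        rw [h4, h2]
        group
      rw [h3])
  have hinj : Function.Injective f := by
    intro q₁ q₂
    induction q₁ using QuotientGroup.induction_on with
    | H x =>
      induction q₂ using QuotientGroup.induction_on with
      | H y =>
        intro h
        have h1 : (x : G) * b * (x : G)⁻¹ * b⁻¹ = (y : G) * b * (y : G)⁻¹ * b⁻¹ :=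
          congrArg Subtype.val h
        have h2 : (x : G) * b * (x : G)⁻¹ = y * b * (y : G)⁻¹ := mul_right_cancel h1
        have h3 : ((x : G)⁻¹ * y) * b = b * ((x : G)⁻¹ * y) := by
          calc ((x : G)⁻¹ * y) * b = (x : G)⁻¹ * (y * b * (y : G)⁻¹) * y := by group
            _ = (x : G)⁻¹ * ((x : G) * b * (x : G)⁻¹) * y := by rw [h2]
            _ = b * ((x : G)⁻¹ * y) := by group
        rw [QuotientGroup.eq, Subgroup.mem_subgroupOf]
        show (x : G)⁻¹ * y ∈ C
        refine Subgroup.mem_inf.mpr ⟨C₀.mul_mem (C₀.inv_mem x.2) y.2, ?_⟩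
        rw [Subgroup.mem_centralizer_iff]
        intro w hw
        rw [Set.mem_singleton_iff.mp hw]
        exact h3.symm
  exact Nat.card_le_card_of_injective f hinj


/-- In a p-group G, an extraspecial subgroup E with [G, E] ≤ Z(E) satisfies G = E C_G(E). -/
theorem result {G : Type*} [Group G] [Finite G] {p : ℕ} [Fact p.Prime] (hG : IsPGroup p G) (E : Subgroup G) (hE : Cfsg.IsExtraspecial p E) (h : ⁅(⊤ : Subgroup G), E⁆ ≤ E ⊓ Subgroup.centralizer (E : Set G)) : E ⊔ Subgroup.centralizer (E : Set G) = ⊤ := by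

  classical
  have hpr : p.Prime := Fact.out
  obtain ⟨⟨hEp, -, -⟩, hEc⟩ := hE
  set C := Subgroup.centralizer (E : Set G) with hC
  -- the commutators
  have hcomm : ∀ g : G, ∀ x ∈ E, g * x * g⁻¹ * x⁻¹ ∈ E ⊓ C := by
    intro g x hx
    have h1 : ⁅g, x⁆ ∈ ⁅(⊤ : Subgroup G), E⁆ :=
      Subgroup.commutator_mem_commutator (Subgroup.mem_top g) hx
    have h2 := h h1
    rwa [commutatorElement_def] at h2
  have hEn : E.Normal := by
    constructor
    intro x hx g
    have := E.mul_mem (hcomm g x hx).1 hx
    simpa using this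
  have hCn : C.Normal := Cfsg.Agent.H01.centralizer_normal hEn
  have hZn : (E ⊓ C).Normal := by
    haveI := hEn
    haveI := hCn
    exact Subgroup.normal_inf_normal E C
  have hZcard : Nat.card (E ⊓ C : Subgroup G) = p := by
    rw [← hEc]
    have hmap : (Subgroup.center E).map E.subtype = E ⊓ C := by
      ext x
      constructor
      · rintro ⟨y, hy, rfl⟩
        refine Subgroup.mem_inf.mpr ⟨y.2, ?_⟩
        rw [hC, Subgroup.mem_centralizer_iff]
        intro w hw
        have := Subgroup.mem_center_iff.mp hy ⟨w, hw⟩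
        exact congrArg (fun z : E => (z : G)) this
      · intro hx
        obtain ⟨hx1, hx2⟩ := Subgroup.mem_inf.mp hx
        refine ⟨⟨x, hx1⟩, ?_, rfl⟩
        rw [SetLike.mem_coe, Subgroup.mem_center_iff]
        intro w
        apply Subtype.ext
        exact Subgroup.mem_centralizer_iff.mp hx2 w w.2
    rw [← hmap]
    exact Subgroup.card_map_of_injective E.subtype_injective
  have hZ1 : E ⊓ C ≠ ⊥ := by
    intro h0
    rw [h0, Subgroup.card_bot] at hZcard
    exact hpr.one_lt.ne hZcard
  obtain ⟨z, hzZ, hz1, hzc⟩ := Cfsg.Agent.H01.exists_central_mem_normal hG hZn hZ1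
  have hZcen : ∀ y ∈ E ⊓ C, ∀ g : G, g * y = y * g := by
    have hzo : orderOf z ∣ p := by
      rw [← hZcard]
      have := orderOf_dvd_natCard (⟨z, hzZ⟩ : (E ⊓ C : Subgroup G))
      rwa [Subgroup.orderOf_mk] at this
    have hzo' : orderOf z = p := by
      rcases (Nat.dvd_prime hpr).mp hzo with h' | h'
      · exact absurd (orderOf_eq_one_iff.mp h') hz1
      · exact h'
    have heq : Subgroup.zpowers z = E ⊓ C := by
      apply Subgroup.eq_of_le_of_card_ge
      · rw [Subgroup.zpowers_le]; exact hzZ
      · rw [hZcard, Nat.card_zpowers, hzo']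
    intro y hy g
    rw [← heq] at hy
    obtain ⟨k, rfl⟩ := Subgroup.mem_zpowers_iff.mp hy
    exact ((show Commute g z from hzc g).zpow_right k).eq
  -- the family
  let 𝓑 : Set (Subgroup G) := {B | E ⊓ C ≤ B ∧ B ≤ E ∧
    (Subgroup.centralizer (B : Set G)).index * p ≤ Nat.card B}
  have hne : 𝓑.Nonempty := by
    refine ⟨E ⊓ C, le_rfl, inf_le_left, ?_⟩
    have htop : Subgroup.centralizer ((E ⊓ C : Subgroup G) : Set G) = ⊤ := by
      rw [eq_top_iff]
      intro g _
      rw [Subgroup.mem_centralizer_iff]
      intro y hy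
      exact (hZcen y hy g).symm
    rw [htop, Subgroup.index_top, one_mul, hZcard]
  obtain ⟨B, hB⟩ := 𝓑.toFinite.exists_maximal hne
  obtain ⟨hZB, hBE, hBi⟩ := hB.prop
  have hBeq : B = E := by
    by_contra hne'
    obtain ⟨x, hxE, hxB⟩ : ∃ x ∈ E, x ∉ B := by
      by_contra hcon
      push Not at hcon
      exact hne' (le_antisymm hBE hcon)
    set B' := B ⊔ Subgroup.zpowers x with hB'
    have hB'E : B' ≤ E := sup_le hBE (by rw [Subgroup.zpowers_le]; exact hxE)
    have hBB' : B ≤ B' := le_sup_left
    have hxB' : x ∈ B' := Subgroup.mem_sup_right (Subgroup.mem_zpowers x)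
    have hcent : Subgroup.centralizer (B' : Set G) =
        Subgroup.centralizer (B : Set G) ⊓ Subgroup.centralizer ({x} : Set G) := by
      apply le_antisymm
      · intro g hg
        refine Subgroup.mem_inf.mpr ⟨Subgroup.centralizer_le hBB' hg, ?_⟩
        rw [Subgroup.mem_centralizer_iff]
        intro w hw
        rw [Set.mem_singleton_iff.mp hw]
        exact Subgroup.mem_centralizer_iff.mp hg x hxB'
      · intro g hg
        obtain ⟨hg1, hg2⟩ := Subgroup.mem_inf.mp hg
        have hle : B' ≤ Subgroup.centralizer ({g} : Set G) := by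
          apply sup_le
          · intro a ha
            rw [Subgroup.mem_centralizer_iff]
            intro w hw
            rw [Set.mem_singleton_iff.mp hw]
            exact (Subgroup.mem_centralizer_iff.mp hg1 a ha).symm
          · rw [Subgroup.zpowers_le, Subgroup.mem_centralizer_iff]
            intro w hw
            rw [Set.mem_singleton_iff.mp hw]
            exact (Subgroup.mem_centralizer_iff.mp hg2 x (Set.mem_singleton x)).symm
        rw [Subgroup.mem_centralizer_iff]
        intro a ha
        exact (Subgroup.mem_centralizer_iff.mp (hle ha) g (Set.mem_singleton g)).symm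
    have hrel := relIndex_centralizer_singleton_le (Subgroup.centralizer (B : Set G)) x (E ⊓ C)
      (fun g _ => hcomm g x hxE)
    rw [hZcard, ← hcent] at hrel
    have hCC : Subgroup.centralizer (B' : Set G) ≤ Subgroup.centralizer (B : Set G) :=
      Subgroup.centralizer_le hBB'
    have hidx := Subgroup.relIndex_mul_index hCC
    obtain ⟨k, hk⟩ := Subgroup.card_dvd_of_le hBB'
    have hkp : p ≤ k := by
      have hB'p : IsPGroup p B' := hG.to_subgroup B'
      obtain ⟨m, hm⟩ := IsPGroup.iff_card.mp hB'p
      have hkd : k ∣ p ^ m := by rw [← hm, hk]; exact Dvd.intro_left _ rfl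
      obtain ⟨j, -, hj⟩ := (Nat.dvd_prime_pow hpr).mp hkd
      have hj0 : j ≠ 0 := by
        rintro rfl
        rw [pow_zero] at hj
        rw [hj, mul_one] at hk
        have : B = B' := Subgroup.eq_of_le_of_card_ge hBB' hk.le
        exact hxB (this ▸ hxB')
      rw [hj]
      exact Nat.le_self_pow hj0 p
    have hmem : B' ∈ 𝓑 := by
      refine ⟨hZB.trans hBB', hB'E, ?_⟩
      rw [← hidx, hk]
      calc (Subgroup.centralizer (B' : Set G)).relIndex (Subgroup.centralizer (B : Set G)) *
            (Subgroup.centralizer (B : Set G)).index * p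
          = (Subgroup.centralizer (B' : Set G)).relIndex (Subgroup.centralizer (B : Set G)) *
            ((Subgroup.centralizer (B : Set G)).index * p) := by ring
        _ ≤ p * Nat.card B := Nat.mul_le_mul hrel hBi
        _ ≤ k * Nat.card B := Nat.mul_le_mul_right _ hkp
        _ = Nat.card B * k := by ring
    exact hxB (hB.le_of_ge hmem hBB' hxB')
  rw [hBeq] at hBi
  haveI := hCn
  have hsup := Cfsg.Agent.H18.card_sup_mul_card_inf E C
  rw [hZcard] at hsup
  have hcardC := Subgroup.card_mul_index C
  apply Subgroup.eq_top_of_card_eq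
  apply le_antisymm (Subgroup.card_le_card_group _)
  have hp0 := hpr.pos
  have : Nat.card G * p ≤ Nat.card (E ⊔ C : Subgroup G) * p := by
    rw [hsup, ← hcardC]
    calc Nat.card C * C.index * p = Nat.card C * (C.index * p) := by ring
      _ ≤ Nat.card C * Nat.card E := Nat.mul_le_mul_left _ hBi
      _ = Nat.card E * Nat.card C := by ring
  exact Nat.le_of_mul_le_mul_right this hp0


end Cfsg.Agent.S0110
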