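import Mathlib
import Cfsg.Agent.Lib.H01.MaxClass3
import Cfsg.Statements.S0114
-- import your own Cfsg.Agent.* helpers here

set_option autoImplicit false
open Cfsg

namespace Cfsg.Agent.S0114


/-- The central quotient of a 2-group of maximal class is dihedral. -/
theorem result {X : Type*} [Group X] [Finite X] (n : ℕ) (hn : 3 ≤ n) (hX : Nat.card X = 2 ^ n) (hc : Group.nilpotencyClass X = n - 1) : Nonempty (X ⧸ Subgroup.center X ≃* DihedralGroup (2 ^ (n - 2))) := by
  classical
  obtain ⟨⟨C, hCc, hCi⟩, hZ, -⟩ := Cfsg.Agent.H01.maxclass_main n hn X hX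
    (Cfsg.Agent.H01.index_of_maxclass n hn X hX hc)
  have hnc : ∃ a b : X, a * b ≠ b * a := by
    haveI : Fact (Nat.Prime 2) := ⟨Nat.prime_two⟩
    have hp : IsPGroup 2 X := IsPGroup.of_card hX
    haveI : Group.IsNilpotent X := hp.isNilpotent
    by_contra hcon
    push Not at hcon
    have : IsMulCommutative X := ⟨⟨hcon⟩⟩
    have h2 := (Group.IsNilpotent.nilpotencyClass_le_one_iff (G := X)).mpr this
    omega
  obtain ⟨c', hc'⟩ := hCc.exists_generator
  set c : X := (c' : X) with hcdef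
  have hcC : c ∈ C := c'.2
  have hCz : C = Subgroup.zpowers c := by
    apply le_antisymm
    · intro g hg
      obtain ⟨k, hk⟩ := Subgroup.mem_zpowers_iff.mp (hc' ⟨g, hg⟩)
      refine Subgroup.mem_zpowers_iff.mpr ⟨k, ?_⟩
      have := congrArg Subtype.val hk
      simpa using this
    · rw [Subgroup.zpowers_le]
      exact hcC
  have hCcomm : ∀ a ∈ C, ∀ b ∈ C, a * b = b * a := by
    intro a ha b hb
    rw [hCz] at ha hb
    obtain ⟨i, rfl⟩ := Subgroup.mem_zpowers_iff.mp ha
    obtain ⟨j, rfl⟩ := Subgroup.mem_zpowers_iff.mp hb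
    rw [← zpow_add, ← zpow_add, add_comm]
  obtain ⟨-, hZC⟩ := Cfsg.Agent.H01.card_center_mul_card_commutator hCi hCcomm hnc
  have hCne : C ≠ ⊤ := by
    rintro rfl
    simp at hCi
  obtain ⟨x, hx⟩ : ∃ x, x ∉ C := by
    by_contra hcon
    push Not at hcon
    exact hCne (eq_top_iff.mpr fun y _ => hcon y)
  let π := QuotientGroup.mk' (Subgroup.center X)
  have hm : (2 ^ (n - 2) : ℕ) ≠ 0 := by positivity
  have hCcard : Nat.card C * 2 = 2 ^ n := by
    have := Subgroup.card_mul_index C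
    rwa [hCi, hX] at this
  have hn2 : (2 : ℕ) ^ n = 2 ^ (n - 2) * 4 := by
    obtain ⟨m, rfl⟩ : ∃ m, n = m + 3 := ⟨n - 3, by omega⟩
    have : m + 3 - 2 = m + 1 := by omega
    rw [this]
    ring
  have hord : orderOf (π c) = 2 ^ (n - 2) := by
    have h1 : (C.map π) = Subgroup.zpowers (π c) := by
      rw [hCz, MonoidHom.map_zpowers]
    have h2 := Cfsg.Agent.H19.card_map_mk_mul_card hZC
    rw [hZ] at h2
    change Nat.card (C.map π) * 2 = Nat.card C at h2
    rw [h1, Nat.card_zpowers] at h2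
    omega
  have hx2 : π x * π x = 1 := by
    rw [← map_mul]
    exact (QuotientGroup.eq_one_iff _).mpr (Cfsg.Agent.H01.sq_mem_center hCi hCcomm hx)
  have hrel : π x * π c * (π x)⁻¹ = (π c)⁻¹ := by
    have h1 : π (c * (x * c * x⁻¹)) = 1 :=
      (QuotientGroup.eq_one_iff _).mpr (Cfsg.Agent.H01.mul_conj_mem_center hCi hCcomm hx hcC)
    simp only [map_mul, map_inv] at h1
    exact eq_inv_of_mul_eq_one_right h1
  have hcardY : Nat.card (X ⧸ Subgroup.center X) = 2 * 2 ^ (n - 2) := by
    have := Subgroup.card_eq_card_quotient_mul_card_subgroup (Subgroup.center X)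
    rw [hZ, hX] at this
    omega
  have hxa : π x ∉ Subgroup.zpowers (π c) := by
    intro h
    obtain ⟨k, hk⟩ := Subgroup.mem_zpowers_iff.mp h
    apply hx
    have h1 : (c ^ k)⁻¹ * x ∈ Subgroup.center X := by
      rw [← QuotientGroup.eq_one_iff]
      change π ((c ^ k)⁻¹ * x) = 1
      rw [map_mul, map_inv, map_zpow, hk, inv_mul_cancel]
    have h2 := C.mul_mem (C.zpow_mem hcC k) (hZC h1)
    simpa using h2
  exact Cfsg.Agent.H15.dihedral_of (π c) (π x) _ hm hord hx2 hrel hcardY hxa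


end Cfsg.Agent.S0114
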