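import Mathlib
import Cfsg.Agent.Lib.H01.MaxClass3
import Cfsg.Statements.S0115
-- import your own Cfsg.Agent.* helpers here

set_option autoImplicit false
open Cfsg

namespace Cfsg.Agent.S0115


/-- A 2-group of order 2^n, n ≥ 3, is of maximal class exactly when its commutator quotient is a Klein four-group. -/
theorem result {X : Type*} [Group X] [Finite X] (n : ℕ) (hn : 3 ≤ n) (hX : Nat.card X = 2 ^ n) : Group.nilpotencyClass X = n - 1 ↔ IsKleinFour (X ⧸ commutator X) := by
  classical
  haveI : Fact (Nat.Prime 2) := ⟨Nat.prime_two⟩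
  have hp : IsPGroup 2 X := IsPGroup.of_card hX
  constructor
  · intro hc
    have hidx := Cfsg.Agent.H01.index_of_maxclass n hn X hX hc
    have hq4 : Nat.card (X ⧸ commutator X) = 4 := hidx
    have hnc : ¬ IsCyclic (X ⧸ commutator X) := by
      intro hcyc
      have h1 : IsMulCommutative X := ⟨⟨fun a b => Cfsg.Agent.H01.comm_of_cyclic_abelianization hp hcyc a b⟩⟩
      haveI : Group.IsNilpotent X := hp.isNilpotent
      have h2 := (Group.IsNilpotent.nilpotencyClass_le_one_iff (G := X)).mpr h1
      omega
    refine ⟨hq4, ?_⟩
    have hsq : ∀ y : X ⧸ commutator X, y ^ 2 = 1 := by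
      intro y
      have hd : orderOf y ∣ 4 := by
        rw [← hq4]
        exact orderOf_dvd_natCard y
      have h4 : orderOf y ≠ 4 := by
        intro h
        exact hnc (isCyclic_of_orderOf_eq_card y (by rw [h, hq4]))
      have : orderOf y ∣ 2 := by
        have h5 : orderOf y ∈ Nat.divisors 4 := by
          rw [Nat.mem_divisors]
          exact ⟨hd, by norm_num⟩
        have h6 : Nat.divisors 4 = {1, 2, 4} := by decide
        rw [h6] at h5
        simp only [Finset.mem_insert, Finset.mem_singleton] at h5
        rcases h5 with h5 | h5 | h5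
        · rw [h5]; norm_num
        · rw [h5]
        · exact absurd h5 h4
      exact orderOf_dvd_iff_pow_eq_one.mp this
    have h1 : Monoid.exponent (X ⧸ commutator X) ∣ 2 := Monoid.exponent_dvd_of_forall_pow_eq_one hsq
    have h2 : Monoid.exponent (X ⧸ commutator X) ≠ 1 := by
      intro h
      rw [Monoid.exp_eq_one_iff] at h
      have : Nat.card (X ⧸ commutator X) = 1 := Nat.card_unique
      omega
    rcases (Nat.dvd_prime Nat.prime_two).mp h1 with h3 | h3
    · exact absurd h3 h2
    · exact h3
  · intro hk
    have hidx : (commutator X).index = 4 := hk.card_four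
    exact (Cfsg.Agent.H01.maxclass_main n hn X hX hidx).2.2


end Cfsg.Agent.S0115
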