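import Mathlib
import Cfsg.Agent.Lib.H01.ZeFusion
import Cfsg.Statements.S0118
-- import your own Cfsg.Agent.* helpers here

set_option autoImplicit false
open Cfsg

namespace Cfsg.Agent.S0118


/-- Glauberman's ZJ-Theorem, in the case of groups with no section isomorphic to SL(2,p), p odd: conjugation of subsets of a Sylow p-subgroup P inside P is always induced from the normalizer of Z(J(P)). -/
theorem result {G : Type*} [Group G] [Finite G] {p : ℕ} [Fact p.Prime] (hp : p ≠ 2) (hfree : ¬ ∃ (H K : Subgroup G) (hK : (K.subgroupOf H).Normal), Nonempty ((H ⧸ K.subgroupOf H) ≃* Matrix.SpecialLinearGroup (Fin 2) (ZMod p))) (P : Sylow p G) (A : Set G) (hA : A ⊆ (P : Set G)) (g : G) (hAg : (fun a => g⁻¹ * a * g) '' A ⊆ (P : Set G)) : ∃ n ∈ Subgroup.normalizer (Cfsg.centerThompsonOf p (P : Subgroup G) : Set G), ∀ a ∈ A, n⁻¹ * a * n = g⁻¹ * a * g := by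
  have hqd : ¬ Cfsg.Involves ↥(Cfsg.qdOver (ZMod p)) G := by
    intro h
    obtain ⟨Q, -, -, h2⟩ := Cfsg.Agent.H14.involves_sl2_of_involves_qd (p := p) h
    have h3 := Cfsg.Agent.H09.Involves.trans' h2 (Cfsg.Agent.H09.involves_subgroup _)
    obtain ⟨K, R, hR, he⟩ := h3
    exact hfree ⟨K, R, hR, he⟩
  have h1 := Cfsg.Agent.H01.ZE.controls_ze_qdFree hp hqd P A hA
  obtain ⟨x, hx, hxa⟩ := h1.2 g⁻¹ (by
    rintro _ ⟨a, ha, rfl⟩
    have := hAg ⟨a, ha, rfl⟩
    simpa using this)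
  rw [Cfsg.Agent.H01.ZE.centerThompsonOf_eq_ze]
  refine ⟨x⁻¹, Subgroup.inv_mem _ hx, fun a ha => ?_⟩
  have h2 := hxa a ha
  simp only [inv_inv] at h2 ⊢
  exact h2.symm


end Cfsg.Agent.S0118
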