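import Mathlib
import Cfsg.Agent.Lib.H25.Critical
import Cfsg.Agent.Lib.H01.Basic
import Cfsg.Statements.S0119
-- import your own Cfsg.Agent.* helpers here

set_option autoImplicit false
open Cfsg

namespace Cfsg.Agent.S0119

open scoped commutatorElement

/-- If a p'-group A of automorphisms of a p-group G satisfies G = [G, A] and acts trivially on every characteristic abelian subgroup, then G is special with centre equal to the fixed points of A. -/
theorem result {G : Type*} [Group G] [Finite G] {p : ℕ} [Fact p.Prime] (hG : IsPGroup p G) (A : Subgroup (MulAut G)) (hA : Nat.Coprime (Nat.card A) p) (hGA : Subgroup.closure {x : G | ∃ g : G, ∃ a ∈ A, x = g⁻¹ * a g} = ⊤) (hchar : ∀ H : Subgroup G, H.Characteristic → IsMulCommutative H → ∀ a ∈ A, ∀ h ∈ H, a h = h) : Cfsg.IsSpecial p G ∧ (∀ g : G, (g ∈ Subgroup.center G ↔ ∀ a ∈ A, a g = g)) := by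

  classical
  have hpr : p.Prime := Fact.out
  -- step 1
  have hcen : ∀ N : Subgroup G, N.Normal → (∀ a ∈ A, ∀ n ∈ N, a n = n) → N ≤ Subgroup.center G := by
    intro N hN hfix n hn
    have hle : (⊤ : Subgroup G) ≤ Subgroup.centralizer ({n} : Set G) := by
      rw [← hGA, Subgroup.closure_le]
      rintro x ⟨g, a, ha, rfl⟩
      rw [SetLike.mem_coe, Subgroup.mem_centralizer_iff]
      intro m hm
      rw [Set.mem_singleton_iff.mp hm]
      have h1 : g * n * g⁻¹ * n⁻¹ ∈ N := N.mul_mem (hN.conj_mem n hn g) (N.inv_mem hn)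
      have h2 := hfix a ha _ h1
      rw [map_mul, map_mul, map_mul, map_inv, map_inv, hfix a ha n hn] at h2
      have h3 : a g * n * (a g)⁻¹ = g * n * g⁻¹ := mul_right_cancel h2
      calc n * (g⁻¹ * a g) = g⁻¹ * (g * n * g⁻¹) * a g := by group
        _ = g⁻¹ * (a g * n * (a g)⁻¹) * a g := by rw [h3]
        _ = g⁻¹ * a g * n := by group
    have h2 := hle (Subgroup.mem_top n) 
    rw [Subgroup.mem_center_iff]
    intro g
    have h3 := hle (Subgroup.mem_top g)
    rw [Subgroup.mem_centralizer_iff] at h3
    exact (h3 n (Set.mem_singleton n)).symm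
  obtain ⟨C, hC, hmax⟩ := Cfsg.Agent.H25.exists_crit_maximal p G
  have hcent := Cfsg.Agent.H25.centralizer_le_of_maximal hG hC hmax
  have hzcchar : (Cfsg.Agent.H25.zc C).Characteristic := by
    apply Subgroup.characteristic_iff_le_comap.mpr
    intro a u hu
    obtain ⟨hu1, hu2⟩ := Cfsg.Agent.H25.mem_zc.mp hu
    rw [Subgroup.mem_comap]
    refine Cfsg.Agent.H25.mem_zc.mpr ⟨Cfsg.Agent.H25.char_apply_mem hC.char a hu1, ?_⟩
    intro y hy
    have h1 : a.symm y ∈ C := Cfsg.Agent.H25.char_apply_mem hC.char a.symm hy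
    have h2 := hu2 _ h1
    have h3 := congrArg a h2
    simpa using h3
  have hzcab : IsMulCommutative (Cfsg.Agent.H25.zc C) := by
    constructor
    constructor
    intro x y
    apply Subtype.ext
    exact (Cfsg.Agent.H25.mem_zc.mp y.2).2 _ (Cfsg.Agent.H25.mem_zc.mp x.2).1 
  have hzcn : (Cfsg.Agent.H25.zc C).Normal := by
    haveI := hzcchar
    infer_instance
  have hzcZ : Cfsg.Agent.H25.zc C ≤ Subgroup.center G := hcen _ hzcn (hchar _ hzcchar hzcab)
  -- central commutators
  have hz : ∀ z ∈ Subgroup.center G, ∀ g : G, g * z = z * g := fun z hz g => Subgroup.mem_center_iff.mp hz g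
  -- step 3
  have hCCn : (Subgroup.centralizer (C : Set G)).Normal := by
    haveI := Cfsg.Agent.H25.centralizer_characteristic hC.char
    infer_instance
  have hfrat : frattini G ≤ Subgroup.centralizer (C : Set G) := by
    apply Cfsg.Agent.H01.frattini_le_of_comm_pow (p := p)
    · intro u hu
      rw [Subgroup.mem_centralizer_iff]
      intro x hx
      let f : G →* Subgroup.center G := MonoidHom.mk'
        (fun g => ⟨g * x * g⁻¹ * x⁻¹, hzcZ (hC.comm g x hx)⟩) (by
          intro g h
          apply Subtype.ext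
          show (g * h) * x * (g * h)⁻¹ * x⁻¹ = (g * x * g⁻¹ * x⁻¹) * (h * x * h⁻¹ * x⁻¹)
          have e := hz _ (hzcZ (hC.comm h x hx)) g
          calc (g * h) * x * (g * h)⁻¹ * x⁻¹
              = g * ((h * x * h⁻¹ * x⁻¹) * x) * g⁻¹ * x⁻¹ := by group
            _ = (g * (h * x * h⁻¹ * x⁻¹)) * x * g⁻¹ * x⁻¹ := by group
            _ = ((h * x * h⁻¹ * x⁻¹) * g) * x * g⁻¹ * x⁻¹ := by rw [e]
            _ = (h * x * h⁻¹ * x⁻¹) * (g * x * g⁻¹ * x⁻¹) := by group
            _ = (g * x * g⁻¹ * x⁻¹) * (h * x * h⁻¹ * x⁻¹) := hz _ (hzcZ (hC.comm g x hx)) _)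
      have hfle : commutator G ≤ f.ker := by
        rw [commutator_def, Subgroup.commutator_le]
        intro a _ b _
        rw [MonoidHom.mem_ker, map_commutatorElement, commutatorElement_eq_one_iff_commute]
        exact Subtype.ext (Subgroup.mem_center_iff.mp (f b).2 (f a : G))
      have h1 : u ∈ f.ker := hfle hu
      have h2 : u * x * u⁻¹ * x⁻¹ = 1 := congrArg Subtype.val h1
      have h3 : u * x * u⁻¹ = x := mul_inv_eq_one.mp h2
      calc x * u = (u * x * u⁻¹) * u := by rw [h3]
        _ = u * x := by group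
    · intro g
      rw [Subgroup.mem_centralizer_iff]
      intro x hx
      set c := g * x * g⁻¹ * x⁻¹ with hc
      have hcz : c ∈ Subgroup.center G := hzcZ (hC.comm g x hx)
      have hczc := hz c hcz
      -- `g ^ k` acts as multiplication by `c ^ k`
      have hpowk : ∀ k : ℕ, g ^ k * x * (g ^ k)⁻¹ = c ^ k * x := by
        intro k
        induction k with
        | zero => simp
        | succ k ih =>
          calc g ^ (k + 1) * x * (g ^ (k + 1))⁻¹ = g * (g ^ k * x * (g ^ k)⁻¹) * g⁻¹ := by
                rw [pow_succ']; group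
            _ = g * (c ^ k * x) * g⁻¹ := by rw [ih]
            _ = (g * c ^ k) * x * g⁻¹ := by group
            _ = (c ^ k * g) * x * g⁻¹ := by
                rw [(Commute.pow_right (show Commute g c from hczc g) k).eq]
            _ = c ^ k * (g * x * g⁻¹) := by group
            _ = c ^ k * (c * x) := by rw [show g * x * g⁻¹ = c * x by rw [hc]; group]
            _ = c ^ (k + 1) * x := by rw [pow_succ]; group
      have hxp : x ^ p ∈ Subgroup.center G := hzcZ (hC.pow x hx)
      have hcp : c ^ p = 1 := by
        have h1 : g * x ^ p * g⁻¹ = x ^ p := by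
          rw [hz _ hxp g]; group
        have h2 : g * x ^ p * g⁻¹ = (g * x * g⁻¹) ^ p := by rw [conj_pow]
        have h3 : g * x * g⁻¹ = c * x := by rw [hc]; group
        have hcomm : Commute c x := (hczc x).symm
        rw [h2, h3, hcomm.mul_pow] at h1
        have h4 : c ^ p * x ^ p = 1 * x ^ p := by rw [one_mul]; exact h1
        exact mul_right_cancel h4
      have := hpowk p
      rw [hcp, one_mul] at this
      calc x * g ^ p = (g ^ p * x * (g ^ p)⁻¹) * g ^ p := by rw [this]
        _ = g ^ p * x := by group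
  have hfratZ : frattini G ≤ Subgroup.center G := by
    intro u hu
    apply hzcZ
    exact Cfsg.Agent.H25.mem_zc.mpr ⟨hcent (hfrat hu), fun y hy =>
      (Subgroup.mem_centralizer_iff.mp (hfrat hu) y hy)⟩
  have hcommZ : commutator G ≤ Subgroup.center G :=
    (Cfsg.Agent.H01.commutator_le_frattini_of_isPGroup hG).trans hfratZ
  -- step 4
  have hfixZ : ∀ g : G, (∀ a ∈ A, a g = g) → g ∈ Subgroup.center G := by
    intro g hg
    have hcc : ∀ h : G, g * h * g⁻¹ * h⁻¹ ∈ Subgroup.center G := by
      intro h
      apply hcommZ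
      have := Subgroup.commutator_mem_commutator (Subgroup.mem_top g) (Subgroup.mem_top h)
      rw [commutatorElement_def] at this
      exact this
    have hZfix : ∀ a ∈ A, ∀ z ∈ Subgroup.center G, a z = z := hchar _ inferInstance
      (by
        constructor
        constructor
        intro x y
        apply Subtype.ext
        exact Subgroup.mem_center_iff.mp y.2 x)
    have hle : (⊤ : Subgroup G) ≤ Subgroup.centralizer ({g} : Set G) := by
      rw [← hGA, Subgroup.closure_le]
      rintro x ⟨h, a, ha, rfl⟩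
      rw [SetLike.mem_coe, Subgroup.mem_centralizer_iff]
      intro m hm
      rw [Set.mem_singleton_iff.mp hm]
      have h1 := hZfix a ha _ (hcc h)
      rw [map_mul, map_mul, map_mul, map_inv, map_inv, hg a ha] at h1
      have h2 : g * a h * g⁻¹ = (g * h * g⁻¹ * h⁻¹) * a h := by
        rw [← h1]; group
      have hczc := hz _ (hcc h)
      calc g * (h⁻¹ * a h) = (g * h⁻¹ * g⁻¹) * (g * a h * g⁻¹) * g := by group
        _ = (g * h⁻¹ * g⁻¹) * ((g * h * g⁻¹ * h⁻¹) * a h) * g := by rw [h2]
        _ = h⁻¹ * a h * g := by group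
    rw [Subgroup.mem_center_iff]
    intro h
    have h3 := hle (Subgroup.mem_top h)
    rw [Subgroup.mem_centralizer_iff] at h3
    exact (h3 g (Set.mem_singleton g)).symm
  have hZchar : ∀ a ∈ A, ∀ z ∈ Subgroup.center G, a z = z := hchar _ inferInstance
    (by
      constructor
      constructor
      intro x y
      apply Subtype.ext
      exact Subgroup.mem_center_iff.mp y.2 x)
  -- step 5
  have hZcomm : Subgroup.center G ≤ commutator G := by
    intro z hz'
    let Q := G ⧸ commutator G
    let π : G →* Q := QuotientGroup.mk' (commutator G)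
    haveI : Fintype A := Fintype.ofFinite A
    let ν : G →* Abelianization G := ∏ a : A, (Abelianization.of).comp (a : MulAut G).toMonoidHom
    have hν : ∀ g, ν g = ∏ a : A, Abelianization.of ((a : MulAut G) g) := by
      intro g
      simp [ν, MonoidHom.finset_prod_apply]
    have hker : ν.ker = ⊤ := by
      rw [eq_top_iff, ← hGA, Subgroup.closure_le]
      rintro x ⟨g, b, hb, rfl⟩
      show ν (g⁻¹ * b g) = 1
      rw [map_mul, map_inv]
      have : ν (b g) = ν g := by
        rw [hν, hν]
        apply Fintype.prod_equiv (Equiv.mulRight (⟨b, hb⟩ : A))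
        intro a
        rfl
      rw [this, inv_mul_cancel]
    have hνz : ν z = 1 := by
      have : z ∈ ν.ker := by rw [hker]; trivial
      exact this
    rw [hν] at hνz
    have hprod : ∏ a : A, Abelianization.of ((a : MulAut G) z) = (Abelianization.of z) ^ Nat.card A := by
      rw [Finset.prod_congr rfl (fun a _ => by rw [hZchar a a.2 z hz']), Finset.prod_const,
        Finset.card_univ, Nat.card_eq_fintype_card]
    rw [hprod] at hνz
    have hzp : ∃ k, (Abelianization.of z) ^ p ^ k = 1 := by
      obtain ⟨k, hk⟩ := hG z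
      exact ⟨k, by rw [← map_pow, hk, map_one]⟩
    obtain ⟨k, hk⟩ := hzp
    have hco : Nat.Coprime (Nat.card A) (p ^ k) := Nat.Coprime.pow_right k hA
    have h1 : Abelianization.of z = 1 := by
      have h2 := Nat.dvd_gcd (orderOf_dvd_of_pow_eq_one hνz) (orderOf_dvd_of_pow_eq_one hk)
      rw [hco, Nat.dvd_one] at h2
      exact orderOf_eq_one_iff.mp h2
    exact (QuotientGroup.eq_one_iff z).mp h1
  refine ⟨⟨hG, ?_, ?_⟩, fun g => ⟨fun hg a ha => hZchar a ha g hg, hfixZ g⟩⟩
  · exact le_antisymm hfratZ (hZcomm.trans (Cfsg.Agent.H01.commutator_le_frattini_of_isPGroup hG))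
  · exact le_antisymm hcommZ hZcomm


end Cfsg.Agent.S0119
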