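import Mathlib
import Cfsg.Agent.Lib.H25.Critical
import Cfsg.Statements.S0120
-- import your own Cfsg.Agent.* helpers here

set_option autoImplicit false
open Cfsg

namespace Cfsg.Agent.S0120


/-- For odd p, a p'-automorphism of a p-group acting trivially on the elements of order dividing p is trivial. -/
theorem result {G : Type*} [Group G] [Finite G] {p : ℕ} [Fact p.Prime] (hp : p ≠ 2) (hG : IsPGroup p G) (a : MulAut G) (ha : Nat.Coprime (orderOf a) p) (h : ∀ x : G, x ^ p = 1 → a x = x) : a = 1 := by

  obtain ⟨Y, -, hY, hall⟩ := Cfsg.Agent.H25.exists_critical hG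
  apply hall a ha
  intro y hy
  apply h
  have := hY y hy
  unfold Cfsg.Agent.H25.critExp at this
  rwa [if_neg hp] at this


end Cfsg.Agent.S0120
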