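import Mathlib
import Cfsg.Agent.Lib.H25.Critical
import Cfsg.Statements.S0121
-- import your own Cfsg.Agent.* helpers here

set_option autoImplicit false
open Cfsg

namespace Cfsg.Agent.S0121

open scoped commutatorElement

/-- A p'-automorphism of a p-group acting trivially on a critical subgroup is trivial. -/
theorem result {G : Type*} [Group G] [Finite G] {p : ℕ} [Fact p.Prime] (hG : IsPGroup p G) (H : Subgroup G) (hH : H.Characteristic) (h1 : (frattini H).map H.subtype ≤ Subgroup.centralizer (H : Set G)) (h2 : ⁅H, (⊤ : Subgroup G)⁆ ≤ H ⊓ Subgroup.centralizer (H : Set G)) (h3 : Subgroup.centralizer (H : Set G) ≤ H) (a : MulAut G) (ha : Nat.Coprime (orderOf a) p) (h : ∀ x ∈ H, a x = x) : a = 1 := by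

  apply MulEquiv.ext
  intro g
  have hcomm : ∀ x ∈ H, g * x * g⁻¹ * x⁻¹ ∈ H := by
    intro x hx
    have h3 : ⁅x, g⁆ ∈ ⁅H, (⊤ : Subgroup G)⁆ :=
      Subgroup.commutator_mem_commutator hx (Subgroup.mem_top g)
    have h4 := H.inv_mem (h2 h3).1
    rw [commutatorElement_inv, commutatorElement_def] at h4
    exact h4
  have h1 : g⁻¹ * a g ∈ H := by
    apply h3
    rw [Subgroup.mem_centralizer_iff]
    intro x hx
    have h2' := hcomm x hx
    have h3' := h _ h2'
    rw [map_mul, map_mul, map_mul, map_inv, map_inv, h x hx] at h3'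
    have h4 : a g * x * (a g)⁻¹ = g * x * g⁻¹ := mul_right_cancel h3'
    have h6 : (g⁻¹ * a g) * x = g⁻¹ * (a g * x * (a g)⁻¹) * a g := by group
    rw [h6, h4]
    group
  have h7 := Cfsg.Agent.H25.aut_fix_of_stable hG a ha (h _ h1) (mul_inv_cancel_left g (a g)).symm
  have h8 : a g = g := by
    have h9 : g⁻¹ * a g = 1 := h7
    exact inv_mul_eq_one.mp h9 |>.symm
  exact h8


end Cfsg.Agent.S0121
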