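import Mathlib
import Cfsg.Agent.Lib.H01.ClassThree
import Cfsg.Statements.S0123
-- import your own Cfsg.Agent.* helpers here

set_option autoImplicit false
open Cfsg

namespace Cfsg.Agent.S0123


/-- For a p-group of small class relative to p (class ≤ 2 with p odd, or class ≤ 3 with p > 3) whose derived subgroup is generated by elements of order dividing p, the p-th power map is multiplicative. -/
theorem result {R : Type*} [Group R] [Finite R] {p : ℕ} [Fact p.Prime] (hR : IsPGroup p R) (hcl : (p ≠ 2 ∧ ⁅commutator R, (⊤ : Subgroup R)⁆ = ⊥) ∨ (3 < p ∧ ⁅⁅commutator R, (⊤ : Subgroup R)⁆, (⊤ : Subgroup R)⁆ = ⊥)) (hder : commutator R ≤ Subgroup.closure {x : R | x ^ p = 1}) (x y : R) : (x * y) ^ p = x ^ p * y ^ p := by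

  have hpr : p.Prime := Fact.out
  rcases hcl with ⟨h2, hcl⟩ | ⟨h3, hcl⟩
  · obtain ⟨t, h, ht⟩ := Cfsg.Agent.H01.cl3_of_class_two hcl x y
    have htp : t ^ p = 1 := Cfsg.Agent.H01.pow_eq_one_of_mem_closure
      (fun x y hx hy => Cfsg.Agent.H01.mul_pow_eq_one_class_two hpr h2 hcl x y hx hy) (hder ht)
    exact h.mul_pow_eq (Cfsg.Agent.H01.dvd_choose_two_of_ne hpr h2) (by simp) (by simp) htp (by simp)
  · obtain ⟨t, r, s, h, ht, hr, hs⟩ := Cfsg.Agent.H01.cl3_of_class_three hcl x y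
    have hpow : ∀ g ∈ commutator R, g ^ p = 1 := fun g hg =>
      Cfsg.Agent.H01.pow_eq_one_of_mem_closure
        (fun x y hx hy => Cfsg.Agent.H01.mul_pow_eq_one_class_three hpr h3 hcl x y hx hy) (hder hg)
    obtain ⟨k, hk⟩ := Cfsg.Agent.H01.dvd_choose_three_of_gt hpr h3
    exact h.mul_pow_eq (Cfsg.Agent.H01.dvd_choose_two_of_ne hpr (by omega))
      (by rw [hk, pow_mul, hpow r hr, one_pow])
      (by rw [hk, mul_left_comm, pow_mul, hpow s hs, one_pow]) (hpow t ht) (hpow s hs)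


end Cfsg.Agent.S0123
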