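import Mathlib
import Cfsg.Agent.Lib.H18.Syl
import Cfsg.Statements.S0125
-- import your own Cfsg.Agent.* helpers here

set_option autoImplicit false
open Cfsg

namespace Cfsg.Agent.S0125


/-- The centralizer of a self-centralizing normal subgroup A of a Sylow p-subgroup is the direct product of A with a normal p'-subgroup. -/
theorem result {G : Type*} [Group G] [Finite G] {p : ℕ} [Fact p.Prime] (R : Sylow p G) (A : Subgroup G) (hAR : A ≤ (R : Subgroup G)) (hAn : (R : Subgroup G) ≤ Subgroup.normalizer (A : Set G)) (hC : (R : Subgroup G) ⊓ Subgroup.centralizer (A : Set G) = A) : ∃ H : Subgroup G, H ≤ Subgroup.centralizer (A : Set G) ∧ Nat.Coprime (Nat.card H) p ∧ Subgroup.centralizer (A : Set G) ≤ Subgroup.normalizer (H : Set G) ∧ H ⊓ A = ⊥ ∧ H ⊔ A = Subgroup.centralizer (A : Set G) := by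

  classical
  have hpr : p.Prime := Fact.out
  set C := Subgroup.centralizer (A : Set G) with hCd
  have hAC : A ≤ C := by rw [← hC]; exact inf_le_right
  set N := Subgroup.normalizer (A : Set G) with hNd
  have hCN : C ≤ N := by
    intro c hc
    rw [hNd, Subgroup.mem_normalizer_iff]
    intro a
    constructor
    · intro ha
      have : c * a * c⁻¹ = a := by
        rw [Subgroup.mem_centralizer_iff.mp hc a ha |>.symm]; group
      show c * a * c⁻¹ ∈ A
      rw [this]; exact ha
    · intro ha
      have h1 : c⁻¹ * (c * a * c⁻¹) * c = a := by group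
      have h2 := (Subgroup.mem_centralizer_iff.mp (C.inv_mem hc) _ ha)
      have h3 : c⁻¹ * (c * a * c⁻¹) * c⁻¹⁻¹ = c * a * c⁻¹ := by
        rw [← h2]; group
      rw [inv_inv] at h3
      rw [h1] at h3
      rw [h3]; exact ha
  -- `C` is normal in `N`
  have hCn : (C.subgroupOf N).Normal := by
    constructor
    intro x hx g
    rw [Subgroup.mem_subgroupOf] at hx ⊢
    show (g : G) * x * (g : G)⁻¹ ∈ C
    rw [hCd, Subgroup.mem_centralizer_iff] at hx ⊢
    intro a ha
    have hg : (g : G)⁻¹ * a * g ∈ A := by
      have := (Subgroup.mem_normalizer_iff.mp (N.inv_mem g.2) a).mp ha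
      simpa using this
    have h2 := hx _ hg
    calc a * ((g : G) * x * (g : G)⁻¹) = g * (((g : G)⁻¹ * a * g) * x) * (g : G)⁻¹ := by group
      _ = g * (x * ((g : G)⁻¹ * a * g)) * (g : G)⁻¹ := by rw [h2]
      _ = ((g : G) * x * (g : G)⁻¹) * a := by group
  -- index
  have hind : ¬ p ∣ (R : Subgroup G).relIndex C := by
    intro hd
    have h1 : (R : Subgroup G).relIndex C =
        ((R : Subgroup G).subgroupOf N).relIndex (C.subgroupOf N) :=
      (Subgroup.relIndex_subgroupOf hCN).symm
    have h2 : ((R : Subgroup G).subgroupOf N).relIndex (C.subgroupOf N) ∣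
        ((R : Subgroup G).subgroupOf N).index :=
      Cfsg.Agent.H18.relIndex_dvd_index_of_normal_right _ _
    have h3 : ((R : Subgroup G).subgroupOf N).index ∣ (R : Subgroup G).index :=
      Subgroup.relIndex_dvd_index_of_le hAn
    exact R.not_dvd_index (hd.trans (h1 ▸ h2.trans h3))
  let P : Subgroup C := A.subgroupOf C
  have hPp : IsPGroup p P := by
    have hR : IsPGroup p (R : Subgroup G) := R.isPGroup'
    have : IsPGroup p A := hR.to_le hAR
    exact this.comap_of_injective C.subtype C.subtype_injective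
  have hPind : ¬ p ∣ P.index := by
    have : P.index = (R : Subgroup G).relIndex C := by
      rw [← Subgroup.inf_relIndex_right, hC]
      rfl
    rw [this]; exact hind
  let S : Sylow p C := hPp.toSylow hPind
  have hScoe : (S : Subgroup C) = P := rfl
  have hcent : Subgroup.normalizer (S : Set C) ≤ Subgroup.centralizer (S : Set C) := by
    intro x _
    rw [Subgroup.mem_centralizer_iff]
    intro y hy
    apply Subtype.ext
    have hy' : (y : G) ∈ A := hy
    exact (Subgroup.mem_centralizer_iff.mp x.2 y hy')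
  have hcomp := MonoidHom.ker_transferSylow_isComplement' S hcent
  let K : Subgroup C := (MonoidHom.transferSylow S hcent).ker
  have hKcop : ¬ p ∣ Nat.card K := MonoidHom.not_dvd_card_ker_transferSylow S hcent
  refine ⟨K.map C.subtype, ?_, ?_, ?_, ?_, ?_⟩
  · rintro _ ⟨k, -, rfl⟩
    exact k.2
  · rw [Subgroup.card_map_of_injective C.subtype_injective]
    exact (Nat.Prime.coprime_iff_not_dvd hpr).mpr hKcop |>.symm
  · intro c hc
    rw [Subgroup.mem_normalizer_iff]
    intro h
    have hKn : K.Normal := MonoidHom.normal_ker _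
    let c' : C := ⟨c, hc⟩
    constructor
    · rintro ⟨k, hk, rfl⟩
      exact ⟨c' * k * c'⁻¹, hKn.conj_mem k hk c', rfl⟩
    · rintro ⟨k, hk, hke⟩
      refine ⟨c'⁻¹ * k * c', ?_, ?_⟩
      · have := hKn.conj_mem k hk c'⁻¹
        simpa using this
      · have hke' : (k : G) = c * h * c⁻¹ := hke
        show c⁻¹ * (k : G) * c = h
        rw [hke']; group
  · rw [eq_bot_iff]
    rintro x hx
    obtain ⟨⟨k, hk, rfl⟩, hxA⟩ := Subgroup.mem_inf.mp hx
    have hkP : k ∈ (S : Subgroup C) := hxA
    have := hcomp.disjoint.le_bot (Subgroup.mem_inf.mpr ⟨hk, hkP⟩)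
    rw [Subgroup.mem_bot] at this
    rw [this]
    simp
  · have hsup : K ⊔ (S : Subgroup C) = ⊤ := hcomp.sup_eq_top
    have h1 := congrArg (Subgroup.map C.subtype) hsup
    rw [Subgroup.map_sup, ← MonoidHom.range_eq_map, Subgroup.range_subtype] at h1
    have h2 : Subgroup.map C.subtype (S : Subgroup C) = A := by
      rw [hScoe]
      exact Subgroup.map_subgroupOf_eq_of_le hAC
    rw [h2] at h1
    exact h1


end Cfsg.Agent.S0125
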