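import Mathlib
import Cfsg.Agent.Lib.H01.OmegaApps
import Cfsg.Statements.S0127
-- import your own Cfsg.Agent.* helpers here

set_option autoImplicit false
open Cfsg

namespace Cfsg.Agent.S0127


/-- For odd p, in a non-cyclic p-group with a cyclic subgroup of index p, the elements of order dividing p generate an elementary abelian subgroup of order p^2. -/
theorem result {R : Type*} [Group R] [Finite R] {p : ℕ} [Fact p.Prime] (hp : p ≠ 2) (hR : IsPGroup p R) (hnc : ¬ IsCyclic R) (C : Subgroup R) (hC : IsCyclic C) (hCi : C.index = p) : Cfsg.IsElementaryAbelian p (Subgroup.closure {x : R | x ^ p = 1}) ∧ Nat.card (Subgroup.closure {x : R | x ^ p = 1}) = p ^ 2 := by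

  classical
  have hpr : p.Prime := Fact.out
  obtain ⟨V, hVn, ⟨hVab, hVe⟩, hVcard⟩ := Cfsg.Agent.H01.exists_normal_elementary_sq hR hp hnc
  have hVc := Cfsg.Agent.H01.forall_of_isMulCommutative hVab
  have hall : ∀ x : R, x ^ p = 1 → x ∈ V := by
    intro x hx
    by_contra hxV
    set H := V ⊔ Subgroup.zpowers x with hH
    have hexp : ∀ z ∈ H, z ^ p = 1 := by
      intro z hz
      obtain ⟨v, hv, k, rfl⟩ := Cfsg.Agent.H01.mem_sup_zpowers_iff hVn hz
      apply Cfsg.Agent.H01.mul_pow_eq_one_of_card_sq hR hp hVn hVc hVe hVcard hv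
      rw [← zpow_natCast, ← zpow_mul, mul_comm, zpow_mul, zpow_natCast, hx, one_zpow]
    have hHC : Nat.card (H ⊓ C : Subgroup R) ≤ p := by
      have hle : H ⊓ C ≤ C := inf_le_right
      haveI : IsCyclic (H ⊓ C : Subgroup R) := by
        haveI := hC
        exact Subgroup.isCyclic_of_le hle
      obtain ⟨g, hg⟩ := IsCyclic.exists_generator (α := (H ⊓ C : Subgroup R))
      have hcard : orderOf g = Nat.card (H ⊓ C : Subgroup R) :=
        orderOf_eq_card_of_forall_mem_zpowers hg
      rw [← hcard]
      apply orderOf_le_of_pow_eq_one hpr.pos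
      apply Subtype.ext
      simpa using hexp g (Subgroup.mem_inf.mp g.2).1
    have hrel : C.relIndex H ≤ p := by
      rw [← hCi, ← Subgroup.relIndex_top_right]
      exact Subgroup.relIndex_le_of_le_right le_top (by
        rw [Subgroup.relIndex_top_right, hCi]; exact hpr.ne_zero)
    have hcardH : Nat.card H = Nat.card (H ⊓ C : Subgroup R) * C.relIndex H := by
      rw [← Subgroup.inf_relIndex_left, ← Subgroup.relIndex_bot_left, ← Subgroup.relIndex_bot_left]
      exact (Subgroup.relIndex_mul_relIndex ⊥ (H ⊓ C) H bot_le inf_le_left).symm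
    have hle2 : Nat.card H ≤ p ^ 2 := by
      rw [hcardH, sq]
      exact Nat.mul_le_mul hHC hrel
    have hVH : V ≤ H := le_sup_left
    have hVeq : V = H := Subgroup.eq_of_le_of_card_ge hVH (by rw [hVcard]; exact hle2)
    apply hxV
    rw [hVeq]
    exact Subgroup.mem_sup_right (Subgroup.mem_zpowers x)
  have hcl : Subgroup.closure {x : R | x ^ p = 1} = V := by
    apply le_antisymm
    · rw [Subgroup.closure_le]
      exact fun x hx => hall x hx
    · intro v hv
      exact Subgroup.subset_closure (hVe v hv)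
  rw [hcl]
  exact ⟨⟨hVab, hVe⟩, hVcard⟩


end Cfsg.Agent.S0127
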