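import Cfsg.Statements.S0132
import Cfsg.Agent.Lib.H13.Frob2

set_option autoImplicit false
open Cfsg

namespace Cfsg.Agent.S0132

open Cfsg.Agent.H13

theorem result {G : Type*} [Group G] [Finite G] {p : ℕ} [Fact p.Prime] (h1 : ¬ Cfsg.HasNormalPComplement p G) (h2 : ∀ H : Subgroup G, H ≠ ⊤ → Cfsg.HasNormalPComplement p H) : (∀ H : Subgroup G, H ≠ ⊤ → Group.IsNilpotent H) ∧ ¬ Group.IsNilpotent G ∧ ∀ P : Sylow p G, (P : Subgroup G).Normal := by
  have hpp : p.Prime := Fact.out
  have hnF : ¬ FrobCond p G := fun h => h1 (hasNormalPComplement_of_frobCond h)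
  unfold FrobCond at hnF
  push Not at hnF
  obtain ⟨Q, hQ, g, hgN, hgc, hgC⟩ := hnF
  have hsup : Q ⊔ Subgroup.zpowers g = ⊤ := by
    by_contra hne
    have hF := frobCond_of_hasNormalPComplement (h2 _ hne)
    exact hgC (hF.centralizes_of_le le_sup_left (le_sup_right (a := Q) (Subgroup.mem_zpowers g)) hQ hgN hgc)
  have hQn : Q.Normal := by
    rw [← Subgroup.normalizer_eq_top_iff, eq_top_iff, ← hsup]
    refine sup_le Subgroup.le_normalizer ?_
    rw [Subgroup.zpowers_le]
    exact hgN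
  -- `G / Q` is generated by the image of `g`
  have hzp : ∀ x : G ⧸ Q, x ∈ Subgroup.zpowers (QuotientGroup.mk' Q g) := by
    intro x
    have h3 : (⊤ : Subgroup (G ⧸ Q)) = (Q ⊔ Subgroup.zpowers g).map (QuotientGroup.mk' Q) := by
      rw [hsup, Subgroup.map_top_of_surjective _ (QuotientGroup.mk'_surjective Q)]
    have h4 : x ∈ (Q ⊔ Subgroup.zpowers g).map (QuotientGroup.mk' Q) := by rw [← h3]; trivial
    rw [Subgroup.map_sup, MonoidHom.map_zpowers] at h4
    have h5 : Q.map (QuotientGroup.mk' Q) = ⊥ := by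
      rw [Subgroup.map_eq_bot_iff, QuotientGroup.ker_mk']
    rw [h5, bot_sup_eq] at h4
    exact h4
  have hcomm : ∀ x y : G ⧸ Q, x * y = y * x := by
    intro x y
    obtain ⟨m, rfl⟩ := Subgroup.mem_zpowers_iff.mp (hzp x)
    obtain ⟨n, rfl⟩ := Subgroup.mem_zpowers_iff.mp (hzp y)
    exact (Commute.refl _).zpow_zpow _ _
  -- `p`-elements lie in `Q`
  have hpel : ∀ x : G, (∃ k : ℕ, x ^ p ^ k = 1) → x ∈ Q := by
    rintro x ⟨k, hk⟩
    rw [← QuotientGroup.eq_one_iff]
    obtain ⟨m, hm⟩ := Subgroup.mem_zpowers_iff.mp (hzp (x : G ⧸ Q))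
    have h3 : orderOf (x : G ⧸ Q) ∣ p ^ k := by
      apply orderOf_dvd_of_pow_eq_one
      rw [← QuotientGroup.mk_pow, hk]
      rfl
    have h4 : orderOf (x : G ⧸ Q) ∣ orderOf g := by
      apply orderOf_dvd_of_pow_eq_one
      rw [← hm, ← zpow_natCast, zpow_comm, zpow_natCast]
      have h5 : (QuotientGroup.mk' Q g) ^ orderOf g = 1 := by
        rw [← map_pow, pow_orderOf_eq_one, map_one]
      rw [h5, one_zpow]
    exact orderOf_eq_one_iff.mp
      (Nat.Coprime.eq_one_of_dvd (Nat.Coprime.coprime_dvd_left h4 (Nat.Coprime.pow_right k hgc)) h3)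
  refine ⟨?_, ?_, ?_⟩
  · intro H hH
    obtain ⟨T, K, hKn, hc⟩ := h2 H hH
    have hKcop : (Nat.card K).Coprime p := by
      rw [Nat.coprime_comm, Nat.Prime.coprime_iff_not_dvd hpp]
      intro hd
      have h3 : (T : Subgroup H).index = Nat.card K := hc.index_eq_card
      exact T.not_dvd_index (h3 ▸ hd)
    have hKQ : ∀ c ∈ K, (c : G) ∈ Q → c = 1 := by
      intro c hcK hcQ
      have h3 : (c : G) = 1 := by
        apply eq_one_of_coprime_of_mem hQ hcQ
        rw [Subgroup.orderOf_coe]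
        exact Nat.Coprime.coprime_dvd_left (Subgroup.orderOf_dvd_natCard K hcK) hKcop
      exact Subtype.ext h3
    have hKc : ∀ k ∈ K, ∀ t : H, t * k = k * t := by
      intro k hk t
      obtain ⟨⟨⟨a, ha⟩, ⟨b, hb⟩⟩, rfl⟩ := hc.2 t
      show a * b * k = k * (a * b)
      have hb1 : ((b : H) : G) ∈ Q := by
        apply hpel
        obtain ⟨j, hj⟩ := T.2 ⟨b, hb⟩
        refine ⟨j, ?_⟩
        have := congrArg Subtype.val hj
        have h4 : b ^ p ^ j = 1 := this
        have h5 := congrArg Subtype.val h4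
        simpa using h5
      have hcb : k * b = b * k := by
        have h3 : k * b * k⁻¹ * b⁻¹ ∈ K := by
          have := K.mul_mem hk (hKn.conj_mem k⁻¹ (K.inv_mem hk) b)
          simpa [mul_assoc] using this
        have h4 : ((k * b * k⁻¹ * b⁻¹ : H) : G) ∈ Q := by
          show (k : G) * b * (k : G)⁻¹ * (b : G)⁻¹ ∈ Q
          exact Q.mul_mem (hQn.conj_mem _ hb1 _) (Q.inv_mem hb1)
        have h5 := hKQ _ h3 h4
        have h6 : k * b * k⁻¹ = b := by simpa using congrArg (· * b) h5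
        simpa using congrArg (· * k) h6
      have hca : k * a = a * k := by
        have h3 : k * a * k⁻¹ * a⁻¹ ∈ K :=
          K.mul_mem (K.mul_mem (K.mul_mem hk ha) (K.inv_mem hk)) (K.inv_mem ha)
        have h4 : ((k * a * k⁻¹ * a⁻¹ : H) : G) ∈ Q := by
          rw [← QuotientGroup.eq_one_iff]
          show ((((k : G) * a * (k : G)⁻¹ * (a : G)⁻¹ : G)) : G ⧸ Q) = 1
          rw [QuotientGroup.mk_mul, QuotientGroup.mk_mul, QuotientGroup.mk_mul, QuotientGroup.mk_inv, QuotientGroup.mk_inv,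
            hcomm (((k : H) : G) : G ⧸ Q) (((a : H) : G) : G ⧸ Q)]
          group
        have h5 := hKQ _ h3 h4
        have h6 : k * a * k⁻¹ = a := by simpa using congrArg (· * a) h5
        simpa using congrArg (· * k) h6
      calc a * b * k = a * (b * k) := by group
        _ = a * (k * b) := by rw [hcb]
        _ = (a * k) * b := by group
        _ = (k * a) * b := by rw [hca]
        _ = k * (a * b) := by group
    obtain ⟨n, hn⟩ := IsPGroup.iff_card.mp T.2
    have hq : IsPGroup p (H ⧸ K) := by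
      apply IsPGroup.of_card (n := n)
      rw [← hn]
      exact hc.symm.index_eq_card
    haveI := hq.isNilpotent
    apply isNilpotent_of_ker_le_center (QuotientGroup.mk' K)
    rw [QuotientGroup.ker_mk']
    intro k hk
    rw [Subgroup.mem_center_iff]
    intro t
    exact hKc k hk t
  · intro hnil
    apply hgC
    rw [Subgroup.mem_centralizer_iff]
    intro x hx
    obtain ⟨k, hk⟩ := hQ ⟨x, hx⟩
    have hk' : x ^ p ^ k = 1 := by simpa using congrArg Subtype.val hk
    have h3 : (orderOf x).Coprime (orderOf g) :=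
      (Nat.Coprime.pow_right k hgc).symm.coprime_dvd_left (orderOf_dvd_of_pow_eq_one hk')
    exact H05.nil_coprime_commute hnil h3
  · intro P
    have hQP : ∃ T : Sylow p G, (Q : Subgroup G) ≤ T := hQ.exists_le_sylow
    obtain ⟨T, hT⟩ := hQP
    have hTQ : (T : Subgroup G) = Q := by
      apply le_antisymm _ hT
      intro t ht
      obtain ⟨k, hk⟩ := T.2 ⟨t, ht⟩
      exact hpel t ⟨k, by simpa using congrArg Subtype.val hk⟩
    obtain ⟨w, hw⟩ := sylow_conj T P
    rw [hw, hTQ, map_conj_eq_of_normal]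
    exact hQn

end Cfsg.Agent.S0132
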