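import Mathlib
import Cfsg.Agent.Lib.H21.CharBasis
import Cfsg.Agent.Lib.H21.CharInd
import Cfsg.Statements.S0133
-- import your own Cfsg.Agent.* helpers here

set_option autoImplicit false
open Cfsg

namespace Cfsg.Agent.S0133


/-- The number of irreducible complex characters of a finite group equals the number of its conjugacy classes. -/
theorem result {G : Type*} [Group G] [Finite G] : Nat.card (Cfsg.IrrCharacter G) = Nat.card (ConjClasses G) := by
  classical
  haveI := Fintype.ofFinite G
  haveI : Fintype (IrrCharacter G) := Fintype.ofFinite _
  exact Cfsg.Agent.H21.card_irr_eq_card_conjClasses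


end Cfsg.Agent.S0133
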