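import Mathlib
import Cfsg.Agent.Lib.H21.CharBasis
import Cfsg.Agent.Lib.H21.CharInd
import Cfsg.Statements.S0134
-- import your own Cfsg.Agent.* helpers here

set_option autoImplicit false
open Cfsg

namespace Cfsg.Agent.S0134


/-- The sum of the squares of the degrees of the irreducible complex characters of a finite group is the order of the group. -/
theorem result {G : Type*} [Group G] [Finite G] : ∑ᶠ χ : Cfsg.IrrCharacter G, (χ : G → ℂ) 1 ^ 2 = (Nat.card G : ℂ) := by
  classical
  haveI := Fintype.ofFinite G
  haveI : Fintype (IrrCharacter G) := Fintype.ofFinite _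
  rw [finsum_eq_sum_of_fintype]
  have h := Cfsg.Agent.H21.sum_degree_sq (G := G)
  rw [← h]
  push_cast
  refine Finset.sum_congr rfl fun χ _ => ?_
  rw [Cfsg.Agent.H21.one_eq_charDegree (Cfsg.Agent.H21.isCharacter_of_irr χ.2)]


end Cfsg.Agent.S0134
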