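import Mathlib
import Cfsg.Agent.Lib.H21.CharBasis
import Cfsg.Agent.Lib.H21.CharInd
import Cfsg.Agent.Lib.H22.Degree
import Cfsg.Statements.S0135
-- import your own Cfsg.Agent.* helpers here

set_option autoImplicit false
open Cfsg

namespace Cfsg.Agent.S0135


/-- The degree of an irreducible complex representation of a finite group divides the group order. -/
theorem result {G : Type*} [Group G] [Finite G] {V : Type*} [AddCommGroup V] [Module ℂ V] [FiniteDimensional ℂ V] (ρ : Representation ℂ G V) [ρ.IsIrreducible] : Module.finrank ℂ V ∣ Nat.card G := by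
  classical
  haveI := Fintype.ofFinite G
  haveI : Fintype (IrrCharacter G) := Fintype.ofFinite _
  have hirr := Cfsg.Agent.H21.isIrrCharacter_of_rep ρ (inferInstance)
  have h := Cfsg.Agent.H22.charDegree_dvd_card (⟨ρ.character, hirr⟩ : IrrCharacter G)
  have h1 := Cfsg.Agent.H21.one_eq_charDegree (Cfsg.Agent.H21.isCharacter_of_irr hirr)
  rw [Representation.char_one] at h1
  have h2 : Module.finrank ℂ V = Cfsg.charDegree ρ.character := by exact_mod_cast h1
  rw [h2]
  exact h


end Cfsg.Agent.S0135
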