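import Mathlib
import Cfsg.Agent.Lib.H21.CharBasis
import Cfsg.Agent.Lib.H21.CharInd
import Cfsg.Statements.S0136
-- import your own Cfsg.Agent.* helpers here

set_option autoImplicit false
open Cfsg

namespace Cfsg.Agent.S0136


/-- Two elements of a finite group are conjugate if and only if no irreducible complex character separates them. -/
theorem result {G : Type*} [Group G] [Finite G] (g h : G) : IsConj g h ↔ ∀ χ : Cfsg.IrrCharacter G, (χ : G → ℂ) g = (χ : G → ℂ) h := by
  classical
  haveI := Fintype.ofFinite G
  haveI : Fintype (IrrCharacter G) := Fintype.ofFinite _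
  constructor
  · intro hc χ
    obtain ⟨c, hc⟩ := isConj_iff.mp hc
    rw [← hc]
    exact (Cfsg.Agent.H21.isClassFunction_of_isCharacter (Cfsg.Agent.H21.isCharacter_of_irr χ.2) g c).symm
  · intro h'
    have hexp := Cfsg.Agent.H21.classFunction_expansion _ (Cfsg.Agent.H21.classIndicator_isClass h)
    have h1 := congrFun hexp g
    have h2 := congrFun hexp h
    simp only [Finset.sum_apply, Pi.smul_apply, smul_eq_mul] at h1 h2
    have h3 : Cfsg.Agent.H21.classIndicator h g = Cfsg.Agent.H21.classIndicator h h := by
      rw [h1, h2]
      refine Finset.sum_congr rfl fun χ _ => ?_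
      rw [h' χ]
    have h4 : Cfsg.Agent.H21.classIndicator h h = 1 := if_pos (IsConj.refl h)
    rw [h4] at h3
    by_contra hne
    have : Cfsg.Agent.H21.classIndicator h g = 0 := if_neg hne
    rw [this] at h3
    exact zero_ne_one h3


end Cfsg.Agent.S0136
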