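import Mathlib
import Cfsg.Agent.Lib.H21.CharBasis
import Cfsg.Agent.Lib.H21.CharInd
import Cfsg.Agent.Lib.H22.Degree
import Cfsg.Statements.S0141
-- import your own Cfsg.Agent.* helpers here

set_option autoImplicit false
open Cfsg

namespace Cfsg.Agent.S0141


/-- For an irreducible complex representation of a finite group and an element g, the size of the class of g times the character value at g, divided by the degree, is an algebraic integer. -/
theorem result {G : Type*} [Group G] [Finite G] {V : Type*} [AddCommGroup V] [Module ℂ V] [FiniteDimensional ℂ V] (ρ : Representation ℂ G V) [ρ.IsIrreducible] (g : G) : IsIntegral ℤ (((Subgroup.centralizer ({g} : Set G)).index : ℂ) * ρ.character g / (Module.finrank ℂ V : ℂ)) := by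
  classical
  haveI := Fintype.ofFinite G
  haveI : Fintype (IrrCharacter G) := Fintype.ofFinite _
  have hirr := Cfsg.Agent.H21.isIrrCharacter_of_rep ρ (inferInstance)
  have h := Cfsg.Agent.H22.cc_isIntegral g (⟨ρ.character, hirr⟩ : IrrCharacter G)
  have h1 : ρ.character 1 = (Module.finrank ℂ V : ℂ) := Representation.char_one ρ
  simp only [Cfsg.Agent.H22.cc, Cfsg.centralChar, h1] at h
  exact h


end Cfsg.Agent.S0141
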