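import Mathlib
import Cfsg.Agent.Lib.H21.CharBasis
import Cfsg.Agent.Lib.H21.CharInd
import Cfsg.Agent.Lib.Lead.Burnside
import Cfsg.Statements.S0142
-- import your own Cfsg.Agent.* helpers here

set_option autoImplicit false
open Cfsg

namespace Cfsg.Agent.S0142


/-- If the degree of an irreducible complex representation of a finite group is coprime to the size of the conjugacy class of g, then the character at g is zero or has absolute value equal to the degree. -/
theorem result {G : Type*} [Group G] [Finite G] {V : Type*} [AddCommGroup V] [Module ℂ V] [FiniteDimensional ℂ V] (ρ : Representation ℂ G V) [ρ.IsIrreducible] (g : G) (hcop : Nat.Coprime (Module.finrank ℂ V) (Subgroup.centralizer ({g} : Set G)).index) : ρ.character g = 0 ∨ ‖ρ.character g‖ = (Module.finrank ℂ V : ℝ) := by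
  classical
  haveI := Fintype.ofFinite G
  haveI : Fintype (IrrCharacter G) := Fintype.ofFinite _
  have hirr := Cfsg.Agent.H21.isIrrCharacter_of_rep ρ (inferInstance)
  have h1 := Cfsg.Agent.H21.one_eq_charDegree (Cfsg.Agent.H21.isCharacter_of_irr hirr)
  rw [Representation.char_one] at h1
  have h2 : Module.finrank ℂ V = Cfsg.charDegree ρ.character := by exact_mod_cast h1
  rw [h2] at hcop ⊢
  exact Cfsg.Agent.Lead.irr_value_zero_or_norm (⟨ρ.character, hirr⟩ : IrrCharacter G) g hcop


end Cfsg.Agent.S0142
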