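import Mathlib
import Cfsg.Agent.Lib.H21.CharBasis
import Cfsg.Agent.Lib.H21.CharInd
import Cfsg.Agent.Lib.Lead.Burnside
import Cfsg.Statements.S0143
-- import your own Cfsg.Agent.* helpers here

set_option autoImplicit false
open Cfsg

namespace Cfsg.Agent.S0143


/-- If a finite simple group has a non-identity element whose conjugacy class has prime-power size, then the group has prime order. -/
theorem result {G : Type*} [Group G] [Finite G] [IsSimpleGroup G] (p k : ℕ) (hp : p.Prime) (g : G) (hg : g ≠ 1) (hclass : (Subgroup.centralizer ({g} : Set G)).index = p ^ k) : (Nat.card G).Prime := by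
  by_cases hk : k = 0
  · subst hk
    rw [pow_zero] at hclass
    have hcen : Subgroup.centralizer ({g} : Set G) = ⊤ := Subgroup.index_eq_one.mp hclass
    have hgc : g ∈ Subgroup.center G := by
      rw [Subgroup.mem_center_iff]
      intro x
      have : x ∈ Subgroup.centralizer ({g} : Set G) := by rw [hcen]; trivial
      rw [Subgroup.mem_centralizer_iff] at this
      exact (this g rfl).symm
    have hZ : Subgroup.center G = ⊤ := by
      rcases IsSimpleGroup.eq_bot_or_eq_top_of_normal (Subgroup.center G) inferInstance with h | h
      · rw [h, Subgroup.mem_bot] at hgc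
        exact absurd hgc hg
      · exact h
    haveI : IsMulCommutative G := ⟨⟨fun a b => by
      have : a ∈ Subgroup.center G := by rw [hZ]; trivial
      exact (Subgroup.mem_center_iff.mp this b).symm⟩⟩
    exact Group.is_simple_iff_prime_card.mp inferInstance
  · exact (Cfsg.Agent.Lead.not_class_prime_pow p k hp hk g hclass).elim


end Cfsg.Agent.S0143
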