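import Mathlib
import Cfsg.Agent.Lib.H21.CharBasis
import Cfsg.Agent.Lib.H21.CharInd
import Cfsg.Statements.S0145
-- import your own Cfsg.Agent.* helpers here

set_option autoImplicit false
open scoped ComplexConjugate
open Cfsg

namespace Cfsg.Agent.S0145


/-- Column orthogonality: the sum over the irreducible characters χ of χ g * conj (χ h) is the order of the centralizer of g if g and h are conjugate, and is 0 otherwise. -/
theorem result {G : Type*} [Group G] [Finite G] (g h : G) : (IsConj g h → ∑ᶠ χ : Cfsg.IrrCharacter G, (χ : G → ℂ) g * conj ((χ : G → ℂ) h) = (Nat.card (Subgroup.centralizer ({g} : Set G)) : ℂ)) ∧ (¬ IsConj g h → ∑ᶠ χ : Cfsg.IrrCharacter G, (χ : G → ℂ) g * conj ((χ : G → ℂ) h) = 0) := by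
  classical
  haveI := Fintype.ofFinite G
  haveI : Fintype (IrrCharacter G) := Fintype.ofFinite _
  constructor
  · intro hc
    rw [finsum_eq_sum_of_fintype]
    have h1 := Cfsg.Agent.H21.column_orthogonality_of_isConj (IsConj.refl g)
    rw [← h1]
    refine Finset.sum_congr rfl fun χ _ => ?_
    obtain ⟨c, hc⟩ := isConj_iff.mp hc
    rw [← hc]
    rw [Cfsg.Agent.H21.isClassFunction_of_isCharacter (Cfsg.Agent.H21.isCharacter_of_irr χ.2) g c]
  · intro hc
    rw [finsum_eq_sum_of_fintype]
    exact Cfsg.Agent.H21.column_orthogonality_of_not_isConj hc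


end Cfsg.Agent.S0145
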