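import Mathlib
import Cfsg.Agent.Lib.H21.CharBasis
import Cfsg.Agent.Lib.H21.CharInd
import Cfsg.Statements.S0147
-- import your own Cfsg.Agent.* helpers here

set_option autoImplicit false
open Cfsg

namespace Cfsg.Agent.S0147


/-- Transitivity of induction: inducing from H to K and then from K to G is the same as inducing from H to G. -/
theorem result {G : Type*} [Group G] [Fintype G] (H K : Subgroup G) [Fintype K] (hHK : H ≤ K) (θ : H → ℂ) : Cfsg.indFun K (Cfsg.indFun (H.subgroupOf K) (fun x => θ ⟨(x : K), Subgroup.mem_subgroupOf.mp x.2⟩)) = Cfsg.indFun H θ := by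
  classical
  funext g
  unfold indFun
  set θ' : ↥(H.subgroupOf K) → ℂ := fun x => θ ⟨(x : K), Subgroup.mem_subgroupOf.mp x.2⟩ with hθ'
  have hHK' : Nat.card (H.subgroupOf K) = Nat.card H := by
    exact Nat.card_congr (Subgroup.subgroupOfEquivOfLe hHK).toEquiv
  -- comparison of the two extensions by zero
  have hext : ∀ k : K, extendByZero (H.subgroupOf K) θ' k = extendByZero H θ (k : G) := by
    intro k
    by_cases hk : (k : G) ∈ H
    · have hk' : k ∈ H.subgroupOf K := Subgroup.mem_subgroupOf.mpr hk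
      have h1 : k = ((⟨k, hk'⟩ : H.subgroupOf K) : K) := rfl
      have h2 : (k : G) = ((⟨(k : G), hk⟩ : H) : G) := rfl
      rw [h2, Cfsg.Agent.H21.extendByZero_coe]
      conv_lhs => rw [h1]
      rw [Cfsg.Agent.H21.extendByZero_coe]
    · rw [Cfsg.Agent.H21.extendByZero_of_not_mem _ _ hk]
      exact Cfsg.Agent.H21.extendByZero_of_not_mem _ _ (fun h => hk (Subgroup.mem_subgroupOf.mp h))
  -- inner value
  have hin : ∀ y : G, extendByZero K (fun g' : K => (Nat.card (H.subgroupOf K) : ℂ)⁻¹ * ∑ x : K, extendByZero (H.subgroupOf K) θ' (x⁻¹ * g' * x)) y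
      = (Nat.card H : ℂ)⁻¹ * ∑ k : K, extendByZero H θ ((k : G)⁻¹ * y * k) := by
    intro y
    by_cases hy : y ∈ K
    · have h2 : y = ((⟨y, hy⟩ : K) : G) := rfl
      rw [h2, Cfsg.Agent.H21.extendByZero_coe, hHK']
      congr 1
      refine Finset.sum_congr rfl fun k _ => ?_
      rw [hext]
      simp
    · rw [Cfsg.Agent.H21.extendByZero_of_not_mem _ _ hy]
      symm
      apply mul_eq_zero_of_right
      apply Finset.sum_eq_zero
      intro k _
      apply Cfsg.Agent.H21.extendByZero_of_not_mem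
      intro hmem
      apply hy
      have h3 := hHK hmem
      have : y = k * ((k : G)⁻¹ * y * k) * (k : G)⁻¹ := by group
      rw [this]
      exact K.mul_mem (K.mul_mem k.2 h3) (K.inv_mem k.2)
  simp only [hin]
  rw [Finset.mul_sum]
  simp only [Finset.mul_sum]
  rw [Finset.sum_comm]
  have hk : ∀ k : K, ∑ x : G, extendByZero H θ ((k : G)⁻¹ * (x⁻¹ * g * x) * k)
      = ∑ x : G, extendByZero H θ (x⁻¹ * g * x) := by
    intro k
    refine Fintype.sum_equiv (Equiv.mulRight (k : G)) _ _ fun x => ?_
    simp [mul_assoc]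
  have hK0 : (Nat.card K : ℂ) ≠ 0 := by simp [Nat.card_pos.ne']
  simp only [← Finset.mul_sum]
  simp only [hk]
  rw [Finset.sum_const, Finset.card_univ, nsmul_eq_mul, ← Nat.card_eq_fintype_card]
  field_simp

end Cfsg.Agent.S0147
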