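import Mathlib
import Cfsg.Agent.Lib.H21.CharBasis
import Cfsg.Agent.Lib.H21.CharInd
import Cfsg.Statements.S0148
-- import your own Cfsg.Agent.* helpers here

set_option autoImplicit false
open Cfsg

namespace Cfsg.Agent.S0148


/-- Inducing a character of a subgroup yields a character of the whole group. -/
theorem result {G : Type*} [Group G] [Fintype G] (H : Subgroup G) (θ : H → ℂ) (hθ : Cfsg.IsCharacter H θ) : Cfsg.IsCharacter G (Cfsg.indFun H θ) := by
  classical
  haveI : Fintype H := Fintype.ofFinite _
  haveI : Fintype (IrrCharacter G) := Fintype.ofFinite _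
  exact Cfsg.Agent.H21.isCharacter_indFun H hθ


end Cfsg.Agent.S0148
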