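import Mathlib
import Cfsg.Agent.Lib.H21.CharBasis
import Cfsg.Agent.Lib.H21.CharInd
import Cfsg.Statements.S0149
-- import your own Cfsg.Agent.* helpers here

set_option autoImplicit false
open Cfsg

namespace Cfsg.Agent.S0149


/-- Let T be a subset of G meeting each of its conjugates by elements outside its normalizer N only in the identity, and let ψ be a class function of N vanishing on N away from T. Then the function induced from ψ agrees with ψ at every non-identity element of T. -/
theorem result {G : Type*} [Group G] [Fintype G] (T : Set G) (hTI : ∀ g : G, g ∉ Subgroup.normalizer T → ∀ t ∈ T, g * t * g⁻¹ ∈ T → t = 1) (hTN : T ⊆ Subgroup.normalizer T) (ψ : Subgroup.normalizer T → ℂ) (hψ : Cfsg.IsClassFunction (Subgroup.normalizer T) ψ) (hψT : ∀ x : Subgroup.normalizer T, (x : G) ∉ T → ψ x = 0) (t : Subgroup.normalizer T) (htT : (t : G) ∈ T) (ht1 : t ≠ 1) : Cfsg.indFun (Subgroup.normalizer T) ψ t = ψ t := by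
  classical
  unfold indFun
  have hcard : (Nat.card (Subgroup.normalizer T) : ℂ) ≠ 0 := by simp [Nat.card_pos.ne']
  have hx : ∀ x : G, extendByZero (Subgroup.normalizer T) ψ (x⁻¹ * (t : G) * x) =
      if x ∈ Subgroup.normalizer T then ψ t else 0 := by
    intro x
    split_ifs with hxN
    · have hmem : x⁻¹ * (t : G) * x = ((⟨x, hxN⟩ : Subgroup.normalizer T)⁻¹ * t * (⟨x, hxN⟩ : Subgroup.normalizer T)⁻¹⁻¹ : Subgroup.normalizer T) := by
        simp
      rw [hmem, Cfsg.Agent.H21.extendByZero_coe]
      exact hψ t _
    · by_cases hy : x⁻¹ * (t : G) * x ∈ Subgroup.normalizer T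
      · have hyT : x⁻¹ * (t : G) * x ∉ T := by
          intro hyT
          have hx' : x⁻¹ ∉ Subgroup.normalizer T := fun h => hxN (by simpa using (Subgroup.normalizer T).inv_mem h)
          have := hTI x⁻¹ hx' t htT (by simpa using hyT)
          exact ht1 (Subtype.ext this)
        have : x⁻¹ * (t : G) * x = ((⟨_, hy⟩ : Subgroup.normalizer T) : G) := rfl
        rw [this, Cfsg.Agent.H21.extendByZero_coe]
        exact hψT _ hyT
      · exact Cfsg.Agent.H21.extendByZero_of_not_mem _ _ hy
  simp only [hx]
  rw [Finset.sum_ite, Finset.sum_const_zero, add_zero, Finset.sum_const, nsmul_eq_mul]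
  have : ((Finset.univ.filter (fun x : G => x ∈ Subgroup.normalizer T)).card : ℂ) = (Nat.card (Subgroup.normalizer T) : ℂ) := by
    congr 1
    rw [Nat.card_eq_fintype_card]
    exact (Fintype.card_subtype _).symm
  rw [this]
  field_simp


end Cfsg.Agent.S0149
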