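import Mathlib
import Cfsg.Agent.Lib.H21.CharBasis
import Cfsg.Agent.Lib.H21.CharInd
import Cfsg.Agent.Lib.H21.CharLinear
import Cfsg.Statements.S0154
-- import your own Cfsg.Agent.* helpers here

set_option autoImplicit false
open Cfsg

namespace Cfsg.Agent.S0154


/-- A finite group has exactly as many irreducible complex characters of degree 1 as the index of its commutator subgroup. -/
theorem result {G : Type*} [Group G] [Finite G] : Nat.card {χ : Cfsg.IrrCharacter G // (χ : G → ℂ) 1 = 1} = (commutator G).index := by
  classical
  let π : G →* Abelianization G := Abelianization.of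
  have hπ : Function.Surjective π := QuotientGroup.mk'_surjective _
  haveI : Finite (Abelianization G) := inferInstance
  have hAcomm : ∀ a b : Abelianization G, a * b = b * a := fun a b => mul_comm a b
  -- the map on characters
  let F : IrrCharacter (Abelianization G) → {χ : IrrCharacter G // (χ : G → ℂ) 1 = 1} := fun ψ =>
    ⟨⟨(ψ : Abelianization G → ℂ) ∘ π, Cfsg.Agent.H21.isIrrCharacter_comp_of_surjective π hπ ψ.2⟩, by
      have h1 := Cfsg.Agent.H21.irr_degree_one_of_comm hAcomm ψ.2
      have h2 := Cfsg.Agent.H21.one_eq_charDegree (Cfsg.Agent.H21.isCharacter_of_irr ψ.2)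
      simp only [Function.comp, map_one]
      rw [h2, h1]; simp⟩
  have hF : Function.Bijective F := by
    constructor
    · intro ψ₁ ψ₂ h
      apply Subtype.ext
      funext a
      obtain ⟨g, rfl⟩ := hπ a
      have := congrArg (fun χ : {χ : IrrCharacter G // (χ : G → ℂ) 1 = 1} => (χ : IrrCharacter G).1 g) h
      exact this
    · rintro ⟨χ, h1⟩
      have hχ := Cfsg.Agent.H21.isCharacter_of_irr χ.2
      have hdeg : Cfsg.charDegree χ.1 = 1 := by
        have := Cfsg.Agent.H21.one_eq_charDegree hχ
        rw [h1] at this
        exact_mod_cast this.symm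
      have hk : ∀ k, π k = 1 → χ.1 k = χ.1 1 := by
        intro k hk
        have hkc : k ∈ commutator G := by
          rwa [← MonoidHom.mem_ker, Abelianization.ker_of] at hk
        -- multiplicative character
        let μ : G →* ℂˣ := {
          toFun := fun g => Units.mk (χ.1 g) (χ.1 g⁻¹)
            (by rw [← Cfsg.Agent.H21.linear_mul hχ hdeg]; simp [h1])
            (by rw [← Cfsg.Agent.H21.linear_mul hχ hdeg]; simp [h1])
          map_one' := by ext; simp [h1]
          map_mul' := fun a b => by ext; simp [Cfsg.Agent.H21.linear_mul hχ hdeg] }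
        have hμ : μ k = 1 := by
          have := Abelianization.commutator_subset_ker μ
          exact this hkc
        have := congrArg Units.val hμ
        rw [h1]
        exact this
      obtain ⟨χ', hχ', hc⟩ := Cfsg.Agent.H21.isIrrCharacter_descend π hπ χ.2 hk
      refine ⟨⟨χ', hχ'⟩, ?_⟩
      apply Subtype.ext
      apply Subtype.ext
      exact hc
  rw [← Nat.card_congr (Equiv.ofBijective F hF)]
  classical
  haveI := Fintype.ofFinite (Abelianization G)
  haveI : Fintype (IrrCharacter (Abelianization G)) := Fintype.ofFinite _
  rw [Cfsg.Agent.H21.card_irr_eq_card_conjClasses]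
  show Nat.card (ConjClasses (Abelianization G)) = Nat.card (Abelianization G)
  exact Nat.card_congr (ConjClasses.mkEquiv (α := Abelianization G)).symm


end Cfsg.Agent.S0154
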