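import Mathlib
import Cfsg.Agent.Lib.H21.CharBasis
import Cfsg.Agent.Lib.H21.CharInd
import Cfsg.Statements.S0155
-- import your own Cfsg.Agent.* helpers here

set_option autoImplicit false
open Cfsg

namespace Cfsg.Agent.S0155


/-- The character of the left regular representation of a finite group takes the value |G| at the identity and 0 at every other element. -/
theorem result {G : Type*} [Group G] [Fintype G] [DecidableEq G] (g : G) : (Representation.leftRegular ℂ G).character g = if g = 1 then (Nat.card G : ℂ) else 0 := by
  classical
  let e : (G →₀ ℂ) ≃ₗ[ℂ] MonoidAlgebra ℂ G := (MonoidAlgebra.coeffLinearEquiv ℂ).symm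
  let b : Module.Basis G ℂ (MonoidAlgebra ℂ G) := (Finsupp.basisSingleOne).map e
  rw [Representation.character, LinearMap.trace_eq_matrix_trace ℂ b, Matrix.trace]
  simp only [Matrix.diag, LinearMap.toMatrix_apply]
  have h : ∀ x : G, b.repr ((Representation.leftRegular ℂ G) g (b x)) x = if g = 1 then 1 else 0 := by
    intro x
    simp [b, e]
    rw [Finsupp.single_apply]
    simp
  simp only [h]
  split_ifs with hg <;> simp [Nat.card_eq_fintype_card]


end Cfsg.Agent.S0155
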