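import Mathlib
import Cfsg.Agent.Lib.H21.CharBasis
import Cfsg.Agent.Lib.H21.CharInd
import Cfsg.Agent.Lib.H21.CharLinear
import Cfsg.Agent.S0155
import Cfsg.Statements.S0156
-- import your own Cfsg.Agent.* helpers here

set_option autoImplicit false
open Cfsg

namespace Cfsg.Agent.S0156


/-- The character of the left regular representation is the sum over the irreducible characters χ of χ 1 • χ. -/
theorem result {G : Type*} [Group G] [Fintype G] : (Representation.leftRegular ℂ G).character = ∑ᶠ χ : Cfsg.IrrCharacter G, (χ : G → ℂ) 1 • (χ : G → ℂ) := by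
  classical
  haveI : Fintype (IrrCharacter G) := Fintype.ofFinite _
  rw [finsum_eq_sum_of_fintype]
  funext g
  rw [Cfsg.Agent.S0155.result g]
  simp only [Finset.sum_apply, Pi.smul_apply, smul_eq_mul]
  split_ifs with hg
  · subst hg
    have h := Cfsg.Agent.H21.sum_degree_sq (G := G)
    rw [← h]
    push_cast
    refine Finset.sum_congr rfl fun χ _ => ?_
    rw [Cfsg.Agent.H21.one_eq_charDegree (Cfsg.Agent.H21.isCharacter_of_irr χ.2)]
    ring
  · rw [← Cfsg.Agent.H21.sum_degree_mul_value_ne hg]
    refine Finset.sum_congr rfl fun χ _ => ?_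
    rw [Cfsg.Agent.H21.one_eq_charDegree (Cfsg.Agent.H21.isCharacter_of_irr χ.2)]


end Cfsg.Agent.S0156
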