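import Mathlib
import Cfsg.Prelude.Def_Perm
import Cfsg.Agent.Lib.H17.Derangement
import Cfsg.Agent.Lib.H10.CharGen
import Cfsg.Statements.S0157
-- import your own Cfsg.Agent.* helpers here

set_option autoImplicit false
open Cfsg

namespace Cfsg.Agent.S0157

private theorem perm_char {G X : Type*} [Group G] [Fintype G] [Finite X] [MulAction G X] (g : G) :
    (Cfsg.permRep ℂ G X).character g = (Nat.card (MulAction.fixedBy X g) : ℂ) := by
  classical
  haveI := Fintype.ofFinite X
  unfold Representation.character
  rw [LinearMap.trace_eq_matrix_trace ℂ (Pi.basisFun ℂ X)]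
  simp only [Matrix.trace, Matrix.diag_apply, LinearMap.toMatrix_apply, Pi.basisFun_repr,
    Pi.basisFun_apply]
  have h1 : ∀ x : X, (Cfsg.permRep ℂ G X g) (Pi.single x 1) x = if g • x = x then (1 : ℂ) else 0 := by
    intro x
    change (Pi.single x (1:ℂ) : X → ℂ) (g⁻¹ • x) = _
    rw [Pi.single_apply]
    have : g⁻¹ • x = x ↔ g • x = x := by
      constructor
      · intro h
        have := congrArg (g • ·) h
        simp only [smul_inv_smul] at this
        exact this.symm
      · intro h
        rw [inv_smul_eq_iff, h]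
    simp only [this]
  simp only [h1]
  rw [Finset.sum_boole]
  congr 1
  exact (Nat.subtype_card _ (fun x => by simp [MulAction.mem_fixedBy])).symm

private theorem fix_prod {G X : Type*} [Group G] [MulAction G X] (g : G) :
    Nat.card (MulAction.fixedBy (X × X) g) = Nat.card (MulAction.fixedBy X g) * Nat.card (MulAction.fixedBy X g) := by
  rw [← Nat.card_prod]
  refine Nat.card_congr ?_
  exact
    { toFun := fun p => ⟨⟨p.1.1, congrArg Prod.fst p.2⟩, ⟨p.1.2, congrArg Prod.snd p.2⟩⟩
      invFun := fun q => ⟨(q.1.1, q.2.1), Prod.ext q.1.2 q.2.2⟩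
      left_inv := fun p => rfl
      right_inv := fun q => rfl }

private theorem rank_two_iff {G X : Type*} [Group G] [Finite X] [MulAction G X]
    [MulAction.IsPretransitive G X] (hX : 2 ≤ Nat.card X) :
    Nat.card (MulAction.orbitRel.Quotient G (X × X)) = 2 ↔ MulAction.IsMultiplyPretransitive G X 2 := by
  classical
  obtain ⟨a, b, hab⟩ : ∃ a b : X, a ≠ b := by
    haveI := Finite.one_lt_card_iff_nontrivial.mp (by omega : 1 < Nat.card X)
    exact exists_pair_ne X
  set q : X × X → MulAction.orbitRel.Quotient G (X × X) := fun p => Quotient.mk'' p with hq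
  have hq_eq : ∀ p p' : X × X, q p = q p' ↔ ∃ g : G, g • p' = p := by
    intro p p'
    rw [hq]
    simp only
    rw [Quotient.eq'', MulAction.orbitRel_apply, MulAction.mem_orbit_iff]
  have hne : q (a, b) ≠ q (a, a) := by
    intro h
    obtain ⟨g, hg⟩ := (hq_eq _ _).mp h
    simp only [Prod.smul_mk, Prod.mk.injEq] at hg
    exact hab (hg.1.symm.trans hg.2)
  have hdiag : ∀ c d : X, q (c, d) = q (a, a) → c = d := by
    intro c d h
    obtain ⟨g, hg⟩ := (hq_eq _ _).mp h
    simp only [Prod.smul_mk, Prod.mk.injEq] at hg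
    exact hg.1.symm.trans hg.2
  constructor
  · intro h2
    rw [Nat.card_eq_two_iff' (q (a, a))] at h2
    obtain ⟨y, hy, huniq⟩ := h2
    have hab' : q (a, b) = y := huniq _ hne
    have hall : ∀ c d : X, c ≠ d → ∃ g : G, g • a = c ∧ g • b = d := by
      intro c d hcd
      have : q (c, d) = q (a, b) := by
        rw [hab']
        exact huniq _ (fun h => hcd (hdiag c d h))
      obtain ⟨g, hg⟩ := (hq_eq _ _).mp this
      simp only [Prod.smul_mk, Prod.mk.injEq] at hg
      exact ⟨g, hg.1, hg.2⟩
    rw [MulAction.is_two_pretransitive_iff]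
    intro a' b' c d h1 h2
    obtain ⟨g1, h11, h12⟩ := hall a' b' h1
    obtain ⟨g2, h21, h22⟩ := hall c d h2
    refine ⟨g2 * g1⁻¹, ?_, ?_⟩
    · rw [mul_smul, ← h11, inv_smul_smul, h21]
    · rw [mul_smul, ← h12, inv_smul_smul, h22]
  · intro h2
    rw [MulAction.is_two_pretransitive_iff] at h2
    rw [Nat.card_eq_two_iff' (q (a, a))]
    refine ⟨q (a, b), hne, ?_⟩
    intro y hy
    induction y using Quotient.inductionOn' with
    | h p =>
      obtain ⟨c, d⟩ := p
      change q (c, d) ≠ _ at hy
      change q (c, d) = _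
      by_cases hcd : c = d
      · exfalso
        subst hcd
        obtain ⟨g, hg⟩ := MulAction.exists_smul_eq G a c
        exact hy ((hq_eq _ _).mpr ⟨g, by simp [hg]⟩)
      · obtain ⟨g, h3, h4⟩ := h2 hab hcd
        exact (hq_eq _ _).mpr ⟨g, by simp [h3, h4]⟩

/-- For a transitive action of a finite group on a finite set with at least two points: the action is 2-transitive if and only if the function sending g to (number of fixed points of g) − 1 is an irreducible character. -/
theorem result {G : Type*} [Group G] [Finite G] (X : Type*) [MulAction G X] [Finite X] [MulAction.IsPretransitive G X] (hX : 2 ≤ Nat.card X) : Cfsg.IsIrrCharacter G (fun g => (Nat.card (MulAction.fixedBy X g) : ℂ) - 1) ↔ MulAction.IsMultiplyPretransitive G X 2 := by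

  classical
  haveI := Fintype.ofFinite G
  haveI : Fintype (Cfsg.IrrCharacter G) := Fintype.ofFinite _
  set π : G → ℂ := fun g => (Nat.card (MulAction.fixedBy X g) : ℂ) with hπdef
  have hne : (Nat.card G : ℂ) ≠ 0 := by exact_mod_cast Nat.card_pos.ne'
  have hπ : Cfsg.IsCharacter G π := by
    have := Cfsg.Agent.H21.isCharacter_of_rep (Cfsg.permRep ℂ G X)
    have he : (Cfsg.permRep ℂ G X).character = π := funext (fun g => perm_char g)
    rwa [he] at this
  let one : Cfsg.IrrCharacter G := ⟨fun _ => 1, Cfsg.Agent.H21.isIrrCharacter_one⟩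
  haveI : Nonempty X := by
    have : 0 < Nat.card X := by omega
    exact (Nat.card_pos_iff.mp this).1
  have horb : Nat.card (MulAction.orbitRel.Quotient G X) = 1 := by
    haveI : Subsingleton (MulAction.orbitRel.Quotient G X) :=
      (MulAction.pretransitive_iff_subsingleton_quotient G X).mp inferInstance
    haveI : Nonempty (MulAction.orbitRel.Quotient G X) := ⟨Quotient.mk'' (Classical.arbitrary X)⟩
    exact Nat.card_unique
  have h1 : Cfsg.classInner π one.1 = 1 := by
    have := Cfsg.Agent.H17.burnside_sum (G := G) (X := X)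
    rw [horb, one_mul] at this
    simp only [Cfsg.classInner, one, hπdef, map_one, mul_one]
    rw [← Nat.cast_sum, this]
    exact inv_mul_cancel₀ hne
  have h2 : Cfsg.classInner π π = (Nat.card (MulAction.orbitRel.Quotient G (X × X)) : ℂ) := by
    have := Cfsg.Agent.H17.burnside_sum (G := G) (X := X × X)
    simp only [fix_prod] at this
    simp only [Cfsg.classInner, hπdef, Complex.conj_natCast]
    have h3 : (∑ g : G, (Nat.card (MulAction.fixedBy X g) : ℂ) * (Nat.card (MulAction.fixedBy X g) : ℂ)) =
        ((Nat.card (MulAction.orbitRel.Quotient G (X × X)) : ℂ)) * (Nat.card G : ℂ) := by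
      exact_mod_cast this
    rw [h3]
    field_simp
  have h3 : Cfsg.classInner one.1 π = 1 := by
    rw [← Cfsg.Agent.H21.classInner_comm_conj, h1, map_one]
  have h4 : Cfsg.classInner one.1 one.1 = 1 := Cfsg.Agent.H21.classInner_self_irr one
  have hψ : Cfsg.IsCharacter G (π - one.1) :=
    Cfsg.Agent.H10.sub_irr_isCharacter hπ one (by rw [h1]; exact one_ne_zero)
  have hnorm : Cfsg.classInner (π - one.1) (π - one.1) =
      (Nat.card (MulAction.orbitRel.Quotient G (X × X)) : ℂ) - 1 := by
    rw [Cfsg.Agent.H10.classInner_sub_left, Cfsg.Agent.H10.classInner_sub_right,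
      Cfsg.Agent.H10.classInner_sub_right, h1, h2, h3, h4]
    ring
  have hfun : (fun g => (Nat.card (MulAction.fixedBy X g) : ℂ) - 1) = π - one.1 := rfl
  rw [hfun, ← rank_two_iff hX]
  constructor
  · intro hirr
    have := Cfsg.Agent.H21.classInner_self_irr (⟨_, hirr⟩ : Cfsg.IrrCharacter G)
    simp only at this
    rw [hnorm] at this
    have h5 : (Nat.card (MulAction.orbitRel.Quotient G (X × X)) : ℂ) = ((2 : ℕ) : ℂ) := by
      push_cast
      linear_combination this
    exact_mod_cast h5
  · intro h5
    refine Cfsg.Agent.H21.isIrrCharacter_of_inner_self_eq_one hψ ?_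
    rw [hnorm, h5]
    norm_num


end Cfsg.Agent.S0157
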