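import Mathlib
import Cfsg.Agent.Lib.H23.FS
import Cfsg.Statements.S0158
-- import your own Cfsg.Agent.* helpers here

set_option autoImplicit false
open Cfsg

namespace Cfsg.Agent.S0158


/-- The Frobenius–Schur indicator of an irreducible complex representation of a finite group — the average over s of the character at s * s — is 0, 1 or −1, and it vanishes exactly when some character value is not real. -/
theorem result {G : Type*} [Group G] [Fintype G] {V : Type*} [AddCommGroup V] [Module ℂ V] [FiniteDimensional ℂ V] (ρ : Representation ℂ G V) [ρ.IsIrreducible] : ((Nat.card G : ℂ)⁻¹ * ∑ s : G, ρ.character (s * s) = 0 ∨ (Nat.card G : ℂ)⁻¹ * ∑ s : G, ρ.character (s * s) = 1 ∨ (Nat.card G : ℂ)⁻¹ * ∑ s : G, ρ.character (s * s) = -1) ∧ ((Nat.card G : ℂ)⁻¹ * ∑ s : G, ρ.character (s * s) = 0 ↔ ∃ s : G, (ρ.character s).im ≠ 0) := by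
  classical
  haveI : Fintype (Cfsg.IrrCharacter G) := Fintype.ofFinite _
  have hirr : Cfsg.IsIrrCharacter G ρ.character :=
    Cfsg.Agent.H21.isIrrCharacter_of_rep ρ inferInstance
  let χ : Cfsg.IrrCharacter G := ⟨ρ.character, hirr⟩
  have hdef : (Nat.card G : ℂ)⁻¹ * ∑ s : G, ρ.character (s * s) = Cfsg.Agent.H23.fsInd χ.1 := rfl
  rw [hdef]
  have hreal : (∀ g, (starRingEnd ℂ) (χ.1 g) = χ.1 g) ↔ ¬ ∃ s : G, (ρ.character s).im ≠ 0 := by
    constructor
    · rintro h ⟨s, hs⟩
      exact hs (Complex.conj_eq_iff_im.mp (h s))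
    · intro h g
      by_contra hc
      exact h ⟨g, fun h0 => hc (Complex.conj_eq_iff_im.mpr h0)⟩
  by_cases hR : ∀ g, (starRingEnd ℂ) (χ.1 g) = χ.1 g
  · have h1 := Cfsg.Agent.H23.fsInd_of_real χ hR
    refine ⟨Or.inr h1, ?_⟩
    constructor
    · intro h0
      rcases h1 with h1 | h1 <;> rw [h0] at h1 <;> norm_num at h1
    · intro hex
      exact absurd hex (hreal.mp hR)
  · have h0 := Cfsg.Agent.H23.fsInd_of_not_real χ hR
    refine ⟨Or.inl h0, ?_⟩
    constructor
    · intro _
      by_contra hc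
      exact hR (hreal.mpr hc)
    · intro _
      exact h0


end Cfsg.Agent.S0158
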