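import Mathlib
import Cfsg.Agent.Lib.H21.CharBasis
import Cfsg.Agent.Lib.H21.CharInd
import Cfsg.Agent.Lib.H21.CharLinear
import Cfsg.Statements.S0159
-- import your own Cfsg.Agent.* helpers here

set_option autoImplicit false
open Cfsg

namespace Cfsg.Agent.S0159


/-- The number of solutions of s * s = 1 in a finite group equals the sum, over the irreducible characters χ, of (the average over s of χ (s * s)) times χ 1. -/
theorem result {G : Type*} [Group G] [Fintype G] : (Nat.card {s : G // s * s = 1} : ℂ) = ∑ᶠ χ : Cfsg.IrrCharacter G, ((Nat.card G : ℂ)⁻¹ * ∑ s : G, (χ : G → ℂ) (s * s)) * (χ : G → ℂ) 1 := by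
  classical
  haveI : Fintype (IrrCharacter G) := Fintype.ofFinite _
  rw [finsum_eq_sum_of_fintype]
  have hne : (Nat.card G : ℂ) ≠ 0 := by simp [Nat.card_pos.ne']
  have hdeg : ∀ χ : IrrCharacter G, (χ : G → ℂ) 1 = (Cfsg.charDegree (χ : G → ℂ) : ℂ) := fun χ =>
    Cfsg.Agent.H21.one_eq_charDegree (Cfsg.Agent.H21.isCharacter_of_irr χ.2)
  have hs : ∀ s : G, ∑ χ : IrrCharacter G, (Cfsg.charDegree (χ : G → ℂ) : ℂ) * (χ : G → ℂ) (s * s) =
      if s * s = 1 then (Nat.card G : ℂ) else 0 := by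
    intro s
    split_ifs with h
    · rw [h]
      rw [← Cfsg.Agent.H21.sum_degree_sq (G := G)]
      push_cast
      refine Finset.sum_congr rfl fun χ _ => ?_
      rw [hdeg χ]; ring
    · exact Cfsg.Agent.H21.sum_degree_mul_value_ne h
  have h1 : ∑ χ : IrrCharacter G, ((Nat.card G : ℂ)⁻¹ * ∑ s : G, (χ : G → ℂ) (s * s)) * (χ : G → ℂ) 1
      = (Nat.card G : ℂ)⁻¹ * ∑ s : G, ∑ χ : IrrCharacter G, (Cfsg.charDegree (χ : G → ℂ) : ℂ) * (χ : G → ℂ) (s * s) := by
    rw [Finset.sum_comm, Finset.mul_sum]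
    refine Finset.sum_congr rfl fun χ _ => ?_
    rw [hdeg χ, Finset.mul_sum, Finset.sum_mul]
    simp only [Finset.mul_sum]
    refine Finset.sum_congr rfl fun s _ => ?_
    ring
  rw [h1]
  simp only [hs]
  rw [Finset.sum_ite, Finset.sum_const_zero, add_zero, Finset.sum_const, nsmul_eq_mul]
  have h2 : ((Finset.univ.filter (fun s : G => s * s = 1)).card : ℂ) = (Nat.card {s : G // s * s = 1} : ℂ) := by
    congr 1
    rw [Nat.card_eq_fintype_card]
    exact (Fintype.card_subtype _).symm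
  rw [h2]
  field_simp


end Cfsg.Agent.S0159
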