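import Mathlib
import Cfsg.Agent.Lib.H01.CharA
import Cfsg.Statements.S0160
-- import your own Cfsg.Agent.* helpers here

set_option autoImplicit false
open Cfsg

namespace Cfsg.Agent.S0160

open scoped ComplexConjugate

/-- A finite group has as many real-valued irreducible complex characters as conjugacy classes closed under taking inverses. -/
theorem result {G : Type*} [Group G] [Finite G] : Nat.card {χ : Cfsg.IrrCharacter G // ∀ g : G, ((χ : G → ℂ) g).im = 0} = Nat.card {C : ConjClasses G // ∀ g : G, ConjClasses.mk g = C → IsConj g g⁻¹} := by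

  classical
  haveI := Fintype.ofFinite G
  haveI : Fintype (IrrCharacter G) := Fintype.ofFinite _
  haveI : Fintype (ConjClasses G) := Fintype.ofFinite _
  have hG0 : (Nat.card G : ℂ) ≠ 0 := by simp [Nat.card_pos.ne']
  let f : G → ℂ := fun g => ∑ χ : IrrCharacter G, (χ : G → ℂ) g⁻¹ * conj ((χ : G → ℂ) g)
  have hfcl : IsClassFunction G f := by
    intro g k
    simp only [f]
    refine Finset.sum_congr rfl fun χ _ => ?_
    have h1 := Cfsg.Agent.H21.isCharacter_conj (Cfsg.Agent.H21.isCharacter_of_irr χ.2) g k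
    have h2 := Cfsg.Agent.H21.isCharacter_conj (Cfsg.Agent.H21.isCharacter_of_irr χ.2) g⁻¹ k
    rw [h1, mul_inv_rev, mul_inv_rev, inv_inv, ← mul_assoc, h2]
  have hfval : ∀ r : G, f r = if IsConj r⁻¹ r then
      (Nat.card (Subgroup.centralizer ({r} : Set G)) : ℂ) else 0 := by
    intro r
    split_ifs with h
    · exact Cfsg.Agent.H21.column_orthogonality_of_isConj h
    · exact Cfsg.Agent.H21.column_orthogonality_of_not_isConj h
  have hirr : ∀ χ : IrrCharacter G, IsIrrCharacter G (fun g => conj ((χ : G → ℂ) g)) := fun χ =>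
    Cfsg.Agent.H01.isIrrCharacter_conj_fn χ.2
  have hrealiff : ∀ χ : IrrCharacter G, (fun g => conj ((χ : G → ℂ) g)) = (χ : G → ℂ) ↔
      ∀ g : G, ((χ : G → ℂ) g).im = 0 := by
    intro χ
    constructor
    · intro h g
      exact Complex.conj_eq_iff_im.mp (congrFun h g)
    · intro h
      funext g
      exact Complex.conj_eq_iff_im.mpr (h g)
  have h1 : ∑ χ : IrrCharacter G, classInner (fun g => conj ((χ : G → ℂ) g)) (χ : G → ℂ) =
      (Nat.card {χ : IrrCharacter G // ∀ g : G, ((χ : G → ℂ) g).im = 0} : ℂ) := by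
    have : ∀ χ : IrrCharacter G, classInner (fun g => conj ((χ : G → ℂ) g)) (χ : G → ℂ) =
        if ∀ g : G, ((χ : G → ℂ) g).im = 0 then 1 else 0 := by
      intro χ
      rw [Cfsg.Agent.H06.classInner_irr_fun (hirr χ) χ.2]
      simp only [hrealiff]
    simp only [this]
    rw [Finset.sum_boole, Nat.card_eq_fintype_card, Fintype.card_subtype]
  have h2 : ∑ χ : IrrCharacter G, classInner (fun g => conj ((χ : G → ℂ) g)) (χ : G → ℂ) =
      (Nat.card G : ℂ)⁻¹ * ∑ g : G, f g := by
    simp only [classInner, f]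
    rw [← Finset.mul_sum, Finset.sum_comm]
    congr 1
    refine Finset.sum_congr rfl fun g _ => Finset.sum_congr rfl fun χ _ => ?_
    rw [Cfsg.Agent.H21.isCharacter_inv (Cfsg.Agent.H21.isCharacter_of_irr χ.2)]
  have h3 : ∑ g : G, f g = (Nat.card G : ℂ) *
      (Nat.card {C : ConjClasses G // ∀ g : G, ConjClasses.mk g = C → IsConj g g⁻¹} : ℂ) := by
    have hfib := Finset.sum_fiberwise_of_maps_to (s := (Finset.univ : Finset G))
      (t := (Finset.univ : Finset (ConjClasses G))) (g := ConjClasses.mk)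
      (fun x _ => Finset.mem_univ _) f
    rw [← hfib, Nat.card_eq_fintype_card (α := {C : ConjClasses G // _}), Fintype.card_subtype,
      ← Finset.sum_boole, Finset.mul_sum]
    refine Finset.sum_congr rfl fun C _ => ?_
    obtain ⟨r, rfl⟩ := ConjClasses.mk_surjective C
    have h4 : ∑ g ∈ Finset.univ.filter (fun g => ConjClasses.mk g = ConjClasses.mk r), f g =
        ∑ x : G, Cfsg.Agent.H21.classIndicator r x * f x := by
      rw [Finset.sum_filter]
      refine Finset.sum_congr rfl fun x _ => ?_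
      simp only [Cfsg.Agent.H21.classIndicator, ConjClasses.mk_eq_mk_iff_isConj]
      split_ifs <;> simp
    rw [h4, Cfsg.Agent.H21.sum_isConj f hfcl r, hfval r]
    have h5 : (∀ g : G, ConjClasses.mk g = ConjClasses.mk r → IsConj g g⁻¹) ↔ IsConj r⁻¹ r := by
      constructor
      · intro h
        exact (h r rfl).symm
      · intro h g hg
        rw [ConjClasses.mk_eq_mk_iff_isConj] at hg
        -- transport along the conjugation
        obtain ⟨c, hc⟩ := isConj_iff.mp hg
        obtain ⟨d, hd⟩ := isConj_iff.mp h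
        rw [isConj_iff]
        refine ⟨c⁻¹ * d⁻¹ * c, ?_⟩
        have hg' : g = c⁻¹ * r * c := by rw [← hc]; group
        have hr : d⁻¹ * r * d = r⁻¹ := by
          calc d⁻¹ * r * d = d⁻¹ * (d * r⁻¹ * d⁻¹) * d := by rw [hd]
            _ = r⁻¹ := by group
        rw [hg']
        calc c⁻¹ * d⁻¹ * c * (c⁻¹ * r * c) * (c⁻¹ * d⁻¹ * c)⁻¹ = c⁻¹ * (d⁻¹ * r * d) * c := by group
          _ = c⁻¹ * r⁻¹ * c := by rw [hr]
          _ = (c⁻¹ * r * c)⁻¹ := by group
    by_cases h6 : IsConj r⁻¹ r
    · rw [if_pos h6, if_pos (h5.mpr h6)]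
      rw [← Nat.cast_mul, Cfsg.Agent.H21.index_mul_card_centralizer r]
      simp
    · rw [if_neg h6, if_neg (fun h => h6 (h5.mp h))]
      simp
  rw [h2, h3, ← mul_assoc, inv_mul_cancel₀ hG0, one_mul] at h1
  exact_mod_cast h1.symm


end Cfsg.Agent.S0160
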