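import Mathlib
import Cfsg.Agent.Lib.H01.CharA
import Cfsg.Agent.Lib.H01.Half
import Cfsg.Agent.Lib.H22.Degree
import Cfsg.Agent.Lib.H21.ModP
import Cfsg.Statements.S0161
-- import your own Cfsg.Agent.* helpers here

set_option autoImplicit false
open Cfsg

namespace Cfsg.Agent.S0161

open scoped ComplexConjugate

/-- In a finite group of odd order, a real-valued irreducible complex character is the trivial character. -/
theorem result {G : Type*} [Group G] [Finite G] (hodd : Odd (Nat.card G)) (χ : Cfsg.IrrCharacter G) (hreal : ∀ g : G, ((χ : G → ℂ) g).im = 0) : (χ : G → ℂ) = fun _ => 1 := by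

  classical
  haveI := Fintype.ofFinite G
  haveI : Fintype (IrrCharacter G) := Fintype.ofFinite _
  by_contra hne
  have hχc := Cfsg.Agent.H21.isCharacter_of_irr χ.2
  have hreal' : ∀ g : G, conj ((χ : G → ℂ) g) = (χ : G → ℂ) g := fun g =>
    Complex.conj_eq_iff_im.mpr (hreal g)
  have hinv : ∀ g : G, (χ : G → ℂ) g⁻¹ = (χ : G → ℂ) g := fun g => by
    rw [Cfsg.Agent.H21.isCharacter_inv hχc, hreal']
  -- orthogonal to the trivial character
  have h0 : classInner (χ : G → ℂ) (fun _ => (1 : ℂ)) = 0 :=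
    Cfsg.Agent.H06.classInner_irr_ne χ.2 Cfsg.Agent.H21.isIrrCharacter_one hne
  have hG0 : (Nat.card G : ℂ) ≠ 0 := by simp [Nat.card_pos.ne']
  have hsum : ∑ g : G, (χ : G → ℂ) g = 0 := by
    unfold classInner at h0
    simpa [hG0] using h0
  -- pairs
  have hfree : ∀ g ∈ (Finset.univ.erase (1 : G)), g⁻¹ ≠ g := by
    intro g hg h
    have hg1 : g ≠ 1 := (Finset.mem_erase.mp hg).1
    have h2 : g ^ 2 = 1 := by
      rw [pow_two]
      nth_rw 1 [← h]
      simp
    have h3 : orderOf g ∣ 2 := orderOf_dvd_of_pow_eq_one h2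
    have h4 : orderOf g ∣ Nat.card G := orderOf_dvd_natCard g
    have h5 : orderOf g = 1 := by
      have hc : Nat.Coprime 2 (Nat.card G) := (Nat.coprime_two_left).mpr hodd
      exact Nat.eq_one_of_dvd_coprimes hc h3 h4
    exact hg1 (orderOf_eq_one_iff.mp h5)
  obtain ⟨T, hT, hdis, hun⟩ := Cfsg.Agent.H01.exists_half (Finset.univ.erase (1 : G)) (fun g => g⁻¹)
    (fun g hg => by
      refine Finset.mem_erase.mpr ⟨?_, Finset.mem_univ _⟩
      simpa using (Finset.mem_erase.mp hg).1)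
    (fun g _ => inv_inv g) hfree
  have hs2 := Cfsg.Agent.H01.sum_half (fun g _ => inv_inv g) hT hdis hun (χ : G → ℂ)
  simp only [hinv] at hs2
  have hs3 : ∑ g : G, (χ : G → ℂ) g = (χ : G → ℂ) 1 + 2 * ∑ x ∈ T, (χ : G → ℂ) x := by
    rw [← Finset.add_sum_erase _ _ (Finset.mem_univ (1 : G)), hs2, Finset.mul_sum]
    congr 1
    exact Finset.sum_congr rfl fun x _ => by ring
  rw [hsum, Cfsg.Agent.H21.one_eq_charDegree hχc] at hs3
  set d := Cfsg.charDegree (χ : G → ℂ) with hd
  have hint : IsIntegral ℤ (∑ x ∈ T, (χ : G → ℂ) x) :=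
    IsIntegral.sum _ fun x _ => Cfsg.Agent.H21.isCharacter_isIntegral hχc x
  have hq : (∑ x ∈ T, (χ : G → ℂ) x) = (((-(d : ℚ) / 2 : ℚ)) : ℂ) := by
    push_cast
    linear_combination (-1/2 : ℂ) * hs3
  rw [hq] at hint
  obtain ⟨n, hn⟩ := Cfsg.Agent.H21.isInt_of_isIntegral_rat _ hint
  have hd2 : (d : ℤ) = -2 * n := by
    have : (d : ℚ) = -2 * n := by
      linarith
    exact_mod_cast this
  have hdvd : 2 ∣ d := by
    have : (2 : ℤ) ∣ d := ⟨-n, by rw [hd2]; ring⟩
    exact_mod_cast this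
  have hdG : d ∣ Nat.card G := Cfsg.Agent.H22.charDegree_dvd_card χ
  have : 2 ∣ Nat.card G := hdvd.trans hdG
  exact (Nat.not_even_iff_odd.mpr hodd) (even_iff_two_dvd.mpr this)


end Cfsg.Agent.S0161
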