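import Mathlib
import Cfsg.Agent.Lib.H01.CharA
import Cfsg.Agent.Lib.H01.Half
import Cfsg.Agent.Lib.H22.Degree
import Cfsg.Agent.S0161
import Cfsg.Statements.S0162
-- import your own Cfsg.Agent.* helpers here

set_option autoImplicit false
open Cfsg

namespace Cfsg.Agent.S0162

open scoped ComplexConjugate

/-- If a finite group has odd order, its order is congruent to its number of conjugacy classes modulo 16. -/
theorem result {G : Type*} [Group G] [Finite G] (hodd : Odd (Nat.card G)) : Nat.card G ≡ Nat.card (ConjClasses G) [MOD 16] := by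

  classical
  haveI := Fintype.ofFinite G
  haveI : Fintype (IrrCharacter G) := Fintype.ofFinite _
  let one : IrrCharacter G := ⟨fun _ => 1, Cfsg.Agent.H21.isIrrCharacter_one⟩
  let ι : IrrCharacter G → IrrCharacter G := fun χ =>
    ⟨fun g => conj ((χ : G → ℂ) g), Cfsg.Agent.H01.isIrrCharacter_conj_fn χ.2⟩
  have hιinv : ∀ χ, ι (ι χ) = χ := by
    intro χ
    apply Subtype.ext
    funext g
    simp [ι]
  have hι1 : ι one = one := by
    apply Subtype.ext
    funext g
    simp [ι, one]
  have hfree : ∀ χ ∈ Finset.univ.erase one, ι χ ≠ χ := by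
    intro χ hχ h
    have hne := (Finset.mem_erase.mp hχ).1
    apply hne
    apply Subtype.ext
    apply Cfsg.Agent.S0161.result hodd χ
    intro g
    have := congrFun (congrArg Subtype.val h) g
    exact Complex.conj_eq_iff_im.mp this
  obtain ⟨T, hT, hdis, hun⟩ := Cfsg.Agent.H01.exists_half (Finset.univ.erase one) ι
    (fun χ hχ => by
      refine Finset.mem_erase.mpr ⟨?_, Finset.mem_univ _⟩
      intro h
      have hne := (Finset.mem_erase.mp hχ).1
      apply hne
      rw [← hιinv χ, h, hι1])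
    (fun χ _ => hιinv χ) hfree
  have hdeg : ∀ χ : IrrCharacter G, Cfsg.charDegree (ι χ).1 = Cfsg.charDegree χ.1 := by
    intro χ
    have h1 := Cfsg.Agent.H21.one_eq_charDegree (Cfsg.Agent.H21.isCharacter_of_irr χ.2)
    have h2 := Cfsg.Agent.H21.one_eq_charDegree (Cfsg.Agent.H21.isCharacter_of_irr (ι χ).2)
    have h3 : (ι χ).1 1 = conj (χ.1 1) := rfl
    rw [h3, h1] at h2
    simp only [Complex.conj_natCast] at h2
    exact_mod_cast h2.symm
  have hsum := Cfsg.Agent.H21.sum_degree_sq (G := G)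
  have hcard := Cfsg.Agent.H21.card_irr_eq_card_conjClasses (G := G)
  rw [← Finset.add_sum_erase _ _ (Finset.mem_univ one),
    Cfsg.Agent.H01.sum_half (fun χ _ => hιinv χ) hT hdis hun] at hsum
  have hone : Cfsg.charDegree one.1 = 1 := by
    have h2 := Cfsg.Agent.H21.one_eq_charDegree (Cfsg.Agent.H21.isCharacter_of_irr one.2)
    have h3 : one.1 1 = 1 := rfl
    rw [h3] at h2
    exact_mod_cast h2.symm
  have hs2 : ∑ x ∈ T, (Cfsg.charDegree x.1 ^ 2 + Cfsg.charDegree (ι x).1 ^ 2) =
      2 * ∑ x ∈ T, Cfsg.charDegree x.1 ^ 2 := by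
    rw [Finset.mul_sum]
    refine Finset.sum_congr rfl fun x _ => ?_
    rw [hdeg]; ring
  rw [hs2, hone] at hsum
  -- the number of characters
  have hk : Nat.card (IrrCharacter G) = 1 + 2 * T.card := by
    rw [Nat.card_eq_fintype_card, ← Finset.card_univ, ← Finset.card_erase_add_one (Finset.mem_univ one),
      ← hun, Finset.card_union_of_disjoint hdis, Finset.card_image_of_injOn]
    · ring
    · intro x hx y hy hxy
      have h := congrArg ι hxy
      simpa [hιinv] using h
  -- each degree is odd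
  have hodd' : ∀ χ : IrrCharacter G, Odd (Cfsg.charDegree χ.1) := fun χ =>
    Odd.of_dvd_nat hodd (Cfsg.Agent.H22.charDegree_dvd_card χ)
  have hmod8 : ∀ χ : IrrCharacter G, Cfsg.charDegree χ.1 ^ 2 ≡ 1 [MOD 8] := by
    intro χ
    have h1 := Nat.odd_iff.mp (hodd' χ)
    have h2 : Cfsg.charDegree χ.1 % 8 = 1 ∨ Cfsg.charDegree χ.1 % 8 = 3 ∨ Cfsg.charDegree χ.1 % 8 = 5 ∨ Cfsg.charDegree χ.1 % 8 = 7 := by
      omega
    unfold Nat.ModEq
    rw [Nat.pow_mod]
    rcases h2 with h | h | h | h <;> rw [h]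
  have hmod : ∀ s : Finset (IrrCharacter G), ∑ x ∈ s, Cfsg.charDegree x.1 ^ 2 ≡ s.card [MOD 8] := by
    intro s
    induction s using Finset.induction_on with
    | empty => simp [Nat.ModEq]
    | insert a s ha ih =>
      rw [Finset.sum_insert ha, Finset.card_insert_of_notMem ha, add_comm s.card 1]
      exact (hmod8 a).add ih
  rw [← hcard, hk, ← hsum]
  have h16 := Nat.ModEq.mul_left' 2 (hmod T)
  exact Nat.ModEq.add_left 1 h16

end Cfsg.Agent.S0162
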