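import Mathlib
import Cfsg.Agent.Lib.H01.CharA
import Cfsg.Agent.Lib.H22.DefectZero
import Cfsg.Statements.S0165
-- import your own Cfsg.Agent.* helpers here

set_option autoImplicit false
open Cfsg

namespace Cfsg.Agent.S0165


/-- If p ^ n is the exact power of the prime p dividing the order of a finite group and p ^ n divides the degree of an irreducible complex representation, then its character vanishes at every element of order divisible by p. -/
theorem result {G : Type*} [Group G] [Finite G] {V : Type*} [AddCommGroup V] [Module ℂ V] [FiniteDimensional ℂ V] (ρ : Representation ℂ G V) [ρ.IsIrreducible] (p n : ℕ) (hp : p.Prime) (hn : p ^ n ∣ Nat.card G) (hn' : ¬ p ^ (n + 1) ∣ Nat.card G) (hdeg : p ^ n ∣ Module.finrank ℂ V) (x : G) (hx : p ∣ orderOf x) : ρ.character x = 0 := by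
  classical
  haveI := Fintype.ofFinite G
  haveI : Fintype (IrrCharacter G) := Fintype.ofFinite _
  haveI : Fact p.Prime := ⟨hp⟩
  have hirr := Cfsg.Agent.H21.isIrrCharacter_of_rep ρ (inferInstance)
  have hχ := Cfsg.Agent.H21.isCharacter_of_irr hirr
  have hdegX : Cfsg.charDegree ρ.character = Module.finrank ℂ V := by
    have h1 := Cfsg.Agent.H21.one_eq_charDegree hχ
    rw [Representation.char_one] at h1
    exact_mod_cast h1.symm
  obtain ⟨M, hM⟩ := Cfsg.Agent.H21.exists_pModular hp
  haveI : M.IsPrime := hM.2.1.isPrime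
  refine Cfsg.Agent.H22.irr_eq_zero_of_defect_zero hM (⟨ρ.character, hirr⟩ : IrrCharacter G) ?_ hx
  show ¬ p ∣ Nat.card G / Cfsg.charDegree ρ.character
  rw [hdegX]
  intro h
  have hdvd : Module.finrank ℂ V ∣ Nat.card G := by
    rw [← hdegX]
    exact Cfsg.Agent.H22.charDegree_dvd_card (⟨ρ.character, hirr⟩ : IrrCharacter G)
  apply hn'
  obtain ⟨c, hc⟩ := hdeg
  obtain ⟨d, hd⟩ := h
  have h1 : Nat.card G = Module.finrank ℂ V * (Nat.card G / Module.finrank ℂ V) :=
    (Nat.mul_div_cancel' hdvd).symm
  rw [hd, hc] at h1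
  exact ⟨c * d, by rw [h1]; ring⟩


end Cfsg.Agent.S0165
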