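import Cfsg.Statements.S0166
import Cfsg.Agent.Lib.H12.BrauerSplit
-- import your own Cfsg.Agent.* helpers here

set_option autoImplicit false
open Cfsg

namespace Cfsg.Agent.S0166



/-- Brauer's splitting field Theorem: a complex representation of a finite group of exponent m is equivalent to a representation by matrices with entries in ℚ adjoined exp(2πi/m). -/
theorem result {G : Type*} [Group G] [Finite G] (n : ℕ) (ρ : Representation ℂ G (Fin n → ℂ)) : ∃ σ : Representation ℂ G (Fin n → ℂ), Nonempty (ρ.Equiv σ) ∧ ∀ g : G, ∀ i j : Fin n, LinearMap.toMatrix' (σ g) i j ∈ Algebra.adjoin ℚ ({Complex.exp (2 * Real.pi * Complex.I / (Monoid.exponent G : ℂ))} : Set ℂ) := by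
  classical
  haveI := Fintype.ofFinite G
  have he : Monoid.exponent G ≠ 0 := Monoid.exponent_ne_zero_of_finite
  have hprim : IsPrimitiveRoot (Complex.exp (2 * Real.pi * Complex.I / (Monoid.exponent G : ℂ)))
      (Monoid.exponent G) := Complex.isPrimitiveRoot_exp _ he
  set ζ := Complex.exp (2 * Real.pi * Complex.I / (Monoid.exponent G : ℂ)) with hζ
  have hint : IsIntegral ℚ ζ := by
    have h1 := hprim.isIntegral (Nat.pos_of_ne_zero he)
    exact h1.tower_top
  obtain ⟨σ, hσ, h⟩ := H12.BrauerSplit.exists_rep_over (F := IntermediateField.adjoin ℚ ({ζ} : Set ℂ))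
    (by
      intro z hz
      obtain ⟨i, hi, rfl⟩ := hprim.eq_pow_of_pow_eq_one hz
      refine ⟨(⟨ζ, IntermediateField.mem_adjoin_simple_self _ _⟩ :
        IntermediateField.adjoin ℚ ({ζ} : Set ℂ)) ^ i, ?_⟩
      rw [map_pow]
      rfl) n ρ
  refine ⟨σ, hσ, fun g i j => ?_⟩
  obtain ⟨a, ha⟩ := h g i j
  rw [ha]
  have h2 := a.2
  rw [← IntermediateField.mem_toSubalgebra,
    IntermediateField.adjoin_simple_toSubalgebra_of_isAlgebraic hint.isAlgebraic] at h2
  exact h2

end Cfsg.Agent.S0166
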