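import Mathlib
import Cfsg.Agent.Lib.H23.FSign
import Cfsg.Agent.Lib.H22.Ord
import Cfsg.Statements.S0167
-- import your own Cfsg.Agent.* helpers here

set_option autoImplicit false
open Cfsg

namespace Cfsg.Agent.S0167

open Cfsg Cfsg.Agent.H21 Cfsg.Agent.H23 in
private theorem conv {G : Type*} [Group G] [Fintype G] (ξ : IrrCharacter G) (y : G) :
    ∑ h : G, ξ.1 h * ξ.1 (h⁻¹ * y) = (Nat.card G : ℂ) / ξ.1 1 * ξ.1 y := by
  classical
  have h2 := sum_char_shift_conj ξ ξ y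
  rw [if_pos rfl] at h2
  rw [← h2]
  refine Fintype.sum_equiv (Equiv.mulLeft y⁻¹) _ _ fun h => ?_
  simp only [Equiv.coe_mulLeft, mul_inv_cancel_left]
  rw [← isCharacter_inv (isCharacter_of_irr ξ.2)]
  congr 2
  group

open Cfsg Cfsg.Agent.H21 in
private theorem delta {G : Type*} [Group G] [DecidableEq G] [Fintype G] [Fintype (IrrCharacter G)] (x : G) :
    ∑ χ : IrrCharacter G, χ.1 1 * χ.1 x = if x = 1 then (Nat.card G : ℂ) else 0 := by
  have hd : ∀ χ : IrrCharacter G, χ.1 1 = (charDegree χ.1 : ℂ) := fun χ =>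
    one_eq_charDegree (isCharacter_of_irr χ.2)
  simp only [hd]
  by_cases hx : x = 1
  · subst hx
    simp only [if_true]
    have := sum_degree_sq (G := G)
    simp only [hd]
    rw [← this]
    push_cast
    exact Finset.sum_congr rfl fun χ _ => by ring
  · rw [if_neg hx]
    exact sum_degree_mul_value_ne hx

open Cfsg Cfsg.Agent.H21 in
private theorem key {G : Type*} [Group G] [DecidableEq G] [Fintype G] [Fintype (IrrCharacter G)] (g : G) :
    ∑ a : G, ∑ b : G, (if a * b * a⁻¹ * b⁻¹ * g⁻¹ = 1 then (1 : ℂ) else 0) =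
      (Nat.card G : ℂ) * ∑ χ : IrrCharacter G, χ.1 g⁻¹ / χ.1 1 := by
  have hne : (Nat.card G : ℂ) ≠ 0 := by exact_mod_cast Nat.card_pos.ne'
  have h1 : ∀ x : G, (if x = 1 then (1 : ℂ) else 0) =
      (Nat.card G : ℂ)⁻¹ * ∑ χ : IrrCharacter G, χ.1 1 * χ.1 x := by
    intro x
    rw [delta]
    split_ifs
    · field_simp
    · simp
  simp only [h1]
  simp only [← Finset.mul_sum]
  have h2 : ∑ a : G, ∑ b : G, ∑ χ : IrrCharacter G, χ.1 1 * χ.1 (a * b * a⁻¹ * b⁻¹ * g⁻¹) =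
      ∑ χ : IrrCharacter G, ∑ b : G, χ.1 1 * ∑ a : G, χ.1 (a * b * a⁻¹ * (b⁻¹ * g⁻¹)) := by
    rw [Finset.sum_comm]
    simp_rw [Finset.sum_comm (s := (Finset.univ : Finset G)) (t := (Finset.univ : Finset (IrrCharacter G)))]
    refine Finset.sum_congr rfl fun χ _ => Finset.sum_congr rfl fun b _ => ?_
    rw [Finset.mul_sum]
    refine Finset.sum_congr rfl fun a _ => ?_
    congr 2
    group
  rw [h2]
  have h3 : ∀ (χ : IrrCharacter G) (b : G), χ.1 1 * ∑ a : G, χ.1 (a * b * a⁻¹ * (b⁻¹ * g⁻¹)) =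
      (Nat.card G : ℂ) * (χ.1 b * χ.1 (b⁻¹ * g⁻¹)) := by
    intro χ b
    rw [Cfsg.Agent.H22.sum_conj_mul_char χ b (b⁻¹ * g⁻¹)]
    have : χ.1 1 ≠ 0 := Cfsg.Agent.H22.irr_one_ne_zero' χ
    field_simp
  simp only [h3, ← Finset.mul_sum, conv]
  rw [inv_mul_cancel_left₀ hne]
  simp only [Finset.mul_sum]
  refine Finset.sum_congr rfl fun χ _ => ?_
  ring

/-- An element g of a finite group is a commutator if and only if the sum over the irreducible characters χ of χ g / χ 1 is nonzero. -/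
theorem result {G : Type*} [Group G] [Finite G] (g : G) : (∃ a b : G, g = a * b * a⁻¹ * b⁻¹) ↔ ∑ᶠ χ : Cfsg.IrrCharacter G, (χ : G → ℂ) g / (χ : G → ℂ) 1 ≠ 0 := by

  classical
  haveI := Fintype.ofFinite G
  haveI : Fintype (Cfsg.IrrCharacter G) := Fintype.ofFinite _
  rw [finsum_eq_sum_of_fintype]
  have hne : (Nat.card G : ℂ) ≠ 0 := by exact_mod_cast Nat.card_pos.ne'
  have hk := key g
  have hS : ∑ χ : Cfsg.IrrCharacter G, χ.1 g⁻¹ / χ.1 1 =
      (starRingEnd ℂ) (∑ χ : Cfsg.IrrCharacter G, χ.1 g / χ.1 1) := by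
    rw [map_sum]
    refine Finset.sum_congr rfl fun χ _ => ?_
    rw [map_div₀, Cfsg.Agent.H22.irr_inv' χ g]
    congr 1
    rw [Cfsg.Agent.H21.one_eq_charDegree (Cfsg.Agent.H21.isCharacter_of_irr χ.2)]
    simp
  rw [hS] at hk
  constructor
  · rintro ⟨a, b, rfl⟩ h0
    rw [h0, map_zero, mul_zero] at hk
    -- a nonneg sum with a positive term
    have hpos : ((∑ a' : G, ∑ b' : G, (if a' * b' * a'⁻¹ * b'⁻¹ * (a * b * a⁻¹ * b⁻¹)⁻¹ = 1 then (1 : ℕ) else 0) : ℕ) : ℂ) = 0 := by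
      push_cast
      exact hk
    have hnat : (∑ a' : G, ∑ b' : G, (if a' * b' * a'⁻¹ * b'⁻¹ * (a * b * a⁻¹ * b⁻¹)⁻¹ = 1 then (1 : ℕ) else 0) : ℕ) = 0 := by
      exact_mod_cast hpos
    rw [Finset.sum_eq_zero_iff] at hnat
    have := hnat a (Finset.mem_univ _)
    rw [Finset.sum_eq_zero_iff] at this
    have h2 := this b (Finset.mem_univ _)
    simp at h2
  · intro h0
    by_contra hc
    push Not at hc
    have : ∑ a : G, ∑ b : G, (if a * b * a⁻¹ * b⁻¹ * g⁻¹ = 1 then (1 : ℂ) else 0) = 0 := by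
      refine Finset.sum_eq_zero fun a _ => Finset.sum_eq_zero fun b _ => ?_
      rw [if_neg]
      intro h1
      exact hc a b (mul_inv_eq_one.mp h1).symm
    rw [this] at hk
    have h3 := hk.symm
    rw [mul_eq_zero] at h3
    rcases h3 with h3 | h3
    · exact hne h3
    · exact h0 ((map_eq_zero _).mp h3)


end Cfsg.Agent.S0167
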