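import Mathlib
import Cfsg.Agent.Lib.H01.CharA
import Cfsg.Statements.S0168
-- import your own Cfsg.Agent.* helpers here

set_option autoImplicit false
open Cfsg

namespace Cfsg.Agent.S0168

open scoped ComplexConjugate


/-- The Burnside–Brauer Theorem. Let χ be the character of a faithful complex representation of a finite group, taking m distinct values. Then every irreducible character has nonzero inner product with χ ^ i for some i < m. -/
theorem result {G : Type*} [Group G] [Fintype G] {V : Type*} [AddCommGroup V] [Module ℂ V] [FiniteDimensional ℂ V] (ρ : Representation ℂ G V) (hfaithful : Function.Injective ρ) (ψ : G → ℂ) (hψ : Cfsg.IsIrrCharacter G ψ) : ∃ i : ℕ, i < Nat.card (Set.range ρ.character) ∧ Cfsg.classInner (fun g => ρ.character g ^ i) ψ ≠ 0 := by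
  classical
  by_contra hcon
  push Not at hcon
  set χ := ρ.character with hχdef
  let S : Finset ℂ := Finset.univ.image χ
  have hcard : Nat.card (Set.range χ) = S.card := by
    have : (Set.range χ) = (S : Set ℂ) := by simp [S]
    rw [this, Nat.card_coe_set_eq, Set.ncard_coe_finset]
  rw [hcard] at hcon
  have hG : (Nat.card G : ℂ) ≠ 0 := by simp [Nat.card_pos.ne']
  have hzero : ∀ i < S.card, ∑ g : G, χ g ^ i * conj (ψ g) = 0 := by
    intro i hi
    have := hcon i hi
    unfold classInner at this
    exact (mul_eq_zero.mp this).resolve_left (inv_ne_zero hG)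
  let a₀ : ℂ := χ 1
  have ha₀ : a₀ ∈ S := Finset.mem_image_of_mem _ (Finset.mem_univ _)
  let P : Polynomial ℂ := ∏ a ∈ S.erase a₀, (Polynomial.X - Polynomial.C a)
  have hPdeg : P.natDegree < S.card := by
    have : P.natDegree = (S.erase a₀).card := by
      simpa [P] using Polynomial.natDegree_prod_of_monic (S.erase a₀) (fun a => Polynomial.X - Polynomial.C a) (fun a _ => Polynomial.monic_X_sub_C a)
    rw [this, Finset.card_erase_of_mem ha₀]
    have := Finset.card_pos.mpr ⟨a₀, ha₀⟩
    omega
  have hsum1 : ∑ g : G, P.eval (χ g) * conj (ψ g) = 0 := by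
    simp only [Polynomial.eval_eq_sum_range, Finset.sum_mul]
    rw [Finset.sum_comm]
    apply Finset.sum_eq_zero
    intro i hi
    have hi' : i < S.card := lt_of_le_of_lt (Nat.lt_succ_iff.mp (Finset.mem_range.mp hi)) hPdeg
    have := hzero i hi'
    calc ∑ g : G, P.coeff i * χ g ^ i * conj (ψ g) = P.coeff i * ∑ g : G, χ g ^ i * conj (ψ g) := by
          rw [Finset.mul_sum]
          exact Finset.sum_congr rfl fun g _ => by ring
      _ = 0 := by rw [this, mul_zero]
  have hPzero : ∀ g : G, g ≠ 1 → P.eval (χ g) = 0 := by
    intro g hg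
    have hne : χ g ≠ a₀ := by
      intro h
      have h2 : ρ.character g = (Module.finrank ℂ V : ℂ) := by
        rw [← Representation.char_one ρ]
        exact h
      rw [Cfsg.Agent.H21.character_eq_finrank_iff] at h2
      exact hg (hfaithful (by rw [h2, map_one]))
    simp only [P, Polynomial.eval_prod]
    apply Finset.prod_eq_zero (i := χ g)
    · exact Finset.mem_erase.mpr ⟨hne, Finset.mem_image_of_mem _ (Finset.mem_univ _)⟩
    · simp
  rw [Finset.sum_eq_single (1 : G)] at hsum1
  · have hP1 : P.eval (χ 1) ≠ 0 := by
      simp only [P, Polynomial.eval_prod]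
      rw [Finset.prod_ne_zero_iff]
      intro a ha
      simp only [Polynomial.eval_sub, Polynomial.eval_X, Polynomial.eval_C]
      exact sub_ne_zero.mpr (Finset.mem_erase.mp ha).1.symm
    have hψ1 : ψ 1 ≠ 0 := Cfsg.Agent.H06.irr_one_ne_zero' hψ
    rcases mul_eq_zero.mp hsum1 with h | h
    · exact hP1 h
    · exact hψ1 (by simpa using h)
  · intro g _ hg
    rw [hPzero g hg, zero_mul]
  · intro h; exact absurd (Finset.mem_univ _) h


end Cfsg.Agent.S0168
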