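import Mathlib
import Cfsg.Agent.Lib.H23.Ito2
import Cfsg.Agent.Lib.H21.CharCore
import Cfsg.Statements.S0169
-- import your own Cfsg.Agent.* helpers here

set_option autoImplicit false
open Cfsg

namespace Cfsg.Agent.S0169


/-- Itô's Theorem on character degrees: the degree of an irreducible complex representation of a finite group divides the index of any abelian normal subgroup. -/
theorem result {G : Type*} [Group G] [Finite G] {V : Type*} [AddCommGroup V] [Module ℂ V] [FiniteDimensional ℂ V] (ρ : Representation ℂ G V) [ρ.IsIrreducible] (H : Subgroup G) [H.Normal] (hH : ∀ a ∈ H, ∀ b ∈ H, a * b = b * a) : Module.finrank ℂ V ∣ H.index := by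
  classical
  haveI := Fintype.ofFinite G
  have h1 := Cfsg.Agent.H21.isIrrCharacter_of_rep ρ inferInstance
  have h2 := Cfsg.Agent.H23.ito_dvd h1 H hH
  have h3 := Cfsg.Agent.H21.one_eq_charDegree (Cfsg.Agent.H21.isCharacter_of_irr h1)
  rw [Representation.char_one] at h3
  have h4 : Module.finrank ℂ V = Cfsg.charDegree ρ.character := by exact_mod_cast h3
  rw [h4]; exact h2


end Cfsg.Agent.S0169
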