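import Mathlib
import Cfsg.Agent.Lib.H06.CharVirtual
import Cfsg.Statements.S0198
-- import your own Cfsg.Agent.* helpers here

set_option autoImplicit false
open Cfsg

namespace Cfsg.Agent.S0198

open Cfsg Cfsg.Agent.H21 Cfsg.Agent.H06 in
private theorem decomp {G : Type*} [Group G] [Fintype G] (f : G → ℂ)
    (hf : IsGeneralizedCharacter G f) (hn : classInner f f = 2) (h1 : f 1 = 0) :
    ∃ α β : IrrCharacter G, α ≠ β ∧ f = α.1 - β.1 := by
  classical
  haveI : Fintype (IrrCharacter G) := Fintype.ofFinite _
  obtain ⟨a, b, ha, hb, hab, rfl⟩ := exists_of_norm_two hf hn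
  have hpos : ∀ {c : G → ℂ}, IsIrrCharacter G c → ∃ d : ℕ, 0 < d ∧ c 1 = (d : ℂ) := fun {c} hc =>
    ⟨_, irr_charDegree_pos hc, one_eq_charDegree (isCharacter_of_irr hc)⟩
  rcases ha with ha | ha <;> rcases hb with hb | hb
  · exfalso
    obtain ⟨d1, hd1, e1⟩ := hpos ha
    obtain ⟨d2, hd2, e2⟩ := hpos hb
    simp only [Pi.add_apply, e1, e2] at h1
    have : d1 + d2 = 0 := by exact_mod_cast h1
    omega
  · refine ⟨⟨a, ha⟩, ⟨-b, hb⟩, ?_, by simp⟩
    intro h
    have h2 : a = -b := congrArg Subtype.val h
    have h3 : classInner a a = 1 := classInner_self_irr ⟨a, ha⟩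
    have h4 : classInner a (-b) = 0 := by rw [classInner_neg_right', hab, neg_zero]
    rw [← h2, h3] at h4
    exact one_ne_zero h4
  · refine ⟨⟨b, hb⟩, ⟨-a, ha⟩, ?_, by simp [add_comm]⟩
    intro h
    have h2 : b = -a := congrArg Subtype.val h
    have h3 : classInner b b = 1 := classInner_self_irr ⟨b, hb⟩
    have h4 : classInner (-a) b = 0 := by rw [classInner_neg_left', hab, neg_zero]
    rw [← h2, h3] at h4
    exact one_ne_zero h4
  · exfalso
    obtain ⟨d1, hd1, e1⟩ := hpos ha
    obtain ⟨d2, hd2, e2⟩ := hpos hb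
    simp only [Pi.neg_apply] at e1 e2
    simp only [Pi.add_apply] at h1
    have e3 : ((d1 + d2 : ℕ) : ℂ) = 0 := by
      push_cast
      rw [← e1, ← e2]
      linear_combination -h1
    have : d1 + d2 = 0 := by exact_mod_cast e3
    omega

private theorem inj_aux {X : Type*} {n : ℕ} (i₀ : Fin n) (a : Fin n → X) (c : X) [DecidableEq (Fin n)]
    (h1 : ∀ i, i ≠ i₀ → a i ≠ c) (h2 : ∀ i j, i ≠ i₀ → j ≠ i₀ → i ≠ j → a i ≠ a j) :
    Function.Injective (fun i => if i = i₀ then c else a i) := by
  intro i j h
  simp only at h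
  by_cases hi : i = i₀ <;> by_cases hj : j = i₀
  · rw [hi, hj]
  · rw [if_pos hi, if_neg hj] at h
    exact absurd h.symm (h1 j hj)
  · rw [if_neg hi, if_pos hj] at h
    exact absurd h (h1 i hi)
  · rw [if_neg hi, if_neg hj] at h
    by_contra hc
    exact h2 i j hi hj hc h

/-- The isometry lemma behind exceptional characters. Let τ be a family of generalized characters of a finite group G indexed by Fin n, with τ i₀ = 0, every τ i vanishing at the identity, and inner products ⟨τ i, τ j⟩ = 2 if i = j and 1 otherwise for i, j ≠ i₀. Then there are a sign ε and pairwise distinct irreducible characters μ i with τ i = ε (μ i − μ i₀) for all i. -/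
theorem result {G : Type*} [Group G] [Fintype G] (n : ℕ) (i₀ : Fin n) (τ : Fin n → (G → ℂ)) (h0 : τ i₀ = 0) (hgen : ∀ i, Cfsg.IsGeneralizedCharacter G (τ i)) (hone : ∀ i, τ i 1 = 0) (hgram : ∀ i j, i ≠ i₀ → j ≠ i₀ → Cfsg.classInner (τ i) (τ j) = if i = j then 2 else 1) : ∃ ε : ℂ, (ε = 1 ∨ ε = -1) ∧ ∃ μ : Fin n → (G → ℂ), (∀ i, Cfsg.IsIrrCharacter G (μ i)) ∧ Function.Injective μ ∧ ∀ i, τ i = ε • (μ i - μ i₀) := by

  classical
  open Cfsg Cfsg.Agent.H21 Cfsg.Agent.H06 in
  have hd : ∀ i, i ≠ i₀ → ∃ α β : IrrCharacter G, α ≠ β ∧ τ i = α.1 - β.1 := fun i hi =>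
    decomp (τ i) (hgen i) (by rw [hgram i i hi hi, if_pos rfl]) (hone i)
  let triv : Cfsg.IrrCharacter G := ⟨fun _ => 1, Cfsg.Agent.H21.isIrrCharacter_one⟩
  haveI : Nonempty (Cfsg.IrrCharacter G) := ⟨triv⟩
  choose! α β hne hτ using hd
  have hexpand : ∀ (a b c d : Cfsg.IrrCharacter G), Cfsg.classInner (a.1 - b.1) (c.1 - d.1) =
      (if a = c then (1:ℂ) else 0) - (if a = d then 1 else 0) - (if b = c then 1 else 0) +
        (if b = d then 1 else 0) := by
    intro a b c d
    rw [Cfsg.Agent.H06.classInner_sub_left', Cfsg.Agent.H06.classInner_sub_right',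
      Cfsg.Agent.H06.classInner_sub_right', Cfsg.Agent.H21.classInner_irr,
      Cfsg.Agent.H21.classInner_irr, Cfsg.Agent.H21.classInner_irr, Cfsg.Agent.H21.classInner_irr]
    ring
  have hpair : ∀ i j, i ≠ i₀ → j ≠ i₀ → i ≠ j →
      (α i = α j ∧ β i ≠ β j) ∨ (β i = β j ∧ α i ≠ α j) := by
    intro i j hi hj hij
    have h := hgram i j hi hj
    rw [if_neg hij, hτ i hi, hτ j hj, hexpand] at h
    have hi' := hne i hi
    have hj' := hne j hj
    by_cases h1 : α i = α j <;> by_cases h2 : β i = β j
    · exfalso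
      have h3 : α i ≠ β j := fun h3 => hj' (h1.symm.trans h3)
      have h4 : β i ≠ α j := fun h4 => hi' (h1.trans h4.symm)
      rw [if_pos h1, if_pos h2, if_neg h3, if_neg h4] at h
      norm_num at h
    · exact Or.inl ⟨h1, h2⟩
    · exact Or.inr ⟨h2, h1⟩
    · exfalso
      rw [if_neg h1, if_neg h2] at h
      split_ifs at h <;> norm_num at h
  have htriple : ∀ i j k, i ≠ i₀ → j ≠ i₀ → k ≠ i₀ → i ≠ j → j ≠ k → α i = α j → β j = β k → False := by
    intro i j k hi hj hk hij hjk h1 h2
    have h3 : β i ≠ β j := by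
      rcases hpair i j hi hj hij with h | h
      · exact h.2
      · exact absurd h1 h.2
    have h4 : α j ≠ α k := by
      rcases hpair j k hj hk hjk with h | h
      · exact absurd h2 h.2
      · exact h.2
    have hik : i ≠ k := by
      rintro rfl
      exact h4 h1.symm
    rcases hpair i k hi hk hik with h | h
    · exact h4 (h1.symm.trans h.1)
    · exact h3 (h.1.trans h2.symm)
  by_cases hex : ∃ i₁, i₁ ≠ i₀
  · obtain ⟨i₁, hi₁⟩ := hex
    by_cases hA : ∀ i j, i ≠ i₀ → j ≠ i₀ → α i = α j
    · -- all `α` agree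
      refine ⟨-1, Or.inr rfl, fun i => ((if i = i₀ then α i₁ else β i : Cfsg.IrrCharacter G)).1,
        fun i => Subtype.property _, ?_, ?_⟩
      · refine Function.Injective.comp Subtype.val_injective (inj_aux i₀ β (α i₁) ?_ ?_)
        · intro i hi h
          exact hne i hi ((hA i i₁ hi hi₁).trans h.symm)
        · intro i j hi hj hij
          rcases hpair i j hi hj hij with h | h
          · exact h.2
          · exact absurd (hA i j hi hj) h.2
      · intro i
        by_cases hi : i = i₀
        · subst hi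
          simp [h0]
        · rw [hτ i hi]
          simp only [if_pos, if_neg hi]
          rw [hA i i₁ hi hi₁]
          ext g
          simp
    · push Not at hA
      obtain ⟨a, b, ha, hb, hab⟩ := hA
      have hB : ∀ i, i ≠ i₀ → β i = β a := by
        intro k hk
        by_cases hka : k = a
        · rw [hka]
        have hab' : a ≠ b := by
          rintro rfl
          exact hab rfl
        have hβab : β a = β b := by
          rcases hpair a b ha hb hab' with h | h
          · exact absurd h.1 hab
          · exact h.1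
        rcases hpair k a hk ha hka with h | h
        · exfalso
          exact htriple k a b hk ha hb hka hab' h.1 hβab
        · exact h.1
      refine ⟨1, Or.inl rfl, fun i => ((if i = i₀ then β i₁ else α i : Cfsg.IrrCharacter G)).1,
        fun i => Subtype.property _, ?_, ?_⟩
      · refine Function.Injective.comp Subtype.val_injective (inj_aux i₀ α (β i₁) ?_ ?_)
        · intro i hi h
          exact hne i hi (h.trans ((hB i₁ hi₁).trans (hB i hi).symm))
        · intro i j hi hj hij
          rcases hpair i j hi hj hij with h | h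
          · exact absurd ((hB i hi).trans (hB j hj).symm) h.2
          · exact h.2
      · intro i
        by_cases hi : i = i₀
        · subst hi
          simp [h0]
        · rw [hτ i hi]
          simp only [if_pos, if_neg hi]
          rw [hB i hi, ← hB i₁ hi₁]
          simp
  · push Not at hex
    refine ⟨1, Or.inl rfl, fun _ => triv.1, fun _ => triv.2, ?_, ?_⟩
    · intro i j _
      rw [hex i, hex j]
    · intro i
      rw [hex i, h0]
      simp


end Cfsg.Agent.S0198
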