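import Mathlib
import Cfsg.Agent.S0198
import Cfsg.Agent.Lib.H06.CharLin
import Cfsg.Agent.Lib.H06.Brauer1
import Cfsg.Statements.S0170
-- import your own Cfsg.Agent.* helpers here

set_option autoImplicit false
open Cfsg

namespace Cfsg.Agent.S0170

private theorem aux {G : Type*} [Group G] [Fintype G] (N : Subgroup G) (A : Set G)
    (hfus : ∀ x : G, ∀ a ∈ A, x⁻¹ * a * x ∈ A → x ∈ N) (n : ℕ) (hn : 2 ≤ n)
    (χ : Fin n → (N → ℂ)) (hirr : ∀ i, Cfsg.IsIrrCharacter N (χ i)) (hinj : Function.Injective χ)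
    (hvan : ∀ i j, ∀ x : N, (x : G) ∉ A → χ i x = χ j x) (hdeg : ∀ i j, χ i 1 = χ j 1) :
    ∃ ε : ℂ, (ε = 1 ∨ ε = -1) ∧ ∃ θ : Fin n → (G → ℂ), (∀ i, Cfsg.IsIrrCharacter G (θ i)) ∧
      Function.Injective θ ∧ ∀ i j, Cfsg.indFun N (χ i) - Cfsg.indFun N (χ j) = ε • (θ i - θ j) := by
  classical
  have hn0 : 0 < n := by omega
  let i₀ : Fin n := ⟨0, hn0⟩
  haveI : Fintype N := Fintype.ofFinite _
  haveI : Fintype (Cfsg.IrrCharacter G) := Fintype.ofFinite _
  haveI : Fintype (Cfsg.IrrCharacter N) := Fintype.ofFinite _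
  let f : Fin n → (N → ℂ) := fun i => χ i - χ i₀
  have hcl : ∀ i, Cfsg.IsClassFunction N (f i) := by
    intro i g h
    simp only [f, Pi.sub_apply]
    rw [Cfsg.Agent.H21.isClassFunction_of_isCharacter (Cfsg.Agent.H21.isCharacter_of_irr (hirr i)),
      Cfsg.Agent.H21.isClassFunction_of_isCharacter (Cfsg.Agent.H21.isCharacter_of_irr (hirr i₀))]
  have hvanA : ∀ i, ∀ x : N, (x : G) ∉ A → f i x = 0 := by
    intro i x hx
    simp only [f, Pi.sub_apply]
    rw [hvan i i₀ x hx, sub_self]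
  have hiso : ∀ i j, Cfsg.classInner (Cfsg.indFun N (f i)) (Cfsg.indFun N (f j)) =
      Cfsg.classInner (f i) (f j) := by
    intro i j
    rw [Cfsg.Agent.H21.frobenius_reciprocity N (f i) _ (Cfsg.Agent.H21.indFun_isClass N (f j))]
    simp only [Cfsg.classInner]
    congr 1
    refine Finset.sum_congr rfl fun x _ => ?_
    by_cases hx : (x : G) ∈ A
    · rw [Cfsg.Agent.H06.indFun_eq_of_fusion N A (hcl j) (hvanA j) hfus x hx]
    · rw [hvanA i x hx, zero_mul, zero_mul]
  let τ : Fin n → (G → ℂ) := fun i => Cfsg.indFun N (f i)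
  have hτ : ∀ i, τ i = Cfsg.indFun N (χ i) - Cfsg.indFun N (χ i₀) := fun i =>
    Cfsg.Agent.H06.Brauer.indFun_sub' N (χ i) (χ i₀)
  have h0 : τ i₀ = 0 := by
    rw [hτ, sub_self]
  have hgen : ∀ i, Cfsg.IsGeneralizedCharacter G (τ i) := by
    intro i
    rw [hτ]
    exact ⟨_, _, Cfsg.Agent.H21.isCharacter_indFun N (Cfsg.Agent.H21.isCharacter_of_irr (hirr i)),
      Cfsg.Agent.H21.isCharacter_indFun N (Cfsg.Agent.H21.isCharacter_of_irr (hirr i₀)), rfl⟩
  have hone : ∀ i, τ i 1 = 0 := by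
    intro i
    simp only [τ, Cfsg.indFun]
    have hz : Cfsg.extendByZero N (f i) 1 = 0 := by
      have h1 : (1 : G) = ((1 : N) : G) := rfl
      rw [h1, Cfsg.Agent.H21.extendByZero_coe]
      simp only [f, Pi.sub_apply]
      rw [hdeg i i₀, sub_self]
    simp [hz]
  have hgram : ∀ i j, i ≠ i₀ → j ≠ i₀ → Cfsg.classInner (τ i) (τ j) = if i = j then 2 else 1 := by
    intro i j hi hj
    simp only [τ]
    rw [hiso]
    simp only [f]
    rw [Cfsg.Agent.H06.classInner_sub_left', Cfsg.Agent.H06.classInner_sub_right',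
      Cfsg.Agent.H06.classInner_sub_right']
    have hI : ∀ a b : Fin n, Cfsg.classInner (χ a) (χ b) = if a = b then 1 else 0 := by
      intro a b
      have := Cfsg.Agent.H21.classInner_irr (⟨χ a, hirr a⟩ : Cfsg.IrrCharacter N) ⟨χ b, hirr b⟩
      simp only at this
      rw [this]
      by_cases hab : a = b
      · subst hab; simp
      · rw [if_neg hab, if_neg]
        intro h
        exact hab (hinj (congrArg Subtype.val h))
    rw [hI, hI, hI, hI, if_neg hi, if_neg (Ne.symm hj), if_pos rfl]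
    by_cases hij : i = j <;> simp [hij] <;> norm_num
  obtain ⟨ε, hε, θ, hθ, hθinj, hθτ⟩ := Cfsg.Agent.S0198.result n i₀ τ h0 hgen hone hgram
  refine ⟨ε, hε, θ, hθ, hθinj, fun i j => ?_⟩
  have e1 := hτ i
  have e2 := hτ j
  rw [hθτ i] at e1
  rw [hθτ j] at e2
  have : Cfsg.indFun N (χ i) - Cfsg.indFun N (χ j) =
      (Cfsg.indFun N (χ i) - Cfsg.indFun N (χ i₀)) - (Cfsg.indFun N (χ j) - Cfsg.indFun N (χ i₀)) := by
    abel
  rw [this, ← e1, ← e2, ← smul_sub]
  congr 1
  abel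

/-- Exceptional characters. Let S be a subset of a finite group contained in its normalizer N and meeting its conjugates by elements outside N only in the identity. Given n ≥ 2 distinct irreducible characters of N of equal degree that vanish on N away from S, there exist a sign ε and n distinct irreducible characters θ_i of G such that inducing χ_i − χ_j to G gives ε (θ_i − θ_j) for all i, j. -/
theorem result {G : Type*} [Group G] [Fintype G] (S : Set G) (hSN : S ⊆ Subgroup.normalizer S) (hTI : ∀ g : G, g ∉ Subgroup.normalizer S → ∀ s ∈ S, g * s * g⁻¹ ∈ S → s = 1) (n : ℕ) (hn : 2 ≤ n) (χ : Fin n → (Subgroup.normalizer S → ℂ)) (hirr : ∀ i, Cfsg.IsIrrCharacter (Subgroup.normalizer S) (χ i)) (hinj : Function.Injective χ) (hvan : ∀ i, ∀ x : Subgroup.normalizer S, (x : G) ∉ S → χ i x = 0) (hdeg : ∀ i j, χ i 1 = χ j 1) : ∃ ε : ℂ, (ε = 1 ∨ ε = -1) ∧ ∃ θ : Fin n → (G → ℂ), (∀ i, Cfsg.IsIrrCharacter G (θ i)) ∧ Function.Injective θ ∧ ∀ i j, Cfsg.indFun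 (Subgroup.normalizer S) (χ i) - Cfsg.indFun (Subgroup.normalizer S) (χ j) = ε • (θ i - θ j) := by

  refine aux (Subgroup.normalizer S) (S \ {1}) ?_ n hn χ hirr hinj ?_ hdeg
  · intro x a ha hxa
    by_contra hx
    have hx' : x⁻¹ ∉ Subgroup.normalizer S := fun h => hx (by simpa using (Subgroup.normalizer S).inv_mem h)
    have := hTI x⁻¹ hx' a ha.1 (by simpa using hxa.1)
    exact ha.2 this
  · intro i j x hx
    by_cases hxS : (x : G) ∈ S
    · have hx1 : x = 1 := by
        by_contra hne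
        exact hx ⟨hxS, fun h => hne (Subtype.ext h)⟩
      rw [hx1, hdeg i j]
    · rw [hvan i x hxS, hvan j x hxS]


end Cfsg.Agent.S0170
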