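import Mathlib
import Cfsg.Agent.Lib.H20.ClassCount
import Cfsg.Statements.S0172
-- import your own Cfsg.Agent.* helpers here

set_option autoImplicit false
open Cfsg

namespace Cfsg.Agent.S0172

private theorem card_cent_conj {G : Type*} [Group G] (u x : G) :
    Nat.card (Subgroup.centralizer ({u * x * u⁻¹} : Set G)) =
      Nat.card (Subgroup.centralizer ({x} : Set G)) := by
  refine Nat.card_congr ?_
  exact
    { toFun := fun z => ⟨u⁻¹ * z.1 * u, by
        have := Subgroup.mem_centralizer_singleton_iff.mp z.2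
        rw [Subgroup.mem_centralizer_singleton_iff]
        have h2 : z.1 * (u * x * u⁻¹) = (u * x * u⁻¹) * z.1 := this
        calc u⁻¹ * z.1 * u * x = u⁻¹ * (z.1 * (u * x * u⁻¹)) * u := by group
          _ = u⁻¹ * ((u * x * u⁻¹) * z.1) * u := by rw [h2]
          _ = x * (u⁻¹ * z.1 * u) := by group⟩
      invFun := fun z => ⟨u * z.1 * u⁻¹, by
        have := Subgroup.mem_centralizer_singleton_iff.mp z.2
        rw [Subgroup.mem_centralizer_singleton_iff]
        have h2 : z.1 * x = x * z.1 := this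
        calc u * z.1 * u⁻¹ * (u * x * u⁻¹) = u * (z.1 * x) * u⁻¹ := by group
          _ = u * (x * z.1) * u⁻¹ := by rw [h2]
          _ = u * x * u⁻¹ * (u * z.1 * u⁻¹) := by group⟩
      left_inv := fun z => by apply Subtype.ext; simp only; group
      right_inv := fun z => by apply Subtype.ext; simp only; group }

/-- Class number of a Frobenius group: if G = K H with K normal, K ⊓ H trivial and no non-identity element of H commuting with a non-identity element of K, then |H| * k(G) + 1 = |H| * k(H) + k(K), where k denotes the number of conjugacy classes. -/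
theorem result {G : Type*} [Group G] [Finite G] (K H : Subgroup G) [K.Normal] (hKH : K ⊓ H = ⊥) (hKH' : K ⊔ H = ⊤) (hfpf : ∀ h ∈ H, h ≠ 1 → ∀ k ∈ K, h * k = k * h → k = 1) : Nat.card H * Nat.card (ConjClasses G) + 1 = Nat.card H * Nat.card (ConjClasses H) + Nat.card (ConjClasses K) := by

  classical
  haveI := Fintype.ofFinite G
  haveI : Fintype K := Fintype.ofFinite _
  haveI : Fintype H := Fintype.ofFinite _
  have hKnorm : ∀ (g k : G), k ∈ K → g * k * g⁻¹ ∈ K := fun g k hk => ‹K.Normal›.conj_mem k hk g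
  have hdisj : ∀ x, x ∈ K → x ∈ H → x = 1 := fun x h1 h2 => by
    have : x ∈ K ⊓ H := ⟨h1, h2⟩
    rw [hKH] at this
    simpa using this
  have hdecomp : ∀ y : G, ∃ k ∈ K, ∃ h ∈ H, y = k * h := by
    intro y
    have : y ∈ ((K ⊔ H : Subgroup G) : Set G) := by rw [hKH']; trivial
    rw [Subgroup.normal_mul] at this
    obtain ⟨k, hk, h, hh, e⟩ := Set.mem_mul.mp this
    exact ⟨k, hk, h, hh, e.symm⟩
  -- centralizers of elements of `H`
  have hCH : ∀ h ∈ H, h ≠ 1 → ∀ y : G, y * h = h * y → y ∈ H := by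
    intro h hh hne y hy
    obtain ⟨k, hk, h', hh', rfl⟩ := hdecomp y
    set h'' := h' * h * h'⁻¹ with hh''
    have hh''H : h'' ∈ H := H.mul_mem (H.mul_mem hh' hh) (H.inv_mem hh')
    have e1 : k * h'' = h * k := by
      calc k * h'' = (k * h' * h) * h'⁻¹ := by rw [hh'']; group
        _ = (h * (k * h')) * h'⁻¹ := by rw [hy]
        _ = h * k := by group
    have e2 : h⁻¹ * h'' = (h⁻¹ * k⁻¹ * h) * k := by
      calc h⁻¹ * h'' = h⁻¹ * k⁻¹ * (k * h'') := by group
        _ = h⁻¹ * k⁻¹ * (h * k) := by rw [e1]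
        _ = _ := by group
    have hk1 : (h⁻¹ * k⁻¹ * h) ∈ K := by
      have := hKnorm h⁻¹ k⁻¹ (K.inv_mem hk)
      simpa using this
    have e3 : h⁻¹ * h'' = 1 := hdisj _ (by rw [e2]; exact K.mul_mem hk1 hk)
      (H.mul_mem (H.inv_mem hh) hh''H)
    have e4 : h'' = h := by
      have := congrArg (h * ·) e3
      simpa using this
    rw [e4] at e1
    have := hfpf h hh hne k hk e1.symm
    rw [this, one_mul]
    exact hh'
  -- The map
  let f : K ⊕ (K × {h : H // h ≠ 1}) → G := fun t => match t with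
    | Sum.inl x => (x : G)
    | Sum.inr p => (p.1 : G) * (p.2.1 : G) * (p.1 : G)⁻¹
  have hmod : ∀ (u : K) (h : H), ∃ k ∈ K, (u : G) * (h : G) * (u : G)⁻¹ = k * (h : G) := by
    intro u h
    refine ⟨(u : G) * ((h : G) * (u : G)⁻¹ * (h : G)⁻¹), K.mul_mem u.2 ?_, by group⟩
    exact hKnorm _ _ (K.inv_mem u.2)
  have huniq : ∀ (k k' : G) (h h' : G), k ∈ K → k' ∈ K → h ∈ H → h' ∈ H → k * h = k' * h' → h = h' := by
    intro k k' h h' hk hk' hh hh' e
    have e1 : k'⁻¹ * k = h' * h⁻¹ := by
      calc k'⁻¹ * k = k'⁻¹ * (k * h) * h⁻¹ := by group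
        _ = k'⁻¹ * (k' * h') * h⁻¹ := by rw [e]
        _ = _ := by group
    have e2 : h' * h⁻¹ = 1 := hdisj _ (by rw [← e1]; exact K.mul_mem (K.inv_mem hk') hk)
      (H.mul_mem hh' (H.inv_mem hh))
    have := congrArg (· * h) e2
    simpa using this.symm
  have hf : Function.Injective f := by
    rintro (x | ⟨u, h⟩) (y | ⟨v, h'⟩) e
    · simp only [f] at e
      rw [Subtype.ext e]
    · exfalso
      simp only [f] at e
      obtain ⟨k, hk, e2⟩ := hmod v h'.1
      rw [e2] at e
      have := huniq (x : G) k 1 (h'.1 : G) x.2 hk H.one_mem h'.1.2 (by rw [mul_one]; exact e)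
      exact h'.2 (Subtype.ext this.symm)
    · exfalso
      simp only [f] at e
      obtain ⟨k, hk, e2⟩ := hmod u h.1
      rw [e2] at e
      have := huniq (y : G) k 1 (h.1 : G) y.2 hk H.one_mem h.1.2 (by rw [mul_one]; exact e.symm)
      exact h.2 (Subtype.ext this.symm)
    · simp only [f] at e
      obtain ⟨k, hk, e2⟩ := hmod u h.1
      obtain ⟨k', hk', e3⟩ := hmod v h'.1
      have hhh : (h.1 : G) = (h'.1 : G) :=
        huniq k k' _ _ hk hk' h.1.2 h'.1.2 (by rw [← e2, ← e3]; exact e)
      have hhh' : h = h' := Subtype.ext (Subtype.ext hhh)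
      subst hhh'
      have hcomm : ((v : G)⁻¹ * (u : G)) * (h.1 : G) = (h.1 : G) * ((v : G)⁻¹ * (u : G)) := by
        calc ((v : G)⁻¹ * (u : G)) * (h.1 : G) = (v : G)⁻¹ * ((u : G) * (h.1 : G) * (u : G)⁻¹) * (u : G) := by group
          _ = (v : G)⁻¹ * ((v : G) * (h.1 : G) * (v : G)⁻¹) * (u : G) := by rw [e]
          _ = _ := by group
      have h1 : (v : G)⁻¹ * (u : G) = 1 :=
        hfpf _ h.1.2 (fun hc => h.2 (Subtype.ext hc)) _ (K.mul_mem (K.inv_mem v.2) u.2) hcomm.symm
      have h2 : (u : G) = v := by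
        have := congrArg ((v : G) * ·) h1
        simpa using this
      rw [Subtype.ext h2]
  have hc : K.IsComplement' H :=
    Subgroup.isComplement'_of_disjoint_and_mul_eq_univ (disjoint_iff.mpr hKH)
      (by rw [← Subgroup.normal_mul, hKH']; rfl)
  have hcardG : Nat.card K * Nat.card H = Nat.card G := hc.card_mul
  have hposK : 0 < Nat.card K := Nat.card_pos
  have hposH : 0 < Nat.card H := Nat.card_pos
  have hsub : Nat.card {h : H // h ≠ 1} + 1 = Nat.card H := by
    rw [Nat.card_eq_fintype_card, Nat.card_eq_fintype_card, Fintype.card_subtype_compl,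
      Fintype.card_subtype_eq]
    have : 0 < Fintype.card H := Fintype.card_pos
    omega
  have hbij : Function.Bijective f := by
    rw [Nat.bijective_iff_injective_and_card]
    refine ⟨hf, ?_⟩
    rw [Nat.card_sum, Nat.card_prod, ← hcardG, ← hsub]
    ring
  let e : K ⊕ (K × {h : H // h ≠ 1}) ≃ G := Equiv.ofBijective f hbij
  -- centralizers of elements of `K`
  have hCK : ∀ x : K, (x : G) ≠ 1 → ∀ y : G, y * x = x * y → y ∈ K := by
    intro x hx y hy
    by_contra hyK
    obtain ⟨t, rfl⟩ := hbij.2 y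
    rcases t with y' | ⟨u, h⟩
    · exact hyK y'.2
    · simp only [f] at hy
      have h1 : (h.1 : G) * ((u : G)⁻¹ * x * u) = ((u : G)⁻¹ * x * u) * (h.1 : G) := by
        calc (h.1 : G) * ((u : G)⁻¹ * x * u) = (u : G)⁻¹ * ((u : G) * (h.1 : G) * (u : G)⁻¹ * x) * u := by group
          _ = (u : G)⁻¹ * (x * ((u : G) * (h.1 : G) * (u : G)⁻¹)) * u := by rw [hy]
          _ = _ := by group
      have h2 := hfpf _ h.1.2 (fun hc => h.2 (Subtype.ext hc)) ((u : G)⁻¹ * x * u)
        (K.mul_mem (K.mul_mem (K.inv_mem u.2) x.2) u.2) h1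
      apply hx
      have := congrArg (fun z => (u : G) * z * (u : G)⁻¹) h2
      simpa [mul_assoc] using this
  have hcH : ∀ h : {h : H // h ≠ 1}, Nat.card (Subgroup.centralizer ({((h.1 : H) : G)} : Set G)) =
      Nat.card (H ⊓ Subgroup.centralizer ({((h.1 : H) : G)} : Set G) : Subgroup G) := by
    intro h
    have : (Subgroup.centralizer ({((h.1 : H) : G)} : Set G)) = H ⊓ Subgroup.centralizer ({((h.1 : H) : G)} : Set G) := by
      refine le_antisymm (fun y hy => ⟨?_, hy⟩) inf_le_right
      refine hCH _ h.1.2 (fun hc => h.2 (Subtype.ext hc)) y ?_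
      exact (Subgroup.mem_centralizer_singleton_iff.mp hy)
    rw [← this]
  have hcK : ∀ x : {x : K // x ≠ 1}, Nat.card (Subgroup.centralizer ({((x.1 : K) : G)} : Set G)) =
      Nat.card (K ⊓ Subgroup.centralizer ({((x.1 : K) : G)} : Set G) : Subgroup G) := by
    intro x
    have : (Subgroup.centralizer ({((x.1 : K) : G)} : Set G)) = K ⊓ Subgroup.centralizer ({((x.1 : K) : G)} : Set G) := by
      refine le_antisymm (fun y hy => ⟨?_, hy⟩) inf_le_right
      refine hCK _ (fun hc => x.2 (Subtype.ext hc)) y ?_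
      exact (Subgroup.mem_centralizer_singleton_iff.mp hy)
    rw [← this]
  have h1 := Cfsg.Agent.H20.card_conjClasses_mul_card_eq_sum (X := G)
  rw [← Fintype.sum_equiv e (fun t => Nat.card (Subgroup.centralizer ({e t} : Set G))) _ (fun t => rfl),
    Fintype.sum_sum_type, Fintype.sum_prod_type] at h1
  have h2 : ∑ x : K × {h : H // h ≠ 1}, 0 = 0 := by simp
  have h3 : ∀ (u : K) (h : {h : H // h ≠ 1}),
      Nat.card (Subgroup.centralizer ({e (Sum.inr (u, h))} : Set G)) =
        Nat.card (H ⊓ Subgroup.centralizer ({((h.1 : H) : G)} : Set G) : Subgroup G) := by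
    intro u h
    rw [← hcH h]
    exact card_cent_conj (u : G) ((h.1 : H) : G)
  simp only [h3] at h1
  simp only [Finset.sum_const, Finset.card_univ, smul_eq_mul] at h1
  have h4 := Cfsg.Agent.H20.card_conjClasses_subgroup_mul_card_eq_sum (X := G) H
  have h5 := Cfsg.Agent.H20.card_conjClasses_subgroup_mul_card_eq_sum (X := G) K
  rw [Fintype.sum_eq_add_sum_subtype_ne _ (1 : H)] at h4
  rw [Fintype.sum_eq_add_sum_subtype_ne _ (1 : K)] at h5
  have h1' := h1
  rw [Fintype.sum_eq_add_sum_subtype_ne _ (1 : K)] at h1'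
  simp only [← hcK] at h5
  have hc1 : Subgroup.centralizer ({(1:G)} : Set G) = ⊤ := by
    ext x; simp [Subgroup.mem_centralizer_singleton_iff]
  have hone : ∀ (A : Subgroup G), Nat.card (A ⊓ Subgroup.centralizer ({((1 : A) : G)} : Set G) : Subgroup G) = Nat.card A := by
    intro A
    rw [Subgroup.coe_one, hc1, inf_top_eq]
  rw [hone] at h4 h5
  have hone' : Nat.card (Subgroup.centralizer ({e (Sum.inl (1 : K))} : Set G)) = Nat.card G := by
    change Nat.card (Subgroup.centralizer ({((1 : K) : G)} : Set G)) = Nat.card G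
    rw [Subgroup.coe_one, hc1]
    exact Nat.card_congr Subgroup.topEquiv.toEquiv
  rw [hone'] at h1'
  have hKfin : Fintype.card K = Nat.card K := Nat.card_eq_fintype_card.symm
  rw [hKfin] at h1'
  set A := ∑ x : {x : K // x ≠ 1}, Nat.card (Subgroup.centralizer ({((x.1 : K) : G)} : Set G)) with hA
  set B := ∑ i : {h : H // h ≠ 1}, Nat.card (H ⊓ Subgroup.centralizer ({((i.1 : H) : G)} : Set G) : Subgroup G) with hB
  have hA' : ∑ i : {x : K // x ≠ 1}, Nat.card (Subgroup.centralizer ({e (Sum.inl i.1)} : Set G)) = A := rfl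
  rw [hA', ← hcardG] at h1'
  set a := Nat.card K
  set b := Nat.card H
  set kG := Nat.card (ConjClasses G)
  set kH := Nat.card (ConjClasses H)
  set kK := Nat.card (ConjClasses K)
  apply Nat.eq_of_mul_eq_mul_left hposK
  have : a * (b * kG + 1) = kG * (a * b) + a := by ring
  rw [this, h1']
  have : a * (b * kH + kK) = a * (kH * b) + kK * a := by ring
  rw [this, h4, h5]
  ring
end Cfsg.Agent.S0172
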