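import Mathlib
import Cfsg.Agent.Lib.H06.CharBrauer
import Cfsg.Statements.S0173
-- import your own Cfsg.Agent.* helpers here

set_option autoImplicit false
open Cfsg

namespace Cfsg.Agent.S0173


/-- Brauer's permutation lemma for a single automorphism: the number of conjugacy classes mapped to themselves equals the number of irreducible complex characters χ with χ ∘ α = χ. -/
theorem result {G : Type*} [Group G] [Finite G] (α : G ≃* G) : Nat.card {C : ConjClasses G // ConjClasses.map α.toMonoidHom C = C} = Nat.card {χ : Cfsg.IrrCharacter G // (χ : G → ℂ) ∘ α = (χ : G → ℂ)} := by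
  classical
  haveI := Fintype.ofFinite G
  exact (Cfsg.Agent.H06.brauer_perm α).symm


end Cfsg.Agent.S0173
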