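import Mathlib
import Cfsg.Agent.Lib.H01.CharA
import Cfsg.Agent.Lib.H06.CharClifford2
import Cfsg.Statements.S0174
-- import your own Cfsg.Agent.* helpers here

set_option autoImplicit false
open Cfsg

namespace Cfsg.Agent.S0174

open scoped ComplexConjugate


/-- The Clifford Theorem for characters: if θ is an irreducible character of a finite group G, N is a normal subgroup and χ is an irreducible character of N occurring in the restriction of θ, then θ restricted to N equals e times the sum of the distinct G-conjugates of χ, where e is the inner product of the restriction with χ. -/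
theorem result {G : Type*} [Group G] [Fintype G] (N : Subgroup G) [Fintype N] (hN : N.Normal) (θ : G → ℂ) (hθ : Cfsg.IsIrrCharacter G θ) (χ : N → ℂ) (hχ : Cfsg.IsIrrCharacter N χ) (hconst : Cfsg.classInner (fun n : N => θ n) χ ≠ 0) : (fun n : N => θ n) = Cfsg.classInner (fun n : N => θ n) χ • ∑ᶠ ψ ∈ {ψ : N → ℂ | ∃ g : G, ψ = fun n : N => χ ⟨g * n * g⁻¹, hN.conj_mem n n.2 g⟩}, ψ := by
  classical
  haveI := hN
  haveI : Fintype (IrrCharacter G) := Fintype.ofFinite _
  haveI : Fintype (IrrCharacter N) := Fintype.ofFinite _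
  set e := classInner (fun n : N => θ n) χ with he
  have hθc := Cfsg.Agent.H21.isCharacter_of_irr hθ
  have hcl := Cfsg.Agent.H21.isClassFunction_of_isCharacter hθc
  have hres := Cfsg.Agent.H21.isCharacter_restrict N hθc
  have hχc := Cfsg.Agent.H21.isCharacter_of_irr hχ
  -- the orbit sum
  let O : Finset (N → ℂ) := Finset.univ.image (Cfsg.Agent.H06.twist N χ)
  have hOset : {ψ : N → ℂ | ∃ g : G, ψ = fun n : N => χ ⟨g * n * g⁻¹, hN.conj_mem n n.2 g⟩}
      = (O : Set (N → ℂ)) := by
    ext ψ
    simp only [Set.mem_setOf_eq, O, Finset.coe_image, Finset.coe_univ, Set.image_univ, Set.mem_range]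
    constructor
    · rintro ⟨g, rfl⟩
      exact ⟨g, rfl⟩
    · rintro ⟨g, rfl⟩
      exact ⟨g, rfl⟩
  rw [hOset, finsum_mem_coe_finset]
  have hOirr : ∀ ψ ∈ O, IsIrrCharacter N ψ := by
    intro ψ hψ
    obtain ⟨g, -, rfl⟩ := Finset.mem_image.mp hψ
    exact Cfsg.Agent.H06.isIrrCharacter_twist N hχ g
  have hclO : ∀ ψ ∈ O, IsClassFunction N ψ := fun ψ hψ =>
    Cfsg.Agent.H21.isClassFunction_of_isCharacter (Cfsg.Agent.H21.isCharacter_of_irr (hOirr ψ hψ))
  -- inner product with a member of the orbit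
  have hinvar : ∀ g : G, classInner (fun n : N => θ n) (Cfsg.Agent.H06.twist N χ g) = e := by
    intro g
    unfold classInner
    rw [he]
    unfold classInner
    congr 1
    let σ : N ≃ N := (MulAut.conjNormal g : MulAut N).toEquiv
    refine Fintype.sum_equiv σ _ _ fun n => ?_
    have h1 : θ ((σ n : N) : G) = θ n := by
      have : ((σ n : N) : G) = g * n * g⁻¹ := by simp [σ]
      rw [this]
      exact hcl _ _
    show θ n * conj (Cfsg.Agent.H06.twist N χ g n) = θ ((σ n : N) : G) * conj (χ (σ n))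
    rw [h1]
    rfl
  -- constituents of the restriction lie in the orbit
  have hout : ∀ ψ : IrrCharacter N, (ψ : N → ℂ) ∉ O → classInner (fun n : N => θ n) (ψ : N → ℂ) = 0 := by
    intro ψ hψ
    have hXc := Cfsg.Agent.H21.isCharacter_indFun N hχc
    have hψc := Cfsg.Agent.H21.isCharacter_of_irr ψ.2
    have hXN : classInner ((Cfsg.indFun N χ) ∘ N.subtype) (ψ : N → ℂ) = 0 := by
      have h0 : (Cfsg.indFun N χ) ∘ N.subtype = fun h : N => Cfsg.indFun N χ h := rfl
      rw [h0, Cfsg.Agent.H06.indFun_restrict_eq_sum_twist, Cfsg.Agent.H21.classInner_smul_left,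
        Cfsg.Agent.H21.classInner_sum_left]
      rw [Finset.sum_eq_zero, mul_zero]
      intro g _
      apply Cfsg.Agent.H06.classInner_irr_ne (Cfsg.Agent.H06.isIrrCharacter_twist N hχ g) ψ.2
      intro h
      apply hψ
      rw [← h]
      exact Finset.mem_image_of_mem _ (Finset.mem_univ _)
    obtain ⟨a, ha⟩ : ∃ a : IrrCharacter G → ℕ, ∀ φ : IrrCharacter G,
        classInner (Cfsg.indFun N χ) (φ : G → ℂ) = a φ := by
      choose a ha using Cfsg.Agent.H21.classInner_isNat hXc
      exact ⟨a, ha⟩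
    obtain ⟨b, hb⟩ : ∃ b : IrrCharacter G → ℕ, ∀ φ : IrrCharacter G,
        classInner ((φ : G → ℂ) ∘ N.subtype) (ψ : N → ℂ) = b φ := by
      have : ∀ φ : IrrCharacter G, ∃ m : ℕ, classInner ((φ : G → ℂ) ∘ N.subtype) (ψ : N → ℂ) = m :=
        fun φ => Cfsg.Agent.H21.classInner_isCharacter_nat
          (Cfsg.Agent.H21.isCharacter_restrict N (Cfsg.Agent.H21.isCharacter_of_irr φ.2)) hψc
      choose b hb using this
      exact ⟨b, hb⟩
    have hle := Cfsg.Agent.H06.inner_comp_ge N.subtype hXc hψc {(⟨θ, hθ⟩ : IrrCharacter G)} a b 0 ha hb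
      (by simpa using hXN)
    simp only [Finset.sum_singleton, Nat.le_zero, mul_eq_zero] at hle
    rcases hle with h | h
    · exfalso
      have h1 := ha ⟨θ, hθ⟩
      rw [h, Cfsg.Agent.H21.frobenius_reciprocity N _ _ hcl] at h1
      apply hconst
      rw [he, ← Cfsg.Agent.H21.classInner_comm_conj]
      have h2 : classInner χ (fun h : N => θ h) = 0 := by simpa using h1
      rw [h2]
      simp
    · have h1 := hb ⟨θ, hθ⟩
      rw [h] at h1
      have h3 : classInner (fun n : N => θ n) (ψ : N → ℂ) = ((0 : ℕ) : ℂ) := h1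
      simpa using h3
  -- conclude
  apply Cfsg.Agent.H21.classFunction_ext (Cfsg.Agent.H21.isClassFunction_of_isCharacter hres)
  · intro g k
    simp only [Pi.smul_apply, Finset.sum_apply]
    congr 1
    exact Finset.sum_congr rfl fun ψ hψ => hclO ψ hψ g k
  · intro ψ
    rw [Cfsg.Agent.H21.classInner_smul_left, Cfsg.Agent.H21.classInner_sum_left]
    by_cases hψ : (ψ : N → ℂ) ∈ O
    · rw [Finset.sum_eq_single (ψ : N → ℂ)]
      · rw [Cfsg.Agent.H06.classInner_irr_self ψ.2, mul_one]
        obtain ⟨g, -, hg⟩ := Finset.mem_image.mp hψ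
        rw [← hg]
        exact hinvar g
      · intro φ hφ hne
        exact Cfsg.Agent.H06.classInner_irr_ne (hOirr φ hφ) ψ.2 hne
      · intro h
        exact absurd hψ h
    · rw [hout ψ hψ, Finset.sum_eq_zero, mul_zero]
      intro φ hφ
      apply Cfsg.Agent.H06.classInner_irr_ne (hOirr φ hφ) ψ.2
      intro h
      exact hψ (h ▸ hφ)

end Cfsg.Agent.S0174
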