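import Mathlib
import Cfsg.Agent.Lib.H01.CharA
import Cfsg.Agent.Lib.H22.Degree
import Cfsg.Agent.Lib.H10.CharGen
import Cfsg.Agent.Lib.H21.CharInd
import Cfsg.Statements.S0175
-- import your own Cfsg.Agent.* helpers here

set_option autoImplicit false
open Cfsg

namespace Cfsg.Agent.S0175

open Cfsg Cfsg.Agent.H21
open scoped commutatorElement

universe u

private theorem ind_val {G : Type u} [Group G] [Fintype G] (H : Subgroup G) (θ : H → ℂ) (y : G)
    (h : ∀ x : G, ∃ hz : x⁻¹ * y * x ∈ H, θ ⟨_, hz⟩ = 1) :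
    indFun H θ y = (Nat.card H : ℂ)⁻¹ * (Nat.card G : ℂ) := by
  simp only [indFun]
  congr 1
  have : ∀ x : G, extendByZero H θ (x⁻¹ * y * x) = 1 := by
    intro x
    obtain ⟨hz, h1⟩ := h x
    have := extendByZero_coe H θ ⟨_, hz⟩
    simp only at this
    rw [this, h1]
  simp [this]

private theorem mem_of_ind_one {G : Type u} [Group G] [Fintype G] (H : Subgroup G) (y : G)
    (h : indFun H (fun _ => (1 : ℂ)) y = indFun H (fun _ => (1 : ℂ)) 1) : y ∈ H := by
  classical
  have hne : (Nat.card H : ℂ) ≠ 0 := by exact_mod_cast Nat.card_pos.ne'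
  have h1 : indFun H (fun _ => (1 : ℂ)) 1 = (Nat.card H : ℂ)⁻¹ * (Nat.card G : ℂ) :=
    ind_val H _ 1 (fun x => ⟨by simp [H.one_mem], rfl⟩)
  rw [h1] at h
  simp only [indFun] at h
  have h2 : ∑ x : G, extendByZero H (fun _ => (1 : ℂ)) (x⁻¹ * y * x) = (Nat.card G : ℂ) :=
    mul_left_cancel₀ (inv_ne_zero hne) h
  have h3 : ∀ z : G, extendByZero H (fun _ => (1 : ℂ)) z = if z ∈ H then 1 else 0 := by
    intro z
    by_cases hz : z ∈ H
    · have := extendByZero_coe H (fun _ => (1 : ℂ)) ⟨z, hz⟩
      simp only at this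
      rw [this, if_pos hz]
    · rw [extendByZero_of_not_mem H _ hz, if_neg hz]
  simp only [h3] at h2
  have h4 : ((∑ x : G, if x⁻¹ * y * x ∈ H then 1 else 0 : ℕ) : ℂ) = (Nat.card G : ℂ) := by
    push_cast
    exact h2
  have h5 : (∑ x : G, if x⁻¹ * y * x ∈ H then 1 else 0 : ℕ) = Nat.card G := by exact_mod_cast h4
  rw [← Finset.card_filter, Nat.card_eq_fintype_card, ← Finset.card_univ] at h5
  have h6 := (Finset.filter_card_eq h5) 1 (Finset.mem_univ _)
  simpa using h6

private theorem key {G : Type u} [Group G] [Fintype G]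
    (hM : ∀ χ : G → ℂ, IsIrrCharacter G χ → ∃ (H : Subgroup G) (lam : H →* ℂˣ), χ = indFun H (fun h => (lam h : ℂ)))
    (d : ℕ) : ∀ χ : G → ℂ, IsIrrCharacter G χ → charDegree χ ≤ d → ∀ y ∈ derivedSeries G d, χ y = χ 1 := by
  classical
  haveI : Fintype (IrrCharacter G) := Fintype.ofFinite _
  induction d with
  | zero =>
    intro χ hχ hd
    have := irr_charDegree_pos hχ
    omega
  | succ d ih =>
    intro χ hχ hd y hy
    have hle : derivedSeries G (d + 1) ≤ derivedSeries G d := by
      rw [derivedSeries_succ]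
      exact Subgroup.commutator_le_left _ _
    by_cases hdle : charDegree χ ≤ d
    · exact ih χ hχ hdle y (hle hy)
    have hdeq : charDegree χ = d + 1 := by omega
    obtain ⟨H, lam, he⟩ := hM χ hχ
    have hval1 : χ 1 = (Nat.card H : ℂ)⁻¹ * (Nat.card G : ℂ) := by
      rw [he]
      refine ind_val H _ 1 (fun x => ⟨by simp [H.one_mem], ?_⟩)
      have : (⟨x⁻¹ * 1 * x, by simp [H.one_mem]⟩ : H) = 1 := Subtype.ext (by simp)
      rw [this]
      simp
    have hindex : (H.index : ℂ) = ((d + 1 : ℕ) : ℂ) := by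
      have h1 := one_eq_charDegree (isCharacter_of_irr hχ)
      rw [hval1, hdeq] at h1
      rw [← h1, ← H.card_mul_index]
      have hne : (Nat.card H : ℂ) ≠ 0 := by exact_mod_cast Nat.card_pos.ne'
      push_cast
      field_simp
    have hindex' : H.index = d + 1 := by exact_mod_cast hindex
    have hDH : derivedSeries G d ≤ H := by
      by_cases hd0 : d = 0
      · subst hd0
        have : H = ⊤ := Subgroup.index_eq_one.mp (by simpa using hindex')
        rw [this]
        exact le_top
      intro z hz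
      apply mem_of_ind_one
      have hμ : IsCharacter G (indFun H (fun _ => (1 : ℂ))) :=
        isCharacter_indFun H isCharacter_one
      refine Cfsg.Agent.H01.value_eq_one_of_constituents hμ z ?_
      intro ψ hψ
      refine ih ψ.1 ψ.2 ?_ z hz
      let triv : IrrCharacter G := ⟨fun _ => 1, isIrrCharacter_one⟩
      by_cases hψ1 : ψ = triv
      · rw [hψ1]
        have h1 : charDegree triv.1 = 1 := by simp [charDegree, triv]
        rw [h1]
        omega
      · have h1μ : classInner (indFun H (fun _ => (1 : ℂ))) triv.1 = 1 := by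
          rw [frobenius_reciprocity H _ _ (isClassFunction_of_isCharacter isCharacter_one)]
          simp [classInner, triv]
        have hsub := Cfsg.Agent.H10.sub_irr_isCharacter hμ triv (by rw [h1μ]; exact one_ne_zero)
        have hin : classInner (indFun H (fun _ => (1 : ℂ)) - triv.1) ψ.1 ≠ 0 := by
          rw [Cfsg.Agent.H10.classInner_sub_left]
          have h0 := Cfsg.Agent.H06.classInner_irr_ne triv.2 ψ.2 (fun h => hψ1 (Subtype.ext h.symm))
          rw [h0, sub_zero]
          exact hψ
        have h2 := Cfsg.Agent.H01.degree_le_of_inner_ne hsub ψ hin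
        have h3 := one_eq_charDegree hsub
        have h4 : (indFun H (fun _ => (1 : ℂ)) - triv.1) 1 = (d : ℂ) := by
          have h5 : indFun H (fun _ => (1 : ℂ)) 1 = (Nat.card H : ℂ)⁻¹ * (Nat.card G : ℂ) :=
            ind_val H _ 1 (fun x => ⟨by simp [H.one_mem], rfl⟩)
          simp only [Pi.sub_apply, h5, triv]
          rw [← hval1, one_eq_charDegree (isCharacter_of_irr hχ), hdeq]
          push_cast
          ring
        rw [h4] at h3
        have h5 : charDegree (indFun H (fun _ => (1 : ℂ)) - triv.1) = d := by exact_mod_cast h3.symm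
        omega
    -- the commutators
    have hcomm : ∀ z ∈ derivedSeries G (d + 1), ∃ hz : z ∈ H, lam ⟨z, hz⟩ = 1 := by
      have hK : derivedSeries G (d + 1) ≤ (lam.ker).map H.subtype := by
        rw [derivedSeries_succ, Subgroup.commutator_le]
        intro a ha b hb
        refine ⟨⁅(⟨a, hDH ha⟩ : H), (⟨b, hDH hb⟩ : H)⁆, ?_, rfl⟩
        change lam _ = 1
        rw [map_commutatorElement, commutatorElement_eq_one_iff_mul_comm, mul_comm]
      intro z hz
      obtain ⟨w, hw, rfl⟩ := hK hz
      exact ⟨w.2, hw⟩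
    rw [hval1, he]
    refine ind_val H _ y (fun x => ?_)
    obtain ⟨hz, h1⟩ := hcomm (x⁻¹ * y * x) ((derivedSeries_normal G (d + 1)).conj_mem' y hy x)
    refine ⟨hz, ?_⟩
    rw [h1]
    rfl

/-- Taketa's Theorem on M-groups: if every irreducible complex character of a finite group is induced from a linear character (a homomorphism to ℂˣ) of some subgroup, the group is solvable. -/
theorem result {G : Type*} [Group G] [Fintype G] (hM : ∀ χ : G → ℂ, Cfsg.IsIrrCharacter G χ → ∃ (H : Subgroup G) (lam : H →* ℂˣ), χ = Cfsg.indFun H (fun h => (lam h : ℂ))) : Group.IsSolvable G := by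

  classical
  haveI : Fintype (Cfsg.IrrCharacter G) := Fintype.ofFinite _
  rw [isSolvable_def]
  refine ⟨Nat.card G, ?_⟩
  rw [eq_bot_iff]
  intro y hy
  apply Subgroup.mem_bot.mpr
  apply Cfsg.Agent.H01.eq_one_of_forall_irr
  intro ψ
  refine key hM _ ψ.1 ψ.2 ?_ y hy
  exact Nat.le_of_dvd Nat.card_pos (Cfsg.Agent.H22.charDegree_dvd_card ψ)


end Cfsg.Agent.S0175
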