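import Mathlib
import Cfsg.Agent.Lib.H06.Brauer4
import Cfsg.Agent.Lib.H06.CharGallagher
import Cfsg.Agent.Lib.H01.CharA
import Cfsg.Agent.Lib.H01.Frobenius
import Cfsg.Statements.S0177
-- import your own Cfsg.Agent.* helpers here

set_option autoImplicit false
open Cfsg

namespace Cfsg.Agent.S0177

open Cfsg Cfsg.Agent.H21

universe u

open Classical in
/-- sum over the generators of a subgroup of a character is an integer -/
private theorem gen_sum_int {A : Type u} [Group A] [Fintype A] {ξ : A → ℂ} (hξ : IsCharacter A ξ) (n : ℕ) :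
    ∀ B : Subgroup A, Nat.card B ≤ n →
      (∑ x : A, (if Subgroup.zpowers x = B then ξ x else 0)) ∈ (Int.castRingHom ℂ).range := by
  haveI : Fintype (Subgroup A) := Fintype.ofFinite _
  induction n with
  | zero =>
    intro B hB
    have := Nat.card_pos (α := B)
    omega
  | succ n ih =>
    intro B hB
    haveI : Fintype B := Fintype.ofFinite _
    haveI : Fintype (IrrCharacter B) := Fintype.ofFinite _
    have hres := isCharacter_restrict B hξ
    obtain ⟨m, hm⟩ := classInner_isNat hres ⟨fun _ => 1, isIrrCharacter_one⟩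
    have hBne : (Nat.card B : ℂ) ≠ 0 := by exact_mod_cast Nat.card_pos.ne'
    have htotal : ∑ x : A, (if x ∈ B then ξ x else 0) = (Nat.card B : ℂ) * m := by
      rw [← hm]
      simp only [classInner, map_one, mul_one]
      rw [mul_inv_cancel_left₀ hBne]
      rw [← Finset.sum_subtype (p := (· ∈ B)) (Finset.univ.filter (· ∈ B)) (by simp) (fun x => ξ x)]
      rw [Finset.sum_filter]
    have hsplit : ∑ x : A, (if x ∈ B then ξ x else 0) =
        ∑ C : Subgroup A, if C ≤ B then ∑ x : A, (if Subgroup.zpowers x = C then ξ x else 0) else 0 := by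
      have : ∀ C : Subgroup A, (if C ≤ B then ∑ x : A, (if Subgroup.zpowers x = C then ξ x else 0) else 0) =
          ∑ x : A, (if Subgroup.zpowers x = C then (if x ∈ B then ξ x else 0) else 0) := by
        intro C
        by_cases hC : C ≤ B
        · rw [if_pos hC]
          refine Finset.sum_congr rfl fun x _ => ?_
          by_cases hx : Subgroup.zpowers x = C
          · have : x ∈ B := hC (hx ▸ Subgroup.mem_zpowers x)
            simp [hx, this]
          · simp [hx]
        · rw [if_neg hC]
          symm
          refine Finset.sum_eq_zero fun x _ => ?_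
          by_cases hx : Subgroup.zpowers x = C
          · have : x ∉ B := by
              intro hxB
              apply hC
              rw [← hx, Subgroup.zpowers_le]
              exact hxB
            simp [hx, this]
          · simp [hx]
      simp only [this]
      rw [Finset.sum_comm]
      refine Finset.sum_congr rfl fun x _ => ?_
      rw [Finset.sum_ite_eq]
      simp
    have e1 := Finset.add_sum_erase Finset.univ (fun C : Subgroup A => if C ≤ B then ∑ x : A, (if Subgroup.zpowers x = C then ξ x else 0) else 0) (Finset.mem_univ B)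
    simp only [le_refl, if_true] at e1
    rw [← hsplit, htotal] at e1
    have e2 : ∑ x : A, (if Subgroup.zpowers x = B then ξ x else 0) = (Nat.card B : ℂ) * m -
        ∑ C ∈ Finset.univ.erase B, if C ≤ B then ∑ x : A, (if Subgroup.zpowers x = C then ξ x else 0) else 0 := by
      rw [← e1]; ring
    rw [e2]
    refine Subring.sub_mem _ (Subring.mul_mem _ (natCast_mem _ _) (natCast_mem _ _)) (Subring.sum_mem _ fun C hC => ?_)
    by_cases hCB : C ≤ B
    · rw [if_pos hCB]
      refine ih C ?_
      have hne : C ≠ B := Finset.ne_of_mem_erase hC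
      have : Nat.card C < Nat.card B := by
        by_contra hlt
        push Not at hlt
        exact hne (Subgroup.eq_of_le_of_card_ge hCB hlt)
      omega
    · rw [if_neg hCB]
      exact Subring.zero_mem _

private def VC (G : Type u) [Group G] [Fintype G] : AddSubgroup (G → ℂ) :=
  AddSubgroup.closure {f | ∃ (E : Subgroup G) (l : E →* ℂˣ), IsCyclic E ∧
    f = indFun E (fun e => ((l e : ℂˣ) : ℂ))}

private theorem exists_list_of_mem_VC {G : Type u} [Group G] [Fintype G] {f : G → ℂ} (hf : f ∈ VC G) :
    ∃ l : List ((E : Subgroup G) × ((E →* ℂˣ) × ℤ)), (∀ t ∈ l, IsCyclic t.1) ∧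
      f = (l.map fun t => (t.2.2 : ℂ) • indFun t.1 (fun e => ((t.2.1 e : ℂˣ) : ℂ))).sum := by
  induction hf using AddSubgroup.closure_induction with
  | mem f hf =>
    obtain ⟨E, l, hE, rfl⟩ := hf
    refine ⟨[⟨E, l, 1⟩], ?_, ?_⟩
    · intro t ht
      rw [List.mem_singleton] at ht
      subst ht
      exact hE
    · simp
  | zero => exact ⟨[], by simp, by simp⟩
  | add f₁ f₂ _ _ h1 h2 =>
    obtain ⟨l₁, h₁, e₁⟩ := h1
    obtain ⟨l₂, h₂, e₂⟩ := h2
    refine ⟨l₁ ++ l₂, ?_, ?_⟩
    · intro t ht
      rcases List.mem_append.mp ht with h | h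
      · exact h₁ t h
      · exact h₂ t h
    · rw [List.map_append, List.sum_append, ← e₁, ← e₂]
  | neg f _ h =>
    obtain ⟨l, h₁, e⟩ := h
    refine ⟨l.map fun t => ⟨t.1, t.2.1, - t.2.2⟩, ?_, ?_⟩
    · intro t ht
      obtain ⟨s, hs, rfl⟩ := List.mem_map.mp ht
      exact h₁ s hs
    · rw [e]
      clear e h₁
      induction l with
      | nil => simp
      | cons a l ih =>
        simp only [List.map_cons, List.sum_cons, Function.comp, neg_add_rev] at ih ⊢
        rw [ih, add_comm]
        congr 1
        funext g
        simp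

private theorem zpowers_top_iff {G : Type u} [Group G] (A : Subgroup G) (x : A) :
    Subgroup.zpowers x = ⊤ ↔ Subgroup.zpowers (x : G) = A := by
  have hmap : (Subgroup.zpowers x).map A.subtype = Subgroup.zpowers (x : G) := by
    rw [MonoidHom.map_zpowers]
    rfl
  have htop : (⊤ : Subgroup A).map A.subtype = A := by
    rw [← MonoidHom.range_eq_map, Subgroup.range_subtype]
  constructor
  · intro h
    rw [← hmap, h, htop]
  · intro h
    apply Subgroup.map_injective A.subtype_injective
    rw [hmap, htop, h]

open Classical in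
private noncomputable def psi {G : Type u} [Group G] (χ : G → ℂ) (A : Subgroup G) : A → ℂ :=
  fun x => if Subgroup.zpowers x = ⊤ then (Nat.card A : ℂ) * χ x else 0

private theorem ind_mem {G : Type u} [Group G] [Fintype G] {χ : G → ℂ} (hχ : IsCharacter G χ) (A : Subgroup G) :
    indFun A (psi χ A) ∈ VC G := by
  classical
  haveI : Fintype A := Fintype.ofFinite _
  haveI : Fintype (IrrCharacter A) := Fintype.ofFinite _
  by_cases hc : IsCyclic A
  · have hab : ∀ a b : A, a * b = b * a := by
      intro a b
      letI := IsCyclic.commGroup (α := A)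
      exact mul_comm a b
    have hcl : IsClassFunction A (psi χ A) := by
      intro g h
      have : h * g * h⁻¹ = g := by rw [hab h g, mul_inv_cancel_right]
      rw [this]
    rw [classFunction_expansion _ hcl, Cfsg.Agent.H06.indFun_sum]
    refine AddSubgroup.sum_mem _ fun μ _ => ?_
    rw [Cfsg.Agent.H06.indFun_smul]
    have hnat : classInner (psi χ A) μ.1 ∈ (Int.castRingHom ℂ).range := by
      have hne : (Nat.card A : ℂ) ≠ 0 := by exact_mod_cast Nat.card_pos.ne'
      let ξ : A → ℂ := fun x => χ x * (starRingEnd ℂ) (μ.1 x)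
      have hξ : IsCharacter A ξ := isCharacter_mul (isCharacter_restrict A hχ)
        (Cfsg.Agent.H01.isCharacter_conj_fn (isCharacter_of_irr μ.2))
      have h1 := gen_sum_int hξ _ (⊤ : Subgroup A) le_rfl
      have h2 : classInner (psi χ A) μ.1 = ∑ x : A, (if Subgroup.zpowers x = ⊤ then ξ x else 0) := by
        simp only [classInner, psi]
        rw [Finset.mul_sum]
        refine Finset.sum_congr rfl fun x _ => ?_
        by_cases hx : Subgroup.zpowers x = ⊤
        · simp only [hx, if_true, ξ]
          field_simp
        · simp [hx]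
      rw [h2]
      exact h1
    obtain ⟨k, hk⟩ := hnat
    have hdeg := irr_degree_one_of_comm hab μ.2
    obtain ⟨l, hl⟩ := Cfsg.Agent.H06.Brauer.exists_hom_of_linear (isCharacter_of_irr μ.2) hdeg
    have hmem : indFun A μ.1 ∈ VC G := by
      apply AddSubgroup.subset_closure
      refine ⟨A, l, hc, ?_⟩
      congr 1
      funext e
      exact (hl e).symm
    have := (VC G).zsmul_mem hmem k
    convert this using 1
    rw [← hk]
    funext g
    simp
  · have hz : psi χ A = 0 := by
      funext x
      simp only [psi, Pi.zero_apply]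
      rw [if_neg]
      intro h
      exact hc (isCyclic_iff_exists_zpowers_eq_top.mpr ⟨x, h⟩)
    rw [hz, Cfsg.Agent.H06.indFun_zero]
    exact AddSubgroup.zero_mem _

private theorem sum_ind {G : Type u} [Group G] [Fintype G] {χ : G → ℂ} (hχ : IsCharacter G χ)
    [Fintype (Subgroup G)] :
    ∑ A : Subgroup G, indFun A (psi χ A) = (Nat.card G : ℂ) • χ := by
  classical
  haveI : Fintype (IrrCharacter G) := Fintype.ofFinite _
  funext g
  have hext : ∀ (A : Subgroup G) (z : G), extendByZero A (psi χ A) z =
      if Subgroup.zpowers z = A then (Nat.card A : ℂ) * χ z else 0 := by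
    intro A z
    by_cases hz : z ∈ A
    · have h1 := extendByZero_coe A (psi χ A) ⟨z, hz⟩
      simp only at h1
      rw [h1]
      simp only [psi]
      by_cases h2 : Subgroup.zpowers z = A
      · rw [if_pos ((zpowers_top_iff A ⟨z, hz⟩).mpr h2), if_pos h2]
      · rw [if_neg (fun h => h2 ((zpowers_top_iff A ⟨z, hz⟩).mp h)), if_neg h2]
    · rw [extendByZero_of_not_mem A _ hz, if_neg]
      intro h
      exact hz (h ▸ Subgroup.mem_zpowers z)
  have hind : ∀ A : Subgroup G, indFun A (psi χ A) g =
      ∑ y : G, if Subgroup.zpowers (y⁻¹ * g * y) = A then χ g else 0 := by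
    intro A
    have hne : (Nat.card A : ℂ) ≠ 0 := by exact_mod_cast Nat.card_pos.ne'
    simp only [indFun, hext]
    rw [Finset.mul_sum]
    refine Finset.sum_congr rfl fun y _ => ?_
    have hcl : χ (y⁻¹ * g * y) = χ g := by
      have := isClassFunction_of_isCharacter hχ g y⁻¹
      simpa using this
    by_cases h : Subgroup.zpowers (y⁻¹ * g * y) = A
    · rw [if_pos h, if_pos h, hcl]
      field_simp
    · rw [if_neg h, if_neg h, mul_zero]
  rw [Finset.sum_apply]
  simp only [hind]
  rw [Finset.sum_comm]
  simp only [Finset.sum_ite_eq, Finset.mem_univ, if_true, Finset.sum_const, Finset.card_univ,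
    Pi.smul_apply, smul_eq_mul, nsmul_eq_mul, Nat.card_eq_fintype_card]

/-- The Artin induction Theorem: for a character χ of a finite group, |G| • χ is a ℤ-linear combination of functions induced from homomorphisms of cyclic subgroups into ℂˣ. -/
theorem result {G : Type*} [Group G] [Fintype G] (χ : G → ℂ) (hχ : Cfsg.IsCharacter G χ) : ∃ l : List ((A : Subgroup G) × ((A →* ℂˣ) × ℤ)), (∀ t ∈ l, IsCyclic t.1) ∧ (Nat.card G : ℂ) • χ = (l.map fun t => (t.2.2 : ℂ) • Cfsg.indFun t.1 (fun a => (t.2.1 a : ℂ))).sum := by

  classical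
  haveI : Fintype (Subgroup G) := Fintype.ofFinite _
  have hmem : (Nat.card G : ℂ) • χ ∈ VC G := by
    rw [← sum_ind hχ]
    exact AddSubgroup.sum_mem _ fun A _ => ind_mem hχ A
  exact exists_list_of_mem_VC hmem


end Cfsg.Agent.S0177
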