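import Mathlib
import Cfsg.Agent.Lib.H01.CharA
import Cfsg.Statements.S0178
-- import your own Cfsg.Agent.* helpers here

set_option autoImplicit false
open Cfsg

namespace Cfsg.Agent.S0178


/-- The degree of an irreducible complex representation of a finite group is at most the index of any abelian subgroup. -/
theorem result {G : Type*} [Group G] [Finite G] {V : Type*} [AddCommGroup V] [Module ℂ V] [FiniteDimensional ℂ V] (ρ : Representation ℂ G V) [ρ.IsIrreducible] (A : Subgroup G) (hA : ∀ a ∈ A, ∀ b ∈ A, a * b = b * a) : Module.finrank ℂ V ≤ A.index := by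
  classical
  haveI := Fintype.ofFinite G
  haveI : Fintype A := Fintype.ofFinite _
  haveI : Fintype (IrrCharacter A) := Fintype.ofFinite _
  haveI : Fintype (IrrCharacter G) := Fintype.ofFinite _
  have hirr := Cfsg.Agent.H21.isIrrCharacter_of_rep ρ (inferInstance)
  have hχ := Cfsg.Agent.H21.isCharacter_of_irr hirr
  have hdegX : Cfsg.charDegree ρ.character = Module.finrank ℂ V := by
    have h1 := Cfsg.Agent.H21.one_eq_charDegree hχ
    rw [Representation.char_one] at h1
    exact_mod_cast h1.symm
  have hres := Cfsg.Agent.H21.isCharacter_restrict A hχ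
  have h10 : (fun x : A => ρ.character x) 1 ≠ 0 := Cfsg.Agent.H06.irr_one_ne_zero' hirr
  obtain ⟨l, hl⟩ := Cfsg.Agent.H01.exists_constituent hres h10
  have hcomm : ∀ a b : A, a * b = b * a := fun a b => Subtype.ext (hA a a.2 b b.2)
  have hl1 := Cfsg.Agent.H21.irr_degree_one_of_comm hcomm l.2
  have hind := Cfsg.Agent.H21.isCharacter_indFun A (Cfsg.Agent.H21.isCharacter_of_irr l.2)
  have hdegI := Cfsg.Agent.H21.charDegree_indFun A (Cfsg.Agent.H21.isCharacter_of_irr l.2)
  have hinner : classInner (Cfsg.indFun A l.1) ρ.character ≠ 0 := by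
    rw [Cfsg.Agent.H21.frobenius_reciprocity A _ _ (Cfsg.Agent.H21.isClassFunction_of_isCharacter hχ)]
    intro h0
    apply hl
    rw [← Cfsg.Agent.H21.classInner_comm_conj, h0]
    simp
  have h1 := Cfsg.Agent.H01.degree_le_of_inner_ne hind ⟨ρ.character, hirr⟩ hinner
  rw [hdegI, hl1, mul_one] at h1
  rw [← hdegX]
  exact h1


end Cfsg.Agent.S0178
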