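import Mathlib
import Cfsg.Agent.Lib.H06.CharGalois
import Cfsg.Agent.Lib.H22.Ord
import Cfsg.Agent.Lib.H21.GaloisProd
import Cfsg.Statements.S0180
-- import your own Cfsg.Agent.* helpers here

set_option autoImplicit false
open Cfsg

namespace Cfsg.Agent.S0180

open Cfsg Cfsg.Agent.H21 in
private theorem rat_of_fixed {G : Type*} [Group G] [Finite G] {χ : G → ℂ} (hχ : IsCharacter G χ) (g : G)
    (h : ∀ m : ℕ, m.Coprime (Nat.card G) → χ (g ^ m) = χ g) : ∃ q : ℚ, χ g = (q : ℂ) := by
  classical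
  obtain ⟨d, ρ, rfl⟩ := hχ
  obtain ⟨ι, _, b, μ, h1, h2, h3, _⟩ := exists_eigenbasis ρ g
  haveI hN : NeZero (Nat.card G) := ⟨Nat.card_pos.ne'⟩
  set n := Nat.card G with hn
  let K := CyclotomicField n ℚ
  haveI : IsCyclotomicExtension {n} ℚ K := CyclotomicField.isCyclotomicExtension n ℚ
  haveI : FiniteDimensional ℚ K := IsCyclotomicExtension.finiteDimensional {n} ℚ K
  haveI : Algebra.IsAlgebraic ℚ K := Algebra.IsAlgebraic.of_finite ℚ K
  haveI : IsGalois ℚ K := IsCyclotomicExtension.isGalois {n} ℚ K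
  let j : K →ₐ[ℚ] ℂ := IsAlgClosed.lift
  set z : K := IsCyclotomicExtension.zeta n ℚ K with hz
  have hzp : IsPrimitiveRoot z n := IsCyclotomicExtension.zeta_spec n ℚ K
  have hzC : IsPrimitiveRoot (j z) n := hzp.map_of_injective j.toRingHom.injective
  have hμN : ∀ i, μ i ^ n = 1 := by
    intro i
    obtain ⟨c, hc⟩ := orderOf_dvd_natCard g
    rw [hn, hc, pow_mul, h2, one_pow]
  choose e he1 he2 using fun i => hzC.eq_pow_of_pow_eq_one (hμN i)
  have hk : ∀ k : ℕ, ∀ i, ρ (g ^ k) (b i) = (μ i ^ k) • b i := by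
    intro k i
    induction k with
    | zero => simp
    | succ k ih =>
      rw [pow_succ, map_mul, Module.End.mul_apply, h1, map_smul, ih, smul_smul, pow_succ, mul_comm]
  have hchar : ∀ k : ℕ, ρ.character (g ^ k) = ∑ i, (μ i) ^ k := by
    intro k
    rw [Representation.character, trace_of_eigenbasis _ b _ (hk k)]
  let a : K := ∑ i, z ^ e i
  have hja : j a = ρ.character g := by
    have := hchar 1
    rw [pow_one] at this
    rw [this]
    simp only [a, map_sum, map_pow, pow_one]
    exact Finset.sum_congr rfl fun i _ => he2 i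
  have hfix : ∀ σ : K ≃ₐ[ℚ] K, σ a = a := by
    intro σ
    have hσz : IsPrimitiveRoot (σ z) n := hzp.map_of_injective σ.injective
    obtain ⟨k, -, hk2⟩ := hzp.eq_pow_of_pow_eq_one hσz.pow_eq_one
    have hkc : k.Coprime n := by
      rw [← hk2] at hσz
      exact (hzp.pow_iff_coprime (Nat.pos_of_ne_zero hN.ne) k).mp hσz
    apply j.toRingHom.injective
    change j (σ a) = j a
    rw [hja, ← h k hkc, hchar k]
    simp only [a, map_sum, map_pow, ← hk2]
    refine Finset.sum_congr rfl fun i _ => ?_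
    rw [← he2 i, ← pow_mul, ← pow_mul, mul_comm]
  have hbot : a ∈ (⊥ : IntermediateField ℚ K) := (IsGalois.mem_bot_iff_fixed a).mpr hfix
  obtain ⟨q, hq⟩ := IntermediateField.mem_bot.mp hbot
  refine ⟨q, ?_⟩
  rw [← hja, ← hq]
  simp

/-- Every irreducible complex character of a finite group takes only rational values if and only if g is conjugate to g ^ m for every element g and every m coprime to the group order. -/
theorem result {G : Type*} [Group G] [Finite G] : (∀ χ : Cfsg.IrrCharacter G, ∀ g : G, ∃ q : ℚ, (χ : G → ℂ) g = (q : ℂ)) ↔ ∀ m : ℕ, m.Coprime (Nat.card G) → ∀ g : G, IsConj g (g ^ m) := by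

  classical
  haveI := Fintype.ofFinite G
  haveI : Fintype (Cfsg.IrrCharacter G) := Fintype.ofFinite _
  constructor
  · intro h m hm g
    apply Cfsg.Agent.H22.isConj_of_forall_irr_eq
    intro χ
    obtain ⟨q, hq⟩ := h χ g
    obtain ⟨τ, hτ⟩ := Cfsg.Agent.H06.exists_galois_ringHom (n := Nat.card G) Nat.card_pos.ne' hm
    obtain ⟨d, ρ, hρ, hχ⟩ := χ.2
    rw [← hχ] at hq ⊢
    obtain ⟨ι, _, b, μ, h1, h2, h3, -⟩ := Cfsg.Agent.H21.exists_eigenbasis ρ g
    have hμ : ∀ i, μ i ^ Nat.card G = 1 := by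
      intro i
      obtain ⟨c, hc⟩ := orderOf_dvd_natCard g
      rw [hc, pow_mul, h2, one_pow]
    have hpow : ∀ i, ρ (g ^ m) (b i) = μ i ^ m • b i := by
      intro i
      rw [map_pow]
      have : ∀ m : ℕ, ((ρ g) ^ m) (b i) = μ i ^ m • b i := by
        intro m
        induction m with
        | zero => simp
        | succ m ih => rw [pow_succ, Module.End.mul_apply, h1, map_smul, ih, smul_smul, pow_succ, mul_comm]
      exact this m
    have e1 : ρ.character (g ^ m) = τ (ρ.character g) := by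
      simp only [Representation.character]
      rw [h3, map_sum, Cfsg.Agent.H21.trace_of_eigenbasis _ b _ hpow]
      exact Finset.sum_congr rfl fun i _ => (hτ _ (hμ i)).symm
    rw [e1, hq, map_ratCast]
  · intro h χ g
    refine rat_of_fixed (Cfsg.Agent.H21.isCharacter_of_irr χ.2) g (fun m hm => ?_)
    obtain ⟨x, hx⟩ := isConj_iff.mp (h m hm g)
    rw [← hx, Cfsg.Agent.H21.isClassFunction_of_isCharacter (Cfsg.Agent.H21.isCharacter_of_irr χ.2)]


end Cfsg.Agent.S0180
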