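import Mathlib
import Cfsg.Agent.Lib.H01.CharA
import Cfsg.Statements.S0181
-- import your own Cfsg.Agent.* helpers here

set_option autoImplicit false
open Cfsg

namespace Cfsg.Agent.S0181


/-- Let H be a normal subgroup of a finite group G and ρ an irreducible complex representation whose kernel does not contain H. If g commutes with no non-identity element of H, then the character of ρ vanishes at g. -/
theorem result {G : Type*} [Group G] [Finite G] {V : Type*} [AddCommGroup V] [Module ℂ V] [FiniteDimensional ℂ V] (ρ : Representation ℂ G V) [ρ.IsIrreducible] (H : Subgroup G) [H.Normal] (hker : ∃ h ∈ H, ρ h ≠ LinearMap.id) (g : G) (hg : ∀ h ∈ H, h * g = g * h → h = 1) : ρ.character g = 0 := by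
  classical
  haveI : Fintype H := Fintype.ofFinite _
  have hinj : Function.Injective (fun a : H => (⟨(a : G) * g * (a : G)⁻¹ * g⁻¹, by
      have h1 : g * (a : G)⁻¹ * g⁻¹ ∈ H := ‹H.Normal›.conj_mem _ (H.inv_mem a.2) g
      have : (a : G) * g * (a : G)⁻¹ * g⁻¹ = a * (g * (a : G)⁻¹ * g⁻¹) := by group
      rw [this]
      exact H.mul_mem a.2 h1⟩ : H)) := by
    intro a b hab
    have h1 : (a : G) * g * (a : G)⁻¹ * g⁻¹ = (b : G) * g * (b : G)⁻¹ * g⁻¹ := congrArg Subtype.val hab
    have h2 : (a : G) * g * (a : G)⁻¹ = (b : G) * g * (b : G)⁻¹ := mul_right_cancel h1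
    have h3 : ((b : G)⁻¹ * a) * g = g * ((b : G)⁻¹ * a) := by
      calc ((b : G)⁻¹ * a) * g = (b : G)⁻¹ * ((a : G) * g * (a : G)⁻¹) * a := by group
        _ = (b : G)⁻¹ * ((b : G) * g * (b : G)⁻¹) * a := by rw [h2]
        _ = g * ((b : G)⁻¹ * a) := by group
    have h4 := hg _ (H.mul_mem (H.inv_mem b.2) a.2) h3
    apply Subtype.ext
    have : (a : G) = b * ((b : G)⁻¹ * a) := by group
    rw [this, h4, mul_one]
  have hsurj := Finite.surjective_of_injective hinj
  -- each `g h` is conjugate to `g`
  have hconj : ∀ h : H, ρ.character (g * h) = ρ.character g := by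
    intro h
    obtain ⟨a, ha⟩ := hsurj ⟨g * h * g⁻¹, ‹H.Normal›.conj_mem _ h.2 g⟩
    have h1 : (a : G) * g * (a : G)⁻¹ * g⁻¹ = g * h * g⁻¹ := congrArg Subtype.val ha
    have h2 : (a : G) * g * (a : G)⁻¹ = g * h := mul_right_cancel h1
    rw [← h2]
    exact Cfsg.Agent.H21.isCharacter_conj (Cfsg.Agent.H21.isCharacter_of_rep ρ) g a
  -- the sum of the action of `H` vanishes
  have hfix : Cfsg.Agent.H01.fixedSub ρ H = ⊥ := by
    let W : Subrepresentation ρ :=
      { toSubmodule := Cfsg.Agent.H01.fixedSub ρ H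
        apply_mem_toSubmodule := by
          intro x v hv h hh
          have h1 : x⁻¹ * h * x ∈ H := by
            have := ‹H.Normal›.conj_mem h hh x⁻¹
            simpa using this
          have h2 := hv _ h1
          have h3 : ρ h (ρ x v) = ρ x (ρ (x⁻¹ * h * x) v) := by
            rw [← Module.End.mul_apply, ← map_mul, ← Module.End.mul_apply, ← map_mul]
            congr 2
            group
          rw [h3, h2] }
    rcases eq_bot_or_eq_top W with h | h
    · have := congrArg Subrepresentation.toSubmodule h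
      exact this
    · exfalso
      obtain ⟨h₀, hh₀, hne⟩ := hker
      apply hne
      ext v
      have hv : v ∈ W := by rw [h]; trivial
      exact hv h₀ hh₀
  have hzero : Cfsg.Agent.H01.avgOp ρ H = 0 := by
    ext v
    have := Cfsg.Agent.H01.avgOp_mem ρ H v
    rw [hfix] at this
    simpa using this
  have h0 : (Nat.card H : ℂ) ≠ 0 := by simp [Nat.card_pos.ne']
  have hsum : ∑ h : H, ρ.character (g * h) = 0 := by
    have h1 : ∑ h : H, ρ.character (g * h) = LinearMap.trace ℂ V (ρ g * ∑ h : H, ρ (h : G)) := by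
      rw [Finset.mul_sum, map_sum]
      refine Finset.sum_congr rfl fun h _ => ?_
      show LinearMap.trace ℂ V (ρ (g * h)) = LinearMap.trace ℂ V (ρ g * ρ h)
      rw [map_mul ρ]
    rw [h1]
    have h2 : ∑ h : H, ρ (h : G) = 0 := by
      have h3 : (Nat.card H : ℂ)⁻¹ • ∑ h : H, ρ (h : G) = 0 := hzero
      rw [smul_eq_zero] at h3
      exact h3.resolve_left (inv_ne_zero h0)
    rw [h2]
    simp
  simp only [hconj, Finset.sum_const, Finset.card_univ, ← Nat.card_eq_fintype_card] at hsum
  rw [← Nat.cast_smul_eq_nsmul ℂ, smul_eq_zero] at hsum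
  exact hsum.resolve_left h0


end Cfsg.Agent.S0181
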