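import Mathlib
import Cfsg.Agent.Lib.H01.MaxNormal
import Cfsg.Agent.Lib.H01.CharA
import Cfsg.Agent.Lib.H21.CharInd
import Cfsg.Statements.S0184
-- import your own Cfsg.Agent.* helpers here

set_option autoImplicit false
open Cfsg

namespace Cfsg.Agent.S0184

private theorem mem_zpowers_of_order_prime {C : Type*} [Group C] [Finite C] [IsCyclic C] {p : ℕ}
    (hp : p.Prime) {a b : C} (ha : orderOf a = p) (hb : orderOf b = p) : b ∈ Subgroup.zpowers a := by
  classical
  haveI := Fintype.ofFinite C
  by_contra hnot
  have hS := IsCyclic.card_pow_eq_one_le (α := C) hp.pos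
  have hsub : insert b (Finset.univ.filter (fun x => x ∈ Subgroup.zpowers a)) ⊆
      Finset.univ.filter (fun x : C => x ^ p = 1) := by
    intro x hx
    rw [Finset.mem_insert] at hx
    rw [Finset.mem_filter]
    refine ⟨Finset.mem_univ _, ?_⟩
    rcases hx with rfl | hx
    · rw [← hb]; exact pow_orderOf_eq_one _
    · rw [Finset.mem_filter] at hx
      obtain ⟨i, rfl⟩ := Subgroup.mem_zpowers_iff.mp hx.2
      rw [← zpow_natCast, ← zpow_mul, mul_comm, zpow_mul, zpow_natCast, ← ha, pow_orderOf_eq_one, one_zpow]
  have hcard := Finset.card_le_card hsub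
  rw [Finset.card_insert_of_notMem (by simpa using hnot)] at hcard
  have h2 : (Finset.univ.filter (fun x => x ∈ Subgroup.zpowers a)).card = p := by
    rw [← Fintype.card_subtype, ← Nat.card_eq_fintype_card, Nat.card_zpowers, ha]
  omega

/-- A finite p-group admits a faithful irreducible complex representation if and only if its centre is cyclic. -/
theorem result {G : Type*} [Group G] [Finite G] (p : ℕ) [Fact p.Prime] (hG : IsPGroup p G) : (∃ (n : ℕ) (ρ : Representation ℂ G (Fin n → ℂ)), ρ.IsIrreducible ∧ Function.Injective ρ) ↔ IsCyclic (Subgroup.center G) := by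

  classical
  haveI := Fintype.ofFinite G
  haveI : Fintype (Cfsg.IrrCharacter G) := Fintype.ofFinite _
  have hpr : p.Prime := Fact.out
  constructor
  · rintro ⟨n, ρ, hρ, hinj⟩
    have hirr : Cfsg.IsIrrCharacter G ρ.character := ⟨n, ρ, hρ, rfl⟩
    have hχ1 : ρ.character 1 ≠ 0 := by
      rw [Cfsg.Agent.H21.one_eq_charDegree (Cfsg.Agent.H21.isCharacter_of_irr hirr)]
      exact_mod_cast (Cfsg.Agent.H21.irr_charDegree_pos hirr).ne'
    let f : Subgroup.center G →* ℂ :=
      { toFun := fun z => ρ.character (z : G) / ρ.character 1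
        map_one' := div_self hχ1
        map_mul' := by
          intro z w
          have h := Cfsg.Agent.H21.irr_central_mul hirr z.2 (w : G)
          rw [← Cfsg.Agent.H21.one_eq_charDegree (Cfsg.Agent.H21.isCharacter_of_irr hirr)] at h
          rw [Subgroup.coe_mul]
          field_simp
          rw [h] }
    have hfinj : Function.Injective f := by
      intro z w hzw
      obtain ⟨c, hc⟩ := Cfsg.Agent.H21.irr_central_scalar ρ hρ z.2
      obtain ⟨c', hc'⟩ := Cfsg.Agent.H21.irr_central_scalar ρ hρ w.2
      have hv : ∀ (u : G) (a : ℂ), ρ u = a • (1 : Module.End ℂ (Fin n → ℂ)) → ρ.character u = a * ρ.character 1 := by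
        intro u a hu
        simp only [Representation.character, hu, map_one, map_smul, smul_eq_mul]
      have h1 : ρ.character (z : G) / ρ.character 1 = ρ.character (w : G) / ρ.character 1 := hzw
      rw [hv _ _ hc, hv _ _ hc', mul_div_cancel_right₀ _ hχ1, mul_div_cancel_right₀ _ hχ1] at h1
      apply Subtype.ext
      apply hinj
      rw [hc, hc', h1]
    exact isCyclic_of_injective_ringHom f hfinj
  · intro hcyc
    by_cases hnt : Nontrivial G
    · haveI : Nontrivial (Subgroup.center G) := hG.center_nontrivial
      have hZp : IsPGroup p (Subgroup.center G) := hG.to_subgroup _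
      have hdvd : p ∣ Nat.card (Subgroup.center G) := by
        obtain ⟨k, hk⟩ := IsPGroup.iff_card.mp hZp
        have h1 : 1 < Nat.card (Subgroup.center G) := Finite.one_lt_card
        rw [hk] at h1 ⊢
        refine dvd_pow_self p ?_
        rintro rfl
        simp at h1
      obtain ⟨z, hz⟩ := exists_prime_orderOf_dvd_card' p hdvd
      have hz1 : (z : G) ≠ 1 := by
        intro h
        have h2 : z = 1 := Subtype.ext h
        rw [h2, orderOf_one] at hz
        exact hpr.one_lt.ne hz
      obtain ⟨χ, hχ⟩ : ∃ χ : Cfsg.IrrCharacter G, χ.1 (z : G) ≠ χ.1 1 := by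
        by_contra hc
        push Not at hc
        exact hz1 (Cfsg.Agent.H01.eq_one_of_forall_irr hc)
      obtain ⟨n, ρ, hρ, hχ'⟩ := χ.2
      refine ⟨n, ρ, hρ, ?_⟩
      rw [← hχ'] at hχ
      have hker : ρ.ker = ⊥ := by
        by_contra hne
        obtain ⟨y, hyK, hy1, hyc⟩ := Cfsg.Agent.H01.exists_central_mem_normal hG (N := ρ.ker) inferInstance hne
        -- elements of order `p` in the kernel
        let N : Subgroup G := ρ.ker ⊓ Subgroup.center G
        have hyN : y ∈ N := ⟨hyK, Subgroup.mem_center_iff.mpr (fun g => hyc g)⟩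
        have hNp : IsPGroup p N := hG.to_subgroup _
        haveI : Nontrivial N := (Subgroup.nontrivial_iff_ne_bot _).mpr
          (fun h => hy1 ((Subgroup.mem_bot).mp (h ▸ hyN)))
        have hdvdN : p ∣ Nat.card N := by
          obtain ⟨k, hk⟩ := IsPGroup.iff_card.mp hNp
          have h1 : 1 < Nat.card N := Finite.one_lt_card
          rw [hk] at h1 ⊢
          refine dvd_pow_self p ?_
          rintro rfl
          simp at h1
        obtain ⟨x, hx⟩ := exists_prime_orderOf_dvd_card' p hdvdN
        let x' : Subgroup.center G := ⟨(x : G), x.2.2⟩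
        have hx' : orderOf x' = p := by
          have h1 : orderOf x' = orderOf (x : G) := Subgroup.orderOf_mk _ _
          have h2 : orderOf (x : G) = orderOf x := Subgroup.orderOf_coe x
          rw [h1, h2, hx]
        have hmem := mem_zpowers_of_order_prime hpr hx' hz
        obtain ⟨i, hi⟩ := Subgroup.mem_zpowers_iff.mp hmem
        have h3 : (z : G) ∈ ρ.ker := by
          rw [← hi]
          simp only [Subgroup.coe_zpow]
          exact Subgroup.zpow_mem _ x.2.1 i
        apply hχ
        have h4 : ρ (z : G) = 1 := h3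
        simp [Representation.character, h4]
      exact (injective_iff_map_eq_one ρ).mpr (fun a ha => by
        have : a ∈ ρ.ker := ha
        rw [hker] at this
        exact this)
    · obtain ⟨n, ρ, hρ, -⟩ := Cfsg.Agent.H21.isIrrCharacter_one (G := G)
      refine ⟨n, ρ, hρ, ?_⟩
      rw [not_nontrivial_iff_subsingleton] at hnt
      exact fun a b _ => Subsingleton.elim a b


end Cfsg.Agent.S0184
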