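import Mathlib
import Cfsg.Agent.Lib.H01.CharA
import Cfsg.Agent.Lib.H22.Degree
import Cfsg.Statements.S0185
-- import your own Cfsg.Agent.* helpers here

set_option autoImplicit false
open Cfsg

namespace Cfsg.Agent.S0185


/-- If a finite group has a faithful complex representation of degree less than the smallest prime dividing its order, the group is abelian. -/
theorem result {G : Type*} [Group G] [Finite G] {V : Type*} [AddCommGroup V] [Module ℂ V] [FiniteDimensional ℂ V] (ρ : Representation ℂ G V) (hfaithful : Function.Injective ρ) (hdeg : ∀ p : ℕ, p.Prime → p ∣ Nat.card G → Module.finrank ℂ V < p) (a b : G) : a * b = b * a := by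
  classical
  haveI := Fintype.ofFinite G
  haveI : Fintype (IrrCharacter G) := Fintype.ofFinite _
  have hχ := Cfsg.Agent.H21.isCharacter_of_rep ρ
  have hdegX : Cfsg.charDegree ρ.character = Module.finrank ℂ V := by
    have h1 := Cfsg.Agent.H21.one_eq_charDegree hχ
    rw [Representation.char_one] at h1
    exact_mod_cast h1.symm
  have hval : ρ.character (a * b * a⁻¹ * b⁻¹) = ρ.character 1 := by
    apply Cfsg.Agent.H01.value_eq_one_of_constituents hχ
    intro ψ hψ
    have hψχ := Cfsg.Agent.H21.isCharacter_of_irr ψ.2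
    have h1 := Cfsg.Agent.H01.degree_le_of_inner_ne hχ ψ hψ
    rw [hdegX] at h1
    have h2 : Cfsg.charDegree ψ.1 ∣ Nat.card G := Cfsg.Agent.H22.charDegree_dvd_card ψ
    have hd1 : Cfsg.charDegree ψ.1 = 1 := by
      by_contra hne
      obtain ⟨p, hp, hpd⟩ := Nat.exists_prime_and_dvd hne
      have h3 := hdeg p hp (hpd.trans h2)
      have h4 := Nat.le_of_dvd (Cfsg.Agent.H21.irr_charDegree_pos ψ.2) hpd
      omega
    have hm := Cfsg.Agent.H21.linear_mul hψχ hd1
    have h11 := Cfsg.Agent.H21.linear_one hψχ hd1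
    have hinv : ∀ x : G, ψ.1 x * ψ.1 x⁻¹ = 1 := by
      intro x
      rw [← hm, mul_inv_cancel, h11]
    have : ψ.1 (a * b * a⁻¹ * b⁻¹) = (ψ.1 a * ψ.1 a⁻¹) * (ψ.1 b * ψ.1 b⁻¹) := by
      rw [hm, hm, hm]; ring
    rw [this, hinv, hinv, h11, one_mul]
  rw [Representation.char_one, Cfsg.Agent.H21.character_eq_finrank_iff] at hval
  have h5 : a * b * a⁻¹ * b⁻¹ = 1 := hfaithful (by rw [hval, map_one])
  calc a * b = (a * b * a⁻¹ * b⁻¹) * (b * a) := by group
    _ = b * a := by rw [h5, one_mul]


end Cfsg.Agent.S0185
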