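import Mathlib
import Cfsg.Agent.Lib.H01.Basic
import Cfsg.Agent.Lib.H23.KGV2
import Cfsg.Agent.Lib.H23.CharAvg
import Cfsg.Agent.Lib.H22.Degree
import Cfsg.Agent.Lib.H21.CharLinear
import Cfsg.Agent.Lib.H06.CharClifford
import Cfsg.Statements.S0186
-- import your own Cfsg.Agent.* helpers here

set_option autoImplicit false
open Cfsg

namespace Cfsg.Agent.S0186

open Cfsg Cfsg.Agent.H21
open scoped commutatorElement

universe u

private theorem lin_on_comm {Q : Type u} [Group Q] [Finite Q] {ψ : Q → ℂ} (hψ : IsCharacter Q ψ)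
    (h1 : charDegree ψ = 1) : ∀ x ∈ commutator Q, ψ x = ψ 1 := by
  intro x hx
  have hle : commutator Q ≤ charKer ψ hψ := by
    rw [commutator_def, Subgroup.commutator_le]
    intro a _ b _
    rw [mem_charKer, commutatorElement_def, linear_mul hψ h1, linear_mul hψ h1, linear_mul hψ h1]
    have ha : ψ a * ψ a⁻¹ = ψ 1 := by rw [← linear_mul hψ h1]; simp
    have hb : ψ b * ψ b⁻¹ = ψ 1 := by rw [← linear_mul hψ h1]; simp
    have h11 : ψ 1 = 1 := linear_one hψ h1
    calc ψ a * ψ b * ψ a⁻¹ * ψ b⁻¹ = (ψ a * ψ a⁻¹) * (ψ b * ψ b⁻¹) := by ring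
      _ = ψ 1 := by rw [ha, hb, h11, one_mul]
  exact hle hx

private theorem nonlin_not_ker {Q : Type u} [Group Q] [Fintype Q] {ψ : Q → ℂ} (hψ : IsIrrCharacter Q ψ)
    (h1 : charDegree ψ ≠ 1) : ¬ ∀ x ∈ commutator Q, ψ x = ψ 1 := by
  intro hk
  obtain ⟨χ', hχ', he⟩ := Cfsg.Agent.H23.exists_quot_char (commutator Q) hψ hk
  have hd := irr_degree_one_of_comm (G := Q ⧸ commutator Q)
    (fun a b => @mul_comm (Abelianization Q) _ a b) hχ'
  apply h1
  rw [← he]
  have : charDegree (χ' ∘ QuotientGroup.mk' (commutator Q)) = charDegree χ' := by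
    simp only [charDegree, Function.comp_apply, map_one]
  rw [this, hd]

private theorem lemB {Q : Type u} [Group Q] [Fintype Q] [Fintype (commutator Q)] {p : ℕ} [hp : Fact p.Prime] (hQ : IsPGroup p Q)
    {θ : Q → ℂ} (hθ : IsCharacter Q θ) (hne : ∃ x ∈ commutator Q, θ x ≠ θ 1) :
    ∃ l e : ℕ, θ 1 = (l : ℂ) + e ∧
      ∑ x : commutator Q, θ x = (Nat.card (commutator Q) : ℂ) * l ∧ p ≤ e := by
  classical
  haveI : Fintype (IrrCharacter Q) := Fintype.ofFinite _
  obtain ⟨m, hm, -⟩ := isCharacter_decomp hθ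
  have hval : ∀ x : Q, θ x = ∑ ψ : IrrCharacter Q, (m ψ : ℂ) * ψ.1 x := by
    intro x
    conv_lhs => rw [hm]
    simp [Finset.sum_apply]
  let l : ℕ := ∑ ψ : IrrCharacter Q, if charDegree ψ.1 = 1 then m ψ else 0
  let e : ℕ := ∑ ψ : IrrCharacter Q, if charDegree ψ.1 = 1 then 0 else m ψ * charDegree ψ.1
  have hdeg : ∀ ψ : IrrCharacter Q, ψ.1 1 = (charDegree ψ.1 : ℂ) := fun ψ =>
    one_eq_charDegree (isCharacter_of_irr ψ.2)
  refine ⟨l, e, ?_, ?_, ?_⟩
  · rw [hval]
    simp only [l, e]
    push_cast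
    rw [← Finset.sum_add_distrib]
    refine Finset.sum_congr rfl fun ψ _ => ?_
    rw [hdeg]
    by_cases h : charDegree ψ.1 = 1
    · simp [h]
    · simp [h]
  · simp only [hval]
    rw [Finset.sum_comm]
    simp only [l]
    push_cast
    rw [Finset.mul_sum]
    refine Finset.sum_congr rfl fun ψ _ => ?_
    rw [← Finset.mul_sum]
    by_cases h : charDegree ψ.1 = 1
    · simp only [h, if_true]
      have h1 : ∀ x : commutator Q, ψ.1 x = 1 := by
        intro x
        rw [lin_on_comm (isCharacter_of_irr ψ.2) h x x.2]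
        exact linear_one (isCharacter_of_irr ψ.2) h
      simp only [h1]
      simp
      ring
    · simp only [h, if_false]
      have h0 := Cfsg.Agent.H23.sum_mul_normal_of_irr (commutator Q) ψ.2 (nonlin_not_ker ψ.2 h) 1
      simp only [mul_one] at h0
      simp [h0]
  · by_contra hlt
    push Not at hlt
    -- all nonlinear multiplicities vanish
    have hz : ∀ ψ : IrrCharacter Q, charDegree ψ.1 ≠ 1 → m ψ = 0 := by
      intro ψ h
      by_contra hmψ
      have hle : (if charDegree ψ.1 = 1 then 0 else m ψ * charDegree ψ.1) ≤ e :=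
        Finset.single_le_sum (f := fun ψ : IrrCharacter Q => if charDegree ψ.1 = 1 then 0 else m ψ * charDegree ψ.1)
          (fun _ _ => Nat.zero_le _) (Finset.mem_univ ψ)
      rw [if_neg h] at hle
      have hdvd : charDegree ψ.1 ∣ p ^ (Nat.factorization (Nat.card Q) p) := by
        have h2 := Cfsg.Agent.H22.charDegree_dvd_card ψ
        obtain ⟨n, hn⟩ := IsPGroup.iff_card.mp hQ
        rw [hn] at h2
        rw [hn, Nat.Prime.factorization_pow hp.out]
        simpa using h2
      obtain ⟨k, -, hk⟩ := (Nat.dvd_prime_pow hp.out).mp hdvd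
      have hk0 : k ≠ 0 := by
        rintro rfl
        exact h (by simpa using hk)
      have hp2 : p ≤ charDegree ψ.1 := by
        rw [hk]
        exact Nat.le_self_pow hk0 p
      have hm1 : 1 ≤ m ψ := Nat.one_le_iff_ne_zero.mpr hmψ
      nlinarith
    obtain ⟨x, hx, hxne⟩ := hne
    apply hxne
    rw [hval, hval]
    refine Finset.sum_congr rfl fun ψ _ => ?_
    by_cases h : charDegree ψ.1 = 1
    · rw [lin_on_comm (isCharacter_of_irr ψ.2) h x hx]
    · rw [hz ψ h]
      simp

private theorem index_ge {Q : Type u} [Group Q] [Finite Q] {p : ℕ} [hp : Fact p.Prime] (hQ : IsPGroup p Q)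
    (hnc : ∃ a b : Q, a * b ≠ b * a) : p ^ 2 ≤ (commutator Q).index := by
  classical
  by_contra hlt
  push Not at hlt
  obtain ⟨k, hk⟩ := (hQ.index (commutator Q))
  have hk1 : k < 2 := by
    rw [hk] at hlt
    exact (Nat.pow_lt_pow_iff_right hp.out.one_lt).mp hlt
  have hcyc : IsCyclic (Q ⧸ commutator Q) := by
    have hcard : Nat.card (Q ⧸ commutator Q) = p ^ k := hk
    interval_cases k
    · have : Nat.card (Q ⧸ commutator Q) = 1 := by simpa using hcard
      haveI := (Nat.card_eq_one_iff_unique.mp this).1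
      exact isCyclic_of_subsingleton
    · exact isCyclic_of_prime_card (p := p) (by simpa using hcard)
  obtain ⟨y, hy⟩ := hcyc.exists_generator
  obtain ⟨x, rfl⟩ := QuotientGroup.mk_surjective y
  have hsup : Subgroup.zpowers x ⊔ frattini Q = ⊤ := by
    rw [eq_top_iff]
    intro g _
    obtain ⟨n, hn⟩ := Subgroup.mem_zpowers_iff.mp (hy (g : Q ⧸ commutator Q))
    have h1 : x ^ n * (x ^ n)⁻¹ * g = g := by group
    rw [← h1, mul_assoc]
    refine Subgroup.mul_mem_sup (Subgroup.zpow_mem_zpowers x n) ?_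
    apply Cfsg.Agent.H01.commutator_le_frattini_of_isPGroup hQ
    rw [← QuotientGroup.eq_one_iff]
    have h2 : ((x : Q ⧸ commutator Q)) ^ n = g := hn
    rw [QuotientGroup.mk_mul, QuotientGroup.mk_inv, QuotientGroup.mk_zpow, h2, inv_mul_cancel]
  have htop := frattini_nongenerating hsup
  obtain ⟨a, b, hab⟩ := hnc
  apply hab
  obtain ⟨i, hi⟩ := Subgroup.mem_zpowers_iff.mp (htop ▸ Subgroup.mem_top a)
  obtain ⟨j, hj⟩ := Subgroup.mem_zpowers_iff.mp (htop ▸ Subgroup.mem_top b)
  rw [← hi, ← hj, ← zpow_add, ← zpow_add, add_comm]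

private theorem faithful_of_ne {G : Type u} [Group G] [Fintype G] [IsSimpleGroup G] (χ : IrrCharacter G)
    (hχ : χ.1 ≠ fun _ => 1) (x : G) (hx : x ≠ 1) : χ.1 x ≠ χ.1 1 := by
  classical
  intro h
  have hcr := isCharacter_of_irr χ.2
  have hmem : x ∈ charKer χ.1 hcr := h
  have hker : charKer χ.1 hcr = ⊤ := by
    rcases (charKer_normal χ.1 hcr).eq_bot_or_eq_top with h2 | h2
    · rw [h2] at hmem
      exact absurd ((Subgroup.mem_bot).mp hmem) hx
    · exact h2
  have hall : ∀ g, χ.1 g = χ.1 1 := by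
    intro g
    have : g ∈ charKer χ.1 hcr := by rw [hker]; trivial
    exact this
  have h0 := Cfsg.Agent.H06.classInner_irr_ne χ.2 isIrrCharacter_one hχ
  simp only [classInner] at h0
  simp only [hall, map_one, mul_one] at h0
  rw [mul_eq_zero] at h0
  have hc : (Nat.card G : ℂ) ≠ 0 := by exact_mod_cast Nat.card_pos.ne'
  rcases h0 with h0 | h0
  · exact hc (inv_eq_zero.mp h0)
  · rw [Finset.sum_const, Finset.card_univ, nsmul_eq_mul, mul_eq_zero] at h0
    rcases h0 with h0 | h0
    · rw [← Nat.card_eq_fintype_card] at h0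
      exact hc h0
    · have := irr_charDegree_pos χ.2
      rw [one_eq_charDegree hcr] at h0
      have h3 : charDegree χ.1 = 0 := by exact_mod_cast h0
      omega

private theorem delta {G : Type u} [Group G] [DecidableEq G] [Fintype G] [Fintype (IrrCharacter G)] (x : G) :
    ∑ χ : IrrCharacter G, χ.1 1 * χ.1 x = if x = 1 then (Nat.card G : ℂ) else 0 := by
  have hd : ∀ χ : IrrCharacter G, χ.1 1 = (charDegree χ.1 : ℂ) := fun χ =>
    one_eq_charDegree (isCharacter_of_irr χ.2)
  simp only [hd]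
  by_cases hx : x = 1
  · subst hx
    simp only [if_true]
    have := sum_degree_sq (G := G)
    simp only [hd]
    rw [← this]
    push_cast
    exact Finset.sum_congr rfl fun χ _ => by ring
  · rw [if_neg hx]
    exact sum_degree_mul_value_ne hx

set_option maxHeartbeats 1000000 in
private theorem main_aux {G : Type u} [Group G] [Fintype G] [IsSimpleGroup G] (p : ℕ) [Fact p.Prime]
    (Q : Subgroup G) (hQp : IsPGroup p Q) (u v : Q) (huv : u * v ≠ v * u) :
    p ^ 2 * Nat.card (ConjClasses G) ≤ Nat.card G := by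

  classical
  haveI : Fintype (Cfsg.IrrCharacter G) := Fintype.ofFinite _
  haveI : Fintype Q := Fintype.ofFinite _
  haveI : Fintype (commutator Q) := Fintype.ofFinite _
  obtain ⟨w, hw⟩ : ∃ w : Q, w = ⁅u, v⁆ := ⟨_, rfl⟩
  have hwD : w ∈ commutator Q := by
    rw [hw]
    exact Subgroup.commutator_mem_commutator (Subgroup.mem_top u) (Subgroup.mem_top v)
  have hw1 : (w : G) ≠ 1 := by
    intro h
    have h2 : w = 1 := Subtype.ext h
    rw [hw] at h2
    exact huv (commutatorElement_eq_one_iff_mul_comm.mp h2)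
  let triv : Cfsg.IrrCharacter G := ⟨fun _ => 1, Cfsg.Agent.H21.isIrrCharacter_one⟩
  have hchoice : ∀ χ : Cfsg.IrrCharacter G, ∃ l e : ℕ, Cfsg.charDegree χ.1 = l + e ∧
      ∑ x : commutator Q, χ.1 ((x : Q) : G) = (Nat.card (commutator Q) : ℂ) * l ∧ (χ ≠ triv → p ≤ e) := by
    intro χ
    by_cases hχ : χ = triv
    · refine ⟨1, 0, ?_, ?_, fun h => absurd hχ h⟩
      · have := Cfsg.Agent.H21.one_eq_charDegree (Cfsg.Agent.H21.isCharacter_of_irr χ.2)
        have h2 : χ.1 1 = 1 := by rw [hχ]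
        rw [h2] at this
        have h3 : Cfsg.charDegree χ.1 = 1 := by exact_mod_cast this.symm
        simpa using h3
      · rw [hχ]
        simp [triv]
    · have hne : χ.1 ≠ fun _ => 1 := fun h => hχ (Subtype.ext h)
      have hθ := Cfsg.Agent.H21.isCharacter_restrict Q (Cfsg.Agent.H21.isCharacter_of_irr χ.2)
      obtain ⟨l, e, h1, h2, h3⟩ := lemB hQp hθ ⟨w, hwD, faithful_of_ne χ hne _ hw1⟩
      refine ⟨l, e, ?_, h2, fun _ => h3⟩
      have h4 := Cfsg.Agent.H21.one_eq_charDegree (Cfsg.Agent.H21.isCharacter_of_irr χ.2)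
      have h5 : χ.1 1 = (l : ℂ) + e := h1
      rw [h5] at h4
      exact_mod_cast h4.symm
  choose l e hd hL he using hchoice
  -- the first sum
  have hS1 : (Nat.card (commutator Q)) * ∑ χ : Cfsg.IrrCharacter G, Cfsg.charDegree χ.1 * l χ = Nat.card G := by
    have h1 : ∑ x : commutator Q, ∑ χ : Cfsg.IrrCharacter G, χ.1 1 * χ.1 ((x : Q) : G) = (Nat.card G : ℂ) := by
      simp only [delta]
      rw [Finset.sum_eq_single (1 : commutator Q)]
      · simp
      · intro x _ hx
        rw [if_neg]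
        intro h
        exact hx (Subtype.ext (Subtype.ext h))
      · intro h; exact absurd (Finset.mem_univ _) h
    rw [Finset.sum_comm] at h1
    simp only [← Finset.mul_sum, hL] at h1
    have h2 : ((Nat.card (commutator Q) * ∑ χ : Cfsg.IrrCharacter G, Cfsg.charDegree χ.1 * l χ : ℕ) : ℂ) = (Nat.card G : ℂ) := by
      rw [← h1]
      push_cast
      rw [Finset.mul_sum]
      refine Finset.sum_congr rfl fun χ _ => ?_
      rw [Cfsg.Agent.H21.one_eq_charDegree (Cfsg.Agent.H21.isCharacter_of_irr χ.2)]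
      ring
    exact_mod_cast h2
  have hS2 : ∑ χ : Cfsg.IrrCharacter G, Cfsg.charDegree χ.1 ^ 2 = Nat.card G := Cfsg.Agent.H21.sum_degree_sq
  have hS3 : ∑ χ : Cfsg.IrrCharacter G, Cfsg.charDegree χ.1 ^ 2 =
      ∑ χ : Cfsg.IrrCharacter G, Cfsg.charDegree χ.1 * l χ + ∑ χ : Cfsg.IrrCharacter G, Cfsg.charDegree χ.1 * e χ := by
    rw [← Finset.sum_add_distrib]
    refine Finset.sum_congr rfl fun χ _ => ?_
    rw [sq, ← mul_add, ← hd]
  have hS4 : ∑ χ : Cfsg.IrrCharacter G, p ^ 2 ≤
      ∑ χ : Cfsg.IrrCharacter G, (Cfsg.charDegree χ.1 * e χ + if χ = triv then p ^ 2 else 0) := by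
    refine Finset.sum_le_sum fun χ _ => ?_
    by_cases h : χ = triv
    · rw [if_pos h]
      omega
    · rw [if_neg h, add_zero]
      have h1 := he χ h
      have h2 := hd χ
      have : p ≤ Cfsg.charDegree χ.1 := by omega
      rw [sq]
      exact Nat.mul_le_mul this h1
  rw [Finset.sum_add_distrib, Finset.sum_ite_eq' , if_pos (Finset.mem_univ _), Finset.sum_const,
    Finset.card_univ, ← Nat.card_eq_fintype_card, Cfsg.Agent.H21.card_irr_eq_card_conjClasses] at hS4
  simp only [smul_eq_mul] at hS4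
  have hidx := index_ge hQp ⟨u, v, huv⟩
  have hN : p ^ 2 ≤ ∑ χ : Cfsg.IrrCharacter G, Cfsg.charDegree χ.1 * l χ := by
    have h1 : Nat.card (commutator Q) * (commutator Q).index = Nat.card Q := Subgroup.card_mul_index _
    have h2 : Nat.card Q ≤ Nat.card G := Subgroup.card_le_card_group _
    have h3 : Nat.card (commutator Q) * p ^ 2 ≤ Nat.card (commutator Q) * ∑ χ : Cfsg.IrrCharacter G, Cfsg.charDegree χ.1 * l χ := by
      rw [hS1]
      calc Nat.card (commutator Q) * p ^ 2 ≤ Nat.card (commutator Q) * (commutator Q).index := Nat.mul_le_mul_left _ hidx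
        _ = Nat.card Q := h1
        _ ≤ _ := h2
    exact Nat.le_of_mul_le_mul_left h3 Nat.card_pos
  rw [← hS2, hS3]
  rw [mul_comm]
  omega

/-- Let G be a finite simple group of order n and p a prime dividing n. If G has more than n / p^2 conjugacy classes, then every Sylow p-subgroup of G is abelian. -/
theorem result {G : Type*} [Group G] [Finite G] [IsSimpleGroup G] (p : ℕ) [Fact p.Prime] (hp : p ∣ Nat.card G) (hmany : Nat.card G < p ^ 2 * Nat.card (ConjClasses G)) (P : Sylow p G) (a b : G) (ha : a ∈ P) (hb : b ∈ P) : a * b = b * a := by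
  classical
  by_contra hab
  haveI := Fintype.ofFinite G
  have := main_aux p (P : Subgroup G) P.isPGroup' ⟨a, ha⟩ ⟨b, hb⟩
    (fun h => hab (congrArg Subtype.val h))
  omega

end Cfsg.Agent.S0186
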