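import Mathlib
import Cfsg.Agent.Lib.H21.CharBasis
import Cfsg.Agent.Lib.H21.CharInd
import Cfsg.Agent.Lib.H21.CharLinear
import Cfsg.Agent.S0136
import Cfsg.Statements.S0187
-- import your own Cfsg.Agent.* helpers here

set_option autoImplicit false
open Cfsg

namespace Cfsg.Agent.S0187


/-- A finite group is commutative if and only if every irreducible complex character has degree 1. -/
theorem result {G : Type*} [Group G] [Finite G] : (∀ a b : G, a * b = b * a) ↔ ∀ χ : Cfsg.IrrCharacter G, (χ : G → ℂ) 1 = 1 := by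
  classical
  constructor
  · intro hc χ
    have h1 := Cfsg.Agent.H21.irr_degree_one_of_comm hc χ.2
    have h2 := Cfsg.Agent.H21.one_eq_charDegree (Cfsg.Agent.H21.isCharacter_of_irr χ.2)
    rw [h2, h1]; simp
  · intro h a b
    have hcomm : IsConj (a * b * a⁻¹ * b⁻¹) (1 : G) := by
      rw [Cfsg.Agent.S0136.result]
      intro χ
      have hχ := Cfsg.Agent.H21.isCharacter_of_irr χ.2
      have hdeg : Cfsg.charDegree χ.1 = 1 := by
        have := Cfsg.Agent.H21.one_eq_charDegree hχ
        rw [h χ] at this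
        exact_mod_cast this.symm
      have hm := Cfsg.Agent.H21.linear_mul hχ hdeg
      have h1 := h χ
      have hinv : ∀ x : G, χ.1 x * χ.1 x⁻¹ = 1 := by
        intro x
        rw [← hm, mul_inv_cancel, h1]
      have : χ.1 (a * b * a⁻¹ * b⁻¹) = (χ.1 a * χ.1 a⁻¹) * (χ.1 b * χ.1 b⁻¹) := by
        rw [hm, hm, hm]; ring
      rw [this, hinv, hinv, h1, one_mul]
    have h2 : a * b * a⁻¹ * b⁻¹ = 1 := by
      exact isConj_one_right.mp hcomm.symm
    have h3 : a * b = b * a := by
      calc a * b = (a * b * a⁻¹ * b⁻¹) * (b * a) := by group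
        _ = b * a := by rw [h2, one_mul]
    exact h3


end Cfsg.Agent.S0187
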