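import Mathlib
import Cfsg.Agent.Lib.H01.CharA
import Cfsg.Statements.S0188
-- import your own Cfsg.Agent.* helpers here

set_option autoImplicit false
open Cfsg

namespace Cfsg.Agent.S0188

open scoped ComplexConjugate


/-- The irreducible complex characters of G × H are precisely the functions (g, h) ↦ φ g * ψ h with φ, ψ irreducible characters of G and H. -/
theorem result {G : Type*} [Group G] [Finite G] {H : Type*} [Group H] [Finite H] (θ : G × H → ℂ) : Cfsg.IsIrrCharacter (G × H) θ ↔ ∃ (φ : G → ℂ) (ψ : H → ℂ), Cfsg.IsIrrCharacter G φ ∧ Cfsg.IsIrrCharacter H ψ ∧ θ = fun x => φ x.1 * ψ x.2 := by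
  classical
  haveI := Fintype.ofFinite G
  haveI := Fintype.ofFinite H
  haveI : Fintype (IrrCharacter G) := Fintype.ofFinite _
  haveI : Fintype (IrrCharacter H) := Fintype.ofFinite _
  haveI : Fintype (IrrCharacter (G × H)) := Fintype.ofFinite _
  -- irreducibility of the products
  have hprod : ∀ (φ : G → ℂ) (ψ : H → ℂ), Cfsg.IsIrrCharacter G φ → Cfsg.IsIrrCharacter H ψ →
      Cfsg.IsIrrCharacter (G × H) (fun x => φ x.1 * ψ x.2) := by
    intro φ ψ hφ hψ
    have h1 : IsCharacter (G × H) (fun x : G × H => φ x.1) :=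
      Cfsg.Agent.H21.isCharacter_comp (MonoidHom.fst G H) (Cfsg.Agent.H21.isCharacter_of_irr hφ)
    have h2 : IsCharacter (G × H) (fun x : G × H => ψ x.2) :=
      Cfsg.Agent.H21.isCharacter_comp (MonoidHom.snd G H) (Cfsg.Agent.H21.isCharacter_of_irr hψ)
    have h12 : IsCharacter (G × H) (fun x : G × H => φ x.1 * ψ x.2) := Cfsg.Agent.H21.isCharacter_mul h1 h2
    apply Cfsg.Agent.H21.isIrrCharacter_of_inner_self_eq_one h12
    have h3 := Cfsg.Agent.H06.classInner_irr_self hφ
    have h4 := Cfsg.Agent.H06.classInner_irr_self hψ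
    unfold classInner at h3 h4 ⊢
    rw [Fintype.sum_prod_type, Nat.card_prod]
    have hG0 : (Nat.card G : ℂ) ≠ 0 := by simp [Nat.card_pos.ne']
    have hH0 : (Nat.card H : ℂ) ≠ 0 := by simp [Nat.card_pos.ne']
    have h5 : (∑ x : G, ∑ y : H, φ x * ψ y * conj (φ x * ψ y)) =
        (∑ x : G, φ x * conj (φ x)) * (∑ y : H, ψ y * conj (ψ y)) := by
      rw [Finset.sum_mul_sum]
      refine Finset.sum_congr rfl fun x _ => Finset.sum_congr rfl fun y _ => ?_
      rw [map_mul]; ring
    rw [h5]
    push_cast
    rw [mul_inv]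
    calc _ = ((Nat.card G : ℂ)⁻¹ * ∑ x : G, φ x * conj (φ x)) * ((Nat.card H : ℂ)⁻¹ * ∑ y : H, ψ y * conj (ψ y)) := by ring
      _ = 1 := by rw [h3, h4, one_mul]
  constructor
  · intro hθ
    -- `θ` is not orthogonal to all products
    have hcl := Cfsg.Agent.H21.isClassFunction_of_isCharacter (Cfsg.Agent.H21.isCharacter_of_irr hθ)
    by_contra hcon
    push Not at hcon
    have hortho : ∀ (φ : IrrCharacter G) (ψ : IrrCharacter H),
        classInner θ (fun x : G × H => (φ : G → ℂ) x.1 * (ψ : H → ℂ) x.2) = 0 := by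
      intro φ ψ
      apply Cfsg.Agent.H06.classInner_irr_ne hθ (hprod _ _ φ.2 ψ.2)
      exact hcon φ.1 ψ.1 φ.2 ψ.2
    have hG0 : (Nat.card G : ℂ) ≠ 0 := by simp [Nat.card_pos.ne']
    have hH0 : (Nat.card H : ℂ) ≠ 0 := by simp [Nat.card_pos.ne']
    -- first step
    have hF : ∀ (φ : IrrCharacter G) (h : H), ∑ g : G, θ (g, h) * conj ((φ : G → ℂ) g) = 0 := by
      intro φ
      have hclF : IsClassFunction H (fun h => ∑ g : G, θ (g, h) * conj ((φ : G → ℂ) g)) := by
        intro h k
        simp only
        refine Finset.sum_congr rfl fun g _ => ?_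
        have := hcl (g, h) (1, k)
        simp only [Prod.mk_mul_mk, mul_one, one_mul, Prod.inv_mk, inv_one] at this
        rw [this]
      have h0 := Cfsg.Agent.H21.classFunction_eq_zero _ hclF (fun ψ => by
        have := hortho φ ψ
        unfold classInner at this ⊢
        rw [Fintype.sum_prod_type] at this
        have h1 := (mul_eq_zero.mp this).resolve_left (inv_ne_zero (by
          rw [Nat.card_prod]; push_cast; exact mul_ne_zero hG0 hH0))
        rw [Finset.sum_comm] at h1
        have h2 : ∑ y : H, (∑ g : G, θ (g, y) * conj ((φ : G → ℂ) g)) * conj ((ψ : H → ℂ) y) = 0 := by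
          rw [← h1]
          refine Finset.sum_congr rfl fun y _ => ?_
          rw [Finset.sum_mul]
          refine Finset.sum_congr rfl fun g _ => ?_
          rw [map_mul]; ring
        rw [h2, mul_zero])
      intro h
      exact congrFun h0 h
    have hzero : θ = 0 := by
      funext ⟨g, h⟩
      have hcl2 : IsClassFunction G (fun g => θ (g, h)) := by
        intro g k
        simp only
        have := hcl (g, h) (k, 1)
        simp only [Prod.mk_mul_mk, mul_one, one_mul, Prod.inv_mk, inv_one] at this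
        exact this
      have h0 := Cfsg.Agent.H21.classFunction_eq_zero _ hcl2 (fun φ => by
        unfold classInner
        rw [hF φ h, mul_zero])
      exact congrFun h0 g
    have h1 := Cfsg.Agent.H06.irr_one_ne_zero' hθ
    rw [hzero] at h1
    exact h1 rfl
  · rintro ⟨φ, ψ, hφ, hψ, rfl⟩
    exact hprod φ ψ hφ hψ


end Cfsg.Agent.S0188
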