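import Mathlib
import Cfsg.Agent.Lib.H21.CharBasis
import Cfsg.Agent.Lib.H21.CharInd
import Cfsg.Agent.Lib.H21.CharLinear
import Cfsg.Statements.S0189
-- import your own Cfsg.Agent.* helpers here

set_option autoImplicit false
open Cfsg

namespace Cfsg.Agent.S0189


/-- If a complex character of a finite group vanishes at every non-identity element of a Sylow p-subgroup P, then |P| divides its degree. -/
theorem result {G : Type*} [Group G] [Finite G] (p : ℕ) [Fact p.Prime] (P : Sylow p G) (χ : G → ℂ) (hχ : Cfsg.IsCharacter G χ) (hvan : ∀ g : G, g ∈ P → g ≠ 1 → χ g = 0) : ∃ k : ℕ, χ 1 = (Nat.card P : ℂ) * k := by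
  classical
  haveI := Fintype.ofFinite G
  haveI : Fintype (P : Subgroup G) := Fintype.ofFinite _
  have h1 : Cfsg.IsCharacter (P : Subgroup G) (fun x : (P : Subgroup G) => χ x) := Cfsg.Agent.H21.isCharacter_restrict _ hχ
  obtain ⟨k, hk⟩ := Cfsg.Agent.H21.classInner_isCharacter_nat h1 (Cfsg.Agent.H21.isCharacter_one)
  refine ⟨k, ?_⟩
  have hne : (Nat.card (P : Subgroup G) : ℂ) ≠ 0 := by simp [Nat.card_pos.ne']
  unfold classInner at hk
  rw [Finset.sum_eq_single (1 : (P : Subgroup G))] at hk
  · simp only [map_one, mul_one, OneMemClass.coe_one] at hk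
    rw [inv_mul_eq_iff_eq_mul₀ hne] at hk
    exact hk
  · intro b _ hb
    have : χ (b : G) = 0 := hvan b b.2 (fun h => hb (Subtype.ext h))
    simp [this]
  · intro h; exact absurd (Finset.mem_univ _) h


end Cfsg.Agent.S0189
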