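import Mathlib
import Cfsg.Agent.Lib.H01.CharA
import Cfsg.Statements.S0190
-- import your own Cfsg.Agent.* helpers here

set_option autoImplicit false
open Cfsg

namespace Cfsg.Agent.S0190


/-- For a transitive action of a finite group on X, the permutation character g ↦ (number of fixed points of g) is the function induced from the principal character of the stabilizer of any point. -/
theorem result {G : Type*} [Group G] [Fintype G] (X : Type*) [MulAction G X] [Finite X] [MulAction.IsPretransitive G X] (x : X) : (fun g : G => (Nat.card (MulAction.fixedBy X g) : ℂ)) = Cfsg.indFun (MulAction.stabilizer G x) (fun _ => 1) := by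
  classical
  funext g
  haveI := Fintype.ofFinite X
  unfold indFun
  set S := MulAction.stabilizer G x with hS
  have hS0 : (Nat.card S : ℂ) ≠ 0 := by simp [Nat.card_pos.ne']
  have h1 : ∀ y : G, extendByZero S (fun _ => (1 : ℂ)) (y⁻¹ * g * y) = if g • (y • x) = y • x then 1 else 0 := by
    intro y
    have hiff : y⁻¹ * g * y ∈ S ↔ g • (y • x) = y • x := by
      rw [hS, MulAction.mem_stabilizer_iff, mul_smul, mul_smul, inv_smul_eq_iff]
    split_ifs with h
    · have hm := hiff.mpr h
      have : y⁻¹ * g * y = ((⟨_, hm⟩ : S) : G) := rfl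
      rw [this, Cfsg.Agent.H21.extendByZero_coe]
    · exact Cfsg.Agent.H21.extendByZero_of_not_mem _ _ (fun hm => h (hiff.mp hm))
  simp only [h1]
  -- fibres of the orbit map
  have hfib : ∀ z : X, (Finset.univ.filter (fun y : G => y • x = z)).card = Nat.card S := by
    intro z
    obtain ⟨y₀, rfl⟩ := MulAction.exists_smul_eq G x z
    rw [← Fintype.card_subtype, ← Nat.card_eq_fintype_card]
    refine Nat.card_congr
      { toFun := fun y => ⟨y₀⁻¹ * y.1, ?_⟩
        invFun := fun s => ⟨y₀ * s.1, ?_⟩
        left_inv := fun y => by simp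
        right_inv := fun s => by simp }
    · rw [hS, MulAction.mem_stabilizer_iff, mul_smul, y.2, inv_smul_smul]
    · have hs : (s : G) • x = x := s.2
      rw [mul_smul, hs]
  have hsum : ∑ y : G, (if g • (y • x) = y • x then (1 : ℂ) else 0) =
      ∑ z : X, ∑ y ∈ Finset.univ.filter (fun y : G => y • x = z), (if g • z = z then (1 : ℂ) else 0) := by
    rw [← Finset.sum_fiberwise (s := (Finset.univ : Finset G)) (g := fun y : G => y • x)]
    refine Finset.sum_congr rfl fun z _ => Finset.sum_congr rfl fun y hy => ?_
    rw [(Finset.mem_filter.mp hy).2]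
  rw [hsum]
  simp only [Finset.sum_const, hfib, nsmul_eq_mul]
  rw [← Finset.mul_sum, inv_mul_cancel_left₀ hS0]
  rw [Finset.sum_boole, Nat.card_eq_fintype_card, Fintype.card_subtype]
  congr 1

end Cfsg.Agent.S0190
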