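import Mathlib
import Cfsg.Agent.Lib.H01.CharA
import Cfsg.Statements.S0192
-- import your own Cfsg.Agent.* helpers here

set_option autoImplicit false
open Cfsg

namespace Cfsg.Agent.S0192


/-- Brauer's generation criterion. Let G be a finite simple group, H₁ and H₂ subgroups, and χ a non-principal irreducible character. If the multiplicity of the principal character in χ restricted to H₁ ⊓ H₂ is less than the sum of the corresponding multiplicities for H₁ and H₂, then H₁ and H₂ do not generate G. -/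
theorem result {G : Type*} [Group G] [Fintype G] [IsSimpleGroup G] (H₁ H₂ : Subgroup G) [Fintype H₁] [Fintype H₂] [Fintype ↥(H₁ ⊓ H₂)] (χ : G → ℂ) (hχ : Cfsg.IsIrrCharacter G χ) (hχ1 : χ ≠ fun _ => 1) (hlt : (Cfsg.classInner (fun x : ↥(H₁ ⊓ H₂) => χ x) (fun _ => 1)).re < (Cfsg.classInner (fun x : H₁ => χ x) (fun _ => 1)).re + (Cfsg.classInner (fun x : H₂ => χ x) (fun _ => 1)).re) : H₁ ⊔ H₂ ≠ ⊤ := by
  classical
  intro htop
  obtain ⟨n, ρ, hirr, rfl⟩ := id hχ
  open Cfsg.Agent.H01 in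
  have hval : ∀ (H : Subgroup G) [Fintype H],
      (Cfsg.classInner (fun x : H => ρ.character (x : G)) (fun _ => 1)) =
        (Module.finrank ℂ (fixedSub ρ H) : ℂ) := by
    intro H _
    rw [← avg_character_eq_finrank ρ H]
    simp [Cfsg.classInner]
  have h12 : Cfsg.classInner (fun x : (⊤ : Subgroup G) => ρ.character (x : G)) (fun _ => 1) = 0 := by
    have h0 := Cfsg.Agent.H06.classInner_irr_ne hχ Cfsg.Agent.H21.isIrrCharacter_one hχ1
    have : Cfsg.classInner (fun x : (⊤ : Subgroup G) => ρ.character (x : G)) (fun _ => 1) =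
        Cfsg.classInner ρ.character (fun _ => (1:ℂ)) := by
      simp only [Cfsg.classInner, Nat.card_eq_fintype_card]
      congr 1
      · simp
      · exact Fintype.sum_equiv Subgroup.topEquiv.toEquiv _ _ (fun x => rfl)
    rw [this, h0]
  rw [hval] at h12
  have hbot : Cfsg.Agent.H01.fixedSub ρ ⊤ = ⊥ := by
    have : Module.finrank ℂ (Cfsg.Agent.H01.fixedSub ρ ⊤) = 0 := by exact_mod_cast h12
    exact Submodule.finrank_eq_zero.mp this
  rw [hval, hval, hval] at hlt
  simp only [Complex.natCast_re] at hlt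
  have hA : Cfsg.Agent.H01.fixedSub ρ H₁ ≤ Cfsg.Agent.H01.fixedSub ρ (H₁ ⊓ H₂) :=
    fun v hv h hh => hv h hh.1
  have hB : Cfsg.Agent.H01.fixedSub ρ H₂ ≤ Cfsg.Agent.H01.fixedSub ρ (H₁ ⊓ H₂) :=
    fun v hv h hh => hv h hh.2
  have hinf : Cfsg.Agent.H01.fixedSub ρ H₁ ⊓ Cfsg.Agent.H01.fixedSub ρ H₂ = ⊥ := by
    rw [eq_bot_iff, ← hbot]
    rintro v ⟨h1, h2⟩
    have hle : (⊤ : Subgroup G) ≤ Subgroup.closure ((H₁ : Set G) ∪ (H₂ : Set G)) := by
      rw [← htop, Subgroup.sup_eq_closure]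
    intro g _
    have hg := hle (Subgroup.mem_top g)
    induction hg using Subgroup.closure_induction with
    | mem x hx => 
      rcases hx with hx | hx
      · exact h1 x hx
      · exact h2 x hx
    | one => simp
    | mul x y _ _ hx hy => 
      rw [map_mul, Module.End.mul_apply, hy (Subgroup.mem_top _), hx (Subgroup.mem_top _)]
    | inv x _ hx => 
      have := hx (Subgroup.mem_top _)
      calc ρ x⁻¹ v = ρ x⁻¹ (ρ x v) := by rw [this]
        _ = v := by rw [← Module.End.mul_apply, ← map_mul]; simp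
  have hdim := Submodule.finrank_sup_add_finrank_inf_eq (Cfsg.Agent.H01.fixedSub ρ H₁) (Cfsg.Agent.H01.fixedSub ρ H₂)
  rw [hinf] at hdim
  simp only [finrank_bot, add_zero] at hdim
  have hle2 := Submodule.finrank_mono (sup_le hA hB)
  have : ((Module.finrank ℂ (Cfsg.Agent.H01.fixedSub ρ (H₁ ⊓ H₂)) : ℕ) : ℝ) <
      (Module.finrank ℂ (Cfsg.Agent.H01.fixedSub ρ H₁) + Module.finrank ℂ (Cfsg.Agent.H01.fixedSub ρ H₂) : ℕ) := by
    push_cast; exact hlt
  have h3 : Module.finrank ℂ (Cfsg.Agent.H01.fixedSub ρ (H₁ ⊓ H₂)) <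
      Module.finrank ℂ (Cfsg.Agent.H01.fixedSub ρ H₁) + Module.finrank ℂ (Cfsg.Agent.H01.fixedSub ρ H₂) := by
    exact_mod_cast this
  omega


end Cfsg.Agent.S0192
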