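import Mathlib
import Cfsg.Agent.Lib.H06.CharClifford
import Cfsg.Statements.S0193
-- import your own Cfsg.Agent.* helpers here

set_option autoImplicit false
open Cfsg

namespace Cfsg.Agent.S0193


/-- Let H be a normal subgroup of a finite group G and θ an irreducible character of H. Then |H| times the inner product of the induced function of θ with itself equals the number of g in G with θ(g h g⁻¹) = θ(h) for all h in H; in particular the induced character is irreducible when only elements of H stabilise θ. -/
theorem result {G : Type*} [Group G] [Fintype G] (H : Subgroup G) [hN : H.Normal] (θ : H → ℂ) (hθ : Cfsg.IsIrrCharacter H θ) : (Nat.card H : ℂ) * Cfsg.classInner (Cfsg.indFun H θ) (Cfsg.indFun H θ) = (Nat.card {g : G // ∀ h : H, θ ⟨g * h * g⁻¹, hN.conj_mem h h.2 g⟩ = θ h} : ℂ) := by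
  classical
  haveI : Fintype H := Fintype.ofFinite _
  rw [Cfsg.Agent.H21.frobenius_reciprocity H _ _ (Cfsg.Agent.H21.indFun_isClass H θ),
    Cfsg.Agent.H06.indFun_restrict_eq_sum_twist, Cfsg.Agent.H21.classInner_smul_right,
    Cfsg.Agent.H21.classInner_sum_right]
  have h2 : ∑ g : G, classInner θ (Cfsg.Agent.H06.twist H θ g)
      = (Nat.card {g : G // Cfsg.Agent.H06.twist H θ g = θ} : ℂ) := by
    rw [← Cfsg.Agent.H06.sum_classInner_twist H hθ]
    refine Finset.sum_congr rfl fun g _ => ?_
    rw [Cfsg.Agent.H06.classInner_irr_fun hθ (Cfsg.Agent.H06.isIrrCharacter_twist H hθ g),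
      Cfsg.Agent.H06.classInner_irr_fun (Cfsg.Agent.H06.isIrrCharacter_twist H hθ g) hθ]
    simp only [eq_comm]
  rw [h2]
  have h3 : Nat.card {g : G // Cfsg.Agent.H06.twist H θ g = θ}
      = Nat.card {g : G // ∀ h : H, θ ⟨g * h * g⁻¹, hN.conj_mem h h.2 g⟩ = θ h} := by
    refine Nat.card_congr (Equiv.subtypeEquivRight ?_)
    intro x
    constructor
    · intro hx h
      exact congrFun hx h
    · intro hx
      funext h
      exact hx h
  rw [h3]
  simp only [map_inv₀, Complex.conj_natCast]
  have h0 : (Nat.card H : ℂ) ≠ 0 := Nat.cast_ne_zero.mpr Nat.card_pos.ne'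
  field_simp


end Cfsg.Agent.S0193
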