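import Mathlib
import Cfsg.Agent.Lib.H01.CharA
import Cfsg.Agent.Lib.H06.CharClifford
import Cfsg.Agent.S0161
import Cfsg.Statements.S0194
-- import your own Cfsg.Agent.* helpers here

set_option autoImplicit false
open scoped ComplexConjugate
open Cfsg

namespace Cfsg.Agent.S0194

open scoped ComplexConjugate

/-- Let G have odd order, H be a normal subgroup and θ a non-principal irreducible character of H. Then the function induced from θ is orthogonal to its complex conjugate. -/
theorem result {G : Type*} [Group G] [Fintype G] (hodd : Odd (Nat.card G)) (H : Subgroup G) [H.Normal] (θ : H → ℂ) (hθ : Cfsg.IsIrrCharacter H θ) (hθ1 : θ ≠ fun _ => 1) : Cfsg.classInner (fun g => conj (Cfsg.indFun H θ g)) (Cfsg.indFun H θ) = 0 := by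

  classical
  haveI : Fintype H := Fintype.ofFinite _
  have hconjInd : (fun g => conj (indFun H θ g)) = indFun H (fun h => conj (θ h)) := by
    funext g
    unfold indFun
    rw [map_mul, map_sum]
    simp only [map_inv₀, Complex.conj_natCast]
    congr 1
    refine Finset.sum_congr rfl fun x _ => ?_
    by_cases hm : x⁻¹ * g * x ∈ H
    · have h2 : x⁻¹ * g * x = ((⟨_, hm⟩ : H) : G) := rfl
      rw [h2, Cfsg.Agent.H21.extendByZero_coe, Cfsg.Agent.H21.extendByZero_coe]
    · rw [Cfsg.Agent.H21.extendByZero_of_not_mem _ _ hm, Cfsg.Agent.H21.extendByZero_of_not_mem _ _ hm]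
      simp
  rw [hconjInd]
  apply Cfsg.Agent.H06.classInner_indFun_eq_zero_of_not_conj H hθ (Cfsg.Agent.H01.isIrrCharacter_conj_fn hθ)
  intro x hx
  have htw : ∀ (φ : H → ℂ) (y : G), Cfsg.Agent.H06.twist H (fun h => conj (φ h)) y =
      fun h => conj (Cfsg.Agent.H06.twist H φ y h) := fun _ _ => rfl
  have hx2 : Cfsg.Agent.H06.twist H θ (x * x) = θ := by
    rw [Cfsg.Agent.H06.twist_mul, ← hx, htw, ← hx]
    funext h
    simp
  have hpow : ∀ k : ℕ, Cfsg.Agent.H06.twist H θ ((x * x) ^ k) = θ := by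
    intro k
    induction k with
    | zero => simp [Cfsg.Agent.H06.twist_one]
    | succ k ih =>
      rw [pow_succ, Cfsg.Agent.H06.twist_mul, ih, hx2]
  obtain ⟨m, hm⟩ := hodd
  have hxx : (x * x) ^ (m + 1) = x := by
    have h1 : x ^ Nat.card G = 1 := pow_card_eq_one'
    rw [← pow_two, ← pow_mul]
    have : 2 * (m + 1) = Nat.card G + 1 := by omega
    rw [this, pow_succ, h1, one_mul]
  have hxfix : Cfsg.Agent.H06.twist H θ x = θ := by
    have := hpow (m + 1)
    rwa [hxx] at this
  rw [hxfix] at hx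
  have hH : Odd (Nat.card H) := Odd.of_dvd_nat ⟨m, hm⟩ (Subgroup.card_subgroup_dvd_card H)
  apply hθ1
  exact Cfsg.Agent.S0161.result hH ⟨θ, hθ⟩ (fun h => Complex.conj_eq_iff_im.mp (congrFun hx h))


end Cfsg.Agent.S0194
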