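import Mathlib
import Cfsg.Agent.Lib.H21.CharBasis
import Cfsg.Agent.Lib.H21.CharInd
import Cfsg.Agent.Lib.H21.CharLinear
import Cfsg.Statements.S0195
-- import your own Cfsg.Agent.* helpers here

set_option autoImplicit false
open Cfsg

namespace Cfsg.Agent.S0195


/-- Let A be a subgroup of G that equals the centralizer of each of its non-identity elements. If g lies outside the normalizer of A, then the only element of A conjugated by g into A is the identity (A is a trivial-intersection set). -/
theorem result {G : Type*} [Group G] [Finite G] (A : Subgroup G) (hA : ∀ x ∈ A, x ≠ 1 → Subgroup.centralizer ({x} : Set G) = A) (g : G) (hg : g ∉ Subgroup.normalizer (A : Set G)) (x : G) (hx : x ∈ A) (hgx : g * x * g⁻¹ ∈ A) : x = 1 := by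
  by_contra hx1
  have hx1 : x ≠ 1 := hx1
  -- `g x g⁻¹ ≠ 1`
  have hy1 : g * x * g⁻¹ ≠ 1 := by
    intro h
    apply hx1
    have : x = g⁻¹ * (g * x * g⁻¹) * g := by group
    rw [this, h]; group
  apply hg
  have hc1 := hA x hx hx1
  have hc2 := hA _ hgx hy1
  -- conjugating centralizers
  have key : ∀ a : G, a ∈ A → g * a * g⁻¹ ∈ A := by
    intro a ha
    rw [← hc2, Subgroup.mem_centralizer_iff]
    intro y hy
    rw [show y = g * x * g⁻¹ from hy]
    rw [← hc1, Subgroup.mem_centralizer_iff] at ha
    have := ha x rfl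
    calc g * x * g⁻¹ * (g * a * g⁻¹) = g * (x * a) * g⁻¹ := by group
      _ = g * (a * x) * g⁻¹ := by rw [this]
      _ = g * a * g⁻¹ * (g * x * g⁻¹) := by group
  have key2 : ∀ a : G, g * a * g⁻¹ ∈ A → a ∈ A := by
    intro a ha
    rw [← hc1, Subgroup.mem_centralizer_iff]
    intro y hy
    rw [show y = x from hy]
    rw [← hc2, Subgroup.mem_centralizer_iff] at ha
    have := ha (g * x * g⁻¹) rfl
    have h2 : g * (x * a) * g⁻¹ = g * (a * x) * g⁻¹ := by
      calc g * (x * a) * g⁻¹ = g * x * g⁻¹ * (g * a * g⁻¹) := by group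
        _ = g * a * g⁻¹ * (g * x * g⁻¹) := this
        _ = g * (a * x) * g⁻¹ := by group
    have h3 := mul_right_cancel h2
    exact mul_left_cancel h3
  rw [Subgroup.mem_normalizer_iff]
  intro n
  exact ⟨key n, key2 n⟩


end Cfsg.Agent.S0195
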