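import Mathlib
import Cfsg.Agent.Lib.H01.CharA
import Cfsg.Statements.S0196
-- import your own Cfsg.Agent.* helpers here

set_option autoImplicit false
open Cfsg

namespace Cfsg.Agent.S0196


/-- Let A be a subgroup of a finite group G that equals the centralizer of each of its non-identity elements, and let N be its normalizer. Then the index of A in N divides |A| − 1 (N/A permutes the non-identity elements of A in orbits of full length). -/
theorem result {G : Type*} [Group G] [Finite G] (A : Subgroup G) (hA : ∀ x ∈ A, x ≠ 1 → Subgroup.centralizer ({x} : Set G) = A) : (A.subgroupOf (Subgroup.normalizer (A : Set G))).index ∣ Nat.card A - 1 := by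
  classical
  let N := Subgroup.normalizer (A : Set G)
  have hmem : ∀ (n : N) (a : A), (n : G) * a * (n : G)⁻¹ ∈ A := fun n a =>
    (Subgroup.mem_normalizer_iff.mp n.2 a).mp a.2
  let X := {a : A // a ≠ 1}
  letI : MulAction N X :=
    { smul := fun n a => ⟨⟨(n : G) * a.1 * (n : G)⁻¹, hmem n a.1⟩, by
        intro h
        apply a.2
        have h1 : (n : G) * a.1 * (n : G)⁻¹ = 1 := congrArg Subtype.val h
        have h2 : (a.1 : G) = 1 := by
          have : (a.1 : G) = (n : G)⁻¹ * ((n : G) * a.1 * (n : G)⁻¹) * n := by group
          rw [this, h1]; group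
        exact Subtype.ext h2⟩
      one_smul := fun a => by
        apply Subtype.ext; apply Subtype.ext
        show ((1 : N) : G) * a.1 * ((1 : N) : G)⁻¹ = a.1
        simp
      mul_smul := fun m n a => by
        apply Subtype.ext; apply Subtype.ext
        show ((m * n : N) : G) * a.1 * ((m * n : N) : G)⁻¹ = (m : G) * ((n : G) * a.1 * (n : G)⁻¹) * (m : G)⁻¹
        simp only [Subgroup.coe_mul]
        group }
  have hsmul : ∀ (n : N) (a : X), (((n • a : X) : A) : G) = (n : G) * a.1 * (n : G)⁻¹ := fun _ _ => rfl
  have hstab : ∀ a : X, MulAction.stabilizer N a = A.subgroupOf N := by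
    intro a
    ext n
    rw [MulAction.mem_stabilizer_iff, Subgroup.mem_subgroupOf]
    have hc := hA a.1 a.1.2 (fun h => a.2 (Subtype.ext h))
    constructor
    · intro h
      have h1 : (n : G) * a.1 * (n : G)⁻¹ = a.1 := by
        rw [← hsmul, h]
      rw [← hc, Subgroup.mem_centralizer_iff]
      intro y hy
      rw [show y = (a.1 : G) from hy]
      calc (a.1 : G) * n = ((n : G) * a.1 * (n : G)⁻¹) * n := by rw [h1]
        _ = n * a.1 := by group
    · intro h
      rw [← hc, Subgroup.mem_centralizer_iff] at h
      have h1 := h (a.1 : G) rfl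
      apply Subtype.ext; apply Subtype.ext
      rw [hsmul, ← h1]
      group
  have hX : Nat.card X = Nat.card A - 1 := by
    have h3 : Nat.card X = Nat.card ({a | a ≠ (1 : A)} : Set A) := rfl
    rw [h3, Nat.card_coe_set_eq]
    have h4 : ({a | a ≠ (1 : A)} : Set A) = Set.univ \ {(1 : A)} := by
      ext q
      simp
    rw [h4, Set.ncard_sdiff_singleton_of_mem (Set.mem_univ _), Set.ncard_univ]
  rw [← hX]
  haveI : Fintype (MulAction.orbitRel.Quotient N X) := Fintype.ofFinite _
  rw [Nat.card_congr (MulAction.selfEquivSigmaOrbits N X), Nat.card_sigma]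
  apply Finset.dvd_sum
  intro ω _
  have h1 : Nat.card (MulAction.orbit N (Quotient.out ω)) = (A.subgroupOf N).index := by
    rw [Nat.card_congr (MulAction.orbitEquivQuotientStabilizer N (Quotient.out ω)), hstab]
    rfl
  exact h1.symm.dvd


end Cfsg.Agent.S0196
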