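import Cfsg.Statements.S0200
import Cfsg.Agent.Lib.H15.Invol

set_option autoImplicit false
open Cfsg

namespace Cfsg.Agent.S0200

/-- An involution lying in no normal 2-subgroup of a finite group inverts a nontrivial element of odd order (a consequence of the Baer–Suzuki Theorem). -/
theorem result {G : Type*} [Group G] [Finite G] (t : G) (ht : orderOf t = 2) (hO : ∀ N : Subgroup G, N.Normal → IsPGroup 2 N → t ∉ N) : ∃ h : G, h ≠ 1 ∧ Odd (orderOf h) ∧ t * h * t⁻¹ = h⁻¹ := by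
  obtain ⟨x, hx, hodd, hne⟩ := Cfsg.Agent.H15.exists_conj_odd_of_not_mem_normal ht hO
  refine ⟨t * x, hne, hodd, ?_⟩
  have ht2 : t ^ 2 = 1 := by rw [← ht]; exact pow_orderOf_eq_one t
  have hti : t⁻¹ = t := by
    rw [inv_eq_iff_mul_eq_one, ← pow_two, ht2]
  obtain ⟨c, rfl⟩ := isConj_iff.mp hx
  have hxi : (c * t * c⁻¹)⁻¹ = c * t * c⁻¹ := by
    rw [conj_inv, hti]
  rw [mul_inv_rev, hxi, hti]
  calc t * (t * (c * t * c⁻¹)) * t = (t * t) * (c * t * c⁻¹) * t := by group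
    _ = c * t * c⁻¹ * t := by rw [← pow_two, ht2, one_mul]

end Cfsg.Agent.S0200
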