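import Mathlib
import Cfsg.Agent.Lib.H01.Klein
import Cfsg.Statements.S0203
-- import your own Cfsg.Agent.* helpers here

set_option autoImplicit false
open Cfsg

namespace Cfsg.Agent.S0203


/-- If a Sylow 2-subgroup P of a finite group G is a Klein four-group, then G has three classes of involutions if and only if P has a normal complement in G. -/
theorem result {G : Type*} [Group G] [Finite G] (P : Sylow 2 G) (hP : IsKleinFour (P : Subgroup G)) : Nat.card {C : ConjClasses G // ∃ t : G, orderOf t = 2 ∧ ConjClasses.mk t = C} = 3 ↔ ∃ N : Subgroup G, N.Normal ∧ Subgroup.IsComplement' N (P : Subgroup G) := by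
  rcases Cfsg.Agent.H01.klein_dichotomy P hP with ⟨h, h2⟩ | ⟨h, h2⟩
  · exact ⟨fun _ => h2, fun _ => h⟩
  · constructor
    · intro h3
      have : Cfsg.Agent.H01.invClassCount G = 3 := h3
      omega
    · intro h3
      exact absurd h3 h2


end Cfsg.Agent.S0203
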