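import Mathlib
import Cfsg.Agent.Lib.H01.Invol
import Cfsg.Statements.S0207
-- import your own Cfsg.Agent.* helpers here

set_option autoImplicit false
open Cfsg

namespace Cfsg.Agent.S0207


/-- If x, y are distinct involutions, every element of the subgroup they generate that lies outside the cyclic subgroup generated by xy is an involution. -/
theorem result {G : Type*} [Group G] [Finite G] (x y : G) (hx : orderOf x = 2) (hy : orderOf y = 2) (hxy : x ≠ y) (d : G) (hd : d ∈ Subgroup.closure ({x, y} : Set G)) (hd' : d ∉ Subgroup.zpowers (x * y)) : orderOf d = 2 := by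
  exact Cfsg.Agent.H01.order_two_of_not_mem (Cfsg.Agent.H01.mul_self_of_order_two hx)
    (Cfsg.Agent.H01.mul_self_of_order_two hy) hd hd'


end Cfsg.Agent.S0207
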