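import Mathlib
import Cfsg.Agent.Lib.H01.Invol
import Cfsg.Statements.S0237
-- import your own Cfsg.Agent.* helpers here

set_option autoImplicit false
open Cfsg

namespace Cfsg.Agent.S0237


/-- If x is real (conjugate to x⁻¹) in a finite group G, the number of g with g x g⁻¹ = x⁻¹ equals |C_G(x)|. -/
theorem result {G : Type*} [Group G] [Finite G] (x : G) (hreal : IsConj x x⁻¹) : Nat.card {g : G // g * x * g⁻¹ = x⁻¹} = Nat.card (Subgroup.centralizer ({x} : Set G)) := by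
  obtain ⟨c, hc⟩ := isConj_iff.mp hreal
  refine Nat.card_congr
    { toFun := fun g => ⟨c⁻¹ * g.1, ?_⟩
      invFun := fun k => ⟨c * k.1, ?_⟩
      left_inv := fun g => by simp
      right_inv := fun k => by simp }
  · rw [Subgroup.mem_centralizer_iff]
    intro y hy
    rw [show y = x from hy]
    have hg := g.2
    have h1 : c⁻¹ * g.1 * x * (c⁻¹ * g.1)⁻¹ = x := by
      calc c⁻¹ * g.1 * x * (c⁻¹ * g.1)⁻¹ = c⁻¹ * (g.1 * x * g.1⁻¹) * c := by group
        _ = c⁻¹ * (c * x * c⁻¹) * c := by rw [hg, hc]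
        _ = x := by group
    calc x * (c⁻¹ * g.1) = (c⁻¹ * g.1 * x * (c⁻¹ * g.1)⁻¹) * (c⁻¹ * g.1) := by rw [h1]
      _ = c⁻¹ * g.1 * x := by group
  · have hk := k.2
    rw [Subgroup.mem_centralizer_iff] at hk
    have h1 := hk x rfl
    show c * k.1 * x * (c * k.1)⁻¹ = x⁻¹
    calc c * k.1 * x * (c * k.1)⁻¹ = c * (k.1 * x) * k.1⁻¹ * c⁻¹ := by group
      _ = c * (x * k.1) * k.1⁻¹ * c⁻¹ := by rw [h1]
      _ = c * x * c⁻¹ := by group
      _ = x⁻¹ := hc


end Cfsg.Agent.S0237
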