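import Mathlib
import Cfsg.Agent.Lib.H01.Invol
import Cfsg.Statements.S0236
-- import your own Cfsg.Agent.* helpers here

set_option autoImplicit false
open Cfsg

namespace Cfsg.Agent.S0236


/-- If x is an involution, the number of ordered pairs (u, v) of involutions with uv = x, plus one, equals the number of involutions in the centralizer of x. -/
theorem result {G : Type*} [Group G] [Finite G] (x : G) (hx : orderOf x = 2) : Nat.card {p : G × G // orderOf p.1 = 2 ∧ orderOf p.2 = 2 ∧ p.1 * p.2 = x} + 1 = Nat.card {t : G // orderOf t = 2 ∧ Commute t x} := by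
  classical
  have hxx := Cfsg.Agent.H01.mul_self_of_order_two hx
  have hxi := Cfsg.Agent.H01.inv_of_mul_self hxx
  let T := {t : G // orderOf t = 2 ∧ Commute t x}
  let x₀ : T := ⟨x, hx, Commute.refl x⟩
  have e : {p : G × G // orderOf p.1 = 2 ∧ orderOf p.2 = 2 ∧ p.1 * p.2 = x} ≃ {t : T // t ≠ x₀} := by
    refine
      { toFun := fun p => ⟨⟨p.1.1, p.2.1, ?_⟩, ?_⟩
        invFun := fun t => ⟨(t.1.1, t.1.1 * x), t.1.2.1, ?_, ?_⟩
        left_inv := ?_
        right_inv := ?_ }
    · obtain ⟨⟨u, v⟩, hu, hv, huv⟩ := p
      simp only at hu hv huv ⊢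
      have huu := Cfsg.Agent.H01.mul_self_of_order_two hu
      have hvv := Cfsg.Agent.H01.mul_self_of_order_two hv
      have h1 : u * x = v := by rw [← huv, ← mul_assoc, huu, one_mul]
      have h2 : x * u = v := by
        have h3 : u * v * u = v⁻¹ := by
          have : (u * v) * (u * v) = 1 := by rw [huv, hxx]
          rw [mul_assoc] at this
          calc u * v * u = (u * (v * (u * v))) * v⁻¹ := by group
            _ = v⁻¹ := by rw [this, one_mul]
        rw [← huv, h3, Cfsg.Agent.H01.inv_of_mul_self hvv]
      show u * x = x * u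
      rw [h1, h2]
    · obtain ⟨⟨u, v⟩, hu, hv, huv⟩ := p
      simp only at hu hv huv ⊢
      intro h
      have h1 : u = x := congrArg Subtype.val h
      rw [h1] at huv
      have h2 : v = 1 := by
        have : x * v = x * 1 := by rw [huv, mul_one]
        exact mul_left_cancel this
      rw [h2] at hv
      simp at hv
    · obtain ⟨⟨t, ht, htx⟩, hne⟩ := t
      simp only
      have htt := Cfsg.Agent.H01.mul_self_of_order_two ht
      apply Cfsg.Agent.H01.order_two_of
      · calc t * x * (t * x) = t * (x * t) * x := by group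
          _ = t * (t * x) * x := by rw [htx.eq]
          _ = (t * t) * (x * x) := by group
          _ = 1 := by rw [htt, hxx, one_mul]
      · intro h
        apply hne
        apply Subtype.ext
        show t = x
        have h1 : t = x⁻¹ := eq_inv_of_mul_eq_one_left h
        rw [h1, hxi]
    · obtain ⟨⟨t, ht, htx⟩, hne⟩ := t
      simp only
      rw [← mul_assoc, Cfsg.Agent.H01.mul_self_of_order_two ht, one_mul]
    · rintro ⟨⟨u, v⟩, hu, hv, huv⟩
      simp only at hu hv huv
      apply Subtype.ext
      simp only [Prod.mk.injEq, true_and]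
      rw [← huv, ← mul_assoc, Cfsg.Agent.H01.mul_self_of_order_two hu, one_mul]
    · rintro ⟨⟨t, ht, htx⟩, hne⟩
      rfl
  have hcard : Nat.card {t : T // t ≠ x₀} + 1 = Nat.card T := by
    have h3 : Nat.card {t : T // t ≠ x₀} = Nat.card ({t | t ≠ x₀} : Set T) := rfl
    rw [h3, Nat.card_coe_set_eq]
    have h4 : ({t | t ≠ x₀} : Set T) = Set.univ \ {x₀} := by
      ext q
      simp
    rw [h4, Set.ncard_sdiff_singleton_of_mem (Set.mem_univ _), Set.ncard_univ]
    have : 0 < Nat.card T := Nat.card_pos_iff.mpr ⟨⟨x₀⟩, inferInstance⟩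
    omega
  rw [Nat.card_congr e, hcard]


end Cfsg.Agent.S0236
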