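import Mathlib
import Cfsg.Agent.Lib.H01.Invol
import Cfsg.Agent.S0237
import Cfsg.Agent.S0236
import Cfsg.Statements.S0238
-- import your own Cfsg.Agent.* helpers here

set_option autoImplicit false
open Cfsg

namespace Cfsg.Agent.S0238


/-- For every x in a finite group G, the number c of ordered pairs (u, v) of involutions with uv = x is at most |C_G(x)|; c = 0 when x is not conjugate to x⁻¹; and c + 2 ≤ |C_G(x)| when x is an involution. -/
theorem result {G : Type*} [Group G] [Finite G] (x : G) : Nat.card {p : G × G // orderOf p.1 = 2 ∧ orderOf p.2 = 2 ∧ p.1 * p.2 = x} ≤ Nat.card (Subgroup.centralizer ({x} : Set G)) ∧ (¬ IsConj x x⁻¹ → Nat.card {p : G × G // orderOf p.1 = 2 ∧ orderOf p.2 = 2 ∧ p.1 * p.2 = x} = 0) ∧ (orderOf x = 2 → Nat.card {p : G × G // orderOf p.1 = 2 ∧ orderOf p.2 = 2 ∧ p.1 * p.2 = x} + 2 ≤ Nat.card (Subgroup.centralizer ({x} : Set G))) := by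
  classical
  have hinj : Nat.card {p : G × G // orderOf p.1 = 2 ∧ orderOf p.2 = 2 ∧ p.1 * p.2 = x} ≤
      Nat.card {g : G // g * x * g⁻¹ = x⁻¹} := by
    apply Nat.card_le_card_of_injective
      (fun p : {p : G × G // orderOf p.1 = 2 ∧ orderOf p.2 = 2 ∧ p.1 * p.2 = x} =>
        (⟨p.1.1, by
          obtain ⟨⟨u, v⟩, hu, hv, huv⟩ := p
          simp only at hu hv huv ⊢
          rw [← huv]
          exact Cfsg.Agent.H01.conj_left (Cfsg.Agent.H01.mul_self_of_order_two hu)
            (Cfsg.Agent.H01.mul_self_of_order_two hv)⟩ : {g : G // g * x * g⁻¹ = x⁻¹}))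
    rintro ⟨⟨u, v⟩, hu, hv, huv⟩ ⟨⟨u', v'⟩, hu', hv', huv'⟩ h
    simp only at hu hv huv hu' hv' huv'
    have h1 : u = u' := congrArg Subtype.val h
    apply Subtype.ext
    subst h1
    simp only [Prod.mk.injEq, true_and]
    have : u * v = u * v' := by rw [huv, huv']
    exact mul_left_cancel this
  have hempty : ¬ IsConj x x⁻¹ → Nat.card {g : G // g * x * g⁻¹ = x⁻¹} = 0 := by
    intro hn
    haveI : IsEmpty {g : G // g * x * g⁻¹ = x⁻¹} :=
      ⟨fun g => hn (isConj_iff.mpr ⟨g.1, g.2⟩)⟩
    exact Nat.card_of_isEmpty
  refine ⟨?_, ?_, ?_⟩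
  · by_cases hr : IsConj x x⁻¹
    · rw [← Cfsg.Agent.S0237.result x hr]
      exact hinj
    · have := hempty hr
      omega
  · intro hr
    have := hempty hr
    omega
  · intro hx
    have h1 := Cfsg.Agent.S0236.result x hx
    -- the involutions commuting with `x` form a subset of `C(x) \ {1}`
    have h2 : Nat.card {t : G // orderOf t = 2 ∧ Commute t x} + 1 ≤
        Nat.card (Subgroup.centralizer ({x} : Set G)) := by
      let ι : Option {t : G // orderOf t = 2 ∧ Commute t x} → Subgroup.centralizer ({x} : Set G) :=
        fun o => o.elim 1 (fun t => ⟨t.1, by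
          rw [Subgroup.mem_centralizer_iff]
          intro y hy
          rw [show y = x from hy]
          exact t.2.2.eq.symm⟩)
      have hι : Function.Injective ι := by
        intro a b h
        rcases a with _ | a <;> rcases b with _ | b
        · rfl
        · exfalso
          have hb := b.2.1
          have : (1 : G) = b.1 := congrArg Subtype.val h
          rw [← this] at hb
          simp at hb
        · exfalso
          have ha := a.2.1
          have : a.1 = (1 : G) := congrArg Subtype.val h
          rw [this] at ha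
          simp at ha
        · have : a.1 = b.1 := congrArg (fun z : Subgroup.centralizer ({x} : Set G) => (z : G)) h
          exact congrArg some (Subtype.ext this)
      have := Nat.card_le_card_of_injective ι hι
      have h5 : Nat.card (Option {t : G // orderOf t = 2 ∧ Commute t x}) =
          Nat.card {t : G // orderOf t = 2 ∧ Commute t x} + 1 := Finite.card_option
      omega
    omega


end Cfsg.Agent.S0238
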