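import Mathlib
import Cfsg.Agent.S0237
import Cfsg.Agent.S0238
import Cfsg.Statements.S0233
-- import your own Cfsg.Agent.* helpers here

set_option autoImplicit false
open Cfsg

namespace Cfsg.Agent.S0233


/-- Let G be a finite group of even order with exactly n involutions whose centre has odd order, and put a = |G|/n. Then G has a proper subgroup H with |G : H| = 2 or |G : H| < a(a+1)/2; over ℕ the latter reads 2·|G:H|·n² < |G|·(|G| + n). -/
theorem result {G : Type*} [Group G] [Finite G] (heven : Even (Nat.card G)) (hZ : Odd (Nat.card (Subgroup.center G))) : ∃ H : Subgroup G, H ≠ ⊤ ∧ (H.index = 2 ∨ 2 * H.index * (Nat.card {t : G // orderOf t = 2}) ^ 2 < Nat.card G * (Nat.card G + Nat.card {t : G // orderOf t = 2})) := by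
  classical
  haveI := Fintype.ofFinite G
  by_cases h2 : ∃ H : Subgroup G, H.index = 2
  · obtain ⟨H, hH⟩ := h2
    refine ⟨H, ?_, Or.inl hH⟩
    rintro rfl
    simp at hH
  have hno2 : ∀ H : Subgroup G, H.index ≠ 2 := fun H hH => h2 ⟨H, hH⟩
  -- a proper subgroup of minimal index
  have hne : Nonempty {H : Subgroup G // H ≠ ⊤} := by
    refine ⟨⟨⊥, ?_⟩⟩
    intro h
    have h1 : Nat.card (⊤ : Subgroup G) = 1 := by rw [← h]; simp
    rw [Subgroup.card_top] at h1
    rw [h1] at heven
    simp at heven
  obtain ⟨⟨H, hHne⟩, hHmin⟩ := Finite.exists_min (fun H : {H : Subgroup G // H ≠ ⊤} => H.1.index)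
  refine ⟨H, hHne, Or.inr ?_⟩
  set m := H.index with hm
  have hmK : ∀ K : Subgroup G, K ≠ ⊤ → m * Nat.card K ≤ Nat.card G := by
    intro K hK
    have h1 := hHmin ⟨K, hK⟩
    have h2 := K.card_mul_index
    calc m * Nat.card K ≤ K.index * Nat.card K := Nat.mul_le_mul_right _ h1
      _ = Nat.card G := by rw [mul_comm, h2]
  -- the counting function
  let I : Finset G := Finset.univ.filter (fun t => orderOf t = 2)
  let c : G → ℕ := fun x => ((I ×ˢ I).filter (fun p => p.1 * p.2 = x)).card
  have hc : ∀ x, Nat.card {p : G × G // orderOf p.1 = 2 ∧ orderOf p.2 = 2 ∧ p.1 * p.2 = x} = c x := by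
    intro x
    rw [Nat.card_eq_fintype_card, Fintype.card_subtype]
    congr 1
    ext p
    simp [I, and_assoc]
  have hn : Nat.card {t : G // orderOf t = 2} = I.card := by
    rw [Nat.card_eq_fintype_card, Fintype.card_subtype]
  rw [hn]
  set n := I.card with hndef
  have hsum : n * n = ∑ x : G, c x := by
    rw [← Finset.card_product]
    exact Finset.card_eq_sum_card_fiberwise (fun p _ => Finset.mem_univ _)
  have hc1 : c 1 = n := by
    refine Finset.card_bij' (fun p _ => p.1) (fun t _ => (t, t)) ?_ ?_ ?_ ?_
    · rintro ⟨u, v⟩ hp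
      exact (Finset.mem_product.mp (Finset.mem_filter.mp hp).1).1
    · intro t ht
      have h5 : t * t = 1 := by
        have := (Finset.mem_filter.mp ht).2
        rw [← pow_two, ← this, pow_orderOf_eq_one]
      exact Finset.mem_filter.mpr ⟨Finset.mem_product.mpr ⟨ht, ht⟩, h5⟩
    · rintro ⟨u, v⟩ hp
      obtain ⟨h5, h6⟩ := Finset.mem_filter.mp hp
      have h7 : orderOf u = 2 := (Finset.mem_filter.mp (Finset.mem_product.mp h5).1).2
      have h8 : u * u = 1 := by rw [← pow_two, ← h7, pow_orderOf_eq_one]
      have h9 : u * v = 1 := h6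
      have : v = u := by
        calc v = u⁻¹ * (u * v) := by group
          _ = u⁻¹ := by rw [h9, mul_one]
          _ = u := inv_eq_of_mul_eq_one_left h8
      simp [this]
    · intro t ht
      rfl
  -- the two bounds
  have hinvb : ∀ x ∈ I, 2 * m * c x + 4 * m ≤ 2 * Nat.card G := by
    intro x hx
    have hxo : orderOf x = 2 := (Finset.mem_filter.mp hx).2
    have h1 := (Cfsg.Agent.S0238.result x).2.2 hxo
    rw [hc] at h1
    have h2 : Subgroup.centralizer ({x} : Set G) ≠ ⊤ := by
      intro h
      have hxz : x ∈ Subgroup.center G := by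
        rw [Subgroup.mem_center_iff]
        intro g
        have : g ∈ Subgroup.centralizer ({x} : Set G) := by rw [h]; trivial
        exact (Subgroup.mem_centralizer_iff.mp this x rfl).symm
      have h3 : orderOf (⟨x, hxz⟩ : Subgroup.center G) ∣ Nat.card (Subgroup.center G) := orderOf_dvd_natCard _
      rw [Subgroup.orderOf_mk, hxo] at h3
      rcases hZ with ⟨k, hk⟩
      omega
    have h3 := hmK _ h2
    have h4 : m * (c x + 2) ≤ Nat.card G := le_trans (Nat.mul_le_mul_left _ h1) h3
    nlinarith
  have hrestb : ∀ x, x ≠ 1 → x ∉ I → 2 * m * c x ≤ Nat.card G := by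
    intro x hx1 hxI
    by_cases hc0 : c x = 0
    · rw [hc0]; simp
    have hr : IsConj x x⁻¹ := by
      by_contra hr
      have := (Cfsg.Agent.S0238.result x).2.1 hr
      rw [hc] at this
      exact hc0 this
    have hxx : x ≠ x⁻¹ := by
      intro h
      apply hxI
      refine Finset.mem_filter.mpr ⟨Finset.mem_univ _, ?_⟩
      apply orderOf_eq_prime _ hx1
      rw [pow_two]
      nth_rewrite 2 [h]
      simp
    have h1 := (Cfsg.Agent.S0238.result x).1
    rw [hc] at h1
    have h2 := Cfsg.Agent.S0237.result x hr
    -- the extended centralizer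
    let Cs : Subgroup G :=
      { carrier := {g | g * x * g⁻¹ = x ∨ g * x * g⁻¹ = x⁻¹}
        one_mem' := by simp
        mul_mem' := by
          rintro a b (ha | ha) (hb | hb)
          · left
            calc a * b * x * (a * b)⁻¹ = a * (b * x * b⁻¹) * a⁻¹ := by group
              _ = x := by rw [hb, ha]
          · right
            calc a * b * x * (a * b)⁻¹ = a * (b * x * b⁻¹) * a⁻¹ := by group
              _ = x⁻¹ := by rw [hb]; rw [← inv_inj]; simp only [mul_inv_rev, inv_inv]; rw [← mul_assoc]; exact ha
          · right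
            calc a * b * x * (a * b)⁻¹ = a * (b * x * b⁻¹) * a⁻¹ := by group
              _ = x⁻¹ := by rw [hb, ha]
          · left
            calc a * b * x * (a * b)⁻¹ = a * (b * x * b⁻¹) * a⁻¹ := by group
              _ = x := by
                rw [hb]
                have : a * x⁻¹ * a⁻¹ = (a * x * a⁻¹)⁻¹ := by group
                rw [this, ha, inv_inv]
        inv_mem' := by
          rintro a (ha | ha)
          · left
            calc a⁻¹ * x * a⁻¹⁻¹ = a⁻¹ * (a * x * a⁻¹) * a := by rw [ha]; group
              _ = x := by group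
          · right
            calc a⁻¹ * x * a⁻¹⁻¹ = a⁻¹ * (a * x * a⁻¹)⁻¹ * a := by rw [ha, inv_inv]; group
              _ = x⁻¹ := by group }
    have hCs : Nat.card Cs = 2 * Nat.card (Subgroup.centralizer ({x} : Set G)) := by
      have e1 : Nat.card (Subgroup.centralizer ({x} : Set G)) =
          (Finset.univ.filter (fun g : G => g * x * g⁻¹ = x)).card := by
        rw [Nat.card_eq_fintype_card, Fintype.card_subtype]
        congr 1
        ext g
        simp only [Finset.mem_filter, Finset.mem_univ, true_and, Subgroup.mem_centralizer_iff,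
          Set.mem_singleton_iff, forall_eq]
        constructor
        · intro h; rw [← h]; group
        · intro h
          calc x * g = (g * x * g⁻¹) * g := by rw [h]
            _ = g * x := by group
      have e2 : Nat.card {g : G // g * x * g⁻¹ = x⁻¹} =
          (Finset.univ.filter (fun g : G => g * x * g⁻¹ = x⁻¹)).card := by
        rw [Nat.card_eq_fintype_card, Fintype.card_subtype]
      have e3 : Nat.card Cs = (Finset.univ.filter (fun g : G => g * x * g⁻¹ = x ∨ g * x * g⁻¹ = x⁻¹)).card := by
        rw [Nat.card_eq_fintype_card, Fintype.card_subtype]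
        congr 1
        ext g
        simp only [Finset.mem_filter, Finset.mem_univ, true_and]
        rfl
      rw [e3, Finset.filter_or, Finset.card_union_of_disjoint, ← e1, ← e2, h2, two_mul]
      rw [Finset.disjoint_filter]
      intro g _ h3 h4
      exact hxx (h3.symm.trans h4)
    have hCsne : Cs ≠ ⊤ := by
      intro h
      rw [h, Subgroup.card_top] at hCs
      have h5 := (Subgroup.centralizer ({x} : Set G)).card_mul_index
      apply hno2 (Subgroup.centralizer ({x} : Set G))
      have h6 : 0 < Nat.card (Subgroup.centralizer ({x} : Set G)) := Nat.card_pos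
      apply Nat.eq_of_mul_eq_mul_left h6
      rw [h5, hCs]
      ring
    have h3 := hmK _ hCsne
    rw [hCs] at h3
    nlinarith
  have hg : 0 < Nat.card G := Nat.card_pos
  set g := Nat.card G with hgdef
  let R : Finset G := Finset.univ \ insert 1 I
  have h1I : (1 : G) ∉ I := by
    intro h
    have := (Finset.mem_filter.mp h).2
    simp at this
  have hRc : R.card + (n + 1) = g := by
    have h5 : insert 1 I ⊆ Finset.univ := Finset.subset_univ _
    have h6 := Finset.card_sdiff_add_card_eq_card h5
    rw [Finset.card_insert_of_notMem h1I] at h6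
    rw [hgdef, Nat.card_eq_fintype_card, ← Finset.card_univ]
    exact h6
  have hsplit : ∑ x : G, c x = ∑ x ∈ R, c x + (c 1 + ∑ x ∈ I, c x) := by
    rw [← Finset.sum_insert h1I]
    exact (Finset.sum_sdiff (Finset.subset_univ _)).symm
  set A := ∑ x ∈ I, c x with hA
  set B := ∑ x ∈ R, c x with hB
  have hbA : 2 * m * A + 4 * m * n ≤ 2 * g * n := by
    have h5 : ∑ x ∈ I, (2 * m * c x + 4 * m) ≤ ∑ x ∈ I, (2 * g) := Finset.sum_le_sum hinvb
    rw [Finset.sum_add_distrib, ← Finset.mul_sum, Finset.sum_const, Finset.sum_const, smul_eq_mul, smul_eq_mul] at h5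
    rw [← hndef] at h5
    nlinarith
  have hbB : 2 * m * B ≤ R.card * g := by
    have h5 : ∑ x ∈ R, (2 * m * c x) ≤ ∑ x ∈ R, g := by
      apply Finset.sum_le_sum
      intro x hx
      have hx2 : x ∉ insert 1 I := (Finset.mem_sdiff.mp hx).2
      rw [Finset.mem_insert, not_or] at hx2
      exact hrestb x hx2.1 hx2.2
    rw [← Finset.mul_sum, Finset.sum_const, smul_eq_mul] at h5
    exact h5
  rw [hc1] at hsplit
  have e1 : n * n = B + (n + A) := hsum.trans hsplit
  have e2 : 2 * m * (n * n) = 2 * m * B + 2 * m * n + 2 * m * A := by rw [e1]; ring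
  have e3 : g * g = R.card * g + n * g + g := by
    nth_rewrite 1 [← hRc]; ring
  have e4 : 2 * m * n ^ 2 = 2 * m * (n * n) := by ring
  rw [e4, e2]
  nlinarith


end Cfsg.Agent.S0233
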