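import Mathlib
import Cfsg.Agent.Lib.H01.SimpleEmb
import Cfsg.Agent.S0233
import Cfsg.Statements.S0212
-- import your own Cfsg.Agent.* helpers here

set_option autoImplicit false
open Cfsg

namespace Cfsg.Agent.S0212


/-- The Brauer–Fowler bound: if G is a finite simple group and t an involution of G whose centralizer has order n, then |G| ≤ (2n^2)!. -/
theorem result {G : Type*} [Group G] [Finite G] [IsSimpleGroup G] (t : G) (ht : orderOf t = 2) : Nat.card G ≤ Nat.factorial (2 * (Nat.card (Subgroup.centralizer ({t} : Set G))) ^ 2) := by
  classical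
  set N := Nat.card (Subgroup.centralizer ({t} : Set G)) with hN
  have hNpos : 0 < N := Nat.card_pos
  have hle : ∀ k, k ≤ 2 * N ^ 2 → Nat.factorial k ≤ Nat.factorial (2 * N ^ 2) := fun k hk => Nat.factorial_le hk
  have hNsq : N ≤ N ^ 2 := by nlinarith
  have hZn : (Subgroup.center G).Normal := inferInstance
  rcases hZn.eq_bot_or_eq_top with hZ | hZ
  · have hheven : Even (Nat.card G) := by
      have : orderOf t ∣ Nat.card G := orderOf_dvd_natCard t
      rw [ht] at this
      exact even_iff_two_dvd.mpr this
    have hZo : Odd (Nat.card (Subgroup.center G)) := by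
      rw [hZ, Subgroup.card_bot]; exact odd_one
    obtain ⟨H, hH, hcase⟩ := Cfsg.Agent.S0233.result hheven hZo
    have hemb := Cfsg.Agent.H01.card_le_factorial_index hH
    refine le_trans hemb (hle _ ?_)
    rcases hcase with h2 | hineq
    · rw [h2]; nlinarith
    · have h1 := Cfsg.Agent.H01.card_le_mul_card_inv ht
      rw [← hN] at h1
      set n := Nat.card {s : G // orderOf s = 2} with hn
      set g := Nat.card G with hg
      set m := H.index with hm
      have hnpos : 0 < n := by
        have : Nonempty {s : G // orderOf s = 2} := ⟨⟨t, ht⟩⟩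
        exact Nat.card_pos
      have h2 : g * (g + n) ≤ n * n * (N * N + N) := by
        have h3 : g * g ≤ (N * n) * (N * n) := Nat.mul_le_mul h1 h1
        have h4 : g * n ≤ (N * n) * n := Nat.mul_le_mul_right _ h1
        nlinarith
      have h3 : n * n * (2 * m) < n * n * (N * N + N) := by
        calc n * n * (2 * m) = 2 * m * n ^ 2 := by ring
          _ < g * (g + n) := hineq
          _ ≤ _ := h2
      have h4 : 2 * m < N * N + N := Nat.lt_of_mul_lt_mul_left h3
      nlinarith
  · -- the group is abelian: `C(t) = G`
    have hC : Subgroup.centralizer ({t} : Set G) = ⊤ := by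
      rw [eq_top_iff]
      intro g _
      rw [Subgroup.mem_centralizer_iff]
      intro y hy
      rw [show y = t from hy]
      have hg : g ∈ Subgroup.center G := by rw [hZ]; trivial
      exact (Subgroup.mem_center_iff.mp hg t)
    have hcard : N = Nat.card G := by
      rw [hN, hC, Subgroup.card_top]
    rw [← hcard]
    refine le_trans (Nat.self_le_factorial N) (hle _ ?_)
    nlinarith


end Cfsg.Agent.S0212
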