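import Mathlib
import Cfsg.Agent.Lib.H01.Invol
import Cfsg.Agent.Lib.H05.Isolated2
import Cfsg.Agent.Lib.H13.Isolated
import Cfsg.Statements.S0213
-- import your own Cfsg.Agent.* helpers here

set_option autoImplicit false
open Cfsg

namespace Cfsg.Agent.S0213

theorem unique_inv_cyc {G : Type*} [Group G] [Finite G] {w c : G} (hw : Even (orderOf w))
    (hc : c ∈ Subgroup.zpowers w) (hc2 : orderOf c = 2) : c = w ^ (orderOf w / 2) := by
  obtain ⟨k, hk'⟩ := hc
  have hk : w ^ k = c := hk'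
  clear hk'
  obtain ⟨r, hr⟩ := hw
  have hm : orderOf w / 2 = r := by omega
  rw [hm]
  have h1 : c ^ 2 = 1 := by rw [← hc2]; exact pow_orderOf_eq_one c
  have h2 : w ^ (2 * k) = 1 := by
    rw [mul_comm, zpow_mul, hk, zpow_ofNat, h1]
  have h3 : (orderOf w : ℤ) ∣ 2 * k := orderOf_dvd_iff_zpow_eq_one.mpr h2
  rw [hr] at h3
  have hr0 : (r : ℤ) ≠ 0 := by
    intro h
    have : r = 0 := by exact_mod_cast h
    have h5 := orderOf_pos w
    omega
  have h4 : (r : ℤ) ∣ k := by
    push_cast at h3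
    have : ((r : ℤ) + r) = 2 * r := by ring
    rw [this] at h3
    exact Int.dvd_of_mul_dvd_mul_left (by norm_num) h3
  obtain ⟨j, hj⟩ := h4
  have h5 : (w ^ r) ^ (2 : ℤ) = 1 := by
    rw [zpow_ofNat, ← pow_mul, mul_comm, two_mul, ← hr, pow_orderOf_eq_one]
  have hc1 : c ≠ 1 := by rintro rfl; simp at hc2
  rw [hj, zpow_mul, zpow_natCast] at hk
  rcases Int.even_or_odd j with he | ho
  · exfalso
    obtain ⟨i, rfl⟩ := he
    apply hc1
    rw [← hk, ← two_mul, zpow_mul, h5, one_zpow]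
  · obtain ⟨i, rfl⟩ := ho
    rw [← hk, zpow_add, zpow_mul, h5, one_zpow, one_mul, zpow_one]


/-- Thompson Order Formula, two-class case: if every involution of the finite group G is conjugate to exactly one of the non-conjugate involutions x₁, x₂, and nᵢ is the number of pairs (u, v) with u conjugate to x₁, v conjugate to x₂ and xᵢ in the cyclic group generated by uv, then |G| = |C(x₂)| n₁ + |C(x₁)| n₂. -/
theorem result {G : Type*} [Group G] [Finite G] (x₁ x₂ : G) (h₁ : orderOf x₁ = 2) (h₂ : orderOf x₂ = 2) (hnc : ¬ IsConj x₁ x₂) (hall : ∀ t : G, orderOf t = 2 → IsConj x₁ t ∨ IsConj x₂ t) : Nat.card G = Nat.card (Subgroup.centralizer ({x₂} : Set G)) * Nat.card {p : G × G // IsConj x₁ p.1 ∧ IsConj x₂ p.2 ∧ x₁ ∈ Subgroup.zpowers (p.1 * p.2)} + Nat.card (Subgroup.centralizer ({x₁} : Set G)) * Nat.card {p : G × G // IsConj x₁ p.1 ∧ IsConj x₂ p.2 ∧ x₂ ∈ Subgroup.zpowers (p.1 * p.2)} := by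

  classical
  haveI := Fintype.ofFinite G
  let K₁ : Finset G := Finset.univ.filter (fun y => IsConj x₁ y)
  let K₂ : Finset G := Finset.univ.filter (fun y => IsConj x₂ y)
  let S : Finset (G × G) := K₁ ×ˢ K₂
  let z : G × G → G := fun p => (p.1 * p.2) ^ (orderOf (p.1 * p.2) / 2)
  have hordc : ∀ c y : G, orderOf c = 2 → IsConj c y → orderOf y = 2 := by
    intro c y hc hy
    obtain ⟨g, rfl⟩ := isConj_iff.mp hy
    rw [← MulAut.conj_apply, MulEquiv.orderOf_eq, hc]
  have hS : ∀ p ∈ S, Even (orderOf (p.1 * p.2)) ∧ orderOf (z p) = 2 := by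
    rintro ⟨u, v⟩ hp
    obtain ⟨hu, hv⟩ := Finset.mem_product.mp hp
    have hu' : IsConj x₁ u := (Finset.mem_filter.mp hu).2
    have hv' : IsConj x₂ v := (Finset.mem_filter.mp hv).2
    have huo := hordc _ _ h₁ hu'
    have hvo := hordc _ _ h₂ hv'
    have huu := Cfsg.Agent.H01.mul_self_of_order_two huo
    have hvv := Cfsg.Agent.H01.mul_self_of_order_two hvo
    have he : Even (orderOf (u * v)) := by
      rw [← Nat.not_odd_iff_even]
      intro ho
      obtain ⟨d, -, hd⟩ := Cfsg.Agent.H01.exists_conj_of_odd huu hvv ho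
      apply hnc
      have h1 : IsConj u v := isConj_iff.mpr ⟨d, hd⟩
      exact hu'.trans (h1.trans hv'.symm)
    exact ⟨he, (Cfsg.Agent.H01.central_of_even huu hvv he).1⟩
  have hdisj : Disjoint K₁ K₂ := by
    rw [Finset.disjoint_left]
    intro c h1 h2
    apply hnc
    exact ((Finset.mem_filter.mp h1).2).trans ((Finset.mem_filter.mp h2).2).symm
  have hmaps : ∀ p ∈ S, z p ∈ K₁ ∪ K₂ := by
    intro p hp
    rcases hall _ (hS p hp).2 with h | h
    · exact Finset.mem_union_left _ (Finset.mem_filter.mpr ⟨Finset.mem_univ _, h⟩)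
    · exact Finset.mem_union_right _ (Finset.mem_filter.mpr ⟨Finset.mem_univ _, h⟩)
  let F : G → Finset (G × G) := fun c => S.filter (fun p => c ∈ Subgroup.zpowers (p.1 * p.2))
  have hfib : ∀ c, orderOf c = 2 → S.filter (fun p => z p = c) = F c := by
    intro c hc
    apply Finset.filter_congr
    intro p hp
    constructor
    · rintro rfl
      exact pow_mem (Subgroup.mem_zpowers _) _
    · intro h
      exact (unique_inv_cyc (hS p hp).1 h hc).symm
  have hF : ∀ (g c : G) (p : G × G), p ∈ F c → (g * p.1 * g⁻¹, g * p.2 * g⁻¹) ∈ F (g * c * g⁻¹) := by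
    rintro g c ⟨u, v⟩ hp
    obtain ⟨hpS, hc⟩ := Finset.mem_filter.mp hp
    obtain ⟨hu, hv⟩ := Finset.mem_product.mp hpS
    refine Finset.mem_filter.mpr ⟨Finset.mem_product.mpr ⟨Finset.mem_filter.mpr ⟨Finset.mem_univ _, ?_⟩,
      Finset.mem_filter.mpr ⟨Finset.mem_univ _, ?_⟩⟩, ?_⟩
    · exact (Finset.mem_filter.mp hu).2.trans (isConj_iff.mpr ⟨g, rfl⟩)
    · exact (Finset.mem_filter.mp hv).2.trans (isConj_iff.mpr ⟨g, rfl⟩)
    · obtain ⟨k, hk⟩ := hc
      refine ⟨k, ?_⟩
      show (g * u * g⁻¹ * (g * v * g⁻¹)) ^ k = g * c * g⁻¹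
      have h1 : g * u * g⁻¹ * (g * v * g⁻¹) = g * (u * v) * g⁻¹ := by group
      have hk' : (u * v) ^ k = c := hk
      rw [h1, conj_zpow, hk']
  have hFconj : ∀ c g : G, (F (g * c * g⁻¹)).card = (F c).card := by
    intro c g
    symm
    apply Finset.card_nbij' (fun p => (g * p.1 * g⁻¹, g * p.2 * g⁻¹)) (fun p => (g⁻¹ * p.1 * g, g⁻¹ * p.2 * g))
    · intro a ha
      exact hF g c a ha
    · intro a ha
      have h1 := hF g⁻¹ _ a ha
      rw [show g⁻¹ * (g * c * g⁻¹) * g⁻¹⁻¹ = c by group] at h1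
      have h2 : (g⁻¹ * a.1 * g, g⁻¹ * a.2 * g) ∈ F c := by simpa only [inv_inv] using h1
      exact h2
    · rintro ⟨u, v⟩ -
      ext <;> simp <;> group
    · rintro ⟨u, v⟩ -
      ext <;> simp <;> group
  have hcount : S.card = ∑ c ∈ K₁ ∪ K₂, (S.filter (fun p => z p = c)).card :=
    Finset.card_eq_sum_card_fiberwise hmaps
  rw [Finset.sum_union hdisj] at hcount
  have hs1 : ∑ c ∈ K₁, (S.filter (fun p => z p = c)).card = K₁.card * (F x₁).card := by
    apply Finset.sum_const_nat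
    intro c hc
    have hc' : IsConj x₁ c := (Finset.mem_filter.mp hc).2
    rw [hfib c (hordc _ _ h₁ hc')]
    obtain ⟨g, rfl⟩ := isConj_iff.mp hc'
    exact hFconj _ _
  have hs2 : ∑ c ∈ K₂, (S.filter (fun p => z p = c)).card = K₂.card * (F x₂).card := by
    apply Finset.sum_const_nat
    intro c hc
    have hc' : IsConj x₂ c := (Finset.mem_filter.mp hc).2
    rw [hfib c (hordc _ _ h₂ hc')]
    obtain ⟨g, rfl⟩ := isConj_iff.mp hc'
    exact hFconj _ _
  rw [hs1, hs2, Finset.card_product] at hcount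
  have hn : ∀ c : G, Nat.card {p : G × G // IsConj x₁ p.1 ∧ IsConj x₂ p.2 ∧ c ∈ Subgroup.zpowers (p.1 * p.2)} = (F c).card := by
    intro c
    rw [Nat.card_eq_fintype_card, Fintype.card_subtype]
    congr 1
    ext p
    simp [F, S, K₁, K₂, and_assoc]
  rw [hn x₁, hn x₂]
  have hk : ∀ c : G, Nat.card G = Nat.card (Subgroup.centralizer ({c} : Set G)) *
      (Finset.univ.filter (fun y => IsConj c y)).card := by
    intro c
    have h1 := Cfsg.Agent.H05.card_class_mul c
    have h2 : Nat.card {y : G // ∃ g : G, g * c * g⁻¹ = y} = (Finset.univ.filter (fun y => IsConj c y)).card := by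
      rw [Nat.card_eq_fintype_card, Fintype.card_subtype]
      congr 1
      ext y
      simp [isConj_iff]
    rw [h1, h2]
  have hk1 := hk x₁
  have hk2 := hk x₂
  set N := Nat.card G with hN
  set C₁ := Nat.card (Subgroup.centralizer ({x₁} : Set G))
  set C₂ := Nat.card (Subgroup.centralizer ({x₂} : Set G))
  set n₁ := (F x₁).card
  set n₂ := (F x₂).card
  have k1 : C₁ * K₁.card = N := hk1.symm
  have k2 : C₂ * K₂.card = N := hk2.symm
  have hNpos : 0 < N := Nat.card_pos
  apply Nat.eq_of_mul_eq_mul_left hNpos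
  calc N * N = (C₁ * K₁.card) * (C₂ * K₂.card) := by rw [k1, k2]
    _ = C₁ * C₂ * (K₁.card * K₂.card) := by ring
    _ = C₁ * C₂ * (K₁.card * n₁ + K₂.card * n₂) := by rw [hcount]
    _ = (C₁ * K₁.card) * (C₂ * n₁) + (C₂ * K₂.card) * (C₁ * n₂) := by ring
    _ = N * (C₂ * n₁ + C₁ * n₂) := by rw [k1, k2]; ring


end Cfsg.Agent.S0213
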