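import Mathlib
import Cfsg.Agent.Lib.H01.Invol
import Cfsg.Statements.S0216
-- import your own Cfsg.Agent.* helpers here

set_option autoImplicit false
open Cfsg

namespace Cfsg.Agent.S0216


/-- For an involution u in a Sylow 2-subgroup P of a finite group G, the following are equivalent: no G-conjugate of u other than u lies in P; every commutator of u with an element of G has odd order. -/
theorem result {G : Type*} [Group G] [Finite G] (P : Sylow 2 G) (u : G) (hu : orderOf u = 2) (huP : u ∈ P) : (∀ g : G, g * u * g⁻¹ ∈ P → g * u * g⁻¹ = u) ↔ (∀ g : G, Odd (orderOf (u * g * u⁻¹ * g⁻¹))) := by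
  have huu := Cfsg.Agent.H01.mul_self_of_order_two hu
  have hui := Cfsg.Agent.H01.inv_of_order_two hu
  constructor
  · intro hiso g
    set v := g * u * g⁻¹ with hv
    have hvv : v * v = 1 := by
      calc v * v = g * (u * u) * g⁻¹ := by rw [hv]; group
        _ = 1 := by rw [huu]; group
    have hprod : u * g * u⁻¹ * g⁻¹ = u * v := by
      rw [hv, hui]; group
    rw [hprod]
    by_contra hne
    rw [Nat.not_odd_iff_even] at hne
    obtain ⟨w, ⟨d, _, hd⟩, hww, hne', k, hk⟩ := Cfsg.Agent.H01.exists_two_power_conj huu hvv hne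
    have hconj : IsConj u w := by
      rw [isConj_iff]
      refine ⟨d * g, ?_⟩
      rw [← hd, hv]
      group
    have hp := Cfsg.Agent.H01.isPGroup_closure_pair huu hww k hk
    exact hne' (Cfsg.Agent.H01.eq_of_isolated P hiso hconj _ hp Cfsg.Agent.H01.left_mem_closure
      Cfsg.Agent.H01.right_mem_closure)
  · intro hodd g hg
    have h1 := hodd g
    set v := g * u * g⁻¹ with hv
    have hprod : u * g * u⁻¹ * g⁻¹ = u * v := by
      rw [hv, hui]; group
    rw [hprod] at h1
    have h2 : u * v ∈ (P : Subgroup G) := mul_mem huP hg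
    have hpp : IsPGroup 2 (P : Subgroup G) := P.2
    obtain ⟨k, hk⟩ := hpp ⟨u * v, h2⟩
    have hk' : (u * v) ^ 2 ^ k = 1 := congrArg Subtype.val hk
    have h3 := orderOf_dvd_of_pow_eq_one hk'
    have h4 : orderOf (u * v) = 1 := by
      have hc : Nat.Coprime (orderOf (u * v)) (2 ^ k) :=
        Nat.Coprime.pow_right _ (Nat.coprime_two_right.mpr h1)
      exact hc.eq_one_of_dvd h3
    have h5 : u * v = 1 := orderOf_eq_one_iff.mp h4
    have h6 : v = u⁻¹ := eq_inv_of_mul_eq_one_right h5
    rw [h6, hui]


end Cfsg.Agent.S0216
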