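import Mathlib
import Cfsg.Statements.S0218
-- import your own Cfsg.Agent.* helpers here

set_option autoImplicit false
open Cfsg

namespace Cfsg.Agent.S0218


/-- The generalized quaternion group of order 2^(n+3) contains exactly one element of order 2. -/
theorem result (n : ℕ) : Nat.card {x : QuaternionGroup (2 ^ (n + 1)) // orderOf x = 2} = 1 := by
  classical
  set m := 2 ^ (n + 1) with hm
  have hm0 : m ≠ 0 := by positivity
  haveI : NeZero m := ⟨hm0⟩
  haveI : NeZero (2 * m) := ⟨by positivity⟩
  have key : ∀ x : QuaternionGroup m, orderOf x = 2 ↔ x = QuaternionGroup.a (m : ZMod (2 * m)) := by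
    have hval : ((m : ZMod (2 * m))).val = m := by
      rw [ZMod.val_natCast, Nat.mod_eq_of_lt]; omega
    have h1 : ∀ i : ZMod (2 * m), (QuaternionGroup.a i : QuaternionGroup m) ^ 2 = 1 ↔ 2 * i = 0 := by
      intro i
      rw [pow_two, QuaternionGroup.a_mul_a, QuaternionGroup.one_def]
      rw [show (2 : ZMod (2 * m)) * i = i + i from two_mul i]
      constructor
      · intro h; exact QuaternionGroup.a.inj h
      · intro h; rw [h]
    have h2 : (QuaternionGroup.a (m : ZMod (2 * m)) : QuaternionGroup m) ^ 2 = 1 := by
      rw [h1]
      have : ((2 * m : ℕ) : ZMod (2 * m)) = 0 := ZMod.natCast_self _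
      push_cast at this
      exact this
    have h3 : (QuaternionGroup.a (m : ZMod (2 * m)) : QuaternionGroup m) ≠ 1 := by
      rw [QuaternionGroup.one_def]
      intro h
      have h4 := QuaternionGroup.a.inj h
      have := congrArg ZMod.val h4
      rw [hval, ZMod.val_zero] at this
      exact hm0 this
    intro x
    constructor
    · intro hx
      rcases x with i | i
      · have h5 : (QuaternionGroup.a i : QuaternionGroup m) ^ 2 = 1 := by
          rw [← hx]; exact pow_orderOf_eq_one _
        rw [h1] at h5
        have h6 : (QuaternionGroup.a i : QuaternionGroup m) ≠ 1 := by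
          intro h; rw [h] at hx; simp at hx
        have hi0 : i ≠ 0 := by
          rintro rfl; exact h6 (QuaternionGroup.one_def).symm
        have h7 : i.val ≠ 0 := by
          intro h; exact hi0 ((ZMod.val_eq_zero i).mp h)
        have h8 : ((2 * i.val : ℕ) : ZMod (2 * m)) = 0 := by
          push_cast
          rw [ZMod.natCast_zmod_val]
          exact h5
        rw [ZMod.natCast_eq_zero_iff] at h8
        have h9 : m ∣ i.val := Nat.dvd_of_mul_dvd_mul_left (by norm_num) h8
        have h10 : i.val < 2 * m := ZMod.val_lt i
        obtain ⟨k, hk⟩ := h9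
        have hk1 : k = 1 := by
          have : k ≠ 0 := by rintro rfl; omega
          have : k < 2 := by
            by_contra hh
            push Not at hh
            have : m * 2 ≤ m * k := Nat.mul_le_mul_left _ hh
            omega
          omega
        subst hk1
        rw [mul_one] at hk
        congr 1
        apply ZMod.val_injective (2 * m)
        rw [hval, hk]
      · rw [QuaternionGroup.orderOf_xa] at hx
        omega
    · rintro rfl
      exact orderOf_eq_prime h2 h3
  rw [Nat.card_eq_one_iff_unique]
  refine ⟨⟨?_⟩, ⟨⟨QuaternionGroup.a (m : ZMod (2 * m)), (key _).mpr rfl⟩⟩⟩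
  rintro ⟨x, hx⟩ ⟨y, hy⟩
  apply Subtype.ext
  show x = y
  rw [(key x).mp hx, (key y).mp hy]


end Cfsg.Agent.S0218
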