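import Mathlib
import Cfsg.Agent.Lib.H13.Isolated
import Cfsg.Statements.S0219
-- import your own Cfsg.Agent.* helpers here

set_option autoImplicit false
open Cfsg

namespace Cfsg.Agent.S0219


/-- If a finite group has even order and a cyclic Sylow 2-subgroup, then it has a subgroup of index 2 (consider the parity of permutations in the regular representation). -/
theorem result {G : Type*} [Group G] [Finite G] (heven : Even (Nat.card G)) (T : Sylow 2 G) (hT : IsCyclic (T : Subgroup G)) : ∃ H : Subgroup G, H.index = 2 := by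
  classical
  haveI : Fact (Nat.Prime 2) := ⟨Nat.prime_two⟩
  -- the Sylow has even order
  have h2T : 2 ∣ Nat.card (T : Subgroup G) := by
    have h1 := (T : Subgroup G).card_mul_index
    have h2 : 2 ∣ Nat.card G := heven.two_dvd
    rw [← h1] at h2
    rcases (Nat.Prime.dvd_mul Nat.prime_two).mp h2 with h | h
    · exact h
    · exact absurd h T.not_dvd_index
  obtain ⟨x₀, hx₀⟩ := exists_prime_orderOf_dvd_card' (G := (T : Subgroup G)) 2 h2T
  have hx : ((x₀ : G)) ≠ 1 := by
    intro h
    have : x₀ = 1 := Subtype.ext h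
    rw [this] at hx₀; simp at hx₀
  have hN : Subgroup.normalizer ((T : Subgroup G) : Set G) ≤
      Subgroup.centralizer ((T : Subgroup G) : Set G) := by
    intro g hg
    refine Cfsg.Agent.H13.normalizer_centralizes_cyclic T hT x₀.2 hx ?_ hg
    -- `g x g⁻¹` is an involution of `T`
    have h1 : g * (x₀ : G) * g⁻¹ ∈ (T : Subgroup G) := by
      have := (Subgroup.mem_normalizer_iff.mp hg x₀).mp x₀.2
      exact this
    let y₀ : (T : Subgroup G) := ⟨g * (x₀ : G) * g⁻¹, h1⟩
    have hy₀ : orderOf y₀ = 2 := by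
      rw [← Subgroup.orderOf_coe]
      show orderOf (g * (x₀ : G) * g⁻¹) = 2
      rw [← MulAut.conj_apply, MulEquiv.orderOf_eq, Subgroup.orderOf_coe, hx₀]
    have h3 : y₀ ∈ Subgroup.zpowers x₀ :=
      Cfsg.Agent.H13.mem_zpowers_of_orderOf_eq (by rw [hy₀, hx₀])
    -- zpowers of an involution
    have h4 : y₀ = x₀ := by
      obtain ⟨k, hk'⟩ := h3
      have hk : x₀ ^ k = y₀ := hk'
      clear hk'
      have hy1 : y₀ ≠ 1 := by
        intro h; rw [h] at hy₀; simp at hy₀
      rcases Int.even_or_odd k with hk2 | hk2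
      · exfalso
        obtain ⟨j, rfl⟩ := hk2
        apply hy1
        rw [← hk, ← two_mul, zpow_mul]
        have : x₀ ^ (2 : ℤ) = 1 := by
          have h9 := pow_orderOf_eq_one x₀
          rw [hx₀] at h9
          rw [zpow_ofNat, h9]
        rw [this, one_zpow]
      · obtain ⟨j, rfl⟩ := hk2
        rw [← hk, zpow_add, zpow_mul]
        have : x₀ ^ (2 : ℤ) = 1 := by
          have h9 := pow_orderOf_eq_one x₀
          rw [hx₀] at h9
          rw [zpow_ofNat, h9]
        rw [this, one_zpow, one_mul, zpow_one]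
    have h5 : g * (x₀ : G) * g⁻¹ = x₀ := congrArg Subtype.val h4
    show g * (x₀ : G) = x₀ * g
    calc g * (x₀ : G) = (g * (x₀ : G) * g⁻¹) * g := by group
      _ = x₀ * g := by rw [h5]
  obtain ⟨R, hRn, hR⟩ : ∃ R : Subgroup G, R.Normal ∧ R.IsComplement' (T : Subgroup G) := by
    haveI : IsMulCommutative (T : Subgroup G) := by
      refine ⟨⟨fun a b => Subtype.ext ?_⟩⟩
      have h1 : (a : G) ∈ Subgroup.centralizer ((T : Subgroup G) : Set G) :=
        hN (Subgroup.le_normalizer a.2)
      exact ((Subgroup.mem_centralizer_iff.1 h1) b b.2).symm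
    exact ⟨(MonoidHom.transferSylow T hN).ker, inferInstance,
      MonoidHom.ker_transferSylow_isComplement' T hN⟩
  -- the quotient `G ⧸ R` is cyclic of even order
  let π : G →* G ⧸ R := QuotientGroup.mk' R
  have hπ : Function.Surjective π := QuotientGroup.mk'_surjective R
  have hsurj : Function.Surjective (π.comp (T : Subgroup G).subtype) := by
    intro q
    obtain ⟨g, rfl⟩ := hπ q
    obtain ⟨⟨r, t⟩, h⟩ := hR.2 g
    have h' : (r : G) * (t : G) = g := h
    refine ⟨⟨t, t.2⟩, ?_⟩
    show π t = π g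
    have hr1 : π (r : G) = 1 := (QuotientGroup.eq_one_iff _).mpr r.2
    rw [← h', map_mul, hr1, one_mul]
  haveI : IsCyclic (G ⧸ R) := isCyclic_of_surjective _ hsurj
  obtain ⟨c, hc⟩ := IsCyclic.exists_generator (α := G ⧸ R)
  have hcard : Nat.card (G ⧸ R) = Nat.card (T : Subgroup G) := by
    have h1 := hR.card_mul
    have h2 := R.card_mul_index
    have h3 : R.index = Nat.card (G ⧸ R) := rfl
    have hR0 : Nat.card R ≠ 0 := Nat.card_pos.ne'
    apply Nat.eq_of_mul_eq_mul_left (Nat.pos_of_ne_zero hR0)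
    rw [← h3, h2, h1]
  have hordc : orderOf c = Nat.card (G ⧸ R) := orderOf_eq_card_of_forall_mem_zpowers hc
  have h2c : 2 ∣ orderOf c := by rw [hordc, hcard]; exact h2T
  have hidx : (Subgroup.zpowers (c ^ 2)).index = 2 := by
    have h1 := (Subgroup.zpowers (c ^ 2)).card_mul_index
    rw [Nat.card_zpowers, ← hordc, orderOf_pow' c (by norm_num), Nat.gcd_eq_right h2c] at h1
    have h3 : 0 < orderOf c := orderOf_pos c
    obtain ⟨m, hm⟩ := h2c
    rw [hm, Nat.mul_div_cancel_left _ (by norm_num)] at h1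
    have hm0 : 0 < m := by
      rcases Nat.eq_zero_or_pos m with h | h
      · subst h; omega
      · exact h
    have : m * (Subgroup.zpowers (c ^ 2)).index = m * 2 := by rw [h1]; ring
    exact Nat.eq_of_mul_eq_mul_left hm0 this
  refine ⟨(Subgroup.zpowers (c ^ 2)).comap π, ?_⟩
  rw [Subgroup.index_comap_of_surjective _ hπ, hidx]


end Cfsg.Agent.S0219
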