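import Mathlib
import Cfsg.Agent.Lib.H13.Isolated
import Cfsg.Agent.Lib.H18.PGroup
import Cfsg.Agent.Lib.H19.CyclicSylow
import Cfsg.Agent.S0219
import Cfsg.Statements.S0220
-- import your own Cfsg.Agent.* helpers here

set_option autoImplicit false
open Cfsg

namespace Cfsg.Agent.S0220


/-- If x is an involution of a finite group G and a Sylow 2-subgroup of the centralizer of x is cyclic, then G has a subgroup of index 2; in particular G is not simple unless it has order 2. -/
theorem result {G : Type*} [Group G] [Finite G] (x : G) (hx : orderOf x = 2) (S : Sylow 2 ↥(Subgroup.centralizer ({x} : Set G))) (hS : IsCyclic (S : Subgroup ↥(Subgroup.centralizer ({x} : Set G)))) : ∃ H : Subgroup G, H.index = 2 := by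
  classical
  haveI : Fact (Nat.Prime 2) := ⟨Nat.prime_two⟩
  let C : Subgroup G := Subgroup.centralizer ({x} : Set G)
  have hC : C = Subgroup.centralizer ({x} : Set G) := rfl
  have hxC : x ∈ C := by
    rw [hC, Subgroup.mem_centralizer_iff]
    intro y hy
    rw [show y = x from hy]
  let x₀ : C := ⟨x, hxC⟩
  have hx₀c : ∀ g : C, g * x₀ = x₀ * g := by
    intro g
    apply Subtype.ext
    have := Subgroup.mem_centralizer_iff.mp g.2 x rfl
    exact this.symm
  have hx1 : x ≠ 1 := by rintro rfl; simp at hx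
  -- `x₀` lies in the Sylow subgroup `S`
  have hxS : x₀ ∈ (S : Subgroup C) := by
    have hz : IsPGroup 2 (Subgroup.zpowers x₀) := by
      apply IsPGroup.of_card (n := 1)
      rw [Nat.card_zpowers, pow_one, Subgroup.orderOf_mk, hx]
    haveI hn : (Subgroup.zpowers x₀).Normal := by
      refine ⟨fun n hn g => ?_⟩
      obtain ⟨k, rfl⟩ := hn
      have h2 : g * x₀ ^ k * g⁻¹ = x₀ ^ k := by
        have : Commute g (x₀ ^ k) := Commute.zpow_right (hx₀c g) k
        rw [this.eq]; group
      show g * (fun i : ℤ => x₀ ^ i) k * g⁻¹ ∈ _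
      simp only [h2]
      exact zpow_mem (Subgroup.mem_zpowers _) k
    have h3 := (S.isPGroup').to_sup_of_normal_right hz
    have h4 := S.is_maximal' h3 le_sup_left
    have h5 : x₀ ∈ (S : Subgroup C) ⊔ Subgroup.zpowers x₀ :=
      Subgroup.mem_sup_right (Subgroup.mem_zpowers _)
    rwa [h4] at h5
  let S' : Subgroup G := (S : Subgroup C).map C.subtype
  have hS'p : IsPGroup 2 S' := S.isPGroup'.map C.subtype
  have hxS' : x ∈ S' := ⟨x₀, hxS, rfl⟩
  have hS'cyc : IsCyclic S' := by
    let f : (S : Subgroup C) →* S' := (C.subtype.subgroupMap (S : Subgroup C))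
    haveI hS2 : IsCyclic (S : Subgroup C) := hS
    exact isCyclic_of_surjective f (C.subtype.subgroupMap_surjective _)
  obtain ⟨T, hT⟩ := hS'p.exists_le_sylow
  have hST : S' = (T : Subgroup G) := by
    by_contra hne
    have hlt : S' < (T : Subgroup G) := lt_of_le_of_ne hT hne
    obtain ⟨y, hyT, hyS, hyN⟩ := Cfsg.Agent.H18.exists_mem_sdiff_normalizer T.isPGroup' hlt
    -- `y` fixes `x`
    have h1 : y * x * y⁻¹ ∈ S' := (Subgroup.mem_normalizer_iff.mp hyN x).mp hxS'
    let u : S' := ⟨x, hxS'⟩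
    let v : S' := ⟨y * x * y⁻¹, h1⟩
    have hu : orderOf u = 2 := by
      rw [← Subgroup.orderOf_coe]; exact hx
    have hv : orderOf v = 2 := by
      rw [← Subgroup.orderOf_coe]
      show orderOf (y * x * y⁻¹) = 2
      rw [← MulAut.conj_apply, MulEquiv.orderOf_eq, hx]
    have h3 : v ∈ Subgroup.zpowers u :=
      Cfsg.Agent.H13.mem_zpowers_of_orderOf_eq (by rw [hu, hv])
    have hsq : u ^ (2 : ℤ) = 1 := by
      have h9 := pow_orderOf_eq_one u
      rw [hu] at h9
      rw [zpow_ofNat, h9]
    have h4 : v = u := by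
      obtain ⟨k, hk'⟩ := h3
      have hk : u ^ k = v := hk'
      clear hk'
      have hv1 : v ≠ 1 := by
        intro h; rw [h] at hv; simp at hv
      rcases Int.even_or_odd k with hk2 | hk2
      · exfalso
        obtain ⟨j, rfl⟩ := hk2
        apply hv1
        rw [← hk, ← two_mul, zpow_mul, hsq, one_zpow]
      · obtain ⟨j, rfl⟩ := hk2
        rw [← hk, zpow_add, zpow_mul, hsq, one_zpow, one_mul, zpow_one]
    have h5 : y * x * y⁻¹ = x := congrArg Subtype.val h4
    have hyC : y ∈ C := by
      rw [hC, Subgroup.mem_centralizer_iff]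
      intro z hz
      rw [show z = x from hz]
      calc x * y = (y * x * y⁻¹) * y := by rw [h5]
        _ = y * x := by group
    let y₀ : C := ⟨y, hyC⟩
    have hy₀N : y₀ ∈ Subgroup.normalizer ((S : Subgroup C) : Set C) := by
      rw [Subgroup.mem_normalizer_iff]
      intro z
      have h6 : z ∈ (S : Subgroup C) ↔ (z : G) ∈ S' := by
        constructor
        · intro hz; exact ⟨z, hz, rfl⟩
        · rintro ⟨w, hw, hwz⟩
          have : w = z := Subtype.ext hwz
          rwa [← this]
      have h7 : (y₀ * z * y₀⁻¹ : C) ∈ (S : Subgroup C) ↔ ((y₀ * z * y₀⁻¹ : C) : G) ∈ S' := by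
        constructor
        · intro hz; exact ⟨_, hz, rfl⟩
        · rintro ⟨w, hw, hwz⟩
          have : w = y₀ * z * y₀⁻¹ := Subtype.ext hwz
          rwa [← this]
      rw [h6, h7]
      exact Subgroup.mem_normalizer_iff.mp hyN _
    have hy₀ord : ∃ k, orderOf y₀ = 2 ^ k := by
      obtain ⟨k, hk⟩ := (IsPGroup.iff_orderOf.mp T.isPGroup') ⟨y, hyT⟩
      refine ⟨k, ?_⟩
      rw [← hk, ← Subgroup.orderOf_coe y₀]
      rw [← Subgroup.orderOf_coe (⟨y, hyT⟩ : (T : Subgroup G))]
    obtain ⟨k, hk⟩ := hy₀ord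
    have h8 : y₀ ∈ (S : Subgroup C) :=
      Cfsg.Agent.H19.mem_sylow_of_mem_normalizer S hk hy₀N
    exact hyS ⟨y₀, h8, rfl⟩
  have hTcyc : IsCyclic (T : Subgroup G) := by
    rw [← hST]; exact hS'cyc
  have heven : Even (Nat.card G) := by
    have : orderOf x ∣ Nat.card G := orderOf_dvd_natCard x
    rw [hx] at this
    exact even_iff_two_dvd.mpr this
  exact Cfsg.Agent.S0219.result heven T hTcyc


end Cfsg.Agent.S0220
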