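import Mathlib
import Cfsg.Agent.Lib.H01.NormalFour
import Cfsg.Agent.S0111
import Cfsg.Agent.Lib.H01.Klein
import Cfsg.Agent.Lib.H01.Coprime
import Cfsg.Statements.S0221
-- import your own Cfsg.Agent.* helpers here

set_option autoImplicit false
open Cfsg

namespace Cfsg.Agent.S0221

private theorem mem_sup_of_comm {G : Type*} [Group G] {A B : Subgroup G}
    (hc : ∀ a ∈ A, ∀ b ∈ B, a * b = b * a) {e : G} (he : e ∈ A ⊔ B) :
    ∃ a ∈ A, ∃ b ∈ B, e = a * b := by
  rw [Subgroup.sup_eq_closure] at he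
  induction he using Subgroup.closure_induction with
  | mem x hx =>
    rcases hx with hx | hx
    · exact ⟨x, hx, 1, B.one_mem, by simp⟩
    · exact ⟨1, A.one_mem, x, hx, by simp⟩
  | one => exact ⟨1, A.one_mem, 1, B.one_mem, by simp⟩
  | mul x y _ _ hx hy =>
    obtain ⟨a, ha, b, hb, rfl⟩ := hx
    obtain ⟨a', ha', b', hb', rfl⟩ := hy
    refine ⟨a * a', A.mul_mem ha ha', b * b', B.mul_mem hb hb', ?_⟩
    have := hc a' ha' b hb
    calc a * b * (a' * b') = a * (b * a') * b' := by group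
      _ = a * (a' * b) * b' := by rw [this]
      _ = _ := by group
  | inv x _ hx =>
    obtain ⟨a, ha, b, hb, rfl⟩ := hx
    refine ⟨a⁻¹, A.inv_mem ha, b⁻¹, B.inv_mem hb, ?_⟩
    have := hc a⁻¹ (A.inv_mem ha) b⁻¹ (B.inv_mem hb)
    rw [mul_inv_rev, this]

private theorem exp2_sup {G : Type*} [Group G] {A B : Subgroup G}
    (hA : ∀ a ∈ A, a ^ 2 = 1) (hB : ∀ b ∈ B, b ^ 2 = 1)
    (hc : ∀ a ∈ A, ∀ b ∈ B, a * b = b * a) : ∀ e ∈ A ⊔ B, e ^ 2 = 1 := by
  intro e he
  obtain ⟨a, ha, b, hb, rfl⟩ := mem_sup_of_comm hc he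
  rw [(show Commute a b from hc a ha b hb).mul_pow, hA a ha, hB b hb, one_mul]

private theorem comm_of_exp2 {G : Type*} [Group G] {A : Subgroup G} (hA : ∀ a ∈ A, a ^ 2 = 1) :
    ∀ a ∈ A, ∀ b ∈ A, a * b = b * a := by
  intro a ha b hb
  have h1 := hA (a * b) (A.mul_mem ha hb)
  have h2 := hA a ha
  have h3 := hA b hb
  rw [sq] at h1 h2 h3
  calc a * b = a * (a * b * (a * b)) * b := by rw [h1]; simp
    _ = (a * a) * b * a * (b * b) := by group
    _ = b * a := by rw [h2, h3]; simp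

private theorem card_sup_comm {G : Type*} [Group G] {A B : Subgroup G}
    (hc : ∀ a ∈ A, ∀ b ∈ B, a * b = b * a) (hd : ∀ x ∈ A, x ∈ B → x = 1) :
    Nat.card (A ⊔ B : Subgroup G) = Nat.card A * Nat.card B := by
  rw [← Nat.card_prod]
  symm
  refine Nat.card_congr (Equiv.ofBijective
    (fun p : A × B => (⟨(p.1 : G) * (p.2 : G), Subgroup.mul_mem_sup p.1.2 p.2.2⟩ : (A ⊔ B : Subgroup G))) ⟨?_, ?_⟩)
  · rintro ⟨a, b⟩ ⟨a', b'⟩ h
    have h1 : (a : G) * b = a' * b' := congrArg Subtype.val h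
    have h2 : (a' : G)⁻¹ * a = b' * (b : G)⁻¹ := by
      calc (a' : G)⁻¹ * a = (a' : G)⁻¹ * (a * b) * (b : G)⁻¹ := by group
        _ = (a' : G)⁻¹ * (a' * b') * (b : G)⁻¹ := by rw [h1]
        _ = _ := by group
    have h3 : (a' : G)⁻¹ * a = 1 := hd _ (A.mul_mem (A.inv_mem a'.2) a.2) (h2 ▸ B.mul_mem b'.2 (B.inv_mem b.2))
    have h4 : (a : G) = a' := by
      have := congrArg ((a' : G) * ·) h3
      simpa using this
    have h5 : (b : G) = b' := by
      rw [h4] at h1
      exact mul_left_cancel h1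
    rw [Subtype.ext h4, Subtype.ext h5]
  · rintro ⟨e, he⟩
    obtain ⟨a, ha, b, hb, rfl⟩ := mem_sup_of_comm hc he
    exact ⟨(⟨a, ha⟩, ⟨b, hb⟩), rfl⟩

private theorem claim {G : Type*} [Group G] [Finite G] (E V Q T : Subgroup G) (hE8 : Nat.card E = 8)
    (hE2 : ∀ e ∈ E, e ^ 2 = 1) (hV4 : Nat.card V = 4) (hV2 : ∀ v ∈ V, v ^ 2 = 1)
    (hT : IsPGroup 2 T) (hET : E ≤ T) (hVT : V ≤ T)
    (hQT : Q ≤ T) (hQ : ∀ q ∈ Q, ∀ v ∈ V, q * v = v * q)
    (hQall : ∀ t ∈ T, (∀ v ∈ V, t * v = v * t) → t ∈ Q)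
    (hQi : Q.relIndex T ≤ 2) {y : G} (hy : y ∈ Q) (hy2 : y ^ 2 = 1) (hy1 : y ≠ 1) :
    ∃ F : Subgroup G, F ≤ Subgroup.centralizer ({y} : Set G) ∧ Nat.card F = 8 ∧ ∀ f ∈ F, f ^ 2 = 1 := by
  classical
  haveI : Fact (Nat.Prime 2) := ⟨Nat.prime_two⟩
  have hVc := comm_of_exp2 hV2
  have hEc := comm_of_exp2 hE2
  by_cases hyV : y ∈ V
  · -- `y ∈ V`
    let F₀ : Subgroup G := V ⊔ (E ⊓ Q)
    have hF₀T : F₀ ≤ T := sup_le hVT (inf_le_left.trans hET)
    have hF₀2 : ∀ f ∈ F₀, f ^ 2 = 1 := exp2_sup hV2 (fun b hb => hE2 b hb.1)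
      (fun a ha b hb => (hQ b hb.2 a ha).symm)
    have hF₀c : F₀ ≤ Subgroup.centralizer ({y} : Set G) := by
      refine sup_le ?_ ?_
      · intro v hv
        rw [Subgroup.mem_centralizer_singleton_iff]
        exact hVc v hv y hyV
      · intro q hq
        rw [Subgroup.mem_centralizer_singleton_iff]
        exact hQ q hq.2 y hyV
    have hF₀p : IsPGroup 2 F₀ := hT.to_le hF₀T
    have hEQ : 4 ≤ Nat.card (E ⊓ Q : Subgroup G) := by
      have h1 : Q.relIndex E ≤ Q.relIndex T := Subgroup.relIndex_le_of_le_right hET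
        Subgroup.index_ne_zero_of_finite
      have h3 := Cfsg.Agent.H18.card_inf_mul_relIndex Q E
      rw [inf_comm, ] at h3
      rw [hE8] at h3
      have h4 : Q.relIndex E ≤ 2 := h1.trans hQi
      by_contra hlt
      push Not at hlt
      have : Nat.card (E ⊓ Q : Subgroup G) * Q.relIndex E ≤ 3 * 2 := Nat.mul_le_mul (by omega) h4
      omega
    have hV_F : V ≤ F₀ := le_sup_left
    have hgt : 4 < Nat.card F₀ := by
      by_contra hle
      push Not at hle
      have hcardV : Nat.card V ≤ Nat.card F₀ := Subgroup.card_le_of_le hV_F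
      have hVF : V = F₀ := Subgroup.eq_of_le_of_card_ge hV_F (by omega)
      have h1 : (E ⊓ Q : Subgroup G) ≤ V := by
        rw [hVF]; exact le_sup_right
      have h2 : (E ⊓ Q : Subgroup G) = V := Subgroup.eq_of_le_of_card_ge h1 (by omega)
      have hVE : V ≤ E := h2 ▸ inf_le_left
      have h3 : E ≤ Q := by
        intro e he
        refine hQall e (hET he) fun v hv => ?_
        exact hEc e he v (hVE hv)
      have h4 : (E ⊓ Q : Subgroup G) = E := inf_eq_left.mpr h3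
      rw [h4] at h2
      rw [h2, hV4] at hE8
      omega
    obtain ⟨k, hk⟩ := IsPGroup.iff_card.mp hF₀p
    have hk3 : 3 ≤ k := by
      by_contra hlt
      push Not at hlt
      have : 2 ^ k ≤ 2 ^ 2 := Nat.pow_le_pow_right (by norm_num) (by omega)
      omega
    have hdvd : 2 ^ 3 ∣ Nat.card F₀ := by
      rw [hk]
      exact pow_dvd_pow 2 hk3
    obtain ⟨K, hK⟩ := Sylow.exists_subgroup_card_pow_prime 2 hdvd
    refine ⟨K.map F₀.subtype, ?_, ?_, ?_⟩
    · exact (Subgroup.map_subtype_le K).trans hF₀c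
    · have h5 := Nat.card_congr (K.equivMapOfInjective F₀.subtype F₀.subtype_injective).toEquiv
      rw [← h5, hK]
      norm_num
    · intro f hf
      exact hF₀2 f (Subgroup.map_subtype_le K hf)
  · -- `y ∉ V`
    have hzy : Nat.card (Subgroup.zpowers y) = 2 := by
      rw [Nat.card_zpowers]
      exact orderOf_eq_prime hy2 hy1
    have hzy2 : ∀ w ∈ Subgroup.zpowers y, w ^ 2 = 1 := by
      intro w hw
      rcases Cfsg.Agent.H01.mem_zpowers_sq hy2 hw with h | h
      · rw [h]; simp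
      · rw [h]; exact hy2
    have hcomm : ∀ a ∈ V, ∀ b ∈ Subgroup.zpowers y, a * b = b * a := by
      intro a ha b hb
      rcases Cfsg.Agent.H01.mem_zpowers_sq hy2 hb with h | h
      · rw [h]; simp
      · rw [h]; exact (hQ y hy a ha).symm
    refine ⟨V ⊔ Subgroup.zpowers y, ?_, ?_, exp2_sup hV2 hzy2 hcomm⟩
    · refine sup_le ?_ ?_
      · intro v hv
        rw [Subgroup.mem_centralizer_singleton_iff]
        exact (hQ y hy v hv).symm
      · intro w hw
        rw [Subgroup.mem_centralizer_singleton_iff]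
        rcases Cfsg.Agent.H01.mem_zpowers_sq hy2 hw with h | h
        · rw [h]; simp
        · rw [h]
    · rw [card_sup_comm hcomm ?_, hV4, hzy]
      intro w hw1 hw2
      rcases Cfsg.Agent.H01.mem_zpowers_sq hy2 hw2 with h | h
      · exact h
      · exact absurd (h ▸ hw1) hyV

/-- Let G be a finite group with no subgroup of index 2 whose 2-rank is at least 3 (it contains an elementary abelian subgroup of order 8). Then the centralizer of every involution of G also contains an elementary abelian subgroup of order 8. -/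
theorem result {G : Type*} [Group G] [Finite G] (hno : ∀ H : Subgroup G, H.index ≠ 2) (hrank : ∃ E : Subgroup G, Nat.card E = 8 ∧ ∀ e ∈ E, e ^ 2 = 1) (x : G) (hx : orderOf x = 2) : ∃ E : Subgroup G, E ≤ Subgroup.centralizer ({x} : Set G) ∧ Nat.card E = 8 ∧ ∀ e ∈ E, e ^ 2 = 1 := by

  classical
  haveI : Fact (Nat.Prime 2) := ⟨Nat.prime_two⟩
  obtain ⟨E, hE8, hE2⟩ := hrank
  have hEp : IsPGroup 2 E := IsPGroup.of_card (n := 3) (by rw [hE8]; norm_num)
  obtain ⟨P, hEP⟩ := hEp.exists_le_sylow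
  have hPp : IsPGroup 2 (P : Subgroup G) := P.isPGroup'
  -- the normal four-group in `P`
  let E' : Subgroup (P : Subgroup G) := E.subgroupOf P
  have hE'8 : Nat.card E' = 8 := by
    rw [← hE8]
    exact Nat.card_congr (Subgroup.subgroupOfEquivOfLe hEP).toEquiv
  have hE'2 : ∀ e ∈ E', e ^ 2 = 1 := by
    intro e he
    apply Subtype.ext
    simpa using hE2 e he
  obtain ⟨V', hV'n, hV'4, hV'2⟩ := Cfsg.Agent.H01.exists_normal_four_of_E8 hPp E' hE'8 hE'2
  have hV'ab : IsMulCommutative V' := ⟨⟨fun a b => Subtype.ext (comm_of_exp2 hV'2 a a.2 b b.2)⟩⟩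
  have hidx := Cfsg.Agent.H01.index_centralizer_le_choose hPp 2 V' hV'n hV'ab (by rw [hV'4]; norm_num)
  have hidx2 : (Subgroup.centralizer (V' : Set (P : Subgroup G))).index ≤ 2 := by
    simpa using hidx
  set C' := Subgroup.centralizer (V' : Set (P : Subgroup G)) with hC'
  let V : Subgroup G := V'.map (P : Subgroup G).subtype
  let Q : Subgroup G := C'.map (P : Subgroup G).subtype
  have hVP : V ≤ P := Subgroup.map_subtype_le V'
  have hQP : Q ≤ P := Subgroup.map_subtype_le C'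
  have hV4 : Nat.card V = 4 := by
    rw [← hV'4]
    exact (Nat.card_congr (V'.equivMapOfInjective _ (P : Subgroup G).subtype_injective).toEquiv).symm
  have hV2 : ∀ v ∈ V, v ^ 2 = 1 := by
    rintro _ ⟨v, hv, rfl⟩
    have := congrArg Subtype.val (hV'2 v hv)
    simpa using this
  have hQsub : Q.subgroupOf P = C' := Subgroup.comap_map_eq_self_of_injective (P : Subgroup G).subtype_injective C'
  have hQi : Q.relIndex P = C'.index := by
    rw [Subgroup.relIndex, hQsub]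
  have hQ : ∀ q ∈ Q, ∀ v ∈ V, q * v = v * q := by
    rintro _ ⟨q, hq, rfl⟩ _ ⟨v, hv, rfl⟩
    have := (Subgroup.mem_centralizer_iff.mp hq) v hv
    exact (congrArg Subtype.val this).symm
  have hQall : ∀ t ∈ (P : Subgroup G), (∀ v ∈ V, t * v = v * t) → t ∈ Q := by
    intro t ht h
    refine ⟨⟨t, ht⟩, ?_, rfl⟩
    show (⟨t, ht⟩ : (P : Subgroup G)) ∈ C'
    rw [hC', Subgroup.mem_centralizer_iff]
    intro v hv
    apply Subtype.ext
    exact (h v ⟨v, hv, rfl⟩).symm
  -- conjugate `x` into `Q`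
  obtain ⟨g, hg⟩ : ∃ g : G, g * x * g⁻¹ ∈ Q := by
    obtain ⟨g₁, hg₁⟩ := Cfsg.Agent.H01.exists_conj_invol_into P hx
    by_cases hmem : g₁ * x * g₁⁻¹ ∈ Q
    · exact ⟨g₁, hmem⟩
    have hne : C'.index ≠ 1 := by
      intro h1
      have htop : C' = ⊤ := Subgroup.index_eq_one.mp h1
      apply hmem
      refine ⟨⟨_, hg₁⟩, ?_, rfl⟩
      rw [htop]
      trivial
    have h2 : C'.index = 2 := by
      have h0 : C'.index ≠ 0 := Subgroup.index_ne_zero_of_finite
      omega
    have hu : orderOf (g₁ * x * g₁⁻¹) = 2 := by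
      rw [← hx]
      exact MulEquiv.orderOf_eq (MulAut.conj g₁) x
    rcases Cfsg.Agent.S0111.result P Q hQP (by rw [hQi, h2]) _ hu hg₁ hmem with ⟨M, -, hMi, -⟩ | ⟨g, hg⟩
    · exact absurd hMi (hno M)
    · refine ⟨g * g₁, ?_⟩
      have e : g * g₁ * x * (g * g₁)⁻¹ = g * (g₁ * x * g₁⁻¹) * g⁻¹ := by group
      rw [e]
      exact hg
  have hy2 : (g * x * g⁻¹) ^ 2 = 1 := by
    rw [conj_pow]
    have : x ^ 2 = 1 := by rw [← hx]; exact pow_orderOf_eq_one x
    rw [this]
    simp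
  have hy1 : g * x * g⁻¹ ≠ 1 := by
    intro h
    have : x = 1 := by
      have h1 := congrArg (fun w => g⁻¹ * w * g) h
      simpa [mul_assoc] using h1
    rw [this, orderOf_one] at hx
    omega
  obtain ⟨F, hFc, hF8, hF2⟩ := claim E V Q P hE8 hE2 hV4 hV2 hPp hEP hVP hQP hQ hQall
    (by rw [hQi]; exact hidx2) hg hy2 hy1
  refine ⟨F.map (MulAut.conj g⁻¹).toMonoidHom, ?_, ?_, ?_⟩
  · rintro _ ⟨f, hf, rfl⟩
    have h1 := Subgroup.mem_centralizer_singleton_iff.mp (hFc hf)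
    rw [Subgroup.mem_centralizer_singleton_iff]
    simp only [MulEquiv.coe_toMonoidHom, MulAut.conj_apply, inv_inv]
    calc g⁻¹ * f * g * x = g⁻¹ * (f * (g * x * g⁻¹)) * g := by group
      _ = g⁻¹ * ((g * x * g⁻¹) * f) * g := by rw [h1]
      _ = _ := by group
  · rw [← hF8]
    exact (Nat.card_congr (F.equivMapOfInjective _ (MulAut.conj g⁻¹).injective).toEquiv).symm
  · rintro _ ⟨f, hf, rfl⟩
    simp only [MulEquiv.coe_toMonoidHom, MulAut.conj_apply]
    rw [conj_pow, hF2 f hf]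
    simp
end Cfsg.Agent.S0221
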