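import Cfsg.Statements.S0225
import Cfsg.Agent.S0215
import Cfsg.Agent.Lib.H02.Klein
import Mathlib

set_option autoImplicit false
set_option linter.style.haveILetI false
open Cfsg

namespace Cfsg.Agent.S0225

/-- If a finite group G has even order but contains no Klein four-subgroup (2-rank 1), then some involution z of G is central modulo a normal subgroup of odd order: there is a normal subgroup N of odd order containing every commutator z g z⁻¹ g⁻¹. -/
theorem result {G : Type*} [Group G] [Finite G] (heven : Even (Nat.card G)) (hrank : ∀ E : Subgroup G, ¬ IsKleinFour E) : ∃ z : G, orderOf z = 2 ∧ ∃ N : Subgroup G, N.Normal ∧ Odd (Nat.card N) ∧ ∀ g : G, z * g * z⁻¹ * g⁻¹ ∈ N := by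
  classical
  haveI : Fact (Nat.Prime 2) := ⟨Nat.prime_two⟩
  obtain ⟨P⟩ : Nonempty (Sylow 2 G) := inferInstance
  have h2 : 2 ∣ Nat.card G := heven.two_dvd
  -- a central involution of `P`
  have hPne : Nontrivial (P : Subgroup G) := by
    have hc := P.card_eq_multiplicity
    have hf : (Nat.card G).factorization 2 ≠ 0 := by
      have hpos : Nat.card G ≠ 0 := Nat.card_pos.ne'
      have := (Nat.Prime.dvd_iff_one_le_factorization Nat.prime_two hpos).1 h2
      omega
    rw [← Finite.one_lt_card_iff_nontrivial, hc]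
    exact Nat.one_lt_pow hf (by norm_num)
  have hZ : Nontrivial (Subgroup.center (P : Subgroup G)) :=
    IsPGroup.center_nontrivial P.isPGroup'
  obtain ⟨w, hw1⟩ := exists_ne (1 : Subgroup.center (P : Subgroup G))
  have hcardZ : (2 : ℕ) ∣ Nat.card (Subgroup.center (P : Subgroup G)) := by
    obtain ⟨n, hn⟩ := IsPGroup.iff_card.1 (P.isPGroup'.to_subgroup (Subgroup.center _))
    have h1 : 1 < Nat.card (Subgroup.center (P : Subgroup G)) := Finite.one_lt_card
    rw [hn] at h1 ⊢
    have hn0 : n ≠ 0 := by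
      rintro rfl
      simp at h1
    exact dvd_pow_self 2 hn0
  obtain ⟨z0, hz0⟩ := exists_prime_orderOf_dvd_card' (G := Subgroup.center (P : Subgroup G)) 2 hcardZ
  let z : G := ((z0 : (P : Subgroup G)) : G)
  have hzP : z ∈ (P : Subgroup G) := (z0 : (P : Subgroup G)).2
  have hzo : orderOf z = 2 := by
    have e1 : orderOf z = orderOf (z0 : (P : Subgroup G)) := Subgroup.orderOf_coe _
    rw [e1, Subgroup.orderOf_coe, hz0]
  have hzc : ∀ x ∈ (P : Subgroup G), x * z = z * x := by
    intro x hx
    have := Subgroup.mem_center_iff.1 z0.2 ⟨x, hx⟩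
    exact congrArg Subtype.val this
  have hz2 : z ^ 2 = 1 := by rw [← hzo]; exact pow_orderOf_eq_one z
  have hiso : ∀ g : G, g * z * g⁻¹ ∈ P → g * z * g⁻¹ = z := by
    intro g hg
    by_contra hne
    have hz' : (g * z * g⁻¹) ^ 2 = 1 := by
      rw [conj_pow, hz2, mul_one, mul_inv_cancel]
    have hz1 : z ≠ 1 := by
      intro h
      rw [h, orderOf_one] at hzo
      omega
    have hz'1 : g * z * g⁻¹ ≠ 1 := by
      intro h
      apply hz1
      have : z = g⁻¹ * (g * z * g⁻¹) * g := by group
      rw [this, h]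
      group
    exact hrank _ (Cfsg.Agent.H02.isKleinFour_kleinOf z (g * z * g⁻¹) hz2 hz' (hzc _ hg).symm hz1 hz'1 (Ne.symm hne))
  obtain ⟨N, hN, hodd, hcomm⟩ := Cfsg.Agent.S0215.result P z hzo hzP hiso
  exact ⟨z, hzo, N, hN, hodd, hcomm⟩

end Cfsg.Agent.S0225
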