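import Cfsg.Statements.S0226
import Mathlib

set_option autoImplicit false
open Cfsg

namespace Cfsg.Agent.S0226

/-- A finite group of even order has an odd number of involutions. -/
theorem result {G : Type*} [Group G] [Finite G] (heven : Even (Nat.card G)) : Odd (Nat.card {t : G // orderOf t = 2}) := by
  classical
  have := Fintype.ofFinite G
  have h1 : Nat.card G = Fintype.card G := Nat.card_eq_fintype_card
  rw [h1] at heven
  let T : Finset G := Finset.univ.filter (fun g => g * g ≠ 1)
  have hT : Even T.card := by
    have h0 : (∑ _x ∈ T, (1 : ZMod 2)) = 0 := by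
      refine Finset.sum_involution (fun a _ => a⁻¹) ?_ ?_ ?_ ?_
      · intro a _
        decide
      · intro a ha _ hinv
        have hne : a * a ≠ 1 := (Finset.mem_filter.mp ha).2
        apply hne
        calc a * a = a⁻¹ * a := by rw [hinv]
          _ = 1 := inv_mul_cancel a
      · intro a ha
        have hne : a * a ≠ 1 := (Finset.mem_filter.mp ha).2
        refine Finset.mem_filter.mpr ⟨Finset.mem_univ _, ?_⟩
        intro h
        apply hne
        have h2 : (a⁻¹ * a⁻¹)⁻¹ = 1 := by rw [h, inv_one]
        simpa [mul_inv_rev] using h2
      · intro a _
        exact inv_inv a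
    have h2 : ((T.card : ℕ) : ZMod 2) = 0 := by simpa using h0
    exact (ZMod.natCast_eq_zero_iff_even).mp h2
  let I : Finset G := Finset.univ.filter (fun g => orderOf g = 2)
  have hcard : Fintype.card G = T.card + (I.card + 1) := by
    have : (Finset.univ : Finset G) = T ∪ (insert 1 I) := by
      ext g
      simp only [Finset.mem_univ, Finset.mem_union, Finset.mem_filter, Finset.mem_insert, T, I, true_and, true_iff]
      by_cases hg : g * g = 1
      · right
        by_cases hg1 : g = 1
        · exact Or.inl hg1
        · right
          apply orderOf_eq_prime (by rw [pow_two]; exact hg) hg1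
      · exact Or.inl hg
    rw [← Finset.card_univ, this, Finset.card_union_of_disjoint, Finset.card_insert_of_notMem]
    · simp [I]
    · rw [Finset.disjoint_left]
      intro g hg hg'
      have hne : g * g ≠ 1 := (Finset.mem_filter.mp hg).2
      rcases Finset.mem_insert.mp hg' with rfl | h
      · simp at hne
      · have : g ^ 2 = 1 := by
          rw [← (Finset.mem_filter.mp h).2]; exact pow_orderOf_eq_one g
        rw [pow_two] at this
        exact hne this
  have hI : Odd I.card := by
    have h3 : Even (T.card + (I.card + 1)) := hcard ▸ heven
    rw [Nat.even_add] at h3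
    have h4 : Even (I.card + 1) := h3.mp hT
    by_contra hc
    rw [Nat.not_odd_iff_even] at hc
    exact (Nat.not_even_iff_odd.mpr (hc.add_one)) h4
  have h5 : Nat.card {t : G // orderOf t = 2} = I.card := by
    rw [Nat.card_eq_fintype_card, Fintype.card_subtype]
  rwa [h5]

end Cfsg.Agent.S0226
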