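import Mathlib
import Cfsg.Statements.S0228
-- import your own Cfsg.Agent.* helpers here

set_option autoImplicit false
open Cfsg

namespace Cfsg.Agent.S0228


/-- A group of order 12 in which no involution is central is isomorphic to the alternating group on four letters. -/
theorem result {G : Type*} [Group G] [Finite G] (hG : Nat.card G = 12) (hz : ∀ z : G, orderOf z = 2 → z ∉ Subgroup.center G) : Nonempty (G ≃* alternatingGroup (Fin 4)) := by
  classical
  haveI : Fact (Nat.Prime 3) := ⟨by norm_num⟩
  haveI : Fact (Nat.Prime 2) := ⟨Nat.prime_two⟩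
  have hcard3 : ∀ P : Sylow 3 G, Nat.card (P : Subgroup G) = 3 := by
    intro P
    obtain ⟨k, hk⟩ := IsPGroup.iff_card.mp P.isPGroup'
    have h1 := (P : Subgroup G).card_mul_index
    rw [hG] at h1
    have h2 := P.not_dvd_index
    have hk2 : k < 3 := by
      by_contra h
      have h3 : 3 ^ 3 ≤ 3 ^ k := Nat.pow_le_pow_right (by norm_num) (by omega)
      have h4 : Nat.card (P : Subgroup G) ≤ 12 := Nat.le_of_dvd (by norm_num) ⟨_, h1.symm⟩
      omega
    rw [hk] at h1 ⊢
    interval_cases k
    · exfalso; apply h2; norm_num at h1; rw [h1]; norm_num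
    · norm_num
    · omega
  have hcard2 : ∀ Q : Sylow 2 G, Nat.card (Q : Subgroup G) = 2 ^ 2 := by
    intro P
    obtain ⟨k, hk⟩ := IsPGroup.iff_card.mp P.isPGroup'
    have h1 := (P : Subgroup G).card_mul_index
    rw [hG] at h1
    have h2 := P.not_dvd_index
    have hk2 : k < 4 := by
      by_contra h
      have h3 : 2 ^ 4 ≤ 2 ^ k := Nat.pow_le_pow_right (by norm_num) (by omega)
      have h4 : Nat.card (P : Subgroup G) ≤ 12 := Nat.le_of_dvd (by norm_num) ⟨_, h1.symm⟩
      omega
    rw [hk] at h1 ⊢
    interval_cases k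
    · exfalso; apply h2; norm_num at h1; rw [h1]; norm_num
    · exfalso; apply h2; norm_num at h1
      have : (P : Subgroup G).index = 6 := by omega
      rw [this]; norm_num
    · norm_num
    · omega
  obtain ⟨P₀⟩ : Nonempty (Sylow 3 G) := inferInstance
  have hidx : (P₀ : Subgroup G).index = 4 := by
    have h1 := (P₀ : Subgroup G).card_mul_index
    rw [hG, hcard3] at h1
    omega
  have hn1 : Nat.card (Sylow 3 G) ≡ 1 [MOD 3] := card_sylow_modEq_one 3 G
  have hn2 : Nat.card (Sylow 3 G) ∣ 4 := hidx ▸ P₀.card_dvd_index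
  have hn3 : Nat.card (Sylow 3 G) = 1 ∨ Nat.card (Sylow 3 G) = 4 := by
    have h4 := Nat.le_of_dvd (by norm_num) hn2
    generalize Nat.card (Sylow 3 G) = k at *
    interval_cases k
    · simp [Nat.ModEq] at hn1
    · left; rfl
    · simp [Nat.ModEq] at hn1
    · norm_num at hn2
    · right; rfl
  rcases hn3 with hn3 | hn3
  · -- normal Sylow 3-subgroup: a contradiction
    exfalso
    haveI : Subsingleton (Sylow 3 G) := (Nat.card_eq_one_iff_unique.mp hn3).1
    haveI hPn : (P₀ : Subgroup G).Normal := Sylow.normal_of_subsingleton P₀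
    have hcardP := hcard3 P₀
    haveI : Fact (Nat.card (P₀ : Subgroup G)).Prime := ⟨by rw [hcardP]; norm_num⟩
    haveI : IsCyclic (P₀ : Subgroup G) := isCyclic_of_prime_card rfl
    let φ : G →* MulAut (P₀ : Subgroup G) := MulAut.conjNormal
    have h1 : Nat.card (MulAut (P₀ : Subgroup G)) = 2 := by
      rw [IsCyclic.card_mulAut, hcardP]; decide
    have h2 : Nat.card φ.range ∣ 2 := by
      rw [← h1]; exact Subgroup.card_subgroup_dvd_card _
    have h3 : Nat.card φ.ker * Nat.card φ.range = 12 := by
      rw [← hG, ← Subgroup.index_ker, Subgroup.card_mul_index]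
    have h4 : 2 ∣ Nat.card φ.ker := by
      have h5 : Nat.card φ.range = 1 ∨ Nat.card φ.range = 2 := (Nat.dvd_prime Nat.prime_two).mp h2
      rcases h5 with h5 | h5 <;> rw [h5] at h3 <;> omega
    obtain ⟨t₀, ht₀⟩ := exists_prime_orderOf_dvd_card' (G := φ.ker) 2 h4
    let t : G := t₀
    have ht : orderOf t = 2 := by rw [Subgroup.orderOf_coe]; exact ht₀
    have htP : ∀ u ∈ (P₀ : Subgroup G), t * u * t⁻¹ = u := by
      intro u hu
      have h5 : φ t = 1 := t₀.2
      have h6 := MulAut.conjNormal_apply t ⟨u, hu⟩
      have h7 : (MulAut.conjNormal t : MulAut (P₀ : Subgroup G)) = 1 := h5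
      rw [h7] at h6
      exact h6.symm
    have hzt : IsPGroup 2 (Subgroup.zpowers t) := by
      apply IsPGroup.of_card (n := 1)
      rw [Nat.card_zpowers, ht, pow_one]
    obtain ⟨Q, hQ⟩ := hzt.exists_le_sylow
    have htQ : t ∈ (Q : Subgroup G) := hQ (Subgroup.mem_zpowers t)
    haveI : IsMulCommutative (Q : Subgroup G) := IsPGroup.isMulCommutative_of_card_eq_prime_sq (hcard2 Q)
    set C := Subgroup.centralizer ({t} : Set G) with hC
    have hPC : (P₀ : Subgroup G) ≤ C := by
      intro u hu
      rw [hC, Subgroup.mem_centralizer_iff]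
      intro y hy
      rw [show y = t from hy]
      have := htP u hu
      calc t * u = (t * u * t⁻¹) * t := by group
        _ = u * t := by rw [this]
    have hQC : (Q : Subgroup G) ≤ C := by
      intro u hu
      rw [hC, Subgroup.mem_centralizer_iff]
      intro y hy
      rw [show y = t from hy]
      have := mul_comm' (⟨t, htQ⟩ : (Q : Subgroup G)) ⟨u, hu⟩
      exact congrArg Subtype.val this
    have h3C : 3 ∣ Nat.card C := by
      rw [← hcardP]; exact Subgroup.card_dvd_of_le hPC
    have h4C : 4 ∣ Nat.card C := by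
      have := hcard2 Q
      rw [show (2 : ℕ) ^ 2 = 4 by norm_num] at this
      rw [← this]; exact Subgroup.card_dvd_of_le hQC
    have h12 : 12 ∣ Nat.card C := by
      have : Nat.Coprime 3 4 := by norm_num
      exact this.mul_dvd_of_dvd_of_dvd h3C h4C
    have hCtop : C = ⊤ := by
      apply Subgroup.eq_top_of_card_eq
      apply Nat.le_antisymm
      · exact Nat.le_of_dvd Nat.card_pos (hG ▸ Subgroup.card_subgroup_dvd_card C)
      · rw [hG]; exact Nat.le_of_dvd Nat.card_pos h12
    apply hz t ht
    rw [Subgroup.mem_center_iff]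
    intro g
    have hg : g ∈ C := by rw [hCtop]; trivial
    rw [hC, Subgroup.mem_centralizer_iff] at hg
    exact (hg t rfl).symm
  · -- four Sylow 3-subgroups
    let ρ : G →* Equiv.Perm (Sylow 3 G) := MulAction.toPermHom G (Sylow 3 G)
    have hρinj : Function.Injective ρ := by
      rw [injective_iff_map_eq_one]
      intro g hg
      by_contra hg1
      have hN : ∀ P : Sylow 3 G, g ∈ (P : Subgroup G) := by
        intro P
        have h1 : g • P = P := by
          have := congrArg (fun σ : Equiv.Perm (Sylow 3 G) => σ P) hg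
          exact this
        have h2 : g ∈ Subgroup.normalizer ((P : Subgroup G) : Set G) := P.smul_eq_iff_mem_normalizer.mp h1
        have h3 := P.card_eq_index_normalizer
        rw [hn3] at h3
        have h4 := (Subgroup.normalizer ((P : Subgroup G) : Set G)).card_mul_index
        have h3' : (Subgroup.normalizer ((P : Subgroup G) : Set G)).index = 4 := h3.symm
        rw [h3', hG] at h4
        have h5 : Nat.card (Subgroup.normalizer ((P : Subgroup G) : Set G)) = 3 := by omega
        have h6 : (P : Subgroup G) = Subgroup.normalizer ((P : Subgroup G) : Set G) :=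
          Subgroup.eq_of_le_of_card_ge Subgroup.le_normalizer (by rw [h5, hcard3])
        rw [h6]; exact h2
      -- all Sylows equal the group generated by `g`
      have hP : ∀ P : Sylow 3 G, (P : Subgroup G) = Subgroup.zpowers g := by
        intro P
        have h1 : Subgroup.zpowers g ≤ (P : Subgroup G) := by
          rw [Subgroup.zpowers_le]; exact hN P
        have h2 : Nat.card (Subgroup.zpowers g) ∣ 3 := by
          rw [← hcard3 P]; exact Subgroup.card_dvd_of_le h1
        have h3 : Nat.card (Subgroup.zpowers g) ≠ 1 := by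
          rw [Nat.card_zpowers]
          intro h; exact hg1 (orderOf_eq_one_iff.mp h)
        have h4 : Nat.card (Subgroup.zpowers g) = 3 := by
          rcases (Nat.dvd_prime (by norm_num)).mp h2 with h | h
          · exact absurd h h3
          · exact h
        exact (Subgroup.eq_of_le_of_card_ge h1 (by rw [h4, hcard3])).symm
      have hsub : Subsingleton (Sylow 3 G) := by
        refine ⟨fun P R => ?_⟩
        apply Sylow.ext
        rw [hP, hP]
      have : Nat.card (Sylow 3 G) = 1 := Nat.card_unique
      omega
    let e : Sylow 3 G ≃ Fin 4 := Finite.equivFinOfCardEq hn3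
    let ψ : G →* Equiv.Perm (Fin 4) := (Equiv.permCongrHom e).toMonoidHom.comp ρ
    have hψ : Function.Injective ψ :=
      (Equiv.permCongrHom e).injective.comp hρinj
    have hrange : ψ.range = alternatingGroup (Fin 4) := by
      apply Equiv.Perm.eq_alternatingGroup_of_index_eq_two
      have h1 := ψ.range.card_mul_index
      have h2 : Nat.card ψ.range = 12 := by
        rw [← hG]; exact (Nat.card_congr (MonoidHom.ofInjective hψ).toEquiv).symm
      have h3 : Nat.card (Equiv.Perm (Fin 4)) = 24 := by
        rw [Nat.card_eq_fintype_card, Fintype.card_perm]; rfl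
      rw [h2, h3] at h1
      omega
    exact ⟨(MonoidHom.ofInjective hψ).trans (MulEquiv.subgroupCongr hrange)⟩


end Cfsg.Agent.S0228
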