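import Mathlib
import Cfsg.Agent.Lib.H01.Invol
import Cfsg.Statements.S0229
-- import your own Cfsg.Agent.* helpers here

set_option autoImplicit false
open Cfsg

namespace Cfsg.Agent.S0229


/-- Let t be an involution of a Sylow 2-subgroup S of a finite group G, conjugate in G to no other element of S, and let s be an involution of G not conjugate to t. Then the order of st is twice an odd number. -/
theorem result {G : Type*} [Group G] [Finite G] (S : Sylow 2 G) (t : G) (ht : orderOf t = 2) (htS : t ∈ S) (hiso : ∀ g : G, g * t * g⁻¹ ∈ S → g * t * g⁻¹ = t) (s : G) (hs : orderOf s = 2) (hns : ¬ IsConj s t) : orderOf (s * t) % 4 = 2 := by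
  have hss := Cfsg.Agent.H01.mul_self_of_order_two hs
  have htt := Cfsg.Agent.H01.mul_self_of_order_two ht
  -- even order
  have heven : Even (orderOf (t * s)) := by
    by_contra h
    rw [Nat.not_even_iff_odd] at h
    obtain ⟨d, _, hd⟩ := Cfsg.Agent.H01.exists_conj_of_odd htt hss h
    apply hns
    rw [isConj_iff]
    refine ⟨d⁻¹, ?_⟩
    rw [← hd]
    group
  have hord : orderOf (s * t) = orderOf (t * s) := by
    have : s * t = (t * s)⁻¹ := by
      rw [mul_inv_rev, Cfsg.Agent.H01.inv_of_mul_self hss, Cfsg.Agent.H01.inv_of_mul_self htt]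
    rw [this, orderOf_inv]
  rw [hord]
  have h4 : ¬ 4 ∣ orderOf (t * s) := by
    intro h4
    obtain ⟨d, hd, hdt⟩ := (Cfsg.Agent.H01.conj_mul_central_iff htt hss heven).mpr h4
    obtain ⟨hz, hzt, -⟩ := Cfsg.Agent.H01.central_of_even htt hss heven
    set z := (t * s) ^ (orderOf (t * s) / 2) with hzdef
    have hzz := Cfsg.Agent.H01.mul_self_of_order_two hz
    have hconj : IsConj t (t * z) := by
      rw [isConj_iff]
      exact ⟨d, hdt⟩
    have hv2 : (t * z) * (t * z) = 1 := by
      calc (t * z) * (t * z) = t * (z * t) * z := by group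
        _ = t * (t * z) * z := by rw [hzt.eq]
        _ = (t * t) * (z * z) := by group
        _ = 1 := by rw [htt, hzz, one_mul]
    have hp := Cfsg.Agent.H01.isPGroup_closure_pair htt hv2 1 (by
      rw [pow_one, pow_two]
      calc t * (t * z) * (t * (t * z)) = (t * t) * z * ((t * t) * z) := by group
        _ = 1 := by rw [htt, one_mul, hzz])
    have h5 := Cfsg.Agent.H01.eq_of_isolated S hiso hconj _ hp Cfsg.Agent.H01.left_mem_closure
      Cfsg.Agent.H01.right_mem_closure
    have h6 : z = 1 := by
      have : t * z = t * 1 := by rw [h5, mul_one]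
      exact mul_left_cancel this
    rw [h6] at hz
    simp at hz
  obtain ⟨m, hm⟩ := heven
  omega


end Cfsg.Agent.S0229
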