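import Mathlib
import Cfsg.Agent.Lib.H01.Invol
import Cfsg.Agent.Lib.H05.Isolated2
import Cfsg.Statements.S0230
-- import your own Cfsg.Agent.* helpers here

set_option autoImplicit false
open Cfsg

namespace Cfsg.Agent.S0230


/-- Let G be a finite group with two non-conjugate involutions, and let t be an involution whose centralizer has maximal order among centralizers of involutions. Then |G| < |C_G(t)|^3. -/
theorem result {G : Type*} [Group G] [Finite G] (s t : G) (hs : orderOf s = 2) (ht : orderOf t = 2) (hnc : ¬ IsConj s t) (hmax : ∀ u : G, orderOf u = 2 → Nat.card (Subgroup.centralizer ({u} : Set G)) ≤ Nat.card (Subgroup.centralizer ({t} : Set G))) : Nat.card G < Nat.card (Subgroup.centralizer ({t} : Set G)) ^ 3 := by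
  classical
  haveI := Fintype.ofFinite G
  set n := Nat.card (Subgroup.centralizer ({t} : Set G)) with hn
  have hnpos : 0 < n := Nat.card_pos
  have hcls := Cfsg.Agent.H05.card_class_mul t
  rw [← hn] at hcls
  let K : Finset G := Finset.univ.filter (fun y => ∃ g : G, g * t * g⁻¹ = y)
  have hKc : Nat.card {y : G // ∃ g : G, g * t * g⁻¹ = y} = K.card := by
    rw [Nat.card_eq_fintype_card, Fintype.card_subtype]
  rw [hKc] at hcls
  let f : G → G := fun v => (s * v) ^ (orderOf (s * v) / 2)
  have hss := Cfsg.Agent.H01.mul_self_of_order_two hs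
  have hK : ∀ v ∈ K, orderOf (f v) = 2 ∧ Commute (f v) s ∧ Commute (f v) v ∧ v ≠ 1 := by
    intro v hv
    obtain ⟨g, hg⟩ := (Finset.mem_filter.mp hv).2
    have hvo : orderOf v = 2 := by
      rw [← hg, ← MulAut.conj_apply, MulEquiv.orderOf_eq, ht]
    have hvv := Cfsg.Agent.H01.mul_self_of_order_two hvo
    have he : Even (orderOf (s * v)) := by
      rw [← Nat.not_odd_iff_even]
      intro ho
      obtain ⟨d, -, hd⟩ := Cfsg.Agent.H01.exists_conj_of_odd hss hvv ho
      apply hnc
      have h1 : IsConj s v := isConj_iff.mpr ⟨d, hd⟩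
      have h2 : IsConj t v := isConj_iff.mpr ⟨g, hg⟩
      exact h1.trans h2.symm
    obtain ⟨h1, h2, h3⟩ := Cfsg.Agent.H01.central_of_even hss hvv he
    refine ⟨h1, h2, h3, ?_⟩
    rintro rfl
    simp at hvo
  have hbd : ∀ u : G, orderOf u = 2 →
      (Finset.univ.filter (fun v : G => v ≠ 1 ∧ Commute v u)).card + 1 ≤ n := by
    intro u hu
    have h1 := hmax u hu
    have h2 : Nat.card (Subgroup.centralizer ({u} : Set G)) =
        (Finset.univ.filter (fun v : G => Commute v u)).card := by
      rw [Nat.card_eq_fintype_card, Fintype.card_subtype]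
      congr 1
      ext v
      simp only [Finset.mem_filter, Finset.mem_univ, true_and, Subgroup.mem_centralizer_iff,
        Set.mem_singleton_iff, forall_eq]
      exact ⟨fun h => h.symm, fun h => h.symm⟩
    have h3 : (Finset.univ.filter (fun v : G => v ≠ 1 ∧ Commute v u)).card + 1 =
        (Finset.univ.filter (fun v : G => Commute v u)).card := by
      have : Finset.univ.filter (fun v : G => Commute v u) =
          insert 1 (Finset.univ.filter (fun v : G => v ≠ 1 ∧ Commute v u)) := by
        ext v
        simp only [Finset.mem_filter, Finset.mem_univ, true_and, Finset.mem_insert]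
        by_cases hv : v = 1
        · subst hv; simp
        · simp [hv]
      rw [this, Finset.card_insert_of_notMem (by simp)]
    omega
  have himg : (K.image f).card + 1 ≤ n := by
    refine le_trans ?_ (hbd s hs)
    apply Nat.add_le_add_right
    apply Finset.card_le_card
    intro z hz
    obtain ⟨v, hv, rfl⟩ := Finset.mem_image.mp hz
    obtain ⟨h1, h2, -, -⟩ := hK v hv
    simp only [Finset.mem_filter, Finset.mem_univ, true_and]
    refine ⟨?_, h2⟩
    intro h; rw [h] at h1; simp at h1
  have hfib : ∀ z ∈ K.image f, (K.filter (fun v => f v = z)).card ≤ n - 1 := by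
    intro z hz
    obtain ⟨v₀, hv₀, rfl⟩ := Finset.mem_image.mp hz
    obtain ⟨h1, -, -, -⟩ := hK v₀ hv₀
    have h2 := hbd (f v₀) h1
    have h3 : (K.filter (fun v => f v = f v₀)).card ≤
        (Finset.univ.filter (fun v : G => v ≠ 1 ∧ Commute v (f v₀))).card := by
      apply Finset.card_le_card
      intro v hv
      obtain ⟨hvK, hv2⟩ := Finset.mem_filter.mp hv
      obtain ⟨-, -, h5, h6⟩ := hK v hvK
      simp only [Finset.mem_filter, Finset.mem_univ, true_and]
      refine ⟨h6, ?_⟩
      rw [← hv2]
      exact h5.symm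
    omega
  have hcardK := Finset.card_le_mul_card_image K (n - 1) hfib
  have h5 : K.card ≤ (n - 1) * (n - 1) :=
    hcardK.trans (Nat.mul_le_mul_left _ (by omega))
  rw [hcls]
  have h6 : (n - 1) * (n - 1) < n * n := Nat.mul_self_lt_mul_self (by omega)
  calc n * K.card ≤ n * ((n - 1) * (n - 1)) := Nat.mul_le_mul_left _ h5
    _ < n * (n * n) := Nat.mul_lt_mul_of_pos_left h6 hnpos
    _ = n ^ 3 := by ring


end Cfsg.Agent.S0230
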