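import Mathlib
import Cfsg.Agent.Lib.H01.Invol
import Cfsg.Statements.S0231
-- import your own Cfsg.Agent.* helpers here

set_option autoImplicit false
open scoped Pointwise
open Cfsg

namespace Cfsg.Agent.S0231


/-- Let T be a Sylow 2-subgroup of the finite group G which is not normal and which intersects every other Sylow 2-subgroup trivially. Then G has a single conjugacy class of involutions. -/
theorem result {G : Type*} [Group G] [Finite G] (T : Sylow 2 G) (hnn : ¬ (T : Subgroup G).Normal) (hTI : ∀ g : G, MulAut.conj g • (T : Subgroup G) ≠ T → MulAut.conj g • (T : Subgroup G) ⊓ T = ⊥) (s t : G) (hs : orderOf s = 2) (ht : orderOf t = 2) : IsConj s t := by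
  classical
  haveI : Fact (Nat.Prime 2) := ⟨Nat.prime_two⟩
  open scoped Pointwise in
  have hti : ∀ P Q : Sylow 2 G, P ≠ Q → (P : Subgroup G) ⊓ (Q : Subgroup G) = ⊥ := by
    intro P Q hPQ
    obtain ⟨a, ha⟩ := MulAction.exists_smul_eq G T P
    obtain ⟨b, hb⟩ := MulAction.exists_smul_eq G T Q
    rw [eq_bot_iff]
    intro x hx
    have hxP : x ∈ (P : Subgroup G) := hx.1
    have hxQ : x ∈ (Q : Subgroup G) := hx.2
    rw [← ha, Sylow.coe_subgroup_smul, Subgroup.mem_pointwise_smul_iff_inv_smul_mem] at hxP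
    rw [← hb, Sylow.coe_subgroup_smul, Subgroup.mem_pointwise_smul_iff_inv_smul_mem] at hxQ
    have hne : MulAut.conj (b⁻¹ * a) • (T : Subgroup G) ≠ (T : Subgroup G) := by
      intro h
      apply hPQ
      rw [← ha, ← hb]
      have h2 : (b⁻¹ * a) • T = T := by
        apply Sylow.ext
        rw [Sylow.coe_subgroup_smul]; exact h
      calc a • T = b • ((b⁻¹ * a) • T) := by rw [smul_smul]; simp
        _ = b • T := by rw [h2]
    have h3 := hTI (b⁻¹ * a) hne
    have h4 : b⁻¹ * x * b ∈ MulAut.conj (b⁻¹ * a) • (T : Subgroup G) ⊓ (T : Subgroup G) := by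
      rw [Subgroup.mem_inf]
      refine ⟨?_, ?_⟩
      · rw [Subgroup.mem_pointwise_smul_iff_inv_smul_mem]
        have : (MulAut.conj (b⁻¹ * a))⁻¹ • (b⁻¹ * x * b) = (MulAut.conj a)⁻¹ • x := by
          simp [MulAut.smul_def, MulAut.conj_apply, map_inv]
          group
        rw [this]; exact hxP
      · have : (MulAut.conj b)⁻¹ • x = b⁻¹ * x * b := by
          simp [MulAut.smul_def, MulAut.conj_apply, map_inv]
        rw [← this]; exact hxQ
    rw [h3, Subgroup.mem_bot] at h4
    rw [Subgroup.mem_bot]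
    have : x = b * (b⁻¹ * x * b) * b⁻¹ := by group
    rw [this, h4]; simp
  -- a second Sylow subgroup
  obtain ⟨T', hT'⟩ : ∃ T' : Sylow 2 G, T' ≠ T := by
    by_contra h
    push Not at h
    apply hnn
    refine ⟨fun n hn g => ?_⟩
    have h1 : g • T = T := h _
    have h2 : g ∈ Subgroup.normalizer ((T : Subgroup G) : Set G) := T.smul_eq_iff_mem_normalizer.mp h1
    exact (Subgroup.mem_normalizer_iff.mp h2 n).mp hn
  have hconj : ∀ (R : Sylow 2 G) (u : G), orderOf u = 2 → ∃ g : G, g * u * g⁻¹ ∈ (R : Subgroup G) := by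
    intro R u hu
    have h1 : IsPGroup 2 (Subgroup.zpowers u) := by
      apply IsPGroup.of_card (n := 1)
      rw [Nat.card_zpowers, hu, pow_one]
    obtain ⟨R', hR'⟩ := h1.exists_le_sylow
    obtain ⟨a, ha⟩ := MulAction.exists_smul_eq G R' R
    refine ⟨a, ?_⟩
    rw [← ha, Sylow.coe_subgroup_smul]
    rw [Subgroup.mem_pointwise_smul_iff_inv_smul_mem]
    have : (MulAut.conj a)⁻¹ • (a * u * a⁻¹) = u := by
      simp [MulAut.smul_def, MulAut.conj_apply, map_inv]
      group
    rw [this]
    exact hR' (Subgroup.mem_zpowers u)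
  obtain ⟨a, ha⟩ := hconj T s hs
  obtain ⟨b, hb⟩ := hconj T' t ht
  set s' := a * s * a⁻¹ with hs'
  set t' := b * t * b⁻¹ with ht'
  have hs'o : orderOf s' = 2 := by
    rw [hs', ← MulAut.conj_apply, MulEquiv.orderOf_eq, hs]
  have ht'o : orderOf t' = 2 := by
    rw [ht', ← MulAut.conj_apply, MulEquiv.orderOf_eq, ht]
  have hss := Cfsg.Agent.H01.mul_self_of_order_two hs'o
  have htt := Cfsg.Agent.H01.mul_self_of_order_two ht'o
  have hmain : IsConj s' t' := by
    rcases Nat.even_or_odd (orderOf (s' * t')) with he | ho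
    · exfalso
      obtain ⟨hz, hzs, hzt⟩ := Cfsg.Agent.H01.central_of_even hss htt he
      set z := (s' * t') ^ (orderOf (s' * t') / 2) with hzdef
      have hzz := Cfsg.Agent.H01.mul_self_of_order_two hz
      -- if `u ∈ R` is an involution commuting with the involution `z`, then `z ∈ R`
      have key : ∀ (R : Sylow 2 G) (u : G), orderOf u = 2 → u ∈ (R : Subgroup G) → Commute z u →
          z ∈ (R : Subgroup G) := by
        intro R u hu huR hc
        have huu := Cfsg.Agent.H01.mul_self_of_order_two hu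
        have h1 : (z * u) ^ 2 ^ 1 = 1 := by
          rw [pow_one, pow_two]
          calc z * u * (z * u) = z * (u * z) * u := by group
            _ = z * (z * u) * u := by rw [hc.eq.symm]
            _ = (z * z) * (u * u) := by group
            _ = 1 := by rw [hzz, huu, one_mul]
        have h2 := Cfsg.Agent.H01.isPGroup_closure_pair hzz huu 1 h1
        obtain ⟨R', hR'⟩ := h2.exists_le_sylow
        have h3 : R' = R := by
          by_contra hne
          have h4 := hti R' R hne
          have h5 : u ∈ (R' : Subgroup G) ⊓ (R : Subgroup G) :=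
            ⟨hR' Cfsg.Agent.H01.right_mem_closure, huR⟩
          rw [h4, Subgroup.mem_bot] at h5
          rw [h5] at hu
          simp at hu
        rw [← h3]
        exact hR' Cfsg.Agent.H01.left_mem_closure
      have h1 := key T s' hs'o ha hzs
      have h2 := key T' t' ht'o hb hzt
      have h3 := hti T' T hT'
      have h4 : z ∈ (T' : Subgroup G) ⊓ (T : Subgroup G) := ⟨h2, h1⟩
      rw [h3, Subgroup.mem_bot] at h4
      rw [h4] at hz
      simp at hz
    · obtain ⟨d, -, hd⟩ := Cfsg.Agent.H01.exists_conj_of_odd hss htt ho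
      exact isConj_iff.mpr ⟨d, hd⟩
  have h1 : IsConj s s' := isConj_iff.mpr ⟨a, rfl⟩
  have h2 : IsConj t t' := isConj_iff.mpr ⟨b, rfl⟩
  exact h1.trans (hmain.trans h2.symm)


end Cfsg.Agent.S0231
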