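import Mathlib
import Cfsg.Agent.Lib.H01.SimpleEmb
import Cfsg.Agent.S0233
import Cfsg.Agent.S0219
import Cfsg.Statements.S0232
-- import your own Cfsg.Agent.* helpers here

set_option autoImplicit false
open Cfsg

namespace Cfsg.Agent.S0232

universe u

theorem index_two_case {G : Type*} [Group G] [Finite G] {H : Subgroup G} (hH : H.index = 2)
    (hgt : 2 < Nat.card G) : H ≠ ⊤ ∧ Nat.card G < (Nat.card H) ^ 3 := by
  have h1 := H.card_mul_index
  rw [hH] at h1
  constructor
  · rintro rfl
    simp at hH
  · have h2 : 2 ≤ Nat.card H := by omega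
    rw [← h1]
    have h3 : Nat.card H ^ 3 = Nat.card H * (Nat.card H * Nat.card H) := by ring
    rw [h3]
    have h4 : 4 ≤ Nat.card H * Nat.card H := by nlinarith
    nlinarith

theorem aux (k : ℕ) : ∀ {G : Type u} [Group G] [Finite G], Nat.card G = k → Even (Nat.card G) →
    2 < Nat.card G → ∃ H : Subgroup G, H ≠ ⊤ ∧ Nat.card G < (Nat.card H) ^ 3 := by
  induction k using Nat.strong_induction_on with
  | _ k ih =>
  intro G _ _ hk heven hgt
  classical
  haveI : Fact (Nat.Prime 2) := ⟨Nat.prime_two⟩
  by_cases hZ : Odd (Nat.card (Subgroup.center G))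
  · -- odd centre
    have hnc : ∀ t : G, orderOf t = 2 → Subgroup.centralizer ({t} : Set G) ≠ ⊤ := by
      intro x hxo h
      have hxz : x ∈ Subgroup.center G := by
        rw [Subgroup.mem_center_iff]
        intro g
        have : g ∈ Subgroup.centralizer ({x} : Set G) := by rw [h]; trivial
        exact (Subgroup.mem_centralizer_iff.mp this x rfl).symm
      have h3 : orderOf (⟨x, hxz⟩ : Subgroup.center G) ∣ Nat.card (Subgroup.center G) := orderOf_dvd_natCard _
      rw [Subgroup.orderOf_mk, hxo] at h3
      rcases hZ with ⟨k, hk⟩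
      omega
    by_cases hA : ∃ t : G, orderOf t = 2 ∧ Nat.card G < Nat.card (Subgroup.centralizer ({t} : Set G)) ^ 3
    · obtain ⟨t, ht, h⟩ := hA
      exact ⟨_, hnc t ht, h⟩
    · push Not at hA
      obtain ⟨t₀, ht₀⟩ := exists_prime_orderOf_dvd_card' (G := G) 2 heven.two_dvd
      have h1 := Cfsg.Agent.H01.card_le_mul_card_inv ht₀
      have h2 := hA t₀ ht₀
      obtain ⟨H, hH, hcase⟩ := Cfsg.Agent.S0233.result heven hZ
      rcases hcase with h3 | hineq
      · exact ⟨H, (index_two_case h3 hgt)⟩
      · refine ⟨H, hH, ?_⟩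
        by_contra hcon
        push Not at hcon
        set N := Nat.card (Subgroup.centralizer ({t₀} : Set G))
        set n := Nat.card {s : G // orderOf s = 2}
        set g := Nat.card G with hg
        set m := H.index
        set h := Nat.card H
        have hgpos : 0 < g := Nat.card_pos
        have hhm : h * m = g := H.card_mul_index
        have hng : n ≤ g := Nat.card_le_card_of_injective (fun s : {s : G // orderOf s = 2} => (s : G)) Subtype.val_injective
        -- g² ≤ n³
        have hn3 : g ^ 2 ≤ n ^ 3 := by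
          have : g ^ 3 ≤ (N * n) ^ 3 := Nat.pow_le_pow_left h1 3
          rw [mul_pow] at this
          have h5 : N ^ 3 * n ^ 3 ≤ g * n ^ 3 := Nat.mul_le_mul_right _ h2
          have h6 : g * g ^ 2 ≤ g * n ^ 3 := by
            calc g * g ^ 2 = g ^ 3 := by ring
              _ ≤ _ := this.trans h5
          exact Nat.le_of_mul_le_mul_left h6 hgpos
        have hm3 : g ^ 2 ≤ m ^ 3 := by
          have h5 : g ^ 3 = h ^ 3 * m ^ 3 := by rw [← hhm]; ring
          have h6 : h ^ 3 * m ^ 3 ≤ g * m ^ 3 := Nat.mul_le_mul_right _ hcon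
          have h7 : g * g ^ 2 ≤ g * m ^ 3 := by
            calc g * g ^ 2 = g ^ 3 := by ring
              _ = h ^ 3 * m ^ 3 := h5
              _ ≤ _ := h6
          exact Nat.le_of_mul_le_mul_left h7 hgpos
        have hlt : m * n ^ 2 < g ^ 2 := by
          have h5 : g * (g + n) ≤ 2 * g ^ 2 := by nlinarith
          have h6 : 2 * m * n ^ 2 = 2 * (m * n ^ 2) := by ring
          omega
        have h5 : (g ^ 2) ^ 3 ≤ (m * n ^ 2) ^ 3 := by
          have h6 : (g ^ 2) ^ 3 = g ^ 2 * (g ^ 2) ^ 2 := by ring
          have h7 : (m * n ^ 2) ^ 3 = m ^ 3 * (n ^ 3) ^ 2 := by ring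
          rw [h6, h7]
          exact Nat.mul_le_mul hm3 (Nat.pow_le_pow_left hn3 2)
        have h6 : (m * n ^ 2) ^ 3 < (g ^ 2) ^ 3 := Nat.pow_lt_pow_left hlt (by norm_num)
        omega
  · -- even centre
    rw [Nat.not_odd_iff_even] at hZ
    obtain ⟨z, hz⟩ := exists_prime_orderOf_dvd_card' (G := Subgroup.center G) 2 hZ.two_dvd
    have hz' : orderOf (z : G) = 2 := by rw [Subgroup.orderOf_coe]; exact hz
    let T : Subgroup G := Subgroup.zpowers (z : G)
    have hTc : Nat.card T = 2 := by rw [Nat.card_zpowers, hz']
    haveI hTn : T.Normal := by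
      refine ⟨fun n hn g => ?_⟩
      obtain ⟨k, hk'⟩ := hn
      have hk : (z : G) ^ k = n := hk'
      have hc : Commute g (z : G) := (Subgroup.mem_center_iff.mp z.2 g)
      have h2 : g * n * g⁻¹ = n := by
        rw [← hk, (hc.zpow_right k).eq]; group
      rw [h2]
      exact ⟨k, hk⟩
    have hQ : Nat.card (G ⧸ T) * 2 = Nat.card G := by
      have h1 := T.card_mul_index
      rw [hTc] at h1
      have h2 : T.index = Nat.card (G ⧸ T) := rfl
      rw [← h2, ← h1]; ring
    by_cases hQo : Odd (Nat.card (G ⧸ T))
    · -- index-two subgroup from a Sylow subgroup of order 2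
      obtain ⟨P⟩ : Nonempty (Sylow 2 G) := inferInstance
      obtain ⟨j, hj⟩ := IsPGroup.iff_card.mp P.isPGroup'
      have hP : Nat.card (P : Subgroup G) = 2 := by
        have h1 := (P : Subgroup G).card_mul_index
        have h2 := P.not_dvd_index
        have hj1 : j ≤ 1 := by
          by_contra hcon
          push Not at hcon
          obtain ⟨i, rfl⟩ : ∃ i, j = i + 2 := ⟨j - 2, by omega⟩
          rw [hj, ← hQ] at h1
          obtain ⟨q, hq⟩ := hQo
          have h9 : 2 ^ (i + 2) * (P : Subgroup G).index = 4 * (2 ^ i * (P : Subgroup G).index) := by ring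
          rw [h9, hq] at h1
          omega
        interval_cases j
        · exfalso
          apply h2
          rw [hj] at h1
          simp only [pow_zero, one_mul] at h1
          rw [h1, ← hQ]
          simp
        · simpa using hj
      haveI : Fact (Nat.card (P : Subgroup G)).Prime := ⟨by rw [hP]; exact Nat.prime_two⟩
      haveI : IsCyclic (P : Subgroup G) := isCyclic_of_prime_card rfl
      obtain ⟨H, hH⟩ := Cfsg.Agent.S0219.result heven P inferInstance
      exact ⟨H, index_two_case hH hgt⟩
    · rw [Nat.not_odd_iff_even] at hQo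
      by_cases hQ2 : Nat.card (G ⧸ T) = 2
      · refine ⟨T, ?_, ?_⟩
        · rintro h
          rw [h, Subgroup.card_top] at hTc
          omega
        · rw [hTc, ← hQ, hQ2]; norm_num
      · have hQ3 : 2 < Nat.card (G ⧸ T) := by
          have h1 : 0 < Nat.card (G ⧸ T) := Nat.card_pos
          obtain ⟨q, hq⟩ := hQo
          omega
        have hlt : Nat.card (G ⧸ T) < k := by
          rw [← hk, ← hQ]; omega
        obtain ⟨Hb, hHb, hbound⟩ := ih _ hlt rfl hQo hQ3
        let π : G →* G ⧸ T := QuotientGroup.mk' T
        have hπ : Function.Surjective π := QuotientGroup.mk'_surjective T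
        refine ⟨Hb.comap π, ?_, ?_⟩
        · intro h
          apply hHb
          rw [eq_top_iff]
          intro q _
          obtain ⟨g, rfl⟩ := hπ q
          have : g ∈ Hb.comap π := by rw [h]; trivial
          exact this
        · have h1 := (Hb.comap π).card_mul_index
          rw [Subgroup.index_comap_of_surjective _ hπ] at h1
          have h2 := Hb.card_mul_index
          have hidx : 0 < Hb.index := Nat.pos_of_ne_zero Subgroup.index_ne_zero_of_finite
          have h3 : Nat.card (Hb.comap π) = 2 * Nat.card Hb := by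
            apply Nat.eq_of_mul_eq_mul_right hidx
            rw [h1, ← hQ, ← h2]; ring
          rw [h3, ← hQ]
          set b := Nat.card Hb
          have : (2 * b) ^ 3 = 8 * b ^ 3 := by ring
          rw [this]
          omega


/-- A finite group G of even order greater than 2 has a proper subgroup H with |G| < |H|^3. -/
theorem result {G : Type*} [Group G] [Finite G] (heven : Even (Nat.card G)) (hgt : 2 < Nat.card G) : ∃ H : Subgroup G, H ≠ ⊤ ∧ Nat.card G < (Nat.card H) ^ 3 := by

  exact aux _ rfl heven hgt


end Cfsg.Agent.S0232
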