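import Mathlib
import Cfsg.Agent.Lib.H01.SimpleEmb
import Cfsg.Agent.Lib.Lead.Burnside
import Cfsg.Agent.S0233
import Cfsg.Statements.S0234
-- import your own Cfsg.Agent.* helpers here

set_option autoImplicit false
open Cfsg

namespace Cfsg.Agent.S0234

set_option maxRecDepth 100000 in
theorem count_A5 : (Finset.univ.filter (fun σ : Equiv.Perm (Fin 5) => σ * σ = 1 ∧ σ ≠ 1 ∧ Equiv.Perm.sign σ = 1)).card = 15 := by
  decide +kernel


/-- In a finite simple group G of even order greater than 2, the number n of involutions satisfies 3n < |G|. -/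
theorem result {G : Type*} [Group G] [Finite G] [IsSimpleGroup G] (heven : Even (Nat.card G)) (hgt : 2 < Nat.card G) : 3 * Nat.card {t : G // orderOf t = 2} < Nat.card G := by

  classical
  haveI := Fintype.ofFinite G
  haveI : Fact (Nat.Prime 2) := ⟨Nat.prime_two⟩
  by_contra hcon
  push Not at hcon
  obtain ⟨t₀, ht₀⟩ := exists_prime_orderOf_dvd_card' (G := G) 2 heven.two_dvd
  -- the centre is trivial
  have hZn : (Subgroup.center G).Normal := inferInstance
  have hZ : Subgroup.center G = ⊥ := by
    rcases hZn.eq_bot_or_eq_top with h | h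
    · exact h
    · exfalso
      have hT : (Subgroup.zpowers t₀).Normal := by
        refine ⟨fun n hn g => ?_⟩
        have hng : n ∈ Subgroup.center G := by rw [h]; trivial
        have := (Subgroup.mem_center_iff.mp hng g)
        rw [this, mul_inv_cancel_right]
        exact hn
      rcases hT.eq_bot_or_eq_top with h1 | h1
      · rw [Subgroup.zpowers_eq_bot] at h1
        rw [h1] at ht₀; simp at ht₀
      · have := Nat.card_zpowers t₀
        rw [h1, Subgroup.card_top, ht₀] at this
        omega
  have hnotsolv : ¬ Group.IsSolvable G := by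
    intro hs
    have h1 := (IsSimpleGroup.comm_iff_isSolvable (G := G)).mpr hs
    have h2 : t₀ ∈ Subgroup.center G := by
      rw [Subgroup.mem_center_iff]
      intro g; exact h1 g t₀
    rw [hZ, Subgroup.mem_bot] at h2
    rw [h2] at ht₀; simp at ht₀
  have hZo : Odd (Nat.card (Subgroup.center G)) := by
    rw [hZ, Subgroup.card_bot]; exact odd_one
  obtain ⟨H, hH, hcase⟩ := Cfsg.Agent.S0233.result heven hZo
  have hm : H.index < 6 := by
    rcases hcase with h2 | hineq
    · exfalso
      haveI := Subgroup.normal_of_index_eq_two h2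
      have hHn : H.Normal := inferInstance
      rcases hHn.eq_bot_or_eq_top with h3 | h3
      · rw [h3, Subgroup.index_bot] at h2
        omega
      · exact hH h3
    · set n := Nat.card {t : G // orderOf t = 2}
      set g := Nat.card G
      have hnpos : 0 < n := by
        have : Nonempty {s : G // orderOf s = 2} := ⟨⟨t₀, ht₀⟩⟩
        exact Nat.card_pos
      have h3 : g * (g + n) ≤ n * n * 12 := by
        have h4 : g * g ≤ (3 * n) * (3 * n) := Nat.mul_le_mul hcon hcon
        have h5 : g * n ≤ (3 * n) * n := Nat.mul_le_mul_right _ hcon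
        nlinarith
      have h4 : n * n * (2 * H.index) < n * n * 12 := by
        calc n * n * (2 * H.index) = 2 * H.index * n ^ 2 := by ring
          _ < g * (g + n) := hineq
          _ ≤ _ := h3
      have := Nat.lt_of_mul_lt_mul_left h4
      omega
  -- signs are trivial
  have hsign : ∀ {β : Type _} [Fintype β] [DecidableEq β] (ψ : G →* Equiv.Perm β), Function.Injective ψ →
      ∀ x, Equiv.Perm.sign (ψ x) = 1 := by
    intro β _ _ ψ hψ x
    let s : G →* ℤˣ := Equiv.Perm.sign.comp ψ
    rcases s.normal_ker.eq_bot_or_eq_top with h | h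
    · exfalso
      have hinj : Function.Injective s := (MonoidHom.ker_eq_bot_iff s).mp h
      have := Nat.card_le_card_of_injective s hinj
      have h2 : Nat.card ℤˣ = 2 := by rw [Nat.card_eq_fintype_card]; rfl
      omega
    · have : x ∈ s.ker := by rw [h]; trivial
      exact this
  let α := G ⧸ H
  haveI : Fintype α := Fintype.ofFinite _
  have hcα : Fintype.card α = H.index := by
    rw [← Nat.card_eq_fintype_card]; rfl
  let ψ : G →* Equiv.Perm α := MulAction.toPermHom G α
  have hψ : Function.Injective ψ := Cfsg.Agent.H01.toPermHom_injective_of_simple hH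
  have hle : ψ.range ≤ alternatingGroup α := by
    rintro _ ⟨x, rfl⟩
    exact Equiv.Perm.mem_alternatingGroup.mpr (hsign ψ hψ x)
  have hgr : Nat.card ψ.range = Nat.card G := (Nat.card_congr (MonoidHom.ofInjective hψ).toEquiv).symm
  have hdvd : Nat.card G ∣ Nat.card (alternatingGroup α) := by
    rw [← hgr]; exact Subgroup.card_dvd_of_le hle
  have hm1 : 1 < H.index := by
    have h0 : H.index ≠ 0 := Subgroup.index_ne_zero_of_finite
    have h1 : H.index ≠ 1 := by
      intro h; exact hH (Subgroup.index_eq_one.mp h)
    omega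
  haveI : Nontrivial α := by
    rw [← Fintype.one_lt_card_iff_nontrivial, hcα]; exact hm1
  have hcA : Nat.card (alternatingGroup α) * 2 = Nat.factorial H.index := by
    rw [Nat.card_eq_fintype_card, mul_comm, two_mul_card_alternatingGroup, Fintype.card_perm, hcα]
  -- now the arithmetic
  have hA : Nat.card (alternatingGroup α) = 1 ∨ Nat.card (alternatingGroup α) = 3 ∨
      Nat.card (alternatingGroup α) = 12 ∨ (H.index = 5 ∧ Nat.card (alternatingGroup α) = 60) := by
    generalize Nat.card (alternatingGroup α) = A at hcA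
    generalize H.index = m at hcA hm hm1
    interval_cases m <;> norm_num [Nat.factorial] at hcA ⊢ <;> omega
  have h60 : Nat.card G ∣ 60 := by
    rcases hA with h | h | h | ⟨-, h⟩ <;> rw [h] at hdvd <;> exact hdvd.trans (by norm_num)
  have hb : ∀ p q a b : ℕ, p.Prime → q.Prime → Nat.card G = p ^ a * q ^ b → False :=
    fun p q a b hp hq h => hnotsolv (Cfsg.Agent.Lead.burnside_two_prime p q a b hp hq h)
  have key : ∀ g ∈ Finset.range 61, g ∣ 60 → 2 < g → g ≠ 30 → g ≠ 60 →
      g = 3 ∨ g = 4 ∨ g = 5 ∨ g = 6 ∨ g = 10 ∨ g = 12 ∨ g = 15 ∨ g = 20 := by decide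
  have hg : Nat.card G = 30 ∨ Nat.card G = 60 := by
    by_contra hne
    push Not at hne
    have h1 : Nat.card G ∈ Finset.range 61 :=
      Finset.mem_range.mpr (Nat.lt_succ_of_le (Nat.le_of_dvd (by norm_num) h60))
    rcases key _ h1 h60 hgt hne.1 hne.2 with h | h | h | h | h | h | h | h
    · exact hb 3 2 1 0 (by norm_num) (by norm_num) (by rw [h]; norm_num)
    · exact hb 2 3 2 0 (by norm_num) (by norm_num) (by rw [h]; norm_num)
    · exact hb 5 2 1 0 (by norm_num) (by norm_num) (by rw [h]; norm_num)
    · exact hb 2 3 1 1 (by norm_num) (by norm_num) (by rw [h]; norm_num)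
    · exact hb 2 5 1 1 (by norm_num) (by norm_num) (by rw [h]; norm_num)
    · exact hb 2 3 2 1 (by norm_num) (by norm_num) (by rw [h]; norm_num)
    · exact hb 3 5 1 1 (by norm_num) (by norm_num) (by rw [h]; norm_num)
    · exact hb 2 5 2 1 (by norm_num) (by norm_num) (by rw [h]; norm_num)
  have hm5 : H.index = 5 := by
    rcases hA with h | h | h | ⟨h, -⟩
    · exfalso; rw [h] at hdvd
      have := Nat.le_of_dvd (by norm_num) hdvd
      omega
    · exfalso; rw [h] at hdvd
      have := Nat.le_of_dvd (by norm_num) hdvd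
      omega
    · exfalso; rw [h] at hdvd
      have := Nat.le_of_dvd (by norm_num) hdvd
      omega
    · exact h
  let e : α ≃ Fin 5 := Fintype.equivFinOfCardEq (hcα.trans hm5)
  let ψ' : G →* Equiv.Perm (Fin 5) := (Equiv.permCongrHom e).toMonoidHom.comp ψ
  have hψ' : Function.Injective ψ' := (Equiv.permCongrHom e).injective.comp hψ
  have hs' : ∀ x, Equiv.Perm.sign (ψ' x) = 1 :=
    fun x => (Equiv.Perm.sign_permCongr e (ψ x)).trans (hsign ψ hψ x)
  have hn15 : Nat.card {t : G // orderOf t = 2} ≤ 15 := by
    rw [← count_A5, Nat.card_eq_fintype_card, Fintype.card_subtype]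
    apply Finset.card_le_card_of_injOn ψ'
    · intro t ht
      have ht2 : orderOf t = 2 := by simpa using ht
      have htt : t * t = 1 := by rw [← pow_two, ← ht2, pow_orderOf_eq_one]
      have ht1 : t ≠ 1 := by rintro rfl; simp at ht2
      simp only [Finset.coe_filter, Finset.mem_univ, true_and, Set.mem_setOf_eq]
      refine ⟨by rw [← map_mul, htt, map_one], ?_, hs' t⟩
      intro h
      exact ht1 (hψ' (h.trans (map_one ψ').symm))
    · intro a _ b _ h
      exact hψ' h
  have hg30 : Nat.card G = 30 := by
    rcases hg with h | h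
    · exact h
    · omega
  -- an index-two subgroup of `A₅`
  let A5 := alternatingGroup (Fin 5)
  let R : Subgroup (Equiv.Perm (Fin 5)) := ψ'.range
  have hRle : R ≤ A5 := by
    rintro _ ⟨x, rfl⟩
    exact Equiv.Perm.mem_alternatingGroup.mpr (hs' x)
  have hRc : Nat.card R = 30 := by
    rw [← hg30]
    exact (Nat.card_congr (MonoidHom.ofInjective hψ').toEquiv).symm
  have hAc : Nat.card A5 = 60 := by
    have h1 := two_mul_nat_card_alternatingGroup (α := Fin 5)
    have h2 : Nat.card (Equiv.Perm (Fin 5)) = 120 := by
      rw [Nat.card_eq_fintype_card, Fintype.card_perm]; rfl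
    rw [h2] at h1
    show Nat.card (alternatingGroup (Fin 5)) = 60
    omega
  let R' : Subgroup A5 := R.subgroupOf A5
  have hR'c : Nat.card R' = 30 := by
    rw [← hRc]
    exact Nat.card_congr (Subgroup.subgroupOfEquivOfLe hRle).toEquiv
  have hidx : R'.index = 2 := by
    have h1 := R'.card_mul_index
    rw [hR'c, hAc] at h1
    omega
  have hnorm : R'.Normal := Subgroup.normal_of_index_eq_two hidx
  haveI : IsSimpleGroup A5 := alternatingGroup.isSimpleGroup_five
  rcases hnorm.eq_bot_or_eq_top with h | h
  · rw [h, Subgroup.card_bot] at hR'c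
    omega
  · rw [h, Subgroup.card_top, hAc] at hR'c
    omega


end Cfsg.Agent.S0234
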