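import Mathlib
import Cfsg.Agent.Lib.H01.Invol
import Cfsg.Statements.S0235
-- import your own Cfsg.Agent.* helpers here

set_option autoImplicit false
open Cfsg

namespace Cfsg.Agent.S0235


/-- If x² ≠ 1, the ordered pairs (u, v) of involutions with uv = x correspond bijectively to the involutions t with t x t⁻¹ = x⁻¹ (via (u, v) ↦ u), so the two counts agree. -/
theorem result {G : Type*} [Group G] [Finite G] (x : G) (hx : x ^ 2 ≠ 1) : Nat.card {p : G × G // orderOf p.1 = 2 ∧ orderOf p.2 = 2 ∧ p.1 * p.2 = x} = Nat.card {t : G // orderOf t = 2 ∧ t * x * t⁻¹ = x⁻¹} := by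
  classical
  refine Nat.card_congr
    { toFun := fun p => ⟨p.1.1, p.2.1, ?_⟩
      invFun := fun t => ⟨(t.1, t.1 * x), t.2.1, ?_, ?_⟩
      left_inv := ?_
      right_inv := ?_ }
  · obtain ⟨⟨u, v⟩, hu, hv, huv⟩ := p
    have huu := Cfsg.Agent.H01.mul_self_of_order_two hu
    have hvv := Cfsg.Agent.H01.mul_self_of_order_two hv
    simp only at hu hv huv ⊢
    rw [← huv]
    exact Cfsg.Agent.H01.conj_left huu hvv
  · obtain ⟨t, ht, htx⟩ := t
    have htt := Cfsg.Agent.H01.mul_self_of_order_two ht
    apply Cfsg.Agent.H01.order_two_of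
    · simp only
      have hti := Cfsg.Agent.H01.inv_of_mul_self htt
      rw [hti] at htx
      calc t * x * (t * x) = (t * x * t) * x := by group
        _ = 1 := by rw [htx]; group
    · simp only
      intro h
      apply hx
      have h1 : x = t⁻¹ := by
        have : t * x = t * t⁻¹ := by rw [h, mul_inv_cancel]
        exact mul_left_cancel this
      rw [h1, Cfsg.Agent.H01.inv_of_mul_self htt, pow_two, htt]
  · obtain ⟨t, ht, htx⟩ := t
    have htt := Cfsg.Agent.H01.mul_self_of_order_two ht
    simp only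
    rw [← mul_assoc, htt, one_mul]
  · rintro ⟨⟨u, v⟩, hu, hv, huv⟩
    simp only at hu hv huv
    apply Subtype.ext
    simp only [Prod.mk.injEq, true_and]
    rw [← huv, ← mul_assoc, Cfsg.Agent.H01.mul_self_of_order_two hu, one_mul]
  · rintro ⟨t, ht, htx⟩
    rfl


end Cfsg.Agent.S0235
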