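import Mathlib
import Cfsg.Agent.Lib.H01.Invol
import Cfsg.Statements.S0239
-- import your own Cfsg.Agent.* helpers here

set_option autoImplicit false
open Cfsg

namespace Cfsg.Agent.S0239


/-- If some nontrivial element x of a finite group G is conjugate to x⁻¹, then |G| is even. -/
theorem result {G : Type*} [Group G] [Finite G] (x : G) (hx : x ≠ 1) (hreal : IsConj x x⁻¹) : Even (Nat.card G) := by
  by_contra hne
  rw [Nat.not_even_iff_odd] at hne
  obtain ⟨g, hg⟩ := isConj_iff.mp hreal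
  obtain ⟨m, hm⟩ := hne
  have hg2 : g * g * x * (g * g)⁻¹ = x := by
    calc g * g * x * (g * g)⁻¹ = g * (g * x * g⁻¹) * g⁻¹ := by group
      _ = g * x⁻¹ * g⁻¹ := by rw [hg]
      _ = (g * x * g⁻¹)⁻¹ := by group
      _ = x := by rw [hg, inv_inv]
  have hpow : ∀ k : ℕ, (g * g) ^ k * x * ((g * g) ^ k)⁻¹ = x := by
    intro k
    induction k with
    | zero => simp
    | succ k ih =>
      rw [pow_succ]
      calc (g * g) ^ k * (g * g) * x * ((g * g) ^ k * (g * g))⁻¹
          = (g * g) ^ k * ((g * g) * x * (g * g)⁻¹) * ((g * g) ^ k)⁻¹ := by group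
        _ = x := by rw [hg2, ih]
  have hgg : (g * g) ^ (m + 1) = g := by
    rw [← pow_two, ← pow_mul]
    have : 2 * (m + 1) = Nat.card G + 1 := by omega
    rw [this, pow_succ, pow_card_eq_one', one_mul]
  have h1 := hpow (m + 1)
  rw [hgg, hg] at h1
  -- `x = x⁻¹`
  have h2 : x ^ 2 = 1 := by
    rw [pow_two]
    nth_rw 1 [← h1]
    exact inv_mul_cancel x
  have h3 : orderOf x ∣ 2 := orderOf_dvd_of_pow_eq_one h2
  have h4 : orderOf x ∣ Nat.card G := orderOf_dvd_natCard x
  have hc : Nat.Coprime 2 (Nat.card G) := Nat.coprime_two_left.mpr ⟨m, hm⟩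
  have h5 := Nat.eq_one_of_dvd_coprimes hc h3 h4
  exact hx (orderOf_eq_one_iff.mp h5)


end Cfsg.Agent.S0239
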