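import Mathlib
import Cfsg.Agent.Lib.H01.Invol
import Cfsg.Statements.S0240
-- import your own Cfsg.Agent.* helpers here

set_option autoImplicit false
open Cfsg

namespace Cfsg.Agent.S0240


/-- Let G be a finite group with n involutions and H a subgroup with |H|·(n+1) > |G|. Then some nontrivial h ∈ H is strongly real in G: an involution t of G satisfies t h t⁻¹ = h⁻¹. -/
theorem result {G : Type*} [Group G] [Finite G] (H : Subgroup G) (hH : Nat.card G < Nat.card H * (Nat.card {t : G // orderOf t = 2} + 1)) : ∃ h : G, h ∈ H ∧ h ≠ 1 ∧ ∃ t : G, orderOf t = 2 ∧ t * h * t⁻¹ = h⁻¹ := by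
  classical
  haveI := Fintype.ofFinite G
  haveI := Fintype.ofFinite H
  -- the set of involutions together with the identity
  let I : Type _ := Option {t : G // orderOf t = 2}
  let τ : I → G := fun o => o.elim 1 (fun t => t.1)
  have hcardI : Nat.card I = Nat.card {t : G // orderOf t = 2} + 1 := by
    simp [I, Nat.card_eq_fintype_card]
  have hτinj : Function.Injective τ := by
    intro a b h
    rcases a with _ | a <;> rcases b with _ | b
    · rfl
    · exfalso
      have hb := b.2
      have : (1 : G) = b.1 := h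
      rw [← this] at hb
      simp at hb
    · exfalso
      have ha := a.2
      have : a.1 = (1 : G) := h
      rw [this] at ha
      simp at ha
    · exact congrArg some (Subtype.ext h)
  have hlt : Nat.card G < Nat.card (H × I) := by
    rw [Nat.card_prod, hcardI]
    exact hH
  have hnotinj : ¬ Function.Injective (fun p : H × I => (p.1 : G) * τ p.2) := by
    intro hinj
    exact absurd (Nat.card_le_card_of_injective _ hinj) (not_le.mpr hlt)
  simp only [Function.Injective, not_forall] at hnotinj
  obtain ⟨⟨h₁, a⟩, ⟨h₂, b⟩, heq, hne⟩ := hnotinj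
  simp only at heq
  have hab : a ≠ b := by
    rintro rfl
    apply hne
    have : (h₁ : G) = h₂ := mul_right_cancel heq
    rw [Subtype.ext this]
  have hτab : τ a ≠ τ b := fun h => hab (hτinj h)
  have hiv : ∀ o : I, τ o * τ o = 1 := by
    intro o
    rcases o with _ | o
    · simp [τ]
    · exact Cfsg.Agent.H01.mul_self_of_order_two o.2
  have hz0 : (h₂ : G)⁻¹ * h₁ = τ b * τ a := by
    rw [inv_mul_eq_iff_eq_mul]
    calc (h₁ : G) = h₁ * (τ a * τ a) := by rw [hiv, mul_one]
      _ = (h₁ * τ a) * τ a := by group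
      _ = (h₂ * τ b) * τ a := by rw [heq]
      _ = h₂ * (τ b * τ a) := by group
  have hzH : τ b * τ a ∈ H := by
    rw [← hz0]
    exact H.mul_mem (H.inv_mem h₂.2) h₁.2
  have hz1 : τ b * τ a ≠ 1 := by
    intro h
    apply hτab
    have h1 : τ a = (τ b)⁻¹ := eq_inv_of_mul_eq_one_right h
    rw [h1, Cfsg.Agent.H01.inv_of_mul_self (hiv b)]
  refine ⟨τ b * τ a, hzH, hz1, ?_⟩
  rcases a with _ | a
  · -- `a` is the identity
    have hb : τ b * 1 = τ b := mul_one _
    have h1 : τ none = (1 : G) := rfl
    rw [h1, mul_one] at hz1 ⊢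
    refine ⟨τ b, Cfsg.Agent.H01.order_two_of (hiv b) hz1, ?_⟩
    rw [Cfsg.Agent.H01.inv_of_mul_self (hiv b)]
    rw [hiv b, one_mul]
  · refine ⟨a.1, a.2, ?_⟩
    exact Cfsg.Agent.H01.conj_right (hiv b) (hiv (some a))

end Cfsg.Agent.S0240
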