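import Mathlib
import Cfsg.Agent.Lib.H01.Invol
import Cfsg.Statements.S0241
-- import your own Cfsg.Agent.* helpers here

set_option autoImplicit false
open Cfsg

namespace Cfsg.Agent.S0241


/-- If x ≠ 1 is conjugate to x⁻¹ in a finite group G and |C_G(x)| is odd, then some involution t satisfies t x t⁻¹ = x⁻¹. -/
theorem result {G : Type*} [Group G] [Finite G] (x : G) (hx : x ≠ 1) (hreal : IsConj x x⁻¹) (hodd : Odd (Nat.card (Subgroup.centralizer ({x} : Set G)))) : ∃ t : G, orderOf t = 2 ∧ t * x * t⁻¹ = x⁻¹ := by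
  classical
  obtain ⟨g, hg⟩ := isConj_iff.mp hreal
  have hg2 : g * g * x * (g * g)⁻¹ = x := by
    calc g * g * x * (g * g)⁻¹ = g * (g * x * g⁻¹) * g⁻¹ := by group
      _ = g * x⁻¹ * g⁻¹ := by rw [hg]
      _ = (g * x * g⁻¹)⁻¹ := by group
      _ = x := by rw [hg, inv_inv]
  have hgc : g * g ∈ Subgroup.centralizer ({x} : Set G) := by
    rw [Subgroup.mem_centralizer_iff]
    intro y hy
    rw [show y = x from hy]
    calc x * (g * g) = (g * g * x * (g * g)⁻¹) * (g * g) := by rw [hg2]
      _ = g * g * x := by group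
  -- `x` is not an involution
  have hxx : x * x ≠ 1 := by
    intro h
    have h1 : orderOf x = 2 := Cfsg.Agent.H01.order_two_of h hx
    have h2 : x ∈ Subgroup.centralizer ({x} : Set G) := by
      rw [Subgroup.mem_centralizer_iff]
      intro y hy
      rw [show y = x from hy]
    have h3 : orderOf x ∣ Nat.card (Subgroup.centralizer ({x} : Set G)) := Subgroup.orderOf_dvd_natCard _ h2
    rw [h1] at h3
    exact (Nat.not_even_iff_odd.mpr hodd) (even_iff_two_dvd.mpr h3)
  have hoddgg : Odd (orderOf (g * g)) := by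
    have h3 : orderOf (g * g) ∣ Nat.card (Subgroup.centralizer ({x} : Set G)) := Subgroup.orderOf_dvd_natCard _ hgc
    exact Odd.of_dvd_nat hodd h3
  -- powers of `g` act by inversion or trivially
  have hpowodd : ∀ k : ℕ, g ^ (2 * k + 1) * x * (g ^ (2 * k + 1))⁻¹ = x⁻¹ := by
    intro k
    induction k with
    | zero => simpa using hg
    | succ k ih =>
      have h1 : g ^ (2 * (k + 1) + 1) = (g * g) * g ^ (2 * k + 1) := by
        rw [← pow_two, ← pow_add]
        congr 1
        ring
      rw [h1]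
      calc g * g * g ^ (2 * k + 1) * x * (g * g * g ^ (2 * k + 1))⁻¹
          = (g * g) * (g ^ (2 * k + 1) * x * (g ^ (2 * k + 1))⁻¹) * (g * g)⁻¹ := by group
        _ = (g * g) * x⁻¹ * (g * g)⁻¹ := by rw [ih]
        _ = (g * g * x * (g * g)⁻¹)⁻¹ := by
          generalize g * g = a
          group
        _ = x⁻¹ := by rw [hg2]
  -- the order of `g`
  obtain ⟨m, hm⟩ := hoddgg
  have h4 : g ^ (2 * (2 * m + 1)) = 1 := by
    rw [pow_mul, pow_two, ← hm, pow_orderOf_eq_one]
  -- `t = g ^ (2 m + 1)`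
  refine ⟨g ^ (2 * m + 1), ?_, hpowodd m⟩
  apply Cfsg.Agent.H01.order_two_of
  · rw [← pow_add, ← two_mul, h4]
  · intro h
    have h5 := hpowodd m
    rw [h] at h5
    simp only [one_mul, inv_one, mul_one] at h5
    apply hxx
    nth_rw 1 [h5]
    exact inv_mul_cancel x


end Cfsg.Agent.S0241
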