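import Cfsg.Statements.S0244
import Mathlib

set_option autoImplicit false
open Cfsg

namespace Cfsg.Agent.S0244
open Matrix
theorem det_two {R : Type*} [CommRing R] (A : Matrix (Fin 1 ⊕ Fin 1) (Fin 1 ⊕ Fin 1) R) :
    A.det = A (.inl 0) (.inl 0) * A (.inr 0) (.inr 0) - A (.inl 0) (.inr 0) * A (.inr 0) (.inl 0) := by
  have h := Matrix.det_submatrix_equiv_self (finSumFinEquiv (m := 1) (n := 1)).symm A
  rw [← h, Matrix.det_fin_two]
  rfl

theorem result {R : Type*} [CommRing R] (A : Matrix (Fin 1 ⊕ Fin 1) (Fin 1 ⊕ Fin 1) R) : A ∈ Matrix.symplecticGroup (Fin 1) R ↔ A.det = 1 := by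
  rw [SymplecticGroup.mem_iff, det_two]
  have hentry : ∀ (i j : Fin 1 ⊕ Fin 1), (A * J (Fin 1) R * Aᵀ) i j
      = (A (.inl 0) (.inl 0) * A (.inr 0) (.inr 0) - A (.inl 0) (.inr 0) * A (.inr 0) (.inl 0)) * J (Fin 1) R i j := by
    intro i j
    rcases i with i | i <;> rcases j with j | j <;> fin_cases i <;> fin_cases j <;>
      simp [Matrix.mul_apply, Fintype.sum_sum_type, J, Matrix.fromBlocks, Matrix.of_apply] <;> ring
  constructor
  · intro h
    have h1 := congrFun (congrFun h (.inr 0)) (.inl 0)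
    rw [hentry] at h1
    simpa [J] using h1
  · intro h
    ext i j
    rw [hentry, h, one_mul]
end Cfsg.Agent.S0244

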