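import Cfsg.Statements.S0247
import Cfsg.Agent.Lib.Lead.Sp42

set_option autoImplicit false
open Cfsg

namespace Cfsg.Agent.S0247

/-- Sp_4(2) is isomorphic to the symmetric group S_6. -/
theorem result {F : Type*} [Field F] [Fintype F] (hF : Fintype.card F = 2) : Nonempty (Matrix.symplecticGroup (Fin 2) F ≃* Equiv.Perm (Fin 6)) := by
  exact Cfsg.Agent.Lead.sp42_equiv_perm hF

end Cfsg.Agent.S0247
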