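import Cfsg.Statements.S0250
import Cfsg.Agent.Lib.Lead.PermEmb

set_option autoImplicit false
open Cfsg

namespace Cfsg.Agent.S0250

/-- SL_2(2) is isomorphic to S_3. -/
theorem result {F : Type*} [Field F] [Fintype F] (hF : Fintype.card F = 2) : Nonempty (Matrix.SpecialLinearGroup (Fin 2) F ≃* Equiv.Perm (Fin 3)) := by
  classical
  have h1 : (Fintype.card F - 1) * Nat.card (Matrix.SpecialLinearGroup (Fin 2) F) = _ :=
    Lead.card_SL (F := F) 2 (by norm_num)
  rw [hF, Fin.prod_univ_two] at h1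
  norm_num at h1
  refine Lead.sl_two_perm (F := F) 3 (by omega) ?_ ?_
  · rw [Lead.card_center_SL, hF]; simp
  · rw [Nat.card_eq_fintype_card, h1]; rfl

end Cfsg.Agent.S0250
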