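import Cfsg.Statements.S0251
import Cfsg.Agent.Lib.Lead.PermEmb

set_option autoImplicit false
open Cfsg

namespace Cfsg.Agent.S0251

/-- PSL_2(3) is isomorphic to A_4. -/
theorem result {F : Type*} [Field F] [Fintype F] (hF : Fintype.card F = 3) : Nonempty (Matrix.ProjectiveSpecialLinearGroup (Fin 2) F ≃* alternatingGroup (Fin 4)) := by
  classical
  have h1 := Lead.card_PSL (F := F) 2 (by norm_num)
  rw [hF, Fin.prod_univ_two] at h1
  norm_num at h1
  refine Lead.psl_two_alt (F := F) 4 (by omega) ?_
  rw [Nat.card_eq_fintype_card]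
  have : (Nat.factorial 4) = 24 := rfl
  rw [this]
  omega

end Cfsg.Agent.S0251
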