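import Cfsg.Statements.S0253
import Cfsg.Agent.Lib.Lead.CardSL
import Cfsg.Agent.Lib.H11.PSL2
import Cfsg.Agent.Lib.H02.SmallC

set_option autoImplicit false
open Cfsg

namespace Cfsg.Agent.S0253

/-- PSL_2(5) is isomorphic to A_5. -/
theorem result {F : Type*} [Field F] [Fintype F] (hF : Fintype.card F = 5) : Nonempty (Matrix.ProjectiveSpecialLinearGroup (Fin 2) F ≃* alternatingGroup (Fin 5)) := by
  have hs : IsSimpleGroup (Matrix.ProjectiveSpecialLinearGroup (Fin 2) F) :=
    Cfsg.Agent.H11.PSL_simple' 2 le_rfl (by rw [hF]; norm_num)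
  have hc : Nat.card (Matrix.ProjectiveSpecialLinearGroup (Fin 2) F) = 60 := by
    have h := Cfsg.Agent.Lead.card_PSL (F := F) 2 (by norm_num)
    rw [hF, Fin.prod_univ_two] at h
    generalize Nat.card (Matrix.ProjectiveSpecialLinearGroup (Fin 2) F) = N at h ⊢
    norm_num at h
    omega
  exact Cfsg.Agent.H02.simple_sixty hc

end Cfsg.Agent.S0253
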