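import Cfsg.Statements.S0262
import Cfsg.Agent.Lib.Lead.SL2Quat

set_option autoImplicit false
open Cfsg

namespace Cfsg.Agent.S0262

/-- For an odd prime r different from the characteristic, the Sylow r-subgroups of SL_2(q) are cyclic. -/
theorem result {F : Type*} [Field F] [Fintype F] (p : ℕ) [Fact p.Prime] [CharP F p] (r : ℕ) [Fact r.Prime] (hr : r ≠ 2) (hrp : r ≠ p) (R : Sylow r (Matrix.SpecialLinearGroup (Fin 2) F)) : IsCyclic (R : Subgroup (Matrix.SpecialLinearGroup (Fin 2) F)) := by
  exact Cfsg.Agent.Lead.sl2_sylow_cyclic p r hr hrp R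

end Cfsg.Agent.S0262
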