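import Cfsg.Statements.S0263
import Cfsg.Agent.Lib.Lead.FactorGL

set_option autoImplicit false
open Cfsg

namespace Cfsg.Agent.S0263

/-- A Sylow p-subgroup of GL_n(q), p the characteristic, has order q^(n(n-1)/2). -/
theorem result {F : Type*} [Field F] [Fintype F] {q : ℕ} (hF : Fintype.card F = q) (p : ℕ) [Fact p.Prime] [CharP F p] (n : ℕ) (P : Sylow p (Matrix.GeneralLinearGroup (Fin n) F)) : Nat.card P = q ^ (n * (n - 1) / 2) := by
  classical
  obtain ⟨f, hp, hq⟩ := FiniteField.card F p
  rw [hF] at hq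
  rw [Sylow.card_eq_multiplicity, Matrix.card_GL_field, hF,
    Lead.factorization_prod_GL p f q n hp f.ne_zero hq, hq, ← pow_mul]

end Cfsg.Agent.S0263
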