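import Cfsg.Statements.S0268
import Mathlib

set_option autoImplicit false
open Cfsg

namespace Cfsg.Agent.S0268

/-- For q odd, -1 is the unique involution of SL_2(q). -/
theorem result {F : Type*} [Field F] [Fintype F] (hF : Odd (Fintype.card F)) (g : Matrix.SpecialLinearGroup (Fin 2) F) (h1 : g ≠ 1) (h2 : g * g = 1) : (g : Matrix (Fin 2) (Fin 2) F) = -1 := by
  classical
  have h2ne : (2 : F) ≠ 0 := by
    apply Ring.two_ne_zero
    intro hc
    have := FiniteField.even_card_iff_char_two.1 hc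
    have h3 := Nat.odd_iff.1 hF
    omega
  have hdet : (g : Matrix (Fin 2) (Fin 2) F).det = 1 := g.2
  rw [Matrix.det_fin_two] at hdet
  have hm : (g : Matrix (Fin 2) (Fin 2) F) * (g : Matrix (Fin 2) (Fin 2) F) = 1 := by
    have := congrArg (fun x : Matrix.SpecialLinearGroup (Fin 2) F => (x : Matrix (Fin 2) (Fin 2) F)) h2
    simpa using this
  have h00 := congrFun (congrFun hm 0) 0
  have h01 := congrFun (congrFun hm 0) 1
  have h10 := congrFun (congrFun hm 1) 0
  have h11 := congrFun (congrFun hm 1) 1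
  simp [Matrix.mul_apply, Fin.sum_univ_two] at h00 h01 h10 h11
  have ht : (g : Matrix (Fin 2) (Fin 2) F) 0 0 + (g : Matrix (Fin 2) (Fin 2) F) 1 1 ≠ 0 := by
    intro h
    apply h2ne
    have : (2 : F) = (g : Matrix (Fin 2) (Fin 2) F) 0 0 * ((g : Matrix (Fin 2) (Fin 2) F) 0 0 + (g : Matrix (Fin 2) (Fin 2) F) 1 1) := by
      linear_combination -h00 - hdet
    rw [this, h, mul_zero]
  have hb : (g : Matrix (Fin 2) (Fin 2) F) 0 1 = 0 := by
    have : (g : Matrix (Fin 2) (Fin 2) F) 0 1 * ((g : Matrix (Fin 2) (Fin 2) F) 0 0 + (g : Matrix (Fin 2) (Fin 2) F) 1 1) = 0 := by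
      linear_combination h01
    exact (mul_eq_zero.1 this).resolve_right ht
  have hc : (g : Matrix (Fin 2) (Fin 2) F) 1 0 = 0 := by
    have : (g : Matrix (Fin 2) (Fin 2) F) 1 0 * ((g : Matrix (Fin 2) (Fin 2) F) 0 0 + (g : Matrix (Fin 2) (Fin 2) F) 1 1) = 0 := by
      linear_combination h10
    exact (mul_eq_zero.1 this).resolve_right ht
  have had : (g : Matrix (Fin 2) (Fin 2) F) 0 0 = (g : Matrix (Fin 2) (Fin 2) F) 1 1 := by
    have : ((g : Matrix (Fin 2) (Fin 2) F) 0 0 - (g : Matrix (Fin 2) (Fin 2) F) 1 1) * ((g : Matrix (Fin 2) (Fin 2) F) 0 0 + (g : Matrix (Fin 2) (Fin 2) F) 1 1) = 0 := by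
      linear_combination h00 - h11 - (g : Matrix (Fin 2) (Fin 2) F) 0 1 * hc + (g : Matrix (Fin 2) (Fin 2) F) 1 0 * hb
    exact sub_eq_zero.1 ((mul_eq_zero.1 this).resolve_right ht)
  rw [hb, zero_mul, add_zero] at h00
  have hsq : ((g : Matrix (Fin 2) (Fin 2) F) 0 0 - 1) * ((g : Matrix (Fin 2) (Fin 2) F) 0 0 + 1) = 0 := by
    linear_combination h00
  rcases mul_eq_zero.1 hsq with h | h
  · exfalso
    apply h1
    apply Subtype.ext
    ext i j
    fin_cases i <;> fin_cases j <;> simp [hb, hc, ← had, sub_eq_zero.1 h]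
  · have ha : (g : Matrix (Fin 2) (Fin 2) F) 0 0 = -1 := by linear_combination h
    ext i j
    fin_cases i <;> fin_cases j <;> simp [hb, hc, ← had, ha]

end Cfsg.Agent.S0268
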