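import Cfsg.Statements.S0282
import Cfsg.Agent.Lib.Lead.SUCenter
import Cfsg.Agent.Lib.Lead.Burnside

set_option autoImplicit false
open Cfsg

namespace Cfsg.Agent.S0282

/-- PSU_3(2) is a solvable group of order 72. -/
theorem result {F : Type*} [Field F] [Fintype F] (hF : Fintype.card F = 4) : Nat.card (Cfsg.PSU 3 F 2) = 72 ∧ Group.IsSolvable (Cfsg.PSU 3 F 2) := by
  have hF' : Fintype.card F = 2 ^ 2 := by simpa using hF
  have h := Cfsg.Agent.Lead.card_PSU (F := F) (q := 2) (n := 3) hF' (by norm_num)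
  have h2 : Nat.card (Cfsg.PSU 3 F 2) = 72 := by
    have hg : Nat.gcd 3 (2 + 1) = 3 := by norm_num
    rw [hg] at h
    simp [Finset.prod_range_succ] at h
    omega
  refine ⟨h2, ?_⟩
  exact Cfsg.Agent.Lead.burnside_two_prime 2 3 3 2 (by norm_num) (by norm_num) (by rw [h2]; norm_num)

end Cfsg.Agent.S0282
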