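import Mathlib
import Cfsg.Agent.Lib.H01.OmOddFinal
import Cfsg.Statements.S0292
-- import your own Cfsg.Agent.* helpers here

set_option autoImplicit false
open Cfsg

namespace Cfsg.Agent.S0292


/-- 2 |PΩ_{2m+1}(q)| = q^(m^2) prod_{i=1}^{m} (q^(2i) - 1), for q odd and m at least 3 (type B_m). -/
theorem result {F : Type*} [Field F] [Fintype F] {q : ℕ} (hF : Fintype.card F = q) (hodd : Odd q) (m : ℕ) (hm : 3 ≤ m) : 2 * Nat.card (Cfsg.POmega F (Cfsg.quadFormOdd m F)) = q ^ (m ^ 2) * ∏ i ∈ Finset.range m, (q ^ (2 * (i + 1)) - 1) := by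
  subst hF
  obtain ⟨e1, e2, -, -⟩ := Cfsg.Agent.H01.Om.odd_struct hodd hm
  have e3 := Cfsg.Agent.Lead.Ortho.card_GO_odd (F := F) rfl hodd m
  rw [e1]
  have e4 : 4 * Nat.card (Cfsg.Omega F (Cfsg.quadFormOdd m F)) = 2 * ((Fintype.card F) ^ (m ^ 2) * ∏ i ∈ Finset.range m, ((Fintype.card F) ^ (2 * (i + 1)) - 1)) := by
    rw [← e2]
    rw [mul_assoc] at e3
    exact e3
  have e5 : 2 * (2 * Nat.card (Cfsg.Omega F (Cfsg.quadFormOdd m F))) = 2 * ((Fintype.card F) ^ (m ^ 2) * ∏ i ∈ Finset.range m, ((Fintype.card F) ^ (2 * (i + 1)) - 1)) := by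
    rw [← e4]
    ring
  exact Nat.eq_of_mul_eq_mul_left (by norm_num) e5


end Cfsg.Agent.S0292
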