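import Cfsg.Statements.S0303
import Cfsg.Agent.Lib.H27.ExcO6m

set_option autoImplicit false
open Cfsg

namespace Cfsg.Agent.S0303



/-- PΩ^-_6(q) is isomorphic to PSU_4(q). -/
theorem result {F K : Type*} [Field F] [Fintype F] [Field K] [Fintype K] {q : ℕ} (hF : Fintype.card F = q) (hK : Fintype.card K = q ^ 2) (a b : F) (hab : ∀ z₁ z₂ : F, z₁ ^ 2 + a * z₁ * z₂ + b * z₂ ^ 2 = 0 → z₁ = 0 ∧ z₂ = 0) : Nonempty (Cfsg.POmega F (Cfsg.quadFormMinus 2 F a b) ≃* Cfsg.PSU 4 K q) := by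
  exact Cfsg.Agent.H27.Exc.pomega6minus hF hK a b hab

end Cfsg.Agent.S0303
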