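import Cfsg.Statements.S0306
import Cfsg.Agent.Lib.Lead.OrthoOrder
-- import your own Cfsg.Agent.* helpers here

set_option autoImplicit false
open Cfsg
open Matrix

namespace Cfsg.Agent.S0306

open Polynomial in
theorem theta_frob_ne {F E : Type*} [Field F] [Fintype F] [Field E] [Algebra F E] {q : ℕ} (hF : Fintype.card F = q)
    (θ : E) (hθ : θ ∉ (algebraMap F E).range) : θ ^ q ≠ θ := by
  classical
  intro h
  have hq : 1 < q := hF ▸ Fintype.one_lt_card
  let Z : Finset E := insert θ (Finset.univ.image (algebraMap F E))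
  have hZ : Z.val ⊆ (X ^ q - X : E[X]).roots := by
    intro y hy
    have hp : (X ^ q - X : E[X]) ≠ 0 := FiniteField.X_pow_card_sub_X_ne_zero E hq
    rw [mem_roots hp]
    simp only [IsRoot.def, eval_sub, eval_pow, eval_X]
    rw [sub_eq_zero]
    have hy' : y ∈ Z := hy
    rw [Finset.mem_insert] at hy'
    rcases hy' with rfl | hy'
    · exact h
    · obtain ⟨κ, -, rfl⟩ := Finset.mem_image.1 hy'
      rw [← map_pow, ← hF, FiniteField.pow_card]
  have hle := card_le_degree_of_subset_roots hZ
  rw [FiniteField.X_pow_card_sub_X_natDegree_eq E hq] at hle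
  have hcard : Z.card = q + 1 := by
    rw [Finset.card_insert_of_notMem, Finset.card_image_of_injective _ (algebraMap F E).injective, Finset.card_univ, hF]
    intro hmem
    obtain ⟨κ, -, hκ⟩ := Finset.mem_image.1 hmem
    exact hθ ⟨κ, hκ⟩
  omega

abbrev Ix0 := (Fin 0 ⊕ Fin 0) ⊕ Fin 2

theorem abstract_dihedral {F E : Type*} [Field F] [Fintype F] [Field E] [Algebra F E] [FiniteDimensional F E]
    {q : ℕ} (hF : Fintype.card F = q) (hE : Module.finrank F E = 2) (a b : F)
    (hab : ∀ z₁ z₂ : F, z₁ ^ 2 + a * z₁ * z₂ + b * z₂ ^ 2 = 0 → z₁ = 0 ∧ z₂ = 0)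
    (θ : E) (hθ : θ ^ 2 + algebraMap F E a * θ + algebraMap F E b = 0) :
    Nonempty (Cfsg.isometryGroup F (Cfsg.quadFormMinus 0 F a b) ≃* DihedralGroup (q + 1)) := by
  classical
  have hq : 1 < q := hF ▸ Fintype.one_lt_card
  haveI : Finite E := Module.finite_of_finite F
  letI : Fintype E := Fintype.ofFinite E
  have hcardE : Fintype.card E = q ^ 2 := by
    rw [Module.card_eq_pow_finrank (K := F) (V := E), hE, hF]
  -- `θ` is not in `F`
  have hθr : θ ∉ (algebraMap F E).range := by
    rintro ⟨z, rfl⟩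
    have h1 : algebraMap F E (z ^ 2 + a * z * 1 + b * 1 ^ 2) = 0 := by
      rw [← hθ]
      simp only [map_add, map_mul, map_pow, map_one]
      ring
    have h2 := (hab z 1 ((map_eq_zero (algebraMap F E)).1 h1)).2
    exact one_ne_zero h2
  let σ := FiniteField.frobeniusAlgHom F E
  have hσ : ∀ x, σ x = x ^ q := fun x => by
    change x ^ Fintype.card F = x ^ q
    rw [hF]
  have hσσ : ∀ x, σ (σ x) = x := by
    intro x
    rw [hσ, hσ, ← pow_mul, ← pow_two, ← hcardE, FiniteField.pow_card]
  have hσθ : σ θ = - algebraMap F E a - θ := by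
    have h1 : σ θ ≠ θ := by
      rw [hσ]
      exact theta_frob_ne hF θ hθr
    have h2 : (σ θ) ^ 2 + algebraMap F E a * σ θ + algebraMap F E b = 0 := by
      have h3 := congrArg σ hθ
      simpa only [map_add, map_mul, map_pow, map_zero, AlgHom.commutes] using h3
    have h3 : (σ θ - θ) * (σ θ + θ + algebraMap F E a) = 0 := by
      linear_combination h2 - hθ
    have h4 := (mul_eq_zero.1 h3).resolve_left (sub_ne_zero.2 h1)
    linear_combination h4
  -- the coordinates
  let L : (Ix0 → F) →ₗ[F] E :=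
    (LinearMap.toSpanSingleton F E 1) ∘ₗ LinearMap.proj (Sum.inr 0) - (LinearMap.toSpanSingleton F E θ) ∘ₗ LinearMap.proj (Sum.inr 1)
  have hL : ∀ v, L v = algebraMap F E (v (Sum.inr 0)) - algebraMap F E (v (Sum.inr 1)) * θ := by
    intro v
    simp only [L, LinearMap.sub_apply, LinearMap.comp_apply, LinearMap.proj_apply, LinearMap.toSpanSingleton_apply]
    rw [Algebra.smul_def, Algebra.smul_def, mul_one]
  have hQ : ∀ v, algebraMap F E (Cfsg.quadFormMinus 0 F a b v) = L v * σ (L v) := by
    intro v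
    have e : Cfsg.quadFormMinus 0 F a b v = v (Sum.inr 0) ^ 2 + a * v (Sum.inr 0) * v (Sum.inr 1) + b * v (Sum.inr 1) ^ 2 := by
      simp [Cfsg.quadFormMinus]
    rw [e, hL]
    simp only [map_add, map_mul, map_pow, map_sub, AlgHom.commutes, hσθ]
    linear_combination ((algebraMap F E (v (Sum.inr 1))) ^ 2) * hθ
  have hext : ∀ v w : Ix0 → F, v (Sum.inr 0) = w (Sum.inr 0) → v (Sum.inr 1) = w (Sum.inr 1) → v = w := by
    intro v w h0 h1
    funext i
    rcases i with (i | i) | i
    · exact i.elim0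
    · exact i.elim0
    · fin_cases i
      · exact h0
      · exact h1
  have hLinj : Function.Injective L := by
    rw [injective_iff_map_eq_zero]
    intro v hv
    have h1 := hQ v
    rw [hv, zero_mul, map_eq_zero] at h1
    have e : Cfsg.quadFormMinus 0 F a b v = v (Sum.inr 0) ^ 2 + a * v (Sum.inr 0) * v (Sum.inr 1) + b * v (Sum.inr 1) ^ 2 := by
      simp [Cfsg.quadFormMinus]
    rw [e] at h1
    obtain ⟨h2, h3⟩ := hab _ _ h1
    exact hext _ _ h2 h3
  have hfin : Module.finrank F (Ix0 → F) = Module.finrank F E := by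
    rw [hE, Module.finrank_fintype_fun_eq_card]
    simp
  let Leq : (Ix0 → F) ≃ₗ[F] E := LinearEquiv.ofInjectiveOfFinrankEq L hLinj hfin
  have hLeq : ∀ v, Leq v = L v := fun v => rfl
  -- the conjugation to matrices
  let Mt : Module.End F E →* Matrix Ix0 Ix0 F :=
    { toFun := fun T => LinearMap.toMatrix' (Leq.symm.toLinearMap ∘ₗ T ∘ₗ Leq.toLinearMap)
      map_one' := by
        have : Leq.symm.toLinearMap ∘ₗ (1 : Module.End F E) ∘ₗ Leq.toLinearMap = LinearMap.id := by
          ext1 v
          ext i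
          simp
        rw [this, LinearMap.toMatrix'_id]
      map_mul' := fun S T => by
        rw [← LinearMap.toMatrix'_comp]
        congr 1
        apply LinearMap.ext
        intro v
        simp [Module.End.mul_apply] }
  have hMt : ∀ T v, Mt T *ᵥ v = Leq.symm (T (Leq v)) := by
    intro T v
    exact LinearMap.toMatrix'_mulVec _ _
  -- the generator
  obtain ⟨g, hg⟩ := IsCyclic.exists_generator (α := Eˣ)
  have hog : orderOf g = q ^ 2 - 1 := by
    rw [orderOf_eq_card_of_forall_mem_zpowers hg, Nat.card_eq_fintype_card, Fintype.card_units, hcardE]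
  have hsq : q ^ 2 - 1 = (q - 1) * (q + 1) := by
    obtain ⟨t, rfl⟩ : ∃ t, q = t + 1 := ⟨q - 1, by omega⟩
    simp only [Nat.add_sub_cancel]
    have : (t + 1) ^ 2 = t * (t + 1 + 1) + 1 := by ring
    omega
  let ω : Eˣ := g ^ (q - 1)
  have hoω : orderOf ω = q + 1 := by
    have e : Nat.gcd ((q - 1) * (q + 1)) (q - 1) = q - 1 := Nat.gcd_eq_right (Dvd.intro _ rfl)
    rw [orderOf_pow' _ (by omega), hog, hsq, e, Nat.mul_div_cancel_left _ (by omega)]
  haveI : NeZero (q + 1) := ⟨by omega⟩
  let W : ZMod (q + 1) → Eˣ := fun i => ω ^ i.val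
  have hWadd : ∀ i j, W (i + j) = W i * W j := by
    intro i j
    simp only [W]
    have e := pow_mod_orderOf ω (i.val + j.val)
    rw [hoω] at e
    rw [ZMod.val_add, e, pow_add]
  have hW0 : W 0 = 1 := by
    simp only [W]
    rw [ZMod.val_zero, pow_zero]
  have hWneg : ∀ i, W (-i) * W i = 1 := by
    intro i
    rw [← hWadd, neg_add_cancel, hW0]
  have hωq : (ω : E) ^ (q + 1) = 1 := by
    have := pow_orderOf_eq_one ω
    rw [hoω] at this
    have h2 := congrArg (Units.val) this
    simpa using h2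
  let w : ZMod (q + 1) → E := fun i => (W i : E)
  have hwadd : ∀ i j, w (i + j) = w i * w j := by
    intro i j
    simp only [w]
    rw [hWadd, Units.val_mul]
  have hw0 : w 0 = 1 := by
    simp only [w]
    rw [hW0, Units.val_one]
  have hwneg : ∀ i, w (-i) * w i = 1 := by
    intro i
    rw [← hwadd, neg_add_cancel, hw0]
  have hwne : ∀ i, w i ≠ 0 := fun i => (W i).ne_zero
  have hwσ : ∀ i, σ (w i) = w (-i) := by
    intro i
    have h1 : σ (w i) * w i = 1 := by
      rw [hσ]
      have e1 : w i = (ω : E) ^ i.val := by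
        simp only [w, W, Units.val_pow_eq_pow_val]
      have e2 : ((ω : E) ^ i.val) ^ q * (ω : E) ^ i.val = ((ω : E) ^ (q + 1)) ^ i.val := by
        rw [← pow_mul, ← pow_mul, ← pow_add]
        congr 1
        ring
      rw [e1, e2, hωq, one_pow]
    exact mul_right_cancel₀ (hwne i) (h1.trans (hwneg i).symm)
  have hwσneg : ∀ i, w i * σ (w i) = 1 := by
    intro i
    rw [hwσ, mul_comm, hwneg]
  -- the action of the dihedral group
  let f : DihedralGroup (q + 1) → Module.End F E := fun d =>
    match d with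
    | DihedralGroup.r i => LinearMap.mulLeft F (w i)
    | DihedralGroup.sr i => LinearMap.mulLeft F (w (-i)) ∘ₗ σ.toLinearMap
  have hfr : ∀ i x, f (DihedralGroup.r i) x = w i * x := fun i x => rfl
  have hfs : ∀ i x, f (DihedralGroup.sr i) x = w (-i) * σ x := fun i x => rfl
  let fH : DihedralGroup (q + 1) →* Module.End F E :=
    { toFun := f
      map_one' := by
        ext x
        rw [DihedralGroup.one_def, hfr, hw0, one_mul]
        rfl
      map_mul' := by
        intro d d'
        ext x
        rcases d with i | i <;> rcases d' with j | j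
        · rw [DihedralGroup.r_mul_r, hfr, Module.End.mul_apply, hfr, hfr, hwadd, mul_assoc]
        · rw [DihedralGroup.r_mul_sr, hfs, Module.End.mul_apply, hfs, hfr, ← mul_assoc, ← hwadd]
          congr 2
          ring
        · rw [DihedralGroup.sr_mul_r, hfs, Module.End.mul_apply, hfr, hfs, map_mul, hwσ, ← mul_assoc, ← hwadd]
          congr 2
          ring
        · rw [DihedralGroup.sr_mul_sr, hfr, Module.End.mul_apply, hfs, hfs, map_mul, hσσ, hwσ, neg_neg, ← mul_assoc, ← hwadd]
          congr 2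
          ring }
  have hfH : ∀ d x, fH d x = f d x := fun d x => rfl
  let Φ₀ : DihedralGroup (q + 1) →* GL Ix0 F := (Mt.comp fH).toHomUnits
  have hΦ₀ : ∀ d v, (Φ₀ d : Matrix Ix0 Ix0 F) *ᵥ v = Leq.symm (f d (Leq v)) := by
    intro d v
    have e : ((Φ₀ d : GL Ix0 F) : Matrix Ix0 Ix0 F) = Mt (fH d) := MonoidHom.coe_toHomUnits _ _
    rw [e, hMt]
    rfl
  have hLsymm : ∀ y, L (Leq.symm y) = y := fun y => Leq.apply_symm_apply y
  have hmem : ∀ d, Φ₀ d ∈ Cfsg.isometryGroup F (Cfsg.quadFormMinus 0 F a b) := by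
    intro d u v
    change Cfsg.quadFormMinus 0 F a b ((Φ₀ d : Matrix Ix0 Ix0 F) *ᵥ u) = Cfsg.quadFormMinus 0 F a b u
    apply (algebraMap F E).injective
    rw [hQ, hQ, hΦ₀, hLsymm, hLeq]
    rcases d with i | i
    · rw [hfr, map_mul]
      linear_combination (L u * σ (L u)) * hwσneg i
    · rw [hfs, map_mul, hσσ]
      linear_combination (L u * σ (L u)) * hwσneg (-i)
  let Φ : DihedralGroup (q + 1) →* Cfsg.isometryGroup F (Cfsg.quadFormMinus 0 F a b) := Φ₀.codRestrict _ hmem
  have hinj : Function.Injective Φ := by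
    rw [injective_iff_map_eq_one]
    intro d hd
    have h1 : Φ₀ d = 1 := congrArg Subtype.val hd
    have h2 : ∀ x, f d x = x := by
      intro x
      have h3 := hΦ₀ d (Leq.symm x)
      rw [h1, Units.val_one, Matrix.one_mulVec, Leq.apply_symm_apply] at h3
      have h4 := congrArg Leq h3
      rw [Leq.apply_symm_apply, Leq.apply_symm_apply] at h4
      exact h4.symm
    rcases d with i | i
    · have h3 := h2 1
      rw [hfr, mul_one] at h3
      have h4 : ω ^ i.val = 1 := by
        apply Units.ext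
        rw [Units.val_one]
        exact h3
      have h5 := orderOf_dvd_of_pow_eq_one h4
      rw [hoω] at h5
      have h6 : i.val < q + 1 := ZMod.val_lt i
      have h7 : i.val = 0 := Nat.eq_zero_of_dvd_of_lt h5 h6
      rw [DihedralGroup.one_def, (ZMod.val_eq_zero i).1 h7]
    · exfalso
      have h3 := h2 1
      rw [hfs, map_one, mul_one] at h3
      have h4 := h2 θ
      rw [hfs, h3, one_mul, hσ] at h4
      exact theta_frob_ne hF θ hθr h4
  have hcard : Nat.card (DihedralGroup (q + 1)) = Nat.card (Cfsg.isometryGroup F (Cfsg.quadFormMinus 0 F a b)) := by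
    have h1 := Cfsg.Agent.Lead.Ortho.card_GO_minus hF 1 le_rfl a b hab
    rw [DihedralGroup.nat_card]
    have h2 : Nat.card (Cfsg.isometryGroup F (Cfsg.quadFormMinus 0 F a b)) = 2 * q ^ (1 * (1 - 1)) * (q ^ 1 + 1) *
        ∏ i ∈ Finset.range (1 - 1), (q ^ (2 * (i + 1)) - 1) := h1
    rw [h2]
    simp
  have hbij : Function.Bijective Φ := (Nat.bijective_iff_injective_and_card Φ).2 ⟨hinj, hcard⟩
  exact ⟨(MulEquiv.ofBijective Φ hbij).symm⟩


/-- GO^-_2(q) is dihedral of order 2(q+1). -/
theorem result {F : Type*} [Field F] [Fintype F] {q : ℕ} (hF : Fintype.card F = q) (a b : F) (hab : ∀ z₁ z₂ : F, z₁ ^ 2 + a * z₁ * z₂ + b * z₂ ^ 2 = 0 → z₁ = 0 ∧ z₂ = 0) : Nonempty (Cfsg.isometryGroup F (Cfsg.quadFormMinus 0 F a b) ≃* DihedralGroup (q + 1)) := by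
  classical
let P : Polynomial F := Polynomial.X ^ 2 + Polynomial.C a * Polynomial.X + Polynomial.C b
have hPdeg : P.natDegree = 2 := by
  simp only [P]
  compute_degree!
have hPirr : Irreducible P := by
  apply Polynomial.irreducible_of_degree_le_three_of_not_isRoot
  · rw [hPdeg]
    simp
  · intro x hx
    simp only [P, Polynomial.IsRoot.def, Polynomial.eval_add, Polynomial.eval_pow, Polynomial.eval_X, Polynomial.eval_mul,
      Polynomial.eval_C] at hx
    have := (hab x 1 (by linear_combination hx)).2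
    exact one_ne_zero this
haveI : Fact (Irreducible P) := ⟨hPirr⟩
have hP0 : P ≠ 0 := hPirr.ne_zero
haveI : FiniteDimensional F (AdjoinRoot P) := (AdjoinRoot.powerBasis hP0).finite
have hE : Module.finrank F (AdjoinRoot P) = 2 := by
  rw [(AdjoinRoot.powerBasis hP0).finrank, AdjoinRoot.powerBasis_dim, hPdeg]
refine abstract_dihedral hF hE a b hab (AdjoinRoot.root P) ?_
have h1 := AdjoinRoot.eval₂_root P
simp only [P, Polynomial.eval₂_add, Polynomial.eval₂_pow, Polynomial.eval₂_X, Polynomial.eval₂_mul, Polynomial.eval₂_C] at h1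
exact h1

end Cfsg.Agent.S0306
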