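import Mathlib
import Cfsg.Statements.S0326

set_option autoImplicit false

open Cfsg

namespace Cfsg.Agent.S0326

theorem result {F : Type*} [Field F] [Fintype F] (m : ℕ) :
    Nat.card (Cfsg.suzukiOvoid F m) = Fintype.card F ^ 2 + 1 := by
  classical
  have hne : ∀ x y : F, (![x * y + x ^ (2 ^ (m + 1) + 2) + y ^ (2 ^ (m + 1)), y, x, 1] : Fin 4 → F) ≠ 0 := by
    intro x y h
    have := congrFun h 3
    simp at this
  have hne0 : (![1, 0, 0, 0] : Fin 4 → F) ≠ 0 := by
    intro h
    have := congrFun h 0
    simp at this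
  let f : Option (F × F) → ↥(suzukiOvoid F m) := fun o => match o with
    | none => ⟨Projectivization.mk F ![1, 0, 0, 0] hne0, ![1, 0, 0, 0], hne0, rfl, Or.inl rfl⟩
    | some (x, y) => ⟨Projectivization.mk F _ (hne x y), _, hne x y, rfl, Or.inr ⟨x, y, rfl⟩⟩
  have hf : Function.Bijective f := by
    constructor
    · rintro (_ | ⟨x, y⟩) (_ | ⟨x', y'⟩) h
      · rfl
      · exfalso
        have h' := congrArg Subtype.val h
        obtain ⟨a, ha⟩ := (Projectivization.mk_eq_mk_iff F _ _ _ _).1 h'
        have h3 := congrFun ha 3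
        simp [Units.smul_def] at h3
      · exfalso
        have h' := congrArg Subtype.val h
        obtain ⟨a, ha⟩ := (Projectivization.mk_eq_mk_iff F _ _ _ _).1 h'
        have h3 := congrFun ha 3
        simp [Units.smul_def] at h3
      · have h' := congrArg Subtype.val h
        obtain ⟨a, ha⟩ := (Projectivization.mk_eq_mk_iff F _ _ _ _).1 h'
        have h3 := congrFun ha 3
        have h2 := congrFun ha 2
        have h1 := congrFun ha 1
        simp [Units.smul_def] at h3 h2 h1
        rw [h3] at h2 h1
        simp at h2 h1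
        rw [h2, h1]
    · rintro ⟨p, v, hv, rfl, h | ⟨x, y, h⟩⟩
      · subst h
        exact ⟨none, rfl⟩
      · subst h
        exact ⟨some (x, y), rfl⟩
  rw [← Nat.card_congr (Equiv.ofBijective f hf)]
  simp [Nat.card_eq_fintype_card, Fintype.card_option, Fintype.card_prod, sq]

end Cfsg.Agent.S0326
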