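import Mathlib
import Cfsg.Statements.S0327
import Cfsg.Agent.Lib.H10.SzSimple

set_option autoImplicit false

open Cfsg

namespace Cfsg.Agent.S0327

theorem result {F : Type*} [Field F] [Fintype F] {m : ℕ} (hm : 1 ≤ m)
    (hF : Fintype.card F = 2 ^ (2 * m + 1)) :
    Cfsg.IsZassenhausGroup (Cfsg.Sz F m) (Cfsg.suzukiOvoid F m) := by
  haveI := H10.sz_charP hF
  exact H10.isZassenhaus_Sz hm hF

end Cfsg.Agent.S0327
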