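import Mathlib
import Cfsg.Statements.S0333
import Cfsg.Agent.Lib.H10.SzTori

set_option autoImplicit false

open Cfsg

namespace Cfsg.Agent.S0333

theorem result {F : Type*} [Field F] [Fintype F] {m : ℕ} (hm : 1 ≤ m)
    (hF : Fintype.card F = 2 ^ (2 * m + 1)) :
    ∀ k ∈ ({2 ^ (2 * m + 1) + 2 ^ (m + 1) + 1, 2 ^ (2 * m + 1) - 2 ^ (m + 1) + 1} : Set ℕ),
      ∃ U : Subgroup (Cfsg.Sz F m), IsCyclic U ∧ Nat.card U = k ∧
        (∀ u ∈ U, u ≠ 1 → Subgroup.centralizer {u} = U) ∧ Nat.card (Subgroup.normalizer (U : Set (Cfsg.Sz F m))) = 4 * k := by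
  haveI := H10.sz_charP hF
  obtain ⟨A₁, A₂, h1, h2, h3, h4, -⟩ := H10.exists_tori (F := F) hm hF
  have hle : 2 ^ (m + 1) ≤ 2 ^ (2 * m + 1) := Nat.pow_le_pow_right (by norm_num) (by omega)
  have hfacts : ∀ A : H10.SzAs F m, IsCyclic A.1 ∧ (∀ u ∈ A.1, u ≠ 1 → Subgroup.centralizer {u} = A.1) :=
    fun A => ⟨A.2.isCyclic hm hF, fun u hu hu1 => A.2.centralizer_eq hm hF hu hu1⟩
  intro k hk
  rcases hk with rfl | hk
  · exact ⟨A₁.1, (hfacts A₁).1, h1, (hfacts A₁).2, by rw [h3, h1]⟩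
  · have hk' : k = 2 ^ (2 * m + 1) - 2 ^ (m + 1) + 1 := hk
    have h5 : Nat.card A₂.1 = k := by omega
    exact ⟨A₂.1, (hfacts A₂).1, h5, (hfacts A₂).2, by rw [h4, h5]⟩

end Cfsg.Agent.S0333
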