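import Mathlib
import Cfsg.Statements.S0334
import Cfsg.Agent.Lib.H10.SzOrder

set_option autoImplicit false

open Cfsg

namespace Cfsg.Agent.S0334

theorem result {F : Type*} [Field F] [Fintype F] {m : ℕ} (hm : 1 ≤ m)
    (hF : Fintype.card F = 2 ^ (2 * m + 1)) {g : Matrix.SpecialLinearGroup (Fin 4) F}
    (hg : g ∈ Cfsg.Sz F m) :
    (g : Matrix (Fin 4) (Fin 4) F).transpose * Cfsg.suzukiForm F * (g : Matrix (Fin 4) (Fin 4) F) =
      Cfsg.suzukiForm F := by
  haveI := H10.sz_charP hF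
  exact H10.form_of_mem hm hF hg

end Cfsg.Agent.S0334
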