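import Mathlib
import Cfsg.Statements.S0335
import Cfsg.Agent.Lib.H10.SzGen2

set_option autoImplicit false

open Cfsg

namespace Cfsg.Agent.S0335

theorem result {F : Type*} [Field F] [Fintype F] {m : ℕ} (hm : 1 ≤ m)
    (hF : Fintype.card F = 2 ^ (2 * m + 1)) (p : Fin 3 ↪ Cfsg.suzukiOvoid F m) :
    Projectivization.Independent (fun i => (p i : Projectivization F (Fin 4 → F))) := by
  haveI := H10.sz_charP hF
  exact H10.ovoid_independent hm hF p

end Cfsg.Agent.S0335
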