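import Cfsg.Statements.S0341
import Cfsg.Agent.Lib.H02.ZasF

set_option autoImplicit false
open Cfsg

namespace Cfsg.Agent.S0341



/-- If a finite group acts faithfully and doubly transitively, no non-identity element fixes three points, some
non-identity element fixes two points, and some normal subgroup acts regularly, then the number of points
is `2^p` with `p` prime. -/
theorem result {G Ω : Type*} [Group G]
    [MulAction G Ω] [Fintype Ω] [FaithfulSMul G Ω] (h2 : MulAction.IsMultiplyPretransitive G Ω 2)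
    (h3 : ∀ g : G, ∀ a b c : Ω, a ≠ b → b ≠ c → a ≠ c → g • a = a → g • b = b → g • c = c → g = 1)
    (hfix : ∃ g : G, g ≠ 1 ∧ ∃ a b : Ω, a ≠ b ∧ g • a = a ∧ g • b = b)
    (N : Subgroup G) [N.Normal] (hNt : MulAction.IsPretransitive N Ω)
    (hNr : ∀ a : Ω, MulAction.stabilizer N a = ⊥) :
    ∃ p : ℕ, p.Prime ∧ Fintype.card Ω = 2 ^ p := by
  have Z : Cfsg.Agent.H02.Zas.Z0 G Ω :=
    ⟨fun g hg => FaithfulSMul.eq_of_smul_eq_smul (α := Ω) (fun x => by rw [hg, one_smul]),
      Cfsg.Agent.H02.Zas.tr2_of_pretrans h2, h3, hfix⟩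
  obtain ⟨p, hp, e⟩ := Cfsg.Agent.H02.Zas.two_pow_prime Z N inferInstance
    (fun x y => by
      obtain ⟨n, hn⟩ := hNt.exists_smul_eq x y
      exact ⟨n.1, n.2, hn⟩)
    (fun n hn x hx => by
      have h : (⟨n, hn⟩ : N) ∈ MulAction.stabilizer N x := hx
      rw [hNr x, Subgroup.mem_bot] at h
      exact congrArg Subtype.val h)
  exact ⟨p, hp, by rw [← e, Nat.card_eq_fintype_card]⟩

end Cfsg.Agent.S0341
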