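import Cfsg.Statements.S0740
import Mathlib

set_option autoImplicit false
open Cfsg

namespace Cfsg.Agent.S0740

variable {G Ω : Type*} [Group G] [Finite G] [MulAction G Ω] [Fintype Ω]

theorem exists_swap_conj (hZ : Cfsg.IsZassenhausGroup G Ω) {t : G} (ht : orderOf t = 2) {c : Ω} (hc : t • c ≠ c) {a b : Ω} (hab : a ≠ b) :
    ∃ g : G, (g * t * g⁻¹) • a = b ∧ (g * t * g⁻¹) • b = a ∧ g • c = a ∧ g • (t • c) = b := by
  obtain ⟨_, h2, _⟩ := hZ
  obtain ⟨g, hg1, hg2⟩ := (MulAction.is_two_pretransitive_iff.mp h2) hc.symm hab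
  have htt : t * t = 1 := by
    have := pow_orderOf_eq_one t
    rw [ht] at this
    rwa [sq] at this
  refine ⟨g, ?_, ?_, hg1, hg2⟩
  · rw [← hg1]
    simp [mul_smul, hg2]
  · rw [← hg2, ← hg1]
    simp only [mul_smul, inv_smul_smul]
    rw [← mul_smul t t c, htt, one_smul]

theorem order_conj {t : G} (ht : orderOf t = 2) (g : G) : orderOf (g * t * g⁻¹) = 2 := by
  rw [← MulAut.conj_apply, MulEquiv.orderOf_eq, ht]

theorem exists_moved (hZ : Cfsg.IsZassenhausGroup G Ω) {t : G} (ht : orderOf t = 2) : ∃ c : Ω, t • c ≠ c := by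
  obtain ⟨hf, _⟩ := hZ
  by_contra h
  push Not at h
  have : t = 1 := by
    apply hf.eq_of_smul_eq_smul
    intro x
    rw [h x, one_smul]
  rw [this] at ht
  simp at ht

theorem fixed_count (hZ : Cfsg.IsZassenhausGroup G Ω) {s : G} (hs : orderOf s = 2) :
    Nat.card (MulAction.fixedBy Ω s) ≤ 2 ∧ (Fintype.card Ω) % 2 = Nat.card (MulAction.fixedBy Ω s) % 2 := by
  classical
  constructor
  · by_contra hlt
    push Not at hlt
    have hs1 : s ≠ 1 := by
      rintro rfl
      simp at hs
    obtain ⟨a, b, c, hab, hbc, hac⟩ : ∃ a b c : MulAction.fixedBy Ω s, a ≠ b ∧ b ≠ c ∧ a ≠ c := by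
      have h3 : 2 < Fintype.card (MulAction.fixedBy Ω s) := by
        rwa [← Nat.card_eq_fintype_card]
      obtain ⟨a, b, c, h1, h2, h3⟩ := Fintype.two_lt_card_iff.mp h3
      exact ⟨a, b, c, h1, h3, h2⟩
    apply hs1
    refine hZ.2.2.1 s a.1 b.1 c.1 ?_ ?_ ?_ a.2 b.2 c.2
    · exact fun h => hab (Subtype.ext h)
    · exact fun h => hbc (Subtype.ext h)
    · exact fun h => hac (Subtype.ext h)
  · let f : Function.End Ω := fun x => s • x
    have hp : Fact (Nat.Prime 2) := ⟨Nat.prime_two⟩
    have hf : f ^ 2 ^ 1 = 1 := by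
      have hss : s * s = 1 := by
        have := pow_orderOf_eq_one s
        rw [hs] at this
        rwa [sq] at this
      funext x
      change s • s • x = x
      rw [← mul_smul, hss, one_smul]
    have h := Equiv.Perm.card_fixedPoints_modEq (p := 2) (n := 1) hf
    have h2 : Nat.card (MulAction.fixedBy Ω s) = Fintype.card (Function.fixedPoints f) := by
      rw [Nat.card_eq_fintype_card]
      apply Fintype.card_congr
      exact Equiv.subtypeEquivRight (fun x => Iff.rfl)
    rw [h2]
    exact h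

/-- In a finite Zassenhaus group any two points `a ≠ b` are swapped by an involution; every such involution has exactly one fixed point when the degree is odd and 0 or 2 fixed points when the degree is even; and if the two-point stabiliser has even order, some such involution has exactly 2 fixed points. -/
theorem result {G Ω : Type*} [Group G] [Finite G] [MulAction G Ω] [Fintype Ω] (hZ : Cfsg.IsZassenhausGroup G Ω) {a b : Ω} (hab : a ≠ b) : (∃ s : G, orderOf s = 2 ∧ s • a = b ∧ s • b = a) ∧ (∀ s : G, orderOf s = 2 → s • a = b → s • b = a → (Odd (Fintype.card Ω) → Nat.card (MulAction.fixedBy Ω s) = 1) ∧ (Even (Fintype.card Ω) → Nat.card (MulAction.fixedBy Ω s) = 0 ∨ Nat.card (MulAction.fixedBy Ω s) = 2)) ∧ (Even (Fintype.card Ω) → Even (Nat.card ↥(MulAction.stabilizer G a ⊓ MulAction.stabilizer G b)) → ∃ s : G, orderOf s = 2 ∧ s • a = b ∧ s • b = a ∧ Nat.card (MulAction.fixedBy Ω s) = 2) := by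
  classical
  have hinvol : ∀ s : G, orderOf s = 2 → s • a = b → s • b = a → (Odd (Fintype.card Ω) → Nat.card (MulAction.fixedBy Ω s) = 1) ∧ (Even (Fintype.card Ω) → Nat.card (MulAction.fixedBy Ω s) = 0 ∨ Nat.card (MulAction.fixedBy Ω s) = 2) := by
    intro s hs _ _
    obtain ⟨h1, h2⟩ := fixed_count hZ hs
    constructor
    · intro hodd
      have := Nat.odd_iff.mp hodd
      omega
    · intro heven
      have := Nat.even_iff.mp heven
      omega
  refine ⟨?_, hinvol, ?_⟩
  · obtain ⟨g, hg1, hg2⟩ := (MulAction.is_two_pretransitive_iff.mp hZ.2.1) hab hab.symm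
    have hev : Even (orderOf g) := by
      by_contra hodd
      have hodd' : Odd (orderOf g) := Nat.not_even_iff_odd.mp hodd
      obtain ⟨k, hk⟩ := hodd'
      have h1 : ∀ n : ℕ, g ^ (2 * n + 1) • a = b := by
        intro n
        induction n with
        | zero => simpa using hg1
        | succ n ih =>
          have : 2 * (n + 1) + 1 = 2 + (2 * n + 1) := by ring
          rw [this, pow_add, mul_smul, ih, sq, mul_smul, hg2, hg1]
      have h2 := h1 k
      rw [← hk, pow_orderOf_eq_one, one_smul] at h2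
      exact hab h2
    obtain ⟨k, hk⟩ := hev
    have hgk : orderOf g ≠ 0 := (orderOf_pos g).ne'
    have hk0 : k ≠ 0 := by omega
    have h1 : orderOf (g ^ k) = 2 := by
      rw [orderOf_pow' g hk0]
      have : (orderOf g).gcd k = k := Nat.gcd_eq_right ⟨2, by omega⟩
      rw [this, hk]
      exact Nat.div_eq_of_eq_mul_left (Nat.pos_of_ne_zero hk0) (by ring)
    obtain ⟨c, hc⟩ := exists_moved hZ h1
    obtain ⟨x, h3, h4, _, _⟩ := exists_swap_conj hZ h1 hc hab
    exact ⟨_, order_conj h1 x, h3, h4⟩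
  · intro heven hev
    have h2 : 2 ∣ Nat.card ↥(MulAction.stabilizer G a ⊓ MulAction.stabilizer G b) := hev.two_dvd
    have hp : Fact (Nat.Prime 2) := ⟨Nat.prime_two⟩
    obtain ⟨t, ht⟩ := exists_prime_orderOf_dvd_card' 2 h2
    have ht' : orderOf (t : G) = 2 := by rw [Subgroup.orderOf_coe]; exact ht
    obtain ⟨c, hc⟩ := exists_moved hZ ht'
    obtain ⟨x, h3, h4, _, _⟩ := exists_swap_conj hZ ht' hc hab
    refine ⟨_, order_conj ht' x, h3, h4, ?_⟩
    have hev2 := (hinvol _ (order_conj ht' x) h3 h4).2 heven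
    rcases hev2 with h0 | h0
    · exfalso
      have hmem : x • a ∈ MulAction.fixedBy Ω (x * (t : G) * x⁻¹) := by
        rw [MulAction.mem_fixedBy]
        have hta : (t : G) • a = a := (Subgroup.mem_inf.mp t.2).1
        simp only [mul_smul, inv_smul_smul, hta]
      have : Nonempty (MulAction.fixedBy Ω (x * (t : G) * x⁻¹)) := ⟨⟨_, hmem⟩⟩
      rw [Nat.card_eq_fintype_card, Fintype.card_eq_zero_iff] at h0
      exact h0.false ⟨_, hmem⟩
    · exact h0

end Cfsg.Agent.S0740
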