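import Cfsg.Statements.S0345
import Mathlib
import Cfsg.Agent.Lib.H03.ZS2
import Cfsg.Agent.Lib.H03.ZS3
import Cfsg.Agent.S0739
import Cfsg.Agent.S0740

set_option autoImplicit false
open Cfsg

namespace Cfsg.Agent.S0345


/-- In a finite simple Zassenhaus group the stabiliser `H` of two points `a ≠ b` is cyclic, and some involution
interchanging `a` and `b` inverts every element of `H`. -/
theorem result {G Ω : Type*} [Group G] [Finite G] [MulAction G Ω] [Finite Ω]
    (hZ : Cfsg.IsZassenhausGroup G Ω) [IsSimpleGroup G]
    {a b : Ω} (hab : a ≠ b) :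
    IsCyclic ↥(MulAction.stabilizer G a ⊓ MulAction.stabilizer G b) ∧
      ∃ v : G, orderOf v = 2 ∧ v • a = b ∧ v • b = a ∧ ∀ h ∈ MulAction.stabilizer G a ⊓ MulAction.stabilizer G b, v * h * v⁻¹ = h⁻¹ := by
  classical
  haveI := Fintype.ofFinite Ω
  rcases Nat.even_or_odd (Nat.card ↥(MulAction.stabilizer G a ⊓ MulAction.stabilizer G b)) with heven | hodd
  · have hcard := Cfsg.Agent.H03.ZS.card_eq_two_mul hZ hab heven
    exact Cfsg.Agent.H03.ZS.even_cyclic_invert hZ hab heven (by omega)
  · obtain ⟨hfaith, h2, h3, hne⟩ := Cfsg.Agent.H03.ZS.zass_facts hZ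
    obtain ⟨hc, -, hinv⟩ := Cfsg.Agent.S0739.result hZ hab hodd (by
      rintro q hq hqd ⟨N, hN, hNi⟩
      haveI := Fact.mk hq
      have hqG : q ∣ Nat.card G :=
        hqd.trans (Subgroup.card_subgroup_dvd_card _)
      have hv : (Nat.card G).factorization q ≠ 0 := by
        intro h0
        have h1 := (Nat.Prime.dvd_iff_one_le_factorization hq Nat.card_pos.ne').1 hqG
        omega
      rcases hN.eq_bot_or_eq_top with rfl | rfl
      · rw [Subgroup.index_bot] at hNi
        have hpg : IsPGroup q G := IsPGroup.of_card hNi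
        have hnt : Nontrivial (Subgroup.center G) := hpg.center_nontrivial
        have hct : Subgroup.center G = ⊤ := by
          rcases (inferInstance : (Subgroup.center G).Normal).eq_bot_or_eq_top with h | h
          · exfalso
            rw [h] at hnt
            exact not_nontrivial_iff_subsingleton.2 (inferInstance) hnt
          · exact h
        have hcomm : ∀ x y : G, x * y = y * x := by
          intro x y
          have hy : y ∈ Subgroup.center G := by rw [hct]; trivial
          exact (Subgroup.mem_center_iff.1 hy x)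
        have hHn : (MulAction.stabilizer G a ⊓ MulAction.stabilizer G b : Subgroup G).Normal :=
          ⟨fun n hn g => by rw [hcomm g n, mul_assoc, mul_inv_cancel, mul_one]; exact hn⟩
        rcases hHn.eq_bot_or_eq_top with h | h
        · rw [h, Subgroup.card_bot] at hqd
          exact hq.one_lt.ne' (Nat.dvd_one.1 hqd)
        · obtain ⟨s, hsa, hsb⟩ := h2 a b b a hab hab.symm
          have hs : s ∈ (MulAction.stabilizer G a ⊓ MulAction.stabilizer G b : Subgroup G) := by
            rw [h]; trivial
          have hsa' : s • a = a := hs.1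
          exact hab (hsa'.symm.trans hsa)
      · rw [Subgroup.index_top] at hNi
        have h1 : 1 < q ^ (Nat.card G).factorization q := Nat.one_lt_pow hv hq.one_lt
        omega)
    obtain ⟨⟨s, hs, hsa, hsb⟩, -⟩ := Cfsg.Agent.S0740.result hZ hab
    exact ⟨hc, s, hs, hsa, hsb, hinv s hsa hsb⟩

end Cfsg.Agent.S0345
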