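import Cfsg.Statements.S0351
import Cfsg.Agent.Lib.H02.Design2

set_option autoImplicit false
open Cfsg

namespace Cfsg.Agent.S0351



/-- Derived design: removing a point p from the blocks through p of an S(t+1, k+1, v) yields an S(t, k, v-1) on the points other than p. -/
theorem result {α : Type*} [Fintype α] [DecidableEq α] {t k : ℕ} {B : Set (Finset α)} (hB : Cfsg.IsSteinerSystem (t + 1) (k + 1) B) (p : α) : Cfsg.IsSteinerSystem t k {b' : Finset {a : α // a ≠ p} | ∃ b ∈ B, p ∈ b ∧ b' = Finset.subtype (fun a => a ≠ p) b} := by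
  exact Cfsg.Agent.H02.Design.derived hB p

end Cfsg.Agent.S0351
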