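import Cfsg.Statements.S0354
import Cfsg.Agent.Lib.H02.Design2

set_option autoImplicit false
open Cfsg

namespace Cfsg.Agent.S0354



/-- In an S(5, 8, 24), each block is disjoint from exactly 30 blocks. -/
theorem result {α : Type*} [Fintype α] [DecidableEq α] (hα : Fintype.card α = 24) {B : Set (Finset α)} (hB : Cfsg.IsSteinerSystem 5 8 B) {b : Finset α} (hb : b ∈ B) : {c : Finset α | c ∈ B ∧ Disjoint b c}.ncard = 30 := by
  exact Cfsg.Agent.H02.Design.disjoint_count_5_8_24 hα hB hb

end Cfsg.Agent.S0354
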