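import Cfsg.Statements.S0375
import Cfsg.Agent.Lib.H02.Stn6
import Cfsg.Agent.S5622

set_option autoImplicit false
open Cfsg

namespace Cfsg.Agent.S0375


open Cfsg Cfsg.Agent.H27.Golay Cfsg.Agent.H02.Gol Cfsg.Agent.H02.Stn

theorem bas_oct : ∀ b ∈ basisL, b ∈ octadL := by decide +kernel


/-- A doubly even self-dual binary code of length 24 with no words of weight 4 is equivalent to the length-24 code built from the squares modulo 23. -/
theorem result (C : Submodule (ZMod 2) (Fin 24 → ZMod 2)) (hdim : Module.finrank (ZMod 2) C = 12) (horth : ∀ v ∈ C, ∀ w ∈ C, ∑ i, v i * w i = 0) (h4 : ∀ w ∈ C, 4 ∣ hammingNorm w) (hno4 : ∀ w ∈ C, hammingNorm w ≠ 4) : ∃ e : Fin 24 ≃ Cfsg.GolayPt, ∀ w : Cfsg.GolayPt → ZMod 2, w ∈ Cfsg.golayCode ↔ (fun i => w (e i)) ∈ C := by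
  have hmin : ∀ w ∈ C, w ≠ 0 → 8 ≤ hammingNorm w := by
    intro w hw hne
    have h1 := h4 w hw
    have h2 := hno4 w hw
    have h3 : hammingNorm w ≠ 0 := by
      rw [Ne, hammingNorm_eq_zero]
      exact hne
    obtain ⟨k, hk⟩ := h1
    have : k ≠ 0 := by
      rintro rfl
      exact h3 (by simpa using hk)
    have : k ≠ 1 := by
      rintro rfl
      exact h2 (by simpa using hk)
    omega
  obtain ⟨-, hS⟩ := Cfsg.Agent.S5622.result C hdim horth hmin
  obtain ⟨e, he⟩ := iso524 (α := Fin 24) (β := Cfsg.GolayPt) (by simp) rfl hS steiner_octads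
  refine ⟨e, ?_⟩
  let π : (Cfsg.GolayPt → ZMod 2) →ₗ[ZMod 2] (Fin 24 → ZMod 2) := LinearMap.funLeft (ZMod 2) (ZMod 2) e
  have hπ : ∀ w i, π w i = w (e i) := fun w i => rfl
  have hbas : ∀ b ∈ basisL, wd b ∈ C.comap π := by
    intro b hb
    have ho : fs b ∈ octads := fs_mem_octads (bas_oct b hb)
    rw [← he] at ho
    obtain ⟨s, ⟨⟨c, hc, rfl⟩, -⟩, hs⟩ := ho
    have : π (wd b) = c := by
      funext i
      rw [hπ]
      have h1 : e i ∈ fs b ↔ c i ≠ 0 := by
        rw [← hs]
        simp only [Finset.mem_image, EmbeddingLike.apply_eq_iff_eq, exists_eq_right]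
        simp [support₂]
      by_cases h2 : c i = 0
      · have h3 : e i ∉ fs b := fun h => (h1.mp h) h2
        rw [h2, ← chi_fs]
        simp [chi, h3]
      · have h3 : e i ∈ fs b := h1.mpr h2
        rw [zmod2_eq _ h2, ← chi_fs]
        simp [chi, h3]
    show π (wd b) ∈ C
    rw [this]
    exact hc
  have hfor : ∀ w, w ∈ golayCode → π w ∈ C := by
    intro w hw
    obtain ⟨d, -, rfl⟩ := exists_cwF_of_mem hw
    exact wd_cwAux_mem _ basisL hbas d
  intro w
  constructor
  · exact hfor w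
  · intro hw
    apply golay_selfDual
    intro c hc
    have h1 := horth _ (hfor c hc) _ hw
    rw [← h1]
    exact (Equiv.sum_comp e (fun p => c p * w p)).symm

end Cfsg.Agent.S0375
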