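import Cfsg.Statements.S0413
import Cfsg.Agent.Lib.H02.Stn8

set_option autoImplicit false
open Cfsg

namespace Cfsg.Agent.S0413



/-- Aut of an S(4, 7, 23) is simple of order 10200960 and 4-transitive. -/
theorem result {α : Type*} [Fintype α] [DecidableEq α] (hα : Fintype.card α = 23) {B : Set (Finset α)} (hB : Cfsg.IsSteinerSystem 4 7 B) : Cfsg.IsM23 (Cfsg.setSystemAut B) ∧ MulAction.IsMultiplyPretransitive (Cfsg.setSystemAut B) α 4 := by
  exact Cfsg.Agent.H02.Stn.aut423 hα hB

end Cfsg.Agent.S0413
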