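import Cfsg.Statements.S0427
import Cfsg.Agent.Lib.H02.Design5

set_option autoImplicit false
open Cfsg

namespace Cfsg.Agent.S0427




/-- The block graph (adjacent = disjoint) of an S(3, 6, 22) is strongly regular with parameters (77, 16, 0, 4). -/
theorem result {α : Type*} [Fintype α] (hα : Fintype.card α = 22) {B : Set (Finset α)} (hB : Cfsg.IsSteinerSystem 3 6 B) [Fintype B] [DecidableRel (Cfsg.blockGraph B).Adj] : (Cfsg.blockGraph B).IsSRGWith 77 16 0 4 := by
  classical
  have hcard : ∀ (s : Set B) [Fintype s], Fintype.card s = s.ncard := by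
    intro s _
    rw [← Nat.card_eq_fintype_card, Nat.card_coe_set_eq]
  refine ⟨?_, ?_, ?_, ?_⟩
  · rw [← Nat.card_eq_fintype_card, Nat.card_coe_set_eq, Cfsg.Agent.H02.Design.ncard_eq]
    exact Cfsg.Agent.H02.Design.card_blocks_3_6_22 hα hB
  · intro v
    rw [← SimpleGraph.card_neighborSet_eq_degree, hcard]
    exact Cfsg.Agent.H02.Design.blockGraph_neighbor hα hB v
  · intro v w h
    rw [hcard, Cfsg.Agent.H02.Design.blockGraph_common hα hB h.ne,
      Cfsg.Agent.H02.Design.blockGraph_adj.mp h |>.2 |> Finset.disjoint_iff_inter_eq_empty.mp]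
    rfl
  · intro v w hvw hna
    rw [hcard, Cfsg.Agent.H02.Design.blockGraph_common hα hB hvw]
    have hne : (v : Finset α) ≠ w := fun h => hvw (Subtype.ext h)
    rcases Cfsg.Agent.H02.Design.inter_3_6_22 hα hB v.2 w.2 hne with h | h
    · exfalso
      apply hna
      rw [Cfsg.Agent.H02.Design.blockGraph_adj]
      refine ⟨hvw, ?_⟩
      rw [Finset.disjoint_iff_inter_eq_empty, ← Finset.card_eq_zero]
      exact h
    · rw [h]

end Cfsg.Agent.S0427
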