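import Cfsg.Statements.S0428
import Cfsg.Agent.Lib.H02.Design7

set_option autoImplicit false
open Cfsg

namespace Cfsg.Agent.S0428



/-- The point-block graph of an S(3, 6, 22) is strongly regular with parameters (100, 22, 0, 6). -/
theorem result {α : Type*} [Fintype α] (hα : Fintype.card α = 22) {B : Set (Finset α)} (hB : Cfsg.IsSteinerSystem 3 6 B) [Fintype B] [DecidableRel (Cfsg.pointBlockGraph B).Adj] : (Cfsg.pointBlockGraph B).IsSRGWith 100 22 0 6 := by
  classical
  have hcard : ∀ (s : Set (Option (α ⊕ B))) [Fintype s], Fintype.card s = s.ncard := by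
    intro s _
    rw [← Nat.card_eq_fintype_card, Nat.card_coe_set_eq]
  refine ⟨?_, ?_, ?_, ?_⟩
  · rw [← Nat.card_eq_fintype_card, ← Set.ncard_univ]
    exact Cfsg.Agent.H02.Design.pb_card hα hB
  · intro v
    rw [← SimpleGraph.card_neighborSet_eq_degree, hcard]
    exact Cfsg.Agent.H02.Design.pb_degree hα hB v
  · intro v w h
    rw [hcard, Cfsg.Agent.H02.Design.pb_common_of_adj hα hB v w h, Set.ncard_empty]
  · intro v w hvw hna
    rw [hcard]
    exact Cfsg.Agent.H02.Design.pb_common_of_not_adj hα hB v w hvw hna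

end Cfsg.Agent.S0428
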