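import Cfsg.Statements.S0439
import Mathlib

set_option autoImplicit false
open Cfsg

namespace Cfsg.Agent.S0439

private lemma swap_order {α : Type*} [DecidableEq α] {x y : α} (h : x ≠ y) :
    orderOf (Equiv.swap x y) = 2 := by
  apply orderOf_eq_prime
  · rw [pow_two]; exact Equiv.swap_mul_self x y
  · intro h1
    have := congrArg (fun f : Equiv.Perm α => f x) h1
    simp at this
    exact h this.symm

private lemma two_swaps {α : Type*} [DecidableEq α] {a b c d : α} (hab : a ≠ b) (hcd : c ≠ d) :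
    (Equiv.swap a b * Equiv.swap c d) ^ 2 = 1 ∨ (Equiv.swap a b * Equiv.swap c d) ^ 3 = 1 := by
  have share : ∀ {x y z : α}, x ≠ y → x ≠ z → y ≠ z →
      (Equiv.swap x y * Equiv.swap x z) ^ 3 = 1 := by
    intro x y z hxy hxz hyz
    ext w
    simp only [pow_succ, pow_zero, one_mul, Equiv.Perm.mul_apply, Equiv.Perm.one_apply]
    by_cases h1 : w = x
    · subst h1; simp [Equiv.swap_apply_def, hxy, hxz, hyz, hxy.symm, hxz.symm, hyz.symm]
    by_cases h2 : w = y
    · subst h2; simp [Equiv.swap_apply_def, hxy, hxz, hyz, hxy.symm, hxz.symm, hyz.symm]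
    by_cases h3 : w = z
    · subst h3; simp [Equiv.swap_apply_def, hxy, hxz, hyz, hxy.symm, hxz.symm, hyz.symm]
    simp [Equiv.swap_apply_def, h1, h2, h3]
  by_cases h1 : a = c
  · subst h1
    by_cases h2 : b = d
    · subst h2; left; simp [pow_two, Equiv.swap_mul_self]
    · right; exact share hab hcd h2
  by_cases h2 : a = d
  · subst h2
    rw [Equiv.swap_comm c a]
    by_cases h3 : b = c
    · subst h3; left; simp [pow_two, Equiv.swap_mul_self]
    · right; exact share hab hcd.symm h3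
  by_cases h3 : b = c
  · subst h3
    rw [Equiv.swap_comm a b]
    by_cases h4 : a = d
    · exact absurd h4 h2
    · right; exact share hab.symm hcd h4
  by_cases h4 : b = d
  · subst h4
    rw [Equiv.swap_comm a b, Equiv.swap_comm c b]
    right; exact share hab.symm hcd.symm h1
  left
  have hdisj : Equiv.swap a b * Equiv.swap c d = Equiv.swap c d * Equiv.swap a b := by
    ext w
    simp only [Equiv.Perm.mul_apply]
    by_cases h5 : w = a
    · subst h5; simp [Equiv.swap_apply_def, *, Ne.symm h1, Ne.symm h2, Ne.symm h3, Ne.symm h4, Ne.symm hab, Ne.symm hcd]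
    by_cases h6 : w = b
    · subst h6; simp [Equiv.swap_apply_def, *, Ne.symm h1, Ne.symm h2, Ne.symm h3, Ne.symm h4, Ne.symm hab, Ne.symm hcd]
    by_cases h7 : w = c
    · subst h7; simp [Equiv.swap_apply_def, *, Ne.symm h1, Ne.symm h2, Ne.symm h3, Ne.symm h4, Ne.symm hab, Ne.symm hcd]
    by_cases h8 : w = d
    · subst h8; simp [Equiv.swap_apply_def, *, Ne.symm h1, Ne.symm h2, Ne.symm h3, Ne.symm h4, Ne.symm hab, Ne.symm hcd]
    simp [Equiv.swap_apply_def, *]
  rw [pow_two, mul_assoc, ← mul_assoc (Equiv.swap c d), ← hdisj]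
  simp [mul_assoc, Equiv.swap_mul_self]

/-- In the symmetric group of degree n ≥ 2, the set of transpositions is a conjugacy class of 3-transpositions which generates the group. -/
theorem result (n : ℕ) (hn : 2 ≤ n) : Cfsg.IsThreeTranspositionClass {σ : Equiv.Perm (Fin n) | σ.IsSwap} := by
  refine ⟨⟨?_, ?_⟩, ?_, ?_⟩
  · rintro d ⟨x, y, hxy, rfl⟩
    exact swap_order hxy
  · rintro d ⟨x, y, hxy, rfl⟩ e ⟨u, v, huv, rfl⟩
    exact two_swaps hxy huv
  · have h0 : (⟨0, by omega⟩ : Fin n) ≠ ⟨1, by omega⟩ := by simp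
    refine ⟨Equiv.swap ⟨0, by omega⟩ ⟨1, by omega⟩, ⟨_, _, h0, rfl⟩, ?_⟩
    ext σ
    simp only [Set.mem_setOf_eq, conjugatesOf, Set.mem_setOf_eq]
    constructor
    · rintro ⟨x, y, hxy, rfl⟩
      exact Equiv.Perm.isConj_swap h0 hxy
    · intro h
      obtain ⟨g, rfl⟩ := isConj_iff.mp h
      refine ⟨g ⟨0, by omega⟩, g ⟨1, by omega⟩, fun h' => h0 (g.injective h'), ?_⟩
      exact Equiv.swap_apply_apply g _ _ |>.symm ▸ rfl
  · exact Equiv.Perm.closure_isSwap

end Cfsg.Agent.S0439
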