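import Cfsg.Statements.S0440
import Cfsg.Agent.Lib.Lead.SpGen
-- import your own Cfsg.Agent.* helpers here

set_option autoImplicit false
open Cfsg

namespace Cfsg.Agent.S0440

open Cfsg.Agent.Lead Matrix Module

abbrev Mx (n : ℕ) := Matrix (Fin n ⊕ Fin n) (Fin n ⊕ Fin n) (ZMod 2)

theorem braid_cube {G : Type*} [Group G] (d e : G) (hd : d * d = 1) (he : e * e = 1) (h : d * e * d = e * d * e) :
    (d * e) ^ 3 = 1 := by
  have h1 : (d * e) ^ 3 = (d * e * d) * (e * d * e) := by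
    simp only [pow_succ, pow_zero, one_mul, mul_assoc]
  rw [h1, ← h]
  have h2 : d * e * d * (d * e * d) = d * e * (d * d) * e * d := by
    simp only [mul_assoc]
  rw [h2, hd, mul_one, mul_assoc d e e, he, mul_one, hd]



/-- In the symplectic group in dimension 2n ≥ 2 over the field with two elements, the elements g for which g - 1 has rank one (the symplectic transvections) form a conjugacy class of 3-transpositions generating the group. -/
theorem result (n : ℕ) (hn : 1 ≤ n) : Cfsg.IsThreeTranspositionClass {g : Matrix.symplecticGroup (Fin n) (ZMod 2) | ((g : Matrix (Fin n ⊕ Fin n) (Fin n ⊕ Fin n) (ZMod 2)) - 1).rank = 1} := by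
  classical
have hF : ∀ c : ZMod 2, c = 0 ∨ c = 1 := by decide
have h11 : (1 : ZMod 2) + 1 = 0 := by decide
have hneg : ∀ c : ZMod 2, -c = c := by decide
have hne1 : ∀ u : Fin n ⊕ Fin n → ZMod 2, u ≠ 0 → sympT u 1 ≠ 1 := by
  intro u hu h1
  obtain ⟨z, hz⟩ := sympForm_nondeg hu
  have h2 := congrArg (fun g : Matrix.symplecticGroup (Fin n) (ZMod 2) => (g : Mx n) *ᵥ z) h1
  simp only [sympT_coe, sympTmat_mulVec, one_mul] at h2
  have h3 : ((1 : Matrix.symplecticGroup (Fin n) (ZMod 2)) : Mx n) *ᵥ z = z := Matrix.one_mulVec z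
  rw [h3] at h2
  have h4 : sympForm z u • u = 0 := left_eq_add.1 h2.symm
  have h5 : sympForm z u = 0 := (smul_eq_zero.1 h4).resolve_right hu
  apply hz
  rw [sympForm_swap, h5, neg_zero]
have hsq : ∀ u : Fin n ⊕ Fin n → ZMod 2, sympT u 1 * sympT u 1 = 1 := by
  intro u
  rw [sympT_mul_same, h11, sympT_zero]
have hord : ∀ u : Fin n ⊕ Fin n → ZMod 2, u ≠ 0 → orderOf (sympT u 1) = 2 := by
  intro u hu
  apply orderOf_eq_prime
  · rw [pow_two, hsq]
  · exact hne1 u hu
have hrank : ∀ u : Fin n ⊕ Fin n → ZMod 2, u ≠ 0 →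
    (((sympT u 1 : Matrix.symplecticGroup (Fin n) (ZMod 2)) : Mx n) - 1).rank = 1 := by
  intro u hu
  have e : LinearMap.range (((sympT u 1 : Matrix.symplecticGroup (Fin n) (ZMod 2)) : Mx n) - 1).mulVecLin =
      Submodule.span (ZMod 2) {u} := by
    apply le_antisymm
    · rintro _ ⟨x, rfl⟩
      rw [Matrix.mulVecLin_apply, Matrix.sub_mulVec, sympT_coe, sympTmat_mulVec, Matrix.one_mulVec, add_sub_cancel_left,
        one_mul]
      exact Submodule.smul_mem _ _ (Submodule.mem_span_singleton_self u)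
    · rw [Submodule.span_singleton_le_iff_mem]
      obtain ⟨z, hz⟩ := sympForm_nondeg hu
      have hz' : sympForm z u ≠ 0 := by
        intro h0
        apply hz
        rw [sympForm_swap, h0, neg_zero]
      have hz1 : sympForm z u = 1 := (hF _).resolve_left hz'
      refine ⟨z, ?_⟩
      rw [Matrix.mulVecLin_apply, Matrix.sub_mulVec, sympT_coe, sympTmat_mulVec, Matrix.one_mulVec, add_sub_cancel_left,
        one_mul, hz1, one_smul]
  unfold Matrix.rank
  rw [e, finrank_span_singleton hu]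
have hB : ∀ g : Matrix.symplecticGroup (Fin n) (ZMod 2), ((g : Mx n) - 1).rank = 1 →
    ∃ u : Fin n ⊕ Fin n → ZMod 2, u ≠ 0 ∧ g = sympT u 1 := by
  intro g hg
  obtain ⟨⟨v₀, hv⟩, hv0, hspan⟩ := finrank_eq_one_iff'.1 hg
  have hv00 : v₀ ≠ 0 := fun h => hv0 (Subtype.ext h)
  obtain ⟨x₀, hx₀⟩ := hv
  rw [Matrix.mulVecLin_apply, Matrix.sub_mulVec, Matrix.one_mulVec] at hx₀
  have hphi : ∀ x, ∃ c : ZMod 2, (g : Mx n) *ᵥ x = x + c • v₀ := by
    intro x
    obtain ⟨c, hc⟩ := hspan ⟨_, ⟨x, rfl⟩⟩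
    have hc' : c • v₀ = ((g : Mx n) - 1) *ᵥ x := congrArg Subtype.val hc
    refine ⟨c, ?_⟩
    rw [hc', Matrix.sub_mulVec, Matrix.one_mulVec]
    abel
  choose φ hφ using hphi
  have hrel : ∀ x y, φ y * sympForm x v₀ + φ x * sympForm v₀ y = 0 := by
    intro x y
    have h1 := sympForm_mulVec g.2 x y
    rw [hφ x, hφ y] at h1
    simp only [sympForm_add_left, sympForm_add_right, sympForm_smul_left, sympForm_smul_right, sympForm_self, mul_zero,
      add_zero] at h1
    linear_combination h1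
  have hφ0 : φ x₀ = 1 := by
    rcases hF (φ x₀) with h | h
    · exfalso
      apply hv00
      have h1 := hφ x₀
      rw [h, zero_smul, add_zero] at h1
      rw [← hx₀, h1, sub_self]
    · exact h
  obtain ⟨z, hz⟩ := sympForm_nondeg hv00
  have hz1 : sympForm v₀ z = 1 := (hF _).resolve_left hz
  have hx1 : sympForm x₀ v₀ = 1 := by
    have h1 := hrel x₀ z
    rw [hφ0, hz1, one_mul] at h1
    rcases hF (sympForm x₀ v₀) with h | h
    · exfalso
      rw [h, mul_zero, zero_add] at h1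
      exact one_ne_zero h1
    · exact h
  have hform : ∀ y, φ y = sympForm y v₀ := by
    intro y
    have h1 := hrel x₀ y
    rw [hφ0, hx1, one_mul, mul_one] at h1
    have h2 : φ y = - sympForm v₀ y := eq_neg_of_add_eq_zero_left h1
    rw [h2, ← sympForm_swap]
  refine ⟨v₀, hv00, ?_⟩
  apply Subtype.ext
  apply mat_ext_mulVec
  intro x
  rw [sympT_coe, sympTmat_mulVec, one_mul, hφ, hform]
have hD : ∀ g : Matrix.symplecticGroup (Fin n) (ZMod 2), g ∈ {g : Matrix.symplecticGroup (Fin n) (ZMod 2) | ((g : Mx n) - 1).rank = 1} ↔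
    ∃ u : Fin n ⊕ Fin n → ZMod 2, u ≠ 0 ∧ g = sympT u 1 := by
  intro g
  constructor
  · exact hB g
  · rintro ⟨u, hu, rfl⟩
    exact hrank u hu
have hinv : ∀ u : Fin n ⊕ Fin n → ZMod 2, (sympT u 1)⁻¹ = sympT u 1 := by
  intro u
  exact inv_eq_of_mul_eq_one_left (hsq u)
have hact : ∀ a b : Fin n ⊕ Fin n → ZMod 2, sympT a 1 * sympT b 1 * sympT a 1 = sympT (b + sympForm b a • a) 1 := by
  intro a b
  have h1 := conj_sympT (sympT a 1) b 1
  rw [hinv, sympT_coe, sympTmat_mulVec, one_mul] at h1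
  exact h1
-- the base vector
have hn0 : 0 < n := hn
let e₀ : Fin n ⊕ Fin n → ZMod 2 := Pi.single (Sum.inl ⟨0, hn0⟩) 1
have he₀ : e₀ ≠ 0 := by
  intro h
  have := congrFun h (Sum.inl ⟨0, hn0⟩)
  simp [e₀] at this
refine ⟨⟨?_, ?_⟩, ⟨sympT e₀ 1, (hD _).2 ⟨e₀, he₀, rfl⟩, ?_⟩, ?_⟩
· intro d hd
  obtain ⟨u, hu, rfl⟩ := (hD d).1 hd
  exact hord u hu
· intro d hd e he
  obtain ⟨a, ha, rfl⟩ := (hD d).1 hd
  obtain ⟨b, hb, rfl⟩ := (hD e).1 he
  rcases hF (sympForm b a) with h | h
  · left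
    have h1 := hact a b
    rw [h, zero_smul, add_zero] at h1
    have h2 : (sympT a 1 * sympT b 1) * (sympT a 1 * sympT b 1) = 1 := by
      calc (sympT a 1 * sympT b 1) * (sympT a 1 * sympT b 1) = (sympT a 1 * sympT b 1 * sympT a 1) * sympT b 1 := by
            simp only [mul_assoc]
        _ = 1 := by rw [h1, hsq]
    rw [pow_two]
    exact h2
  · right
    have h1 := hact a b
    have h2 := hact b a
    have h3 : sympForm a b = 1 := by
      rw [sympForm_swap, h, hneg]
    rw [h, one_smul] at h1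
    rw [h3, one_smul] at h2
    apply braid_cube _ _ (hsq a) (hsq b)
    rw [h1, h2, add_comm]
· ext g
  rw [hD]
  change _ ↔ IsConj _ _
  constructor
  · rintro ⟨u, hu, rfl⟩
    obtain ⟨h, hh⟩ := sp_transitive he₀ hu
    rw [isConj_iff]
    refine ⟨h, ?_⟩
    rw [conj_sympT, hh]
  · intro hc
    rw [isConj_iff] at hc
    obtain ⟨h, rfl⟩ := hc
    rw [conj_sympT]
    refine ⟨_, ?_, rfl⟩
    intro h0
    apply he₀
    have h1 := congrArg (fun w => ((h⁻¹ : Matrix.symplecticGroup (Fin n) (ZMod 2)) : Mx n) *ᵥ w) h0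
    simp only [Matrix.mulVec_zero] at h1
    have h2 := sp_inv_mulVec h⁻¹ e₀
    rw [inv_inv] at h2
    rw [← h2]
    exact h1
· apply sp_induction
  intro u c
  rcases hF c with rfl | rfl
  · rw [sympT_zero]
    exact Subgroup.one_mem _
  · by_cases hu : u = 0
    · rw [hu, sympT_zero_vec]
      exact Subgroup.one_mem _
    · exact Subgroup.subset_closure ((hD _).2 ⟨u, hu, rfl⟩)

end Cfsg.Agent.S0440
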