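import Cfsg.Statements.S0442
import Mathlib

set_option autoImplicit false
open Cfsg

namespace Cfsg.Agent.S0442

private lemma key {G : Type*} [Group G] (a b : G) (ha : a * a = 1) (hb : b * b = 1) (m : ℕ) :
    (a * b) ^ m * a = a * ((a * b) ^ m)⁻¹ := by
  have hai : a⁻¹ = a := inv_eq_of_mul_eq_one_left ha
  have h1 : a * (a * b) * a⁻¹ = (a * b)⁻¹ := by
    rw [mul_inv_rev, hai, ← mul_assoc, ha, one_mul, inv_eq_of_mul_eq_one_left hb]
  have h2 : a * (a * b) ^ m * a⁻¹ = ((a * b) ^ m)⁻¹ := by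
    have := map_pow (MulAut.conj a) (a * b) m
    simp only [MulAut.conj_apply] at this
    rw [this, h1, inv_pow]
  rw [← h2]
  simp only [hai, mul_assoc]
  rw [← mul_assoc a a, ha, one_mul]

private lemma comm_of {G : Type*} [Group G] (a b : G) (ha : a * a = 1) (hb : b * b = 1) (m : ℕ)
    (hm : (a * b) ^ (2 * m) = 1) : Commute ((a * b) ^ m) a := by
  have hk := key a b ha hb m
  have h3 : ((a * b) ^ m)⁻¹ = (a * b) ^ m := by
    rw [inv_eq_iff_mul_eq_one, ← pow_add, ← two_mul]; exact hm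
  rw [h3] at hk
  exact hk

/-- A standard trick for producing elements of an involution centraliser: for an involution a and an element g, let b be the conjugate g⁻¹ * a * g. If a * b has odd order 2m + 1 then g * (a * b) ^ m commutes with a; if a * b has even order 2m then (a * b) ^ m and (a * (g * a * g⁻¹)) ^ m commute with a. -/
theorem result {G : Type*} [Group G] (a g : G) (ha : orderOf a = 2) : (∀ m : ℕ, orderOf (a * (g⁻¹ * a * g)) = 2 * m + 1 → Commute (g * (a * (g⁻¹ * a * g)) ^ m) a) ∧ (∀ m : ℕ, orderOf (a * (g⁻¹ * a * g)) = 2 * m → Commute ((a * (g⁻¹ * a * g)) ^ m) a ∧ Commute ((a * (g * a * g⁻¹)) ^ m) a) := by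
  have haa : a * a = 1 := by
    have := pow_orderOf_eq_one a
    rw [ha, pow_two] at this; exact this
  have hai : a⁻¹ = a := inv_eq_of_mul_eq_one_left haa
  have hbb : (g⁻¹ * a * g) * (g⁻¹ * a * g) = 1 := by
    calc (g⁻¹ * a * g) * (g⁻¹ * a * g) = g⁻¹ * (a * a) * g := by group
      _ = 1 := by rw [haa]; group
  have hcc : (g * a * g⁻¹) * (g * a * g⁻¹) = 1 := by
    calc (g * a * g⁻¹) * (g * a * g⁻¹) = g * (a * a) * g⁻¹ := by group
      _ = 1 := by rw [haa]; group
  constructor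
  · intro m hm
    set b := g⁻¹ * a * g with hb
    set d := a * b with hd
    have hd1 : d ^ (2 * m + 1) = 1 := by rw [← hm]; exact pow_orderOf_eq_one d
    have hk := key a b haa hbb m
    rw [← hd] at hk
    have hbi : b⁻¹ = b := inv_eq_of_mul_eq_one_left hbb
    have h2m : d ^ (2 * m) = b * a := by
      have : d ^ (2 * m) * d = 1 := by rw [← pow_succ]; exact hd1
      rw [eq_inv_of_mul_eq_one_left this, hd, mul_inv_rev, hai, hbi]
    -- d^m a = b d^m
    have h3 : d ^ m * a = b * d ^ m := by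
      rw [hk]
      have : a = b * d ^ (2 * m) := by rw [h2m, ← mul_assoc, hbb, one_mul]
      calc a * (d ^ m)⁻¹ = (b * d ^ (2 * m)) * (d ^ m)⁻¹ := by rw [← this]
        _ = b * d ^ m := by rw [two_mul, pow_add]; group
    have h4 : g * b = a * g := by rw [hb]; group
    show g * d ^ m * a = a * (g * d ^ m)
    rw [mul_assoc, h3, ← mul_assoc, h4, mul_assoc]
  · intro m hm
    have hd1 : (a * (g⁻¹ * a * g)) ^ (2 * m) = 1 := by rw [← hm]; exact pow_orderOf_eq_one _
    refine ⟨comm_of a _ haa hbb m hd1, comm_of a _ haa hcc m ?_⟩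
    have hconj : g⁻¹ * (a * (g * a * g⁻¹)) * g = (a * (g⁻¹ * a * g))⁻¹ := by
      rw [mul_inv_rev, inv_eq_of_mul_eq_one_left hbb, hai]; group
    have h5 : (g⁻¹ * (a * (g * a * g⁻¹)) * g) ^ (2 * m) = 1 := by
      rw [hconj, inv_pow, hd1, inv_one]
    have h6 := map_pow (MulAut.conj g⁻¹) (a * (g * a * g⁻¹)) (2 * m)
    simp only [MulAut.conj_apply, inv_inv] at h6
    rw [h5] at h6
    have h7 : g⁻¹ * (a * (g * a * g⁻¹)) ^ (2 * m) * g = 1 := by
      rw [← h6]
    calc (a * (g * a * g⁻¹)) ^ (2 * m) = g * (g⁻¹ * (a * (g * a * g⁻¹)) ^ (2 * m) * g) * g⁻¹ := by group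
      _ = 1 := by rw [h7]; group

end Cfsg.Agent.S0442
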