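import Cfsg.Statements.S0443
import Mathlib

set_option autoImplicit false
open Cfsg

namespace Cfsg.Agent.S0443

/-- Two definitions of a 2-central involution agree: an element t of order 2 of a finite group lies in the centre of some Sylow 2-subgroup if and only if its centraliser contains some Sylow 2-subgroup. -/
theorem result {G : Type*} [Group G] [Finite G] (t : G) (ht : orderOf t = 2) : Cfsg.IsTwoCentralInvolution t ↔ ∃ P : Sylow 2 G, (P : Subgroup G) ≤ Subgroup.centralizer ({t} : Set G) := by
  constructor
  · rintro ⟨-, P, htP, hP⟩
    refine ⟨P, fun x hx => ?_⟩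
    rw [Subgroup.mem_centralizer_singleton_iff]
    exact hP x hx
  · rintro ⟨P, hP⟩
    refine ⟨ht, P, ?_, fun x hx => ?_⟩
    · have h2 : IsPGroup 2 (Subgroup.zpowers t) := by
        rw [IsPGroup.iff_card, Nat.card_zpowers, ht]
        exact ⟨1, by norm_num⟩
      have hnorm : (P : Subgroup G) ≤ Subgroup.normalizer ((Subgroup.zpowers t : Subgroup G) : Set G) := by
        have h3 : Subgroup.centralizer ({t} : Set G) ≤ Subgroup.centralizer ((Subgroup.zpowers t : Subgroup G) : Set G) := by
          rw [Subgroup.zpowers_eq_closure, Subgroup.centralizer_closure]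
        exact hP.trans (h3.trans (Subgroup.centralizer_le_normalizer _))
      have hsup := P.isPGroup'.to_sup_of_normal_right' h2 hnorm
      have hle : (P : Subgroup G) ≤ (P : Subgroup G) ⊔ Subgroup.zpowers t := le_sup_left
      have heq := P.is_maximal' hsup hle
      have htmem : t ∈ (P : Subgroup G) ⊔ Subgroup.zpowers t :=
        (le_sup_right : Subgroup.zpowers t ≤ _) (Subgroup.mem_zpowers t)
      rw [heq] at htmem
      exact htmem
    · have := hP hx
      rw [Subgroup.mem_centralizer_singleton_iff] at this
      exact this

end Cfsg.Agent.S0443
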