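import Cfsg.Statements.S0444
import Mathlib

set_option autoImplicit false
open Cfsg

namespace Cfsg.Agent.S0444

/-- index of a permutation in the list of six -/
private def idx (σ : Equiv.Perm (Fin 3)) : Fin 6 :=
  if σ = 1 then 0
  else if σ = Equiv.swap 0 1 then 1
  else if σ = Equiv.swap 1 2 then 2
  else if σ = Equiv.swap 0 1 * Equiv.swap 1 2 then 3
  else if σ = Equiv.swap 1 2 * Equiv.swap 0 1 then 4
  else 5

private def word {G : Type*} [Group G] (d e : G) : Fin 6 → G :=
  ![1, d, e, d * e, e * d, d * e * d]

private def mulT (i j : Fin 6) : Fin 6 :=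
  idx ((![1, Equiv.swap 0 1, Equiv.swap 1 2, Equiv.swap 0 1 * Equiv.swap 1 2,
    Equiv.swap 1 2 * Equiv.swap 0 1, Equiv.swap 0 1 * Equiv.swap 1 2 * Equiv.swap 0 1] : Fin 6 → Equiv.Perm (Fin 3)) i *
    (![1, Equiv.swap 0 1, Equiv.swap 1 2, Equiv.swap 0 1 * Equiv.swap 1 2,
    Equiv.swap 1 2 * Equiv.swap 0 1, Equiv.swap 0 1 * Equiv.swap 1 2 * Equiv.swap 0 1] : Fin 6 → Equiv.Perm (Fin 3)) j)

private lemma idx_mul (σ τ : Equiv.Perm (Fin 3)) : idx (σ * τ) = mulT (idx σ) (idx τ) := by
  revert σ τ; decide


/-- Two members of a set of 3-transpositions which do not commute generate a subgroup isomorphic to the symmetric group on three letters. -/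
theorem result {G : Type*} [Group G] {E : Set G} (hE : Cfsg.IsThreeTranspositionSet E) {d e : G} (hd : d ∈ E) (he : e ∈ E) (h : ¬ Commute d e) : Nonempty (Subgroup.closure ({d, e} : Set G) ≃* Equiv.Perm (Fin 3)) := by
  classical
  have inv2 : ∀ x ∈ E, x * x = 1 := fun x hx => by
    have := pow_orderOf_eq_one x
    rw [hE.1 x hx, pow_two] at this; exact this
  have hdd := inv2 d hd
  have hee := inv2 e he
  have hdi : d⁻¹ = d := inv_eq_of_mul_eq_one_left hdd
  have hei : e⁻¹ = e := inv_eq_of_mul_eq_one_left hee
  have hded : d * e * d = e * d * e := by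
    rcases hE.2 d hd e he with h4 | h4
    · exfalso
      apply h
      rw [pow_two] at h4
      have : d * e = (d * e)⁻¹ := eq_inv_of_mul_eq_one_left h4
      rw [mul_inv_rev, hei, hdi] at this
      exact this
    · rw [pow_three] at h4
      have h6 : d * e * d * (e * d * e)⁻¹ = 1 := by
        rw [mul_inv_rev, mul_inv_rev, hei, hdi]
        calc d * e * d * (e * (d * e)) = (d * e) * ((d * e) * (d * e)) := by group
          _ = 1 := h4
      exact eq_of_mul_inv_eq_one h6
  have hdd' : ∀ x : G, d * (d * x) = x := fun x => by rw [← mul_assoc, hdd, one_mul]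
  have hee' : ∀ x : G, e * (e * x) = x := fun x => by rw [← mul_assoc, hee, one_mul]
  have hede : e * (d * e) = d * (e * d) := by simpa [mul_assoc] using hded.symm
  have hede' : ∀ x : G, e * (d * (e * x)) = d * (e * (d * x)) := fun x => by
    calc e * (d * (e * x)) = (e * (d * e)) * x := by group
      _ = (d * (e * d)) * x := by rw [hede]
      _ = _ := by group
  have hdede : d * (e * (d * e)) = e * d := by
    rw [hede, hdd']
  have hdede' : ∀ x : G, d * (e * (d * (e * x))) = e * (d * x) := fun x => by
    rw [hede', hdd']
  have hword : ∀ i j : Fin 6, word d e (mulT i j) = word d e i * word d e j := by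
    have hm : ∀ i j : Fin 6, mulT i j = (![
      ![0, 1, 2, 3, 4, 5], ![1, 0, 3, 2, 5, 4], ![2, 4, 0, 5, 1, 3],
      ![3, 5, 1, 4, 0, 2], ![4, 2, 5, 0, 3, 1], ![5, 3, 4, 1, 2, 0]] : Fin 6 → Fin 6 → Fin 6) i j := by decide
    intro i j
    rw [hm]
    fin_cases i <;> fin_cases j <;>
      simp [word, mul_assoc, hdd, hee, hdd', hee', hede, hede', hdede, hdede']
  let f : Equiv.Perm (Fin 3) →* G :=
    { toFun := fun σ => word d e (idx σ)
      map_one' := by
        have : idx 1 = 0 := by decide
        rw [this]; simp [word]
      map_mul' := fun σ τ => by rw [idx_mul, hword] }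
  have hf : ∀ σ, f σ = word d e (idx σ) := fun _ => rfl
  have hinj : Function.Injective f := by
    rw [injective_iff_map_eq_one]
    intro σ hσ
    have hd1 : d ≠ 1 := by
      rintro rfl
      exact h (Commute.one_left e)
    have he1 : e ≠ 1 := by
      rintro rfl
      exact h (Commute.one_right d)
    have hmm : ∀ σ : Equiv.Perm (Fin 3), idx σ = 0 ∨ (idx σ ≠ 0 ∧ σ ≠ 1) := by decide
    have hzero : ∀ σ : Equiv.Perm (Fin 3), idx σ = 0 → σ = 1 := by decide
    apply hzero
    by_contra hne
    have hvals : ∀ i : Fin 6, i ≠ 0 → word d e i ≠ 1 := by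
      intro i hi
      fin_cases i
      · exact absurd rfl hi
      · simpa [word] using hd1
      · simpa [word] using he1
      · simp only [word]
        intro h1
        apply h
        have h2 : d = e := by
          have : d * e = 1 := by simpa using h1
          have h3 := eq_inv_of_mul_eq_one_left this
          rwa [hei] at h3
        rw [h2]
      · simp only [word]
        intro h1
        apply h
        have h2 : d = e := by
          have : e * d = 1 := by simpa using h1
          have h3 := eq_inv_of_mul_eq_one_right this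
          rwa [hei] at h3
        rw [h2]
      · simp only [word]
        intro h1
        apply he1
        have : d * e * d = 1 := by simpa using h1
        have h3 : d * (d * e * d) * d = d * 1 * d := by rw [this]
        have h4 : d * (d * e * d) * d = (d * d) * e * (d * d) := by group
        rw [h4, hdd] at h3
        simpa [hdd] using h3
    exact hvals _ hne hσ
  have hrange : f.range = Subgroup.closure ({d, e} : Set G) := by
    apply le_antisymm
    · rintro x ⟨σ, rfl⟩
      have hdm : d ∈ Subgroup.closure ({d, e} : Set G) := Subgroup.subset_closure (by simp)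
      have hem : e ∈ Subgroup.closure ({d, e} : Set G) := Subgroup.subset_closure (by simp)
      rw [hf]
      generalize idx σ = i
      fin_cases i
      · simp [word]
      · simpa [word] using hdm
      · simpa [word] using hem
      · simpa [word] using Subgroup.mul_mem _ hdm hem
      · simpa [word] using Subgroup.mul_mem _ hem hdm
      · simpa [word, mul_assoc] using Subgroup.mul_mem _ (Subgroup.mul_mem _ hdm hem) hdm
    · rw [Subgroup.closure_le]
      intro x hx
      rcases hx with hx | hx
      · refine ⟨Equiv.swap 0 1, ?_⟩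
        have : idx (Equiv.swap 0 1) = 1 := by decide
        rw [hf, this, hx]; simp [word]
      · refine ⟨Equiv.swap 1 2, ?_⟩
        have : idx (Equiv.swap 1 2) = 2 := by decide
        have hx' : x = e := hx
        rw [hf, this, hx']; simp [word]
  have e1 : Equiv.Perm (Fin 3) ≃* f.range := MonoidHom.ofInjective hinj
  exact ⟨(MulEquiv.subgroupCongr hrange.symm).trans e1.symm⟩

end Cfsg.Agent.S0444
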