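import Cfsg.Statements.S0446
import Mathlib

set_option autoImplicit false
open Cfsg

namespace Cfsg.Agent.S0446

/-- Every finite group of even order contains a 2-central involution, i.e. an element of order 2 in the centre of some Sylow 2-subgroup. -/
theorem result {G : Type*} [Group G] [Finite G] (h : Even (Nat.card G)) : ∃ t : G, Cfsg.IsTwoCentralInvolution t := by
  classical
  haveI : Fact (Nat.Prime 2) := ⟨Nat.prime_two⟩
  have h2 : 2 ∣ Nat.card G := h.two_dvd
  obtain P : Sylow 2 G := default
  have hcard : 2 ∣ Nat.card (P : Subgroup G) := by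
    have hfac := P.card_eq_multiplicity
    rw [hfac]
    have hne : Nat.card G ≠ 0 := Nat.card_pos.ne'
    have hpos : 0 < (Nat.card G).factorization 2 :=
      Nat.Prime.factorization_pos_of_dvd Nat.prime_two hne h2
    exact dvd_pow_self 2 hpos.ne'
  haveI : Nontrivial (P : Subgroup G) := by
    rw [← Finite.one_lt_card_iff_nontrivial]
    exact lt_of_lt_of_le one_lt_two (Nat.le_of_dvd Nat.card_pos hcard)
  haveI : Nontrivial (Subgroup.center (P : Subgroup G)) := P.isPGroup'.center_nontrivial
  have hc2 : 2 ∣ Nat.card (Subgroup.center (P : Subgroup G)) := by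
    have hpg : IsPGroup 2 (Subgroup.center (P : Subgroup G)) :=
      P.isPGroup'.to_subgroup _
    obtain ⟨k, hk⟩ := IsPGroup.iff_card.mp hpg
    rw [hk]
    have hk0 : k ≠ 0 := by
      rintro rfl
      have : Nat.card (Subgroup.center (P : Subgroup G)) = 1 := by simpa using hk
      have h1 := Finite.one_lt_card (α := Subgroup.center (P : Subgroup G))
      omega
    exact dvd_pow_self 2 hk0
  obtain ⟨x, hx⟩ := exists_prime_orderOf_dvd_card' 2 hc2
  refine ⟨((x : Subgroup.center (P : Subgroup G)) : (P : Subgroup G)), ?_, P, ?_, ?_⟩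
  · rw [Subgroup.orderOf_coe, Subgroup.orderOf_coe]; exact hx
  · exact SetLike.coe_mem _
  · intro y hy
    have hmem := (Subgroup.mem_center_iff.mp x.2) ⟨y, hy⟩
    exact congrArg Subtype.val hmem

end Cfsg.Agent.S0446
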