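import Cfsg.Statements.S0462
import Mathlib
import Cfsg.Agent.Lib.H07.PermRep
import Cfsg.Agent.Lib.H07.CD.HeFinal
import Cfsg.Agent.S1682
import Cfsg.Agent.S1695

set_option autoImplicit false
open Cfsg

namespace Cfsg.Agent.S0462

/-- The Held group exists as a transitive permutation group of degree 2058: simple of order 4030387200, with point stabiliser containing, with index 2, a copy of the 4-dimensional symplectic group over the field with four elements. -/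
theorem result : ∃ H : Subgroup (Equiv.Perm (Fin 2058)), Cfsg.IsHe H ∧ MulAction.IsPretransitive H (Fin 2058) ∧ ∃ (F : Type) (_ : Field F) (_ : Fintype F), Fintype.card F = 4 ∧ ∃ N : Subgroup (MulAction.stabilizer H (0 : Fin 2058)), N.index = 2 ∧ Nonempty (N ≃* Matrix.symplecticGroup (Fin 2) F) := by
  classical
  have : Finite Cfsg.Spor.He := Cfsg.Agent.H07.CD.HeFinal.hub.1
  let ρ := Cfsg.Agent.H07.Coset.rhoT Cfsg.Agent.H07.CD.He2058.tabRep.hb Cfsg.Agent.H07.CD.He2058.tabRep.hi Cfsg.Agent.H07.CD.He2058.tabRep.hrel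
  have hinj : Function.Injective ρ :=
    (Cfsg.Agent.H07.SimpleT.card_and_inj ρ Cfsg.Agent.H07.CD.HeFinal.hub.2 Cfsg.Agent.H07.CD.He2058.card_lower).2
  obtain ⟨N, K, i1, i2, -, hidx, hK, ⟨eN⟩⟩ := Cfsg.Agent.S1682.result
  have hS : Cfsg.Agent.H07.CD.He2058.cS = ({Cfsg.Spor.He.a, Cfsg.Spor.He.c, Cfsg.Spor.He.d, Cfsg.Spor.He.e, Cfsg.Spor.He.f, (Cfsg.Spor.He.a * Cfsg.Spor.He.b) ^ 2, (Cfsg.Spor.He.b * Cfsg.Spor.He.c * Cfsg.Spor.He.d * Cfsg.Spor.He.e) ^ 7} : Set (FreeGroup Cfsg.Spor.He.Gen)) := rfl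
  obtain ⟨e2⟩ := Cfsg.Agent.H07.TT3.rep_stab ρ hinj Cfsg.Agent.H07.CD.He2058.htrans _
    (Cfsg.Agent.H07.Coset.rhoT_fix Cfsg.Agent.H07.CD.He2058.tabRep.hb Cfsg.Agent.H07.CD.He2058.tabRep.hi Cfsg.Agent.H07.CD.He2058.tabRep.hrel Cfsg.Agent.H07.CD.He2058.hSfix)
    Cfsg.Agent.H07.CD.He2058.index_eq
  obtain ⟨h1, h2⟩ := Cfsg.Agent.H07.TT3.rep_simple ρ hinj Cfsg.Agent.S1695.result.1
  refine ⟨ρ.range, ⟨h1, ?_⟩, Cfsg.Agent.H07.TT3.rep_pretrans ρ Cfsg.Agent.H07.CD.He2058.htrans, K, i1, i2, hK, ?_⟩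
  · rw [h2]
    exact Cfsg.Agent.S1695.result.2
  · rw [hS] at e2
    refine ⟨N.map e2.toMonoidHom, ?_, ⟨(e2.subgroupMap N).symm.trans eN⟩⟩
    exact (Subgroup.index_map_equiv N e2).trans hidx

end Cfsg.Agent.S0462
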