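import Cfsg.Statements.S0471
import Mathlib
import Cfsg.Agent.Lib.H07.CD.Fi22Cl
import Cfsg.Agent.Lib.H07.TT3U
import Cfsg.Agent.S1684
import Cfsg.Agent.S1696

set_option autoImplicit false
open Cfsg

namespace Cfsg.Agent.S0471

/-- The Fischer group of order 64561751654400 exists as a 3-transposition group: a simple group of that order generated by a conjugacy class of 3510 3-transpositions, the centraliser of each being a non-split double cover of PSU(6, 2). -/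
theorem result : ∃ (G : Type) (_ : Group G) (_ : Finite G), Cfsg.IsFi22 G ∧ ∃ D : Set G, Cfsg.IsThreeTranspositionClass D ∧ Nat.card D = 3510 ∧ ∀ d ∈ D, ∃ (F : Type) (_ : Field F) (_ : Fintype F), Fintype.card F = 4 ∧ Cfsg.IsNonsplitDoubleCover (Subgroup.centralizer ({d} : Set G)) (Cfsg.PSU 6 F 2) := by
  obtain ⟨F, i1, i2, hc, hF⟩ := Cfsg.Agent.S1684.result
  refine ⟨Cfsg.Spor.Fi22, inferInstance, Cfsg.Agent.H07.CD.Fi22Final.hub.1, Cfsg.Agent.S1696.result,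
    conjugatesOf Cfsg.Agent.H07.CD.Fi22Cl.zz, Cfsg.Agent.H07.CD.Fi22Cl.main.2.2, Cfsg.Agent.H07.CD.Fi22Cl.main.2.1, ?_⟩
  intro d hd
  haveI : Finite Cfsg.Agent.H07.CD.Fi22Cl.GG := Cfsg.Agent.H07.CD.Fi22Final.hub.1
  refine ⟨F, i1, i2, hc, Cfsg.Agent.H07.TT3.nonsplit_on_class Cfsg.Agent.H07.CD.Fi22Cl.zz Cfsg.Agent.H07.CD.Fi22Cl.HH
    Cfsg.Agent.H07.CD.Fi22Cl.main.1 ?_ d hd⟩
  have hS : Cfsg.Agent.H07.CD.Fi22T.cS = ({Cfsg.Spor.Fi22.a, Cfsg.Spor.Fi22.c, Cfsg.Spor.Fi22.d, Cfsg.Spor.Fi22.e, Cfsg.Spor.Fi22.f, Cfsg.Spor.Fi22.g, Cfsg.Spor.Fi22.h, Cfsg.Spor.Fi22.i, (Cfsg.Spor.Fi22.a * Cfsg.Spor.Fi22.b * Cfsg.Spor.Fi22.c * Cfsg.Spor.Fi22.d * Cfsg.Spor.Fi22.e * Cfsg.Spor.Fi22.h) ^ 5} : Set (FreeGroup Cfsg.Spor.Fi22.Gen)) := rfl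
  show Cfsg.IsNonsplitDoubleCover (((Subgroup.closure Cfsg.Agent.H07.CD.Fi22T.cS).map (PresentedGroup.mk (Cfsg.Spor.coxRelators Cfsg.Spor.Fi22.edges ∪ {r | r ∈ Cfsg.Spor.Fi22.extra})))) (Cfsg.PSU 6 F 2)
  rw [hS]
  exact hF

end Cfsg.Agent.S0471
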