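import Cfsg.Statements.S0481
import Mathlib

set_option autoImplicit false
open Cfsg
open scoped Pointwise

namespace Cfsg.Agent.S0481

/-- Large extraspecial subgroups: let z be an involution of a finite group G whose centraliser C contains a normal 2-subgroup Q with centre of order 2 and all squares central, such that every element of G centralising Q lies in Q. Then C contains a Sylow 2-subgroup of G, and any involution of G whose centraliser contains a Sylow 2-subgroup of G is conjugate to z. -/
theorem result {G : Type*} [Group G] [Finite G] (z : G) (hz : orderOf z = 2) (Q : Subgroup G) (hQC : Q ≤ Subgroup.centralizer ({z} : Set G)) (hQn : ∀ g ∈ Subgroup.centralizer ({z} : Set G), ∀ q ∈ Q, g * q * g⁻¹ ∈ Q) (hQ2 : IsPGroup 2 Q) (hZ : Nat.card (Subgroup.center Q) = 2) (hsq : ∀ x : Q, x ^ 2 ∈ Subgroup.center Q) (hlarge : Subgroup.centralizer (Q : Set G) ≤ Q) : (∃ P : Sylow 2 G, (P : Subgroup G) ≤ Subgroup.centralizer ({z} : Set G)) ∧ ∀ u : G, orderOf u = 2 → (∃ P : Sylow 2 G, (P : Subgroup G) ≤ Subgroup.centralizer ({u} : Set G)) → IsConj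 z u := by
  classical
  haveI : Fact (Nat.Prime 2) := ⟨Nat.prime_two⟩
  -- z is in Q and central there
  have hzQ : z ∈ Q := by
    apply hlarge
    rw [Subgroup.mem_centralizer_iff]
    intro h hh
    have := hQC hh
    rw [Subgroup.mem_centralizer_singleton_iff] at this
    exact this
  have hzC : (⟨z, hzQ⟩ : Q) ∈ Subgroup.center Q := by
    rw [Subgroup.mem_center_iff]
    intro g
    apply Subtype.ext
    have := hQC g.2
    rw [Subgroup.mem_centralizer_singleton_iff] at this
    exact this
  have hz1 : (⟨z, hzQ⟩ : Q) ≠ 1 := by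
    intro h
    have : z = 1 := congrArg Subtype.val h
    rw [this, orderOf_one] at hz
    omega
  -- any element of Z(Q) nontrivial equals z
  have huniq : ∀ x : Q, x ∈ Subgroup.center Q → x ≠ 1 → x = ⟨z, hzQ⟩ := by
    intro x hx hx1
    by_contra hne
    have h3 : ({⟨1, Subgroup.one_mem _⟩, ⟨x, hx⟩, ⟨⟨z, hzQ⟩, hzC⟩} : Finset (Subgroup.center Q)).card = 3 := by
      rw [Finset.card_insert_of_notMem, Finset.card_insert_of_notMem, Finset.card_singleton]
      · simp only [Finset.mem_singleton, Subtype.mk.injEq]; exact hne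
      · simp only [Finset.mem_insert, Finset.mem_singleton, Subtype.mk.injEq, not_or]
        exact ⟨fun h => hx1 h.symm, fun h => hz1 h.symm⟩
    have h4 : ({⟨1, Subgroup.one_mem _⟩, ⟨x, hx⟩, ⟨⟨z, hzQ⟩, hzC⟩} : Finset (Subgroup.center Q)).card ≤ Nat.card (Subgroup.center Q) := by
      haveI : Fintype (Subgroup.center Q) := Fintype.ofFinite _
      rw [Nat.card_eq_fintype_card]
      exact Finset.card_le_univ _
    omega
  -- key: for every Sylow P containing Q, z ∈ Z(P); elements of Z(P) of G ... 
  obtain ⟨P, hP⟩ := hQ2.exists_le_sylow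
  have hZPsub : ∀ y ∈ (P : Subgroup G), (∀ w ∈ (P : Subgroup G), w * y = y * w) → y = 1 ∨ y = z := by
    intro y hy hyc
    have hyQ : y ∈ Q := by
      apply hlarge
      rw [Subgroup.mem_centralizer_iff]
      intro h hh
      exact hyc h (hP hh)
    by_cases hy1 : y = 1
    · exact Or.inl hy1
    · right
      have hmem : (⟨y, hyQ⟩ : Q) ∈ Subgroup.center Q := by
        rw [Subgroup.mem_center_iff]
        intro g
        apply Subtype.ext
        exact hyc g (hP g.2)
      have := huniq ⟨y, hyQ⟩ hmem (fun h => hy1 (congrArg Subtype.val h))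
      exact congrArg Subtype.val this
  -- Z(P) nontrivial
  have hzP : z ∈ (P : Subgroup G) := hP hzQ
  have hznt : Nontrivial (P : Subgroup G) := ⟨⟨⟨z, hzP⟩, 1, fun h => by
    have : z = 1 := congrArg Subtype.val h
    rw [this, orderOf_one] at hz
    omega⟩⟩
  have hcn : Nontrivial (Subgroup.center (P : Subgroup G)) := P.isPGroup'.center_nontrivial
  obtain ⟨y, hy1⟩ := exists_ne (1 : Subgroup.center (P : Subgroup G))
  have hyz : ((y : (P : Subgroup G)) : G) = z := by
    have hyc : ∀ w ∈ (P : Subgroup G), w * ((y : (P : Subgroup G)) : G) = ((y : (P : Subgroup G)) : G) * w := by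
      intro w hw
      have := (Subgroup.mem_center_iff.mp y.2) ⟨w, hw⟩
      exact congrArg Subtype.val this
    rcases hZPsub _ (y : (P : Subgroup G)).2 hyc with h | h
    · exfalso
      apply hy1
      apply Subtype.ext
      apply Subtype.ext
      exact h
    · exact h
  have hzcentral : ∀ w ∈ (P : Subgroup G), w * z = z * w := by
    intro w hw
    rw [← hyz]
    have := (Subgroup.mem_center_iff.mp y.2) ⟨w, hw⟩
    exact congrArg Subtype.val this
  refine ⟨⟨P, fun w hw => ?_⟩, ?_⟩
  · rw [Subgroup.mem_centralizer_singleton_iff]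
    exact hzcentral w hw
  · rintro u hu ⟨R, hR⟩
    -- conjugate R to P
    obtain ⟨g, hg⟩ := MulAction.exists_smul_eq G R P
    have huR : u ∈ (R : Subgroup G) := by
      have h2 : IsPGroup 2 (Subgroup.zpowers u) := by
        rw [IsPGroup.iff_card, Nat.card_zpowers, hu]
        exact ⟨1, by norm_num⟩
      have hnorm : (R : Subgroup G) ≤ Subgroup.normalizer ((Subgroup.zpowers u : Subgroup G) : Set G) := by
        have h3 : Subgroup.centralizer ({u} : Set G) ≤ Subgroup.centralizer ((Subgroup.zpowers u : Subgroup G) : Set G) := by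
          rw [Subgroup.zpowers_eq_closure, Subgroup.centralizer_closure]
        exact hR.trans (h3.trans (Subgroup.centralizer_le_normalizer _))
      have hsup := R.isPGroup'.to_sup_of_normal_right' h2 hnorm
      have hle : (R : Subgroup G) ≤ (R : Subgroup G) ⊔ Subgroup.zpowers u := le_sup_left
      have heq := R.is_maximal' hsup hle
      have htmem : u ∈ (R : Subgroup G) ⊔ Subgroup.zpowers u :=
        (le_sup_right : Subgroup.zpowers u ≤ _) (Subgroup.mem_zpowers u)
      rw [heq] at htmem
      exact htmem
    have hPeq : (P : Subgroup G) = MulAut.conj g • (R : Subgroup G) := by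
      rw [← hg]; rfl
    have hconjmem : g * u * g⁻¹ ∈ (P : Subgroup G) := by
      rw [hPeq]
      exact Subgroup.mem_pointwise_smul_iff_inv_smul_mem.mpr (by simpa [MulAut.conj_apply, mul_assoc] using huR)
    have hcentral : ∀ w ∈ (P : Subgroup G), w * (g * u * g⁻¹) = (g * u * g⁻¹) * w := by
      intro w hw
      rw [hPeq] at hw
      have hw' : g⁻¹ * w * g ∈ (R : Subgroup G) := by
        have := Subgroup.mem_pointwise_smul_iff_inv_smul_mem.mp hw
        simpa [MulAut.conj_apply, mul_assoc] using this
      have hcomm := hR hw'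
      rw [Subgroup.mem_centralizer_singleton_iff] at hcomm
      have : w = g * (g⁻¹ * w * g) * g⁻¹ := by group
      rw [this]
      calc g * (g⁻¹ * w * g) * g⁻¹ * (g * u * g⁻¹) = g * ((g⁻¹ * w * g) * u) * g⁻¹ := by group
        _ = g * (u * (g⁻¹ * w * g)) * g⁻¹ := by rw [hcomm]
        _ = _ := by group
    rcases hZPsub _ hconjmem hcentral with h | h
    · exfalso
      have : u = 1 := by
        have h2 := congrArg (fun x => g⁻¹ * x * g) h
        simpa [mul_assoc] using h2
      rw [this, orderOf_one] at hu
      omega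
    · rw [isConj_comm, isConj_iff]
      exact ⟨g, h⟩

end Cfsg.Agent.S0481
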