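import Cfsg.Statements.S0496
import Cfsg.Agent.Lib.H09.Ord5
import Cfsg.Agent.Lib.H09.Ord10

set_option autoImplicit false
open Cfsg

namespace Cfsg.Agent.S0496

open Cfsg.Agent.H09.Ord in
/-- A non-abelian finite simple group of order at most 1092 has order 60, 168, 360, 504, 660 or 1092. -/
theorem result {G : Type*} [Group G] [Finite G] [IsSimpleGroup G]
    (hG : ¬ IsMulCommutative G) (h : Nat.card G ≤ 1092) :
    Nat.card G = 60 ∨ Nat.card G = 168 ∨ Nat.card G = 360 ∨ Nat.card G = 504 ∨ Nat.card G = 660 ∨
      Nat.card G = 1092 := by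
  rcases reduce_hard hG h with h1 | h1
  · simpa [allowedT] using h1
  · exfalso
    simp only [hardT, List.mem_cons, List.not_mem_nil, or_false] at h1
    rcases h1 with h1 | h1 | h1 | h1 | h1 | h1 | h1 | h1
    · exact not_420_840 hG (Or.inl h1)
    · exact not_420_840 hG (Or.inr h1)
    · exact not_612 hG h1
    · exact not_720 hG h1
    · exact not_756 hG h1
    · exact not_1008 hG h1
    · exact not_1040 hG h1
    · exact not_1080 hG h1

end Cfsg.Agent.S0496
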