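import Mathlib
import Cfsg.Statements.S0497
import Cfsg.Agent.Lib.H14.Sim360b
-- import your own Cfsg.Agent.* helpers here

set_option autoImplicit false
open Cfsg

namespace Cfsg.Agent.S0497


/-- A simple group of order 360 is isomorphic to the alternating group of degree 6. -/
theorem result {G : Type*} [Group G] [Finite G] [IsSimpleGroup G]
    (h : Nat.card G = 360) : Nonempty (G ≃* alternatingGroup (Fin 6)) := by
  exact Cfsg.Agent.H14.Sim360.a6_of_simple h

end Cfsg.Agent.S0497
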