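import Mathlib
import Cfsg.Statements.S0498
import Cfsg.Agent.Lib.H17.Mob6

set_option autoImplicit false
set_option maxRecDepth 100000
set_option linter.style.haveILetI false
open Cfsg

namespace Cfsg.Agent.S0498

open Cfsg.Agent.H17.Mob

def L11 : List (Bool × ℕ) := [(true, 0), (true, 0), (false, 0), (true, 1), (true, 4), (true, 3), (false, 1), (false, 2), (false, 4), (true, 2), (false, 3)]
def R11 : List ℕ := [1, 3, 4, 5, 9]
theorem log11 : logB 11 3 2 L11 = true := by decide +kernel
theorem chk11 : chkB 11 5 R11 R11 L11 = true := by decide +kernel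
theorem roots11 : ∀ l : ZMod 11, l ^ 5 = 1 → l.val ∈ R11 := by decide +kernel

theorem g011 : ((3 : ℕ) : ZMod 11) ≠ 0 := by decide +kernel
theorem g0m11 : ((3 : ℕ) : ZMod 11) ^ 5 = 1 := by decide +kernel
theorem n011 : ((2 : ℕ) : ZMod 11) ≠ 0 := by decide +kernel

theorem main11 {G : Type*} [Group G] [Finite G] [IsSimpleGroup G] (h : Nat.card G = 660) {F : Type*} [Field F] [Fintype F] (hF : Fintype.card F = 11) : Nonempty (G ≃* Matrix.ProjectiveSpecialLinearGroup (Fin 2) F) := by
  haveI : Fact (Nat.Prime 11) := ⟨by norm_num⟩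
  have hq : Nat.card G = 11 * 60 := by omega
  obtain ⟨h1, h2, h3⟩ := sylow_number (p := 11) (X := G) 60 (by norm_num) hq (by norm_num)
  have hn : Nat.card (Sylow 11 G) = 12 := by
    have hle := Nat.le_of_dvd (by norm_num) h1
    generalize Nat.card (Sylow 11 G) = k at *
    interval_cases k <;> omega
  refine psl_simple_recog hF (by norm_num) 5 (by norm_num) (by norm_num) (by omega) (by rw [h]; norm_num) (by norm_num) (by rw [hn]) 3 2 R11 R11 L11 log11 (by decide +kernel) chk11 g011 g0m11 n011 roots11 (fun _ _ _ _ _ _ c hc _ _ => roots11 c hc)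

def L13 : List (Bool × ℕ) := [(true, 0), (true, 0), (false, 0), (true, 2), (true, 1), (false, 4), (false, 2), (false, 5), (false, 1), (true, 4), (true, 5), (false, 3), (true, 3)]
def R13 : List ℕ := [1, 3, 4, 9, 10, 12]
theorem log13 : logB 13 4 2 L13 = true := by decide +kernel
theorem chk13 : chkB 13 6 R13 R13 L13 = true := by decide +kernel
theorem roots13 : ∀ l : ZMod 13, l ^ 6 = 1 → l.val ∈ R13 := by decide +kernel

theorem g013 : ((4 : ℕ) : ZMod 13) ≠ 0 := by decide +kernel
theorem g0m13 : ((4 : ℕ) : ZMod 13) ^ 6 = 1 := by decide +kernel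
theorem n013 : ((2 : ℕ) : ZMod 13) ≠ 0 := by decide +kernel

theorem main13 {G : Type*} [Group G] [Finite G] [IsSimpleGroup G] (h : Nat.card G = 1092) {F : Type*} [Field F] [Fintype F] (hF : Fintype.card F = 13) : Nonempty (G ≃* Matrix.ProjectiveSpecialLinearGroup (Fin 2) F) := by
  haveI : Fact (Nat.Prime 13) := ⟨by norm_num⟩
  have hq : Nat.card G = 13 * 84 := by omega
  obtain ⟨h1, h2, h3⟩ := sylow_number (p := 13) (X := G) 84 (by norm_num) hq (by norm_num)
  have hn : Nat.card (Sylow 13 G) = 14 := by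
    have hle := Nat.le_of_dvd (by norm_num) h1
    generalize Nat.card (Sylow 13 G) = k at *
    interval_cases k <;> omega
  refine psl_simple_recog hF (by norm_num) 6 (by norm_num) (by norm_num) (by omega) (by rw [h]; norm_num) (by norm_num) (by rw [hn]) 4 2 R13 R13 L13 log13 (by decide +kernel) chk13 g013 g0m13 n013 roots13 (fun _ _ _ _ _ _ c hc _ _ => roots13 c hc)

theorem result {G : Type*} [Group G] [Finite G] [IsSimpleGroup G] (p : ℕ)
    (hp : p = 11 ∨ p = 13) (h : 2 * Nat.card G = p * (p ^ 2 - 1)) {F : Type*} [Field F] [Fintype F]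
    (hF : Fintype.card F = p) : Nonempty (G ≃* Matrix.ProjectiveSpecialLinearGroup (Fin 2) F) := by
  rcases hp with rfl | rfl
  · exact main11 (by omega) hF
  · exact main13 (by omega) hF

end Cfsg.Agent.S0498
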