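import Cfsg.Statements.S0502
import Cfsg.Agent.Lib.H02.Klein

set_option autoImplicit false
open Cfsg

namespace Cfsg.Agent.S0502



/-- If a finite 2-group has a normal elementary abelian subgroup of order at least 8, then any two of its Klein
four-subgroups are joined by a chain of Klein four-subgroups with consecutive members commuting elementwise. -/
theorem result {P : Type*} [Group P] [Finite P] (hP : IsPGroup 2 P)
    (E : Subgroup P) [E.Normal] (hE : IsMulCommutative E) (hE2 : ∀ e ∈ E, e ^ 2 = 1) (hE8 : 8 ≤ Nat.card E) :
    Cfsg.IsFourConnected P := by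
  exact Cfsg.Agent.H02.fourConnected_of_normal_E8 hP E hE hE2 hE8

end Cfsg.Agent.S0502
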