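import Cfsg.Statements.S0519
import Mathlib
import Cfsg.Agent.Lib.H01.OmegaApps
import Cfsg.Agent.Lib.H18.Roquette

set_option autoImplicit false
open Cfsg

namespace Cfsg.Agent.S0519

/-- Let P be a finite p-group in which every abelian normal subgroup is cyclic, but which has a non-cyclic abelian
subgroup. Then p = 2 and P is generalized quaternion, dihedral of order at least 16, or quasi-dihedral. -/
theorem result {P : Type*} [Group P] [Finite P] (p : ℕ) [Fact p.Prime]
    (hP : IsPGroup p P) (hn : ∀ A : Subgroup P, A.Normal → IsMulCommutative A → IsCyclic A)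
    (hm : ∃ B : Subgroup P, IsMulCommutative B ∧ ¬ IsCyclic B) :
    p = 2 ∧ ((∃ n : ℕ, Nonempty (P ≃* QuaternionGroup n)) ∨ (∃ n : ℕ, 8 ≤ n ∧ Nonempty (P ≃* DihedralGroup n)) ∨
      Cfsg.IsQuasiDihedral P) := by
  classical
have hnc : ¬ IsCyclic P := by
  rintro hc
  obtain ⟨B, hB, hBc⟩ := hm
  exact hBc inferInstance
have hp2 : p = 2 := by
  by_contra hne
  obtain ⟨A, hA, hAe, hAc⟩ := H01.exists_normal_elementary_sq hP hne hnc
  haveI hcyc := hn A hA hAe.1
  obtain ⟨g, hg⟩ := IsCyclic.exists_generator (α := A)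
  have h1 : orderOf g = p ^ 2 := by
    rw [orderOf_eq_card_of_forall_mem_zpowers hg, hAc]
  have h2 : g ^ p = 1 := Subtype.ext (by simpa using hAe.2 g g.2)
  have h3 := orderOf_dvd_of_pow_eq_one h2
  rw [h1] at h3
  have hp := (Fact.out : p.Prime)
  have h4 := Nat.le_of_dvd hp.pos h3
  nlinarith [hp.two_le]
subst hp2
exact ⟨rfl, H18.roquette_two hP hn hnc⟩

end Cfsg.Agent.S0519
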