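import Cfsg.Statements.S0534
import Cfsg.Agent.Lib.H02.EveryOrder

set_option autoImplicit false
open Cfsg

namespace Cfsg.Agent.S0534



/-- Let G be a finite solvable group and A a finite abelian group such that every prime dividing the order of A divides the order of G and, for each prime p dividing the order of G, the exponent of p in the order of A is one less than its exponent in the order of G. Then G × A has a subgroup of every order dividing its order. -/
theorem result {G A : Type*} [Group G] [CommGroup A] [Finite G] [Finite A] [Group.IsSolvable G] (hA : ∀ p : ℕ, p.Prime → p ∣ Nat.card A → p ∣ Nat.card G) (hexp : ∀ p : ℕ, p.Prime → p ∣ Nat.card G → (Nat.card A).factorization p + 1 = (Nat.card G).factorization p) : Cfsg.HasSubgroupOfEveryOrder (G × A) := by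
  exact fun d hd => Cfsg.Agent.H02.every_order_prod hA hexp d hd

end Cfsg.Agent.S0534
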