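import Cfsg.Statements.S0535
import Cfsg.Agent.Lib.H01.HallConverse

set_option autoImplicit false
open Cfsg

namespace Cfsg.Agent.S0535



/-- Suppose that for every nontrivial subgroup H of a finite group and every prime p dividing the order of H there is a proper subgroup of H whose index in H is a power of p. Then the group is solvable. -/
theorem result {G : Type*} [Group G] [Finite G] (h : ∀ H : Subgroup G, H ≠ ⊥ → ∀ p : ℕ, p.Prime → p ∣ Nat.card H → ∃ K : Subgroup H, K ≠ ⊤ ∧ ∃ k : ℕ, K.index = p ^ k) : Group.IsSolvable G := by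
  classical
  apply Cfsg.Agent.H01.isSolvable_of_hasHallComplements _ G rfl
  intro p hp
  let S : Set (Subgroup G) := {J | ∃ k : ℕ, J.index = p ^ k}
  have hne : S.Nonempty := ⟨⊤, 0, by simp⟩
  obtain ⟨J, hJ⟩ := S.toFinite.exists_minimal hne
  obtain ⟨k, hk⟩ := hJ.1
  refine ⟨J, ⟨k, hk⟩, ?_⟩
  intro hpJ
  have hJbot : J ≠ ⊥ := by
    rintro rfl
    rw [Subgroup.card_bot] at hpJ
    exact hp.one_lt.ne' (Nat.dvd_one.mp hpJ)
  obtain ⟨K, hK, k', hk'⟩ := h J hJbot p hp hpJ
  have hmem : K.map J.subtype ∈ S := ⟨k' + k, by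
    rw [Subgroup.index_map_subtype, hk', hk, pow_add]⟩
  have hle : K.map J.subtype ≤ J := by
    rintro _ ⟨y, -, rfl⟩
    exact y.2
  have hle2 := hJ.2 hmem hle
  apply hK
  rw [eq_top_iff]
  intro y _
  have h1 := hle2 y.2
  obtain ⟨z, hz, he⟩ := h1
  have : z = y := Subtype.ext he
  rwa [← this]

end Cfsg.Agent.S0535
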