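import Cfsg.Statements.S0543
import Cfsg.Agent.Lib.H02.Sys2

set_option autoImplicit false
open Pointwise
open Cfsg

namespace Cfsg.Agent.S0543



/-- In a finite solvable group any two Hall complement systems are simultaneously conjugate: one element conjugates every member of the first system to the corresponding member of the second. -/
theorem result {G : Type*} [Group G] [Finite G] [Group.IsSolvable G] (K L : Nat.Primes → Subgroup G) (hK : Cfsg.IsComplementSystem K) (hL : Cfsg.IsComplementSystem L) : ∃ g : G, ∀ p : Nat.Primes, MulAut.conj g • K p = L p := by
  exact Cfsg.Agent.H02.complement_systems_conj hK hL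

end Cfsg.Agent.S0543
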