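import Cfsg.Statements.S0555
import Cfsg.Agent.Lib.H02.SolvE

set_option autoImplicit false
open Cfsg

namespace Cfsg.Agent.S0555



/-- Let i ≥ 1. If in the derived series of a group the quotient of the i-th term by the (i+1)-st and the quotient of the (i+1)-st by the (i+2)-nd are both cyclic, then the (i+1)-st and (i+2)-nd terms coincide. -/
theorem result {G : Type*} [Group G] (i : ℕ) (hi : 1 ≤ i) (h₁ : IsCyclic (↥(derivedSeries G i) ⧸ (derivedSeries G (i + 1)).subgroupOf (derivedSeries G i))) (h₂ : IsCyclic (↥(derivedSeries G (i + 1)) ⧸ (derivedSeries G (i + 2)).subgroupOf (derivedSeries G (i + 1)))) : derivedSeries G (i + 1) = derivedSeries G (i + 2) := by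
  have hKD : derivedSeries G i ≤ commutator G := by
    obtain ⟨j, rfl⟩ : ∃ j, i = j + 1 := ⟨i - 1, by omega⟩
    have : derivedSeries G (j + 1) ≤ derivedSeries G 1 := derivedSeries_antitone G (by omega)
    simpa using this
  have hLK : derivedSeries G (i + 1) ≤ derivedSeries G i := derivedSeries_antitone G (by omega)
  have hML : derivedSeries G (i + 2) ≤ derivedSeries G (i + 1) := derivedSeries_antitone G (by omega)
  refine le_antisymm ?_ hML
  exact Cfsg.Agent.H02.derived_cyclic_step (derivedSeries G i) (derivedSeries G (i + 1))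
    (derivedSeries G (i + 2)) (derivedSeries_succ G i).symm hLK hKD hML h₁ h₂
    (derivedSeries_succ G (i + 1)).symm

end Cfsg.Agent.S0555
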