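import Cfsg.Statements.S0563
import Cfsg.Agent.Lib.H06.KW11

set_option autoImplicit false
open Pointwise
open Cfsg

namespace Cfsg.Agent.S0563

/-- If a finite group G is the product AB of two nilpotent subgroups of coprime orders, then G is solvable, and for every Sylow p-subgroup P of A and Sylow q-subgroup Q of B the product set PQ is a subgroup. -/
theorem result {G : Type*} [Group G] [Finite G] (A B : Subgroup G) (hA : Group.IsNilpotent A) (hB : Group.IsNilpotent B) (hcop : (Nat.card A).Coprime (Nat.card B)) (hAB : ∀ g : G, ∃ a ∈ A, ∃ b ∈ B, g = a * b) : Group.IsSolvable G ∧ ∀ (p q : ℕ) [Fact p.Prime] [Fact q.Prime] (P : Sylow p A) (Q : Sylow q B), ∃ S : Subgroup G, (S : Set G) = (((P : Subgroup A).map A.subtype : Subgroup G) : Set G) * (((Q : Subgroup B).map B.subtype : Subgroup G) : Set G) := by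
  have h : Cfsg.Agent.H06.KwPair A B := ⟨hA, hB, hcop, hAB⟩
  have hs := Cfsg.Agent.H06.kw_solvable h
  refine ⟨hs, ?_⟩
  intro p q _ _ P Q
  have hP : (P : Subgroup A).map A.subtype = Cfsg.Agent.H06.kwS A p := by
    haveI := hA
    have h1 : (P : Subgroup A) = Cfsg.pCore p A :=
      le_antisymm (Cfsg.Agent.H06.kw_sylow_le_pCore p P) (Cfsg.Agent.H01.pCore_le_sylow p P)
    rw [h1]
    rfl
  have hQ : (Q : Subgroup B).map B.subtype = Cfsg.Agent.H06.kwS B q := by
    haveI := hB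
    have h1 : (Q : Subgroup B) = Cfsg.pCore q B :=
      le_antisymm (Cfsg.Agent.H06.kw_sylow_le_pCore q Q) (Cfsg.Agent.H01.pCore_le_sylow q Q)
    rw [h1]
    rfl
  rw [hP, hQ]
  have hA1 := Cfsg.Agent.H06.kwS_le A p
  have hB1 := Cfsg.Agent.H06.kwS_le B q
  have hh1 := Cfsg.Agent.H06.kw_hall_of_fac h.facTop hA1 (Cfsg.Agent.H06.kw_hallS hA p hA1 le_rfl)
  have hh2 := Cfsg.Agent.H06.kw_hall_of_fac h.facTop.symm hB1
    (Cfsg.Agent.H06.kw_hallS hB q hB1 le_rfl)
  rw [Subgroup.relIndex_top_right] at hh1 hh2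
  obtain ⟨S, hS⟩ := Cfsg.Agent.S0561.result A B (Cfsg.Agent.H06.kwS A p) (Cfsg.Agent.H06.kwS B q)
    hAB hA1 ((Subgroup.normal_subgroupOf_iff_le_normalizer hA1).mpr
      (Cfsg.Agent.H06.kwS_normalized A p)) hB1
    ((Subgroup.normal_subgroupOf_iff_le_normalizer hB1).mpr
      (Cfsg.Agent.H06.kwS_normalized B q)) hh1 hh2 1 1
  refine ⟨S, ?_⟩
  simpa using hS

end Cfsg.Agent.S0563
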