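import Cfsg.Statements.S0572
import Cfsg.Agent.Lib.H02.SolvG

set_option autoImplicit false
open Cfsg

namespace Cfsg.Agent.S0572



/-- Itô's Theorem: if a group G is the product AB of two abelian subgroups, then the commutator subgroup of G is abelian, i.e. the second term of the derived series is trivial. -/
theorem result {G : Type*} [Group G] (A B : Subgroup G) [IsMulCommutative A] [IsMulCommutative B] (hAB : ∀ g : G, ∃ a ∈ A, ∃ b ∈ B, g = a * b) : derivedSeries G 2 = ⊥ := by
  exact Cfsg.Agent.H02.ito A B hAB

end Cfsg.Agent.S0572
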