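import Mathlib
import Cfsg.Statements.S0574
import Cfsg.Agent.Lib.H14.ItoProd
import Cfsg.Agent.Lib.H06.KW13
-- import your own Cfsg.Agent.* helpers here

set_option autoImplicit false
open Cfsg

namespace Cfsg.Agent.S0574

open scoped commutatorElement

private theorem nat_len_lt (a b : ℕ) (hb : b ≠ 0) (hd : a ∣ b) (hne : a ≠ b) :
    a.primeFactorsList.length < b.primeFactorsList.length := by
  obtain ⟨c, rfl⟩ := hd
  have ha : a ≠ 0 := left_ne_zero_of_mul hb
  have hc : c ≠ 0 := right_ne_zero_of_mul hb
  have hc1 : c ≠ 1 := by rintro rfl; exact hne (mul_one a).symm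
  have hp := Nat.perm_primeFactorsList_mul ha hc
  rw [hp.length_eq, List.length_append]
  have : 0 < c.primeFactorsList.length := by
    rw [List.length_pos_iff]
    intro h
    rcases Nat.primeFactorsList_eq_nil c |>.1 h with h | h
    · exact hc h
    · exact hc1 h
  omega

section
variable {G : Type*} [Group G] (A B : Subgroup G)

private def XX (Y : Subgroup G) : Subgroup G := Subgroup.normalClosure (Y : Set G)
private def KK (Y : Subgroup G) : Subgroup G := (XX Y ⊔ A) ⊓ B
private def NX (Y : Subgroup G) : Subgroup G := ⁅KK A B Y, KK A B Y⁆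

private instance XX_normal (Y : Subgroup G) : (XX Y).Normal := by
  unfold XX; infer_instance

private theorem le_XX (Y : Subgroup G) : Y ≤ XX Y := Subgroup.subset_normalClosure

private theorem XX_mono {Y Y' : Subgroup G} (h : Y ≤ Y') : XX Y ≤ XX Y' :=
  Subgroup.normalClosure_mono h

private theorem KK_mono {Y Y' : Subgroup G} (h : Y ≤ Y') : KK A B Y ≤ KK A B Y' := by
  unfold KK
  exact inf_le_inf_right _ (sup_le_sup_right (XX_mono h) _)

private theorem NX_mono {Y Y' : Subgroup G} (h : Y ≤ Y') : NX A B Y ≤ NX A B Y' :=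
  Subgroup.commutator_mono (KK_mono A B h) (KK_mono A B h)

private theorem NX_le (Y : Subgroup G) : NX A B Y ≤ ⁅B, B⁆ :=
  Subgroup.commutator_mono inf_le_right inf_le_right

/-- Claim 1: `K' ≤ X'`. -/
private theorem NX_le_comm (hA : ∀ x ∈ A, ∀ y ∈ A, x * y = y * x)
    (hAB : ∀ g : G, ∃ a ∈ A, ∃ b ∈ B, g = a * b)
    (Y : Subgroup G) (hY : ∀ y ∈ Y, ∀ b ∈ B, y * b = b * y) :
    NX A B Y ≤ ⁅XX Y, XX Y⁆ := by
  haveI : (⁅XX Y, XX Y⁆ : Subgroup G).Normal := inferInstance
  let π := QuotientGroup.mk' (⁅XX Y, XX Y⁆ : Subgroup G)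
  have hπX : ∀ x ∈ XX Y, ∀ y ∈ XX Y, Commute (π x) (π y) := by
    intro x hx y hy
    have : ⁅x, y⁆ ∈ (⁅XX Y, XX Y⁆ : Subgroup G) := Subgroup.commutator_mem_commutator hx hy
    have h2 : π ⁅x, y⁆ = 1 := (QuotientGroup.eq_one_iff _).2 this
    rw [map_commutatorElement, commutatorElement_eq_one_iff_commute] at h2
    exact h2
  -- a component of an element of K centralises X mod X'
  have key : ∀ b ∈ KK A B Y, ∃ x ∈ XX Y, ∃ a ∈ A, b = x * a ∧ ∀ z ∈ XX Y, Commute (π a) (π z) := by
    intro b hb
    obtain ⟨hb1, hb2⟩ := hb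
    obtain ⟨x, hx, a, ha, rfl⟩ := Subgroup.mem_sup_of_normal_left.1 hb1
    refine ⟨x, hx, a, ha, rfl, ?_⟩
    have hy : ∀ y ∈ Y, Commute (π a) (π y) := by
      intro y hyY
      have h1 : π (x * a) * π y = π y * π (x * a) := by
        rw [← map_mul, ← map_mul, (hY y hyY _ hb2).symm]
      rw [map_mul] at h1
      have h2 : π x * π y = π y * π x := hπX x hx y (le_XX Y hyY)
      have h3 : π x * (π a * π y) = π x * (π y * π a) := by
        calc π x * (π a * π y) = π x * π a * π y := by group
          _ = π y * (π x * π a) := h1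
          _ = (π y * π x) * π a := by group
          _ = (π x * π y) * π a := by rw [h2]
          _ = π x * (π y * π a) := by group
      exact mul_left_cancel h3
    intro z hz
    unfold XX at hz
    unfold Subgroup.normalClosure at hz
    induction hz using Subgroup.closure_induction with
    | mem w hw =>
      rw [Group.mem_conjugatesOfSet_iff] at hw
      obtain ⟨y, hyY, hc⟩ := hw
      obtain ⟨g, rfl⟩ := isConj_iff.1 hc
      obtain ⟨a', ha', b', hb', rfl⟩ := hAB g
      have e : a' * b' * y * (a' * b')⁻¹ = a' * y * a'⁻¹ := by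
        have : b' * y = y * b' := (hY y hyY b' hb').symm
        calc a' * b' * y * (a' * b')⁻¹ = a' * (b' * y) * b'⁻¹ * a'⁻¹ := by group
          _ = a' * (y * b') * b'⁻¹ * a'⁻¹ := by rw [this]
          _ = a' * y * a'⁻¹ := by group
      rw [e, map_mul, map_mul, map_inv]
      have c1 : Commute (π a) (π a') := by
        show π a * π a' = π a' * π a
        rw [← map_mul, ← map_mul, hA a ha a' ha']
      exact (c1.mul_right (hy y hyY)).mul_right c1.inv_right
    | one => rw [map_one]; exact Commute.one_right _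
    | mul u v _ _ hu hv => rw [map_mul]; exact hu.mul_right hv
    | inv u _ hu => rw [map_inv]; exact hu.inv_right
  unfold NX
  rw [Subgroup.commutator_le]
  intro b₁ hb₁ b₂ hb₂
  obtain ⟨x₁, hx₁, a₁, ha₁, rfl, h₁⟩ := key b₁ hb₁
  obtain ⟨x₂, hx₂, a₂, ha₂, rfl, h₂⟩ := key b₂ hb₂
  apply (QuotientGroup.eq_one_iff _).1
  show π ⁅x₁ * a₁, x₂ * a₂⁆ = 1
  rw [map_commutatorElement, commutatorElement_eq_one_iff_commute, map_mul, map_mul]
  have c1 : Commute (π a₁) (π a₂) := by
    show π a₁ * π a₂ = π a₂ * π a₁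
    rw [← map_mul, ← map_mul, hA a₁ ha₁ a₂ ha₂]
  exact ((hπX x₁ hx₁ x₂ hx₂).mul_right (h₂ x₁ hx₁).symm).mul_left
    (((h₁ x₂ hx₂)).mul_right c1)

/-- Claim 2: `X'' ≤ X₁`. -/
private theorem XX_second_le (hA : ∀ x ∈ A, ∀ y ∈ A, x * y = y * x)
    (hAB : ∀ g : G, ∃ a ∈ A, ∃ b ∈ B, g = a * b) (Y : Subgroup G) :
    ⁅⁅XX Y, XX Y⁆, ⁅XX Y, XX Y⁆⁆ ≤ XX (NX A B Y) := by
  have hAc : ⁅A, A⁆ ≤ XX (NX A B Y) := by
    rw [Subgroup.commutator_le]
    intro x hx y hy
    have : ⁅x, y⁆ = 1 := by
      rw [commutatorElement_eq_one_iff_mul_comm]; exact hA x hx y hy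
    rw [this]; exact Subgroup.one_mem _
  have := Cfsg.Agent.H14.ItoProd.ito_mod A (KK A B Y) (XX Y ⊔ A) (XX (NX A B Y)) hAc
    (le_XX _) le_sup_right inf_le_left
    (by
      intro s hs
      obtain ⟨a, ha, b, hb, rfl⟩ := hAB s
      refine ⟨a, ha, b, ?_, rfl⟩
      refine ⟨?_, hb⟩
      have : b = a⁻¹ * (a * b) := by group
      rw [this]
      exact Subgroup.mul_mem _ (Subgroup.inv_mem _ ((le_sup_right : A ≤ XX Y ⊔ A) ha)) hs)
  refine le_trans ?_ this
  have h1 : ⁅XX Y, XX Y⁆ ≤ ⁅XX Y ⊔ A, XX Y ⊔ A⁆ := Subgroup.commutator_mono le_sup_left le_sup_left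
  exact Subgroup.commutator_mono h1 h1

private def YY (k : ℕ) : Subgroup G := (NX A B)^[k] ⁅B, B⁆

private theorem YY_succ (k : ℕ) : YY A B (k + 1) = NX A B (YY A B k) := by
  unfold YY
  rw [Function.iterate_succ_apply']

private theorem YY_le (k : ℕ) : YY A B k ≤ ⁅B, B⁆ := by
  cases k with
  | zero => exact le_rfl
  | succ k => rw [YY_succ]; exact NX_le A B _

private theorem YY_anti (k : ℕ) : YY A B (k + 1) ≤ YY A B k := by
  induction k with
  | zero => rw [YY_succ]; exact NX_le A B _
  | succ k ih =>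
    rw [YY_succ A B (k + 1)]
    conv_rhs => rw [YY_succ]
    exact NX_mono A B ih

end


/-- Let the finite group G be the product AB of an abelian subgroup A and a subgroup B of nilpotency class at most two, and let Ω be the number of prime factors, with multiplicity, of the order of the commutator subgroup of B. Then the term of index 2(1 + Ω) of the derived series of G is trivial. -/
theorem result {G : Type*} [Group G] [Finite G] (A B : Subgroup G) [IsMulCommutative A] (hB : commutator ↥B ≤ Subgroup.center ↥B) (hAB : ∀ g : G, ∃ a ∈ A, ∃ b ∈ B, g = a * b) : derivedSeries G (2 * (1 + (Nat.card ↥(commutator ↥B)).primeFactorsList.length)) = ⊥ := by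
  classical
  have hAc : ∀ x ∈ A, ∀ y ∈ A, x * y = y * x := by
    intro x hx y hy
    have := mul_comm' (⟨x, hx⟩ : A) ⟨y, hy⟩
    exact congrArg Subtype.val this
  -- central
  have hBc : ∀ y ∈ (⁅B, B⁆ : Subgroup G), ∀ b ∈ B, y * b = b * y := by
    intro y hy b hb
    rw [← Subgroup.map_subtype_commutator] at hy
    obtain ⟨y', hy', rfl⟩ := hy
    have h1 := hB hy'
    rw [Subgroup.mem_center_iff] at h1
    have h2 := h1 ⟨b, hb⟩
    exact (congrArg Subtype.val h2).symm
  have hAnil : Group.IsNilpotent ↥A := by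
    letI : CommGroup ↥A := { (inferInstance : Group ↥A) with mul_comm := fun a b => mul_comm' a b }
    infer_instance
  have hBnil : Group.IsNilpotent ↥B := by
    rw [Subgroup.nilpotent_iff_lowerCentralSeries]
    refine ⟨2, ?_⟩
    have h1 : (⊤ : Subgroup ↥B).lowerCentralSeries 2 = ⁅⁅(⊤ : Subgroup ↥B), ⊤⁆, ⊤⁆ := rfl
    rw [h1, eq_bot_iff, Subgroup.commutator_le]
    intro x hx y _
    have hx' : x ∈ Subgroup.center ↥B := hB (by rw [commutator_def]; exact hx)
    rw [Subgroup.mem_center_iff] at hx'
    rw [Subgroup.mem_bot, commutatorElement_eq_one_iff_mul_comm]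
    exact (hx' y).symm
  have hsolv : Group.IsSolvable G := Cfsg.Agent.H06.kw564 A B hAnil hBnil hAB
  -- perfect normal closures are trivial
  have hperf : ∀ Y : Subgroup G, NX A B Y = Y → Y ≤ ⁅B, B⁆ → Y = ⊥ := by
    intro Y hY hYB
    have h1 : Y ≤ ⁅XX Y, XX Y⁆ := by
      have := NX_le_comm A B hAc hAB Y (fun y hy b hb => hBc y (hYB hy) b hb)
      rwa [hY] at this
    have h2 : XX Y ≤ ⁅XX Y, XX Y⁆ := Subgroup.normalClosure_le_normal h1
    obtain ⟨n, hn⟩ := hsolv.solvable
    have h3 : ∀ m, XX Y ≤ derivedSeries G m := by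
      intro m
      induction m with
      | zero => exact le_top
      | succ m ih =>
        rw [derivedSeries_succ]
        exact le_trans h2 (Subgroup.commutator_mono ih ih)
    have h4 := h3 n
    rw [hn] at h4
    exact eq_bot_iff.2 (le_trans (le_XX Y) h4)
  -- the cardinality
  have hcard : Nat.card (commutator ↥B) = Nat.card (⁅B, B⁆ : Subgroup G) := by
    rw [← Subgroup.map_subtype_commutator]
    exact (Subgroup.card_map_of_injective B.subtype_injective).symm
  have hlen : ∀ k, YY A B k = ⊥ ∨
      (Nat.card (YY A B k)).primeFactorsList.length + k ≤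
        (Nat.card (commutator ↥B)).primeFactorsList.length := by
    intro k
    induction k with
    | zero =>
      right
      have : YY A B 0 = ⁅B, B⁆ := rfl
      rw [this, hcard]
      omega
    | succ k ih =>
      rcases ih with ih | ih
      · left
        exact eq_bot_iff.2 (le_trans (YY_anti A B k) ih.le)
      · by_cases h0 : YY A B k = ⊥
        · left
          exact eq_bot_iff.2 (le_trans (YY_anti A B k) h0.le)
        · right
          have hne : YY A B (k + 1) ≠ YY A B k := by
            intro he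
            rw [YY_succ] at he
            exact h0 (hperf _ he (YY_le A B k))
          have hd : Nat.card (YY A B (k + 1)) ∣ Nat.card (YY A B k) :=
            Subgroup.card_dvd_of_le (YY_anti A B k)
          have hne' : Nat.card (YY A B (k + 1)) ≠ Nat.card (YY A B k) := by
            intro he
            exact hne (Subgroup.eq_of_le_of_card_ge (YY_anti A B k) he.ge)
          have := nat_len_lt _ _ Nat.card_pos.ne' hd hne'
          omega
  have hYY : YY A B (Nat.card (commutator ↥B)).primeFactorsList.length = ⊥ := by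
    rcases hlen (Nat.card (commutator ↥B)).primeFactorsList.length with h | h
    · exact h
    · have h0 : (Nat.card (YY A B (Nat.card (commutator ↥B)).primeFactorsList.length)).primeFactorsList.length = 0 := by
        omega
      rw [List.length_eq_zero_iff, Nat.primeFactorsList_eq_nil] at h0
      rcases h0 with h0 | h0
      · exact absurd h0 Nat.card_pos.ne'
      · exact Subgroup.eq_bot_of_card_eq _ h0
  -- derived series
  have hder : ∀ k, derivedSeries G (2 + 2 * k) ≤ XX (YY A B k) := by
    intro k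
    induction k with
    | zero =>
      have hAc' : ⁅A, A⁆ ≤ XX (YY A B 0) := by
        rw [Subgroup.commutator_le]
        intro x hx y hy
        have : ⁅x, y⁆ = 1 := by
          rw [commutatorElement_eq_one_iff_mul_comm]; exact hAc x hx y hy
        rw [this]; exact Subgroup.one_mem _
      have hBc' : ⁅B, B⁆ ≤ XX (YY A B 0) := le_XX (YY A B 0)
      exact Cfsg.Agent.H14.ItoProd.ito_mod A B ⊤ (XX (YY A B 0)) hAc' hBc' le_top le_top
        (fun s _ => hAB s)
    | succ k ih =>
      have e : 2 + 2 * (k + 1) = (2 + 2 * k) + 1 + 1 := by ring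
      rw [e, derivedSeries_succ, derivedSeries_succ, YY_succ]
      refine le_trans ?_ (XX_second_le A B hAc hAB (YY A B k))
      exact Subgroup.commutator_mono (Subgroup.commutator_mono ih ih) (Subgroup.commutator_mono ih ih)
  have hfin := hder (Nat.card (commutator ↥B)).primeFactorsList.length
  rw [hYY] at hfin
  have hXbot : XX (⊥ : Subgroup G) = ⊥ := eq_bot_iff.2 (Subgroup.normalClosure_le_normal (by simp))
  rw [hXbot] at hfin
  have e : 2 * (1 + (Nat.card (commutator ↥B)).primeFactorsList.length) =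
      2 + 2 * (Nat.card (commutator ↥B)).primeFactorsList.length := by ring
  rw [e]
  exact eq_bot_iff.2 hfin

end Cfsg.Agent.S0574
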