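import Cfsg.Statements.S0575
import Cfsg.Agent.Lib.H02.SolvH

set_option autoImplicit false
open Cfsg

namespace Cfsg.Agent.S0575



/-- If H is a normal subgroup of a finite group G, then the Frattini subgroup of H, viewed in G, lies in the Frattini subgroup of G. -/
theorem result {G : Type*} [Group G] [Finite G] (H : Subgroup G) [H.Normal] : (frattini ↥H).map H.subtype ≤ frattini G := by
  exact Cfsg.Agent.H02.frattini_map_le H

end Cfsg.Agent.S0575
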