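import Cfsg.Statements.S0576
import Cfsg.Agent.Lib.H02.SolvH

set_option autoImplicit false
open Cfsg

namespace Cfsg.Agent.S0576



/-- Let H be a normal subgroup of a finite group G with H contained in the Frattini subgroup of G. Then the group of inner automorphisms of H is contained in the Frattini subgroup of the automorphism group of H. -/
theorem result {G : Type*} [Group G] [Finite G] (H : Subgroup G) [H.Normal] (hH : H ≤ frattini G) : (MulAut.conj : ↥H →* MulAut ↥H).range ≤ frattini (MulAut ↥H) := by
  exact Cfsg.Agent.H02.inn_le_frattini H hH

end Cfsg.Agent.S0576
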