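import Cfsg.Statements.S0588
import Cfsg.Agent.Lib.H02.SolvH

set_option autoImplicit false
open Cfsg

namespace Cfsg.Agent.S0588



/-- If a subgroup H of a finite group G contains the centralizer of every non-identity element of H, then the order of H is coprime to its index. -/
theorem result {G : Type*} [Group G] [Finite G] (H : Subgroup G) (h : ∀ x ∈ H, x ≠ 1 → Subgroup.centralizer ({x} : Set G) ≤ H) : (Nat.card H).Coprime H.index := by
  exact Cfsg.Agent.H02.hall_of_centralizer_le H h

end Cfsg.Agent.S0588
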