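import Cfsg.Statements.S0594
import Cfsg.Agent.Lib.H26.QuadSL2
import Mathlib

set_option autoImplicit false
set_option linter.unusedVariables false
set_option linter.style.haveILetI false
open Cfsg

namespace Cfsg.Agent.S0594

open Matrix MatrixGroups

/-- For odd p, two quadratic generators of a faithful group that is not a p-group, one of which acts nontrivially on a normal subgroup of order prime to p, force p = 3 and a section isomorphic to SL(2,3). -/
theorem result {G : Type*} [Group G] [Finite G] {p : ℕ} [Fact p.Prime] (hp : p ≠ 2) (V H : Subgroup G) (hV : Cfsg.IsElementaryAbelian p V) (hHV : H ≤ Subgroup.normalizer (V : Set G)) (hf : H ⊓ Subgroup.centralizer (V : Set G) = ⊥) (a b : G) (hab : H = Subgroup.closure {a, b}) (ha : ⁅⁅V, Subgroup.zpowers a⁆, Subgroup.zpowers a⁆ = ⊥) (hb : ⁅⁅V, Subgroup.zpowers b⁆, Subgroup.zpowers b⁆ = ⊥) (hnp : ¬ IsPGroup p H) (Q : Subgroup G) (hQH : Q ≤ H) (hQn : H ≤ Subgroup.normalizer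 (Q : Set G)) (hQ : (Nat.card Q).Coprime p) (hQa : ⁅Q, Subgroup.zpowers a⁆ ≠ ⊥) : p = 3 ∧ ∃ (K L : Subgroup G) (hL : (L.subgroupOf K).Normal), K ≤ H ∧ Nonempty ((K ⧸ L.subgroupOf K) ≃* Matrix.SpecialLinearGroup (Fin 2) (ZMod 3)) := by
  classical
  subst hab
  have hgen := Cfsg.Agent.H02.closure_pair_coe_eq_top a b
  set H := Subgroup.closure ({a, b} : Set G) with hHdef
  let a' : H := ⟨a, Subgroup.subset_closure (by simp)⟩
  let b' : H := ⟨b, Subgroup.subset_closure (by simp)⟩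
  -- a nontrivial commutator
  have haQ : ∀ x ∈ Q, a * x * a⁻¹ ∈ Q := fun x hx =>
    (Subgroup.mem_normalizer_iff.1 (hQn a'.2) x).1 hx
  obtain ⟨q, hqQ, hqa⟩ : ∃ q ∈ Q, q * a * q⁻¹ * a⁻¹ ≠ 1 := by
    by_contra hcon
    push Not at hcon
    apply hQa
    rw [Subgroup.commutator_eq_bot_iff_le_centralizer]
    intro x hx
    rw [Subgroup.mem_centralizer_iff]
    intro z hz
    obtain ⟨k, rfl⟩ := Subgroup.mem_zpowers_iff.1 hz
    have h1 : Commute x a := by
      have := hcon x hx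
      rw [mul_inv_eq_one, mul_inv_eq_iff_eq_mul] at this
      exact this
    exact (h1.zpow_right k).eq.symm
  set w : G := q * a * q⁻¹ * a⁻¹ with hw
  have hwQ : w ∈ Q := by
    have e : w = q * (a * q⁻¹ * a⁻¹) := by rw [hw]; group
    rw [e]
    exact Q.mul_mem hqQ (haQ _ (Q.inv_mem hqQ))
  have hordw : (orderOf w).Coprime p := by
    have h1 : orderOf w ∣ Nat.card Q := by
      have := orderOf_dvd_natCard (⟨w, hwQ⟩ : Q)
      rwa [Subgroup.orderOf_mk] at this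
    exact Nat.Coprime.coprime_dvd_left h1 hQ
  have hqH : q ∈ H := hQH hqQ
  let w' : H := ⟨w, hQH hwQ⟩
  have hw'1 : w' ≠ 1 := fun h => hqa (congrArg Subtype.val h)
  obtain ⟨K, _, _, _, hK⟩ := Cfsg.Agent.H02.quad_package V H hV hHV hf a' b' hgen ha hb
  obtain ⟨φ, hφ⟩ := hK w' hw'1 (by
    rw [Subgroup.orderOf_mk]
    exact hordw)
  let ā : SL(2, K) := φ a'
  have hāp : ā ^ p = 1 := by
    show (φ a') ^ p = 1
    rw [← map_pow]
    have : a' ^ p = 1 := Subtype.ext (Cfsg.Agent.H02.pow_p_of_quad V H hV hHV hf a a'.2 ha)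
    rw [this, map_one]
  let Q' : Subgroup H := Q.subgroupOf H
  let Qb : Subgroup SL(2, K) := Q'.map φ
  have hāQ : ∀ x ∈ Qb, ā * x * ā⁻¹ ∈ Qb := by
    rintro _ ⟨y, hy, rfl⟩
    refine ⟨a' * y * a'⁻¹, ?_, by simp [ā]⟩
    exact haQ _ hy
  have hāQ' : ∀ x ∈ Qb, ā⁻¹ * x * ā ∈ Qb := by
    rintro _ ⟨y, hy, rfl⟩
    refine ⟨a'⁻¹ * y * a', ?_, by simp [ā]⟩
    have h1 := (Subgroup.mem_normalizer_iff.1 (hQn (H.inv_mem a'.2)) y.1).1 hy
    show ((a'⁻¹ * y * a' : H) : G) ∈ Q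
    simpa using h1
  have hZN : Subgroup.zpowers ā ≤ Subgroup.normalizer (Qb : Set SL(2, K)) := by
    rw [Subgroup.zpowers_le, Subgroup.mem_normalizer_iff]
    intro x
    constructor
    · exact hāQ x
    · intro h
      have := hāQ' _ h
      have e : ā⁻¹ * (ā * x * ā⁻¹) * ā = x := by group
      rwa [e] at this
  let E : Subgroup SL(2, K) := Qb ⊔ Subgroup.zpowers ā
  have hEdecomp : ∀ x ∈ E, ∃ u ∈ Qb, ∃ z ∈ Subgroup.zpowers ā, x = u * z := by
    intro x hx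
    have h1 : x ∈ ((Qb ⊔ Subgroup.zpowers ā : Subgroup SL(2, K)) : Set SL(2, K)) := hx
    rw [Subgroup.coe_mul_of_right_le_normalizer_left _ _ hZN] at h1
    obtain ⟨u, hu, z, hz, rfl⟩ := Set.mem_mul.1 h1
    exact ⟨u, hu, z, hz, rfl⟩
  -- several Sylow `p`-subgroups in `E`
  have hāE : ā ∈ E := (le_sup_right : Subgroup.zpowers ā ≤ E) (Subgroup.mem_zpowers ā)
  have hqE : φ ⟨q, hqH⟩ ∈ E := (le_sup_left : Qb ≤ E) ⟨⟨q, hqH⟩, hqQ, rfl⟩
  have hmany : 1 < Nat.card (Sylow p E) := by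
    rw [Finite.one_lt_card_iff_nontrivial]
    by_contra hcon
    rw [not_nontrivial_iff_subsingleton] at hcon
    obtain ⟨P⟩ : Nonempty (Sylow p E) := inferInstance
    have hPn : (P : Subgroup E).Normal := P.normal_of_subsingleton
    have hāP : (⟨ā, hāE⟩ : E) ∈ (P : Subgroup E) := by
      have hz : IsPGroup p (Subgroup.zpowers (⟨ā, hāE⟩ : E)) := by
        rw [IsPGroup.iff_card, Nat.card_zpowers]
        have h1 : orderOf (⟨ā, hāE⟩ : E) ∣ p :=
          orderOf_dvd_of_pow_eq_one (Subtype.ext hāp)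
        rcases (Nat.dvd_prime (Fact.out : p.Prime)).mp h1 with h | h
        · exact ⟨0, by simpa using h⟩
        · exact ⟨1, by simpa using h⟩
      obtain ⟨P', hP'⟩ := hz.exists_le_sylow
      have : P' = P := Subsingleton.elim _ _
      rw [← this]
      exact hP' (Subgroup.mem_zpowers _)
    set qb : E := ⟨φ ⟨q, hqH⟩, hqE⟩ with hqb
    have h1 : qb * ⟨ā, hāE⟩ * qb⁻¹ * (⟨ā, hāE⟩ : E)⁻¹ ∈ (P : Subgroup E) :=
      Subgroup.mul_mem _ (hPn.conj_mem _ hāP qb) (Subgroup.inv_mem _ hāP)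
    have h2 : ((qb * ⟨ā, hāE⟩ * qb⁻¹ * (⟨ā, hāE⟩ : E)⁻¹ : E) : SL(2, K)) = φ w' := by
      show φ ⟨q, hqH⟩ * φ a' * (φ ⟨q, hqH⟩)⁻¹ * (φ a')⁻¹ = φ w'
      rw [← map_inv, ← map_inv, ← map_mul, ← map_mul, ← map_mul]
      rfl
    obtain ⟨n, hn⟩ := P.isPGroup' ⟨_, h1⟩
    have h3 : (φ w') ^ (p ^ n) = 1 := by
      rw [← h2]
      have := congrArg (fun y : (P : Subgroup E) => ((y : E) : SL(2, K))) hn
      simpa using this
    have h4 : (φ w') ^ (orderOf w) = 1 := by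
      rw [← map_pow]
      have : w' ^ orderOf w = 1 := Subtype.ext (pow_orderOf_eq_one w)
      rw [this, map_one]
    have h5 : Nat.Coprime (orderOf w) (p ^ n) := Nat.Coprime.pow_right n hordw
    have h6 : (φ w') ^ (Nat.gcd (orderOf w) (p ^ n)) = 1 := pow_gcd_eq_one.mpr ⟨h4, h3⟩
    rw [h5.gcd_eq_one, pow_one] at h6
    exact hφ h6
  obtain ⟨K₀, hK₀E, ⟨e⟩⟩ := Cfsg.Agent.Lead.DicksonSL.dickson_sl hp E hmany
  -- `K₀` lies in the image of `φ`
  have hEr : E ≤ φ.range := by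
    apply sup_le
    · rintro _ ⟨y, _, rfl⟩
      exact ⟨y, rfl⟩
    · rw [Subgroup.zpowers_le]
      exact ⟨a', rfl⟩
  obtain ⟨K₁, L, hL, hK₁, ⟨e₁⟩⟩ := Cfsg.Agent.H26.QuadSL.section_of_hom H φ K₀ (hK₀E.trans hEr) e
  -- the prime
  have hp3 : p = 3 := by
    by_contra hp3
    haveI : NeZero p := ⟨(Fact.out : p.Prime).ne_zero⟩
    have hp5 : 5 ≤ p := by
      have h1 := (Fact.out : p.Prime).two_le
      have h4 : p ≠ 4 := by
        intro h
        have := (Fact.out : p.Prime)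
        rw [h] at this
        exact absurd this (by norm_num)
      omega
    have hcard : ¬ (2 = 2 ∧ Fintype.card (ZMod p) ≤ 3) := by
      rintro ⟨_, h⟩
      rw [ZMod.card] at h
      omega
    have hperf : commutator (SL(2, ZMod p)) = ⊤ := Cfsg.Agent.H11.commutator_SL_eq_top' 2 le_rfl hcard
    -- commutators in `E`
    have hcE : ∀ x ∈ E, ∀ y ∈ E, x * y * x⁻¹ * y⁻¹ ∈ Qb := by
      intro x hx y hy
      obtain ⟨u₁, hu₁, z₁, hz₁, rfl⟩ := hEdecomp x hx
      obtain ⟨u₂, hu₂, z₂, hz₂, rfl⟩ := hEdecomp y hy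
      have hcz : z₂ * z₁⁻¹ = z₁⁻¹ * z₂ := by
        obtain ⟨k, rfl⟩ := Subgroup.mem_zpowers_iff.1 hz₁
        obtain ⟨l, rfl⟩ := Subgroup.mem_zpowers_iff.1 hz₂
        exact ((Commute.refl ā).zpow_zpow l k).inv_right.eq
      have e1 : u₁ * z₁ * (u₂ * z₂) * (u₁ * z₁)⁻¹ * (u₂ * z₂)⁻¹ =
          u₁ * (z₁ * u₂ * z₁⁻¹) * (z₂ * u₁⁻¹ * z₂⁻¹) * u₂⁻¹ := by
        calc u₁ * z₁ * (u₂ * z₂) * (u₁ * z₁)⁻¹ * (u₂ * z₂)⁻¹
            = u₁ * z₁ * u₂ * (z₂ * z₁⁻¹) * u₁⁻¹ * z₂⁻¹ * u₂⁻¹ := by group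
          _ = u₁ * z₁ * u₂ * (z₁⁻¹ * z₂) * u₁⁻¹ * z₂⁻¹ * u₂⁻¹ := by rw [hcz]
          _ = _ := by group
      rw [e1]
      have hconj : ∀ z ∈ Subgroup.zpowers ā, ∀ v ∈ Qb, z * v * z⁻¹ ∈ Qb := fun z hz v hv =>
        (Subgroup.mem_normalizer_iff.1 (hZN hz) v).1 hv
      exact Qb.mul_mem (Qb.mul_mem (Qb.mul_mem hu₁ (hconj _ hz₁ _ hu₂))
        (hconj _ hz₂ _ (Qb.inv_mem hu₁))) (Qb.inv_mem hu₂)
    -- `K₀` perfect, so inside `Qb`
    have hK₀Q : K₀ ≤ Qb := by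
      have hcK : commutator K₀ = ⊤ := by
        have h1 := congrArg (Subgroup.map e.symm.toMonoidHom) hperf
        rw [commutator_def, Subgroup.map_commutator, Subgroup.map_top_of_surjective _ e.symm.surjective] at h1
        rw [commutator_def, h1]
      intro x hx
      have h1 : (⟨x, hx⟩ : K₀) ∈ commutator K₀ := by rw [hcK]; trivial
      have h2 : commutator K₀ ≤ Qb.comap K₀.subtype := by
        rw [commutator_def, Subgroup.commutator_le]
        intro c _ d _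
        show ((c * d * c⁻¹ * d⁻¹ : K₀) : SL(2, K)) ∈ Qb
        exact hcE _ (hK₀E c.2) _ (hK₀E d.2)
      exact h2 h1
    -- an element of order `p` in `K₀`
    let u : SL(2, ZMod p) := Cfsg.Agent.Lead.DicksonSL.xE (1 : ZMod p)
    have hup : u ^ p = 1 := by
      apply Cfsg.Agent.H14.pow_char_of_trc
      show (1 : ZMod p) + 1 = 2
      norm_num
    have hu1 : u ≠ 1 := by
      intro h
      have h3 := congrArg Cfsg.Agent.H14.e01 h
      have e2 : Cfsg.Agent.H14.e01 u = 1 := rfl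
      rw [e2, Cfsg.Agent.H14.e01_one] at h3
      exact one_ne_zero h3
    let x : K₀ := e.symm u
    have hxo : orderOf (x : SL(2, K)) = p := by
      apply orderOf_eq_prime
      · show ((x ^ p : K₀) : SL(2, K)) = 1
        have : x ^ p = 1 := by
          show (e.symm u) ^ p = 1
          rw [← map_pow, hup, map_one]
        rw [this]; rfl
      · intro h
        apply hu1
        have h1 : x = 1 := Subtype.ext h
        have h2 := congrArg e h1
        simpa [x] using h2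
    have hxQ : (x : SL(2, K)) ∈ Qb := hK₀Q x.2
    obtain ⟨y, hy, hyx⟩ := hxQ
    have hyo : (orderOf y).Coprime p := by
      have h1 : orderOf y ∣ Nat.card Q := by
        have hy' : y.1 ∈ Q := hy
        have := orderOf_dvd_natCard (⟨y.1, hy'⟩ : Q)
        rw [Subgroup.orderOf_mk, Subgroup.orderOf_coe] at this
        exact this
      exact Nat.Coprime.coprime_dvd_left h1 hQ
    have h1 : orderOf (x : SL(2, K)) ∣ orderOf y := by
      rw [← hyx]
      exact orderOf_map_dvd φ y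
    rw [hxo] at h1
    have := Nat.Coprime.eq_one_of_dvd hyo.symm h1
    exact (Fact.out : p.Prime).one_lt.ne' this
  subst hp3
  exact ⟨rfl, K₁, L, hL, hK₁, ⟨e₁⟩⟩

end Cfsg.Agent.S0594
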