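import Cfsg.Statements.S0596
import Cfsg.Agent.Lib.H26.QuadSL2
import Mathlib

set_option autoImplicit false
set_option linter.unusedVariables false
open Cfsg

namespace Cfsg.Agent.S0596

/-- For odd p, a p-separable group with a faithful action on an elementary abelian p-group that is not p-stable has p = 3 and involves SL(2,3). -/
theorem result {G : Type*} [Group G] [Finite G] {p : ℕ} [Fact p.Prime] (hp : p ≠ 2) (V H : Subgroup G) (hV : Cfsg.IsElementaryAbelian p V) (hHV : H ≤ Subgroup.normalizer (V : Set G)) (hf : H ⊓ Subgroup.centralizer (V : Set G) = ⊥) (hsep : Cfsg.IsPSolvable p H) (a : G) (haH : a ∈ H) (hq : ⁅⁅V, Subgroup.zpowers a⁆, Subgroup.zpowers a⁆ = ⊥) (hna : a ∉ (Cfsg.pCore p H).map H.subtype) : p = 3 ∧ ∃ (K L : Subgroup G) (hL : (L.subgroupOf K).Normal), K ≤ H ∧ Nonempty ((K ⧸ L.subgroupOf K) ≃* Matrix.SpecialLinearGroup (Fin 2) (ZMod 3)) := by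
  have hxpp : a ^ p = 1 := Cfsg.Agent.H02.pow_p_of_quad V H hV hHV hf a haH hq
  let a' : H := ⟨a, haH⟩
  have hna' : a' ∉ Cfsg.pCore p H := fun h => hna ⟨a', h, rfl⟩
  obtain ⟨g, hg⟩ := Cfsg.Agent.H02.exists_conj_not_pgroup H a' (Subtype.ext hxpp) hna'
  have hgx : (g : G) * a * (g : G)⁻¹ ∈ H := H.mul_mem (H.mul_mem g.2 haH) (H.inv_mem g.2)
  let D : Subgroup G := Subgroup.closure {a, (g : G) * a * (g : G)⁻¹}
  have hDH : D ≤ H := by
    apply (Subgroup.closure_le _).2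
    rintro y (rfl | rfl)
    · exact haH
    · exact hgx
  have hfD : D ⊓ Subgroup.centralizer (V : Set G) = ⊥ :=
    le_bot_iff.1 (hf ▸ inf_le_inf_right _ hDH)
  have hy := Cfsg.Agent.H02.quad_conj V a g (hHV g.2) hq
  obtain ⟨K, L, hL, hKD, ⟨e⟩⟩ := Cfsg.Agent.H26.QuadSL.section_of_quad_pair hp V D hV (hDH.trans hHV)
    hfD a _ rfl hq hy hg
  have hp3 : p = 3 := Cfsg.Agent.H26.QuadSL.eq_three_of_section hp H K L hsep hL (hKD.trans hDH) e
  subst hp3
  exact ⟨rfl, K, L, hL, hKD.trans hDH, ⟨e⟩⟩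

end Cfsg.Agent.S0596
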