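import Cfsg.Statements.S0608
import Mathlib
import Cfsg.Agent.Lib.H03.Thompson2

set_option autoImplicit false
open Cfsg

namespace Cfsg.Agent.S0608


/-- With trivial p'-core, Thompson factorizability is equivalent to J(G) centralizing the subgroup generated by all Ω₁(Z(S)), S Sylow. -/
theorem result {G : Type*} [Group G] [Finite G] {p : ℕ} [Fact p.Prime] (hO : Cfsg.pPrimeCore p G = ⊥) : Cfsg.IsThompsonFactorizable p G ↔ Cfsg.thompsonSubgroup p G ≤ Subgroup.centralizer ((⨆ S : Sylow p G, Cfsg.omegaOne p (((S : Subgroup G)) ⊓ Subgroup.centralizer ((S : Subgroup G) : Set G)) : Subgroup G) : Set G) := by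
  classical
  set Ωf : Sylow p G → Subgroup G := fun S =>
    Cfsg.omegaOne p ((S : Subgroup G) ⊓ Subgroup.centralizer ((S : Subgroup G) : Set G)) with hΩf
  constructor
  · intro hfac
    rw [Cfsg.thompsonSubgroup]
    refine sSup_le fun A hA => ?_
    rw [Subgroup.le_centralizer_iff]
    refine iSup_le fun S₁ => ?_
    intro u hu
    rw [Subgroup.mem_centralizer_iff]
    intro a ha
    -- conjugate `A` into `S₁`
    obtain ⟨g, hg⟩ := Cfsg.Agent.H03.exists_conj_le_sylow (Cfsg.Agent.H03.isPGroup_of_isEA hA.1) S₁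
    obtain ⟨x, hx, c, hc, n, hn, he⟩ := hfac S₁ g⁻¹
    rw [hO, Subgroup.mem_bot] at hx
    rw [hx, one_mul] at he
    have hA₂ := Cfsg.Agent.H03.maxEA_comap_subtype S₁ (A := A.map (MulAut.conj g).toMonoidHom)
      ⟨Cfsg.Agent.H03.isEA_map _ hA.1, fun B hB => by
        rw [Cfsg.Agent.H13.card_map_conj]; exact hA.2 B hB⟩ hg
    have hy : g * a * g⁻¹ ∈ Cfsg.thompsonSubgroupOf p (S₁ : Subgroup G) := by
      have hmem : g * a * g⁻¹ ∈ A.map (MulAut.conj g).toMonoidHom := ⟨a, ha, rfl⟩
      exact ⟨⟨_, hg hmem⟩, le_sSup hA₂ hmem, rfl⟩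
    have hz : n * (g * a * g⁻¹) * n⁻¹ ∈ Cfsg.thompsonSubgroupOf p (S₁ : Subgroup G) :=
      (Subgroup.mem_normalizer_iff.mp hn _).mp hy
    have hzS := Cfsg.Agent.H03.thompsonOf_le_sylow (p := p) (S₁ : Subgroup G) hz
    set z := n * (g * a * g⁻¹) * n⁻¹ with hzdef
    have hazc : a = c * z * c⁻¹ := by
      rw [hzdef]
      have : g⁻¹ * (g * a * g⁻¹) * g = a := by group
      have h2 : g = (c * n)⁻¹ := by rw [← he, inv_inv]
      calc a = g⁻¹ * (g * a * g⁻¹) * g := this.symm
        _ = (c * n) * (g * a * g⁻¹) * (c * n)⁻¹ := by rw [← he, h2]; group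
        _ = c * (n * (g * a * g⁻¹) * n⁻¹) * c⁻¹ := by group
    have huc : c * u = u * c := by
      exact Subgroup.mem_centralizer_iff.mp hc u hu |>.symm
    have huz : z * u = u * z := by
      have h1 : u ∈ Subgroup.centralizer ((S₁ : Subgroup G) : Set G) :=
        (Cfsg.Agent.H03.omegaOne_le hu : u ∈ _ ⊓ _).2
      exact (Subgroup.mem_centralizer_iff.mp h1 z hzS)
    have huc' : c⁻¹ * u = u * c⁻¹ := by
      calc c⁻¹ * u = c⁻¹ * (u * c) * c⁻¹ := by group
        _ = c⁻¹ * (c * u) * c⁻¹ := by rw [huc]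
        _ = u * c⁻¹ := by group
    rw [hazc]
    calc c * z * c⁻¹ * u = c * z * (c⁻¹ * u) := by group
      _ = c * z * (u * c⁻¹) := by rw [huc']
      _ = c * (z * u) * c⁻¹ := by group
      _ = c * (u * z) * c⁻¹ := by rw [huz]
      _ = (c * u) * z * c⁻¹ := by group
      _ = (u * c) * z * c⁻¹ := by rw [huc]
      _ = u * (c * z * c⁻¹) := by group
  · intro hJ S g
    set Ω := ⨆ S : Sylow p G, Ωf S with hΩ
    have hconj : ∀ (g : G) (S : Sylow p G), (Ωf S).map (MulAut.conj g).toMonoidHom ≤ Ω := by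
      intro g S
      obtain ⟨S', hS'⟩ := Cfsg.Agent.H13.exists_sylow_of_map_conj S g
      have h1 : (Ωf S).map (MulAut.conj g).toMonoidHom = Ωf S' := by
        simp only [hΩf]
        rw [hS', Cfsg.Agent.H03.omegaOne_map _ (MulAut.conj g).injective,
          Cfsg.Agent.H03.inf_centralizer_map _ (MulAut.conj g).injective]
      rw [h1]
      exact le_iSup Ωf S'
    have hΩn : Ω.Normal := by
      constructor
      intro x hx g
      have h1 : Ω.map (MulAut.conj g).toMonoidHom ≤ Ω := by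
        rw [hΩ, Subgroup.map_iSup]
        exact iSup_le (hconj g)
      exact h1 ⟨x, hx, rfl⟩
    set C := Subgroup.centralizer (Ω : Set G) with hC
    have hCn : C.Normal := Subgroup.normal_centralizer
    have hAC : ∀ A ∈ Cfsg.maxElementaryAbelianSubgroups p (S : Subgroup G),
        A.map (S : Subgroup G).subtype ≤ C := by
      intro A hA
      have h1 := Cfsg.Agent.H03.maxEA_map_subtype S hA
      exact (le_sSup h1).trans hJ
    obtain ⟨c, hc, n, hn, he⟩ := Cfsg.Agent.H03.frattini_thompson S C hAC g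
    refine ⟨1, one_mem _, c, ?_, n, hn, by rw [he, one_mul]⟩
    exact Subgroup.centralizer_le (le_iSup Ωf S) hc

end Cfsg.Agent.S0608
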