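import Cfsg.Statements.S0609
import Mathlib
import Cfsg.Agent.Lib.H03.CoreQuot

set_option autoImplicit false
open Cfsg

namespace Cfsg.Agent.S0609


/-- Thompson factorizability passes to and from the quotient by the largest normal subgroup of order prime to p. -/
theorem result {G : Type*} [Group G] [Finite G] {p : ℕ} [Fact p.Prime] : Cfsg.IsThompsonFactorizable p G ↔ Cfsg.IsThompsonFactorizable p (G ⧸ Cfsg.pPrimeCore p G) := by
  classical
  set K := Cfsg.pPrimeCore p G with hKdef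
  have hK : (Nat.card K).Coprime p := Cfsg.Agent.H06.coprime_card_pPrimeCore p
  have hKn : K.Normal := Subgroup.sSup_normal _ (fun _ h => h.1)
  set f := QuotientGroup.mk' K with hf
  have hsurj : Function.Surjective f := QuotientGroup.mk'_surjective K
  have hinj : ∀ S : Sylow p G, ∀ x ∈ (S : Subgroup G), f x = 1 → x = 1 :=
    fun S => Cfsg.Agent.H03.mk_injOn hK S.isPGroup'
  have hΩ : ∀ S : Sylow p G, Cfsg.omegaOne p (((S : Subgroup G).map f) ⊓
      Subgroup.centralizer (((S : Subgroup G).map f : Subgroup (G ⧸ K)) : Set (G ⧸ K)))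
      = (Cfsg.omegaOne p ((S : Subgroup G) ⊓ Subgroup.centralizer ((S : Subgroup G) : Set G))).map f := by
    intro S
    rw [Cfsg.Agent.H03.omegaOne_map_injOn f (A := (S : Subgroup G) ⊓ Subgroup.centralizer ((S : Subgroup G) : Set G))
      (fun x hx => hinj S x (Subgroup.mem_inf.mp hx).1),
      Cfsg.Agent.H03.inf_centralizer_map_injOn f (hinj S)]
  constructor
  · intro h S' g'
    obtain ⟨S, rfl⟩ := Sylow.mapSurjective_surjective hsurj p S'
    obtain ⟨g, rfl⟩ := hsurj g'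
    obtain ⟨x, hx, c, hc, n, hn, rfl⟩ := h S g
    refine ⟨1, one_mem _, f c, ?_, f n, ?_, ?_⟩
    · rw [Sylow.coe_mapSurjective, hΩ S]
      exact Cfsg.Agent.H03.mem_centralizer_map f hc
    · rw [Sylow.coe_mapSurjective, ← Cfsg.Agent.H03.thompsonOf_map_injOn f (hinj S)]
      exact Cfsg.Agent.H03.mem_normalizer_map f hn
    · rw [one_mul, map_mul, map_mul]
      have : f x = 1 := (QuotientGroup.eq_one_iff x).mpr hx
      rw [this, one_mul]
  · intro h S g
    obtain ⟨x', hx', c', hc', n', hn', he⟩ := h (S.mapSurjective hsurj) (f g)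
    rw [Cfsg.Agent.H08.pPrimeCore_quotient_eq_bot, Subgroup.mem_bot] at hx'
    rw [Sylow.coe_mapSurjective, hΩ S] at hc'
    rw [Sylow.coe_mapSurjective, ← Cfsg.Agent.H03.thompsonOf_map_injOn f (hinj S)] at hn'
    obtain ⟨c, rfl⟩ := hsurj c'
    obtain ⟨n, rfl⟩ := hsurj n'
    rw [hx', one_mul, ← map_mul] at he
    -- lift
    have hΩp : IsPGroup p (Cfsg.omegaOne p ((S : Subgroup G) ⊓ Subgroup.centralizer ((S : Subgroup G) : Set G))) :=
      S.isPGroup'.to_le (Cfsg.Agent.H03.omegaOne_le.trans inf_le_left)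
    have hJp : IsPGroup p (Cfsg.thompsonSubgroupOf p (S : Subgroup G)) := by
      apply S.isPGroup'.to_le
      rw [Cfsg.thompsonSubgroupOf]
      rintro _ ⟨a, _, rfl⟩
      exact a.2
    obtain ⟨k₁, hk₁, hc₁⟩ := Cfsg.Agent.H03.exists_centralizer_rep hK hΩp
      (Cfsg.Agent.H03.conj_comm_mem_of_mem_centralizer_map hc')
    obtain ⟨k₂, hk₂, hn₁⟩ := Cfsg.Agent.H03.exists_normalizer_rep hK hJp
      (Cfsg.Agent.H03.map_conj_le_sup_of_mem_normalizer_map hn')
    have hk₃ : g * (c * n)⁻¹ ∈ K := by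
      rw [← QuotientGroup.eq_one_iff]
      change f (g * (c * n)⁻¹) = 1
      rw [map_mul, map_inv, he, mul_inv_cancel]
    refine ⟨(g * (c * n)⁻¹) * k₁ * ((k₁⁻¹ * c) * k₂ * (k₁⁻¹ * c)⁻¹), ?_, k₁⁻¹ * c, hc₁, k₂⁻¹ * n, hn₁, ?_⟩
    · exact mul_mem (mul_mem hk₃ hk₁) (hKn.conj_mem k₂ hk₂ _)
    · group

end Cfsg.Agent.S0609
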