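import Mathlib
import Cfsg.Statements.S0621
import Cfsg.Agent.Lib.H14.BO16
-- import your own Cfsg.Agent.* helpers here

set_option autoImplicit false
open Cfsg

namespace Cfsg.Agent.S0621


/-- Let K be p-separable with O_p'(K) = 1, normalized by an elementary abelian q-group X for a prime q not dividing the order of K. If the Thompson factorization fails in K, then p is 2 or 3 and the fixed points of X contain a plane W of order p² and a subgroup inducing SL(2, p) on it. -/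
theorem result {G : Type*} [Group G] [Finite G] {p : ℕ} [Fact p.Prime] {q : ℕ} [Fact q.Prime] (K X : Subgroup G) (hXK : X ≤ Subgroup.normalizer (K : Set G)) (hX : Cfsg.IsElementaryAbelian q X) (hq : ¬ q ∣ Nat.card K) (hsep : Cfsg.IsPSolvable p ↥K) (hO : Cfsg.pPrimeCore p ↥K = ⊥) (hnf : ¬ Cfsg.IsThompsonFactorizable p ↥K) : (p = 2 ∨ p = 3) ∧ ∃ W D : Subgroup G, W ≤ K ⊓ Subgroup.centralizer (X : Set G) ∧ D ≤ K ⊓ Subgroup.centralizer (X : Set G) ∧ Cfsg.IsElementaryAbelian p W ∧ Nat.card W = p ^ 2 ∧ D ≤ Subgroup.normalizer (W : Set G) ∧ ∃ hn : ((Subgroup.centralizer (W : Set G)).subgroupOf D).Normal, Nonempty ((↥D ⧸ (Subgroup.centralizer (W : Set G)).subgroupOf D) ≃* Matrix.SpecialLinearGroup (Fin 2) (ZMod p)) := by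
  classical
  have hΦ : IsPGroup q ↥X := Cfsg.Agent.H02.ea_isPGroup hX
  let τ : ↥X →* MulAut ↥K := (Subgroup.normalizerMonoidHom K).comp (Subgroup.inclusion hXK)
  obtain ⟨hp, W, D, hWf, hDf, hWe, hWc, hDN, φ, hφs, hφk⟩ := Cfsg.Agent.H14.coprime_fail (q := q) τ hΦ hq hsep hO hnf
  have hfix : ∀ k : K, k ∈ Cfsg.Agent.H14.fixS τ → (k : G) ∈ Subgroup.centralizer (X : Set G) := by
    intro k hk
    refine Subgroup.mem_centralizer_iff.mpr fun x hx => ?_
    have h1 : (((τ ⟨x, hx⟩ k : K)) : G) = x * k * x⁻¹ := rfl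
    rw [hk ⟨x, hx⟩] at h1
    calc x * (k : G) = x * k * x⁻¹ * x := by group
      _ = k * x := by rw [← h1]
  have hle : ∀ {A : Subgroup K}, A ≤ Cfsg.Agent.H14.fixS τ → A.map K.subtype ≤ K ⊓ Subgroup.centralizer (X : Set G) := by
    rintro A hA _ ⟨k, hk, rfl⟩
    exact ⟨k.2, hfix k (hA hk)⟩
  obtain ⟨WG, hWG⟩ : ∃ WG, WG = W.map K.subtype := ⟨_, rfl⟩
  obtain ⟨DG, hDG⟩ : ∃ DG, DG = D.map K.subtype := ⟨_, rfl⟩
  have hWmem : ∀ k : K, (k : G) ∈ WG ↔ k ∈ W := by
    intro k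
    rw [hWG]
    constructor
    · rintro ⟨k', hk', e⟩
      have : k' = k := Subtype.ext e
      rwa [← this]
    · intro h
      exact ⟨k, h, rfl⟩
  have hDmem : ∀ k : K, (k : G) ∈ DG ↔ k ∈ D := by
    intro k
    rw [hDG]
    constructor
    · rintro ⟨k', hk', e⟩
      have : k' = k := Subtype.ext e
      rwa [← this]
    · intro h
      exact ⟨k, h, rfl⟩
  have hWK : WG ≤ K := by
    rw [hWG]
    exact Subgroup.map_subtype_le _
  have hDK : DG ≤ K := by
    rw [hDG]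
    exact Subgroup.map_subtype_le _
  have hWea : Cfsg.IsElementaryAbelian p WG := by
    have hcV := Cfsg.Agent.H02.commV_of_ea hWe
    refine ⟨⟨⟨fun a b => Subtype.ext ?_⟩⟩, fun a ha => ?_⟩
    · have h1 := hcV ⟨a.1, hWK a.2⟩ ((hWmem ⟨a.1, hWK a.2⟩).mp a.2) ⟨b.1, hWK b.2⟩ ((hWmem ⟨b.1, hWK b.2⟩).mp b.2)
      change (a : G) * (b : G) = (b : G) * (a : G)
      exact congrArg Subtype.val h1
    · have h1 := hWe.2 ⟨a, hWK ha⟩ ((hWmem ⟨a, hWK ha⟩).mp ha)
      exact congrArg Subtype.val h1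
  have hWGc : Nat.card WG = p ^ 2 := by
    rw [hWG, ← hWc]
    exact (Nat.card_congr (Subgroup.equivMapOfInjective _ _ K.subtype_injective).toEquiv).symm
  have hDGN : DG ≤ Subgroup.normalizer (WG : Set G) := by
    intro d hd
    apply Cfsg.Agent.H19.mem_normalizer_of_conj_le
    intro x hx
    have hdD := (hDmem ⟨d, hDK hd⟩).mp hd
    have hxW := (hWmem ⟨x, hWK hx⟩).mp hx
    have h1 := Cfsg.Agent.H02.conj_mem_of_normalizer (hDN hdD) hxW
    exact (hWmem _).mpr h1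
  let r : ↥DG →* ↥D :=
    { toFun := fun d => ⟨⟨d.1, hDK d.2⟩, (hDmem ⟨d.1, hDK d.2⟩).mp d.2⟩
      map_one' := rfl
      map_mul' := fun _ _ => rfl }
  have hrs : Function.Surjective r := by
    rintro ⟨⟨d, hd⟩, hd'⟩
    exact ⟨⟨d, (hDmem ⟨d, hd⟩).mpr hd'⟩, rfl⟩
  have hsurj : Function.Surjective (φ.comp r) := hφs.comp hrs
  have hker : (Subgroup.centralizer (WG : Set G)).subgroupOf DG = (φ.comp r).ker := by
    ext d
    rw [Subgroup.mem_subgroupOf, MonoidHom.mem_ker]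
    change _ ↔ φ (r d) = 1
    rw [hφk]
    constructor
    · intro h
      refine Subgroup.mem_centralizer_iff.mpr fun k hk => Subtype.ext ?_
      exact Subgroup.mem_centralizer_iff.mp h (k : G) ((hWmem k).mpr hk)
    · intro h
      refine Subgroup.mem_centralizer_iff.mpr fun x hx => ?_
      have h1 := Subgroup.mem_centralizer_iff.mp h ⟨x, hWK hx⟩ ((hWmem ⟨x, hWK hx⟩).mp hx)
      exact congrArg Subtype.val h1
  have hn : ((Subgroup.centralizer (WG : Set G)).subgroupOf DG).Normal := by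
    rw [hker]
    infer_instance
  refine ⟨hp, WG, DG, ?_, ?_, hWea, hWGc, hDGN, hn, ⟨(QuotientGroup.quotientMulEquivOfEq hker).trans
    (QuotientGroup.quotientKerEquivOfSurjective _ hsurj)⟩⟩
  · rw [hWG]
    exact hle hWf
  · rw [hDG]
    exact hle hDf

end Cfsg.Agent.S0621
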