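import Cfsg.Statements.S0622
import Mathlib
import Cfsg.Agent.Lib.H03.Stable

set_option autoImplicit false
universe u
open Cfsg

namespace Cfsg.Agent.S0622


/-- Basic properties of the stable normal closure W(S) of Ω₁(Z(S)) in a finite p-group: characteristic, squeezed between Ω₁(Z(S)) and Ω₁(Z(J(S))), nontrivial for S ≠ 1, and transported by group isomorphisms. -/
theorem result {S : Type u} [Group S] [Finite S] {p : ℕ} [Fact p.Prime] (hS : IsPGroup p S) : (Cfsg.stableNormalClosure p S).Characteristic ∧ Cfsg.omegaOne p (Subgroup.center S) ≤ Cfsg.stableNormalClosure p S ∧ Cfsg.stableNormalClosure p S ≤ Cfsg.omegaCenterThompson p S ∧ (Nontrivial S → Cfsg.stableNormalClosure p S ≠ ⊥) ∧ ∀ (S' : Type u) [Group S'] (η : S ≃* S'), (Cfsg.stableNormalClosure p S).map η.toMonoidHom = Cfsg.stableNormalClosure p S' := by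
  classical
  refine ⟨?_, Cfsg.Agent.H03.omegaOne_center_le_stableNormalClosure,
    Cfsg.Agent.H03.stableNormalClosure_le_omegaCenterThompson, ?_, ?_⟩
  · rw [Subgroup.characteristic_iff_map_eq]
    intro φ
    exact Cfsg.Agent.H03.stableNormalClosure_map φ
  · intro hN hbot
    have hc : Nontrivial (Subgroup.center S) := hS.center_nontrivial
    have hdvd : p ∣ Nat.card (Subgroup.center S) := by
      obtain ⟨n, hn, hk⟩ := (hS.to_subgroup (Subgroup.center S)).nontrivial_iff_card.mp hc
      rw [hk]
      exact dvd_pow_self p hn.ne'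
    obtain ⟨x, hx⟩ := exists_prime_orderOf_dvd_card' p hdvd
    have hxne : (x : S) ≠ 1 := by
      intro h
      have : x = 1 := Subtype.ext h
      rw [this, orderOf_one] at hx
      exact (Fact.out : p.Prime).one_lt.ne hx
    have hmem : (x : S) ∈ Cfsg.omegaOne p (Subgroup.center S) := by
      apply Cfsg.Agent.H03.mem_omegaOne_of_mem x.2
      have : x ^ p = 1 := by rw [← hx, pow_orderOf_eq_one]
      exact congrArg Subtype.val this
    have := Cfsg.Agent.H03.omegaOne_center_le_stableNormalClosure hmem
    rw [hbot, Subgroup.mem_bot] at this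
    exact hxne this
  · intro S' _ η
    exact Cfsg.Agent.H03.stableNormalClosure_map η

end Cfsg.Agent.S0622
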