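import Cfsg.Statements.S0629
import Mathlib
import Cfsg.Agent.Lib.H03.PConstr
import Cfsg.Agent.Lib.H12.Core
import Cfsg.Agent.Lib.H06.Layer2

set_option autoImplicit false
open Cfsg

namespace Cfsg.Agent.S0629


/-- A group in which the centralizer of a Sylow p-subgroup of O_{p',p}(G) is p-solvable is p-constrained. -/
theorem result {G : Type*} [Group G] [Finite G] {p : ℕ} [Fact p.Prime] (P : Sylow p ↥(Cfsg.pPrimePCore p G)) (hsol : Cfsg.IsPSolvable p ↥(Subgroup.centralizer (((P : Subgroup ↥(Cfsg.pPrimePCore p G)).map (Cfsg.pPrimePCore p G).subtype : Subgroup G) : Set G))) : Cfsg.IsPConstrained p G := by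
  classical
  have hK : (Nat.card (Cfsg.pPrimeCore p G)).Coprime p := Cfsg.Agent.H06.coprime_card_pPrimeCore p
  have hKn : (Cfsg.pPrimeCore p G).Normal := Cfsg.Agent.H03.pPrimeCore_normal'
  rw [Cfsg.Agent.H03.isPConstrained_iff]
  set P₁ := (P : Subgroup ↥(Cfsg.pPrimePCore p G)).map (Cfsg.pPrimePCore p G).subtype with hP₁
  have hP₁p : IsPGroup p P₁ := P.isPGroup'.map _
  set f := QuotientGroup.mk' (Cfsg.pPrimeCore p G) with hf
  have hsurj : Function.Surjective f := QuotientGroup.mk'_surjective _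
  have hmap : P₁.map f = Cfsg.pCore p (G ⧸ Cfsg.pPrimeCore p G) := Cfsg.Agent.H03.map_sylow_pPrimePCore P
  have hkerrep : ∀ k x : G, k ∈ Cfsg.pPrimeCore p G → f (k⁻¹ * x) = f x := by
    intro k x hk
    have : f k = 1 := (QuotientGroup.eq_one_iff k).mpr hk
    rw [map_mul, map_inv, this, inv_one, one_mul]
  set T := Cfsg.pCore p (G ⧸ Cfsg.pPrimeCore p G) with hT
  have hTn : T.Normal := Cfsg.Agent.H01.pCore_normal p
  have hTp : IsPGroup p T := Cfsg.Agent.H01.pCore_isPGroup p
  have hC : (Subgroup.centralizer (P₁ : Set G)).map f = Subgroup.centralizer (T : Set (G ⧸ Cfsg.pPrimeCore p G)) := by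
    apply le_antisymm
    · rintro _ ⟨n, hn, rfl⟩
      rw [← hmap]
      exact Cfsg.Agent.H03.mem_centralizer_map f hn
    · intro y hy
      obtain ⟨x, rfl⟩ := hsurj y
      rw [← hmap] at hy
      obtain ⟨k, hk, hn⟩ := Cfsg.Agent.H03.exists_centralizer_rep hK hP₁p
        (Cfsg.Agent.H03.conj_comm_mem_of_mem_centralizer_map hy)
      exact ⟨_, hn, hkerrep k x hk⟩
  set X := Subgroup.centralizer (T : Set (G ⧸ Cfsg.pPrimeCore p G)) with hX
  have hXn : X.Normal := Subgroup.normal_centralizer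
  have hsolX : Cfsg.IsPSolvable p ↥X := by
    rw [← hC]
    exact Cfsg.Agent.H03.isPSolvable_of_surjective (f.subgroupMap_surjective _) hsol
  have hOchar : (Cfsg.pPrimeCore p ↥X).Characteristic := Cfsg.Agent.H06.pPrimeCore_characteristic _ p
  have hRchar : (Cfsg.pCore p ↥X).Characteristic := Cfsg.Agent.H12.pCore_characteristic _
  have hOn : ((Cfsg.pPrimeCore p ↥X).map X.subtype).Normal := inferInstance
  have hRn : ((Cfsg.pCore p ↥X).map X.subtype).Normal := inferInstance
  have hO : Cfsg.pPrimeCore p ↥X = ⊥ := by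
    have h1 : (Cfsg.pPrimeCore p ↥X).map X.subtype ≤ Cfsg.pPrimeCore p (G ⧸ Cfsg.pPrimeCore p G) := by
      apply Cfsg.Agent.H08.le_pPrimeCore hOn
      rw [show Nat.card ((Cfsg.pPrimeCore p ↥X).map X.subtype) = Nat.card (Cfsg.pPrimeCore p ↥X) from
        Subgroup.card_map_of_injective X.subtype_injective]
      exact Cfsg.Agent.H06.coprime_card_pPrimeCore p
    rw [Cfsg.Agent.H08.pPrimeCore_quotient_eq_bot] at h1
    exact (Subgroup.map_eq_bot_iff_of_injective _ X.subtype_injective).mp (le_bot_iff.mp h1)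
  have hHH := Cfsg.Agent.H03.centralizer_pCore_le_of_isPSolvable hsolX hO
  have hRT : (Cfsg.pCore p ↥X).map X.subtype ≤ T := by
    apply Cfsg.Agent.H01.le_pCore hRn
    exact (Cfsg.Agent.H01.pCore_isPGroup (G := ↥X) p).map X.subtype
  intro x hx
  have h1 : (⟨x, hx⟩ : ↥X) ∈ Subgroup.centralizer (Cfsg.pCore p ↥X : Set ↥X) := by
    rw [Subgroup.mem_centralizer_iff]
    intro r hr
    apply Subtype.ext
    exact Subgroup.mem_centralizer_iff.mp hx r (hRT ⟨r, hr, rfl⟩)
  exact hRT ⟨_, hHH h1, rfl⟩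

end Cfsg.Agent.S0629
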