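import Cfsg.Statements.S0631
import Mathlib
import Cfsg.Agent.Lib.H03.PConstr

set_option autoImplicit false
open Cfsg

namespace Cfsg.Agent.S0631

open Cfsg.Agent.H03

theorem charP_image {G : Type*} [Group G] [Finite G] {p : ℕ} [Fact p.Prime] (M : Subgroup G) {K : Subgroup G} [K.Normal]
    (hK : (Nat.card K).Coprime p)
    (hM : Cfsg.Agent.H13.IsCharP p ↥(M.map (QuotientGroup.mk' K))) :
    Cfsg.IsPConstrained p ↥M := by
  apply isPConstrained_of_surjective (f := (QuotientGroup.mk' K).subgroupMap M)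
    ((QuotientGroup.mk' K).subgroupMap_surjective M) ?_ hM
  set A := (((QuotientGroup.mk' K).subgroupMap M).ker).map M.subtype with hA
  have hAK : A ≤ K := by
    rintro _ ⟨x, hx, rfl⟩
    rw [SetLike.mem_coe, MonoidHom.mem_ker] at hx
    have h' := congrArg Subtype.val hx
    exact (QuotientGroup.eq_one_iff _).mp h'
  have hcard : Nat.card A = Nat.card ((QuotientGroup.mk' K).subgroupMap M).ker :=
    Subgroup.card_map_of_injective M.subtype_injective
  rw [← hcard]
  exact Nat.Coprime.coprime_dvd_left (Subgroup.card_dvd_of_le hAK) hK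

/-- In a p-constrained group the normalizer and the centralizer of any p-subgroup are again p-constrained. -/
theorem result {G : Type*} [Group G] [Finite G] {p : ℕ} [Fact p.Prime] (hG : Cfsg.IsPConstrained p G) (P : Subgroup G) (hP : IsPGroup p P) : Cfsg.IsPConstrained p ↥(Subgroup.normalizer (P : Set G)) ∧ Cfsg.IsPConstrained p ↥(Subgroup.centralizer (P : Set G)) := by
  classical
  have hK : (Nat.card (Cfsg.pPrimeCore p G)).Coprime p := Cfsg.Agent.H06.coprime_card_pPrimeCore p
  have hKn : (Cfsg.pPrimeCore p G).Normal := pPrimeCore_normal'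
  have hG' : Cfsg.Agent.H13.IsCharP p (G ⧸ Cfsg.pPrimeCore p G) := isPConstrained_iff.mp hG
  set f := QuotientGroup.mk' (Cfsg.pPrimeCore p G) with hf
  have hkerrep : ∀ k x : G, k ∈ Cfsg.pPrimeCore p G → f (k⁻¹ * x) = f x := by
    intro k x hk
    have : f k = 1 := (QuotientGroup.eq_one_iff k).mpr hk
    rw [map_mul, map_inv, this, inv_one, one_mul]
  have hsurj : Function.Surjective f := QuotientGroup.mk'_surjective _
  set Pb := P.map f with hPb
  have hPbp : IsPGroup p Pb := hP.map f
  have hN : (Subgroup.normalizer (P : Set G)).map f = Subgroup.normalizer (Pb : Set (G ⧸ Cfsg.pPrimeCore p G)) := by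
    apply le_antisymm
    · rintro _ ⟨n, hn, rfl⟩
      exact mem_normalizer_map f hn
    · intro y hy
      obtain ⟨x, rfl⟩ := hsurj y
      obtain ⟨k, hk, hn⟩ := exists_normalizer_rep hK hP (map_conj_le_sup_of_mem_normalizer_map hy)
      exact ⟨_, hn, hkerrep k x hk⟩
  have hC : (Subgroup.centralizer (P : Set G)).map f = Subgroup.centralizer (Pb : Set (G ⧸ Cfsg.pPrimeCore p G)) := by
    apply le_antisymm
    · rintro _ ⟨n, hn, rfl⟩
      exact mem_centralizer_map f hn
    · intro y hy
      obtain ⟨x, rfl⟩ := hsurj y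
      obtain ⟨k, hk, hn⟩ := exists_centralizer_rep hK hP (conj_comm_mem_of_mem_centralizer_map hy)
      exact ⟨_, hn, hkerrep k x hk⟩
  have hTop : Cfsg.Agent.H13.IsCharP p ↥(⊤ : Subgroup (G ⧸ Cfsg.pPrimeCore p G)) :=
    Cfsg.Agent.H13.isCharP_top_iff.mpr hG'
  have hcN : Cfsg.Agent.H13.IsCharP p ↥(Subgroup.normalizer (Pb : Set (G ⧸ Cfsg.pPrimeCore p G))) :=
    Cfsg.Agent.H13.isCharP_normalizer hTop le_top hPbp le_top
  have hcC : Cfsg.Agent.H13.IsCharP p ↥(Subgroup.centralizer (Pb : Set (G ⧸ Cfsg.pPrimeCore p G))) := by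
    apply Cfsg.Agent.H13.isCharP_of_le_of_normalizer hcN
    · exact Cfsg.Agent.H13.centralizer_le_normalizer_of_le Pb
    · intro g hg
      apply Cfsg.Agent.H13.mem_normalizer_of_map_conj_eq
      rw [Cfsg.Agent.H13.map_conj_centralizer, Cfsg.Agent.H13.map_conj_eq_of_mem_normalizer hg]
  constructor
  · apply charP_image _ hK
    rw [← hf, hN]
    exact hcN
  · apply charP_image _ hK
    rw [← hf, hC]
    exact hcC

end Cfsg.Agent.S0631
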