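import Cfsg.Statements.S0632
import Mathlib
import Cfsg.Agent.Lib.H03.PConstr

set_option autoImplicit false
open Cfsg

namespace Cfsg.Agent.S0632

open Cfsg.Agent.H03
open scoped commutatorElement

variable {G : Type*} [Group G] [Finite G] {p : ℕ} [Fact p.Prime]

theorem map_sylow_comap (K : Subgroup G) [K.Normal] (hK : (Nat.card K).Coprime p)
    (T : Subgroup (G ⧸ K)) (hTp : IsPGroup p T) (L : Subgroup G)
    (hL : L = T.comap (QuotientGroup.mk' K)) (P : Sylow p ↥L) :
    ((P : Subgroup L).map L.subtype).map (QuotientGroup.mk' K) = T := by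
  classical
  obtain ⟨b, hb⟩ := IsPGroup.iff_card.mp hTp
  have hcQ : Nat.card L = Nat.card K * Nat.card T := by
    rw [hL]
    exact QuotientGroup.card_preimage_mk K (T : Set (G ⧸ K))
  have hPp : IsPGroup p ((P : Subgroup L).map L.subtype) :=
    P.isPGroup'.map L.subtype
  apply Subgroup.eq_of_le_of_card_ge
  · rintro _ ⟨_, ⟨x, _, rfl⟩, rfl⟩
    have hle : L ≤ (T.comap (QuotientGroup.mk' K)) := hL.le
    exact hle x.2
  · have h1 : p ^ b ∣ Nat.card L := by
      rw [hcQ, hb]
      exact dvd_mul_left _ _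
    have h2 := Sylow.pow_dvd_card_of_pow_dvd_card P h1
    have h3 : Nat.card ((P : Subgroup L).map L.subtype) = Nat.card (P : Subgroup L) :=
      Subgroup.card_map_of_injective L.subtype_injective
    have h4 : Nat.card ((((P : Subgroup L).map L.subtype)).map (QuotientGroup.mk' K))
        = Nat.card ((P : Subgroup L).map L.subtype) := by
      apply Nat.card_congr
      exact (equivMapOfInjOn (QuotientGroup.mk' K) (mk_injOn hK hPp)).toEquiv.symm
    rw [h4, h3, hb]
    exact Nat.le_of_dvd Nat.card_pos h2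

theorem pPrimePCore_eq_pCore {X : Type*} [Group X] [Finite X] (hO : Cfsg.pPrimeCore p X = ⊥) :
    Cfsg.pPrimePCore p X = Cfsg.pCore p X := by
  have hinj : Function.Injective (QuotientGroup.mk' (Cfsg.pPrimeCore p X)) := by
    rw [injective_iff_map_eq_one]
    intro x hx
    have := (QuotientGroup.eq_one_iff x).mp hx
    rw [hO] at this
    exact this
  let e : X ≃* (X ⧸ Cfsg.pPrimeCore p X) :=
    MulEquiv.ofBijective (QuotientGroup.mk' _) ⟨hinj, QuotientGroup.mk'_surjective _⟩
  ext x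
  exact Cfsg.Agent.H12.mem_pCore_equiv_iff e x

/-- The two sections `N(P)/C(P)` agree modulo a normal `p'`-subgroup. -/
theorem stable_section_iff (K : Subgroup G) [hKn : K.Normal] (hK : (Nat.card K).Coprime p)
    (P A : Subgroup G) (hP : IsPGroup p P) (hAN : A ≤ Subgroup.normalizer (P : Set G)) :
    ((A.subgroupOf (Subgroup.normalizer (P : Set G))).map
        (QuotientGroup.mk' ((Subgroup.centralizer (P : Set G)).subgroupOf
          (Subgroup.normalizer (P : Set G)))) ≤ Cfsg.pCore p _) ↔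
    (((A.map (QuotientGroup.mk' K)).subgroupOf (Subgroup.normalizer ((P.map (QuotientGroup.mk' K) : Subgroup (G ⧸ K)) : Set (G ⧸ K)))).map
        (QuotientGroup.mk' ((Subgroup.centralizer ((P.map (QuotientGroup.mk' K) : Subgroup (G ⧸ K)) : Set (G ⧸ K))).subgroupOf
          (Subgroup.normalizer ((P.map (QuotientGroup.mk' K) : Subgroup (G ⧸ K)) : Set (G ⧸ K))))) ≤ Cfsg.pCore p _) := by
  classical
  set f := QuotientGroup.mk' K with hf
  have hfsurj : Function.Surjective f := QuotientGroup.mk'_surjective K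
  set N := Subgroup.normalizer (P : Set G) with hN
  set C := Subgroup.centralizer (P : Set G) with hC
  set Pb := P.map f with hPb
  set Nb := Subgroup.normalizer (Pb : Set (G ⧸ K)) with hNb
  set Cb := Subgroup.centralizer (Pb : Set (G ⧸ K)) with hCb
  have hfN : ∀ n : ↥N, f n ∈ Nb := fun n => mem_normalizer_map f n.2
  let f₁ : ↥N →* ↥Nb := (f.comp N.subtype).codRestrict Nb hfN
  have hf₁ : ∀ n : ↥N, ((f₁ n : ↥Nb) : G ⧸ K) = f n := fun _ => rfl
  have hf₁surj : Function.Surjective f₁ := by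
    rintro ⟨y, hy⟩
    obtain ⟨x, rfl⟩ := hfsurj y
    obtain ⟨k, hk, hn⟩ := exists_normalizer_rep hK hP (map_conj_le_sup_of_mem_normalizer_map hy)
    refine ⟨⟨_, hn⟩, ?_⟩
    apply Subtype.ext
    change f (k⁻¹ * x) = f x
    have : f k = 1 := (QuotientGroup.eq_one_iff k).mpr hk
    rw [map_mul, map_inv, this, inv_one, one_mul]
  let g : ↥N →* (↥Nb ⧸ Cb.subgroupOf Nb) := (QuotientGroup.mk' (Cb.subgroupOf Nb)).comp f₁
  have hgsurj : Function.Surjective g := (QuotientGroup.mk'_surjective _).comp hf₁surj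
  have hgker : C.subgroupOf N = g.ker := by
    ext n
    rw [Subgroup.mem_subgroupOf, MonoidHom.mem_ker]
    change (n : G) ∈ C ↔ (QuotientGroup.mk' (Cb.subgroupOf Nb)) (f₁ n) = 1
    rw [show (QuotientGroup.mk' (Cb.subgroupOf Nb)) (f₁ n) = 1 ↔ f₁ n ∈ Cb.subgroupOf Nb from
      QuotientGroup.eq_one_iff _, Subgroup.mem_subgroupOf, hf₁]
    constructor
    · intro h
      exact mem_centralizer_map f h
    · intro h
      have h1 := conj_comm_mem_of_mem_centralizer_map h
      rw [hC, Subgroup.mem_centralizer_iff]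
      intro a ha
      have h2 : (n : G) * a * (n : G)⁻¹ * a⁻¹ ∈ K ⊓ P :=
        Subgroup.mem_inf.mpr ⟨h1 a ha, mul_mem ((Subgroup.mem_normalizer_iff.mp n.2 a).mp ha) (inv_mem ha)⟩
      rw [inf_eq_bot_of_pgroup hK hP, Subgroup.mem_bot, mul_inv_eq_one] at h2
      calc a * n = ((n : G) * a * (n : G)⁻¹) * n := by rw [h2]
        _ = n * a := by group
  let e : (↥N ⧸ C.subgroupOf N) ≃* (↥Nb ⧸ Cb.subgroupOf Nb) :=
    (QuotientGroup.quotientMulEquivOfEq hgker).trans (QuotientGroup.quotientKerEquivOfSurjective g hgsurj)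
  have he : ∀ n : ↥N, e (QuotientGroup.mk n) = QuotientGroup.mk (f₁ n) := fun _ => rfl
  constructor
  · intro h
    rintro _ ⟨⟨y, hy⟩, hy', rfl⟩
    rw [SetLike.mem_coe, Subgroup.mem_subgroupOf] at hy'
    obtain ⟨a, ha, rfl⟩ := hy'
    have h1 := h ⟨⟨a, hAN ha⟩, Subgroup.mem_subgroupOf.mpr ha, rfl⟩
    have h2 := (Cfsg.Agent.H12.mem_pCore_equiv_iff (p := p) e _).mpr h1
    exact h2
  · intro h
    rintro _ ⟨⟨a, haN⟩, ha, rfl⟩
    rw [SetLike.mem_coe, Subgroup.mem_subgroupOf] at ha
    apply (Cfsg.Agent.H12.mem_pCore_equiv_iff (p := p) e _).mp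
    apply h
    exact ⟨f₁ ⟨a, haN⟩, Subgroup.mem_subgroupOf.mpr ⟨a, ha, rfl⟩, rfl⟩

/-- For a group with a nontrivial normal p-subgroup, p-stability passes to and from the quotient by the largest normal subgroup of order prime to p. -/
theorem result {G : Type*} [Group G] [Finite G] {p : ℕ} [Fact p.Prime] (hO : Cfsg.pCore p G ≠ ⊥) : Cfsg.IsPStable p G ↔ Cfsg.IsPStable p (G ⧸ Cfsg.pPrimeCore p G) := by
  classical
  have hK : (Nat.card (Cfsg.pPrimeCore p G)).Coprime p := Cfsg.Agent.H06.coprime_card_pPrimeCore p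
  have hKn : (Cfsg.pPrimeCore p G).Normal := pPrimeCore_normal'
  have hOb : Cfsg.pPrimeCore p (G ⧸ Cfsg.pPrimeCore p G) = ⊥ := Cfsg.Agent.H08.pPrimeCore_quotient_eq_bot p
  have hQb : Cfsg.pPrimePCore p (G ⧸ Cfsg.pPrimeCore p G) = Cfsg.pCore p (G ⧸ Cfsg.pPrimeCore p G) :=
    pPrimePCore_eq_pCore hOb
  set f := QuotientGroup.mk' (Cfsg.pPrimeCore p G) with hf
  have hfsurj : Function.Surjective f := QuotientGroup.mk'_surjective _
  have hTG : (Cfsg.pCore p G).map f ≤ Cfsg.pCore p (G ⧸ Cfsg.pPrimeCore p G) :=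
    Cfsg.Agent.H01.le_pCore ((Cfsg.Agent.H01.pCore_normal p).map f hfsurj)
      ((Cfsg.Agent.H01.pCore_isPGroup p).map f)
  have hinjT : ∀ x ∈ Cfsg.pCore p G, f x = 1 → x = 1 :=
    mk_injOn hK (Cfsg.Agent.H01.pCore_isPGroup p)
  have hOb' : Cfsg.pCore p (G ⧸ Cfsg.pPrimeCore p G) ≠ ⊥ := by
    intro hbot
    apply hO
    rw [eq_bot_iff]
    intro x hx
    have h1 : f x ∈ (⊥ : Subgroup (G ⧸ Cfsg.pPrimeCore p G)) := hbot ▸ hTG ⟨x, hx, rfl⟩
    exact hinjT x hx h1
  constructor
  · rintro ⟨hodd, -, hst⟩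
    refine ⟨hodd, hOb', ?_⟩
    intro Ab Pb hAb hPb hAPb hPQ hnorm hq
    rw [hOb, bot_sup_eq] at hnorm
    rw [hQb] at hPQ
    -- lift `Pb`
    set L := Pb.comap f with hL
    have hLn : L.Normal := hnorm.comap f
    obtain ⟨P₀⟩ : Nonempty (Sylow p ↥L) := inferInstance
    set P := (P₀ : Subgroup ↥L).map L.subtype with hP
    have hPp : IsPGroup p P := P₀.isPGroup'.map _
    have hPmap : P.map f = Pb := map_sylow_comap _ hK Pb hPb L rfl P₀
    have hPL : P ≤ L := by
      rintro _ ⟨x, _, rfl⟩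
      exact x.2
    -- lift `Ab`
    have hAbN : ∀ y ∈ Ab, y ∈ Subgroup.normalizer (Pb : Set (G ⧸ Cfsg.pPrimeCore p G)) := by
      intro y hy
      apply Cfsg.Agent.H13.mem_normalizer_of_map_conj_le
      rintro _ ⟨z, hz, rfl⟩
      exact hAPb y hy z hz
    set M := Ab.comap f ⊓ Subgroup.normalizer (P : Set G) with hM
    have hMmap : M.map f = Ab := by
      apply le_antisymm
      · rintro _ ⟨x, hx, rfl⟩
        exact (Subgroup.mem_inf.mp hx).1
      · intro y hy
        obtain ⟨x, rfl⟩ := hfsurj y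
        have hy' := hAbN _ hy
        rw [← hPmap] at hy'
        obtain ⟨k, hk, hn⟩ := exists_normalizer_rep hK hPp (map_conj_le_sup_of_mem_normalizer_map hy')
        have hfk : f (k⁻¹ * x) = f x := by
          have : f k = 1 := (QuotientGroup.eq_one_iff k).mpr hk
          rw [map_mul, map_inv, this, inv_one, one_mul]
        refine ⟨k⁻¹ * x, Subgroup.mem_inf.mpr ⟨?_, hn⟩, hfk⟩
        change f (k⁻¹ * x) ∈ Ab
        rw [hfk]
        exact hy
    obtain ⟨A₀⟩ : Nonempty (Sylow p ↥M) := inferInstance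
    set A := (A₀ : Subgroup ↥M).map M.subtype with hA
    have hAp : IsPGroup p A := A₀.isPGroup'.map _
    have hAM : A ≤ M := by
      rintro _ ⟨x, _, rfl⟩
      exact x.2
    have hAN : A ≤ Subgroup.normalizer (P : Set G) := hAM.trans inf_le_right
    have hAmap : A.map f = Ab := by
      -- the map from `M` onto `Ab`
      have hAb' : IsPGroup p ↥(M.map f) := by rw [hMmap]; exact hAb
      have hsurj' : Function.Surjective (f.subgroupMap M) := f.subgroupMap_surjective M
      let S' := A₀.mapSurjective hsurj'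
      have h1 : (S' : Subgroup ↥(M.map f)) = ⊤ := by
        have := S'.is_maximal' (hAb'.to_subgroup ⊤) le_top
        exact this.symm
      have h2 : ((A₀ : Subgroup ↥M).map (f.subgroupMap M)) = ⊤ := by
        rw [← h1]
        rfl
      apply le_antisymm
      · rintro _ ⟨_, ⟨x, _, rfl⟩, rfl⟩
        exact (Subgroup.mem_inf.mp x.2).1
      · intro y hy
        have hy' : y ∈ M.map f := by rw [hMmap]; exact hy
        have h3 : (⟨y, hy'⟩ : ↥(M.map f)) ∈ ((A₀ : Subgroup ↥M).map (f.subgroupMap M)) := by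
          rw [h2]; trivial
        obtain ⟨x, hx, he⟩ := h3
        refine ⟨x, ⟨x, hx, rfl⟩, ?_⟩
        exact congrArg Subtype.val he
    -- conditions
    have hcond1 : ∀ a ∈ A, ∀ x ∈ P, a * x * a⁻¹ ∈ P := fun a ha x hx =>
      (Subgroup.mem_normalizer_iff.mp (hAN ha) x).mp hx
    have hPQ' : P ≤ Cfsg.pPrimePCore p G := by
      intro x hx
      change f x ∈ Cfsg.pCore p (G ⧸ Cfsg.pPrimeCore p G)
      exact hPQ (hPL hx)
    have hsup : Cfsg.pPrimeCore p G ⊔ P = L := by
      apply le_antisymm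
      · refine sup_le ?_ hPL
        intro k hk
        change f k ∈ Pb
        have : f k = 1 := (QuotientGroup.eq_one_iff k).mpr hk
        rw [this]
        exact one_mem _
      · intro x hx
        have h1 : f x ∈ P.map f := by rw [hPmap]; exact hx
        obtain ⟨u, hu, he⟩ := h1
        have h2 : u⁻¹ * x ∈ Cfsg.pPrimeCore p G := by
          rw [← QuotientGroup.eq_one_iff]
          change f (u⁻¹ * x) = 1
          rw [map_mul, map_inv, he, inv_mul_cancel]
        have h4 : x = u * (u⁻¹ * x) := by group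
        rw [h4, sup_comm]
        exact mul_mem ((le_sup_left : P ≤ P ⊔ _) hu) ((le_sup_right : _ ≤ P ⊔ _) h2)
    have hnorm' : (Cfsg.pPrimeCore p G ⊔ P).Normal := by rw [hsup]; exact hLn
    have hq' : ⁅⁅P, A⁆, A⁆ = ⊥ := by
      have h1 : ⁅P, A⁆ ≤ P := by
        rw [Subgroup.commutator_le]
        intro u hu a ha
        rw [commutatorElement_def]
        have : u * a * u⁻¹ * a⁻¹ = u * (a * u⁻¹ * a⁻¹) := by group
        rw [this]
        exact mul_mem hu (hcond1 a ha _ (inv_mem hu))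
      have h2 : ⁅⁅P, A⁆, A⁆ ≤ P := by
        rw [Subgroup.commutator_le]
        intro u hu a ha
        rw [commutatorElement_def]
        have : u * a * u⁻¹ * a⁻¹ = u * (a * u⁻¹ * a⁻¹) := by group
        rw [this]
        exact mul_mem (h1 hu) (hcond1 a ha _ (inv_mem (h1 hu)))
      have h3 : (⁅⁅P, A⁆, A⁆).map f = ⊥ := by
        rw [Subgroup.map_commutator, Subgroup.map_commutator, hPmap, hAmap]
        exact hq
      rw [eq_bot_iff]
      intro x hx
      have h4 : f x = 1 := by
        have : f x ∈ (⁅⁅P, A⁆, A⁆).map f := ⟨x, hx, rfl⟩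
        rw [h3] at this
        exact this
      exact mk_injOn hK hPp x (h2 hx) h4
    have hres := hst A P hAp hPp hcond1 hPQ' hnorm' hq'
    have := (stable_section_iff (Cfsg.pPrimeCore p G) hK P A hPp hAN).mp hres
    rw [← hf, hPmap, hAmap] at this
    exact this
  · rintro ⟨hodd, -, hst⟩
    refine ⟨hodd, hO, ?_⟩
    intro A P hA hP hAP hPQ hnorm hq
    have hAN : A ≤ Subgroup.normalizer (P : Set G) := by
      intro a ha
      apply Cfsg.Agent.H13.mem_normalizer_of_map_conj_le
      rintro _ ⟨x, hx, rfl⟩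
      exact hAP a ha x hx
    apply (stable_section_iff (Cfsg.pPrimeCore p G) hK P A hP hAN).mpr
    apply hst (A.map f) (P.map f) (hA.map f) (hP.map f)
    · rintro _ ⟨a, ha, rfl⟩ _ ⟨x, hx, rfl⟩
      exact ⟨a * x * a⁻¹, hAP a ha x hx, by simp⟩
    · rw [hQb]
      rintro _ ⟨x, hx, rfl⟩
      exact hPQ hx
    · rw [hOb, bot_sup_eq]
      have hsup : P.map f = (Cfsg.pPrimeCore p G ⊔ P).map f := by
        apply le_antisymm
        · exact Subgroup.map_mono le_sup_right
        · rw [Subgroup.map_sup]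
          refine sup_le ?_ le_rfl
          rintro _ ⟨k, hk, rfl⟩
          have : f k = 1 := (QuotientGroup.eq_one_iff k).mpr hk
          rw [this]
          exact one_mem _
      rw [hsup]
      exact hnorm.map f hfsurj
    · rw [← Subgroup.map_commutator, ← Subgroup.map_commutator, hq, Subgroup.map_bot]

end Cfsg.Agent.S0632
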