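import Cfsg.Statements.S0634
import Mathlib
import Cfsg.Agent.Lib.H03.PSolv

set_option autoImplicit false
open Cfsg

namespace Cfsg.Agent.S0634


/-- In a p-soluble group each p-factor of the upper p-series contains its own centralizer in the corresponding quotient. -/
theorem result {G : Type*} [Group G] [Finite G] {p : ℕ} [Fact p.Prime] (hsol : Cfsg.IsPSolvable p G) (k : ℕ) : Subgroup.centralizer ((((Cfsg.upperPSeries p G (2 * k + 2)).1.map (QuotientGroup.mk' (Cfsg.upperPSeries p G (2 * k + 1)).1)) : Subgroup (G ⧸ (Cfsg.upperPSeries p G (2 * k + 1)).1)) : Set (G ⧸ (Cfsg.upperPSeries p G (2 * k + 1)).1)) ≤ (Cfsg.upperPSeries p G (2 * k + 2)).1.map (QuotientGroup.mk' (Cfsg.upperPSeries p G (2 * k + 1)).1) := by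
  classical
  have hP : Function.Surjective (QuotientGroup.mk' (Cfsg.upperPSeries p G (2 * k + 1)).1) :=
    QuotientGroup.mk'_surjective _
  have h2 : (Cfsg.upperPSeries p G (2 * k + 2)).1 =
      (Cfsg.pCore p (G ⧸ (Cfsg.upperPSeries p G (2 * k + 1)).1)).comap (QuotientGroup.mk' _) :=
    Cfsg.Agent.H03.upper_succ_odd (by simp [Nat.even_add_one])
  have h3 := Cfsg.Agent.H03.upper_succ_even (p := p) (G := G) (n := 2 * k) (by simp)
  have hO := Cfsg.Agent.H03.pPrimeCore_quotient_comap_eq_bot (p := p)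
    (Cfsg.upperPSeries p G (2 * k)).1 (Cfsg.upperPSeries p G (2 * k + 1)).1 h3
  have hsol' := Cfsg.Agent.H03.isPSolvable_of_surjective hP hsol
  rw [h2, Subgroup.map_comap_eq_self_of_surjective hP]
  exact Cfsg.Agent.H03.centralizer_pCore_le_of_isPSolvable hsol' hO

end Cfsg.Agent.S0634
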