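import Cfsg.Statements.S0636
import Mathlib
import Cfsg.Agent.Lib.H03.Metacyclic
import Cfsg.Agent.Lib.H06.Nilp

set_option autoImplicit false
open Cfsg

namespace Cfsg.Agent.S0636


/-- For odd p, every non-cyclic normal subgroup of a p-group contains a normal elementary abelian subgroup of the whole group of order p². -/
theorem result {R : Type*} [Group R] [Finite R] {p : ℕ} [Fact p.Prime] (hp : p ≠ 2) (hR : IsPGroup p R) (S : Subgroup R) [S.Normal] (hS : ¬ IsCyclic S) : ∃ A : Subgroup R, A ≤ S ∧ A.Normal ∧ Cfsg.IsElementaryAbelian p A ∧ Nat.card A = p ^ 2 := by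
  classical
  have hpp : p.Prime := Fact.out
  let F := {B : Subgroup R // B ≤ S ∧ B.Normal ∧ ¬ IsCyclic B}
  have hne : Nonempty F := ⟨⟨S, le_rfl, inferInstance, hS⟩⟩
  obtain ⟨⟨B, hBS, hBn, hBc⟩, hmin⟩ := Finite.exists_min (fun B : F => Nat.card (B : Subgroup R))
  have hBp : IsPGroup p B := hR.to_subgroup B
  -- all proper normal subgroups of `R` inside `B` are cyclic
  have hcyc : ∀ D : Subgroup R, D ≤ B → D.Normal → D ≠ B → IsCyclic D := by
    intro D hDB hDn hne'
    by_contra hD
    have h1 := hmin ⟨D, hDB.trans hBS, hDn, hD⟩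
    exact hne' (Subgroup.eq_of_le_of_card_ge hDB h1)
  -- a maximal proper subgroup `D`
  let F' := {D : Subgroup R // D ≤ B ∧ D.Normal ∧ D ≠ B}
  have hBne : B ≠ ⊥ := by
    rintro rfl
    exact hBc inferInstance
  have hne' : Nonempty F' := ⟨⟨⊥, bot_le, inferInstance, hBne.symm⟩⟩
  obtain ⟨⟨D, hDB, hDn, hDne⟩, hmax⟩ := Finite.exists_max (fun D : F' => Nat.card (D : Subgroup R))
  have hDmax : ∀ E : Subgroup R, D ≤ E → E ≤ B → E.Normal → E ≠ D → E = B := by
    intro E hDE hEB hEn hED
    by_contra hne2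
    have h1 := hmax ⟨E, hEB, hEn, hne2⟩
    exact hED (Subgroup.eq_of_le_of_card_ge hDE h1).symm
  -- the quotient
  have hRq : IsPGroup p (R ⧸ D) := hR.to_quotient D
  haveI : Group.IsNilpotent (R ⧸ D) := hRq.isNilpotent
  have hBbar : (B.map (QuotientGroup.mk' D)) ≠ ⊥ := by
    intro h
    apply hDne
    apply le_antisymm hDB
    intro x hx
    have : QuotientGroup.mk' D x ∈ B.map (QuotientGroup.mk' D) := ⟨x, hx, rfl⟩
    rw [h] at this
    exact (QuotientGroup.eq_one_iff x).mp this
  have hBbarn : (B.map (QuotientGroup.mk' D)).Normal := hBn.map _ (QuotientGroup.mk'_surjective D)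
  obtain ⟨c, hcB, hc1, hcc⟩ := Cfsg.Agent.H06.exists_central_of_normal hBbarn hBbar
  -- element of order `p`
  obtain ⟨j, hj⟩ := IsPGroup.iff_orderOf.mp hRq c
  have hj0 : j ≠ 0 := by
    rintro rfl
    rw [pow_zero, orderOf_eq_one_iff] at hj
    exact hc1 hj
  set c' := c ^ p ^ (j - 1) with hc'
  have hc'ord : orderOf c' = p := by
    rw [hc', orderOf_pow_of_dvd (pow_ne_zero _ hpp.ne_zero)
      (by rw [hj]; exact pow_dvd_pow _ (Nat.sub_le _ _)), hj]
    have h1 : j = (j - 1) + 1 := by omega
    conv_lhs => rw [h1, pow_succ]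
    exact Nat.mul_div_cancel_left _ (pow_pos hpp.pos _)
  have hc'B : c' ∈ B.map (QuotientGroup.mk' D) := pow_mem hcB _
  have hc'cen : ∀ g, g * c' = c' * g := by
    intro g
    exact ((show Commute g c from (Subgroup.mem_center_iff.mp hcc g)).pow_right _).eq
  set Z := Subgroup.zpowers c' with hZ
  have hZn : Z.Normal := by
    constructor
    intro x hx g
    obtain ⟨k, rfl⟩ := Subgroup.mem_zpowers_iff.mp hx
    have h1 : Commute g (c' ^ k) := ((show Commute g c' from hc'cen g).zpow_right k)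
    rw [h1.eq]
    have h2 : c' ^ k * g * g⁻¹ = c' ^ k := by group
    rw [h2]
    exact Subgroup.zpow_mem_zpowers c' k
  have hE : Z.comap (QuotientGroup.mk' D) = B := by
    apply hDmax
    · intro x hx
      change QuotientGroup.mk' D x ∈ Z
      have : QuotientGroup.mk' D x = 1 := (QuotientGroup.eq_one_iff x).mpr hx
      rw [this]
      exact one_mem _
    · intro x hx
      have h1 : QuotientGroup.mk' D x ∈ Z := hx
      have h2 : Z ≤ B.map (QuotientGroup.mk' D) := (Subgroup.zpowers_le).mpr hc'B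
      obtain ⟨y, hy, he⟩ := h2 h1
      have h3 : y⁻¹ * x ∈ D := by
        rw [← QuotientGroup.eq]
        exact he
      have h4 : x = y * (y⁻¹ * x) := by group
      rw [h4]
      exact mul_mem hy (hDB h3)
    · exact hZn.comap _
    · intro h
      have hc'1 : c' ≠ 1 := by
        intro h'
        rw [h', orderOf_one] at hc'ord
        exact hpp.one_lt.ne hc'ord
      obtain ⟨x, hx⟩ := QuotientGroup.mk'_surjective D c'
      have h1 : x ∈ Z.comap (QuotientGroup.mk' D) := by
        change QuotientGroup.mk' D x ∈ Z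
        rw [hx]
        exact Subgroup.mem_zpowers c'
      rw [h] at h1
      apply hc'1
      rw [← hx]
      exact (QuotientGroup.eq_one_iff x).mpr h1
  have hcardB : Nat.card B = Nat.card D * p := by
    have h1 : Nat.card (Z.comap (QuotientGroup.mk' D)) = Nat.card D * Nat.card Z :=
      QuotientGroup.card_preimage_mk D (Z : Set (R ⧸ D))
    rw [hE, hZ, Nat.card_zpowers, hc'ord] at h1
    exact h1
  -- `B` is metacyclic
  have hmeta : Cfsg.IsMetacyclic ↥B := by
    refine ⟨D.subgroupOf B, hDn.subgroupOf B, ?_, ?_⟩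
    · haveI := hcyc D hDB hDn hDne
      exact isCyclic_of_surjective (Subgroup.subgroupOfEquivOfLe hDB).symm.toMonoidHom
        (Subgroup.subgroupOfEquivOfLe hDB).symm.surjective
    · haveI : (D.subgroupOf B).Normal := hDn.subgroupOf B
      apply isCyclic_of_prime_card (p := p)
      have e1 := Subgroup.card_mul_index (D.subgroupOf B)
      have e2 : Nat.card (D.subgroupOf B) = Nat.card D :=
        Nat.card_congr (Subgroup.subgroupOfEquivOfLe hDB).toEquiv
      rw [e2, hcardB] at e1
      have e3 := Nat.eq_of_mul_eq_mul_left Nat.card_pos e1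
      exact e3
  have hBnc : ¬ IsCyclic ↥B := hBc
  obtain ⟨hEA, hcard⟩ := Cfsg.Agent.H03.metacyclic_omegaOne hp hBp hmeta hBnc
  set A := (Cfsg.omegaOne p (⊤ : Subgroup ↥B)).map B.subtype with hA
  have hAeq : A = Cfsg.omegaOne p B := by
    rw [hA, Cfsg.Agent.H03.omegaOne_map _ B.subtype_injective, ← MonoidHom.range_eq_map, Subgroup.range_subtype]
  refine ⟨A, ?_, ?_, Cfsg.Agent.H03.isEA_map _ hEA, ?_⟩
  · rw [hAeq]
    exact Cfsg.Agent.H03.omegaOne_le.trans hBS
  · rw [hAeq]
    exact Cfsg.Agent.H03.omegaOne_normal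
  · rw [hA, show Nat.card ((Cfsg.omegaOne p (⊤ : Subgroup ↥B)).map B.subtype) = Nat.card (Cfsg.omegaOne p (⊤ : Subgroup ↥B)) from
      Subgroup.card_map_of_injective B.subtype_injective]
    exact hcard

end Cfsg.Agent.S0636
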