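import Cfsg.Statements.S0637
import Mathlib
import Cfsg.Agent.Lib.H03.Hup2

set_option autoImplicit false
open Cfsg

namespace Cfsg.Agent.S0637


/-- For p greater than 3, the bound p² on the order of the subgroup generated by the elements of order dividing p passes from a p-group to all its quotients. -/
theorem result {R : Type*} [Group R] [Finite R] {p : ℕ} [Fact p.Prime] (hp : 3 < p) (hR : IsPGroup p R) (hO : Nat.card ↥(Cfsg.omegaOne p (⊤ : Subgroup R)) ≤ p ^ 2) (T : Subgroup R) [T.Normal] : Nat.card ↥(Cfsg.omegaOne p (⊤ : Subgroup (R ⧸ T))) ≤ p ^ 2 := by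
  classical
  have hm := Cfsg.Agent.H03.Hup.metacyclic_of_omega hp hR hO
  have hp2 : p ≠ 2 := by omega
  have hQ : IsPGroup p (R ⧸ T) := hR.to_quotient T
  have hmQ : IsMetacyclic (R ⧸ T) := by
    obtain ⟨N, hN, hc, hq⟩ := hm
    haveI : (N.map (QuotientGroup.mk' T)).Normal := Subgroup.Normal.map hN _ (QuotientGroup.mk'_surjective T)
    refine ⟨N.map (QuotientGroup.mk' T), inferInstance, ?_, ?_⟩
    · exact isCyclic_of_surjective ((QuotientGroup.mk' T).subgroupMap N) (MonoidHom.subgroupMap_surjective _ _)
    · let g : R →* (R ⧸ T) ⧸ N.map (QuotientGroup.mk' T) := (QuotientGroup.mk' _).comp (QuotientGroup.mk' T)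
      have hg : Function.Surjective g := (QuotientGroup.mk'_surjective _).comp (QuotientGroup.mk'_surjective T)
      have hker : N ≤ g.ker := by
        intro x hx
        rw [MonoidHom.mem_ker]
        change (((x : R) : R ⧸ T) : (R ⧸ T) ⧸ N.map (QuotientGroup.mk' T)) = 1
        rw [QuotientGroup.eq_one_iff]
        exact ⟨x, hx, rfl⟩
      let g' := QuotientGroup.lift N g (fun x hx => hker hx)
      refine isCyclic_of_surjective g' ?_
      intro y
      obtain ⟨x, rfl⟩ := hg y
      exact ⟨(x : R ⧸ N), rfl⟩
  by_cases hcyc : IsCyclic (R ⧸ T)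
  · -- cyclic case
    have hcomm : ∀ a b : R ⧸ T, a * b = b * a := (IsCyclic.isMulCommutative (α := R ⧸ T)).is_comm.comm
    let H : Subgroup (R ⧸ T) :=
      { carrier := {x | x ^ p = 1}
        mul_mem' := by
          intro a b ha hb
          have ha' : a ^ p = 1 := ha
          have hb' : b ^ p = 1 := hb
          change (a * b) ^ p = 1
          rw [(show Commute a b from hcomm a b).mul_pow, ha', hb', one_mul]
        one_mem' := one_pow p
        inv_mem' := by
          intro a ha
          have ha' : a ^ p = 1 := ha
          change a⁻¹ ^ p = 1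
          rw [inv_pow, ha', inv_one] }
    have hle : omegaOne p (⊤ : Subgroup (R ⧸ T)) ≤ H := by
      rw [omegaOne, Subgroup.closure_le]
      rintro x ⟨_, hx⟩
      exact hx
    have h1 : Nat.card H ≤ p := by
      haveI := Fintype.ofFinite (R ⧸ T)
      have h2 := IsCyclic.card_pow_eq_one_le (α := R ⧸ T) (n := p) (Fact.out : p.Prime).pos
      have h3 : Nat.card H = (Finset.univ.filter (fun a : R ⧸ T => a ^ p = 1)).card := by
        rw [Nat.card_eq_fintype_card, Fintype.card_subtype]
        refine Finset.card_bij (fun a _ => a) ?_ ?_ ?_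
        · intro a ha
          simp only [Finset.mem_filter, Finset.mem_univ, true_and] at ha ⊢
          exact ha
        · intro a _ b _ e
          exact e
        · intro b hb
          simp only [Finset.mem_filter, Finset.mem_univ, true_and] at hb
          refine ⟨b, ?_, rfl⟩
          simp only [Finset.mem_filter, Finset.mem_univ, true_and]
          exact hb
      rw [h3]
      exact h2
    have h4 : p ≤ p ^ 2 := Nat.le_self_pow (by norm_num) p
    exact (Subgroup.card_le_of_le hle).trans (h1.trans h4)
  · exact (Cfsg.Agent.H03.metacyclic_omegaOne hp2 hQ hmQ hcyc).2.le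

end Cfsg.Agent.S0637
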