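import Cfsg.Statements.S0638
import Mathlib
import Cfsg.Agent.Lib.H03.Metacyclic

set_option autoImplicit false
open Cfsg

namespace Cfsg.Agent.S0638


/-- For odd p, in a non-cyclic metacyclic p-group the elements of order dividing p generate an elementary abelian subgroup of order p². -/
theorem result {R : Type*} [Group R] [Finite R] {p : ℕ} [Fact p.Prime] (hp : p ≠ 2) (hR : IsPGroup p R) (hm : Cfsg.IsMetacyclic R) (hnc : ¬ IsCyclic R) : Cfsg.IsElementaryAbelian p (Cfsg.omegaOne p (⊤ : Subgroup R)) ∧ Nat.card ↥(Cfsg.omegaOne p (⊤ : Subgroup R)) = p ^ 2 := by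
  exact Cfsg.Agent.H03.metacyclic_omegaOne hp hR hm hnc

end Cfsg.Agent.S0638
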