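import Cfsg.Statements.S0639
import Mathlib
import Cfsg.Agent.Lib.H03.Hup2

set_option autoImplicit false
open Cfsg

namespace Cfsg.Agent.S0639


/-- Huppert's criterion: for p greater than 3, a p-group whose elements of order dividing p generate a subgroup of order at most p² is metacyclic. -/
theorem result {R : Type*} [Group R] [Finite R] {p : ℕ} [Fact p.Prime] (hp : 3 < p) (hR : IsPGroup p R) (hO : Nat.card ↥(Cfsg.omegaOne p (⊤ : Subgroup R)) ≤ p ^ 2) : Cfsg.IsMetacyclic R := by
  exact Cfsg.Agent.H03.Hup.metacyclic_of_omega hp hR hO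

end Cfsg.Agent.S0639
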