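import Cfsg.Statements.S0640
import Mathlib
import Cfsg.Agent.Lib.H25.Critical

set_option autoImplicit false
open Cfsg

namespace Cfsg.Agent.S0640

/-- strict inclusion in a `p`-group multiplies the order by at least `p` -/
lemma card_lt_step {H : Type*} [Group H] [Finite H] {p : ℕ} (hp : p.Prime) (hH : IsPGroup p H)
    {X Y : Subgroup H} (h : X ≤ Y) (hne : ¬ Y ≤ X) : p * Nat.card X ≤ Nat.card Y := by
  haveI : Fact p.Prime := ⟨hp⟩
  obtain ⟨m, hm⟩ := Subgroup.card_dvd_of_le h
  have hYpos : 0 < Nat.card Y := Nat.card_pos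
  have hm0 : m ≠ 0 := by
    rintro rfl
    simp at hm
    omega
  have hm1 : m ≠ 1 := by
    rintro rfl
    rw [mul_one] at hm
    exact hne (Subgroup.eq_of_le_of_card_ge h (le_of_eq hm)).ge
  obtain ⟨t, ht⟩ := IsPGroup.iff_card.1 hH
  have hdvd : m ∣ p ^ t := by
    rw [← ht]
    exact (Dvd.intro_left _ hm.symm).trans (Subgroup.card_subgroup_dvd_card Y)
  obtain ⟨i, hi, rfl⟩ := (Nat.dvd_prime_pow hp).1 hdvd
  have hi0 : i ≠ 0 := by
    rintro rfl
    exact hm1 rfl
  rw [hm, mul_comm]
  exact Nat.mul_le_mul_left _ (Nat.le_self_pow hi0 p)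

lemma exp3 {H : Type*} [Group H] [Finite H] {p : ℕ} [hp : Fact p.Prime] (hH : IsPGroup p H)
    (hexp : ∀ x : H, x ^ p = 1) (hrk : ∀ A : Subgroup H, IsMulCommutative A → Nat.card A ≤ p ^ 2) :
    Nat.card H ≤ p ^ 3 := by
  have hpp : p.Prime := hp.out
  by_contra hcon
  push Not at hcon
  obtain ⟨m, hm⟩ := IsPGroup.iff_card.1 hH
  have hm4 : 4 ≤ m := by
    rw [hm] at hcon
    have := (Nat.pow_lt_pow_iff_right hpp.one_lt).1 hcon
    omega
  have hp4 : p ^ 4 ≤ Nat.card H := by
    rw [hm]
    exact Nat.pow_le_pow_right hpp.pos hm4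
  haveI : Nontrivial H := by
    rw [← Finite.one_lt_card_iff_nontrivial, hm]
    exact Nat.one_lt_pow (by omega) hpp.one_lt
  haveI := hH.center_nontrivial
  obtain ⟨⟨z, hzc⟩, hz1⟩ := exists_ne (1 : Subgroup.center H)
  have hz1' : z ≠ 1 := fun h => hz1 (Subtype.ext h)
  have hzord : orderOf z = p := orderOf_eq_prime (hexp z) hz1'
  set K0 := Subgroup.zpowers z with hK0
  have hK0card : Nat.card K0 = p := by rw [hK0, Nat.card_zpowers, hzord]
  have hK0c : K0 ≤ Subgroup.center H := by
    rw [hK0, Subgroup.zpowers_le]; exact hzc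
  haveI hK0n : K0.Normal := by
    constructor
    intro n hn g
    have := hK0c hn
    rw [Subgroup.mem_center_iff] at this
    rw [this g, mul_assoc, mul_inv_cancel, mul_one]
    exact hn
  have hQp : IsPGroup p (H ⧸ K0) := hH.to_quotient K0
  have hQcard : p ^ 3 ≤ Nat.card (H ⧸ K0) := by
    have h1 := K0.card_mul_index
    rw [hK0card] at h1
    have h2 : K0.index = Nat.card (H ⧸ K0) := rfl
    rw [← h2]
    by_contra h3
    push Not at h3
    have h4 : p * K0.index < p * p ^ 3 := Nat.mul_lt_mul_of_pos_left h3 hpp.pos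
    have h5 : p * p ^ 3 = p ^ 4 := by ring
    omega
  haveI : Nontrivial (H ⧸ K0) := by
    rw [← Finite.one_lt_card_iff_nontrivial]
    have : 1 < p ^ 3 := Nat.one_lt_pow (by omega) hpp.one_lt
    omega
  haveI := hQp.center_nontrivial
  obtain ⟨⟨wbar, hwc⟩, hw1⟩ := exists_ne (1 : Subgroup.center (H ⧸ K0))
  obtain ⟨w, rfl⟩ := QuotientGroup.mk_surjective wbar
  have hwK : w ∉ K0 := by
    intro h
    apply hw1
    apply Subtype.ext
    exact (QuotientGroup.eq_one_iff w).2 h
  have hcomm : ∀ y : H, y * w * y⁻¹ * w⁻¹ ∈ K0 := by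
    intro y
    rw [← QuotientGroup.eq_one_iff]
    have h1 := Subgroup.mem_center_iff.1 hwc (y : H ⧸ K0)
    simp only [QuotientGroup.mk_mul, QuotientGroup.mk_inv]
    rw [h1]
    group
  -- the commutator hom
  let f : H →* K0 := MonoidHom.mk' (fun y => (⟨y * w * y⁻¹ * w⁻¹, hcomm y⟩ : K0)) (by
    intro y₁ y₂
    apply Subtype.ext
    have hc := Subgroup.mem_center_iff.1 (hK0c (hcomm y₂)) (y₁⁻¹)
    simp only [Subgroup.coe_mul]
    have h3 : y₂ * w * y₂⁻¹ = (y₂ * w * y₂⁻¹ * w⁻¹) * w := by group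
    calc y₁ * y₂ * w * (y₁ * y₂)⁻¹ * w⁻¹ = y₁ * (y₂ * w * y₂⁻¹) * y₁⁻¹ * w⁻¹ := by group
      _ = y₁ * ((y₂ * w * y₂⁻¹ * w⁻¹) * w) * y₁⁻¹ * w⁻¹ := by rw [← h3]
      _ = (y₁ * (y₂ * w * y₂⁻¹ * w⁻¹) * y₁⁻¹) * (y₁ * w * y₁⁻¹ * w⁻¹) := by group
      _ = (y₂ * w * y₂⁻¹ * w⁻¹) * (y₁ * w * y₁⁻¹ * w⁻¹) := by
        congr 1
        have h4 := Subgroup.mem_center_iff.1 (hK0c (hcomm y₂)) y₁
        rw [h4]; group
      _ = (y₁ * w * y₁⁻¹ * w⁻¹) * (y₂ * w * y₂⁻¹ * w⁻¹) := by
        have h5 := Subgroup.mem_center_iff.1 (hK0c (hcomm y₂)) (y₁ * w * y₁⁻¹ * w⁻¹)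
        exact h5.symm)
  have hkermem : ∀ y ∈ f.ker, y * w = w * y := by
    intro y hy
    have h1 : y * w * y⁻¹ * w⁻¹ = 1 := congrArg Subtype.val (MonoidHom.mem_ker.1 hy)
    calc y * w = (y * w * y⁻¹ * w⁻¹) * (w * y) := by group
      _ = w * y := by rw [h1, one_mul]
  have hkercard : p ^ 3 ≤ Nat.card f.ker := by
    have h1 := f.ker.card_mul_index
    rw [Subgroup.index_ker] at h1
    have h2 : Nat.card f.range ≤ p := by
      rw [← hK0card]
      exact Subgroup.card_le_card_group _
    by_contra h3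
    push Not at h3
    have h4 : Nat.card f.ker * Nat.card f.range < p ^ 3 * p :=
      lt_of_le_of_lt (Nat.mul_le_mul_left _ h2) (Nat.mul_lt_mul_of_pos_right h3 hpp.pos)
    have h5 : p ^ 3 * p = p ^ 4 := by ring
    omega
  -- `A = ⟨z, w⟩`
  have hzw : z * w = w * z := (Subgroup.mem_center_iff.1 hzc w).symm
  let A := Subgroup.closure ({z, w} : Set H)
  have hAcomm : ∀ y ∈ ({z, w} : Set H), ∀ y' ∈ ({z, w} : Set H), y * y' = y' * y := by
    intro y hy y' hy'
    simp only [Set.mem_insert_iff, Set.mem_singleton_iff] at hy hy'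
    rcases hy with rfl | rfl <;> rcases hy' with rfl | rfl
    · rfl
    · exact hzw
    · exact hzw.symm
    · rfl
  have hAab : IsMulCommutative A := Subgroup.isMulCommutative_closure hAcomm
  have hAcard : Nat.card A ≤ p ^ 2 := hrk A hAab
  have hnotle : ¬ f.ker ≤ A := by
    intro hle
    have h1 := Subgroup.card_le_of_le hle
    have h2 : p ^ 2 < p ^ 3 := Nat.pow_lt_pow_right hpp.one_lt (by norm_num)
    omega
  obtain ⟨x, hxk, hxA⟩ := SetLike.not_le_iff_exists.1 hnotle
  have hxcomm := hkermem x hxk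
  have hxz : x * z = z * x := (Subgroup.mem_center_iff.1 hzc x)
  let E := Subgroup.closure ({z, w, x} : Set H)
  have hEcomm : ∀ y ∈ ({z, w, x} : Set H), ∀ y' ∈ ({z, w, x} : Set H), y * y' = y' * y := by
    intro y hy y' hy'
    simp only [Set.mem_insert_iff, Set.mem_singleton_iff] at hy hy'
    rcases hy with rfl | rfl | rfl <;> rcases hy' with rfl | rfl | rfl
    · rfl
    · exact hzw
    · exact hxz.symm
    · exact hzw.symm
    · rfl
    · exact hxcomm.symm
    · exact hxz
    · exact hxcomm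
    · rfl
  have hEab : IsMulCommutative E := Subgroup.isMulCommutative_closure hEcomm
  have hEcard : Nat.card E ≤ p ^ 2 := hrk E hEab
  have hKA : K0 ≤ A := by
    rw [hK0, Subgroup.zpowers_le]
    exact Subgroup.subset_closure (by simp)
  have hAE : A ≤ E := Subgroup.closure_mono (by
    intro y hy
    simp only [Set.mem_insert_iff, Set.mem_singleton_iff] at hy ⊢
    tauto)
  have s1 := card_lt_step hpp hH hKA (fun h => hwK (h (Subgroup.subset_closure (by simp))))
  have s2 := card_lt_step hpp hH hAE (fun h => hxA (h (Subgroup.subset_closure (by simp))))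
  rw [hK0card] at s1
  have s3 : p * (p * p) ≤ Nat.card E := le_trans (Nat.mul_le_mul_left p s1) s2
  have s4 : p ^ 2 < p * (p * p) := by
    have : p * (p * p) = p ^ 3 := by ring
    rw [this]
    exact Nat.pow_lt_pow_right hpp.one_lt (by norm_num)
  omega

/-- fixed subgroup of an automorphism -/
def fixSub {R : Type*} [Group R] (a : MulAut R) : Subgroup R :=
  MonoidHom.eqLocus a.toMonoidHom (MonoidHom.id R)

lemma mem_fixSub {R : Type*} [Group R] (a : MulAut R) (y : R) : y ∈ fixSub a ↔ a y = y := Iff.rfl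

lemma card_mod {R : Type*} [Group R] [Finite R] {q : ℕ} [hq : Fact q.Prime] (a : MulAut R) (ha : a ^ q = 1)
    (S : Subgroup R) (hS : ∀ y ∈ S, a y ∈ S) :
    Nat.card S ≡ Nat.card ↥(S ⊓ fixSub a) [MOD q] := by
  classical
  let f : Function.End S := fun y => ⟨a y, hS y y.2⟩
  have hpow : ∀ (n : ℕ) (y : S), (((f ^ n) y : S) : R) = (a ^ n) y := by
    intro n
    induction n with
    | zero => intro y; rfl
    | succ n ih =>
      intro y
      rw [pow_succ', pow_succ']
      simp only [Function.End.mul_def, Function.comp_apply, MulAut.mul_apply]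
      have := ih y
      show a (((f ^ n) y : S) : R) = _
      rw [this]
  have hf : f ^ (q ^ 1) = 1 := by
    rw [pow_one]
    funext y
    apply Subtype.ext
    rw [hpow, ha]
    rfl
  haveI : Fintype S := Fintype.ofFinite _
  have := Equiv.Perm.card_fixedPoints_modEq hf
  rw [← Nat.card_eq_fintype_card, ← Nat.card_eq_fintype_card] at this
  have hequiv : Function.fixedPoints f ≃ ↥(S ⊓ fixSub a) :=
    { toFun := fun y => ⟨y.1.1, y.1.2, congrArg Subtype.val y.2⟩
      invFun := fun y => ⟨⟨y.1, y.2.1⟩, Subtype.ext y.2.2⟩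
      left_inv := fun y => rfl
      right_inv := fun y => rfl }
  rw [← Nat.card_congr hequiv]
  exact this

lemma arith3 {p q k j : ℕ} (hp : p.Prime) (hq : q.Prime) (hpq : p ≠ q) (h : p ^ k ≡ p ^ j [MOD q])
    (hjk : j < k) (hk2 : k ≤ j + 2) : q ∣ p ^ 2 - 1 := by
  have hcop : Nat.Coprime (p ^ j) q := Nat.Coprime.pow_left _ ((Nat.coprime_primes hp hq).2 hpq)
  obtain ⟨d, rfl⟩ : ∃ d, k = j + d := ⟨k - j, by omega⟩
  rw [pow_add] at h
  have h1 : p ^ j * p ^ d ≡ p ^ j * 1 [MOD q] := by rwa [mul_one]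
  have h2 : p ^ d ≡ 1 [MOD q] := Nat.ModEq.cancel_left_of_coprime hcop.symm h1
  have h3 : p ^ 2 ≡ 1 [MOD q] := by
    have hd : d = 1 ∨ d = 2 := by omega
    rcases hd with rfl | rfl
    · have := h2.pow 2
      simpa using this
    · exact h2
  exact (Nat.modEq_iff_dvd' (Nat.one_le_pow _ _ hp.pos)).1 h3.symm


/-- For odd p, a prime q ≠ p dividing the order of the automorphism group of a p-group of rank at most 2 divides p² - 1 and is less than p. -/
theorem result {R : Type*} [Group R] [Finite R] {p : ℕ} [Fact p.Prime] (hp : p ≠ 2) (hR : IsPGroup p R) (hrk : Cfsg.PRankLE p 2 R) (q : ℕ) (hq : q.Prime) (hqp : q ≠ p) (hdvd : q ∣ Nat.card (MulAut R)) : q ∣ p ^ 2 - 1 ∧ q < p := by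
  classical
  have hpp : p.Prime := Fact.out
  haveI : Fact q.Prime := ⟨hq⟩
  obtain ⟨a, ha⟩ := exists_prime_orderOf_dvd_card' q hdvd
  have haq : a ^ q = 1 := by rw [← ha]; exact pow_orderOf_eq_one a
  have ha1 : a ≠ 1 := by
    rintro rfl
    rw [orderOf_one] at ha
    exact hq.one_lt.ne ha
  have hcop : Nat.Coprime (orderOf a) p := by
    rw [ha]
    exact (Nat.coprime_primes hq hpp).2 hqp
  obtain ⟨Y, hYc, hYe, hYf⟩ := H25.exists_critical hR
  have hcrit : H25.critExp p = p := by
    unfold H25.critExp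
    simp [hp]
  rw [hcrit] at hYe
  have hYpg : IsPGroup p Y := IsPGroup.to_subgroup hR Y
  have hYcard : Nat.card Y ≤ p ^ 3 := by
    apply exp3 hYpg
    · intro x
      exact Subtype.ext (hYe x x.2)
    · intro A hA
      have h1 := hrk (A.map Y.subtype) (by
        constructor
        constructor
        rintro ⟨_, x, hx, rfl⟩ ⟨_, y, hy, rfl⟩
        apply Subtype.ext
        have := congrArg Subtype.val (hA.is_comm.comm (⟨x, hx⟩ : A) ⟨y, hy⟩)
        have h2 := congrArg (Subtype.val : Y → R) this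
        exact h2) (by
        rintro _ ⟨x, hx, rfl⟩
        exact hYe x x.2)
      rwa [Subgroup.card_map_of_injective Y.subtype_injective] at h1
  have hchar : ∀ (S : Subgroup R), S.Characteristic → ∀ y ∈ S, a y ∈ S := by
    intro S hS y hy
    have := (Subgroup.characteristic_iff_le_comap.1 hS a) hy
    exact this
  have hmodY := card_mod a haq Y (hchar Y hYc)
  -- `Y` is not fixed
  have hnotfix : ¬ Y ≤ Y ⊓ fixSub a := by
    intro h
    apply ha1
    apply hYf a hcop
    intro y hy
    exact (h hy).2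
  obtain ⟨k, hk⟩ := IsPGroup.iff_card.1 hYpg
  obtain ⟨j, hj⟩ := IsPGroup.iff_card.1 (IsPGroup.to_subgroup hR (Y ⊓ fixSub a))
  have hk3 : k ≤ 3 := by
    rw [hk] at hYcard
    exact (Nat.pow_le_pow_iff_right hpp.one_lt).1 hYcard
  have hjk : j < k := by
    have h1 := card_lt_step hpp hR (inf_le_left : Y ⊓ fixSub a ≤ Y) hnotfix
    rw [hk, hj] at h1
    by_contra h2
    push Not at h2
    have h3 : p ^ k ≤ p ^ j := Nat.pow_le_pow_right hpp.pos h2
    have h4 : p ^ j < p * p ^ j := by
      have : 0 < p ^ j := pow_pos hpp.pos j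
      have := hpp.two_le
      nlinarith
    omega
  rw [hk, hj] at hmodY
  have hmain : q ∣ p ^ 2 - 1 := by
    by_cases hc : k ≤ j + 2
    · exact arith3 hpp hq hqp.symm hmodY hjk hc
    · have hk' : k = 3 := by omega
      have hj' : j = 0 := by omega
      subst hk' hj'
      -- the center of `Y`
      let Z : Subgroup R := Y ⊓ Subgroup.centralizer (Y : Set R)
      have hZchar : ∀ y ∈ Z, a y ∈ Z := by
        intro y hy
        refine ⟨hchar Y hYc y hy.1, ?_⟩
        show a y ∈ Subgroup.centralizer (Y : Set R)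
        rw [Subgroup.mem_centralizer_iff]
        intro c hc
        have h1 : a.symm c ∈ Y := by
          have := hchar Y hYc
          have := (Subgroup.characteristic_iff_le_comap.1 hYc a.symm) hc
          exact this
        have h2 := Subgroup.mem_centralizer_iff.1 hy.2 _ h1
        have h3 := congrArg a h2
        simpa using h3
      have hmodZ := card_mod a haq Z hZchar
      obtain ⟨l, hl⟩ := IsPGroup.iff_card.1 (IsPGroup.to_subgroup hR Z)
      have hfixZ : Nat.card ↥(Z ⊓ fixSub a) = 1 := by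
        have h1 : Z ⊓ fixSub a ≤ Y ⊓ fixSub a := inf_le_inf_right _ inf_le_left
        have h2 := Subgroup.card_le_of_le h1
        rw [hj, pow_zero] at h2
        have : 0 < Nat.card ↥(Z ⊓ fixSub a) := Nat.card_pos
        omega
      have hZle : Z ≤ Y := inf_le_left
      have hl3 : l ≤ 3 := by
        have := Subgroup.card_le_of_le hZle
        rw [hl, hk] at this
        exact (Nat.pow_le_pow_iff_right hpp.one_lt).1 this
      have hl0 : l ≠ 0 := by
        rintro rfl
        -- nontrivial center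
        haveI : Nontrivial Y := by
          rw [← Finite.one_lt_card_iff_nontrivial, hk]
          exact Nat.one_lt_pow (by norm_num) hpp.one_lt
        haveI := hYpg.center_nontrivial
        obtain ⟨⟨z, hzc⟩, hz1⟩ := exists_ne (1 : Subgroup.center Y)
        have hzZ : (z : R) ∈ Z := by
          refine ⟨z.2, ?_⟩
          show (z : R) ∈ Subgroup.centralizer (Y : Set R)
          rw [Subgroup.mem_centralizer_iff]
          intro c hc
          exact congrArg Subtype.val (Subgroup.mem_center_iff.1 hzc ⟨c, hc⟩)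
        have h0 : Nat.card Z = 1 := by rw [hl, pow_zero]
        have h1 : (⟨(z : R), hzZ⟩ : Z) = 1 := by
          haveI : Subsingleton Z := (Nat.card_eq_one_iff_unique.1 h0).1
          exact Subsingleton.elim _ _
        apply hz1
        apply Subtype.ext
        apply Subtype.ext
        have h2 := congrArg (Subtype.val : Z → R) h1
        exact h2
      have hl3' : l ≠ 3 := by
        rintro rfl
        have h1 : Z = Y := Subgroup.eq_of_le_of_card_ge hZle (by rw [hl, hk])
        have h2 : Nat.card Y ≤ p ^ 2 := by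
          apply hrk Y
          · constructor
            constructor
            rintro ⟨x, hx⟩ ⟨y, hy⟩
            apply Subtype.ext
            have hx' : x ∈ Z := by rw [h1]; exact hx
            exact (Subgroup.mem_centralizer_iff.1 hx'.2 y hy).symm
          · exact hYe
        rw [hk] at h2
        have := (Nat.pow_le_pow_iff_right hpp.one_lt).1 h2
        omega
      rw [hl, hfixZ, show (1 : ℕ) = p ^ 0 by simp] at hmodZ
      exact arith3 hpp hq hqp.symm hmodZ (by omega) (by omega)
  refine ⟨hmain, ?_⟩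
  obtain ⟨p', rfl⟩ : ∃ p', p = p' + 1 := ⟨p - 1, by have := hpp.pos; omega⟩
  have h1 : (p' + 1) ^ 2 - 1 = p' * (p' + 2) := by
    have : (p' + 1) ^ 2 = p' * (p' + 2) + 1 := by ring
    rw [this]; simp
  rw [h1] at hmain
  have hp'0 : 0 < p' := by
    have := hpp.two_le
    omega
  rcases (Nat.Prime.dvd_mul hq).1 hmain with h2 | h2
  · have := Nat.le_of_dvd hp'0 h2
    omega
  · have h3 := Nat.le_of_dvd (by omega) h2
    by_contra h4
    have h5 : q = p' + 2 := by omega
    -- `p' + 1` odd so `p' + 2` even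
    have h6 : Odd (p' + 1) := hpp.odd_of_ne_two hp
    have h7 : Even q := by
      rw [h5]
      exact h6.add_one
    have h8 : q = 2 := (hq.even_iff).1 h7
    omega

end Cfsg.Agent.S0640
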