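import Cfsg.Statements.S0641
import Mathlib

set_option autoImplicit false
open Cfsg

namespace Cfsg.Agent.S0641

/-- Regularity of a p-group passes to quotient groups. -/
theorem result {G : Type*} [Group G] {p : ℕ} [Fact p.Prime] (hG : Cfsg.IsRegularPGroup p G) (N : Subgroup G) [N.Normal] : Cfsg.IsRegularPGroup p (G ⧸ N) := by
  obtain ⟨h1, h2⟩ := hG
  refine ⟨IsPGroup.of_surjective h1 (QuotientGroup.mk' N) (QuotientGroup.mk'_surjective N), ?_⟩
  intro a b n
  obtain ⟨a', rfl⟩ := QuotientGroup.mk'_surjective N a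
  obtain ⟨b', rfl⟩ := QuotientGroup.mk'_surjective N b
  obtain ⟨c, hc, hcc⟩ := h2 a' b' n
  refine ⟨QuotientGroup.mk' N c, ?_, ?_⟩
  · -- map membership
    have hmap : (Cfsg.powerClosure p n ⁅Subgroup.closure ({a', b'} : Set G), Subgroup.closure ({a', b'} : Set G)⁆).map (QuotientGroup.mk' N) ≤ Cfsg.powerClosure p n ⁅Subgroup.closure ({QuotientGroup.mk' N a', QuotientGroup.mk' N b'} : Set (G ⧸ N)), Subgroup.closure ({QuotientGroup.mk' N a', QuotientGroup.mk' N b'} : Set (G ⧸ N))⁆ := by
      unfold Cfsg.powerClosure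
      rw [MonoidHom.map_closure]
      apply Subgroup.closure_mono
      rintro _ ⟨y, ⟨x, hx, rfl⟩, rfl⟩
      refine ⟨QuotientGroup.mk' N x, ?_, by simp⟩
      have hD : ⁅Subgroup.closure ({a', b'} : Set G), Subgroup.closure ({a', b'} : Set G)⁆.map (QuotientGroup.mk' N) = ⁅Subgroup.closure ({QuotientGroup.mk' N a', QuotientGroup.mk' N b'} : Set (G ⧸ N)), Subgroup.closure ({QuotientGroup.mk' N a', QuotientGroup.mk' N b'} : Set (G ⧸ N))⁆ := by
        rw [Subgroup.map_commutator, MonoidHom.map_closure]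
        simp [Set.image_pair]
      rw [← hD]
      exact Subgroup.mem_map_of_mem _ hx
    exact hmap (Subgroup.mem_map_of_mem _ hc)
  · have := congrArg (QuotientGroup.mk' N) hcc
    simpa [map_mul, map_pow] using this

end Cfsg.Agent.S0641
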