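import Cfsg.Statements.S0642
import Cfsg.Agent.S0641
import Cfsg.Agent.Lib.H03.PGroup

set_option autoImplicit false
open Cfsg

namespace Cfsg.Agent.S0642

universe u

theorem aux (n : ℕ) : ∀ (G : Type u) [Group G] [Finite G], Nat.card G = n → IsPGroup 2 G →
    Cfsg.IsRegularPGroup 2 G → ∀ a b : G, a * b = b * a := by
  induction n using Nat.strong_induction_on with
  | _ n ih =>
    intro G _ _ hn hG hreg a b
    by_contra hab
    have : Fact (Nat.Prime 2) := ⟨Nat.prime_two⟩
    have hcomm : commutator G ≠ ⊥ := by
      intro h
      rw [commutator_eq_bot_iff_center_eq_top, Subgroup.eq_top_iff'] at h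
      exact hab (Subgroup.mem_center_iff.mp (h b) a)
    obtain ⟨z, hzK, hzZ, hzo⟩ := H03.exists_central_of_order_p hG (commutator G) hcomm
    have hnormal : (Subgroup.zpowers z).Normal := by
      have : Subgroup.zpowers z ≤ Subgroup.center G := by
        rw [Subgroup.zpowers_le]; exact hzZ
      refine ⟨fun x hx g => ?_⟩
      have h2 := Subgroup.mem_center_iff.mp (this hx) g
      rw [h2]
      simpa using hx
    have hcardQ : Nat.card (G ⧸ Subgroup.zpowers z) < n := by
      have h1 := Subgroup.card_eq_card_quotient_mul_card_subgroup (Subgroup.zpowers z)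
      rw [Nat.card_zpowers, hzo] at h1
      rw [← hn, h1]
      have hpos : 0 < Nat.card (G ⧸ Subgroup.zpowers z) := Nat.card_pos
      omega
    have hQcomm := ih _ hcardQ (G ⧸ Subgroup.zpowers z) rfl (hG.to_quotient _)
      (Cfsg.Agent.S0641.result hreg _)
    have hle : commutator G ≤ Subgroup.zpowers z := by
      rw [commutator_def, Subgroup.commutator_le]
      intro x _ y _
      rw [← QuotientGroup.eq_one_iff, commutatorElement_def]
      have := hQcomm (x : G ⧸ Subgroup.zpowers z) (y : G ⧸ Subgroup.zpowers z)
      simp only [QuotientGroup.mk_mul, QuotientGroup.mk_inv]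
      rw [this]
      group
    have hsq : ∀ d ∈ commutator G, d ^ 2 = 1 := by
      intro d hd
      obtain ⟨k, rfl⟩ := Subgroup.mem_zpowers_iff.mp (hle hd)
      rw [← zpow_natCast, ← zpow_mul, mul_comm, zpow_mul]
      have : z ^ ((2 : ℕ) : ℤ) = 1 := by
        rw [zpow_natCast, ← hzo]
        exact pow_orderOf_eq_one z
      rw [this, one_zpow]
    obtain ⟨_, hr⟩ := hreg
    obtain ⟨c, hc, hcc⟩ := hr a b 1
    have hc1 : c = 1 := by
      have hle2 : Cfsg.powerClosure 2 1 ⁅Subgroup.closure ({a, b} : Set G), Subgroup.closure ({a, b} : Set G)⁆ ≤ ⊥ := by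
        unfold Cfsg.powerClosure
        rw [Subgroup.closure_le]
        rintro _ ⟨x, hx, rfl⟩
        have hxc : x ∈ commutator G := by
          rw [commutator_def]
          exact Subgroup.commutator_mono le_top le_top hx
        simp [hsq x hxc]
      simpa using hle2 hc
    apply hab
    rw [hc1, mul_one] at hcc
    simp only [pow_one, pow_two] at hcc
    have h2 : a * (b * a) * b = a * (a * b) * b := by
      calc a * (b * a) * b = a * b * (a * b) := by group
        _ = a * a * (b * b) := hcc
        _ = a * (a * b) * b := by group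
    have h3 := mul_right_cancel (mul_left_cancel (a := a) (by simpa [mul_assoc] using h2 : a * ((b * a) * b) = a * ((a * b) * b)))
    exact h3.symm

/-- Among finite 2-groups the regular ones are exactly the abelian ones. -/
theorem result {G : Type*} [Group G] [Finite G] (hG : IsPGroup 2 G) : Cfsg.IsRegularPGroup 2 G ↔ ∀ a b : G, a * b = b * a := by
  constructor
  · intro h
    exact aux _ G rfl hG h
  · intro h
    refine ⟨hG, fun a b n => ⟨1, Subgroup.one_mem _, ?_⟩⟩
    rw [mul_one]
    exact (show Commute a b from h a b).mul_pow _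

end Cfsg.Agent.S0642
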