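import Cfsg.Statements.S0645
import Mathlib
import Cfsg.Agent.Lib.H03.CycMax

set_option autoImplicit false
open Cfsg

namespace Cfsg.Agent.S0645

lemma pow_one_add (p e t : ℕ) (he : 1 ≤ e) (j : ℕ) :
    (1 + t * p ^ e) ^ j ≡ 1 + j * t * p ^ e [MOD p ^ (e + 1)] := by
  induction j with
  | zero => simp; rfl
  | succ j ih =>
    rw [pow_succ]
    refine (ih.mul_right (1 + t * p ^ e)).trans ?_
    have : (1 + j * t * p ^ e) * (1 + t * p ^ e)
        = 1 + (j + 1) * t * p ^ e + p ^ (e + 1) * (j * t ^ 2 * p ^ (e - 1)) := by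
      obtain ⟨e', rfl⟩ : ∃ e', e = e' + 1 := ⟨e - 1, by omega⟩
      simp only [Nat.add_sub_cancel]
      ring
    rw [this]
    simp [Nat.ModEq, Nat.add_mul_mod_self_left]

lemma sum_pow_aux (p e t : ℕ) (he : 1 ≤ e) (m : ℕ) :
    ∑ j ∈ Finset.range m, (1 + t * p ^ e) ^ j ≡ m + (∑ j ∈ Finset.range m, j) * t * p ^ e [MOD p ^ (e + 1)] := by
  induction m with
  | zero => simp; rfl
  | succ m ih =>
    rw [Finset.sum_range_succ, Finset.sum_range_succ]
    refine (ih.add (pow_one_add p e t he m)).trans ?_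
    have : m + (∑ j ∈ Finset.range m, j) * t * p ^ e + (1 + m * t * p ^ e)
        = m + 1 + (∑ j ∈ Finset.range m, j + m) * t * p ^ e := by ring
    rw [this]

lemma sum_pow (p e : ℕ) (hp : Odd p) (he : 1 ≤ e) :
    ∑ j ∈ Finset.range p, (1 + p ^ e) ^ j ≡ p [MOD p ^ (e + 1)] := by
  have h := sum_pow_aux p e 1 he p
  simp only [one_mul, mul_one] at h
  refine h.trans ?_
  obtain ⟨h', rfl⟩ := hp
  have h2 := Finset.sum_range_id_mul_two (2 * h' + 1)
  simp only [Nat.add_sub_cancel] at h2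
  have h3 : ∑ i ∈ Finset.range (2 * h' + 1), i = (2 * h' + 1) * h' := by
    have : (∑ i ∈ Finset.range (2 * h' + 1), i) * 2 = ((2 * h' + 1) * h') * 2 := by
      rw [h2]; ring
    exact Nat.eq_of_mul_eq_mul_right (by norm_num) this
  rw [h3]
  have : 2 * h' + 1 + (2 * h' + 1) * h' * (2 * h' + 1) ^ e
      = 2 * h' + 1 + (2 * h' + 1) ^ (e + 1) * h' := by ring
  rw [this]
  simp [Nat.ModEq, Nat.add_mul_mod_self_left]


/-- Classification of p-groups with a cyclic maximal subgroup, odd p: a non-abelian one of order p^n has generators a of order p^(n-1) and b of order p, b outside the cyclic subgroup generated by a, with b a b⁻¹ = a^(1 + p^(n-2)). -/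
theorem result {G : Type*} [Group G] [Finite G] {p : ℕ} [Fact p.Prime] (hp : p ≠ 2) (n : ℕ) (hn : 3 ≤ n) (hG : Nat.card G = p ^ n) (C : Subgroup G) (hC : IsCyclic C) (hCi : C.index = p) (hna : ∃ x y : G, x * y ≠ y * x) : ∃ a b : G, orderOf a = p ^ (n - 1) ∧ orderOf b = p ∧ b ∉ Subgroup.zpowers a ∧ b * a * b⁻¹ = a ^ (1 + p ^ (n - 2)) := by
  have hpp : p.Prime := Fact.out
  have hodd : Odd p := hpp.odd_of_ne_two hp
  obtain ⟨a, x, r, hza, hord, hx, hnorm, hxa, hr1, hxp⟩ := H03.CycMax.cyc_setup (by omega) hG C hC hCi hna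
  obtain ⟨e, rfl⟩ : ∃ e, n = e + 2 := ⟨n - 2, by omega⟩
  have he : 1 ≤ e := by omega
  rw [show e + 2 - 1 = e + 1 by omega] at hord hr1
  rw [show e + 2 - 2 = e by omega]
  have hrp : r ^ p ≡ 1 [MOD p ^ (e + 1)] := by
    have h1 := H03.CycMax.conj_pow_pow hxa p
    have h2 : x ^ p * a * (x ^ p)⁻¹ = a := by
      have h3 := hxp
      rw [← hza, ← mem_powers_iff_mem_zpowers] at h3
      obtain ⟨k, hk⟩ := h3
      have hk' : a ^ k = x ^ p := hk
      rw [← hk']
      rw [← pow_succ, pow_succ', mul_assoc, mul_inv_cancel, mul_one]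
    rw [h2] at h1
    have h3 : a ^ (r ^ p) = a ^ 1 := by rw [← h1, pow_one]
    rw [pow_eq_pow_iff_modEq, hord] at h3
    exact h3
  have hrz : (r : ZMod p) = 1 := by
    have h4 : r ^ p ≡ 1 [MOD p] := hrp.of_dvd (dvd_pow_self p (by omega))
    have h5 : ((r ^ p : ℕ) : ZMod p) = ((1 : ℕ) : ZMod p) := (ZMod.natCast_eq_natCast_iff _ _ _).2 h4
    push_cast at h5
    rwa [ZMod.pow_card] at h5
  obtain ⟨k, hk⟩ := H03.geom_sum_eq hp r hrz
  obtain ⟨w, rfl⟩ : ∃ w, r = w + 1 := by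
    have : r ≠ 0 := by
      rintro rfl
      simp at hrz
    exact ⟨r - 1, by omega⟩
  have h6 : (∑ i ∈ Finset.range p, (w + 1) ^ i) * w + 1 = (w + 1) ^ p := geom_sum_mul_add w p
  rw [hk] at h6
  rw [← h6] at hrp
  have h7 : p ^ (e + 1) ∣ p * (1 + p * k) * w := by
    have : p * (1 + p * k) * w + 1 ≡ 0 + 1 [MOD p ^ (e + 1)] := by simpa using hrp
    have := Nat.ModEq.add_right_cancel' 1 this
    exact (Nat.modEq_zero_iff_dvd).1 this
  have h8 : p ^ e ∣ w := by
    rw [pow_succ', mul_assoc] at h7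
    have h9 := Nat.dvd_of_mul_dvd_mul_left hpp.pos h7
    refine Nat.Coprime.dvd_of_dvd_mul_left ?_ h9
    apply Nat.Coprime.pow_left
    rw [Nat.coprime_comm]
    simp
  obtain ⟨t, rfl⟩ := h8
  have ht : ¬ p ∣ t := by
    intro hpt
    apply hr1
    obtain ⟨t', rfl⟩ := hpt
    have : p ^ e * (p * t') + 1 = 1 + p ^ (e + 1) * t' := by ring
    rw [this]
    simp [Nat.ModEq, Nat.add_mul_mod_self_left]
  -- normalize `t`
  obtain ⟨j, -, hj⟩ := Nat.exists_mul_mod_eq_one_of_coprime ((Nat.Prime.coprime_iff_not_dvd hpp).2 ht).symm hpp.one_lt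
  have htj : t * j = 1 + p * (t * j / p) := by
    have := Nat.div_add_mod (t * j) p
    rw [hj] at this
    omega
  set v := t * j / p with hv
  -- `y = x ^ j`
  have hya : x ^ j * a * (x ^ j)⁻¹ = a ^ (1 + p ^ e) := by
    rw [H03.CycMax.conj_pow_pow hxa, pow_eq_pow_iff_modEq, hord]
    have h10 : p ^ e * t + 1 = 1 + t * p ^ e := by ring
    rw [h10]
    refine (pow_one_add p e t he j).trans ?_
    have h11 : 1 + j * t * p ^ e = 1 + p ^ e + p ^ (e + 1) * v := by
      have : j * t = 1 + p * v := by rw [mul_comm]; exact htj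
      rw [this]; ring
    rw [h11]
    simp [Nat.ModEq, Nat.add_mul_mod_self_left]
  have hyC : x ^ j ∉ C := by
    intro hy
    apply hx
    have h12 : (x ^ j) ^ t ∈ C := C.pow_mem hy t
    rw [← pow_mul, mul_comm, htj, pow_add, pow_one, pow_mul] at h12
    exact (Subgroup.mul_mem_cancel_right C (C.pow_mem hxp v)).1 h12
  obtain ⟨y, hy⟩ : ∃ y, y = x ^ j := ⟨_, rfl⟩
  rw [← hy] at hya hyC
  have hypC : y ^ p ∈ C := by
    have := Subgroup.pow_index_mem C y
    rwa [hCi] at this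
  have hyp := hypC
  rw [← hza, ← mem_powers_iff_mem_zpowers] at hyp
  obtain ⟨s, hs⟩ := hyp
  have hs' : y ^ p = a ^ s := hs.symm
  have h13 := H03.CycMax.fixed_power hya hs'
  have h14 : p ∣ s := by
    have h15 : s * (1 + p ^ e) ≡ s * 1 [MOD p ^ (e + 1)] := by
      rw [mul_one]
      have := (pow_eq_pow_iff_modEq.1 h13)
      rwa [hord] at this
    have h16 : s + s * p ^ e ≡ s + 0 [MOD p ^ (e + 1)] := by
      have : s * (1 + p ^ e) = s + s * p ^ e := by ring
      rw [this, mul_one] at h15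
      simpa using h15
    have h17 := Nat.ModEq.add_left_cancel' s h16
    have h18 := (Nat.modEq_zero_iff_dvd).1 h17
    have h18' : p ^ e * p ∣ p ^ e * s := by
      rw [← pow_succ, mul_comm (p ^ e) s]
      exact h18
    exact Nat.dvd_of_mul_dvd_mul_left (pow_pos hpp.pos e) h18'
  obtain ⟨c, rfl⟩ := h14
  refine ⟨a, a ^ (c * (p ^ (e + 1) - 1)) * y, hord, ?_, ?_, ?_⟩
  · apply orderOf_eq_prime
    · rw [H03.mul_pow_formula hya, hs', ← pow_add]
      rw [← orderOf_dvd_iff_pow_eq_one, hord]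
      have h19 := sum_pow p e hodd he
      have h20 : c * (p ^ (e + 1) - 1) * ∑ j ∈ Finset.range p, (1 + p ^ e) ^ j + p * c
          ≡ c * (p ^ (e + 1) - 1) * p + p * c [MOD p ^ (e + 1)] :=
        (h19.mul_left _).add_right _
      apply (Nat.modEq_zero_iff_dvd).1
      refine h20.trans ?_
      have h21 : 1 ≤ p ^ (e + 1) := Nat.one_le_pow _ _ hpp.pos
      obtain ⟨M, hM⟩ : ∃ M, p ^ (e + 1) = M + 1 := ⟨p ^ (e + 1) - 1, by omega⟩
      rw [hM]
      simp only [Nat.add_sub_cancel]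
      have : c * M * p + p * c = (M + 1) * (c * p) := by ring
      rw [this]
      simp [Nat.ModEq]
    · intro h1
      apply hyC
      have hb : a ^ (c * (p ^ (e + 1) - 1)) ∈ C := by
        apply C.pow_mem
        rw [← hza]
        exact Subgroup.mem_zpowers a
      have : y = (a ^ (c * (p ^ (e + 1) - 1)))⁻¹ := eq_inv_of_mul_eq_one_right h1
      rw [this]
      exact C.inv_mem hb
  · intro hb
    rw [hza] at hb
    apply hyC
    have hb2 : a ^ (c * (p ^ (e + 1) - 1)) ∈ C := by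
      apply C.pow_mem
      rw [← hza]
      exact Subgroup.mem_zpowers a
    exact (Subgroup.mul_mem_cancel_left C hb2).1 hb
  · exact H03.CycMax.conj_mul_coset hya _

end Cfsg.Agent.S0645
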