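import Cfsg.Statements.S0646
import Mathlib
import Cfsg.Agent.Lib.H03.CycMax

set_option autoImplicit false
open Cfsg

namespace Cfsg.Agent.S0646


/-- Classification of non-abelian 2-groups with a cyclic maximal subgroup: dihedral, generalized quaternion, and for order at least 16 the modular group and the semidihedral group, each given by generators a (of index 2) and b with the stated relations. -/
theorem result {G : Type*} [Group G] [Finite G] (n : ℕ) (hn : 3 ≤ n) (hG : Nat.card G = 2 ^ n) (C : Subgroup G) (hC : IsCyclic C) (hCi : C.index = 2) (hna : ∃ x y : G, x * y ≠ y * x) : ∃ a b : G, orderOf a = 2 ^ (n - 1) ∧ b ∉ Subgroup.zpowers a ∧ ((b ^ 2 = 1 ∧ b * a * b⁻¹ = a⁻¹) ∨ (b ^ 2 = a ^ (2 ^ (n - 2)) ∧ b * a * b⁻¹ = a⁻¹) ∨ (4 ≤ n ∧ b ^ 2 = 1 ∧ b * a * b⁻¹ = a ^ (1 + 2 ^ (n - 2))) ∨ (4 ≤ n ∧ b ^ 2 = 1 ∧ b * a * b⁻¹ = a ^ (2 ^ (n - 2) - 1))) := by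
  haveI : Fact (Nat.Prime 2) := ⟨Nat.prime_two⟩
  obtain ⟨a, x, r, hza, hord, hx, hnorm, hxa, hr1, hxp⟩ := H03.CycMax.cyc_setup (p := 2) (by omega) hG C hC hCi hna
  obtain ⟨e, rfl⟩ : ∃ e, n = e + 3 := ⟨n - 3, by omega⟩
  rw [show e + 3 - 1 = e + 2 by omega] at hord hr1
  rw [show e + 3 - 2 = e + 1 by omega]
  have hrp : r ^ 2 ≡ 1 [MOD 2 ^ (e + 2)] := by
    have h1 := H03.CycMax.conj_pow_pow hxa 2
    have h2 : x ^ 2 * a * (x ^ 2)⁻¹ = a := by
      have h3 := hxp
      rw [← hza, ← mem_powers_iff_mem_zpowers] at h3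
      obtain ⟨k, hk⟩ := h3
      have hk' : a ^ k = x ^ 2 := hk
      rw [← hk']
      rw [← pow_succ, pow_succ', mul_assoc, mul_inv_cancel, mul_one]
    rw [h2] at h1
    have h3 : a ^ (r ^ 2) = a ^ 1 := by rw [← h1, pow_one]
    rw [pow_eq_pow_iff_modEq, hord] at h3
    exact h3
  -- `x ^ 2 = a ^ s`
  have hxp' := hxp
  rw [← hza, ← mem_powers_iff_mem_zpowers] at hxp'
  obtain ⟨s, hs0⟩ := hxp'
  have hs : x ^ 2 = a ^ s := hs0.symm
  have hane : ∀ w : ℕ, a ^ w * x ∉ Subgroup.zpowers a := by
    intro w hw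
    rw [hza] at hw
    have hb2 : a ^ w ∈ C := by
      apply C.pow_mem
      rw [← hza]
      exact Subgroup.mem_zpowers a
    exact hx ((Subgroup.mul_mem_cancel_left C hb2).1 hw)
  have hxne : x ∉ Subgroup.zpowers a := by
    rw [hza]; exact hx
  -- `N`
  obtain ⟨N, hN⟩ : ∃ N, N = 2 ^ (e + 1) := ⟨_, rfl⟩
  have hN2 : 2 ^ (e + 2) = 2 * N := by rw [hN]; ring
  rw [← hN]
  rw [hN2] at hord hr1 hrp
  have hNpos : 2 ≤ N := by
    rw [hN, pow_succ]
    have := Nat.one_le_two_pow (n := e)
    omega
  have haN : a ^ (2 * N) = 1 := by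
    rw [← hord]; exact pow_orderOf_eq_one a
  have hconj : ∀ r' : ℕ, r ≡ r' [MOD 2 * N] → x * a * x⁻¹ = a ^ r' := by
    intro r' h
    rw [hxa, pow_eq_pow_iff_modEq, hord]
    exact h
  -- arithmetic trichotomy
  have htri : r ≡ 2 * N - 1 [MOD 2 * N] ∨ (1 ≤ e ∧ r ≡ 1 + N [MOD 2 * N]) ∨ (1 ≤ e ∧ r ≡ N - 1 [MOD 2 * N]) := by
    have hodd : Odd r := by
      have h4 : r ^ 2 ≡ 1 [MOD 2] := hrp.of_dvd ⟨N, rfl⟩
      rw [Nat.odd_iff]
      by_contra hcon
      have h5 : r % 2 = 0 := by omega
      have h6 : (r ^ 2) % 2 = 0 := by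
        rw [Nat.pow_mod, h5]
      have h7 : (r ^ 2) % 2 = 1 % 2 := h4
      omega
    obtain ⟨h, rfl⟩ := hodd
    have h8 : (2 * h + 1) ^ 2 = 4 * (h * (h + 1)) + 1 := by ring
    rw [h8] at hrp
    have h9 : 2 * N ∣ 4 * (h * (h + 1)) := by
      have : 4 * (h * (h + 1)) + 1 ≡ 0 + 1 [MOD 2 * N] := by simpa using hrp
      exact (Nat.modEq_zero_iff_dvd).1 (Nat.ModEq.add_right_cancel' 1 this)
    obtain ⟨M, hM⟩ : ∃ M, M = 2 ^ e := ⟨_, rfl⟩
    have hNM : N = 2 * M := by rw [hN, hM]; ring
    have h10 : M ∣ h * (h + 1) := by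
      rw [hNM] at h9
      have : 4 * M ∣ 4 * (h * (h + 1)) := by
        convert h9 using 1
        ring
      exact Nat.dvd_of_mul_dvd_mul_left (by norm_num) this
    have hMcop : ∀ w : ℕ, Odd w → Nat.Coprime M w := by
      intro w hw
      rw [hM]
      apply Nat.Coprime.pow_left
      exact (Nat.coprime_two_left).2 hw
    have h11 : M ∣ h ∨ M ∣ h + 1 := by
      rcases Nat.even_or_odd h with he' | ho
      · left
        exact (hMcop (h + 1) he'.add_one).dvd_of_dvd_mul_right h10
      · right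
        exact (hMcop h ho).dvd_of_dvd_mul_left h10
    rcases h11 with ⟨t, ht⟩ | ⟨t, ht⟩
    · -- r = 2 M t + 1 = N t + 1
      have hr : 2 * h + 1 = N * t + 1 := by rw [ht, hNM]; ring
      rcases Nat.even_or_odd' t with ⟨t', rfl | rfl⟩
      · exfalso
        apply hr1
        rw [hr]
        have : N * (2 * t') + 1 = 1 + 2 * N * t' := by ring
        rw [this]
        simp [Nat.ModEq, Nat.add_mul_mod_self_left]
      · have hr2 : 2 * h + 1 ≡ 1 + N [MOD 2 * N] := by
          rw [hr]
          have : N * (2 * t' + 1) + 1 = 1 + N + 2 * N * t' := by ring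
          rw [this]
          simp [Nat.ModEq, Nat.add_mul_mod_self_left]
        rcases Nat.eq_zero_or_pos e with rfl | he1
        · left
          simp only [zero_add, pow_one] at hN
          subst hN
          exact hr2
        · right; left
          exact ⟨he1, hr2⟩
    · have hr : 2 * h + 1 + 1 = N * t := by
        have : 2 * h + 1 + 1 = 2 * (h + 1) := by ring
        rw [this, ht, hNM]; ring
      rcases Nat.even_or_odd' t with ⟨t', rfl | rfl⟩
      · left
        -- r + 1 = 2 N t'
        have ht0 : 1 ≤ t' := by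
          rcases Nat.eq_zero_or_pos t' with rfl | h0
          · simp at hr
          · exact h0
        have h12 : 2 * h + 1 + 1 ≡ 2 * N - 1 + 1 [MOD 2 * N] := by
          rw [hr, show 2 * N - 1 + 1 = 2 * N by omega]
          have : N * (2 * t') = 2 * N * t' := by ring
          rw [this]
          simp [Nat.ModEq]
        exact Nat.ModEq.add_right_cancel' 1 h12
      · have h12 : 2 * h + 1 + 1 ≡ N - 1 + 1 [MOD 2 * N] := by
          rw [hr, show N - 1 + 1 = N by omega]
          have : N * (2 * t' + 1) = N + 2 * N * t' := by ring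
          rw [this]
          simp [Nat.ModEq, Nat.add_mul_mod_self_left]
        have h13 := Nat.ModEq.add_right_cancel' 1 h12
        rcases Nat.eq_zero_or_pos e with rfl | he1
        · exfalso
          simp only [zero_add, pow_one] at hN
          subst hN
          apply hr1
          exact h13
        · right; right
          exact ⟨he1, h13⟩
  -- helper for two cases: `x ^ 2 = a ^ (N * c)`
  have hpar : ∀ c : ℕ, x ^ 2 = a ^ (N * c) → x ^ 2 = 1 ∨ x ^ 2 = a ^ N := by
    intro c hc
    rcases Nat.even_or_odd' c with ⟨c', rfl | rfl⟩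
    · left
      rw [hc, show N * (2 * c') = 2 * N * c' by ring, pow_mul, haN, one_pow]
    · right
      rw [hc, show N * (2 * c' + 1) = N + 2 * N * c' by ring, pow_add, pow_mul, haN, one_pow, mul_one]
  rcases htri with h | ⟨he1, h⟩ | ⟨he1, h⟩
  · -- dihedral or quaternion
    have hxa' := hconj _ h
    have hinv : a ^ (2 * N - 1) = a⁻¹ := by
      rw [eq_inv_iff_mul_eq_one, ← pow_succ, show 2 * N - 1 + 1 = 2 * N by omega, haN]
    have h14 := H03.CycMax.fixed_power hxa' hs
    rw [pow_eq_pow_iff_modEq, hord] at h14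
    have h15 : N ∣ s := by
      have h16 : s * (2 * N - 1) + s ≡ s + s [MOD 2 * N] := h14.add_right s
      have h17 : s * (2 * N - 1) + s = 2 * N * s := by
        obtain ⟨N', rfl⟩ : ∃ N', N = N' + 1 := ⟨N - 1, by omega⟩
        have : 2 * (N' + 1) - 1 = 2 * N' + 1 := by omega
        rw [this]
        ring
      rw [h17] at h16
      have h18 : 2 * N ∣ s + s := by
        apply (Nat.modEq_zero_iff_dvd).1
        refine h16.symm.trans ?_
        simp [Nat.ModEq]
      have h19 : 2 * N ∣ 2 * s := by rwa [two_mul s]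
      exact Nat.dvd_of_mul_dvd_mul_left (by norm_num) h19
    obtain ⟨c, rfl⟩ := h15
    refine ⟨a, x, hord.trans (by rw [← hN2, show e + 3 - 1 = e + 2 by omega]), hxne, ?_⟩
    rw [hinv] at hxa'
    rcases hpar c hs with h20 | h20
    · left; exact ⟨h20, hxa'⟩
    · right; left; exact ⟨h20, hxa'⟩
  · -- modular
    have hxa' := hconj _ h
    have h14 := H03.CycMax.fixed_power hxa' hs
    rw [pow_eq_pow_iff_modEq, hord] at h14
    have h15 : 2 ∣ s := by
      have h16 : s + s * N ≡ s + 0 [MOD 2 * N] := by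
        have : s * (1 + N) = s + s * N := by ring
        rw [this] at h14
        simpa using h14
      have h17 := Nat.ModEq.add_left_cancel' s h16
      have h18 := (Nat.modEq_zero_iff_dvd).1 h17
      have h19 : N * 2 ∣ N * s := by
        rw [mul_comm N 2, mul_comm N s]; exact h18
      exact Nat.dvd_of_mul_dvd_mul_left (by omega) h19
    obtain ⟨c, rfl⟩ := h15
    obtain ⟨M, hM⟩ : ∃ M, M = 2 ^ e := ⟨_, rfl⟩
    have hNM : N = 2 * M := by rw [hN, hM]; ring
    have hM2 : 2 ∣ M := by
      rw [hM]; exact dvd_pow_self 2 (by omega)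
    have hcop : Nat.Coprime (1 + M) N := by
      rw [hN]
      apply Nat.Coprime.pow_right
      rw [Nat.coprime_comm, Nat.coprime_two_left]
      have : Even M := (even_iff_two_dvd).2 hM2
      rw [add_comm]
      exact this.add_one
    obtain ⟨u, -, hu⟩ := Nat.exists_mul_mod_eq_of_coprime ((N - 1) * c) hcop (by omega)
    have hu' : (1 + M) * u ≡ (N - 1) * c [MOD N] := hu
    have h21 : N ∣ (1 + M) * u + c := by
      apply (Nat.modEq_zero_iff_dvd).1
      refine (hu'.add_right c).trans ?_
      have : (N - 1) * c + c = N * c := by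
        obtain ⟨N', rfl⟩ : ∃ N', N = N' + 1 := ⟨N - 1, by omega⟩
        simp only [Nat.add_sub_cancel]
        ring
      rw [this]
      simp [Nat.ModEq]
    obtain ⟨w, hw⟩ := h21
    refine ⟨a, a ^ u * x, hord.trans (by rw [← hN2, show e + 3 - 1 = e + 2 by omega]), hane u, ?_⟩
    right; right; left
    refine ⟨by omega, ?_, H03.CycMax.conj_mul_coset hxa' u⟩
    rw [H03.mul_pow_formula hxa', hs, ← pow_add]
    have h22 : u * ∑ j ∈ Finset.range 2, (1 + N) ^ j + 2 * c = 2 * N * w := by
      simp only [Finset.sum_range_succ, Finset.sum_range_zero, pow_zero, pow_one, zero_add]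
      rw [mul_assoc, ← hw, hNM]
      ring
    rw [h22, pow_mul, haN, one_pow]
  · -- semidihedral
    have hxa' := hconj _ h
    have h14 := H03.CycMax.fixed_power hxa' hs
    rw [pow_eq_pow_iff_modEq, hord] at h14
    obtain ⟨M, hM⟩ : ∃ M, M = 2 ^ e := ⟨_, rfl⟩
    have hNM : N = 2 * M := by rw [hN, hM]; ring
    have hM2 : 2 ∣ M := by
      rw [hM]; exact dvd_pow_self 2 (by omega)
    have hM0 : 0 < M := by rw [hM]; positivity
    obtain ⟨M', rfl⟩ : ∃ M', M = M' + 1 := ⟨M - 1, by omega⟩
    have h15 : N ∣ s := by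
      have h16 : s + s * (2 * M') ≡ s + 0 [MOD 2 * N] := by
        have : s * (N - 1) = s + s * (2 * M') := by
          rw [hNM]
          have : 2 * (M' + 1) - 1 = 1 + 2 * M' := by omega
          rw [this]
          ring
        rw [this] at h14
        simpa using h14
      have h17 := Nat.ModEq.add_left_cancel' s h16
      have h18 := (Nat.modEq_zero_iff_dvd).1 h17
      have h19 : 2 * N ∣ 2 * (s * M') := by
        convert h18 using 1
        ring
      have h20 := Nat.dvd_of_mul_dvd_mul_left (by norm_num) h19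
      have hodd : Odd M' := by
        have : Even (M' + 1) := (even_iff_two_dvd).2 hM2
        rcases Nat.even_or_odd M' with h0 | h0
        · exfalso
          have := h0.add_one
          exact (Nat.not_even_iff_odd.2 this) ‹_›
        · exact h0
      have hcop : Nat.Coprime N M' := by
        rw [hN]
        apply Nat.Coprime.pow_left
        exact (Nat.coprime_two_left).2 hodd
      exact hcop.dvd_of_dvd_mul_right h20
    obtain ⟨c, rfl⟩ := h15
    rcases hpar c hs with h20 | h20
    · refine ⟨a, x, hord.trans (by rw [← hN2, show e + 3 - 1 = e + 2 by omega]), hxne, ?_⟩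
      right; right; right
      exact ⟨by omega, h20, hxa'⟩
    · refine ⟨a, a ^ 1 * x, hord.trans (by rw [← hN2, show e + 3 - 1 = e + 2 by omega]), hane 1, ?_⟩
      right; right; right
      refine ⟨by omega, ?_, H03.CycMax.conj_mul_coset hxa' 1⟩
      rw [H03.mul_pow_formula hxa', h20, ← pow_add]
      have h22 : 1 * ∑ j ∈ Finset.range 2, (N - 1) ^ j + N = 2 * N := by
        simp only [Finset.sum_range_succ, Finset.sum_range_zero, pow_zero, pow_one, zero_add, one_mul]
        omega
      rw [h22, haN]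

end Cfsg.Agent.S0646
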