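import Cfsg.Statements.S0656
import Cfsg.Agent.Lib.H26.QuadSL
import Mathlib

set_option autoImplicit false
set_option linter.unusedVariables false
open Cfsg

namespace Cfsg.Agent.S0656

/-- For odd p, a faithful group on an elementary abelian p-group with no nontrivial normal p-subgroup in which some nontrivial p-element acts quadratically has a section isomorphic to SL(2, p). -/
theorem result {G : Type*} [Group G] [Finite G] {p : ℕ} [Fact p.Prime] (hp : p ≠ 2) (V H : Subgroup G) (hV : Cfsg.IsElementaryAbelian p V) (hHV : H ≤ Subgroup.normalizer (V : Set G)) (hf : H ⊓ Subgroup.centralizer (V : Set G) = ⊥) (hO : Cfsg.pCore p ↥H = ⊥) (x : G) (hxH : x ∈ H) (hx1 : x ≠ 1) (hxp : ∃ k : ℕ, orderOf x = p ^ k) (hq : ⁅⁅V, Subgroup.zpowers x⁆, Subgroup.zpowers x⁆ = ⊥) : ∃ (K L : Subgroup G) (hL : (L.subgroupOf K).Normal), K ≤ H ∧ Nonempty ((K ⧸ L.subgroupOf K) ≃* Matrix.SpecialLinearGroup (Fin 2) (ZMod p)) := by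
  have hxpp : x ^ p = 1 := Cfsg.Agent.H02.pow_p_of_quad V H hV hHV hf x hxH hq
  let a : H := ⟨x, hxH⟩
  have hna : a ∉ Cfsg.pCore p H := by
    rw [hO, Subgroup.mem_bot]
    intro h
    exact hx1 (congrArg Subtype.val h)
  obtain ⟨g, hg⟩ := Cfsg.Agent.H02.exists_conj_not_pgroup H a (Subtype.ext hxpp) hna
  have hgx : (g : G) * x * (g : G)⁻¹ ∈ H := H.mul_mem (H.mul_mem g.2 hxH) (H.inv_mem g.2)
  let D : Subgroup G := Subgroup.closure {x, (g : G) * x * (g : G)⁻¹}
  have hDH : D ≤ H := by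
    apply (Subgroup.closure_le _).2
    rintro y (rfl | rfl)
    · exact hxH
    · exact hgx
  have hfD : D ⊓ Subgroup.centralizer (V : Set G) = ⊥ :=
    le_bot_iff.1 (hf ▸ inf_le_inf_right _ hDH)
  have hy := Cfsg.Agent.H02.quad_conj V x g (hHV g.2) hq
  obtain ⟨K, L, hL, hKD, he⟩ := Cfsg.Agent.H26.QuadSL.section_of_quad_pair hp V D hV (hDH.trans hHV)
    hfD x _ rfl hq hy hg
  exact ⟨K, L, hL, hKD.trans hDH, he⟩

end Cfsg.Agent.S0656
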