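import Cfsg.Statements.S0660
import Mathlib

set_option autoImplicit false
open Cfsg

namespace Cfsg.Agent.S0660

theorem abstract_comp {V A : Type*} [CommGroup V] [Group A] [Finite V] [Fintype A] (φ : A →* MulAut V)
    (hc : (Fintype.card A).Coprime (Nat.card V)) (U W : Subgroup V) (hU : ∀ a, ∀ u ∈ U, φ a u ∈ U)
    (h1 : U ⊓ W = ⊥) (h2 : U ⊔ W = ⊤) :
    ∃ W' : Subgroup V, (∀ a, ∀ w ∈ W', φ a w ∈ W') ∧ U ⊓ W' = ⊥ ∧ U ⊔ W' = ⊤ := by
  classical
  have hex : ∀ v : V, ∃ u ∈ U, ∃ w ∈ W, u * w = v := fun v =>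
    Subgroup.mem_sup.mp (h2 ▸ Subgroup.mem_top v)
  choose ρ hρU w hw hρ using hex
  have huniq : ∀ u ∈ U, ∀ u' ∈ U, ∀ x ∈ W, ∀ x' ∈ W, u * x = u' * x' → u = u' := by
    intro u hu u' hu' x hx x' hx' he
    have h3 : u'⁻¹ * u = x' * x⁻¹ := by
      rw [inv_mul_eq_iff_eq_mul, ← mul_assoc, ← he]; group
    have h4 : u'⁻¹ * u ∈ U ⊓ W :=
      ⟨U.mul_mem (U.inv_mem hu') hu, h3 ▸ W.mul_mem hx' (W.inv_mem hx)⟩
    rw [h1, Subgroup.mem_bot] at h4
    rw [inv_mul_eq_one] at h4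
    exact h4.symm
  have hρmul : ∀ a b, ρ (a * b) = ρ a * ρ b := by
    intro a b
    refine huniq _ (hρU _) _ (U.mul_mem (hρU a) (hρU b)) (w (a*b)) (hw _) (w a * w b) (W.mul_mem (hw a) (hw b)) ?_
    rw [hρ]
    calc a * b = (ρ a * w a) * (ρ b * w b) := by rw [hρ, hρ]
      _ = _ := by ac_rfl
  have hρu : ∀ u ∈ U, ρ u = u := by
    intro u hu
    exact huniq _ (hρU _) _ hu (w u) (hw _) 1 W.one_mem (by rw [hρ, mul_one])
  let r : V →* V := MonoidHom.mk' ρ hρmul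
  let P : V →* V := ∏ a : A, ((φ a).toMonoidHom.comp (r.comp (φ a⁻¹).toMonoidHom))
  have hP : ∀ v, P v = ∏ a : A, φ a (ρ (φ a⁻¹ v)) := by
    intro v
    simp only [P, MonoidHom.finset_prod_apply]
    rfl
  have hPU : ∀ v, P v ∈ U := by
    intro v
    rw [hP]
    exact Subgroup.prod_mem _ fun a _ => hU a _ (hρU _)
  have hPu : ∀ u ∈ U, P u = u ^ Fintype.card A := by
    intro u hu
    rw [hP, ← Finset.card_univ, ← Finset.prod_const]
    refine Finset.prod_congr rfl fun a _ => ?_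
    have h5 : φ a⁻¹ u ∈ U := hU _ _ hu
    rw [hρu _ h5, ← MulAut.mul_apply, ← map_mul, mul_inv_cancel, map_one, MulAut.one_apply]
  have hPeq : ∀ b v, P (φ b v) = φ b (P v) := by
    intro b v
    rw [hP, hP, map_prod]
    refine Finset.prod_bij' (fun a _ => b⁻¹ * a) (fun a _ => b * a) (fun _ _ => Finset.mem_univ _) (fun _ _ => Finset.mem_univ _) (by simp) (by simp) ?_
    intro a _
    have hφ : ∀ x y z, φ x (φ y z) = φ (x*y) z := by
      intro x y z
      rw [map_mul, MulAut.mul_apply]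
    rw [hφ, hφ]
    have e1 : a⁻¹ * b = (b⁻¹ * a)⁻¹ := by group
    have e2 : b * (b⁻¹ * a) = a := by group
    rw [e1, e2]
  have hcU : (Fintype.card A).Coprime (Nat.card U) :=
    Nat.Coprime.coprime_dvd_right (Subgroup.card_subgroup_dvd_card U) hc
  refine ⟨P.ker, ?_, ?_, ?_⟩
  · intro a x hx
    rw [MonoidHom.mem_ker] at hx ⊢
    rw [hPeq, hx, map_one]
  · rw [eq_bot_iff]
    rintro u ⟨hu, hk⟩
    have hk' : P u = 1 := hk
    rw [hPu u hu] at hk'
    have hk := hk'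
    show u = 1
    have h6 : orderOf u ∣ Fintype.card A := orderOf_dvd_of_pow_eq_one hk
    have h7 : orderOf u ∣ Nat.card V := orderOf_dvd_natCard u
    exact orderOf_eq_one_iff.mp (Nat.eq_one_of_dvd_coprimes hc h6 h7)
  · rw [eq_top_iff]
    intro v _
    have hbij := powCoprime hcU.symm
    obtain ⟨x, hx⟩ := (powCoprime hcU.symm).surjective ⟨P v, hPU v⟩
    have hx' : (x : V) ^ Fintype.card A = P v := by
      have := congrArg Subtype.val hx
      simpa [powCoprime] using this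
    rw [Subgroup.mem_sup]
    refine ⟨x, x.2, (x:V)⁻¹ * v, ?_, by group⟩
    rw [MonoidHom.mem_ker, map_mul, map_inv, hPu _ x.2, hx']
    group

/-- Under a coprime action on an abelian group, an invariant subgroup that is complemented admits an invariant complement. -/
theorem result {G : Type*} [Group G] [Finite G] (V A U : Subgroup G) (hVab : IsMulCommutative V) (hAV : A ≤ Subgroup.normalizer (V : Set G)) (hcop : (Nat.card A).Coprime (Nat.card V)) (hUV : U ≤ V) (hAU : A ≤ Subgroup.normalizer (U : Set G)) (W : Subgroup G) (hWV : W ≤ V) (hUW : U ⊓ W = ⊥) (hUWV : U ⊔ W = V) : ∃ W' : Subgroup G, W' ≤ V ∧ A ≤ Subgroup.normalizer (W' : Set G) ∧ U ⊓ W' = ⊥ ∧ U ⊔ W' = V := by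
  classical
  haveI : IsMulCommutative V := hVab
  letI : CommGroup V := { (inferInstance : Group V) with mul_comm := fun a b => mul_comm' a b }
  letI : Fintype A := Fintype.ofFinite A
  let φ : A →* MulAut V := V.normalizerMonoidHom.comp (Subgroup.inclusion hAV)
  have hφ : ∀ (a : A) (v : V), ((φ a v : V) : G) = (a : G) * v * (a : G)⁻¹ := fun a v => rfl
  have hmemU : ∀ v : V, v ∈ U.subgroupOf V ↔ (v : G) ∈ U := fun v => Subgroup.mem_subgroupOf
  have hmemW : ∀ v : V, v ∈ W.subgroupOf V ↔ (v : G) ∈ W := fun v => Subgroup.mem_subgroupOf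
  have h1 : U.subgroupOf V ⊓ W.subgroupOf V = ⊥ := by
    rw [eq_bot_iff]
    rintro v ⟨hu, hw⟩
    have h : (v : G) ∈ U ⊓ W := ⟨(hmemU v).mp hu, (hmemW v).mp hw⟩
    rw [hUW, Subgroup.mem_bot] at h
    exact Subtype.ext h
  have h2 : U.subgroupOf V ⊔ W.subgroupOf V = ⊤ := by
    rw [← Subgroup.subgroupOf_sup hUV hWV, hUWV, Subgroup.subgroupOf_self]
  obtain ⟨W', h3, h4, h5⟩ := abstract_comp φ (by rwa [← Nat.card_eq_fintype_card]) (U.subgroupOf V) (W.subgroupOf V)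
    (by
      intro a u hu
      rw [hmemU] at hu ⊢
      rw [hφ]
      exact (Subgroup.mem_normalizer_iff.mp (hAU a.2) _).mp hu) h1 h2
  refine ⟨W'.map V.subtype, ?_, ?_, ?_, ?_⟩
  · rintro _ ⟨x, -, rfl⟩
    exact x.2
  · intro a ha
    rw [Subgroup.mem_normalizer_iff]
    intro g
    constructor
    · rintro ⟨x, hx, rfl⟩
      exact ⟨φ ⟨a, ha⟩ x, h3 _ _ hx, rfl⟩
    · rintro ⟨y, hy, hey⟩
      refine ⟨φ ⟨a, ha⟩⁻¹ y, h3 _ _ hy, ?_⟩
      have : ((φ ⟨a, ha⟩⁻¹ y : V) : G) = a⁻¹ * y * a := by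
        rw [hφ]; simp
      show ((φ ⟨a, ha⟩⁻¹ y : V) : G) = g
      rw [this]
      have hey' : (y : G) = a * g * a⁻¹ := hey
      rw [hey']; group
  · rw [eq_bot_iff]
    rintro g ⟨hg, x, hx, rfl⟩
    have h6 : x ∈ U.subgroupOf V ⊓ W' := ⟨(hmemU x).mpr hg, hx⟩
    rw [h4, Subgroup.mem_bot] at h6
    rw [h6]
    exact Subgroup.one_mem _
  · have h7 := congrArg (Subgroup.map V.subtype) h5
    rw [Subgroup.map_sup, Subgroup.subgroupOf_map_subtype, inf_eq_left.mpr hUV] at h7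
    rw [h7]
    rw [← MonoidHom.range_eq_map, Subgroup.range_subtype]

end Cfsg.Agent.S0660
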