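import Cfsg.Statements.S0661
import Mathlib
import Cfsg.Agent.Lib.H03.PConstr

set_option autoImplicit false
open Cfsg

namespace Cfsg.Agent.S0661

open Cfsg.Agent.H03

theorem pPrimeCore_eq_ker {G : Type*} [Group G] [Finite G] {p : ℕ} [Fact p.Prime] {X : Type*} [Group X] [Finite X] {f : G →* X}
    (hf : Function.Surjective f) (hker : (Nat.card f.ker).Coprime p) (hX : Cfsg.Agent.H13.IsCharP p X) :
    Cfsg.pPrimeCore p G = f.ker := by
  have hK : (Nat.card (Cfsg.pPrimeCore p G)).Coprime p := Cfsg.Agent.H06.coprime_card_pPrimeCore p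
  have hKn : (Cfsg.pPrimeCore p G).Normal := pPrimeCore_normal'
  have h1 : f.ker ≤ Cfsg.pPrimeCore p G := Cfsg.Agent.H08.le_pPrimeCore inferInstance hker
  have h2 : (Cfsg.pPrimeCore p G).map f ≤ Cfsg.pPrimeCore p X := by
    apply Cfsg.Agent.H08.le_pPrimeCore (hKn.map f hf)
    refine Nat.Coprime.coprime_dvd_left ?_ hK
    exact Subgroup.card_map_dvd _ _
  have h3 : Cfsg.pPrimeCore p G ≤ f.ker := by
    intro x hx
    have := h2 ⟨x, hx, rfl⟩
    rw [pPrimeCore_eq_bot_of_isCharP hX, Subgroup.mem_bot] at this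
    exact this
  exact le_antisymm h3 h1

/-- If, modulo the largest normal subgroup of order prime to p, the largest normal p-subgroup contains its centralizer, then for every p-subgroup P the p'-core of N_G(P) is just O_p'(G) ∩ N_G(P). -/
theorem result {G : Type*} [Group G] [Finite G] {p : ℕ} [Fact p.Prime] (hc : Subgroup.centralizer (Cfsg.pCore p (G ⧸ Cfsg.pPrimeCore p G) : Set (G ⧸ Cfsg.pPrimeCore p G)) ≤ Cfsg.pCore p (G ⧸ Cfsg.pPrimeCore p G)) (P : Subgroup G) (hP : IsPGroup p P) : (Cfsg.pPrimeCore p ↥(Subgroup.normalizer (P : Set G))).map (Subgroup.normalizer (P : Set G)).subtype = Cfsg.pPrimeCore p G ⊓ Subgroup.normalizer (P : Set G) := by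
  classical
  have hK : (Nat.card (Cfsg.pPrimeCore p G)).Coprime p := Cfsg.Agent.H06.coprime_card_pPrimeCore p
  have hKn : (Cfsg.pPrimeCore p G).Normal := pPrimeCore_normal'
  set f := QuotientGroup.mk' (Cfsg.pPrimeCore p G) with hf
  have hfsurj : Function.Surjective f := QuotientGroup.mk'_surjective _
  set Pb := P.map f with hPb
  have hPbp : IsPGroup p Pb := hP.map f
  have hkerrep : ∀ k x : G, k ∈ Cfsg.pPrimeCore p G → f (k⁻¹ * x) = f x := by
    intro k x hk
    have : f k = 1 := (QuotientGroup.eq_one_iff k).mpr hk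
    rw [map_mul, map_inv, this, inv_one, one_mul]
  have hN : (Subgroup.normalizer (P : Set G)).map f = Subgroup.normalizer (Pb : Set (G ⧸ Cfsg.pPrimeCore p G)) := by
    apply le_antisymm
    · rintro _ ⟨n, hn, rfl⟩
      exact mem_normalizer_map f hn
    · intro y hy
      obtain ⟨x, rfl⟩ := hfsurj y
      obtain ⟨k, hk, hn⟩ := exists_normalizer_rep hK hP (map_conj_le_sup_of_mem_normalizer_map hy)
      exact ⟨_, hn, hkerrep k x hk⟩
  have hTop : Cfsg.Agent.H13.IsCharP p ↥(⊤ : Subgroup (G ⧸ Cfsg.pPrimeCore p G)) :=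
    Cfsg.Agent.H13.isCharP_top_iff.mpr hc
  have hcN : Cfsg.Agent.H13.IsCharP p ↥(Subgroup.normalizer (Pb : Set (G ⧸ Cfsg.pPrimeCore p G))) :=
    Cfsg.Agent.H13.isCharP_normalizer hTop le_top hPbp le_top
  set M := Subgroup.normalizer (P : Set G) with hM
  have hcM : Cfsg.Agent.H13.IsCharP p ↥(M.map f) := by
    rw [hN]
    exact hcN
  have hsurj := f.subgroupMap_surjective M
  set A := ((f.subgroupMap M).ker).map M.subtype with hA
  have hAK : A ≤ Cfsg.pPrimeCore p G := by
    rintro _ ⟨x, hx, rfl⟩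
    rw [SetLike.mem_coe, MonoidHom.mem_ker] at hx
    have h' := congrArg Subtype.val hx
    exact (QuotientGroup.eq_one_iff _).mp h'
  have hcard : Nat.card A = Nat.card (f.subgroupMap M).ker :=
    Subgroup.card_map_of_injective M.subtype_injective
  have hker : (Nat.card (f.subgroupMap M).ker).Coprime p := by
    rw [← hcard]
    exact Nat.Coprime.coprime_dvd_left (Subgroup.card_dvd_of_le hAK) hK
  rw [pPrimeCore_eq_ker hsurj hker hcM]
  apply le_antisymm
  · refine le_inf hAK ?_
    rintro _ ⟨x, _, rfl⟩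
    exact x.2
  · intro x hx
    obtain ⟨hx1, hx2⟩ := Subgroup.mem_inf.mp hx
    refine ⟨⟨x, hx2⟩, ?_, rfl⟩
    rw [SetLike.mem_coe, MonoidHom.mem_ker]
    apply Subtype.ext
    exact (QuotientGroup.eq_one_iff _).mpr hx1

end Cfsg.Agent.S0661
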