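import Cfsg.Statements.S0670
import Mathlib
import Cfsg.Agent.Lib.H03.Orbit

set_option autoImplicit false
open Cfsg

namespace Cfsg.Agent.S0670


/-- In characteristic `p`, the permutation module of a transitive action of degree `p ^ f` has the line of constant functions as its only irreducible submodule: every non-zero subrepresentation contains it. -/
theorem result {G : Type*} [Group G] [Finite G] {K : Type*} [Field K] {p f : ℕ} [Fact p.Prime] [CharP K p] {Ω : Type*} [Fintype Ω] [MulAction G Ω] [MulAction.IsPretransitive G Ω] (hf : 1 ≤ f) (hcard : Fintype.card Ω = p ^ f) (W : Subrepresentation (Cfsg.permRep K G Ω)) (hW : W.toSubmodule ≠ ⊥) : (Cfsg.permConstants K G Ω).toSubmodule ≤ W.toSubmodule := by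
  classical
  have hpK : ∀ m : Ω → K, p • m = 0 := by
    intro m
    funext x
    simp [nsmul_eq_mul, CharP.cast_eq_zero K p]
  obtain ⟨P⟩ : Nonempty (Sylow p G) := inferInstance
  have htr : MulAction.IsPretransitive P Ω :=
    Cfsg.Agent.H03.isPretransitive_sylow f (by rw [Nat.card_eq_fintype_card, hcard]) P
  let _ : DistribMulAction P (Ω → K) :=
    { smul := fun g v => Cfsg.permRep K G Ω (g : G) v
      one_smul := fun v => by
        change Cfsg.permRep K G Ω ((1 : P) : G) v = v
        simp
      mul_smul := fun g h v => by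
        change Cfsg.permRep K G Ω (((g * h : P)) : G) v = Cfsg.permRep K G Ω (g : G) (Cfsg.permRep K G Ω (h : G) v)
        simp
      smul_zero := fun g => by
        change Cfsg.permRep K G Ω (g : G) 0 = 0
        simp
      smul_add := fun g v w => by
        change Cfsg.permRep K G Ω (g : G) (v + w) = Cfsg.permRep K G Ω (g : G) v + Cfsg.permRep K G Ω (g : G) w
        simp }
  have hsm : ∀ (g : P) (v : Ω → K), g • v = Cfsg.permRep K G Ω (g : G) v := fun _ _ => rfl
  obtain ⟨v, hvW, hv⟩ : ∃ v ∈ W.toSubmodule, v ≠ 0 := by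
    by_contra h
    push Not at h
    apply hW
    rw [eq_bot_iff]
    intro x hx
    exact h x hx
  obtain ⟨u, huA, hu0, hufix⟩ := Cfsg.Agent.H03.exists_fixed_of_pgroup P.isPGroup' hpK v hv
  have huW : u ∈ W.toSubmodule := by
    have hle : AddSubgroup.closure (Set.range fun g : P => g • v) ≤ W.toSubmodule.toAddSubgroup := by
      rw [AddSubgroup.closure_le]
      rintro _ ⟨g, rfl⟩
      exact W.apply_mem_toSubmodule (g : G) hvW
    exact hle huA
  -- `u` is constant
  have hconst : ∀ x y : Ω, u x = u y := by
    intro x y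
    obtain ⟨g, hg⟩ := MulAction.exists_smul_eq P y x
    have h1 := congrFun (hufix g) x
    rw [hsm] at h1
    have h2 : Cfsg.permRep K G Ω (g : G) u x = u ((g : G)⁻¹ • x) := rfl
    rw [h2] at h1
    have h3 : (g : G)⁻¹ • x = y := by
      rw [← hg]
      change (g : G)⁻¹ • ((g : G) • y) = y
      simp
    rw [h3] at h1
    exact h1.symm
  obtain ⟨x₀, hx₀⟩ : ∃ x, u x ≠ 0 := by
    by_contra h
    push Not at h
    exact hu0 (funext h)
  have hone : (fun _ : Ω => (1 : K)) ∈ W.toSubmodule := by
    have : (fun _ : Ω => (1 : K)) = (u x₀)⁻¹ • u := by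
      funext x
      simp only [Pi.smul_apply, smul_eq_mul]
      rw [hconst x x₀, inv_mul_cancel₀ hx₀]
    rw [this]
    exact W.toSubmodule.smul_mem _ huW
  change Submodule.span K {fun _ : Ω => (1 : K)} ≤ W.toSubmodule
  rw [Submodule.span_le]
  rintro _ rfl
  exact hone

end Cfsg.Agent.S0670
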