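import Cfsg.Statements.S0680
import Mathlib
import Cfsg.Agent.Lib.H03.Sharp2

set_option autoImplicit false
open Cfsg

namespace Cfsg.Agent.S0680


/-- A finite sharply doubly transitive permutation group has degree a prime power `p ^ j`; a Sylow `p`-subgroup is normal, elementary abelian and regular, and consists of the identity together with the elements without fixed points. (Frobenius' Theorem is not needed.) -/
theorem result {α : Type*} [Fintype α] [DecidableEq α] (G : Subgroup (Equiv.Perm α)) [MulAction.IsMultiplyPretransitive G α 2] (hsharp : ∀ x : Fin 2 ↪ α, MulAction.stabilizer G x = ⊥) (h2 : 2 ≤ Fintype.card α) : ∃ p j : ℕ, p.Prime ∧ 1 ≤ j ∧ Fintype.card α = p ^ j ∧ ∀ (hp : Fact p.Prime) (P : Sylow p G), (P : Subgroup G).Normal ∧ IsMulCommutative (P : Subgroup G) ∧ (∀ x ∈ (P : Subgroup G), x ^ p = 1) ∧ MulAction.IsPretransitive (P : Subgroup G) α ∧ (∀ a : α, MulAction.stabilizer (P : Subgroup G) a = ⊥) ∧ ∀ g : G, g ∈ (P : Subgroup G) ↔ g = 1 ∨ ∀ a : α, g • a ≠ a := by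
  classical
  obtain ⟨P, p, j, hp, hj1, hcard, hnorm, hcomm, hexp, htr, hstab, hmem, hG⟩ :=
    Cfsg.Agent.H03.sharp2_structure G hsharp h2
  refine ⟨p, j, hp, hj1, hcard, ?_⟩
  intro hF Q
  have hPp : IsPGroup p P := by
    intro m
    refine ⟨1, ?_⟩
    apply Subtype.ext
    simpa using hexp m m.2
  have hcP : Nat.card P = Fintype.card α := by
    have hb : Function.Bijective (fun m : P => m • (Classical.choice (Fintype.card_pos_iff.mp (by omega : 0 < Fintype.card α)) : α)) := by
      constructor
      · intro m m' h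
        have h' : m • _ = m' • _ := h
        have h1 : m'⁻¹ * m ∈ MulAction.stabilizer P (Classical.choice (Fintype.card_pos_iff.mp (by omega : 0 < Fintype.card α)) : α) := by
          rw [MulAction.mem_stabilizer_iff, mul_smul, h', inv_smul_smul]
        rw [hstab, Subgroup.mem_bot] at h1
        have h3 := congrArg (m' * ·) h1
        simpa using h3
      · intro y
        exact MulAction.exists_smul_eq P _ y
    rw [Nat.card_eq_of_bijective _ hb, Nat.card_eq_fintype_card]
  have hidx : ¬ p ∣ P.index := by
    have h3 := Subgroup.card_mul_index P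
    rw [hcP, hG] at h3
    have hpos : 0 < Fintype.card α := by omega
    have h4 : P.index = Fintype.card α - 1 := by
      exact (Nat.eq_of_mul_eq_mul_left hpos h3)
    rw [h4, hcard]
    intro hd
    have hd2 : p ∣ p ^ j := dvd_pow_self p (by omega)
    have h5 : p ^ j - 1 + 1 = p ^ j := Nat.sub_add_cancel (Nat.one_le_pow _ _ hp.pos)
    have h6 : p ∣ 1 := by
      have := (Nat.dvd_add_right hd).mp (h5 ▸ hd2)
      exact this
    exact hp.one_lt.ne' (Nat.dvd_one.mp h6)
  let S : Sylow p G := hPp.toSylow hidx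
  have hSn : (S : Subgroup G).Normal := hnorm
  have hu := Sylow.unique_of_normal S hSn
  have hQ : Q = S := Subsingleton.elim _ _
  have hQP : (Q : Subgroup G) = P := by rw [hQ]; rfl
  rw [hQP]
  exact ⟨hnorm, ⟨⟨fun x y => Subtype.ext (hcomm _ x.2 _ y.2)⟩⟩, hexp, htr, hstab, hmem⟩

end Cfsg.Agent.S0680
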