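import Cfsg.Statements.S0681
import Mathlib

set_option autoImplicit false
open Cfsg

namespace Cfsg.Agent.S0681

variable {F : Type*} [Cfsg.NearField F]

theorem nf_zero_mul (a : F) : (0 : F) * a = 0 := by
  have h := Cfsg.NearField.right_distrib (0 : F) 0 a
  rw [add_zero] at h
  exact left_eq_add.mp h

theorem nf_neg_mul (x a : F) : (-x) * a = -(x * a) := by
  have h := Cfsg.NearField.right_distrib (-x) x a
  rw [neg_add_cancel, nf_zero_mul] at h
  exact eq_neg_of_add_eq_zero_left h.symm

theorem nf_mul_ne_zero {a b : F} (ha : a ≠ 0) (hb : b ≠ 0) : a * b ≠ 0 := by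
  intro h
  obtain ⟨b', hb1, _⟩ := Cfsg.NearField.exists_inv b hb
  apply ha
  have h1 : a * b * b' = a := by rw [mul_assoc, hb1, mul_one]
  rw [← h1, h, nf_zero_mul]

theorem nf_inv_ne_zero {a b : F} (h : a * b = 1) : b ≠ 0 := by
  rintro rfl
  rw [Cfsg.NearField.mul_zero] at h
  exact Cfsg.NearField.zero_ne_one h

/-- The affine permutation `x ↦ x * m + t`. -/
noncomputable def aff (m t : F) (hm : m ≠ 0) : Equiv.Perm F :=
  { toFun := fun x => x * m + t
    invFun := fun y => (y + -t) * Classical.choose (Cfsg.NearField.exists_inv m hm)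
    left_inv := by
      intro x
      have h := Classical.choose_spec (Cfsg.NearField.exists_inv m hm)
      simp only
      rw [add_neg_cancel_right, mul_assoc, h.1, mul_one]
    right_inv := by
      intro y
      have h := Classical.choose_spec (Cfsg.NearField.exists_inv m hm)
      simp only
      rw [mul_assoc, h.2, mul_one, neg_add_cancel_right] }

theorem aff_apply (m t : F) (hm : m ≠ 0) (x : F) : aff m t hm x = x * m + t := rfl

/-- The affine group as a subgroup of permutations. -/
noncomputable def affGroup (F : Type*) [Cfsg.NearField F] : Subgroup (Equiv.Perm F) where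
  carrier := {σ | ∃ a b : F, a ≠ 0 ∧ ∀ x : F, σ x = x * a + b}
  mul_mem' := by
    rintro σ τ ⟨a, b, ha, hσ⟩ ⟨c, d, hc, hτ⟩
    refine ⟨c * a, d * a + b, nf_mul_ne_zero hc ha, fun x => ?_⟩
    change σ (τ x) = _
    rw [hτ, hσ, Cfsg.NearField.right_distrib, mul_assoc, add_assoc]
  one_mem' := ⟨1, 0, (Cfsg.NearField.zero_ne_one).symm, fun x => by simp⟩
  inv_mem' := by
    rintro σ ⟨a, b, ha, hσ⟩
    obtain ⟨a', h1, h2⟩ := Cfsg.NearField.exists_inv a ha
    refine ⟨a', (-b) * a', nf_inv_ne_zero h1, fun x => ?_⟩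
    rw [Equiv.Perm.inv_eq_iff_eq, hσ, ← Cfsg.NearField.right_distrib, mul_assoc, h2, mul_one, neg_add_cancel_right]

/-- The affine maps `x ↦ x * a + b`, `a ≠ 0`, of a near-field form a sharply doubly transitive permutation group. -/
theorem result {F : Type*} [Cfsg.NearField F] : ∃ H : Subgroup (Equiv.Perm F), (∀ σ : Equiv.Perm F, σ ∈ H ↔ ∃ a b : F, a ≠ 0 ∧ ∀ x : F, σ x = x * a + b) ∧ MulAction.IsMultiplyPretransitive H F 2 ∧ ∀ x : Fin 2 ↪ F, MulAction.stabilizer H x = ⊥ := by
  classical
  refine ⟨affGroup F, fun σ => Iff.rfl, ?_, ?_⟩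
  · rw [MulAction.is_two_pretransitive_iff]
    intro a b c d hab hcd
    have hu : b + -a ≠ 0 := by
      intro h
      apply hab
      have := eq_neg_of_add_eq_zero_left h
      rw [neg_neg] at this
      exact this.symm
    have hw : d + -c ≠ 0 := by
      intro h
      apply hcd
      have := eq_neg_of_add_eq_zero_left h
      rw [neg_neg] at this
      exact this.symm
    obtain ⟨u', hu1, hu2⟩ := Cfsg.NearField.exists_inv (b + -a) hu
    have hu'0 := nf_inv_ne_zero hu1
    set m := u' * (d + -c) with hm
    have hm0 : m ≠ 0 := nf_mul_ne_zero hu'0 hw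
    set t := -(a * m) + c with ht
    refine ⟨⟨aff m t hm0, m, t, hm0, fun x => rfl⟩, ?_, ?_⟩
    · change a * m + t = c
      rw [ht, ← add_assoc, add_neg_cancel, zero_add]
    · change b * m + t = d
      have h1 : (b + -a) * m = d + -c := by
        rw [hm, ← mul_assoc, hu1, one_mul]
      rw [Cfsg.NearField.right_distrib, nf_neg_mul] at h1
      rw [ht, ← add_assoc, h1, neg_add_cancel_right]
  · intro x
    rw [eq_bot_iff]
    rintro ⟨σ, a, b, ha, hσ⟩ hg
    rw [Subgroup.mem_bot]
    have hx : ∀ i, σ (x i) = x i := by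
      intro i
      have := congrArg (fun f : Fin 2 ↪ F => f i) (MulAction.mem_stabilizer_iff.mp hg)
      exact this
    have h0 := hx 0
    have h1 := hx 1
    rw [hσ] at h0 h1
    have hne : x 1 + -(x 0) ≠ 0 := by
      intro h
      have := eq_neg_of_add_eq_zero_left h
      rw [neg_neg] at this
      have := x.injective this
      simp at this
    have hmul : (x 1 + -(x 0)) * a = x 1 + -(x 0) := by
      rw [Cfsg.NearField.right_distrib, nf_neg_mul]
      have e0 : x 0 * a = x 0 + -b := eq_add_neg_of_add_eq h0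
      have e1 : x 1 * a = x 1 + -b := eq_add_neg_of_add_eq h1
      rw [e0, e1, neg_add_rev, neg_neg, add_assoc, neg_add_cancel_left]
    obtain ⟨u', hu1, hu2⟩ := Cfsg.NearField.exists_inv _ hne
    have ha1 : a = 1 := by
      have := congrArg (fun y => u' * y) hmul
      simp only [← mul_assoc, hu2] at this
      simpa using this
    have hb : b = 0 := by
      rw [ha1, mul_one] at h0
      exact left_eq_add.mp h0.symm
    apply Subtype.ext
    apply Equiv.ext
    intro y
    rw [hσ, ha1, hb, mul_one, add_zero]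
    rfl

end Cfsg.Agent.S0681
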