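import Cfsg.Statements.S0682
import Mathlib
import Cfsg.Agent.Lib.H03.Sharp2
import Cfsg.Agent.S0681

set_option autoImplicit false
open Cfsg

namespace Cfsg.Agent.S0682


/-- A finite near-field has prime-power order; its additive group is commutative of prime exponent. -/
theorem result {F : Type*} [Cfsg.NearField F] [Finite F] : ∃ p j : ℕ, p.Prime ∧ 1 ≤ j ∧ Nat.card F = p ^ j ∧ (∀ x y : F, x + y = y + x) ∧ ∀ x : F, p • x = 0 := by
  classical
  obtain ⟨H, hmem, h2, hs⟩ := Cfsg.Agent.S0681.result (F := F)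
  have : Fintype F := Fintype.ofFinite F
  have h2c : 2 ≤ Fintype.card F := by
    have : Nontrivial F := ⟨⟨0, 1, Cfsg.NearField.zero_ne_one⟩⟩
    exact Fintype.one_lt_card
  obtain ⟨P, p, j, hp, hj, hcard, hPn, hcomm, hexp, htr, hst, hfpf, -⟩ :=
    Cfsg.Agent.H03.sharp2_structure (G := H) (α := F) hs h2c
  -- translations
  have htr_mem : ∀ b : F, ∃ g : H, g ∈ P ∧ ∀ x : F, g • x = x + b := by
    intro b
    have hmem' : ∃ σ : Equiv.Perm F, σ ∈ H ∧ ∀ x : F, σ x = x + b := by
      refine ⟨⟨fun x => x + b, fun x => x + -b, fun x => by simp, fun x => by simp⟩, ?_, fun x => rfl⟩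
      rw [hmem]
      exact ⟨1, b, (Cfsg.NearField.zero_ne_one).symm, fun x => by simp⟩
    obtain ⟨σ, hσ, hx⟩ := hmem'
    refine ⟨⟨σ, hσ⟩, ?_, hx⟩
    rw [hfpf]
    by_cases hb : b = 0
    · left
      apply Subtype.ext
      apply Equiv.ext
      intro y
      change σ y = y
      rw [hx, hb, add_zero]
    · right
      intro a ha
      apply hb
      have h' : σ a = a := ha
      rw [hx] at h'
      exact left_eq_add.mp h'.symm
  refine ⟨p, j, hp, hj, by rw [Nat.card_eq_fintype_card, hcard], ?_, ?_⟩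
  · intro x y
    obtain ⟨g, hg, hgx⟩ := htr_mem x
    obtain ⟨h, hh, hhx⟩ := htr_mem y
    have := hcomm g hg h hh
    have h1 := congrArg (fun k : H => k • (0 : F)) this
    simp only [mul_smul, hgx, hhx, zero_add] at h1
    exact h1.symm
  · intro x
    obtain ⟨g, hg, hgx⟩ := htr_mem x
    have h1 : ∀ n : ℕ, (g ^ n) • (0 : F) = n • x := by
      intro n
      induction n with
      | zero => simp
      | succ n ih =>
        rw [pow_succ', mul_smul, hgx, ih, succ_nsmul]
    have := h1 p
    rw [hexp g hg, one_smul] at this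
    exact this.symm

end Cfsg.Agent.S0682
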