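import Cfsg.Statements.S0683
import Mathlib
import Cfsg.Agent.Lib.H03.Sharp2

set_option autoImplicit false
open Cfsg

namespace Cfsg.Agent.S0683


/-- A finite sharply doubly transitive permutation group is the affine group of a near-field: the permuted set carries a near-field structure for which the group consists exactly of the maps `x ↦ x * a + b` with `a ≠ 0`. -/
theorem result {α : Type*} [Fintype α] [DecidableEq α] (H : Subgroup (Equiv.Perm α)) [MulAction.IsMultiplyPretransitive H α 2] (hsharp : ∀ x : Fin 2 ↪ α, MulAction.stabilizer H x = ⊥) (h2 : 2 ≤ Fintype.card α) : ∃ _ : Cfsg.NearField α, ∀ σ : Equiv.Perm α, σ ∈ H ↔ ∃ a b : α, a ≠ 0 ∧ ∀ x : α, σ x = x * a + b := by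
  classical
  obtain ⟨P, p, j, hp, hj1, hcard, hnorm, hcomm, hexp, htr, hstab, hmem, hG⟩ :=
    Cfsg.Agent.H03.sharp2_structure H hsharp h2
  have : Nontrivial α := Fintype.one_lt_card_iff_nontrivial.mp (by omega)
  obtain ⟨o, e, hoe⟩ := exists_pair_ne α
  have h2t : ∀ {a b c d : α}, a ≠ b → c ≠ d → ∃ g : H, g • a = c ∧ g • b = d :=
    MulAction.is_two_pretransitive_iff.mp inferInstance
  have huniqH : ∀ (g g' : H) (a b : α), a ≠ b → g • a = g' • a → g • b = g' • b → g = g' := by
    intro g g' a b hab h1 h2'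
    have h3 : g'⁻¹ * g ∈ MulAction.stabilizer H (Function.Embedding.embFinTwo hab : Fin 2 ↪ α) := by
      rw [MulAction.mem_stabilizer_iff]
      ext i
      fin_cases i
      · change (g'⁻¹ * g) • a = a
        rw [mul_smul, h1, inv_smul_smul]
      · change (g'⁻¹ * g) • b = b
        rw [mul_smul, h2', inv_smul_smul]
    rw [hsharp, Subgroup.mem_bot] at h3
    have h4 := congrArg (g' * ·) h3
    simpa using h4
  have huniqP : ∀ (m m' : P) (x : α), m • x = m' • x → m = m' := by
    intro m m' x h
    have h1 : m'⁻¹ * m ∈ MulAction.stabilizer P x := by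
      rw [MulAction.mem_stabilizer_iff, mul_smul, h, inv_smul_smul]
    rw [hstab, Subgroup.mem_bot] at h1
    have h3 := congrArg (m' * ·) h1
    simpa using h3
  choose τ hτ using fun x : α => MulAction.exists_smul_eq P o x
  have hμex : ∀ a : α, ∃ g : H, a ≠ o → g • o = o ∧ g • e = a := by
    intro a
    by_cases ha : a = o
    · exact ⟨1, fun h => absurd ha h⟩
    · obtain ⟨g, h1, h3⟩ := h2t hoe (Ne.symm ha)
      exact ⟨g, fun _ => ⟨h1, h3⟩⟩
  choose μ hμ using hμex
  have τmul : ∀ x y : α, τ (τ x • y) = τ x * τ y := by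
    intro x y
    apply huniqP _ _ o
    rw [hτ, mul_smul, hτ]
  have τo : τ o = 1 := by
    apply huniqP _ _ o
    rw [hτ, one_smul]
  have addcomm : ∀ x y : α, τ x • y = τ y • x := by
    intro x y
    have h1 : τ x * τ y = τ y * τ x := Subtype.ext (hcomm _ (τ x).2 _ (τ y).2)
    calc τ x • y = τ x • (τ y • o) := by rw [hτ]
      _ = (τ x * τ y) • o := (mul_smul _ _ _).symm
      _ = (τ y * τ x) • o := by rw [h1]
      _ = τ y • (τ x • o) := mul_smul _ _ _
      _ = τ y • x := by rw [hτ]
  have τneg : ∀ x : α, τ ((τ x)⁻¹ • o) = (τ x)⁻¹ := by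
    intro x
    apply huniqP _ _ o
    rw [hτ]
  have μe : μ e = 1 := by
    apply huniqH _ _ o e hoe
    · rw [(hμ e (Ne.symm hoe)).1, one_smul]
    · rw [(hμ e (Ne.symm hoe)).2, one_smul]
  have μne : ∀ a b : α, a ≠ o → b ≠ o → μ b • a ≠ o := by
    intro a b ha hb h
    apply ha
    have h1 := (hμ b hb).1
    exact smul_left_cancel (μ b) (h.trans h1.symm)
  have μmul : ∀ a b : α, a ≠ o → b ≠ o → μ (μ b • a) = μ b * μ a := by
    intro a b ha hb
    have h1 := μne a b ha hb
    apply huniqH _ _ o e hoe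
    · rw [(hμ _ h1).1, mul_smul, (hμ a ha).1, (hμ b hb).1]
    · rw [(hμ _ h1).2, mul_smul, (hμ a ha).2]
  have τconj : ∀ (g : H) (x y : α), g • o = o → g • (τ x • y) = τ (g • x) • (g • y) := by
    intro g x y hg
    have hm : g * (τ x : H) * g⁻¹ ∈ P := hnorm.conj_mem _ (τ x).2 g
    have h1 : (⟨g * (τ x : H) * g⁻¹, hm⟩ : P) = τ (g • x) := by
      apply huniqP _ _ o
      rw [hτ]
      change (g * (τ x : H) * g⁻¹) • o = g • x
      rw [mul_smul, mul_smul]
      have h3 : g⁻¹ • o = o := by
        rw [inv_smul_eq_iff, hg]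
      rw [h3]
      congr 1
      exact hτ x
    rw [← h1]
    change g • (τ x • y) = (g * (τ x : H) * g⁻¹) • (g • y)
    rw [mul_smul, mul_smul, inv_smul_smul]
    rfl
  let addF : α → α → α := fun x y => τ x • y
  let mulF : α → α → α := fun x a => if a = o then o else μ a • x
  have mulF_ne : ∀ x a : α, a ≠ o → mulF x a = μ a • x := fun x a ha => if_neg ha
  have mulF_o : ∀ x : α, mulF x o = o := fun x => if_pos rfl
  have o_mul : ∀ a : α, mulF o a = o := by
    intro a
    by_cases ha : a = o
    · rw [ha, mulF_o]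
    · rw [mulF_ne _ _ ha]
      exact (hμ a ha).1
  let addI : Add α := ⟨addF⟩
  let zeroI : Zero α := ⟨o⟩
  let negI : Neg α := ⟨fun x => (τ x)⁻¹ • o⟩
  let ag : AddGroup α := AddGroup.ofLeftAxioms
    (by
      intro x y z
      change τ (τ x • y) • z = τ x • (τ y • z)
      rw [τmul, mul_smul])
    (by
      intro x
      change τ o • x = x
      rw [τo, one_smul])
    (by
      intro x
      change τ ((τ x)⁻¹ • o) • x = o
      rw [τneg, inv_smul_eq_iff, hτ])
  let mo : Monoid α :=
    { mul := mulF
      mul_assoc := by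
        intro x a b
        change mulF (mulF x a) b = mulF x (mulF a b)
        by_cases hb : b = o
        · rw [hb, mulF_o, mulF_o, mulF_o]
        by_cases ha : a = o
        · rw [ha, mulF_o, o_mul, mulF_o]
        · rw [mulF_ne _ _ hb, mulF_ne _ _ ha, mulF_ne _ _ hb, mulF_ne _ _ (μne a b ha hb), μmul a b ha hb, mul_smul]
      one := e
      one_mul := by
        intro a
        change mulF e a = a
        by_cases ha : a = o
        · rw [ha, mulF_o]
        · rw [mulF_ne _ _ ha]
          exact (hμ a ha).2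
      mul_one := by
        intro x
        change mulF x e = x
        rw [mulF_ne _ _ (Ne.symm hoe), μe, one_smul] }
  let inst : Cfsg.NearField α :=
    { ag, mo with
      right_distrib := by
        intro a b c
        change mulF (τ a • b) c = τ (mulF a c) • mulF b c
        by_cases hc : c = o
        · rw [hc, mulF_o, mulF_o, mulF_o]
          exact (hτ o).symm
        · rw [mulF_ne _ _ hc, mulF_ne _ _ hc, mulF_ne _ _ hc]
          exact τconj _ _ _ (hμ c hc).1
      mul_zero := fun a => mulF_o a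
      zero_ne_one := hoe
      exists_inv := by
        intro a ha
        have ha' : a ≠ o := ha
        have hbne : (μ a)⁻¹ • e ≠ o := by
          intro h
          apply Ne.symm hoe
          have h1 : e = μ a • o := by
            rw [← h, smul_inv_smul]
          rw [h1]
          exact (hμ a ha').1
        have hμb : μ ((μ a)⁻¹ • e) = (μ a)⁻¹ := by
          apply huniqH _ _ o e hoe
          · rw [(hμ _ hbne).1, eq_comm, inv_smul_eq_iff]
            exact (hμ a ha').1.symm
          · rw [(hμ _ hbne).2]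
        refine ⟨(μ a)⁻¹ • e, ?_, ?_⟩
        · change mulF a ((μ a)⁻¹ • e) = e
          rw [mulF_ne _ _ hbne, hμb, inv_smul_eq_iff]
          exact (hμ a ha').2.symm
        · change mulF ((μ a)⁻¹ • e) a = e
          rw [mulF_ne _ _ ha', smul_inv_smul] }
  refine ⟨inst, ?_⟩
  intro σ
  change σ ∈ H ↔ ∃ a b : α, a ≠ o ∧ ∀ x : α, σ x = τ (mulF x a) • b
  constructor
  · intro hσ
    let g : H := (τ (σ o) : H)⁻¹ * ⟨σ, hσ⟩
    have hgo : g • o = o := by
      change (τ (σ o) : H)⁻¹ • (σ o) = o
      rw [inv_smul_eq_iff]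
      exact (hτ (σ o)).symm
    have hgσ : ∀ x, σ x = τ (σ o) • (g • x) := by
      intro x
      change σ x = (τ (σ o) : H) • ((τ (σ o) : H)⁻¹ • (σ x))
      rw [smul_inv_smul]
    have hge : g • e ≠ o := by
      intro h
      exact hoe (smul_left_cancel g (hgo.trans h.symm))
    have hμg : μ (g • e) = g := by
      apply huniqH _ _ o e hoe
      · rw [(hμ _ hge).1, hgo]
      · rw [(hμ _ hge).2]
    refine ⟨g • e, σ o, hge, ?_⟩
    intro x
    rw [mulF_ne _ _ hge, hμg, addcomm]
    exact hgσ x
  · rintro ⟨a, b, ha, h⟩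
    have h1 : σ = ((τ b : H) * μ a : H) := by
      ext x
      rw [h x, mulF_ne _ _ ha, addcomm]
      rfl
    rw [h1]
    exact ((τ b : H) * μ a).2

end Cfsg.Agent.S0683
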