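import Cfsg.Statements.S0687
import Mathlib
import Cfsg.Agent.Lib.H03.NF

set_option autoImplicit false
open Cfsg

namespace Cfsg.Agent.S0687

open Cfsg.Agent.H03.NF


/-- In a linear group over the prime field that is regular on non-zero vectors and has no irreducible cyclic normal subgroup, a normal subgroup `N` minimal among the non-abelian normal subgroups centralising a maximal normal abelian subgroup `A` is irreducible on `V`, and its centraliser is `A`. -/
theorem result {p : ℕ} [Fact p.Prime] {V : Type*} [AddCommGroup V] [Module (ZMod p) V] [Finite V] (H : Subgroup (V ≃ₗ[ZMod p] V)) (hreg : ∀ v w : V, v ≠ 0 → w ≠ 0 → ∃! h : H, (h : V ≃ₗ[ZMod p] V) v = w) (hI : ∀ A : Subgroup H, A.Normal → IsCyclic A → ∃ W : Submodule (ZMod p) V, W ≠ ⊥ ∧ W ≠ ⊤ ∧ ∀ a ∈ A, ∀ v ∈ W, ((a : H) : V ≃ₗ[ZMod p] V) v ∈ W) (A : Subgroup H) (hAn : A.Normal) (hAc : IsMulCommutative A) (hAmax : ∀ B : Subgroup H, B.Normal → IsMulCommutative B → A ≤ B → B = A) (N : Subgroup H) (hNn :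 N.Normal) (hNle : N ≤ Subgroup.centralizer (A : Set H)) (hNna : ¬ IsMulCommutative N) (hNmin : ∀ M : Subgroup H, M.Normal → M ≤ N → ¬ IsMulCommutative M → M = N) : (∀ W : Submodule (ZMod p) V, (∀ n ∈ N, ∀ v ∈ W, ((n : H) : V ≃ₗ[ZMod p] V) v ∈ W) → W = ⊥ ∨ W = ⊤) ∧ Subgroup.centralizer (N : Set H) = A := by
  classical
  have hna : ¬ ∀ a ∈ N, ∀ b ∈ N, a * b = b * a := by
    intro h
    exact hNna ⟨⟨fun a b => Subtype.ext (h a.1 a.2 b.1 b.2)⟩⟩
  have hV : Nontrivial V := by
    by_contra hcon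
    rw [not_nontrivial_iff_subsingleton] at hcon
    apply hna
    intro a _ b _
    apply iota_inj H
    ext v
    exact Subsingleton.elim _ _
  refine ⟨fun W hW => irreducible_of_noncomm H hreg N hNn hna W hW, ?_⟩
  have hle : A ≤ Subgroup.centralizer (N : Set H) := by
    rw [← SetLike.coe_subset_coe] at hNle ⊢
    intro a ha
    rw [SetLike.mem_coe, Subgroup.mem_centralizer_iff]
    intro n hn
    exact ((Subgroup.mem_centralizer_iff.1 (hNle hn)) a ha).symm
  have hCcomm := centralizer_comm H hreg N hNn hna hV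
  haveI := hNn
  exact hAmax _ Subgroup.normal_centralizer
    ⟨⟨fun a b => Subtype.ext (hCcomm a.1 a.2 b.1 b.2)⟩⟩ hle

end Cfsg.Agent.S0687
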