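import Cfsg.Statements.S0688
import Mathlib
import Cfsg.Agent.Lib.H03.NF3

set_option autoImplicit false
open Cfsg

namespace Cfsg.Agent.S0688

open Cfsg.Agent.H03.NF QuaternionGroup

lemma zmod3_aux : ∀ c : ZMod 3, c * c + 1 ≠ 0 := by decide


set_option maxHeartbeats 4000000 in
/-- Degrees of the soluble exceptional sharply doubly transitive groups: if a solvable linear group over the prime field is regular on the non-zero vectors of `V` and has no irreducible cyclic normal subgroup, then `V` has 25, 49, 121 or 529 elements. -/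
theorem result {p : ℕ} [Fact p.Prime] {V : Type*} [AddCommGroup V] [Module (ZMod p) V] [Finite V] (H : Subgroup (V ≃ₗ[ZMod p] V)) (hreg : ∀ v w : V, v ≠ 0 → w ≠ 0 → ∃! h : H, (h : V ≃ₗ[ZMod p] V) v = w) (hI : ∀ A : Subgroup H, A.Normal → IsCyclic A → ∃ W : Submodule (ZMod p) V, W ≠ ⊥ ∧ W ≠ ⊤ ∧ ∀ a ∈ A, ∀ v ∈ W, ((a : H) : V ≃ₗ[ZMod p] V) v ∈ W) (hsolv : Group.IsSolvable H) : Nat.card V = 25 ∨ Nat.card V = 49 ∨ Nat.card V = 121 ∨ Nat.card V = 529 := by
  classical
  have hp : p.Prime := Fact.out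
  obtain ⟨W₀, hW₀, -, -⟩ := hI ⊥ inferInstance inferInstance
  haveI hV : Nontrivial V := by
    obtain ⟨w, -, hw⟩ := Submodule.exists_mem_ne_zero_of_ne_bot hW₀
    exact ⟨⟨w, 0, hw⟩⟩
  have hcardH := card_H H hreg
  have hS : Set.Finite {B : Subgroup H | B.Normal ∧ ∀ a ∈ B, ∀ b ∈ B, a * b = b * a} := Set.toFinite _
  obtain ⟨A, ⟨hAn, hAc⟩, hAmax⟩ := hS.exists_maximal ⟨⊥, inferInstance, by
    intro a ha b hb
    rw [Subgroup.mem_bot] at ha hb
    rw [ha, hb]⟩
  haveI := hAn
  obtain ⟨hAcyc, hAdvd⟩ := cyclic_of_normal_comm H hreg A hAn hAc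
  obtain ⟨W, hW1, hW2, hWinv⟩ := hI A hAn hAcyc
  obtain ⟨x₀, hx₀W, hx₀⟩ := Submodule.exists_mem_ne_zero_of_ne_bot hW1
  obtain ⟨y₀, hy₀⟩ : ∃ y, y ∉ W := by
    by_contra hcon
    push Not at hcon
    exact hW2 (Submodule.eq_top_iff'.2 hcon)
  have hy₀0 : y₀ ≠ 0 := by
    rintro rfl
    exact hy₀ W.zero_mem
  have hrange := range_le H A W hWinv hx₀W
  have hQ2 := card_alg_sq_le H hreg A hAn hAc hx₀ hy₀0 (fun h => hy₀ (hrange h))
  haveI hEnd : Finite (Module.End (ZMod p) V) :=
    Finite.of_injective (fun f : Module.End (ZMod p) V => (f : V → V)) DFunLike.coe_injective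
  have hQp : p ≤ Nat.card (alg H A) := by
    have hne : (0 : alg H A) ≠ 1 := by
      intro h0
      have h1 := congrArg (fun r : alg H A => (r : Module.End (ZMod p) V) x₀) h0
      exact hx₀ h1.symm
    haveI : Nontrivial (alg H A) := ⟨⟨0, 1, hne⟩⟩
    have h1 := Nat.card_le_card_of_injective (algebraMap (ZMod p) (alg H A))
      (algebraMap (ZMod p) (alg H A)).injective
    rwa [Nat.card_zmod] at h1
  obtain ⟨Q, hQ⟩ : ∃ Q, Q = Nat.card (alg H A) := ⟨_, rfl⟩
  rw [← hQ] at hQ2 hQp hAdvd
  have hQ2' : 2 ≤ Q := hp.two_le.trans hQp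
  have hApos : 0 < Nat.card A := Nat.card_pos
  have hAle : Nat.card A ≤ Q - 1 := Nat.le_of_dvd (by omega) hAdvd
  -- the centraliser of `A` is not abelian
  have hCn : (Subgroup.centralizer (A : Set H)).Normal := Subgroup.normal_centralizer
  have hAC : A ≤ Subgroup.centralizer (A : Set H) := by
    intro a ha
    rw [Subgroup.mem_centralizer_iff]
    intro b hb
    exact hAc b hb a ha
  have hcardker : ∀ {M : Subgroup H} [M.Normal] (_ : Subgroup.centralizer (M : Set H) = A),
      Nat.card A * Nat.card (MulAut.conjNormal (H := M)).range = Nat.card H := by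
    intro M _ hM
    have hker : (MulAut.conjNormal (H := M)).ker = A := by
      rw [← hM]
      ext x
      rw [MonoidHom.mem_ker, Subgroup.mem_centralizer_iff]
      constructor
      · intro h m hm
        have h1 := congrArg (fun f : MulAut M => ((f ⟨m, hm⟩ : M) : H)) h
        have h2 : x * m * x⁻¹ = m := h1
        calc m * x = (x * m * x⁻¹) * x := by rw [h2]
          _ = x * m := by group
      · intro h
        apply MulEquiv.ext
        intro m
        apply Subtype.ext
        have h2 := h m.1 m.2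
        show x * m.1 * x⁻¹ = m.1
        rw [← h2]
        group
    have h1 := Subgroup.card_mul_index (MulAut.conjNormal (H := M)).ker
    rw [Subgroup.index_ker, hker] at h1
    exact h1
  have hCA : ¬ ∀ a ∈ Subgroup.centralizer (A : Set H), ∀ b ∈ Subgroup.centralizer (A : Set H), a * b = b * a := by
    intro hcomm
    have hle := hAmax ⟨hCn, hcomm⟩ hAC
    have h1 := hcardker (M := A) (le_antisymm hle hAC)
    have h2 : Nat.card (MulAut.conjNormal (H := A)).range ≤ Nat.card A :=
      (Subgroup.card_le_card_group _).trans card_mulAut_le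
    have h3 : Nat.card H ≤ Nat.card A * Nat.card A := by
      rw [← h1]
      exact Nat.mul_le_mul_left _ h2
    have h4 : Nat.card A * Nat.card A ≤ (Q - 1) * (Q - 1) := Nat.mul_le_mul hAle hAle
    obtain ⟨R, rfl⟩ : ∃ R, Q = R + 1 := ⟨Q - 1, by omega⟩
    simp only [Nat.add_sub_cancel] at h4
    nlinarith
  -- a minimal non-abelian normal subgroup
  have hT : Set.Finite {M : Subgroup H | M.Normal ∧ M ≤ Subgroup.centralizer (A : Set H) ∧ ¬ ∀ a ∈ M, ∀ b ∈ M, a * b = b * a} :=
    Set.toFinite _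
  obtain ⟨N, ⟨hNn, hNC, hNna⟩, hNmin⟩ := hT.exists_minimal ⟨_, hCn, le_refl _, hCA⟩
  haveI := hNn
  have hirr := irreducible_of_noncomm H hreg N hNn hNna
  have hCN : Subgroup.centralizer (N : Set H) = A := by
    have hle : A ≤ Subgroup.centralizer (N : Set H) := by
      intro a ha
      rw [Subgroup.mem_centralizer_iff]
      intro n hn
      exact (Subgroup.mem_centralizer_iff.1 (hNC hn) a ha).symm
    exact le_antisymm (hAmax ⟨Subgroup.normal_centralizer, centralizer_comm H hreg N hNn hNna hV⟩ hle) hle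
  haveI hsN : Group.IsSolvable N := Group.isSolvable_of_isSolvable_injective N.subtype_injective
  haveI hNnt : Nontrivial N := by
    by_contra hcon
    rw [not_nontrivial_iff_subsingleton] at hcon
    apply hNna
    intro a ha b hb
    have h1 : (⟨a, ha⟩ : N) = ⟨b, hb⟩ := Subsingleton.elim _ _
    have h2 : a = b := congrArg Subtype.val h1
    rw [h2]
  have hN'ne : ⁅N, N⁆ ≠ N := by
    intro h
    have h1 := Group.IsSolvable.commutator_lt_top_of_nontrivial N
    apply h1.ne
    rw [eq_top_iff]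
    intro x _
    have h2 : x.1 ∈ ⁅N, N⁆ := by
      rw [h]
      exact x.2
    rw [← Subgroup.map_subtype_commutator] at h2
    obtain ⟨y, hy, hyx⟩ := h2
    have h3 : y = x := Subtype.ext hyx
    rwa [← h3]
  have hN'le : ⁅N, N⁆ ≤ N := Subgroup.commutator_le_self N
  have hN'comm : ∀ a ∈ ⁅N, N⁆, ∀ b ∈ ⁅N, N⁆, a * b = b * a := by
    by_contra hcon
    have h1 := hNmin ⟨inferInstance, hN'le.trans hNC, hcon⟩ hN'le
    exact hN'ne (le_antisymm hN'le h1)
  have hN'A : ⁅N, N⁆ ≤ A := by
    have hsup : A ⊔ ⁅N, N⁆ ≤ Subgroup.centralizer ((A ⊔ ⁅N, N⁆ : Subgroup H) : Set H) := by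
      rw [sup_le_iff]
      constructor
      · rw [Subgroup.le_centralizer_iff, sup_le_iff]
        exact ⟨hAC, hN'le.trans hNC⟩
      · rw [Subgroup.le_centralizer_iff, sup_le_iff]
        constructor
        · rw [← Subgroup.le_centralizer_iff]
          exact hN'le.trans hNC
        · intro a ha
          rw [Subgroup.mem_centralizer_iff]
          intro b hb
          exact hN'comm b hb a ha
    have h1 := hAmax (y := A ⊔ ⁅N, N⁆) ⟨Subgroup.sup_normal _ _, fun a ha b hb => by
      have := Subgroup.mem_centralizer_iff.1 (hsup ha) b hb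
      exact this.symm⟩ le_sup_left
    exact le_sup_right.trans h1
  have hcent : ∀ n ∈ N, ∀ c ∈ ⁅N, N⁆, n * c = c * n := by
    intro n hn c hc
    exact ((Subgroup.mem_centralizer_iff.1 (hNC hn)) c (hN'A hc)).symm
  have hnil : Group.IsNilpotent N := by
    rw [Subgroup.nilpotent_iff_lowerCentralSeries]
    refine ⟨2, ?_⟩
    rw [eq_bot_iff]
    show ⁅(⊤ : Subgroup N).lowerCentralSeries 1, ⊤⁆ ≤ ⊥
    rw [Subgroup.commutator_le, Subgroup.top_lowerCentralSeries_one]
    intro g₁ hg₁ g₂ _
    rw [Subgroup.mem_bot, commutatorElement_eq_one_iff_mul_comm]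
    have h1 : g₁.1 ∈ ⁅N, N⁆ := by
      rw [← Subgroup.map_subtype_commutator]
      exact ⟨g₁, hg₁, rfl⟩
    exact Subtype.ext (hcent g₂.1 g₂.2 g₁.1 h1).symm
  have htfae := Group.isNilpotent_of_finite_tfae (G := N)
  have hallSyl := (htfae.out 0 3).1 hnil
  obtain ⟨ePi⟩ := (htfae.out 0 4).1 hnil
  have hexSyl : ∃ (q : ℕ) (_ : Fact q.Prime) (P : Sylow q N), ¬ ∀ a ∈ (P : Subgroup N), ∀ b ∈ (P : Subgroup N), a * b = b * a := by
    by_contra hcon
    push Not at hcon
    apply hNna
    intro a ha b hb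
    have h1 : ePi.symm ⟨a, ha⟩ * ePi.symm ⟨b, hb⟩ = ePi.symm ⟨b, hb⟩ * ePi.symm ⟨a, ha⟩ := by
      funext q P
      apply Subtype.ext
      haveI : Fact (q : ℕ).Prime := ⟨Nat.prime_of_mem_primeFactors q.2⟩
      exact hcon q inferInstance P _ (ePi.symm ⟨a, ha⟩ q P).2 _ (ePi.symm ⟨b, hb⟩ q P).2
    have h2 := congrArg ePi h1
    rw [map_mul, map_mul, MulEquiv.apply_symm_apply, MulEquiv.apply_symm_apply] at h2
    exact congrArg Subtype.val h2
  obtain ⟨q, hqF, P, hPna⟩ := hexSyl
  haveI hPchar : (P : Subgroup N).Characteristic := Sylow.characteristic_of_normal P (hallSyl q hqF P)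
  have hPtop : ∀ x : N, x ∈ (P : Subgroup N) := by
    have h1 := hNmin (y := (P : Subgroup N).map N.subtype) ⟨inferInstance, (Subgroup.map_subtype_le _).trans hNC, by
      intro hc
      apply hPna
      intro a ha b hb
      exact Subtype.ext (hc a.1 ⟨a, ha, rfl⟩ b.1 ⟨b, hb, rfl⟩)⟩ (Subgroup.map_subtype_le _)
    intro x
    obtain ⟨y, hy, hyx⟩ := h1 x.2
    have h3 : y = x := Subtype.ext hyx
    rwa [← h3]
  have hNq : IsPGroup q N := by
    intro x
    obtain ⟨k, hk⟩ := P.2 ⟨x, hPtop x⟩
    exact ⟨k, congrArg Subtype.val hk⟩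
  have hU := uniqueP_of_pgroup H hreg N hNq
  obtain ⟨hq2, k, hk, ⟨e⟩⟩ : q = 2 ∧ ∃ k : ℕ, 1 ≤ k ∧ Nonempty (N ≃* QuaternionGroup (2 ^ k)) := by
    rcases Cfsg.Agent.H14.isCyclic_or_quaternion hNq hU with hc | h
    · exfalso
      apply hNna
      intro a ha b hb
      have := (IsCyclic.isMulCommutative (α := N)).is_comm.comm ⟨a, ha⟩ ⟨b, hb⟩
      exact congrArg Subtype.val this
    · exact h
  subst hq2
  have hk1 : k = 1 := by
    apply q_class_two hk (e (e.symm (xa 0))) (e (e.symm (a 1))) (by simp) (by simp)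
    have hc : ((e.symm (xa 0)) * (e.symm (a 1)) * (e.symm (xa 0))⁻¹ * (e.symm (a 1))⁻¹ : N) ∈ commutator N := by
      rw [commutator_def]
      exact Subgroup.commutator_mem_commutator (Subgroup.mem_top _) (Subgroup.mem_top _)
    have hc1 : (((e.symm (xa 0)) * (e.symm (a 1)) * (e.symm (xa 0))⁻¹ * (e.symm (a 1))⁻¹ : N) : H) ∈ ⁅N, N⁆ := by
      rw [← Subgroup.map_subtype_commutator]
      exact ⟨_, hc, rfl⟩
    have h1 := hcent (e.symm (xa 0)).1 (e.symm (xa 0)).2 _ hc1
    have h2 : (e.symm (xa 0)) * ((e.symm (xa 0)) * (e.symm (a 1)) * (e.symm (xa 0))⁻¹ * (e.symm (a 1))⁻¹ : N) =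
        ((e.symm (xa 0)) * (e.symm (a 1)) * (e.symm (xa 0))⁻¹ * (e.symm (a 1))⁻¹ : N) * (e.symm (xa 0)) := Subtype.ext h1
    have h3 := congrArg e h2
    simp only [map_mul, map_inv] at h3 ⊢
    exact h3.symm
  subst hk1
  let e' : N ≃* QuaternionGroup 2 := e
  let f : QuaternionGroup 2 →* H := N.subtype.comp (e'.symm : QuaternionGroup 2 →* N)
  have hfinj : Function.Injective f := by
    intro s t h
    exact e'.symm.injective (Subtype.ext h)
  have hfN : ∀ t, f t ∈ N := fun t => (e'.symm t).2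
  have hfs : ∀ n ∈ N, ∃ t, f t = n := by
    intro n hn
    refine ⟨e' ⟨n, hn⟩, ?_⟩
    show ((e'.symm (e' ⟨n, hn⟩) : N) : H) = n
    rw [MulEquiv.symm_apply_apply]
  let aa : H := f (a 1)
  let xx : H := f (xa 0)
  have ha4 : aa ^ 4 = 1 := by
    rw [← map_pow, show (a 1 : QuaternionGroup 2) ^ 4 = 1 from by decide, map_one]
  have hx2 : xx ^ 2 = aa ^ 2 := by
    rw [← map_pow, ← map_pow, show (xa 0 : QuaternionGroup 2) ^ 2 = (a 1) ^ 2 from by decide]
  have hxa : xx * aa = aa⁻¹ * xx := by
    rw [← map_mul, ← map_inv, ← map_mul, show (xa 0 : QuaternionGroup 2) * a 1 = (a 1)⁻¹ * xa 0 from by decide]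
  have ha2 : aa ^ 2 ≠ 1 := by
    intro h
    rw [← map_pow, ← map_one f] at h
    exact absurd (hfinj h) (by decide)
  have hgen : ∀ n ∈ N, ∃ i : ℕ, n = aa ^ i ∨ n = xx * aa ^ i := by
    intro n hn
    obtain ⟨t, rfl⟩ := hfs n hn
    have h1 : ∀ t : QuaternionGroup 2, ∃ i : Fin 4, t = (a 1) ^ (i : ℕ) ∨ t = xa 0 * (a 1) ^ (i : ℕ) := by decide
    obtain ⟨i, h2 | h2⟩ := h1 t
    · exact ⟨i, Or.inl (by rw [h2, map_pow])⟩
    · exact ⟨i, Or.inr (by rw [h2, map_mul, map_pow])⟩
  -- the central involution is `-1`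
  have hZ : ∀ v, iota H (aa ^ 2) v = -v := by
    intro v
    have h1 : iota H (aa ^ 2) (iota H (aa ^ 2) v + v) = iota H (aa ^ 2) v + v := by
      rw [map_add]
      have h2 : iota H (aa ^ 2) (iota H (aa ^ 2) v) = v := by
        rw [← Module.End.mul_apply, ← iota_mul, ← pow_add, show 2 + 2 = 4 from rfl, ha4, iota_one]
        rfl
      rw [h2, add_comm]
    by_contra hne
    have h3 : iota H (aa ^ 2) v + v ≠ 0 := by
      intro h0
      exact hne (eq_neg_of_add_eq_zero_left h0)
    exact ha2 (eq_one_of_fix H hreg h3 h1)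
  have hAA : ∀ v, iota H aa (iota H aa v) = -v := by
    intro v
    rw [← Module.End.mul_apply, ← iota_mul, ← pow_two]
    exact hZ v
  have hXX : ∀ v, iota H xx (iota H xx v) = -v := by
    intro v
    rw [← Module.End.mul_apply, ← iota_mul, ← pow_two, hx2]
    exact hZ v
  have hainv : aa⁻¹ = aa * aa ^ 2 := by
    apply inv_eq_of_mul_eq_one_right
    rw [← pow_succ', ← pow_succ']
    exact ha4
  have hXA : ∀ v, iota H xx (iota H aa v) = -iota H aa (iota H xx v) := by
    intro v
    rw [← Module.End.mul_apply, ← iota_mul, hxa, iota_mul, Module.End.mul_apply, hainv, iota_mul,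
      Module.End.mul_apply, hZ, map_neg]
  obtain ⟨v, w, hv0, hUA, hUX⟩ := span_two (iota H aa) (iota H xx) hAA hXX hXA
  have hUtop : Submodule.span (ZMod p) ({v, w} : Set V) = ⊤ := by
    have hpow : ∀ (i : ℕ), ∀ u ∈ Submodule.span (ZMod p) ({v, w} : Set V),
        iota H (aa ^ i) u ∈ Submodule.span (ZMod p) ({v, w} : Set V) := by
      intro i
      induction i with
      | zero =>
        intro u hu
        rw [pow_zero, iota_one]
        exact hu
      | succ i ih =>
        intro u hu
        rw [pow_succ, iota_mul]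
        exact ih _ (hUA u hu)
    rcases hirr _ (by
      intro n hn u hu
      obtain ⟨i, rfl | rfl⟩ := hgen n hn
      · exact hpow i u hu
      · exact hUX _ (hpow i u hu)) with h | h
    · exfalso
      have : v ∈ Submodule.span (ZMod p) ({v, w} : Set V) := Submodule.subset_span (by simp)
      rw [h] at this
      exact hv0 (by simpa using this)
    · exact h
  haveI : Module.Finite (ZMod p) V := Module.Finite.of_finite
  have hfr : Module.finrank (ZMod p) V ≤ 2 := by
    have h1 : Module.finrank (ZMod p) (Submodule.span (ZMod p) ((({v, w} : Finset V) : Set V))) ≤ ({v, w} : Finset V).card :=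
      finrank_span_finset_le_card (R := ZMod p) ({v, w} : Finset V)
    rw [Finset.coe_pair, hUtop, finrank_top] at h1
    exact h1.trans Finset.card_le_two
  haveI hVf : Fintype V := Fintype.ofFinite V
  have hVcard : Nat.card V = p ^ Module.finrank (ZMod p) V := by
    rw [Nat.card_eq_fintype_card, Module.card_eq_pow_finrank (K := ZMod p) (V := V), ZMod.card]
  have hVle : Nat.card V ≤ p ^ 2 := by
    rw [hVcard]
    exact Nat.pow_le_pow_right hp.pos hfr
  have hQeq : Q = p := by
    apply le_antisymm _ hQp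
    by_contra hcon
    push Not at hcon
    have : (p + 1) * (p + 1) ≤ Q * Q := Nat.mul_le_mul hcon hcon
    nlinarith
  have hVeq : Nat.card V = p ^ 2 := by
    apply le_antisymm hVle
    rw [hQeq] at hQ2
    rw [pow_two]
    exact hQ2
  have hfr2 : Module.finrank (ZMod p) V = 2 := by
    rw [hVcard] at hVeq
    exact Nat.pow_right_injective hp.two_le hVeq
  -- the numerology
  have hr := hcardker (M := N) hCN
  have hrdvd : Nat.card (MulAut.conjNormal (H := N)).range ∣ 24 := by
    have h1 := Subgroup.card_subgroup_dvd_card (MulAut.conjNormal (H := N)).range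
    have h2 : Nat.card (MulAut N) = 24 := by
      rw [Nat.card_congr (MulAut.congr e').toEquiv]
      exact card_mulAut_q8
    rwa [h2] at h1
  have hp24 : p + 1 ∣ 24 := by
    rw [hQeq] at hAdvd
    obtain ⟨m, hm⟩ := hAdvd
    have h1 : Nat.card H = (p - 1) * (p + 1) := by
      have h2 : Nat.card H + 1 = p * p := by
        rw [hcardH, hVeq, pow_two]
      obtain ⟨R, rfl⟩ : ∃ R, p = R + 1 := ⟨p - 1, by have := hp.pos; omega⟩
      simp only [Nat.add_sub_cancel]
      nlinarith
    rw [hm, ← hr] at h1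
    have h3 : Nat.card (MulAut.conjNormal (H := N)).range = m * (p + 1) := by
      apply Nat.eq_of_mul_eq_mul_left hApos
      rw [h1]
      ring
    rw [h3] at hrdvd
    exact (Dvd.intro_left m rfl).trans hrdvd
  have hN8 : Nat.card N = 8 := by
    rw [Nat.card_congr e'.toEquiv, Nat.card_eq_fintype_card, QuaternionGroup.card]
  have hN8dvd : 8 ∣ Nat.card H := by
    rw [← hN8]
    exact Subgroup.card_subgroup_dvd_card N
  have hH : Nat.card H = p ^ 2 - 1 := by omega
  have hple : p ≤ 23 := by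
    have := Nat.le_of_dvd (by norm_num) hp24
    omega
  have hcases : p = 3 ∨ p = 5 ∨ p = 7 ∨ p = 11 ∨ p = 23 := by
    have h2 : 2 ≤ p := hp.two_le
    interval_cases p <;> first
      | (exfalso; revert hp; norm_num; done)
      | (exfalso; revert hp24; norm_num; done)
      | (exfalso; rw [hH] at hN8dvd; revert hN8dvd; norm_num; done)
      | simp
  rcases hcases with rfl | rfl | rfl | rfl | rfl
  · exfalso
    -- `p = 3`: the cyclic group generated by `aa` is normal
    have hNtop : N = ⊤ := by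
      apply Subgroup.eq_top_of_card_eq
      rw [hN8, hH]
      norm_num
    have hcardz : Nat.card (Subgroup.zpowers aa) = 4 := by
      rw [Nat.card_zpowers]
      have h1 : orderOf aa ∣ 4 := orderOf_dvd_of_pow_eq_one ha4
      have h2 : orderOf aa ∣ 2 ^ 2 := h1
      obtain ⟨j, hj, hj2⟩ := (Nat.dvd_prime_pow Nat.prime_two).1 h2
      interval_cases j
      · rw [pow_zero] at hj2
        exfalso
        apply ha2
        rw [orderOf_eq_one_iff.1 hj2, one_pow]
      · rw [pow_one] at hj2
        exfalso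
        apply ha2
        rw [← hj2]
        exact pow_orderOf_eq_one aa
      · rw [hj2]
        norm_num
    have hzindex : (Subgroup.zpowers aa).index = 2 := by
      have h1 := Subgroup.card_mul_index (Subgroup.zpowers aa)
      rw [hcardz, hH] at h1
      omega
    obtain ⟨W', hW'1, hW'2, hW'inv⟩ := hI (Subgroup.zpowers aa) (Subgroup.normal_of_index_eq_two hzindex) inferInstance
    have hW'fr : Module.finrank (ZMod 3) W' = 1 := by
      have h1 := Submodule.finrank_lt hW'2
      have h2 : 0 < Module.finrank (ZMod 3) W' := Module.finrank_pos_iff.2 (by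
        exact Submodule.nontrivial_iff_ne_bot.2 hW'1)
      rw [hfr2] at h1
      omega
    obtain ⟨u, huW, hu0⟩ := Submodule.exists_mem_ne_zero_of_ne_bot hW'1
    have hu0' : (⟨u, huW⟩ : W') ≠ 0 := fun h => hu0 (congrArg Subtype.val h)
    have h1 := (finrank_eq_one_iff_of_nonzero' _ hu0').1 hW'fr
    obtain ⟨c, hc⟩ := h1 ⟨iota H aa u, hW'inv aa (Subgroup.mem_zpowers aa) u huW⟩
    have hc' : c • u = iota H aa u := congrArg Subtype.val hc
    have h2 := hAA u
    rw [← hc', map_smul, ← hc', smul_smul] at h2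
    have h3 : (c * c + 1) • u = 0 := by
      rw [add_smul, one_smul, h2, neg_add_cancel]
    rcases smul_eq_zero.1 h3 with h4 | h4
    · exact zmod3_aux c h4
    · exact hu0 h4
  · left
    rw [hVeq]
    norm_num
  · right; left
    rw [hVeq]
    norm_num
  · right; right; left
    rw [hVeq]
    norm_num
  · right; right; right
    rw [hVeq]
    norm_num

end Cfsg.Agent.S0688
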