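import Cfsg.Statements.S0691
import Mathlib
import Cfsg.Agent.Lib.H03.SharpList

set_option autoImplicit false
open Cfsg

namespace Cfsg.Agent.S0691

open Cfsg.Agent.H03

def Gs : List Tup := [(2,0,0,3),(0,4,1,0),(1,2,1,3)]
def Sl : List Tup := [(1,0,0,1),(2,0,0,3),(0,4,1,0),(1,2,1,3),(4,0,0,4),(0,2,2,0),(2,1,2,4),(0,3,3,0),(2,4,3,4),(4,2,1,2),(3,3,4,1),(3,0,0,2),(0,1,4,0),(4,3,4,2),(3,1,2,1),(1,4,3,3),(1,3,4,3),(3,2,1,1),(3,4,3,1),(1,1,2,3),(2,2,1,4),(2,3,4,4),(4,4,3,2),(4,1,2,2)]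
def Pl : List (ℕ × Tup) := [(0,(0,0,0,0)),(0,(2,0,0,3)),(0,(0,4,1,0)),(0,(1,2,1,3)),(1,(2,0,0,3)),(1,(0,4,1,0)),(1,(1,2,1,3)),(2,(2,0,0,3)),(2,(1,2,1,3)),(3,(0,4,1,0)),(3,(1,2,1,3)),(4,(2,0,0,3)),(4,(0,4,1,0)),(4,(1,2,1,3)),(6,(0,4,1,0)),(6,(1,2,1,3)),(7,(1,2,1,3)),(8,(1,2,1,3)),(9,(2,0,0,3)),(9,(1,2,1,3)),(13,(1,2,1,3)),(14,(1,2,1,3)),(16,(1,2,1,3)),(18,(1,2,1,3))]

/-- An exceptional sharply doubly transitive group of degree 5^2: the listed matrices generate a subgroup of GL(2,5) of order 24 acting regularly on the non-zero vectors. -/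
theorem result (A : Matrix.GeneralLinearGroup (Fin 2) (ZMod 5)) (B : Matrix.GeneralLinearGroup (Fin 2) (ZMod 5)) (C : Matrix.GeneralLinearGroup (Fin 2) (ZMod 5)) (hA : (A : Matrix (Fin 2) (Fin 2) (ZMod 5)) = !![2, 0; 0, -2]) (hB : (B : Matrix (Fin 2) (Fin 2) (ZMod 5)) = !![0, -1; 1, 0]) (hC : (C : Matrix (Fin 2) (Fin 2) (ZMod 5)) = !![1, 2; 1, -2]) : Nat.card (Subgroup.closure ({A, B, C} : Set (Matrix.GeneralLinearGroup (Fin 2) (ZMod 5)))) = 24 ∧ ∀ v w : Fin 2 → ZMod 5, v ≠ 0 → w ≠ 0 → ∃! h : Subgroup.closure ({A, B, C} : Set (Matrix.GeneralLinearGroup (Fin 2) (ZMod 5))), Matrix.mulVec ((h : Matrix.GeneralLinearGroup (Fin 2) (ZMod 5)) : Matrix (Fin 2) (Fin 2) (ZMod 5)) v = w := by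
  haveI : Fact (Nat.Prime 5) := ⟨by norm_num⟩
  have htoA : (A : Matrix (Fin 2) (Fin 2) (ZMod 5)) = toM 5 (2,0,0,3) := by
    rw [hA]; ext i j; fin_cases i <;> fin_cases j <;> rfl
  have htoB : (B : Matrix (Fin 2) (Fin 2) (ZMod 5)) = toM 5 (0,4,1,0) := by
    rw [hB]; ext i j; fin_cases i <;> fin_cases j <;> rfl
  have htoC : (C : Matrix (Fin 2) (Fin 2) (ZMod 5)) = toM 5 (1,2,1,3) := by
    rw [hC]; ext i j; fin_cases i <;> fin_cases j <;> rfl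
  have := closure_regular (q := 5) ({A, B, C} : Set _) Sl Gs (1,0,0,1) (0,0,0,0)
    (by decide +kernel) (by ext i j; fin_cases i <;> fin_cases j <;> rfl)
    (by
      rintro g (rfl | rfl | rfl)
      · exact ⟨_, by decide +kernel, htoA⟩
      · exact ⟨_, by decide +kernel, htoB⟩
      · exact ⟨_, by decide +kernel, htoC⟩)
    (by
      have key : ∀ x, x ∈ Gs → x = (2,0,0,3) ∨ x = (0,4,1,0) ∨ x = (1,2,1,3) := by decide +kernel
      intro x hx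
      rcases key x hx with rfl | rfl | rfl
      · exact ⟨A, by simp, htoA⟩
      · exact ⟨B, by simp, htoB⟩
      · exact ⟨C, by simp, htoC⟩)
    (by decide +kernel) Pl (by decide +kernel) (by decide +kernel) (by decide +kernel) (by decide +kernel) (by decide +kernel)
  exact this

end Cfsg.Agent.S0691
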