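import Cfsg.Statements.S0692
import Mathlib
import Cfsg.Agent.Lib.H03.SharpList

set_option autoImplicit false
open Cfsg

namespace Cfsg.Agent.S0692

open Cfsg.Agent.H03

def Gs : List Tup := [(0,10,1,0),(2,4,1,8)]
def Sl : List Tup := [(1,0,0,1),(0,10,1,0),(2,4,1,8),(10,0,0,10),(4,9,8,10),(10,3,2,4),(8,7,10,2),(0,1,10,0),(9,7,10,3),(3,1,4,9),(7,3,2,1),(6,0,4,2),(1,9,8,7),(7,2,3,1),(1,8,9,7),(3,4,1,9),(0,5,2,7),(9,10,7,3),(7,9,6,0),(6,8,5,5),(1,2,10,10),(8,10,7,2),(4,8,9,10),(5,0,7,9),(10,2,3,4),(9,4,0,5),(8,5,5,6),(2,10,10,1),(5,7,0,9),(6,6,6,8),(1,1,1,2),(9,0,4,5),(0,6,9,4),(2,1,4,8),(4,2,5,0),(5,3,6,6),(10,9,1,1),(7,6,9,0),(6,5,8,5),(1,10,2,10),(0,2,5,7),(10,6,5,2),(3,0,10,4),(6,10,9,6),(2,7,0,6),(3,6,6,5),(9,1,1,10),(6,4,0,2),(5,5,5,3),(10,10,10,9),(2,0,7,6),(6,1,2,6),(0,8,4,1)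,(10,5,6,2),(6,9,10,6),(1,7,3,0),(2,5,6,10),(4,0,1,3),(4,5,2,0),(5,6,3,6),(10,1,9,1),(0,9,6,4),(1,5,6,9),(8,0,1,7),(5,1,2,5),(9,5,6,1),(7,10,0,8),(5,9,10,5),(0,7,3,10),(8,9,9,2),(3,3,3,7),(10,8,4,0),(5,10,9,5),(0,3,7,10),(1,6,5,9),(5,2,1,5),(10,4,8,0),(9,6,5,1),(7,0,10,8),(9,3,2,2),(3,8,7,8),(8,1,0,7),(2,9,8,9),(8,4,3,3),(7,1,5,4),(3,5,9,8),(2,6,5,10),(4,1,0,3),(6,2,1,6),(0,4,8,1),(3,2,2,9),(8,8,8,4),(1,3,7,0),(9,9,9,3),(4,3,3,8),(1,4,4,6),(5,8,8,2),(3,10,0,4),(6,7,7,1),(2,3,3,5),(2,8,9,9),(8,3,4,3),(9,2,3,2),(3,7,8,8),(4,10,6,7),(8,6,2,3),(7,5,1,4),(3,9,5,8),(6,3,3,9),(7,7,7,4),(5,4,4,10),(2,2,2,8),(7,8,8,3),(10,7,7,5),(9,8,8,6),(7,4,4,4),(4,6,10,7),(8,2,6,3),(4,7,7,7),(4,4,4,7)]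
def Pl : List (ℕ × Tup) := [(0,(0,0,0,0)),(0,(0,10,1,0)),(0,(2,4,1,8)),(1,(0,10,1,0)),(1,(2,4,1,8)),(2,(0,10,1,0)),(2,(2,4,1,8)),(3,(0,10,1,0)),(3,(2,4,1,8)),(4,(0,10,1,0)),(4,(2,4,1,8)),(5,(2,4,1,8)),(6,(0,10,1,0)),(7,(2,4,1,8)),(8,(0,10,1,0)),(8,(2,4,1,8)),(9,(2,4,1,8)),(10,(0,10,1,0)),(11,(0,10,1,0)),(11,(2,4,1,8)),(12,(2,4,1,8)),(13,(0,10,1,0)),(13,(2,4,1,8)),(14,(2,4,1,8)),(15,(0,10,1,0)),(16,(0,10,1,0)),(16,(2,4,1,8)),(17,(2,4,1,8)),(18,(2,4,1,8)),(19,(0,10,1,0)),(20,(0,10,1,0)),(20,(2,4,1,8)),(21,(2,4,1,8)),(22,(0,10,1,0)),(23,(0,10,1,0)),(23,(2,4,1,8)),(24,(2,4,1,8)),(25,(2,4,1,8)),(26,(0,10,1,0)),(27,(0,10,1,0)),(27,(2,4,1,8)),(28,(2,4,1,8)),(29,(2,4,1,8)),(30,(2,4,1,8)),(32,(0,10,1,0)),(32,(2,4,1,8)),(33,(2,4,1,8)),(34,(2,4,1,8)),(35,(0,10,1,0)),(36,(0,10,1,0)),(36,(2,4,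1,8)),(37,(2,4,1,8)),(38,(2,4,1,8)),(39,(2,4,1,8)),(41,(0,10,1,0)),(42,(0,10,1,0)),(42,(2,4,1,8)),(43,(2,4,1,8)),(44,(2,4,1,8)),(45,(0,10,1,0)),(46,(0,10,1,0)),(46,(2,4,1,8)),(47,(2,4,1,8)),(48,(2,4,1,8)),(49,(2,4,1,8)),(51,(0,10,1,0)),(52,(0,10,1,0)),(52,(2,4,1,8)),(53,(2,4,1,8)),(54,(2,4,1,8)),(55,(2,4,1,8)),(57,(0,10,1,0)),(58,(2,4,1,8)),(59,(2,4,1,8)),(60,(2,4,1,8)),(62,(0,10,1,0)),(63,(0,10,1,0)),(63,(2,4,1,8)),(64,(2,4,1,8)),(65,(2,4,1,8)),(66,(2,4,1,8)),(68,(0,10,1,0)),(69,(0,10,1,0)),(69,(2,4,1,8)),(70,(2,4,1,8)),(71,(2,4,1,8)),(72,(0,10,1,0)),(73,(0,10,1,0)),(73,(2,4,1,8)),(74,(2,4,1,8)),(75,(2,4,1,8)),(76,(2,4,1,8)),(78,(0,10,1,0)),(79,(0,10,1,0)),(79,(2,4,1,8)),(80,(2,4,1,8)),(81,(2,4,1,8)),(82,(2,4,1,8)),(84,(0,10,1,0)),(85,(0,10,1,0)),(86,(2,4,1,8)),(87,(2,4,1,8)),(90,(0,10,1,0)),(90,(2,4,1,8)),(91,(2,4,1,8)),(92,(2,4,1,8)),(95,(0,10,1,0)),(96,(0,10,1,0)),(97,(2,4,1,8)),(98,(2,4,1,8)),(99,(2,4,1,8)),(100,(0,10,1,0)),(100,(2,4,1,8)),(101,(2,4,1,8)),(105,(0,10,1,0)),(106,(2,4,1,8)),(107,(2,4,1,8)),(108,(0,10,1,0)),(109,(0,10,1,0)),(110,(2,4,1,8))]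

/-- An exceptional sharply doubly transitive group of degree 11^2: the listed matrices generate a subgroup of GL(2,11) of order 120 acting regularly on the non-zero vectors. -/
theorem result (A : Matrix.GeneralLinearGroup (Fin 2) (ZMod 11)) (B : Matrix.GeneralLinearGroup (Fin 2) (ZMod 11)) (hA : (A : Matrix (Fin 2) (Fin 2) (ZMod 11)) = !![0, -1; 1, 0]) (hB : (B : Matrix (Fin 2) (Fin 2) (ZMod 11)) = !![2, 4; 1, -3]) : Nat.card (Subgroup.closure ({A, B} : Set (Matrix.GeneralLinearGroup (Fin 2) (ZMod 11)))) = 120 ∧ ∀ v w : Fin 2 → ZMod 11, v ≠ 0 → w ≠ 0 → ∃! h : Subgroup.closure ({A, B} : Set (Matrix.GeneralLinearGroup (Fin 2) (ZMod 11))), Matrix.mulVec ((h : Matrix.GeneralLinearGroup (Fin 2) (ZMod 11)) : Matrix (Fin 2) (Fin 2) (ZMod 11)) v = w := by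
  haveI : Fact (Nat.Prime 11) := ⟨by norm_num⟩
  have htoA : (A : Matrix (Fin 2) (Fin 2) (ZMod 11)) = toM 11 (0,10,1,0) := by
    rw [hA]; ext i j; fin_cases i <;> fin_cases j <;> rfl
  have htoB : (B : Matrix (Fin 2) (Fin 2) (ZMod 11)) = toM 11 (2,4,1,8) := by
    rw [hB]; ext i j; fin_cases i <;> fin_cases j <;> rfl
  have := closure_regular (q := 11) ({A, B} : Set _) Sl Gs (1,0,0,1) (0,0,0,0)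
    (by decide +kernel) (by ext i j; fin_cases i <;> fin_cases j <;> rfl)
    (by
      rintro g (rfl | rfl)
      · exact ⟨_, by decide +kernel, htoA⟩
      · exact ⟨_, by decide +kernel, htoB⟩)
    (by
      have key : ∀ x, x ∈ Gs → x = (0,10,1,0) ∨ x = (2,4,1,8) := by decide +kernel
      intro x hx
      rcases key x hx with rfl | rfl
      · exact ⟨A, by simp, htoA⟩
      · exact ⟨B, by simp, htoB⟩)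
    (by decide +kernel) Pl (by decide +kernel) (by decide +kernel) (by decide +kernel) (by decide +kernel) (by decide +kernel)
  exact this

end Cfsg.Agent.S0692
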