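import Cfsg.Statements.S0693
import Mathlib
import Cfsg.Agent.Lib.H03.SharpList

set_option autoImplicit false
open Cfsg

namespace Cfsg.Agent.S0693

open Cfsg.Agent.H03

def Gs : List Tup := [(0,58,1,0),(9,15,49,49)]
def Sl : List Tup := [(1,0,0,1),(0,58,1,0),(9,15,49,49),(58,0,0,58),(15,50,49,10),(10,10,9,15),(49,44,10,9),(0,1,58,0),(50,44,10,10),(10,49,15,50),(44,10,9,49),(48,20,46,45),(49,50,49,44),(44,9,10,49),(49,49,50,44),(10,15,49,50),(20,11,45,13),(50,10,44,10),(13,14,48,20),(1,29,4,58),(55,48,23,4),(49,10,44,9),(15,49,50,10),(11,39,13,14),(10,9,10,15),(14,46,20,11),(29,58,58,55),(48,4,4,36),(11,13,39,14),(55,1,1,29),(36,55,55,48),(14,20,46,11),(39,48,14,46),(9,49,15,49),(46,45,11,39),(58,30,55,1),(4,11,36,55),(13,48,14,20),(1,4,29,58),(55,23,48,4),(20,45,11,13),(35,32,31,25),(38,31,30,54),(28,35,34,32),(45,13,39,48),(30,1,1,4),(11,55,55,23),(48,46,20,45),(4,58,58,3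0),(23,4,4,11),(45,39,13,48),(32,24,25,28),(31,21,54,29),(35,31,32,25),(28,34,35,32),(29,5,38,31),(25,27,28,35),(54,28,29,38),(46,11,45,39),(58,55,30,1),(4,36,11,55),(39,14,48,46),(24,27,28,34),(21,28,29,5),(31,24,25,27),(34,31,32,24),(5,30,31,21),(27,34,35,31),(28,5,38,30),(10,19,19,48),(5,38,38,53),(30,21,54,28),(27,35,34,31),(28,38,5,30),(24,28,27,34),(31,25,24,27),(30,54,21,28),(34,32,31,24),(5,31,30,21),(19,49,48,40),(38,54,53,21),(21,29,28,5),(40,11,10,19),(21,6,5,38),(25,16,42,34),(18,19,45,41),(25,28,27,35),(54,29,28,38),(32,25,24,28),(31,54,21,29),(49,40,40,11),(54,21,21,6),(29,38,5,31),(11,19,19,49),(6,38,38,54),(16,34,34,17),(19,41,41,14),(38,30,31,54),(17,25,25,16),(14,18,18,19),(40,10,11,19),(21,5,6,38),(19,48,49,40),(38,53,54,21),(34,43,17,25),(41,40,14,18),(25,42,16,34),(18,45,19,41),(40,18,18,45),(56,52,52,3),(42,34,34,43),(48,40,40,10),(53,21,21,5),(43,25,25,42),(45,41,41,40),(52,3,3,7),(34,17,43,25),(41,14,40,18),(7,56,56,52),(3,7,7,56)]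
def Pl : List (ℕ × Tup) := [(0,(0,0,0,0)),(0,(0,58,1,0)),(0,(9,15,49,49)),(1,(0,58,1,0)),(1,(9,15,49,49)),(2,(0,58,1,0)),(2,(9,15,49,49)),(3,(0,58,1,0)),(3,(9,15,49,49)),(4,(0,58,1,0)),(4,(9,15,49,49)),(5,(9,15,49,49)),(6,(0,58,1,0)),(7,(9,15,49,49)),(8,(0,58,1,0)),(8,(9,15,49,49)),(9,(9,15,49,49)),(10,(0,58,1,0)),(11,(0,58,1,0)),(11,(9,15,49,49)),(12,(9,15,49,49)),(13,(0,58,1,0)),(13,(9,15,49,49)),(14,(9,15,49,49)),(15,(0,58,1,0)),(16,(0,58,1,0)),(16,(9,15,49,49)),(17,(9,15,49,49)),(18,(9,15,49,49)),(19,(0,58,1,0)),(20,(0,58,1,0)),(20,(9,15,49,49)),(21,(9,15,49,49)),(22,(0,58,1,0)),(23,(0,58,1,0)),(23,(9,15,49,49)),(24,(9,15,49,49)),(25,(9,15,49,49)),(26,(0,58,1,0)),(27,(0,58,1,0)),(27,(9,15,49,49)),(28,(9,15,49,49)),(29,(9,15,49,49)),(30,(9,15,49,49)),(32,(0,58,1,0)),(32,(9,15,49,49)),(33,(9,15,49,49)),(34,(9,15,49,49)),(35,(0,58,1,0)),(36,(0,58,1,0)),(36,(9,15,49,49)),(3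7,(9,15,49,49)),(38,(9,15,49,49)),(39,(9,15,49,49)),(41,(0,58,1,0)),(42,(0,58,1,0)),(42,(9,15,49,49)),(43,(9,15,49,49)),(44,(9,15,49,49)),(45,(0,58,1,0)),(46,(0,58,1,0)),(46,(9,15,49,49)),(47,(9,15,49,49)),(48,(9,15,49,49)),(49,(9,15,49,49)),(51,(0,58,1,0)),(52,(0,58,1,0)),(52,(9,15,49,49)),(53,(9,15,49,49)),(54,(9,15,49,49)),(55,(9,15,49,49)),(57,(0,58,1,0)),(58,(9,15,49,49)),(59,(9,15,49,49)),(60,(9,15,49,49)),(62,(0,58,1,0)),(63,(0,58,1,0)),(63,(9,15,49,49)),(64,(9,15,49,49)),(65,(9,15,49,49)),(66,(9,15,49,49)),(68,(0,58,1,0)),(69,(0,58,1,0)),(69,(9,15,49,49)),(70,(9,15,49,49)),(71,(9,15,49,49)),(72,(0,58,1,0)),(73,(0,58,1,0)),(73,(9,15,49,49)),(74,(9,15,49,49)),(75,(9,15,49,49)),(76,(9,15,49,49)),(78,(0,58,1,0)),(79,(0,58,1,0)),(79,(9,15,49,49)),(80,(9,15,49,49)),(81,(9,15,49,49)),(82,(9,15,49,49)),(84,(0,58,1,0)),(85,(0,58,1,0)),(86,(9,15,49,49)),(87,(9,15,49,49)),(90,(0,58,1,0)),(90,(9,15,49,49)),(91,(9,15,49,49)),(92,(9,15,49,49)),(95,(0,58,1,0)),(96,(0,58,1,0)),(97,(9,15,49,49)),(98,(9,15,49,49)),(99,(9,15,49,49)),(100,(0,58,1,0)),(100,(9,15,49,49)),(101,(9,15,49,49)),(105,(0,58,1,0)),(106,(9,15,49,49)),(107,(9,15,49,49)),(108,(0,58,1,0)),(109,(0,58,1,0)),(110,(9,15,49,49))]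
theorem h4a : ((4:ℕ):ZMod 59)^29 = 1 := by decide +kernel
theorem h4b : ((4:ℕ):ZMod 59) ≠ 1 := by decide +kernel

/-- An exceptional sharply doubly transitive group of degree 59^2: the listed matrices generate a subgroup of GL(2,59) of order 3480 acting regularly on the non-zero vectors. -/
theorem result (A : Matrix.GeneralLinearGroup (Fin 2) (ZMod 59)) (B : Matrix.GeneralLinearGroup (Fin 2) (ZMod 59)) (C : Matrix.GeneralLinearGroup (Fin 2) (ZMod 59)) (hA : (A : Matrix (Fin 2) (Fin 2) (ZMod 59)) = !![0, -1; 1, 0]) (hB : (B : Matrix (Fin 2) (Fin 2) (ZMod 59)) = !![9, 15; -10, -10]) (hC : (C : Matrix (Fin 2) (Fin 2) (ZMod 59)) = !![4, 0; 0, 4]) : Nat.card (Subgroup.closure ({A, B, C} : Set (Matrix.GeneralLinearGroup (Fin 2) (ZMod 59)))) = 3480 ∧ ∀ v w : Fin 2 → ZMod 59, v ≠ 0 → w ≠ 0 → ∃! h : Subgroup.closure ({A, B, C} : Set (Matrix.GeneralLinearGroup (Fin 2) (ZMod 59))), Matrix.mulVec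 ((h : Matrix.GeneralLinearGroup (Fin 2) (ZMod 59)) : Matrix (Fin 2) (Fin 2) (ZMod 59)) v = w := by
  haveI : Fact (Nat.Prime 59) := ⟨by norm_num⟩
  have htoA : (A : Matrix (Fin 2) (Fin 2) (ZMod 59)) = toM 59 (0,58,1,0) := by
    rw [hA]; ext i j; fin_cases i <;> fin_cases j <;> rfl
  have htoB : (B : Matrix (Fin 2) (Fin 2) (ZMod 59)) = toM 59 (9,15,49,49) := by
    rw [hB]; ext i j; fin_cases i <;> fin_cases j <;> rfl
  have htoC : (C : Matrix (Fin 2) (Fin 2) (ZMod 59)) = toM 59 (4,0,0,4) := by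
    rw [hC]; ext i j; fin_cases i <;> fin_cases j <;> rfl
  have := closure_scalar_regular (q := 59) A B C 4 29 (by norm_num) htoC Sl Gs (1,0,0,1) (0,0,0,0)
    (by decide +kernel) (by ext i j; fin_cases i <;> fin_cases j <;> rfl)
    (by
      rintro g (rfl | rfl)
      · exact ⟨_, by decide +kernel, htoA⟩
      · exact ⟨_, by decide +kernel, htoB⟩)
    (by
      have key : ∀ x, x ∈ Gs → x = (0,58,1,0) ∨ x = (9,15,49,49) := by decide +kernel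
      intro x hx
      rcases key x hx with rfl | rfl
      · exact ⟨A, by simp, htoA⟩
      · exact ⟨B, by simp, htoB⟩)
    (by decide +kernel) Pl (by decide +kernel) (by decide +kernel) (by decide +kernel)
    h4a h4b
    (by decide +kernel) (by decide +kernel) (by decide +kernel)
  exact this

end Cfsg.Agent.S0693
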