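import Cfsg.Statements.S0694
import Mathlib

set_option autoImplicit false
open Cfsg

namespace Cfsg.Agent.S0694

theorem dvd_geom (y : ℤ) (l : ℕ) (h : (l : ℤ) ∣ y - 1) : (l : ℤ) ∣ ∑ i ∈ Finset.range l, y ^ i := by
  have h1 : ∑ i ∈ Finset.range l, y ^ i = ∑ i ∈ Finset.range l, (y ^ i - 1) + l := by
    rw [Finset.sum_sub_distrib]
    simp
  rw [h1]
  refine dvd_add (Finset.dvd_sum fun i _ => h.trans ?_) dvd_rfl
  have := sub_dvd_pow_sub_pow y 1 i
  simpa using this

/-- Lemma A. -/
theorem mul_dvd_pow_sub_one (x : ℤ) : ∀ k : ℕ, 0 < k → (∀ l : ℕ, l.Prime → l ∣ k → (l : ℤ) ∣ x - 1) →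
    (k : ℤ) * (x - 1) ∣ x ^ k - 1 := by
  intro k
  induction k using Nat.strong_induction_on with
  | _ k ih =>
    intro hk h
    by_cases hk1 : k = 1
    · subst hk1
      simp
    obtain ⟨l, hl, k', rfl⟩ := Nat.exists_prime_and_dvd hk1
    have hk' : 0 < k' := Nat.pos_of_mul_pos_left hk |> fun _ => by
      rcases Nat.eq_zero_or_pos k' with h0 | h0
      · subst h0
        simp at hk
      · exact h0
    have hlt : k' < l * k' := by
      have := hl.two_le
      nlinarith
    have h1 := ih k' hlt hk' (fun m hm hd => h m hm (hd.trans (Dvd.intro_left _ rfl)))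
    have hl1 : (l : ℤ) ∣ x - 1 := h l hl (Dvd.intro _ rfl)
    have h2 : x - 1 ∣ x ^ k' - 1 := by
      have := sub_dvd_pow_sub_pow x 1 k'
      simpa using this
    have h3 := dvd_geom (x ^ k') l (hl1.trans h2)
    have h4 : x ^ (l * k') - 1 = (∑ i ∈ Finset.range l, (x ^ k') ^ i) * (x ^ k' - 1) := by
      rw [geom_sum_mul, ← pow_mul, mul_comm k']
    rw [h4]
    push_cast
    have h5 : (l : ℤ) * (k' : ℤ) * (x - 1) = (l : ℤ) * ((k' : ℤ) * (x - 1)) := by ring
    rw [h5]
    exact mul_dvd_mul h3 h1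

theorem exists_decomp (m : ℕ) : ∀ n : ℕ, 0 < n → ∃ n₁ n₂ : ℕ, n = n₁ * n₂ ∧ Nat.Coprime n₂ m ∧
    (∀ l : ℕ, l.Prime → l ∣ n₁ → l ∣ m) := by
  intro n
  induction n using Nat.strong_induction_on with
  | _ n ih =>
    intro hn
    by_cases hc : Nat.Coprime n m
    · exact ⟨1, n, by simp, hc, fun l hl hd => absurd (Nat.dvd_one.mp hd) hl.one_lt.ne'⟩
    obtain ⟨l, hl, hln, hlm⟩ := Nat.Prime.not_coprime_iff_dvd.mp hc
    obtain ⟨n', rfl⟩ := hln
    have hn' : 0 < n' := by
      rcases Nat.eq_zero_or_pos n' with h0 | h0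
      · subst h0
        simp at hn
      · exact h0
    have hlt : n' < l * n' := by
      have := hl.two_le
      nlinarith
    obtain ⟨n₁, n₂, rfl, h2, h3⟩ := ih n' hlt hn'
    refine ⟨l * n₁, n₂, by ring, h2, ?_⟩
    intro r hr hd
    rcases (Nat.Prime.dvd_mul hr).mp hd with h | h
    · rwa [(Nat.prime_dvd_prime_iff_eq hr hl).mp h]
    · exact h3 r hr h

theorem mod_iff (q n i : ℕ) (hq : 1 ≤ q) : q ^ i ≡ 1 [MOD n * (q - 1)] ↔ ((n : ℤ) * ((q : ℤ) - 1)) ∣ (q : ℤ) ^ i - 1 := by
  rw [Nat.ModEq.comm, Nat.modEq_iff_dvd]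
  push_cast [Nat.cast_sub hq]
  rfl

theorem pow_gcd_mod {N q a b : ℕ} (ha : q ^ a ≡ 1 [MOD N]) (hb : q ^ b ≡ 1 [MOD N]) : q ^ Nat.gcd a b ≡ 1 [MOD N] := by
  have h1 : ((q : ZMod N)) ^ a = 1 := by
    have := (ZMod.natCast_eq_natCast_iff _ _ _).mpr ha
    simpa using this
  have h2 : ((q : ZMod N)) ^ b = 1 := by
    have := (ZMod.natCast_eq_natCast_iff _ _ _).mpr hb
    simpa using this
  have h3 := pow_gcd_eq_one.mpr ⟨h1, h2⟩
  apply (ZMod.natCast_eq_natCast_iff _ _ _).mp
  simpa using h3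


/-- The Dickson pair condition: for a prime power `q` and `n > 1`, (every prime factor of `n` divides `q - 1`, and `4 ∣ n → 4 ∣ q - 1`) holds exactly when `q ^ n ≡ 1` modulo `n * (q - 1)` but `q ^ i` is not, for `0 < i < n`. -/
theorem result (q n : ℕ) (hq : IsPrimePow q) (hn : 1 < n) : ((∀ r : ℕ, r.Prime → r ∣ n → r ∣ q - 1) ∧ (4 ∣ n → 4 ∣ q - 1)) ↔ (q ^ n ≡ 1 [MOD n * (q - 1)] ∧ ∀ i : ℕ, 0 < i → i < n → ¬ q ^ i ≡ 1 [MOD n * (q - 1)]) := by
  have hq2 : 2 ≤ q := hq.two_le
  have hq1 : 1 ≤ q := by omega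
  constructor
  · rintro ⟨h1, h4⟩
    have hA : (q ^ n ≡ 1 [MOD n * (q - 1)]) := by
      rw [mod_iff q n n hq1]
      apply mul_dvd_pow_sub_one _ n (by omega)
      intro l hl hd
      have := h1 l hl hd
      have h5 := Int.natCast_dvd_natCast.mpr this
      rwa [Nat.cast_sub hq1, Nat.cast_one] at h5
    refine ⟨hA, ?_⟩
    intro i hi hin hmod
    have hg := pow_gcd_mod hmod hA
    have hgpos : 0 < Nat.gcd i n := Nat.gcd_pos_of_pos_left _ hi
    have hgn : Nat.gcd i n < n := lt_of_le_of_lt (Nat.le_of_dvd hi (Nat.gcd_dvd_left _ _)) hin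
    obtain ⟨c, hc⟩ := Nat.gcd_dvd_right i n
    have hc1 : c ≠ 1 := by
      rintro rfl
      omega
    obtain ⟨r, hr, hrc⟩ := Nat.exists_prime_and_dvd hc1
    obtain ⟨c', rfl⟩ := hrc
    obtain ⟨k, hk⟩ : ∃ k, k = Nat.gcd i n * c' := ⟨_, rfl⟩
    have hn : n = r * k := by
      calc n = Nat.gcd i n * (r * c') := hc
        _ = r * (Nat.gcd i n * c') := by ring
        _ = r * k := by rw [hk]
    have hkpos : 0 < k := by
      rcases Nat.eq_zero_or_pos k with h0 | h0
      · subst h0
        simp at hn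
        omega
      · exact h0
    have hmodk : q ^ k ≡ 1 [MOD n * (q - 1)] := by
      rw [hk, pow_mul]
      simpa using hg.pow c'
    haveI : Fact r.Prime := ⟨hr⟩
    have hrq : r ∣ q - 1 := h1 r hr (by rw [hn]; exact Dvd.intro _ rfl)
    have hq1pos : 0 < q - 1 := by omega
    -- the divisibility in `ℕ`
    have hdvd : n * (q - 1) ∣ q ^ k - 1 := by
      have := (Nat.modEq_iff_dvd' (Nat.one_le_pow _ _ (by omega))).mp hmodk.symm
      exact this
    have hne : q ^ k - 1 ≠ 0 := by
      have : 2 ≤ q ^ k := by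
        calc 2 ≤ q := hq2
          _ = q ^ 1 := (pow_one q).symm
          _ ≤ q ^ k := Nat.pow_le_pow_right (by omega) hkpos
      omega
    have hval2 : padicValNat r (n * (q - 1)) ≤ padicValNat r (q ^ k - 1) := by
      apply (padicValNat_dvd_iff_le hne).mp
      exact (pow_padicValNat_dvd).trans hdvd
    rw [hn, padicValNat.mul (Nat.mul_ne_zero hr.ne_zero hkpos.ne') hq1pos.ne', padicValNat.mul hr.ne_zero hkpos.ne',
      padicValNat_self] at hval2
    by_cases hr2 : r = 2
    · subst hr2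
      by_cases hk2 : Even k
      · -- `4 ∣ n`
        have h4n : 4 ∣ n := by
          obtain ⟨k', rfl⟩ := hk2
          rw [hn]
          exact ⟨k', by ring⟩
        have h4q := h4 h4n
        have hqodd : ¬ 2 ∣ q := by
          intro hd
          omega
        have hlte := padicValNat.pow_two_sub_pow (x := q) (y := 1) (by omega) (by simpa using hq1pos |> fun _ => hrq) hqodd hkpos.ne' hk2
        simp only [one_pow] at hlte
        have hplus : padicValNat 2 (q + 1) = 1 := by
          have h5 : (q + 1) % 4 = 2 := by omega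
          have h6 : q + 1 = 2 * ((q + 1) / 2) := by omega
          rw [h6, padicValNat.mul (by norm_num) (by omega), padicValNat_self]
          have : ¬ 2 ∣ (q + 1) / 2 := by omega
          rw [padicValNat.eq_zero_of_not_dvd this]
        rw [hplus] at hlte
        omega
      · -- `k` odd
        have hkodd : Odd k := Nat.not_even_iff_odd.mp hk2
        have hqo : Odd q := by
          rw [← Nat.not_even_iff_odd, even_iff_two_dvd]
          intro hd
          omega
        have hqk : Odd (q ^ k) := hqo.pow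
        -- the quotient is odd
        have hgeo : (∑ i ∈ Finset.range k, q ^ i) * (q - 1) = q ^ k - 1 := by
          have := Nat.geomSum_eq hq2 k
          rw [this]
          apply Nat.div_mul_cancel
          have := sub_dvd_pow_sub_pow (q : ℤ) 1 k
          have h7 : q - 1 ∣ q ^ k - 1 := by
            have := Nat.sub_dvd_pow_sub_pow q 1 k
            simpa using this
          exact h7
        have hodd2 : Odd (∑ i ∈ Finset.range k, q ^ i) := by
          rw [Finset.odd_sum_iff_odd_card_odd]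
          have : (Finset.range k).filter (fun i => Odd (q ^ i)) = Finset.range k := by
            apply Finset.filter_true_of_mem
            intro i _
            exact hqo.pow
          rw [this, Finset.card_range]
          exact hkodd
        have hsum0 : (∑ i ∈ Finset.range k, q ^ i) ≠ 0 := by
          intro h0
          rw [h0] at hodd2
          simp at hodd2
        have hnd : ¬ 2 ∣ (∑ i ∈ Finset.range k, q ^ i) := by
          rw [← even_iff_two_dvd, Nat.not_even_iff_odd]
          exact hodd2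
        have e1 : padicValNat 2 (q ^ k - 1) = padicValNat 2 (q - 1) := by
          rw [← hgeo, padicValNat.mul hsum0 hq1pos.ne', padicValNat.eq_zero_of_not_dvd hnd, zero_add]
        omega
    · -- `r` odd
      have hrodd : Odd r := hr.odd_of_ne_two hr2
      have hqr : ¬ r ∣ q := by
        intro hd
        have h5 : r ∣ 1 := by
          have h6 := (Nat.dvd_sub hd hrq)
          have h7 : q - (q - 1) = 1 := by omega
          rwa [h7] at h6
        exact hr.one_lt.ne' (Nat.dvd_one.mp h5)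
      have hlte := padicValNat.pow_sub_pow (p := r) (x := q) (y := 1) hrodd (by omega) hrq hqr hkpos.ne'
      simp only [one_pow] at hlte
      omega
  · rintro ⟨h1, h2⟩
    have hnpos : 0 < n := by omega
    have hdvdq : ∀ i : ℕ, 1 ≤ q ^ i := fun i => Nat.one_le_pow _ _ (by omega)
    obtain ⟨n₁, n₂, hn, hc, hn₁⟩ := exists_decomp (q - 1) n hnpos
    have hn₁pos : 0 < n₁ := by
      rcases Nat.eq_zero_or_pos n₁ with h0 | h0
      · subst h0
        simp at hn
        omega
      · exact h0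
    have hn₂pos : 0 < n₂ := by
      rcases Nat.eq_zero_or_pos n₂ with h0 | h0
      · subst h0
        simp at hn
        omega
      · exact h0
    have hA : ∀ k : ℕ, 0 < k → (∀ l : ℕ, l.Prime → l ∣ k → l ∣ q - 1) → q ^ k ≡ 1 [MOD k * (q - 1)] := by
      intro k hk hl
      rw [mod_iff q k k hq1]
      apply mul_dvd_pow_sub_one _ k hk
      intro l hl' hd
      have h5 := Int.natCast_dvd_natCast.mpr (hl l hl' hd)
      rwa [Nat.cast_sub hq1, Nat.cast_one] at h5
    have hcop : Nat.Coprime q n₂ := by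
      apply Nat.Coprime.symm
      apply Nat.coprime_of_dvd
      intro l hl hl1 hl2
      have h3 : l ∣ q ^ n - 1 := by
        have := (Nat.modEq_iff_dvd' (hdvdq n)).mp h1.symm
        refine Dvd.dvd.trans ?_ this
        rw [hn]
        exact (hl1.trans (Dvd.intro_left _ rfl)).trans (Dvd.intro _ rfl)
      have h4 : l ∣ q ^ n := hl2.trans (dvd_pow_self q (by omega))
      have h5 : l ∣ 1 := by
        have h6 := Nat.dvd_sub h4 h3
        have h7 : q ^ n - (q ^ n - 1) = 1 := by
          have := hdvdq n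
          omega
        rwa [h7] at h6
      exact hl.one_lt.ne' (Nat.dvd_one.mp h5)
    have hφpos : 0 < Nat.totient n₂ := Nat.totient_pos.mpr hn₂pos
    -- the exponent `i`
    have hi : q ^ (n₁ * Nat.totient n₂) ≡ 1 [MOD n * (q - 1)] := by
      have e1 : q ^ (n₁ * Nat.totient n₂) ≡ 1 [MOD n₂] := by
        rw [mul_comm, pow_mul]
        simpa using (Nat.ModEq.pow_totient hcop).pow n₁
      have e2 : q ^ (n₁ * Nat.totient n₂) ≡ 1 [MOD n₁ * (q - 1)] := by
        rw [pow_mul]
        simpa using (hA n₁ hn₁pos hn₁).pow (Nat.totient n₂)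
      have hcop2 : Nat.Coprime n₂ (n₁ * (q - 1)) := by
        apply Nat.Coprime.mul_right _ hc
        apply Nat.Coprime.symm
        apply Nat.coprime_of_dvd
        intro l hl hl1 hl2
        have := hn₁ l hl hl1
        exact (Nat.Prime.not_coprime_iff_dvd.mpr ⟨l, hl, hl2, this⟩) hc
      have e3 := (Nat.modEq_and_modEq_iff_modEq_mul hcop2).mp ⟨e1, e2⟩
      have e4 : n₂ * (n₁ * (q - 1)) = n * (q - 1) := by rw [hn]; ring
      rwa [e4] at e3
    have hg := pow_gcd_mod hi h1
    have hgpos : 0 < Nat.gcd (n₁ * Nat.totient n₂) n := Nat.gcd_pos_of_pos_right _ hnpos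
    have hgn : Nat.gcd (n₁ * Nat.totient n₂) n = n := by
      by_contra hne
      have hle := Nat.le_of_dvd hnpos (Nat.gcd_dvd_right (n₁ * Nat.totient n₂) n)
      exact h2 _ hgpos (lt_of_le_of_ne hle hne) hg
    have hdvd : n ∣ n₁ * Nat.totient n₂ := by
      rw [← hgn]
      exact Nat.gcd_dvd_left _ _
    rw [hn] at hdvd
    have hdvd2 : n₂ ∣ Nat.totient n₂ := Nat.dvd_of_mul_dvd_mul_left hn₁pos hdvd
    have hn₂1 : n₂ = 1 := by
      by_contra hne
      have h3 : 1 < n₂ := by omega
      have h4 := Nat.totient_lt n₂ h3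
      have h5 := Nat.le_of_dvd hφpos hdvd2
      omega
    subst hn₂1
    rw [mul_one] at hn
    subst hn
    have hprime : ∀ r : ℕ, r.Prime → r ∣ n → r ∣ q - 1 := hn₁
    refine ⟨hprime, ?_⟩
    intro h4n
    by_contra h4q
    have h2q : 2 ∣ q - 1 := hprime 2 Nat.prime_two ((by norm_num : 2 ∣ 4).trans h4n)
    have hq3 : (q + 1) % 4 = 0 := by omega
    obtain ⟨k', rfl⟩ := h4n
    have hk'pos : 0 < k' := by omega
    -- `Q = q ^ 2`
    have h5 : ((k' : ℤ) * ((q : ℤ) ^ 2 - 1)) ∣ ((q : ℤ) ^ 2) ^ k' - 1 := by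
      apply mul_dvd_pow_sub_one _ k' hk'pos
      intro l hl hd
      have h6 := Int.natCast_dvd_natCast.mpr (hprime l hl (hd.trans (Dvd.intro_left _ rfl)))
      rw [Nat.cast_sub hq1, Nat.cast_one] at h6
      refine h6.trans ?_
      exact ⟨(q : ℤ) + 1, by ring⟩
    have h6 : q ^ (2 * k') ≡ 1 [MOD 4 * k' * (q - 1)] := by
      rw [mod_iff q _ _ hq1]
      rw [pow_mul]
      refine Dvd.dvd.trans ?_ h5
      obtain ⟨c, hc⟩ : (4 : ℤ) ∣ (q : ℤ) + 1 := by
        have : 4 ∣ q + 1 := Nat.dvd_of_mod_eq_zero hq3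
        exact_mod_cast this
      refine ⟨c, ?_⟩
      have h7 : (q : ℤ) ^ 2 - 1 = ((q : ℤ) - 1) * ((q : ℤ) + 1) := by ring
      rw [h7, hc]
      push_cast
      ring
    exact h2 (2 * k') (by omega) (by omega) h6

end Cfsg.Agent.S0694
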