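import Cfsg.Statements.S0699
import Mathlib
import Cfsg.Agent.Lib.H03.Wagner

set_option autoImplicit false
open Cfsg

namespace Cfsg.Agent.S0699


/-- Wagner's Theorem: a non-trivial normal subgroup of a triply transitive permutation group of odd degree at least 5 is triply transitive. -/
theorem result {α : Type*} [Fintype α] [DecidableEq α] (G : Subgroup (Equiv.Perm α)) (hodd : Odd (Fintype.card α)) (h5 : 5 ≤ Fintype.card α) (hG : MulAction.IsMultiplyPretransitive G α 3) (N : Subgroup G) [N.Normal] (hN : N ≠ ⊥) : MulAction.IsMultiplyPretransitive N α 3 := by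
  have hc : Nat.card α = Fintype.card α := Nat.card_eq_fintype_card
  have h := H03.jordan_normal_aux 1 (G := G) (X := α) (by omega) hG N hN
  rcases h with h | ⟨_, hc1, he⟩
  · exact H03.wagner_trans N h hG (by rwa [hc])
  · exfalso
    haveI : Fact (Nat.Prime 2) := ⟨Nat.prime_two⟩
    have h2 : MulAction.IsMultiplyPretransitive G α 2 :=
      MulAction.isMultiplyPretransitive_of_le (n := 3) (by omega) (by omega)
    have hNt := H03.isPretransitive_normal_of_prim (MulAction.isPreprimitive_of_is_two_pretransitive h2) N hN
    have hpg : IsPGroup 2 N := by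
      intro n
      exact ⟨1, Subtype.ext (by simpa using he n n.2)⟩
    haveI : Nonempty α := by
      apply Fintype.card_pos_iff.mp
      omega
    obtain ⟨a⟩ := ‹Nonempty α›
    have h1 : (MulAction.stabilizer N a).index = Nat.card α := MulAction.index_stabilizer_of_transitive N a
    obtain ⟨n, hn⟩ := hpg.index (MulAction.stabilizer N a)
    rw [hn, hc] at h1
    rcases Nat.eq_zero_or_pos n with rfl | hpos
    · simp at h1
      omega
    · rw [← h1] at hodd
      have : Even (2 ^ n) := (Nat.even_pow' hpos.ne').mpr even_two
      exact (Nat.not_even_iff_odd.mpr hodd) this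

end Cfsg.Agent.S0699
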