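import Cfsg.Statements.S0701

set_option autoImplicit false
open Cfsg

namespace Cfsg.Agent.S0701


/-- The centraliser in the full symmetric group of a transitive permutation group `G` is semiregular, and it is transitive if and only if `G` is regular. -/
theorem result {α : Type*} (G : Subgroup (Equiv.Perm α)) [MulAction.IsPretransitive G α] : (∀ c ∈ Subgroup.centralizer (G : Set (Equiv.Perm α)), ∀ a : α, c a = a → c = 1) ∧ (MulAction.IsPretransitive (Subgroup.centralizer (G : Set (Equiv.Perm α))) α ↔ ∀ a : α, MulAction.stabilizer G a = ⊥) := by
  have hsm : ∀ (g : G) (x : α), g • x = (g : Equiv.Perm α) x := fun g x => rfl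
  constructor
  · intro c hc a hca
    ext x
    obtain ⟨g, rfl⟩ := MulAction.exists_smul_eq G a x
    have h1 : (g : Equiv.Perm α) * c = c * (g : Equiv.Perm α) :=
      (Subgroup.mem_centralizer_iff.mp hc) g g.2
    have h2 := congrArg (fun p : Equiv.Perm α => p a) h1
    simp only [Equiv.Perm.coe_mul, Function.comp, hca] at h2
    simpa [hsm] using h2.symm
  · constructor
    · intro htr a
      ext ⟨g, hg⟩
      constructor
      · intro hga
        simp only [Subgroup.mem_bot]
        apply Subtype.ext
        ext x
        obtain ⟨⟨c, hc⟩, hcx⟩ := MulAction.exists_smul_eq (Subgroup.centralizer (G : Set (Equiv.Perm α))) a x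
        have hcx' : c a = x := hcx
        have h1 : g * c = c * g := (Subgroup.mem_centralizer_iff.mp hc) g hg
        have h2 := congrArg (fun p : Equiv.Perm α => p a) h1
        have hga' : g a = a := hga
        simp only [Equiv.Perm.coe_mul, Function.comp, hga'] at h2
        rw [← hcx']
        simpa using h2
      · intro h
        rw [Subgroup.mem_bot] at h
        have : g = 1 := congrArg Subtype.val h
        subst this
        exact one_mem _
    · intro hreg
      refine ⟨fun a b => ?_⟩
      have hinj : ∀ x : α, Function.Injective (fun g : G => g • x) := by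
        intro x g₁ g₂ h
        have h' : g₁ • x = g₂ • x := h
        have : g₂⁻¹ * g₁ ∈ MulAction.stabilizer G x := by
          rw [MulAction.mem_stabilizer_iff, mul_smul, h', inv_smul_smul]
        rw [hreg x, Subgroup.mem_bot] at this
        have h3 : g₁ = g₂ := by
          have := congrArg (g₂ * ·) this
          simpa using this
        exact h3
      have hbij : ∀ x : α, Function.Bijective (fun g : G => g • x) := fun x =>
        ⟨hinj x, fun y => MulAction.exists_smul_eq G x y⟩
      let ea := Equiv.ofBijective _ (hbij a)
      let eb := Equiv.ofBijective _ (hbij b)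
      let c : Equiv.Perm α := ea.symm.trans eb
      have hc : ∀ g : G, c (g • a) = g • b := by
        intro g
        have : ea.symm (g • a) = g := ea.symm_apply_apply g
        change eb (ea.symm (g • a)) = g • b
        rw [this]; rfl
      refine ⟨⟨c, ?_⟩, ?_⟩
      · rw [Subgroup.mem_centralizer_iff]
        intro h hh
        ext x
        obtain ⟨g, rfl⟩ := MulAction.exists_smul_eq G a x
        have h1 : c (((⟨h, hh⟩ : G) * g) • a) = ((⟨h, hh⟩ : G) * g) • b := hc _
        have h2 := hc g
        rw [mul_smul, mul_smul] at h1
        change h (c (g • a)) = c (h (g • a))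
        rw [h2]
        exact h1.symm
      · have := hc 1
        simp only [one_smul] at this
        exact this

end Cfsg.Agent.S0701
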