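import Cfsg.Statements.S0702
import Cfsg.Agent.Lib.H13.Basic

set_option autoImplicit false
open Cfsg

namespace Cfsg.Agent.S0702


/-- For a transitive permutation group `G` on a finite set, the centraliser of `G` in the symmetric group is isomorphic to `N_G(G_ω)/G_ω`, and its orbit of `ω` is the set of fixed points of `G_ω`. -/
theorem result {α : Type*} [Finite α] (G : Subgroup (Equiv.Perm α)) [MulAction.IsPretransitive G α] (a : α) : Nonempty (Subgroup.centralizer (G : Set (Equiv.Perm α)) ≃* Subgroup.normalizer ((MulAction.stabilizer G a : Subgroup G) : Set G) ⧸ (MulAction.stabilizer G a).subgroupOf (Subgroup.normalizer ((MulAction.stabilizer G a : Subgroup G) : Set G))) ∧ MulAction.orbit (Subgroup.centralizer (G : Set (Equiv.Perm α))) a = MulAction.fixedPoints (MulAction.stabilizer G a) α := by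
  classical
  have : Finite (Equiv.Perm α) := inferInstance
  have hfG : Finite G := inferInstance
  set H : Subgroup G := MulAction.stabilizer G a with hH
  set N : Subgroup G := Subgroup.normalizer (H : Set G) with hN
  have hsm : ∀ (g : G) (x : α), g • x = (g : Equiv.Perm α) x := fun g x => rfl
  -- elements carrying `a` to an `H`-fixed point normalize `H`
  have hnorm : ∀ g : G, (∀ h ∈ H, h • (g • a) = g • a) → g ∈ N := by
    intro g hg
    have h1 : g⁻¹ ∈ N := by
      apply Cfsg.Agent.H13.mem_normalizer_of_map_conj_le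
      rintro _ ⟨h, hh, rfl⟩
      simp only [MulEquiv.toMonoidHom_eq_coe, MonoidHom.coe_coe, MulAut.conj_apply, inv_inv] at *
      rw [hH, MulAction.mem_stabilizer_iff, mul_smul, mul_smul, hg h hh, inv_smul_smul]
    simpa using N.inv_mem h1
  choose φ hφ using fun x : α => MulAction.exists_smul_eq G a x
  let cf : N → α → α := fun n x => (φ x * (n : G)⁻¹) • a
  have hcf : ∀ (n : N) (g : G), cf n (g • a) = (g * (n : G)⁻¹) • a := by
    intro n g
    have h0 : g⁻¹ * φ (g • a) ∈ H := by
      rw [hH, MulAction.mem_stabilizer_iff, mul_smul, hφ, inv_smul_smul]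
    have h1 : (n : G) * (g⁻¹ * φ (g • a)) * (n : G)⁻¹ ∈ H :=
      (Subgroup.mem_normalizer_iff.mp n.2 _).mp h0
    have h2 : ((n : G) * (g⁻¹ * φ (g • a)) * (n : G)⁻¹) • a = a := h1
    change (φ (g • a) * (n : G)⁻¹) • a = (g * (n : G)⁻¹) • a
    have h3 : φ (g • a) * (n : G)⁻¹ = (g * (n : G)⁻¹) * ((n : G) * (g⁻¹ * φ (g • a)) * (n : G)⁻¹) := by
      group
    rw [h3, mul_smul, h2]
  have hcfx : ∀ (n : N) (x : α), ∃ g : G, x = g • a ∧ cf n x = (g * (n : G)⁻¹) • a := by
    intro n x
    obtain ⟨g, rfl⟩ := MulAction.exists_smul_eq G a x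
    exact ⟨g, rfl, hcf n g⟩
  let cp : N → Equiv.Perm α := fun n =>
    { toFun := cf n
      invFun := cf n⁻¹
      left_inv := by
        intro x
        obtain ⟨g, rfl, h⟩ := hcfx n x
        rw [h, hcf]
        simp
      right_inv := by
        intro x
        obtain ⟨g, rfl, h⟩ := hcfx n⁻¹ x
        rw [h, hcf]
        simp }
  have hcp : ∀ (n : N) (g : G), cp n (g • a) = (g * (n : G)⁻¹) • a := hcf
  have hcentral : ∀ n : N, cp n ∈ Subgroup.centralizer (G : Set (Equiv.Perm α)) := by
    intro n
    rw [Subgroup.mem_centralizer_iff]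
    intro h hh
    ext x
    obtain ⟨g, rfl⟩ := MulAction.exists_smul_eq G a x
    have h1 := hcp n (⟨h, hh⟩ * g)
    rw [mul_smul, mul_assoc, mul_smul] at h1
    change h (cp n (g • a)) = cp n (h (g • a))
    rw [hcp]
    exact h1.symm
  let Φ : N →* Subgroup.centralizer (G : Set (Equiv.Perm α)) :=
    { toFun := fun n => ⟨cp n, hcentral n⟩
      map_one' := by
        apply Subtype.ext
        ext x
        obtain ⟨g, rfl⟩ := MulAction.exists_smul_eq G a x
        change cp 1 (g • a) = g • a
        rw [hcp]; simp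
      map_mul' := by
        intro n m
        apply Subtype.ext
        ext x
        obtain ⟨g, rfl⟩ := MulAction.exists_smul_eq G a x
        change cp (n * m) (g • a) = cp n (cp m (g • a))
        rw [hcp, hcp, hcp]
        simp [mul_assoc] }
  have hΦ : ∀ (n : N) (g : G), ((Φ n : Equiv.Perm α)) (g • a) = (g * (n : G)⁻¹) • a := hcp
  have hcomm : ∀ (c : Subgroup.centralizer (G : Set (Equiv.Perm α))) (h : G) (x : α),
      (c : Equiv.Perm α) (h • x) = h • (c : Equiv.Perm α) x := by
    intro c h x
    have h1 := (Subgroup.mem_centralizer_iff.mp c.2) h h.2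
    have h2 := congrArg (fun p : Equiv.Perm α => p x) h1
    exact h2.symm
  have hker : Φ.ker = H.subgroupOf N := by
    ext n
    rw [MonoidHom.mem_ker, Subgroup.mem_subgroupOf]
    constructor
    · intro hn
      have h1 := hΦ n 1
      rw [hn] at h1
      simp only [one_smul, one_mul] at h1
      have h2 : (n : G)⁻¹ ∈ H := h1.symm
      simpa using H.inv_mem h2
    · intro hn
      apply Subtype.ext
      ext x
      obtain ⟨g, rfl⟩ := MulAction.exists_smul_eq G a x
      change cp n (g • a) = g • a
      rw [hcp, mul_smul]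
      have h2 : (n : G)⁻¹ • a = a := H.inv_mem hn
      rw [h2]
  have hsurj : Function.Surjective Φ := by
    intro c
    obtain ⟨g, hg⟩ := MulAction.exists_smul_eq G a ((c : Equiv.Perm α) a)
    have hgN : g ∈ N := by
      apply hnorm
      intro h hh
      rw [hg]
      have h1 : h • a = a := hh
      rw [← hcomm, h1]
    refine ⟨(⟨g, hgN⟩ : N)⁻¹, ?_⟩
    apply Subtype.ext
    ext x
    obtain ⟨y, rfl⟩ := MulAction.exists_smul_eq G a x
    rw [hΦ]
    simp only [InvMemClass.coe_inv, inv_inv]
    rw [mul_smul, hg, hcomm]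
  constructor
  · exact ⟨((QuotientGroup.quotientMulEquivOfEq hker).symm.trans (QuotientGroup.quotientKerEquivOfSurjective Φ hsurj)).symm⟩
  · ext b
    constructor
    · rintro ⟨c, rfl⟩
      rintro ⟨h, hh⟩
      have h1 : h • a = a := hh
      have := hcomm c h a
      rw [h1] at this
      exact this.symm
    · intro hb
      obtain ⟨g, rfl⟩ := MulAction.exists_smul_eq G a b
      have hgN : g ∈ N := by
        apply hnorm
        intro h hh
        exact hb ⟨h, hh⟩
      refine ⟨Φ (⟨g, hgN⟩ : N)⁻¹, ?_⟩
      have h1 := hΦ ((⟨g, hgN⟩ : N)⁻¹) 1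
      simp only [one_smul, one_mul, InvMemClass.coe_inv, inv_inv] at h1
      exact h1

end Cfsg.Agent.S0702
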