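import Cfsg.Statements.S0703
import Mathlib
import Cfsg.Agent.Lib.H03.PermReg

set_option autoImplicit false
open Cfsg

namespace Cfsg.Agent.S0703


/-- An abelian transitive minimal normal subgroup `M` of a permutation group on a finite set is self-centralising in the symmetric group, regular, elementary abelian, and is the unique minimal normal subgroup. -/
theorem result {α : Type*} [Finite α] (G : Subgroup (Equiv.Perm α)) (M : Subgroup G) [M.Normal] (hM : M ≠ ⊥) (hmin : ∀ L : Subgroup G, L.Normal → L ≤ M → L = ⊥ ∨ L = M) (hab : IsMulCommutative M) (htrans : MulAction.IsPretransitive M α) : Subgroup.centralizer ((M.map G.subtype : Subgroup (Equiv.Perm α)) : Set (Equiv.Perm α)) = M.map G.subtype ∧ (∀ a : α, MulAction.stabilizer M a = ⊥) ∧ (∃ p : ℕ, p.Prime ∧ ∀ m ∈ M, m ^ p = 1) ∧ ∀ L : Subgroup G, L.Normal → L ≠ ⊥ → (∀ L' : Subgroup G, L'.Normal → L' ≤ L → L' = ⊥ ∨ L' = L) → L = M := by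
  classical
  have hfin : Finite G := inferInstance
  set T : Set (Equiv.Perm α) := ((M.map G.subtype : Subgroup (Equiv.Perm α)) : Set (Equiv.Perm α)) with hT
  have hmemT : ∀ m : M, ((m : G) : Equiv.Perm α) ∈ T := fun m => ⟨(m : G), m.2, rfl⟩
  have htr : ∀ x y, ∃ t ∈ T, t x = y := by
    intro x y
    obtain ⟨m, hm⟩ := MulAction.exists_smul_eq M x y
    exact ⟨_, hmemT m, hm⟩
  have hcomm : ∀ m n : M, m * n = n * m := fun m n => mul_comm' m n
  have hcommT : ∀ m : M, ∀ t ∈ T, ((m : G) : Equiv.Perm α) * t = t * ((m : G) : Equiv.Perm α) := by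
    rintro m _ ⟨g, hg, rfl⟩
    have := hcomm m ⟨g, hg⟩
    exact congrArg (fun x : M => ((x : G) : Equiv.Perm α)) this
  have hcentral : Subgroup.centralizer ((M.map G.subtype : Subgroup (Equiv.Perm α)) : Set (Equiv.Perm α)) = M.map G.subtype := by
    apply le_antisymm
    · intro c hc
      rw [Subgroup.mem_centralizer_iff] at hc
      rcases isEmpty_or_nonempty α with he | ⟨⟨a⟩⟩
      · have : c = 1 := by
          ext x
          exact he.elim x
        rw [this]
        exact one_mem _
      · obtain ⟨t, ht, hta⟩ := htr a (c a)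
        obtain ⟨g, hg, rfl⟩ := ht
        have : c = G.subtype g := by
          apply Cfsg.Agent.H03.eq_of_commute_of_transitive T htr c _ (fun t ht => (hc t ht).symm)
            (hcommT ⟨g, hg⟩) (a := a) hta.symm
        rw [this]
        exact ⟨g, hg, rfl⟩
    · rintro _ ⟨g, hg, rfl⟩
      rw [Subgroup.mem_centralizer_iff]
      intro t ht
      exact (hcommT ⟨g, hg⟩ t ht).symm
  have hreg : ∀ a : α, MulAction.stabilizer M a = ⊥ := by
    intro a
    rw [eq_bot_iff]
    intro m hm
    have h1 : ((m : G) : Equiv.Perm α) a = a := hm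
    have h2 := Cfsg.Agent.H03.eq_one_of_commute_of_transitive T htr _ (hcommT m) h1
    rw [Subgroup.mem_bot]
    apply Subtype.ext
    apply Subtype.ext
    exact h2
  refine ⟨hcentral, hreg, ?_, ?_⟩
  · have hnt : Nat.card M ≠ 1 := by
      intro h
      apply hM
      have := (Subgroup.card_eq_one).mp h
      exact this
    obtain ⟨p, hp, hpd⟩ := Nat.exists_prime_and_dvd hnt
    refine ⟨p, hp, ?_⟩
    have hcm : ∀ x ∈ M, ∀ y ∈ M, x * y = y * x := fun x hx y hy => by
      have := hcomm ⟨x, hx⟩ ⟨y, hy⟩
      exact congrArg Subtype.val this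
    let L : Subgroup G :=
      { carrier := {g | g ∈ M ∧ g ^ p = 1}
        mul_mem' := by
          rintro a b ⟨ha, ha'⟩ ⟨hb, hb'⟩
          refine ⟨M.mul_mem ha hb, ?_⟩
          rw [(show Commute a b from hcm a ha b hb).mul_pow, ha', hb', one_mul]
        one_mem' := ⟨M.one_mem, one_pow _⟩
        inv_mem' := by
          rintro a ⟨ha, ha'⟩
          exact ⟨M.inv_mem ha, by rw [inv_pow, ha', inv_one]⟩ }
    have hLn : L.Normal := by
      refine ⟨fun a ha g => ⟨‹M.Normal›.conj_mem a ha.1 g, ?_⟩⟩
      rw [conj_pow, ha.2, mul_one, mul_inv_cancel]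
    have : Fact p.Prime := ⟨hp⟩
    obtain ⟨x, hx⟩ := exists_prime_orderOf_dvd_card' p hpd
    have hxL : (x : G) ∈ L := by
      refine ⟨x.2, ?_⟩
      have := pow_orderOf_eq_one x
      rw [hx] at this
      exact congrArg Subtype.val this
    have hx1 : (x : G) ≠ 1 := by
      intro h
      have : x = 1 := Subtype.ext h
      rw [this, orderOf_one] at hx
      exact hp.one_lt.ne hx
    rcases hmin L hLn (fun a ha => ha.1) with h | h
    · rw [h, Subgroup.mem_bot] at hxL
      exact absurd hxL hx1
    · intro m hm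
      have : m ∈ L := h ▸ hm
      exact this.2
  · intro L hLn hL0 hLmin
    rcases hmin (L ⊓ M) (@Subgroup.normal_inf_normal _ _ L M hLn inferInstance) inf_le_right with h | h
    · exfalso
      apply hL0
      rw [eq_bot_iff]
      intro l hl
      have hdis : Disjoint L M := disjoint_iff.mpr h
      have hl' : ((l : G) : Equiv.Perm α) ∈ Subgroup.centralizer ((M.map G.subtype : Subgroup (Equiv.Perm α)) : Set (Equiv.Perm α)) := by
        rw [Subgroup.mem_centralizer_iff]
        rintro _ ⟨m, hm, rfl⟩
        have := Subgroup.commute_of_normal_of_disjoint L M hLn inferInstance hdis l m hl hm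
        exact congrArg (fun x : G => (x : Equiv.Perm α)) this.symm
      rw [hcentral] at hl'
      obtain ⟨m, hm, hml⟩ := hl'
      have hlm : l = m := Subtype.ext hml.symm
      have : l ∈ L ⊓ M := ⟨hl, hlm ▸ hm⟩
      rw [h] at this
      exact this
    · have hML : M ≤ L := by
        intro m hm
        have : m ∈ L ⊓ M := by rw [h]; exact hm
        exact this.1
      rcases hLmin M inferInstance hML with h2 | h2
      · exact absurd h2 hM
      · exact h2.symm

end Cfsg.Agent.S0703
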