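import Cfsg.Statements.S0704
import Mathlib
import Cfsg.Agent.Lib.H03.PermReg

set_option autoImplicit false
open Cfsg

namespace Cfsg.Agent.S0704


/-- Two distinct transitive minimal normal subgroups `M`, `N` of a permutation group are regular, non-abelian, isomorphic, each other's centraliser in the symmetric group, and the only minimal normal subgroups. -/
theorem result {α : Type*} (G : Subgroup (Equiv.Perm α)) (M N : Subgroup G) [M.Normal] [N.Normal] (hM : M ≠ ⊥) (hN : N ≠ ⊥) (hMmin : ∀ L : Subgroup G, L.Normal → L ≤ M → L = ⊥ ∨ L = M) (hNmin : ∀ L : Subgroup G, L.Normal → L ≤ N → L = ⊥ ∨ L = N) (hMN : M ≠ N) (hMt : MulAction.IsPretransitive M α) (hNt : MulAction.IsPretransitive N α) : (∀ a : α, MulAction.stabilizer M a = ⊥) ∧ (∀ a : α, MulAction.stabilizer N a = ⊥) ∧ ¬ IsMulCommutative M ∧ Nonempty (M ≃* N) ∧ Subgroup.centralizer ((M.map G.subtype : Subgroup (Equiv.Perm α)) : Set (Equiv.Perm α)) = N.map G.subtype ∧ Subgroup.centralizer ((N.map G.subtype : Subgroup (Equiv.Perm α)) : Set (Equiv.Perm α)) = M.map G.subtype ∧ ∀ L :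 Subgroup G, L.Normal → L ≠ ⊥ → (∀ L' : Subgroup G, L'.Normal → L' ≤ L → L' = ⊥ ∨ L' = L) → L = M ∨ L = N := by
  classical
  -- M and N commute
  have hinf : M ⊓ N = ⊥ := by
    rcases hMmin (M ⊓ N) (@Subgroup.normal_inf_normal _ _ M N inferInstance inferInstance) inf_le_left with h | h
    · exact h
    · exfalso
      have hMN' : M ≤ N := by
        intro m hm
        have : m ∈ M ⊓ N := by rw [h]; exact hm
        exact this.2
      rcases hNmin M inferInstance hMN' with h2 | h2
      · exact hM h2
      · exact hMN h2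
  have hdis : Disjoint M N := disjoint_iff.mpr hinf
  have hcommMN : ∀ m ∈ M, ∀ n ∈ N, Commute m n := fun m hm n hn =>
    Subgroup.commute_of_normal_of_disjoint M N inferInstance inferInstance hdis m n hm hn
  have hp : ∀ m ∈ M, ∀ n ∈ N, ((m : G) : Equiv.Perm α) * ((n : G) : Equiv.Perm α) = ((n : G) : Equiv.Perm α) * ((m : G) : Equiv.Perm α) := by
    intro m hm n hn
    exact congrArg (fun x : G => (x : Equiv.Perm α)) (hcommMN m hm n hn)
  set TM : Set (Equiv.Perm α) := ((M.map G.subtype : Subgroup (Equiv.Perm α)) : Set (Equiv.Perm α)) with hTM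
  set TN : Set (Equiv.Perm α) := ((N.map G.subtype : Subgroup (Equiv.Perm α)) : Set (Equiv.Perm α)) with hTN
  have htrM : ∀ x y, ∃ t ∈ TM, t x = y := by
    intro x y
    obtain ⟨m, hm⟩ := MulAction.exists_smul_eq M x y
    exact ⟨_, ⟨(m : G), m.2, rfl⟩, hm⟩
  have htrN : ∀ x y, ∃ t ∈ TN, t x = y := by
    intro x y
    obtain ⟨m, hm⟩ := MulAction.exists_smul_eq N x y
    exact ⟨_, ⟨(m : G), m.2, rfl⟩, hm⟩
  have hcMN : ∀ m ∈ M, ∀ t ∈ TN, ((m : G) : Equiv.Perm α) * t = t * ((m : G) : Equiv.Perm α) := by
    rintro m hm _ ⟨n, hn, rfl⟩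
    exact hp m hm n hn
  have hcNM : ∀ n ∈ N, ∀ t ∈ TM, ((n : G) : Equiv.Perm α) * t = t * ((n : G) : Equiv.Perm α) := by
    rintro n hn _ ⟨m, hm, rfl⟩
    exact (hp m hm n hn).symm
  have hregM : ∀ a : α, MulAction.stabilizer M a = ⊥ := by
    intro a
    rw [eq_bot_iff]
    intro m hm
    have h1 : (((m : M) : G) : Equiv.Perm α) a = a := hm
    have h2 := Cfsg.Agent.H03.eq_one_of_commute_of_transitive TN htrN _ (hcMN m m.2) h1
    rw [Subgroup.mem_bot]
    apply Subtype.ext
    apply Subtype.ext
    exact h2
  have hregN : ∀ a : α, MulAction.stabilizer N a = ⊥ := by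
    intro a
    rw [eq_bot_iff]
    intro m hm
    have h1 : (((m : N) : G) : Equiv.Perm α) a = a := hm
    have h2 := Cfsg.Agent.H03.eq_one_of_commute_of_transitive TM htrM _ (hcNM m m.2) h1
    rw [Subgroup.mem_bot]
    apply Subtype.ext
    apply Subtype.ext
    exact h2
  have hCM : Subgroup.centralizer ((M.map G.subtype : Subgroup (Equiv.Perm α)) : Set (Equiv.Perm α)) = N.map G.subtype := by
    apply le_antisymm
    · intro c hc
      rw [Subgroup.mem_centralizer_iff] at hc
      rcases isEmpty_or_nonempty α with he | ⟨⟨a⟩⟩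
      · have : c = 1 := by
          ext x
          exact he.elim x
        rw [this]
        exact one_mem _
      · obtain ⟨t, ht, hta⟩ := htrN a (c a)
        obtain ⟨g, hg, rfl⟩ := ht
        have : c = G.subtype g := by
          apply Cfsg.Agent.H03.eq_of_commute_of_transitive TM htrM c _ (fun t ht => (hc t ht).symm)
            (hcNM g hg) (a := a) hta.symm
        rw [this]
        exact ⟨g, hg, rfl⟩
    · rintro _ ⟨g, hg, rfl⟩
      rw [Subgroup.mem_centralizer_iff]
      intro t ht
      exact (hcNM g hg t ht).symm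
  have hCN : Subgroup.centralizer ((N.map G.subtype : Subgroup (Equiv.Perm α)) : Set (Equiv.Perm α)) = M.map G.subtype := by
    apply le_antisymm
    · intro c hc
      rw [Subgroup.mem_centralizer_iff] at hc
      rcases isEmpty_or_nonempty α with he | ⟨⟨a⟩⟩
      · have : c = 1 := by
          ext x
          exact he.elim x
        rw [this]
        exact one_mem _
      · obtain ⟨t, ht, hta⟩ := htrM a (c a)
        obtain ⟨g, hg, rfl⟩ := ht
        have : c = G.subtype g := by
          apply Cfsg.Agent.H03.eq_of_commute_of_transitive TN htrN c _ (fun t ht => (hc t ht).symm)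
            (hcMN g hg) (a := a) hta.symm
        rw [this]
        exact ⟨g, hg, rfl⟩
    · rintro _ ⟨g, hg, rfl⟩
      rw [Subgroup.mem_centralizer_iff]
      intro t ht
      exact (hcMN g hg t ht).symm
  have hnonab : ¬ IsMulCommutative M := by
    intro hab
    have hMN' : M ≤ N := by
      intro m hm
      have h1 : ((m : G) : Equiv.Perm α) ∈ Subgroup.centralizer ((M.map G.subtype : Subgroup (Equiv.Perm α)) : Set (Equiv.Perm α)) := by
        rw [Subgroup.mem_centralizer_iff]
        rintro _ ⟨m', hm', rfl⟩
        have := mul_comm' (⟨m', hm'⟩ : M) ⟨m, hm⟩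
        exact congrArg (fun x : M => ((x : G) : Equiv.Perm α)) this
      rw [hCM] at h1
      obtain ⟨n, hn, hnm⟩ := h1
      have : n = m := Subtype.ext hnm
      exact this ▸ hn
    rcases hNmin M inferInstance hMN' with h2 | h2
    · exact hM h2
    · exact hMN h2
  have hne : Nonempty α := by
    by_contra he
    rw [not_nonempty_iff] at he
    apply hM
    rw [eq_bot_iff]
    intro m _
    rw [Subgroup.mem_bot]
    apply Subtype.ext
    ext x
    exact he.elim x
  obtain ⟨a⟩ := hne
  have huniqM : ∀ x y : M, x • a = y • a → x = y := by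
    intro x y h
    have : y⁻¹ * x ∈ MulAction.stabilizer M a := by
      rw [MulAction.mem_stabilizer_iff, mul_smul, h, inv_smul_smul]
    rw [hregM a, Subgroup.mem_bot] at this
    have h3 := congrArg (y * ·) this
    simpa using h3
  have huniqN : ∀ x y : N, x • a = y • a → x = y := by
    intro x y h
    have : y⁻¹ * x ∈ MulAction.stabilizer N a := by
      rw [MulAction.mem_stabilizer_iff, mul_smul, h, inv_smul_smul]
    rw [hregN a, Subgroup.mem_bot] at this
    have h3 := congrArg (y * ·) this
    simpa using h3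
  choose f hf using fun m : M => MulAction.exists_smul_eq N a (m • a)
  have hfmul : ∀ m m' : M, f (m * m') = f m' * f m := by
    intro m m'
    apply huniqN
    have h1 : ∀ (u : M) (v : N) (x : α), u • (v • x) = v • (u • x) := by
      intro u v x
      have := congrArg (fun p : Equiv.Perm α => p x) (hp u u.2 v v.2)
      exact this
    calc f (m * m') • a = (m * m') • a := hf _
      _ = m • (m' • a) := mul_smul _ _ _
      _ = m • (f m' • a) := by rw [hf]
      _ = f m' • (m • a) := h1 _ _ _
      _ = f m' • (f m • a) := by rw [hf]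
      _ = (f m' * f m) • a := (mul_smul _ _ _).symm
  let ψ : M →* N :=
    { toFun := fun m => (f m)⁻¹
      map_one' := by
        have : f 1 = 1 := by
          apply huniqN
          rw [hf, one_smul, one_smul]
        rw [this, inv_one]
      map_mul' := by
        intro m m'
        rw [hfmul, mul_inv_rev] }
  have hbij : Function.Bijective ψ := by
    constructor
    · intro m m' h
      have h1 : f m = f m' := inv_injective h
      apply huniqM
      rw [← hf, ← hf, h1]
    · intro n
      obtain ⟨m, hm⟩ := MulAction.exists_smul_eq M a (n⁻¹ • a)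
      refine ⟨m, ?_⟩
      have h1 : f m = n⁻¹ := by
        apply huniqN
        rw [hf, hm]
      change (f m)⁻¹ = n
      rw [h1, inv_inv]
  refine ⟨hregM, hregN, hnonab, ⟨MulEquiv.ofBijective ψ hbij⟩, hCM, hCN, ?_⟩
  intro L hLn hL0 hLmin
  rcases hMmin (L ⊓ M) (@Subgroup.normal_inf_normal _ _ L M hLn inferInstance) inf_le_right with h | h
  · right
    have hdis2 : Disjoint L M := disjoint_iff.mpr h
    have hLN : L ≤ N := by
      intro l hl
      have hl' : ((l : G) : Equiv.Perm α) ∈ Subgroup.centralizer ((M.map G.subtype : Subgroup (Equiv.Perm α)) : Set (Equiv.Perm α)) := by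
        rw [Subgroup.mem_centralizer_iff]
        rintro _ ⟨m, hm, rfl⟩
        have := Subgroup.commute_of_normal_of_disjoint L M hLn inferInstance hdis2 l m hl hm
        exact congrArg (fun x : G => (x : Equiv.Perm α)) this.symm
      rw [hCM] at hl'
      obtain ⟨n, hn, hnl⟩ := hl'
      have : n = l := Subtype.ext hnl
      exact this ▸ hn
    rcases hNmin L hLn hLN with h2 | h2
    · exact absurd h2 hL0
    · exact h2
  · left
    have hML : M ≤ L := by
      intro m hm
      have : m ∈ L ⊓ M := by rw [h]; exact hm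
      exact this.1
    rcases hLmin M inferInstance hML with h2 | h2
    · exact absurd h2 hM
    · exact h2.symm

end Cfsg.Agent.S0704
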