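import Cfsg.Statements.S0705
import Mathlib

set_option autoImplicit false
open scoped Pointwise
open Cfsg

namespace Cfsg.Agent.S0705

theorem swap_move {α : Type*} [Fintype α] [DecidableEq α] (G : Subgroup (Equiv.Perm α)) {k : ℕ}
    (hgen : ∀ s : Finset α, s.card = k + 1 → ∀ σ : Equiv.Perm ↥s, ∃ g ∈ G, ∀ x : ↥s, g (x : α) = σ x)
    (s : Finset α) (hs : s.card = k + 1) {u v : α} (hu : u ∈ s) (hv : v ∈ s) :
    ∃ g ∈ G, g u = v ∧ g v = u ∧ ∀ w ∈ s, w ≠ u → w ≠ v → g w = w := by
  obtain ⟨g, hg, h⟩ := hgen s hs (Equiv.swap ⟨u, hu⟩ ⟨v, hv⟩)
  refine ⟨g, hg, ?_, ?_, ?_⟩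
  · simpa using h ⟨u, hu⟩
  · simpa using h ⟨v, hv⟩
  · intro w hw h1 h2
    have := h ⟨w, hw⟩
    rw [Equiv.swap_apply_of_ne_of_ne (by simpa [Subtype.ext_iff] using h1) (by simpa [Subtype.ext_iff] using h2)] at this
    exact this

theorem tuple_move {α : Type*} [Fintype α] [DecidableEq α] (G : Subgroup (Equiv.Perm α)) {k : ℕ}
    (hk : k < Fintype.card α)
    (hgen : ∀ s : Finset α, s.card = k + 1 → ∀ σ : Equiv.Perm ↥s, ∃ g ∈ G, ∀ x : ↥s, g (x : α) = σ x) :
    ∀ (n : ℕ) (x y : Fin k ↪ α), (Finset.univ.filter fun i => x i ≠ y i).card = n →
      ∃ g ∈ G, ∀ i, g (x i) = y i := by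
  intro n
  induction n using Nat.strong_induction_on with
  | _ n ih =>
    intro x y hxy
    by_cases hn : n = 0
    · subst hn
      have : ∀ i, x i = y i := by
        intro i
        by_contra hi
        have : i ∈ (Finset.univ.filter fun i => x i ≠ y i) := by simp [hi]
        rw [Finset.card_eq_zero.mp hxy] at this
        simp at this
      exact ⟨1, G.one_mem, fun i => by simpa using this i⟩
    · obtain ⟨i, hi⟩ : ∃ i, x i ≠ y i := by
        by_contra hall
        push Not at hall
        apply hn
        rw [← hxy, Finset.card_eq_zero, Finset.filter_eq_empty_iff]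
        simpa using hall
      -- the `(k+1)`-set used for the move
      have hcard : (Finset.univ.map x).card = k := by simp
      have hstep : ∃ g ∈ G, g (x i) = y i ∧ ∀ l, g (x l) ≠ y l → x l ≠ y l := by
        by_cases hv : y i ∈ Finset.univ.map x
        · obtain ⟨b, hb⟩ : ∃ b, b ∉ Finset.univ.map x := by
            by_contra hall
            push Not at hall
            have : Finset.univ.map x = Finset.univ := Finset.eq_univ_iff_forall.mpr hall
            rw [this, Finset.card_univ] at hcard
            omega
          have hs : (insert b (Finset.univ.map x)).card = k + 1 := by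
            rw [Finset.card_insert_of_notMem hb, hcard]
          obtain ⟨g, hg, h1, h2, h3⟩ := swap_move G hgen _ hs (u := x i) (v := y i)
            (Finset.mem_insert_of_mem (by simp)) (Finset.mem_insert_of_mem hv)
          refine ⟨g, hg, h1, ?_⟩
          intro l hl hxl
          by_cases h4 : x l = x i
          · have hli : l = i := x.injective h4
            subst hli
            exact hl h1
          · by_cases h5 : x l = y i
            · -- `x l = y i`, and `y l ≠ y i` unless `l = i`
              have hli : l ≠ i := by
                rintro rfl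
                exact h4 rfl
              apply hli
              apply y.injective
              rw [← hxl, h5]
            · exact hl (by rw [h3 _ (Finset.mem_insert_of_mem (by simp)) h4 h5]; exact hxl)
        · have hs : (insert (y i) (Finset.univ.map x)).card = k + 1 := by
            rw [Finset.card_insert_of_notMem hv, hcard]
          obtain ⟨g, hg, h1, h2, h3⟩ := swap_move G hgen _ hs (u := x i) (v := y i)
            (Finset.mem_insert_of_mem (by simp)) (Finset.mem_insert_self _ _)
          refine ⟨g, hg, h1, ?_⟩
          intro l hl hxl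
          by_cases h4 : x l = x i
          · have hli : l = i := x.injective h4
            subst hli
            exact hl h1
          · have h5 : x l ≠ y i := by
              intro h
              apply hv
              rw [← h]
              simp
            exact hl (by rw [h3 _ (Finset.mem_insert_of_mem (by simp)) h4 h5]; exact hxl)
      obtain ⟨g, hg, h1, h2⟩ := hstep
      let x' : Fin k ↪ α := x.trans g.toEmbedding
      have hx' : ∀ l, x' l = g (x l) := fun l => rfl
      have hlt : (Finset.univ.filter fun l => x' l ≠ y l).card < n := by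
        rw [← hxy]
        apply Finset.card_lt_card
        rw [Finset.ssubset_iff_of_subset]
        · exact ⟨i, by simp [hi], by simp [hx', h1]⟩
        · intro l hl
          simp only [Finset.mem_filter, Finset.mem_univ, true_and] at hl ⊢
          exact h2 l hl
      obtain ⟨h', hh', h3⟩ := ih _ hlt x' y rfl
      exact ⟨h' * g, G.mul_mem hh' hg, fun l => h3 l⟩

/-- A generously `k`-transitive permutation group (every `(k+1)`-subset has its full symmetric group induced by the setwise stabiliser) of degree greater than `k` is `k`-transitive, and for a `k`-subset the setwise and pointwise stabilisers have the same orbits outside it. -/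
theorem result {α : Type*} [Fintype α] [DecidableEq α] (G : Subgroup (Equiv.Perm α)) {k : ℕ} (hk : k < Fintype.card α) (hgen : ∀ s : Finset α, s.card = k + 1 → ∀ σ : Equiv.Perm ↥s, ∃ g ∈ G, ∀ x : ↥s, g (x : α) = σ x) : MulAction.IsMultiplyPretransitive G α k ∧ ∀ s : Finset α, s.card = k → ∀ a b : α, a ∉ s → b ∉ s → (∃ g ∈ G, g • s = s ∧ g a = b) → ∃ g ∈ G, (∀ x ∈ s, g x = x) ∧ g a = b := by
  classical
  constructor
  · refine ⟨fun x y => ?_⟩
    obtain ⟨g, hg, h⟩ := tuple_move G hk hgen _ x y rfl
    exact ⟨⟨g, hg⟩, Function.Embedding.ext h⟩
  · intro s hs a b ha hb ⟨g, hg, hgs, hgab⟩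
    have hgmem : ∀ x ∈ s, g x ∈ s := by
      intro x hx
      have : g • x ∈ g • s := Finset.smul_mem_smul_finset hx
      rw [hgs] at this
      exact this
    have hgmem' : ∀ x ∈ s, g⁻¹ x ∈ s := by
      intro x hx
      have : x ∈ g • s := by rw [hgs]; exact hx
      rw [Finset.mem_smul_finset] at this
      obtain ⟨y, hy, rfl⟩ := this
      simpa using hy
    -- the permutation of `insert b s`
    set f : Equiv.Perm α := Equiv.swap a b * g⁻¹ with hf
    have hfb : f b = b := by
      have : g⁻¹ b = a := by rw [← hgab]; simp
      simp only [hf, Equiv.Perm.coe_mul, Function.comp, this, Equiv.swap_apply_left]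
    have hfs : ∀ x ∈ s, f x = g⁻¹ x := by
      intro x hx
      have h1 := hgmem' x hx
      have h2 : g⁻¹ x ≠ a := fun h => ha (h ▸ h1)
      have h3 : g⁻¹ x ≠ b := fun h => hb (h ▸ h1)
      simp only [hf, Equiv.Perm.coe_mul, Function.comp]
      exact Equiv.swap_apply_of_ne_of_ne h2 h3
    have hmem : ∀ x, x ∈ insert b s ↔ f x ∈ insert b s := by
      intro x
      constructor
      · intro hx
        rw [Finset.mem_insert] at hx ⊢
        rcases hx with rfl | hx
        · exact Or.inl hfb
        · right
          rw [hfs x hx]
          exact hgmem' x hx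
      · intro hx
        rw [Finset.mem_insert] at hx ⊢
        rcases hx with hx | hx
        · left
          apply f.injective
          rw [hx, hfb]
        · right
          have h1 : f (g (f x)) = f x := by
            rw [hfs _ (hgmem _ hx)]
            simp
          have h2 := f.injective h1
          rw [← h2]
          exact hgmem _ hx
    have hcard : (insert b s).card = k + 1 := by rw [Finset.card_insert_of_notMem hb, hs]
    obtain ⟨h, hh, h1⟩ := hgen (insert b s) hcard (f.subtypePerm (fun x => (hmem x).symm))
    refine ⟨h * g, G.mul_mem hh hg, ?_, ?_⟩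
    · intro x hx
      have hgx := hgmem x hx
      have h2 := h1 ⟨g x, Finset.mem_insert_of_mem hgx⟩
      change h (g x) = x
      rw [show h (g x) = _ from h2]
      simp only [Equiv.Perm.subtypePerm_apply]
      rw [hfs _ hgx]
      simp
    · have h2 := h1 ⟨b, Finset.mem_insert_self _ _⟩
      change h (g a) = b
      rw [hgab, show h b = _ from h2]
      simp [hfb]

end Cfsg.Agent.S0705
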