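import Cfsg.Statements.S0706
import Mathlib
import Cfsg.Agent.Lib.H03.TICount

set_option autoImplicit false
open Cfsg

namespace Cfsg.Agent.S0706

lemma exists_fixed {Q α : Type*} [Group Q] [MulAction Q α] {p : ℕ} [Fact p.Prime] (hQ : IsPGroup p Q) (S : Set α)
    (hS : ∀ r : Q, ∀ x ∈ S, r • x ∈ S) (hc : ¬ p ∣ Nat.card S) : ∃ y ∈ S, ∀ r : Q, r • y = y := by
  let O : SubMulAction Q α := { carrier := S, smul_mem' := fun r x hx => hS r x hx }
  obtain ⟨y, hy⟩ := hQ.nonempty_fixed_point_of_prime_not_dvd_card (↥O) hc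
  refine ⟨y.1, y.2, fun r => ?_⟩
  have := hy r
  exact congrArg Subtype.val this

lemma exists_conj_set {α : Type*} [Fintype α] [DecidableEq α] (G : Subgroup (Equiv.Perm α)) {k : ℕ}
    (hgen : ∀ s : Finset α, s.card = k + 1 → ∀ σ : Equiv.Perm ↥s, ∃ g ∈ G, ∀ x : ↥s, g (x : α) = σ x) :
    ∀ (n : ℕ) (A B : Finset α), A.card = k → B.card = k → (A \ B).card = n → ∃ g ∈ G, A.image g = B := by
  intro n
  induction n with
  | zero =>
    intro A B hA hB h0
    refine ⟨1, G.one_mem, ?_⟩
    have h1 : A ⊆ B := by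
      rw [Finset.card_eq_zero, Finset.sdiff_eq_empty_iff_subset] at h0
      exact h0
    have h2 : A = B := Finset.eq_of_subset_of_card_le h1 (by omega)
    simp [h2]
  | succ n ih =>
    intro A B hA hB hn
    have h1 : (A \ B).Nonempty := by
      rw [← Finset.card_pos]; omega
    obtain ⟨x, hx⟩ := h1
    have hxA : x ∈ A := (Finset.mem_sdiff.1 hx).1
    have hxB : x ∉ B := (Finset.mem_sdiff.1 hx).2
    have h2 : (B \ A).Nonempty := by
      rw [← Finset.card_pos]
      have h3 := Finset.card_sdiff_add_card_inter A B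
      have h4 := Finset.card_sdiff_add_card_inter B A
      rw [Finset.inter_comm] at h4
      omega
    obtain ⟨y, hy⟩ := h2
    have hyB : y ∈ B := (Finset.mem_sdiff.1 hy).1
    have hyA : y ∉ A := (Finset.mem_sdiff.1 hy).2
    have hxy : x ≠ y := fun h => hyA (h ▸ hxA)
    have hs : (insert y A).card = k + 1 := by
      rw [Finset.card_insert_of_notMem hyA, hA]
    let τ : Equiv.Perm α := Equiv.swap x y
    have hτ : ∀ z, z ∈ insert y A ↔ τ z ∈ insert y A := by
      intro z
      by_cases hz1 : z = x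
      · subst hz1
        simp [τ, hxA]
      · by_cases hz2 : z = y
        · subst hz2
          simp [τ, hxA]
        · simp [τ, Equiv.swap_apply_of_ne_of_ne hz1 hz2]
    obtain ⟨g, hg, hgs⟩ := hgen _ hs (τ.subtypePerm (fun z => (hτ z).symm))
    have hgA : ∀ z ∈ A, g z = τ z := by
      intro z hz
      exact hgs ⟨z, Finset.mem_insert_of_mem hz⟩
    let A' : Finset α := A.image g
    have hA' : A' = insert y (A.erase x) := by
      ext z
      simp only [A', Finset.mem_image, Finset.mem_insert, Finset.mem_erase]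
      constructor
      · rintro ⟨w, hw, rfl⟩
        rw [hgA w hw]
        by_cases hw1 : w = x
        · left
          subst hw1
          simp [τ]
        · right
          have hw2 : w ≠ y := fun h => hyA (h ▸ hw)
          simp only [τ, Equiv.swap_apply_of_ne_of_ne hw1 hw2]
          exact ⟨hw1, hw⟩
      · rintro (rfl | ⟨hz1, hz2⟩)
        · exact ⟨x, hxA, by rw [hgA x hxA]; simp [τ]⟩
        · refine ⟨z, hz2, ?_⟩
          have hz3 : z ≠ y := fun h => hyA (h ▸ hz2)
          rw [hgA z hz2]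
          exact Equiv.swap_apply_of_ne_of_ne hz1 hz3
    have hcardA' : A'.card = k := by
      rw [Finset.card_image_of_injective _ g.injective, hA]
    have hd : (A' \ B).card = n := by
      have h5 : A' \ B = (A \ B).erase x := by
        rw [hA']
        ext z
        simp only [Finset.mem_sdiff, Finset.mem_insert, Finset.mem_erase]
        constructor
        · rintro ⟨rfl | ⟨h6, h7⟩, h8⟩
          · exact absurd hyB h8
          · exact ⟨h6, h7, h8⟩
        · rintro ⟨h6, h7, h8⟩
          exact ⟨Or.inr ⟨h6, h7⟩, h8⟩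
      rw [h5, Finset.card_erase_of_mem hx, hn]
      rfl
    obtain ⟨g', hg', hgB⟩ := ih A' B hcardA' hB hd
    refine ⟨g' * g, G.mul_mem hg' hg, ?_⟩
    rw [← hgB]
    simp only [A', Finset.image_image]
    rfl


/-- In a generously `k`-transitive permutation group, for a prime `p ≤ k` and a `k`-set `Γ`, there are no `p` points outside `Γ` lying in distinct orbits of the pointwise stabiliser of `Γ` all of length prime to `p` (at most `p - 1` such orbits). -/
theorem result {α : Type*} [Fintype α] [DecidableEq α] (G : Subgroup (Equiv.Perm α)) {k : ℕ} (hk : k < Fintype.card α) (hgen : ∀ s : Finset α, s.card = k + 1 → ∀ σ : Equiv.Perm ↥s, ∃ g ∈ G, ∀ x : ↥s, g (x : α) = σ x) {p : ℕ} (hp : p.Prime) (hpk : p ≤ k) (Γ : Finset α) (hΓ : Γ.card = k) (f : Fin p → α) (hf : ∀ i, f i ∉ Γ) (hdist : ∀ i j, i ≠ j → f j ∉ MulAction.orbit (fixingSubgroup G (Γ : Set α)) (f i)) : ∃ i, p ∣ Nat.card (MulAction.orbit (fixingSubgroup G (Γ : Set α)) (f i)) := by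
  classical
  by_contra hcon
  push Not at hcon
  haveI hpF : Fact p.Prime := ⟨hp⟩
  -- the cyclic permutation
  obtain ⟨Pp, hPΓ, hPc⟩ := Finset.exists_subset_card_eq (s := Γ) (n := p) (by omega)
  obtain ⟨c, hco, hcP⟩ : ∃ c : Equiv.Perm α, orderOf c = p ∧ ∀ x, x ∉ Pp → c x = x := by
    have h1 : p ∣ Nat.card (Equiv.Perm (Fin p)) := by
      rw [Nat.card_eq_fintype_card, Fintype.card_perm, Fintype.card_fin]
      exact Nat.dvd_factorial hp.pos le_rfl
    obtain ⟨σ, hσ⟩ := exists_prime_orderOf_dvd_card' p h1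
    have e : Fin p ≃ {x // x ∈ Pp} := (Fintype.equivFinOfCardEq (by simp [hPc])).symm
    let φ : Equiv.Perm (Fin p) →* Equiv.Perm α :=
      (Equiv.Perm.ofSubtype (p := fun x => x ∈ Pp)).comp (Equiv.permCongrHom e).toMonoidHom
    have hφ : Function.Injective φ :=
      (Equiv.Perm.ofSubtype_injective).comp (Equiv.permCongrHom e).injective
    refine ⟨φ σ, ?_, ?_⟩
    · rw [orderOf_injective φ hφ, hσ]
    · intro x hx
      exact Equiv.Perm.ofSubtype_apply_of_not_mem _ hx
  have hcp : c ^ p = 1 := by rw [← hco]; exact pow_orderOf_eq_one c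
  have hcΓ : ∀ x, x ∉ Γ → c x = x := fun x hx => hcP x (fun h => hx (hPΓ h))
  have hcn : ∀ (n : ℕ) x, x ∉ Γ → (c ^ n) x = x := by
    intro n x hx
    induction n with
    | zero => rfl
    | succ m ih => rw [pow_succ', Equiv.Perm.mul_apply, ih, hcΓ x hx]
  have hcnP : ∀ (n : ℕ) x, x ∉ Pp → (c ^ n) x = x := by
    intro n x hx
    induction n with
    | zero => rfl
    | succ m ih => rw [pow_succ', Equiv.Perm.mul_apply, ih, hcP x hx]
  have hcmem : ∀ (n : ℕ) x, x ∈ Γ → (c ^ n) x ∈ Γ := by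
    intro n x hx
    by_contra h
    have h1 := hcn n _ h
    have h2 := (c ^ n).injective h1
    rw [h2] at h
    exact h hx
  -- extensions
  have hext : ∀ (n : ℕ) (y : α), y ∉ Γ → ∃ g : ↥G, (∀ x ∈ Γ, g • x = (c ^ n) x) ∧ g • y = y := by
    intro n y hy
    have hs : (insert y Γ).card = k + 1 := by rw [Finset.card_insert_of_notMem hy, hΓ]
    have hτ : ∀ z, z ∈ insert y Γ ↔ (c ^ n) z ∈ insert y Γ := by
      intro z
      simp only [Finset.mem_insert]
      constructor
      · rintro (rfl | h)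
        · left; exact hcn n _ hy
        · right; exact hcmem n _ h
      · rintro (h | h)
        · left
          have h1 : (c ^ n) z = (c ^ n) y := by rw [h, hcn n y hy]
          exact (c ^ n).injective h1
        · by_cases hz : z ∈ Γ
          · exact Or.inr hz
          · rw [hcn n z hz] at h
            exact absurd h hz
    obtain ⟨g, hg, hgs⟩ := hgen _ hs ((c ^ n).subtypePerm (fun z => (hτ z).symm))
    refine ⟨⟨g, hg⟩, ?_, ?_⟩
    · intro x hx
      exact hgs ⟨x, Finset.mem_insert_of_mem hx⟩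
    · have := hgs ⟨y, Finset.mem_insert_self y Γ⟩
      show g y = y
      rw [this]
      exact hcn n y hy
  -- the group `E`
  let E : Subgroup ↥G :=
    { carrier := {g | ∃ n : ℕ, ∀ x ∈ Γ, g • x = (c ^ n) x}
      one_mem' := ⟨0, fun x _ => by simp⟩
      mul_mem' := by
        rintro a b ⟨n, hn⟩ ⟨m, hm⟩
        refine ⟨n + m, fun x hx => ?_⟩
        rw [mul_smul, hm x hx, hn _ (hcmem m x hx), pow_add]
        rfl
      inv_mem' := by
        rintro a ⟨n, hn⟩
        refine ⟨n * (p - 1), fun x hx => ?_⟩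
        rw [inv_smul_eq_iff, hn _ (hcmem _ x hx), ← Equiv.Perm.mul_apply, ← pow_add]
        have h1 : n + n * (p - 1) = n * p := by
          have := hp.pos
          obtain ⟨r, rfl⟩ : ∃ r, p = r + 1 := ⟨p - 1, by omega⟩
          simp; ring
        rw [h1, mul_comm, pow_mul, hcp, one_pow]
        rfl }
  let H : Subgroup ↥G := fixingSubgroup G (Γ : Set α)
  have hHmem : ∀ h : ↥G, h ∈ H ↔ ∀ x ∈ Γ, h • x = x := by
    intro h
    rw [mem_fixingSubgroup_iff]
    simp
  let f₀ := f ⟨0, hp.pos⟩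
  have hf₀ : f₀ ∉ Γ := hf _
  -- `E` has order `p |H|`
  have hcardE : Nat.card E = p * Nat.card H := by
    have hn : ∀ e : E, ∃ i : Fin p, ∀ x ∈ Γ, e.1 • x = (c ^ (i : ℕ)) x := by
      rintro ⟨e, n, hn⟩
      refine ⟨⟨n % p, Nat.mod_lt _ hp.pos⟩, fun x hx => ?_⟩
      rw [hn x hx]
      show (c ^ n) x = (c ^ (n % p)) x
      rw [← hco, pow_mod_orderOf]
    choose F hF using hn
    have huniq : ∀ (e : E) (i : Fin p), (∀ x ∈ Γ, e.1 • x = (c ^ (i : ℕ)) x) → F e = i := by
      intro e i hi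
      have h1 : c ^ ((F e : ℕ)) = c ^ (i : ℕ) := by
        ext x
        by_cases hx : x ∈ Γ
        · rw [← hF e x hx, hi x hx]
        · rw [hcn _ x hx, hcn _ x hx]
      have h2 := pow_injOn_Iio_orderOf (x := c) (by
        show (F e : ℕ) < orderOf c
        rw [hco]; exact (F e).2) (by
        show (i : ℕ) < orderOf c
        rw [hco]; exact i.2) h1
      exact Fin.ext h2
    have h1 := H03.card_of_fibers F (Nat.card H) (by
      intro i
      obtain ⟨g₀, hg₀, -⟩ := hext (i : ℕ) f₀ hf₀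
      have hg₀E : g₀ ∈ E := ⟨i, hg₀⟩
      apply Nat.card_congr
      refine
        { toFun := fun e => ⟨g₀⁻¹ * e.1.1, ?_⟩
          invFun := fun h => ⟨⟨g₀ * h.1, E.mul_mem hg₀E ?_⟩, ?_⟩
          left_inv := ?_
          right_inv := ?_ }
      · rw [hHmem]
        intro x hx
        rw [mul_smul, inv_smul_eq_iff, hg₀ x hx]
        have := hF e.1 x hx
        rw [e.2] at this
        exact this
      · exact ⟨0, fun x hx => by
          have := (hHmem h.1).1 h.2 x hx
          simpa using this⟩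
      · apply huniq
        intro x hx
        show (g₀ * h.1) • x = _
        rw [mul_smul, (hHmem h.1).1 h.2 x hx, hg₀ x hx]
      · intro e
        apply Subtype.ext
        apply Subtype.ext
        simp
      · intro h
        apply Subtype.ext
        simp)
    rw [h1, Nat.card_eq_fintype_card (α := Fin p), Fintype.card_fin]
  -- orbits are `E`-invariant
  have hinv : ∀ e ∈ E, ∀ i, ∀ x ∈ MulAction.orbit H (f i), e • x ∈ MulAction.orbit H (f i) := by
    rintro e ⟨n, hn⟩ i x ⟨h₀, rfl⟩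
    obtain ⟨g₀, hg₀, hg₀f⟩ := hext n (f i) (hf i)
    have hh : g₀⁻¹ * e ∈ H := by
      rw [hHmem]
      intro y hy
      rw [mul_smul, inv_smul_eq_iff, hg₀ y hy, hn y hy]
    have hconj : ∀ t ∈ H, g₀ * t * g₀⁻¹ ∈ H := by
      intro t ht
      rw [hHmem]
      intro y hy
      have h3 : g₀⁻¹ • y = (c ^ (n * (p - 1))) y := by
        rw [inv_smul_eq_iff, hg₀ _ (hcmem _ y hy), ← Equiv.Perm.mul_apply, ← pow_add]
        have h1 : n + n * (p - 1) = n * p := by
          have := hp.pos
          obtain ⟨r, rfl⟩ : ∃ r, p = r + 1 := ⟨p - 1, by omega⟩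
          simp; ring
        rw [h1, mul_comm, pow_mul, hcp, one_pow]
        rfl
      rw [mul_smul, mul_smul, h3, (hHmem t).1 ht _ (hcmem _ y hy), ← h3, smul_inv_smul]
    refine ⟨⟨g₀ * ((g₀⁻¹ * e) * h₀.1) * g₀⁻¹, hconj _ (H.mul_mem hh h₀.2)⟩, ?_⟩
    show (g₀ * ((g₀⁻¹ * e) * h₀.1) * g₀⁻¹) • f i = e • (h₀ • f i)
    have hf1 : g₀⁻¹ • f i = f i := by rw [inv_smul_eq_iff, hg₀f]
    rw [mul_smul, hf1]
    simp only [mul_smul, smul_inv_smul]
    rfl
  obtain ⟨R⟩ : Nonempty (Sylow p E) := inferInstance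
  have hRp : IsPGroup p (R : Subgroup E) := R.isPGroup'
  -- fixed points
  have hfix : ∀ i, ∃ y ∈ MulAction.orbit H (f i), ∀ r ∈ (R : Subgroup E), r.1 • y = y := by
    intro i
    obtain ⟨y, hy, hy2⟩ := exists_fixed hRp (MulAction.orbit H (f i)) (fun r x hx => hinv r.1.1 r.1.2 i x hx) (hcon i)
    exact ⟨y, hy, fun r hr => hy2 ⟨r, hr⟩⟩
  choose y hyO hyR using hfix
  have hyΓ : ∀ i, y i ∉ Γ := by
    intro i hi
    obtain ⟨h, hh⟩ := hyO i
    have h1 : h⁻¹ • y i = y i := by
      have := (hHmem _).1 (H.inv_mem h.2) _ hi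
      exact this
    rw [← hh, inv_smul_smul] at h1
    exact hf i (by rw [h1]; rw [← hh] at hi; exact hi)
  have hyinj : Function.Injective y := by
    intro i j hij
    by_contra hne
    apply hdist i j hne
    obtain ⟨h, hh⟩ := hyO i
    obtain ⟨h', hh'⟩ := hyO j
    refine ⟨h'⁻¹ * h, ?_⟩
    show (h'⁻¹ * h) • f i = f j
    rw [mul_smul]
    have h5 : h • f i = h' • f j := by
      have e1 : h • f i = y i := hh
      have e2 : h' • f j = y j := hh'
      rw [e1, e2, hij]
    rw [h5, inv_smul_smul]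
  let Γ₁ : Finset α := Γ \ Pp
  let Γ' : Finset α := Γ₁ ∪ Finset.univ.image y
  have hΓ'c : Γ'.card = k := by
    have hd : Disjoint Γ₁ (Finset.univ.image y) := by
      rw [Finset.disjoint_left]
      intro z hz hz2
      obtain ⟨i, -, rfl⟩ := Finset.mem_image.1 hz2
      exact hyΓ i (Finset.mem_sdiff.1 hz).1
    rw [Finset.card_union_of_disjoint hd, Finset.card_image_of_injective _ hyinj, Finset.card_univ, Fintype.card_fin,
      Finset.card_sdiff_of_subset hPΓ, hPc, hΓ]
    omega
  obtain ⟨g, hgG, hgΓ⟩ := exists_conj_set G hgen _ Γ Γ' hΓ hΓ'c rfl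
  let g' : ↥G := ⟨g, hgG⟩
  -- conjugate `R` into `H`
  let R' : Subgroup ↥G := ((R : Subgroup E).map E.subtype).map (MulAut.conj g'⁻¹).toMonoidHom
  have hR'H : R' ≤ H := by
    rintro t ⟨u, ⟨r, hr, rfl⟩, rfl⟩
    rw [hHmem]
    intro x hx
    show (g'⁻¹ * r.1 * g'⁻¹⁻¹) • x = x
    rw [inv_inv, mul_smul, mul_smul, inv_smul_eq_iff]
    have hgx : g' • x ∈ Γ' := by
      rw [← hgΓ]
      exact Finset.mem_image_of_mem _ hx
    rcases Finset.mem_union.1 hgx with h1 | h1
    · obtain ⟨n, hn⟩ := r.2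
      rw [hn _ (Finset.mem_sdiff.1 h1).1]
      exact hcnP n _ (Finset.mem_sdiff.1 h1).2
    · obtain ⟨i, -, hi⟩ := Finset.mem_image.1 h1
      rw [← hi]
      exact hyR i r hr
  have hc1 : Nat.card R' = Nat.card (R : Subgroup E) := by
    rw [Subgroup.card_map_of_injective (MulAut.conj g'⁻¹).injective, Subgroup.card_map_of_injective E.subtype_injective]
  have hd1 : Nat.card (R : Subgroup E) ∣ Nat.card H := by
    rw [← hc1]
    exact Subgroup.card_dvd_of_le hR'H
  rw [Sylow.card_eq_multiplicity, hcardE] at hd1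
  have hH0 : Nat.card H ≠ 0 := Nat.card_pos.ne'
  rw [Nat.factorization_mul hp.ne_zero hH0] at hd1
  simp only [Finsupp.coe_add, Pi.add_apply, hp.factorization_self] at hd1
  rw [add_comm] at hd1
  exact Nat.pow_succ_factorization_not_dvd hH0 hp hd1

end Cfsg.Agent.S0706
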