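import Mathlib
import Cfsg.Statements.S0707

set_option autoImplicit false
open Cfsg

namespace Cfsg.Agent.S0707


open scoped Pointwise in
theorem isBlock_aux {α : Type*} (G : Subgroup (Equiv.Perm α)) (a : α) :
    MulAction.IsBlock G {x : α | MulAction.stabilizer G x = MulAction.stabilizer G a} := by
  rw [MulAction.isBlock_iff_smul_eq_of_nonempty]
  have key : ∀ (g : G), (g • {x : α | MulAction.stabilizer G x = MulAction.stabilizer G a} ∩
      {x : α | MulAction.stabilizer G x = MulAction.stabilizer G a}).Nonempty →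
      g • {x : α | MulAction.stabilizer G x = MulAction.stabilizer G a} ⊆
      {x : α | MulAction.stabilizer G x = MulAction.stabilizer G a} := by
    rintro g ⟨_, ⟨x, hx, rfl⟩, hgx⟩ _ ⟨y, hy, rfl⟩
    simp only [Set.mem_setOf_eq] at hx hy hgx ⊢
    rw [MulAction.stabilizer_smul_eq_stabilizer_map_conj] at hgx ⊢
    rw [hx] at hgx
    rw [hy, hgx]
  intro g hg
  apply Set.Subset.antisymm (key g hg)
  have h2 := key g⁻¹ (by
    obtain ⟨z, hz1, hz2⟩ := hg
    refine ⟨g⁻¹ • z, ?_, ?_⟩
    · exact Set.smul_mem_smul_set hz2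
    · rw [Set.mem_smul_set_iff_inv_smul_mem] at hz1
      exact hz1)
  intro z hz
  rw [Set.mem_smul_set_iff_inv_smul_mem]
  exact h2 (Set.smul_mem_smul_set hz)

/-- In a primitive permutation group, distinct points have distinct stabilisers unless the group is regular of prime degree. -/
theorem result {α : Type*} (G : Subgroup (Equiv.Perm α)) [MulAction.IsPreprimitive G α] (h : ¬ (Nat.card α).Prime ∨ ∃ a : α, MulAction.stabilizer G a ≠ ⊥) {a b : α} (hab : a ≠ b) : MulAction.stabilizer G a ≠ MulAction.stabilizer G b := by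
  classical
  intro heq
  have hsm : ∀ (g : G) (x : α), g • x = (g : Equiv.Perm α) x := fun g x => rfl
  have hB := isBlock_aux G a
  have hnt : Nontrivial α := ⟨⟨a, b, hab⟩⟩
  have huniv : {x : α | MulAction.stabilizer G x = MulAction.stabilizer G a} = Set.univ := by
    rcases hB.subsingleton_or_eq_univ with h1 | h1
    · exact absurd (h1 (show a ∈ _ from rfl) (show b ∈ _ from heq.symm)) hab
    · exact h1
  have hall : ∀ x : α, MulAction.stabilizer G x = MulAction.stabilizer G a := fun x => by
    have : x ∈ {x : α | MulAction.stabilizer G x = MulAction.stabilizer G a} := by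
      rw [huniv]; trivial
    exact this
  have hbot : ∀ x : α, MulAction.stabilizer G x = ⊥ := by
    intro x
    rw [eq_bot_iff]
    rintro ⟨g, hg⟩ hgx
    rw [Subgroup.mem_bot]
    apply Subtype.ext
    ext y
    have : (⟨g, hg⟩ : G) ∈ MulAction.stabilizer G y := by
      rw [hall y, ← hall x]; exact hgx
    exact this
  have hcoat := MulAction.IsPreprimitive.isCoatom_stabilizer_of_isPreprimitive (G := G) (X := α) a
  rw [hbot a] at hcoat
  have hsub : ∀ K : Subgroup G, K = ⊥ ∨ K = ⊤ := by
    intro K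
    by_cases hK : K = ⊥
    · exact Or.inl hK
    · exact Or.inr (hcoat.2 K (bot_lt_iff_ne_bot.mpr hK))
  obtain ⟨g₀, hg₀⟩ := MulAction.exists_smul_eq G a b
  have hg₀1 : g₀ ≠ 1 := by
    rintro rfl
    exact hab (by simpa using hg₀)
  have hz : Subgroup.zpowers g₀ = ⊤ := by
    rcases hsub (Subgroup.zpowers g₀) with h1 | h1
    · exact absurd (Subgroup.zpowers_eq_bot.mp h1) hg₀1
    · exact h1
  have hcomm : IsMulCommutative G := by
    refine ⟨⟨fun x y => ?_⟩⟩
    have hx : x ∈ Subgroup.zpowers g₀ := hz ▸ Subgroup.mem_top x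
    have hy : y ∈ Subgroup.zpowers g₀ := hz ▸ Subgroup.mem_top y
    obtain ⟨m, rfl⟩ := Subgroup.mem_zpowers_iff.mp hx
    obtain ⟨n, rfl⟩ := Subgroup.mem_zpowers_iff.mp hy
    rw [← zpow_add, ← zpow_add, add_comm]
  have hntG : Nontrivial G := ⟨⟨g₀, 1, hg₀1⟩⟩
  have hsimple : IsSimpleGroup G := ⟨fun N _ => hsub N⟩
  have hp : (Nat.card G).Prime := Group.is_simple_iff_prime_card.mp hsimple
  have hbij : Function.Bijective (fun g : G => g • a) := by
    constructor
    · intro g₁ g₂ h
      have h' : g₁ • a = g₂ • a := h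
      have : g₂⁻¹ * g₁ ∈ MulAction.stabilizer G a := by
        rw [MulAction.mem_stabilizer_iff, mul_smul, h', inv_smul_smul]
      rw [hbot a, Subgroup.mem_bot] at this
      have h3 := congrArg (g₂ * ·) this
      simpa using h3
    · exact fun y => MulAction.exists_smul_eq G a y
  have hcard : Nat.card G = Nat.card α := Nat.card_eq_of_bijective _ hbij
  rcases h with h | ⟨c, hc⟩
  · exact h (hcard ▸ hp)
  · exact hc (hbot c)

end Cfsg.Agent.S0707
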