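import Cfsg.Statements.S0708
import Mathlib

set_option autoImplicit false
open Cfsg

namespace Cfsg.Agent.S0708

section
variable {G : Type*} [Group G] {Ω : Type*} [MulAction G Ω]

structure D4 (p q r t : Ω) : Prop where
  h12 : p ≠ q
  h13 : p ≠ r
  h14 : p ≠ t
  h23 : q ≠ r
  h24 : q ≠ t
  h34 : r ≠ t

lemma D4.exists_emb {p q r t : Ω} (h : D4 p q r t) :
    ∃ x : Fin 4 ↪ Ω, x 0 = p ∧ x 1 = q ∧ x 2 = r ∧ x 3 = t := by
  refine ⟨⟨![p, q, r, t], ?_⟩, rfl, rfl, rfl, rfl⟩
  intro i j hij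
  fin_cases i <;> fin_cases j <;> first | rfl | (exfalso; simp at hij) | skip
  all_goals first
    | exact absurd hij h.h12 | exact absurd hij h.h13 | exact absurd hij h.h14
    | exact absurd hij h.h23 | exact absurd hij h.h24 | exact absurd hij h.h34
    | exact absurd hij.symm h.h12 | exact absurd hij.symm h.h13 | exact absurd hij.symm h.h14
    | exact absurd hij.symm h.h23 | exact absurd hij.symm h.h24 | exact absurd hij.symm h.h34

lemma rigid (hsharp : ∀ x : Fin 4 ↪ Ω, MulAction.stabilizer G x = ⊥) {p q r t : Ω} (h : D4 p q r t)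
    (g : G) (hp : g • p = p) (hq : g • q = q) (hr : g • r = r) (ht : g • t = t) : g = 1 := by
  obtain ⟨x, h0, h1, h2, h3⟩ := h.exists_emb
  have hg : g ∈ MulAction.stabilizer G x := by
    rw [MulAction.mem_stabilizer_iff]
    ext i
    rw [Function.Embedding.smul_apply]
    fin_cases i
    · show g • x 0 = x 0
      rw [h0, hp]
    · show g • x 1 = x 1
      rw [h1, hq]
    · show g • x 2 = x 2
      rw [h2, hr]
    · show g • x 3 = x 3
      rw [h3, ht]
  rw [hsharp x] at hg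
  exact (Subgroup.mem_bot).1 hg

lemma exists_move (h4 : MulAction.IsMultiplyPretransitive G Ω 4) {p q r t p' q' r' t' : Ω}
    (h : D4 p q r t) (h' : D4 p' q' r' t') :
    ∃ g : G, g • p = p' ∧ g • q = q' ∧ g • r = r' ∧ g • t = t' := by
  obtain ⟨x, h0, h1, h2, h3⟩ := h.exists_emb
  obtain ⟨x', h0', h1', h2', h3'⟩ := h'.exists_emb
  haveI := h4
  obtain ⟨g, hg⟩ := MulAction.exists_smul_eq G x x'
  refine ⟨g, ?_, ?_, ?_, ?_⟩
  · rw [← h0, ← h0', ← hg]; rfl
  · rw [← h1, ← h1', ← hg]; rfl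
  · rw [← h2, ← h2', ← hg]; rfl
  · rw [← h3, ← h3', ← hg]; rfl

/-- the points moved as by an involution `j` commuting with `s` -/
lemma two_points (hsharp : ∀ x : Fin 4 ↪ Ω, MulAction.stabilizer G x = ⊥) {a b : Ω} (hab : a ≠ b)
    (s j : G) (hsa : s • a = b) (hjj : j * j = 1) (hja : j • a = a)
    (y₀ w : Ω) (hy₀ : s • y₀ ≠ y₀) (hw : s • w ≠ w) (h0 : s • y₀ = j • y₀) (h1 : s • w = j • w)
    (hss : s * s = 1) : w = y₀ ∨ w = j • y₀ := by
  by_contra hcon
  push Not at hcon
  obtain ⟨h2, h3⟩ := hcon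
  have hjj' : ∀ p : Ω, j • j • p = p := fun p => by rw [← mul_smul, hjj, one_smul]
  have hss' : ∀ p : Ω, s • s • p = p := fun p => by rw [← mul_smul, hss, one_smul]
  have hD : D4 y₀ (j • y₀) w (j • w) := by
    refine ⟨?_, h2.symm, ?_, h3.symm, ?_, ?_⟩
    · rw [← h0]; exact hy₀.symm
    · intro h5
      apply h3
      rw [h5, hjj']
    · intro h5
      exact h2 ((MulAction.injective j h5).symm)
    · rw [← h1]; exact hw.symm
  have h5 := rigid hsharp hD (s * j)
    (by rw [mul_smul, ← h0, hss'])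
    (by rw [mul_smul, hjj', h0])
    (by rw [mul_smul, ← h1, hss'])
    (by rw [mul_smul, hjj', h1])
  have h6 : (s * j) • a = a := by rw [h5, one_smul]
  rw [mul_smul, hja, hsa] at h6
  exact hab h6.symm

end


/-- Tits' argument: a sharply 4-transitive group (no finiteness assumed) has finite degree at most 11, and at most 6 when the degree is even. -/
theorem result {G : Type*} [Group G] {Ω : Type*} [MulAction G Ω] (h4 : MulAction.IsMultiplyPretransitive G Ω 4) (hsharp : ∀ x : Fin 4 ↪ Ω, MulAction.stabilizer G x = ⊥) (hne : Nonempty (Fin 4 ↪ Ω)) : Finite Ω ∧ Nat.card Ω ≤ 11 ∧ (Even (Nat.card Ω) → Nat.card Ω ≤ 6) := by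
  obtain ⟨x⟩ := hne
  have hne' : ∀ i j : Fin 4, i ≠ j → x i ≠ x j := fun i j hij h => hij (x.injective h)
  set a := x 0 with ha
  set b := x 1 with hb
  set c := x 2 with hc
  set d := x 3 with hd
  have hD : D4 a b c d := ⟨hne' 0 1 (by decide), hne' 0 2 (by decide), hne' 0 3 (by decide),
    hne' 1 2 (by decide), hne' 1 3 (by decide), hne' 2 3 (by decide)⟩
  have hD' : D4 b a c d := ⟨hD.h12.symm, hD.h23, hD.h24, hD.h13, hD.h14, hD.h34⟩
  obtain ⟨s, hsa, hsb, hsc, hsd⟩ := exists_move h4 hD hD'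
  have hss : s * s = 1 := rigid hsharp hD _ (by rw [mul_smul, hsa, hsb]) (by rw [mul_smul, hsb, hsa])
    (by rw [mul_smul, hsc, hsc]) (by rw [mul_smul, hsd, hsd])
  have hss' : ∀ p : Ω, s • s • p = p := fun p => by rw [← mul_smul, hss, one_smul]
  have hsne : ∀ p : Ω, (p = a ∨ p = b) → s • p ≠ p := by
    rintro p (rfl | rfl)
    · rw [hsa]; exact hD.h12.symm
    · rw [hsb]; exact hD.h12
  -- the swapping involutions
  have hswap : ∀ y y' : Ω, y ≠ y' → y ≠ a → y ≠ b → y' ≠ a → y' ≠ b →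
      ∃ g : G, g • a = a ∧ g • b = b ∧ g • y = y' ∧ g • y' = y := by
    intro y y' h1 h2 h3 h4' h5
    exact exists_move h4 (p := a) (q := b) (r := y) (t := y') ⟨hD.h12, h2.symm, h4'.symm, h3.symm, h5.symm, h1⟩
      ⟨hD.h12, h4'.symm, h2.symm, h5.symm, h3.symm, h1.symm⟩
  have huniq : ∀ (y y' : Ω) (g g' : G), y ≠ y' → y ≠ a → y ≠ b → y' ≠ a → y' ≠ b →
      (g • a = a ∧ g • b = b ∧ g • y = y' ∧ g • y' = y) →
      (g' • a = a ∧ g' • b = b ∧ g' • y = y' ∧ g' • y' = y) → g = g' := by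
    rintro y y' g g' h1 h2 h3 h4' h5 ⟨h6, h7, h8, h9⟩ ⟨h6', h7', h8', h9'⟩
    have h10 := rigid hsharp (p := a) (q := b) (r := y) (t := y')
      ⟨hD.h12, h2.symm, h4'.symm, h3.symm, h5.symm, h1⟩ (g'⁻¹ * g)
      (by rw [mul_smul, h6, inv_smul_eq_iff, h6'])
      (by rw [mul_smul, h7, inv_smul_eq_iff, h7'])
      (by rw [mul_smul, h8, inv_smul_eq_iff, h8'])
      (by rw [mul_smul, h9, inv_smul_eq_iff, h9'])
    exact (inv_mul_eq_one.1 h10).symm
  have hinvol : ∀ (y y' : Ω) (g : G), y ≠ y' → y ≠ a → y ≠ b → y' ≠ a → y' ≠ b →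
      (g • a = a ∧ g • b = b ∧ g • y = y' ∧ g • y' = y) → g * g = 1 := by
    rintro y y' g h1 h2 h3 h4' h5 ⟨h6, h7, h8, h9⟩
    exact rigid hsharp (p := a) (q := b) (r := y) (t := y')
      ⟨hD.h12, h2.symm, h4'.symm, h3.symm, h5.symm, h1⟩ _
      (by rw [mul_smul, h6, h6]) (by rw [mul_smul, h7, h7]) (by rw [mul_smul, h8, h9])
      (by rw [mul_smul, h9, h8])
  -- commuting with `s`
  have hcomm : ∀ (y y' : Ω) (g : G), y ≠ y' → y ≠ a → y ≠ b → y' ≠ a → y' ≠ b →
      (s • y = y' ∨ (s • y = y ∧ s • y' = y')) →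
      (g • a = a ∧ g • b = b ∧ g • y = y' ∧ g • y' = y) → s * g = g * s := by
    rintro y y' g h1 h2 h3 h4' h5 h6 ⟨h7, h8, h9, h10⟩
    have hsinv : s⁻¹ = s := inv_eq_of_mul_eq_one_left hss
    have h11 : s * g * s⁻¹ = g := by
      rw [hsinv]
      apply huniq y y' _ _ h1 h2 h3 h4' h5 _ ⟨h7, h8, h9, h10⟩
      rcases h6 with h6 | ⟨h6, h6'⟩
      · have h12 : s • y' = y := by rw [← h6, hss']
        refine ⟨?_, ?_, ?_, ?_⟩
        · rw [mul_smul, mul_smul, hsa, h8, hsb]
        · rw [mul_smul, mul_smul, hsb, h7, hsa]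
        · rw [mul_smul, mul_smul, h6, h10, h6]
        · rw [mul_smul, mul_smul, h12, h9, h12]
      · refine ⟨?_, ?_, ?_, ?_⟩
        · rw [mul_smul, mul_smul, hsa, h8, hsb]
        · rw [mul_smul, mul_smul, hsb, h7, hsa]
        · rw [mul_smul, mul_smul, h6, h9, h6']
        · rw [mul_smul, mul_smul, h6', h10, h6]
    calc s * g = s * g * s⁻¹ * s := by group
      _ = g * s := by rw [h11]
  -- fixed points go to fixed points
  have hfix : ∀ (g : G) (p : Ω), s * g = g * s → s • p = p → s • g • p = g • p := by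
    intro g p h1 h2
    rw [← mul_smul, h1, mul_smul, h2]
  -- the involution attached to a moved point
  have hkey : ∀ y : Ω, y ≠ a → y ≠ b → s • y ≠ y → ∃ g : G, g • a = a ∧ g • b = b ∧ g * g = 1 ∧
      s • y = g • y ∧ s * g = g * s ∧ g ≠ 1 := by
    intro y hya hyb hy
    have h1 : s • y ≠ a := fun h => hyb (by have h7 := hss' y; rw [h, hsa] at h7; exact h7.symm)
    have h2 : s • y ≠ b := fun h => hya (by have h7 := hss' y; rw [h, hsb] at h7; exact h7.symm)
    obtain ⟨g, h3, h4, h5, h6⟩ := hswap y (s • y) hy.symm hya hyb h1 h2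
    refine ⟨g, h3, h4, hinvol y (s • y) g hy.symm hya hyb h1 h2 ⟨h3, h4, h5, h6⟩, h5.symm,
      hcomm y (s • y) g hy.symm hya hyb h1 h2 (Or.inl rfl) ⟨h3, h4, h5, h6⟩, ?_⟩
    rintro rfl
    rw [one_smul] at h5
    exact hy h5.symm
  have hcover : ∀ j : G, j * j = 1 → j • a = a → ∃ T : Finset Ω, T.card ≤ 2 ∧
      ∀ y, s • y ≠ y → s • y = j • y → y ∈ T := by
    intro j hjj hja
    classical
    by_cases h : ∃ y₀ : Ω, s • y₀ ≠ y₀ ∧ s • y₀ = j • y₀
    · obtain ⟨y₀, h1, h2⟩ := h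
      refine ⟨{y₀, j • y₀}, Finset.card_le_two, ?_⟩
      intro y h3 h4
      have := two_points hsharp hD.h12 s j hsa hjj hja y₀ y h1 h3 h2 h4 hss
      simpa using this
    · refine ⟨∅, by simp, ?_⟩
      intro y h3 h4
      exact absurd ⟨y, h3, h4⟩ h
  have hca : c ≠ a := hD.h13.symm
  have hcb : c ≠ b := hD.h23.symm
  have hda : d ≠ a := hD.h14.symm
  have hdb : d ≠ b := hD.h24.symm
  have hfin : ∀ U : Finset Ω, (∀ p, p ∈ U) → Finite Ω ∧ Nat.card Ω ≤ U.card := by
    intro U hU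
    have e : {x // x ∈ U} ≃ Ω := Equiv.subtypeUnivEquiv hU
    refine ⟨Finite.of_equiv _ e, ?_⟩
    rw [← Nat.card_congr e, Nat.card_eq_fintype_card, Fintype.card_coe]
  obtain ⟨j₁, hj₁a, hj₁b, hj₁c, hj₁d⟩ := hswap c d hD.h34 hca hcb hda hdb
  have hj₁j := hinvol c d j₁ hD.h34 hca hcb hda hdb ⟨hj₁a, hj₁b, hj₁c, hj₁d⟩
  obtain ⟨T₁, hT₁, hT₁'⟩ := hcover j₁ hj₁j hj₁a
  classical
  by_cases hE : ∃ e : Ω, s • e = e ∧ e ≠ c ∧ e ≠ d
  · obtain ⟨e, hse, hec, hed⟩ := hE
    have hea : e ≠ a := fun h => hsne e (Or.inl h) hse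
    have heb : e ≠ b := fun h => hsne e (Or.inr h) hse
    have hF : ∀ p : Ω, s • p = p → p = c ∨ p = d ∨ p = e := by
      intro p hp
      by_contra hcon
      push Not at hcon
      obtain ⟨h1, h2, h3⟩ := hcon
      have h5 := rigid hsharp (p := c) (q := d) (r := e) (t := p)
        ⟨hD.h34, hec.symm, h1.symm, hed.symm, h2.symm, h3.symm⟩ s hsc hsd hse hp
      rw [h5, one_smul] at hsa
      exact hD.h12 hsa
    obtain ⟨j₂, hj₂a, hj₂b, hj₂c, hj₂e⟩ := hswap c e hec.symm hca hcb hea heb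
    have hj₂j := hinvol c e j₂ hec.symm hca hcb hea heb ⟨hj₂a, hj₂b, hj₂c, hj₂e⟩
    obtain ⟨T₂, hT₂, hT₂'⟩ := hcover j₂ hj₂j hj₂a
    obtain ⟨j₃, hj₃a, hj₃b, hj₃d, hj₃e⟩ := hswap d e hed.symm hda hdb hea heb
    have hj₃j := hinvol d e j₃ hed.symm hda hdb hea heb ⟨hj₃a, hj₃b, hj₃d, hj₃e⟩
    obtain ⟨T₃, hT₃, hT₃'⟩ := hcover j₃ hj₃j hj₃a
    have hU : ∀ p, p ∈ ({a, b, c, d, e} : Finset Ω) ∪ T₁ ∪ T₂ ∪ T₃ := by
      intro p
      simp only [Finset.mem_union, Finset.mem_insert, Finset.mem_singleton]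
      by_cases hpa : p = a
      · simp [hpa]
      by_cases hpb : p = b
      · simp [hpb]
      by_cases hp : s • p = p
      · rcases hF p hp with h | h | h <;> simp [h]
      obtain ⟨g, hg1, hg2, hg3, hg4, hg5, hg6⟩ := hkey p hpa hpb hp
      have hg7 : ∀ q : Ω, g • g • q = q := fun q => by rw [← mul_smul, hg3, one_smul]
      have hgc := hF _ (hfix g c hg5 hsc)
      have hgd := hF _ (hfix g d hg5 hsd)
      have hge := hF _ (hfix g e hg5 hse)
      have hcases : g = j₁ ∨ g = j₂ ∨ g = j₃ := by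
        rcases hgc with h | h | h
        · -- `g` fixes `c`
          rcases hgd with h' | h' | h'
          · exfalso
            exact hD.h34 (smul_left_cancel g (h.trans h'.symm))
          · exact absurd (rigid hsharp hD g hg1 hg2 h h') hg6
          · right; right
            have h2 : g • e = d := by rw [← h', hg7]
            exact huniq d e g j₃ hed.symm hda hdb hea heb ⟨hg1, hg2, h', h2⟩ ⟨hj₃a, hj₃b, hj₃d, hj₃e⟩
        · left
          have h2 : g • d = c := by rw [← h, hg7]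
          exact huniq c d g j₁ hD.h34 hca hcb hda hdb ⟨hg1, hg2, h, h2⟩ ⟨hj₁a, hj₁b, hj₁c, hj₁d⟩
        · right; left
          have h2 : g • e = c := by rw [← h, hg7]
          exact huniq c e g j₂ hec.symm hca hcb hea heb ⟨hg1, hg2, h, h2⟩ ⟨hj₂a, hj₂b, hj₂c, hj₂e⟩
      rcases hcases with rfl | rfl | rfl
      · have := hT₁' p hp hg4
        simp [this]
      · have := hT₂' p hp hg4
        simp [this]
      · have := hT₃' p hp hg4
        simp [this]
    obtain ⟨hf, hc⟩ := hfin _ hU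
    have hcard : (({a, b, c, d, e} : Finset Ω) ∪ T₁ ∪ T₂ ∪ T₃).card ≤ 11 := by
      have h1 : ({a, b, c, d, e} : Finset Ω).card ≤ 5 := Finset.card_le_five
      have h2 := Finset.card_union_le (({a, b, c, d, e} : Finset Ω) ∪ T₁ ∪ T₂) T₃
      have h3 := Finset.card_union_le (({a, b, c, d, e} : Finset Ω) ∪ T₁) T₂
      have h4 := Finset.card_union_le ({a, b, c, d, e} : Finset Ω) T₁
      omega
    refine ⟨hf, hc.trans hcard, ?_⟩
    intro hev
    exfalso
    haveI : Fintype Ω := Fintype.ofFinite Ω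
    let f : Function.End Ω := fun p => s • p
    haveI : Fact (Nat.Prime 2) := ⟨Nat.prime_two⟩
    have hf2 : f ^ 2 ^ 1 = 1 := by
      funext p
      show s • s • p = p
      exact hss' p
    have h1 := Equiv.Perm.card_fixedPoints_modEq hf2
    have h2 : ∀ [Fintype (Function.fixedPoints f)], Fintype.card (Function.fixedPoints f) = 3 := by
      intro _
      have h3 : ∀ p, p ∈ ({c, d, e} : Finset Ω) ↔ p ∈ Function.fixedPoints f := by
        intro p
        simp only [Finset.mem_insert, Finset.mem_singleton, Function.mem_fixedPoints,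
          Function.IsFixedPt]
        constructor
        · rintro (rfl | rfl | rfl)
          · exact hsc
          · exact hsd
          · exact hse
        · exact hF p
      have h4 : ({c, d, e} : Finset Ω).card = 3 := Finset.card_eq_three.2 ⟨c, d, e, hD.h34, hec.symm, hed.symm, rfl⟩
      rw [← h4]
      exact Fintype.card_of_subtype _ h3
    rw [h2] at h1
    rw [Nat.card_eq_fintype_card] at hev
    obtain ⟨w, hw⟩ := hev
    have h5 := h1
    unfold Nat.ModEq at h5
    omega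
  · push Not at hE
    have hF : ∀ p : Ω, s • p = p → p = c ∨ p = d := by
      intro p hp
      by_contra hcon
      push Not at hcon
      exact hcon.2 (hE p hp hcon.1)
    have hU : ∀ p, p ∈ ({a, b, c, d} : Finset Ω) ∪ T₁ := by
      intro p
      simp only [Finset.mem_union, Finset.mem_insert, Finset.mem_singleton]
      by_cases hpa : p = a
      · simp [hpa]
      by_cases hpb : p = b
      · simp [hpb]
      by_cases hp : s • p = p
      · rcases hF p hp with h | h <;> simp [h]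
      obtain ⟨g, hg1, hg2, hg3, hg4, hg5, hg6⟩ := hkey p hpa hpb hp
      have hg7 : ∀ q : Ω, g • g • q = q := fun q => by rw [← mul_smul, hg3, one_smul]
      have hgc := hF _ (hfix g c hg5 hsc)
      have hcases : g = j₁ := by
        rcases hgc with h | h
        · exfalso
          have hgd := hF _ (hfix g d hg5 hsd)
          rcases hgd with h' | h'
          · exact hD.h34 (smul_left_cancel g (h.trans h'.symm))
          · exact hg6 (rigid hsharp hD g hg1 hg2 h h')
        · have h2 : g • d = c := by rw [← h, hg7]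
          exact huniq c d g j₁ hD.h34 hca hcb hda hdb ⟨hg1, hg2, h, h2⟩ ⟨hj₁a, hj₁b, hj₁c, hj₁d⟩
      subst hcases
      have := hT₁' p hp hg4
      simp [this]
    obtain ⟨hf, hc⟩ := hfin _ hU
    have hcard : (({a, b, c, d} : Finset Ω) ∪ T₁).card ≤ 6 := by
      have h1 : ({a, b, c, d} : Finset Ω).card ≤ 4 := Finset.card_le_four
      have h4 := Finset.card_union_le ({a, b, c, d} : Finset Ω) T₁
      omega
    refine ⟨hf, by omega, fun _ => by omega⟩

end Cfsg.Agent.S0708
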