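import Cfsg.Statements.S0709
import Mathlib

set_option autoImplicit false
open Cfsg

namespace Cfsg.Agent.S0709

section Witt

variable {α : Type*} [Fintype α] [DecidableEq α]

/-- the hypotheses of Witt's lemma -/
structure Data (t : ℕ) (q : ℕ → α) (G : Subgroup (Equiv.Perm α)) (s : ℕ → Equiv.Perm α)
    (H : Subgroup (Equiv.Perm α)) : Prop where
  ht : 2 ≤ t
  hq : ∀ i j : ℕ, 1 ≤ i → i ≤ t → 1 ≤ j → j ≤ t → q i = q j → i = j
  hfix : ∀ g ∈ G, ∀ i : ℕ, 3 ≤ i → i ≤ t → g (q i) = q i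
  h2 : ∀ a b c d : α, (∀ i, 3 ≤ i → i ≤ t → a ≠ q i ∧ b ≠ q i ∧ c ≠ q i ∧ d ≠ q i) → a ≠ b → c ≠ d →
    ∃ g ∈ G, g a = c ∧ g b = d
  hs1 : s 1 ∈ G
  hs1q : s 1 (q 1) = q 2 ∧ s 1 (q 2) = q 1
  hsq : ∀ i : ℕ, 2 ≤ i → i + 1 ≤ t → s i (q i) = q (i + 1) ∧ s i (q (i + 1)) = q i ∧
    ∀ j : ℕ, 1 ≤ j → j ≤ t → j ≠ i → j ≠ i + 1 → s i (q j) = q j
  hH : H = G ⊓ MulAction.stabilizer (Equiv.Perm α) (q 1) ⊓ MulAction.stabilizer (Equiv.Perm α) (q 2)
  hsq2 : ∀ i : ℕ, 1 ≤ i → i + 1 ≤ t → s i ^ 2 ∈ H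
  hbraid : ∀ i : ℕ, 1 ≤ i → i + 2 ≤ t → (s i * s (i + 1)) ^ 3 ∈ H
  hcomm : ∀ i j : ℕ, 1 ≤ i → i + 2 ≤ j → j + 1 ≤ t → (s i * s j) ^ 2 ∈ H ∧ (s j * s i) ^ 2 ∈ H
  hnorm : ∀ i : ℕ, 2 ≤ i → i + 1 ≤ t → ∀ g ∈ G ⊓ MulAction.stabilizer (Equiv.Perm α) (q 2),
    s i * g * (s i)⁻¹ ∈ G ⊓ MulAction.stabilizer (Equiv.Perm α) (q 2)

/-- the stabiliser of `q 2` in `G` -/
abbrev G2 (q : ℕ → α) (G : Subgroup (Equiv.Perm α)) : Subgroup (Equiv.Perm α) :=
  G ⊓ MulAction.stabilizer (Equiv.Perm α) (q 2)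

/-- the chain of subgroups -/
def Y (q : ℕ → α) (G : Subgroup (Equiv.Perm α)) (s : ℕ → Equiv.Perm α) (r : ℕ) :
    Subgroup (Equiv.Perm α) :=
  Subgroup.closure ((G2 q G : Set (Equiv.Perm α)) ∪ {x | ∃ i : ℕ, 1 ≤ i ∧ i + 1 ≤ r ∧ x = s i})

variable {t : ℕ} {q : ℕ → α} {G : Subgroup (Equiv.Perm α)} {s : ℕ → Equiv.Perm α}
  {H : Subgroup (Equiv.Perm α)}

lemma G2_le_Y (r : ℕ) : G2 q G ≤ Y q G s r := fun _ hg =>
  Subgroup.subset_closure (Or.inl hg)

lemma s_mem_Y {r i : ℕ} (h1 : 1 ≤ i) (h2 : i + 1 ≤ r) : s i ∈ Y q G s r :=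
  Subgroup.subset_closure (Or.inr ⟨i, h1, h2, rfl⟩)

lemma Y_mono {r r' : ℕ} (h : r ≤ r') : Y q G s r ≤ Y q G s r' := by
  apply Subgroup.closure_mono
  rintro x (hx | ⟨i, h1, h2, rfl⟩)
  · exact Or.inl hx
  · exact Or.inr ⟨i, h1, by omega, rfl⟩

lemma Data.H_le (d : Data t q G s H) : H ≤ G2 q G := by
  rw [d.hH]
  intro x hx
  exact ⟨hx.1.1, hx.2⟩

lemma Data.H_le_Y (d : Data t q G s H) (r : ℕ) : H ≤ Y q G s r := d.H_le.trans (G2_le_Y r)

lemma mem_G2 {g : Equiv.Perm α} : g ∈ G2 q G ↔ g ∈ G ∧ g (q 2) = q 2 := by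
  simp only [Subgroup.mem_inf, MulAction.mem_stabilizer_iff, Equiv.Perm.smul_def]

/-- fixed points of the chain -/
lemma Data.fix_Y (d : Data t q G s H) {r j : ℕ} (hr : 1 ≤ r) (hj : r < j) (hjt : j ≤ t)
    {y : Equiv.Perm α} (hy : y ∈ Y q G s r) : y (q j) = q j := by
  induction hy using Subgroup.closure_induction with
  | mem x hx =>
    rcases hx with hx | ⟨i, h1, h2, rfl⟩
    · obtain ⟨hx1, hx2⟩ := mem_G2.1 hx
      by_cases hj2 : j = 2
      · rw [hj2]; exact hx2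
      · exact d.hfix x hx1 j (by omega) hjt
    · by_cases hi : i = 1
      · subst hi
        exact d.hfix _ d.hs1 j (by omega) hjt
      · exact (d.hsq i (by omega) (by omega)).2.2 j (by omega) hjt (by omega) (by omega)
  | one => rfl
  | mul x y _ _ hx hy => simp [Equiv.Perm.mul_apply, hx, hy]
  | inv x _ hx =>
    rw [Equiv.Perm.inv_eq_iff_eq]
    exact hx.symm

/-- `s (r+1)` normalises `Y r`. -/
lemma Data.norm_Y (d : Data t q G s H) {r : ℕ} (hr : 1 ≤ r) (hrt : r + 2 ≤ t) {y : Equiv.Perm α}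
    (hy : y ∈ Y q G s r) : s (r + 1) * y * (s (r + 1))⁻¹ ∈ Y q G s r := by
  induction hy using Subgroup.closure_induction with
  | mem x hx =>
    rcases hx with hx | ⟨i, h1, h2, rfl⟩
    · exact G2_le_Y r (d.hnorm (r + 1) (by omega) (by omega) x hx)
    · have h3 := (d.hcomm i (r + 1) h1 (by omega) (by omega)).2
      have h4 := d.hsq2 (r + 1) (by omega) (by omega)
      have h5 : s (r + 1) * s i * (s (r + 1))⁻¹ =
          (s (r + 1) * s i) ^ 2 * (s i)⁻¹ * (s (r + 1) ^ 2)⁻¹ := by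
        rw [pow_two, pow_two]
        group
      rw [h5]
      exact mul_mem (mul_mem (d.H_le_Y r h3) (inv_mem (s_mem_Y h1 h2))) (inv_mem (d.H_le_Y r h4))
  | one => simp
  | mul x y _ _ hx hy =>
    have h5 : s (r + 1) * (x * y) * (s (r + 1))⁻¹ =
        (s (r + 1) * x * (s (r + 1))⁻¹) * (s (r + 1) * y * (s (r + 1))⁻¹) := by group
    rw [h5]
    exact mul_mem hx hy
  | inv x _ hx =>
    have h5 : s (r + 1) * x⁻¹ * (s (r + 1))⁻¹ = (s (r + 1) * x * (s (r + 1))⁻¹)⁻¹ := by group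
    rw [h5]
    exact inv_mem hx

lemma Data.norm_Y' (d : Data t q G s H) {r : ℕ} (hr : 1 ≤ r) (hrt : r + 2 ≤ t) {y : Equiv.Perm α}
    (hy : y ∈ Y q G s r) : (s (r + 1))⁻¹ * y * s (r + 1) ∈ Y q G s r := by
  have h4 := d.hsq2 (r + 1) (by omega) (by omega)
  have h5 : (s (r + 1))⁻¹ * y * s (r + 1) =
      (s (r + 1) ^ 2)⁻¹ * (s (r + 1) * y * (s (r + 1))⁻¹) * s (r + 1) ^ 2 := by
    rw [pow_two]
    group
  rw [h5]
  exact mul_mem (mul_mem (inv_mem (d.H_le_Y r h4)) (d.norm_Y hr hrt hy)) (d.H_le_Y r h4)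

/-- the double coset decomposition of `G` -/
lemma Data.decomp_G (d : Data t q G s H) {y : Equiv.Perm α} (hy : y ∈ G) :
    y ∈ G2 q G ∨ ∃ y₁ ∈ G2 q G, ∃ y₂ ∈ G2 q G, y = y₁ * s 1 * y₂ := by
  by_cases hy2 : y (q 2) = q 2
  · exact Or.inl (mem_G2.2 ⟨hy, hy2⟩)
  right
  have h12 : q 1 ≠ q 2 := fun h => absurd (d.hq 1 2 le_rfl (by have := d.ht; omega) (by omega)
    d.ht h) (by omega)
  have hne : ∀ i, 3 ≤ i → i ≤ t → q 1 ≠ q i ∧ q 2 ≠ q i := fun i h1 h2 =>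
    ⟨fun h => absurd (d.hq 1 i le_rfl (by have := d.ht; omega) (by omega) h2 h) (by omega),
     fun h => absurd (d.hq 2 i (by omega) d.ht (by omega) h2 h) (by omega)⟩
  obtain ⟨y₁, hy₁, h3, h4⟩ := d.h2 (q 1) (q 2) (y (q 2)) (q 2) (fun i h1 h2' => by
    refine ⟨(hne i h1 h2').1, (hne i h1 h2').2, ?_, (hne i h1 h2').2⟩
    intro h5
    rw [← d.hfix y hy i h1 h2'] at h5
    exact (hne i h1 h2').2 (y.injective h5)) h12 hy2
  refine ⟨y₁, mem_G2.2 ⟨hy₁, h4⟩, (s 1)⁻¹ * y₁⁻¹ * y, mem_G2.2 ⟨?_, ?_⟩, by group⟩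
  · exact mul_mem (mul_mem (inv_mem d.hs1) (inv_mem hy₁)) hy
  · simp only [Equiv.Perm.mul_apply]
    rw [Equiv.Perm.inv_eq_iff_eq, Equiv.Perm.inv_eq_iff_eq, ← h3, d.hs1q.2]

lemma Data.Y2_le (d : Data t q G s H) : Y q G s 2 ≤ G := by
  rw [Y, Subgroup.closure_le]
  rintro x (hx | ⟨i, h1, h2, rfl⟩)
  · exact (mem_G2.1 hx).1
  · have : i = 1 := by omega
    subst this
    exact d.hs1

lemma Data.G_le (d : Data t q G s H) : G ≤ Y q G s 2 := by
  intro y hy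
  rcases d.decomp_G hy with h | ⟨y₁, h1, y₂, h2, rfl⟩
  · exact G2_le_Y 2 h
  · exact mul_mem (mul_mem (G2_le_Y 2 h1) (s_mem_Y le_rfl le_rfl)) (G2_le_Y 2 h2)

/-- the key decomposition -/
lemma Data.decomp (d : Data t q G s H) {r : ℕ} (hr : 1 ≤ r) (hrt : r + 1 ≤ t) :
    ∀ y ∈ Y q G s (r + 1), y ∈ Y q G s r ∨ ∃ y₁ ∈ Y q G s r, ∃ y₂ ∈ Y q G s r, y = y₁ * s r * y₂ := by
  induction r, hr using Nat.le_induction with
  | base =>
    intro y hy
    rcases d.decomp_G (d.Y2_le hy) with h | ⟨y₁, h1, y₂, h2, rfl⟩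
    · exact Or.inl (G2_le_Y 1 h)
    · exact Or.inr ⟨y₁, G2_le_Y 1 h1, y₂, G2_le_Y 1 h2, rfl⟩
  | succ r hr ih =>
    have ih' := ih (by omega)
    set b := s (r + 1) with hb
    set a := s r with ha
    have hbb : b ^ 2 ∈ Y q G s (r + 1) := d.H_le_Y _ (d.hsq2 (r + 1) (by omega) (by omega))
    have haY : a ∈ Y q G s (r + 1) := s_mem_Y hr le_rfl
    have hY' : Y q G s r ≤ Y q G s (r + 1) := Y_mono (by omega)
    have hleft : ∀ x ∈ Y q G s (r + 1), ∀ y : Equiv.Perm α,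
        (y ∈ Y q G s (r + 1) ∨ ∃ y₁ ∈ Y q G s (r + 1), ∃ y₂ ∈ Y q G s (r + 1), y = y₁ * b * y₂) →
        (x * y ∈ Y q G s (r + 1) ∨ ∃ y₁ ∈ Y q G s (r + 1), ∃ y₂ ∈ Y q G s (r + 1), x * y = y₁ * b * y₂) := by
      rintro x hx y (h | ⟨y₁, h1, y₂, h2, rfl⟩)
      · exact Or.inl (mul_mem hx h)
      · exact Or.inr ⟨x * y₁, mul_mem hx h1, y₂, h2, by group⟩
    have hb_mul : ∀ y : Equiv.Perm α,
        (y ∈ Y q G s (r + 1) ∨ ∃ y₁ ∈ Y q G s (r + 1), ∃ y₂ ∈ Y q G s (r + 1), y = y₁ * b * y₂) →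
        (b * y ∈ Y q G s (r + 1) ∨ ∃ y₁ ∈ Y q G s (r + 1), ∃ y₂ ∈ Y q G s (r + 1), b * y = y₁ * b * y₂) := by
      rintro y (h | ⟨y₁, h1, y₂, h2, rfl⟩)
      · rcases ih' y h with h3 | ⟨u, hu, v, hv, rfl⟩
        · right
          refine ⟨b * y * b⁻¹, hY' (d.norm_Y hr (by omega) h3), 1, one_mem _, by group⟩
        · right
          refine ⟨b * u * b⁻¹, hY' (d.norm_Y hr (by omega) hu), a * v, mul_mem haY (hY' hv), by group⟩
      · rcases ih' y₁ h1 with h3 | ⟨u, hu, v, hv, rfl⟩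
        · left
          have h5 : b * (y₁ * b * y₂) = (b * y₁ * b⁻¹) * b ^ 2 * y₂ := by
            rw [pow_two]; group
          rw [h5]
          exact mul_mem (mul_mem (hY' (d.norm_Y hr (by omega) h3)) hbb) h2
        · right
          have h0 : (a * b) ^ 3 ∈ Y q G s (r + 1) := d.H_le_Y _ (d.hbraid r hr (by omega))
          refine ⟨(b * u * b⁻¹) * a⁻¹ * (b ^ 2)⁻¹, ?_, a⁻¹ * (a * b) ^ 3 * (b⁻¹ * v * b) * y₂, ?_, ?_⟩
          · exact mul_mem (mul_mem (hY' (d.norm_Y hr (by omega) hu)) (inv_mem haY)) (inv_mem hbb)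
          · exact mul_mem (mul_mem (mul_mem (inv_mem haY) h0) (hY' (d.norm_Y' hr (by omega) hv))) h2
          · rw [pow_two, pow_succ, pow_two]
            group
    intro y hy
    induction hy using Subgroup.closure_induction_left with
    | one => exact Or.inl (one_mem _)
    | mul_left x hx y _ hp =>
      rcases hx with hx | ⟨i, h1, h2, rfl⟩
      · exact hleft x (G2_le_Y _ hx) y hp
      · by_cases hi : i = r + 1
        · subst hi
          exact hb_mul y hp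
        · exact hleft _ (s_mem_Y h1 (by omega)) y hp
    | inv_mul_cancel x hx y _ hp =>
      rcases hx with hx | ⟨i, h1, h2, rfl⟩
      · exact hleft _ (inv_mem (G2_le_Y _ hx)) y hp
      · by_cases hi : i = r + 1
        · subst hi
          have h5 : (s (r + 1))⁻¹ * y = (b ^ 2)⁻¹ * (b * y) := by
            rw [pow_two, hb]; group
          rw [h5]
          exact hleft _ (inv_mem hbb) _ (hb_mul y hp)
        · exact hleft _ (inv_mem (s_mem_Y h1 (by omega))) y hp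

/-- the action of `s r` on `q (r + 1)` -/
lemma Data.s_q (d : Data t q G s H) {r : ℕ} (hr : 1 ≤ r) (hrt : r + 1 ≤ t) : s r (q (r + 1)) = q r := by
  by_cases h : r = 1
  · subst h
    exact d.hs1q.2
  · exact (d.hsq r (by omega) hrt).2.1

/-- the stabiliser of `q (r + 1)` -/
lemma Data.stab (d : Data t q G s H) {r : ℕ} (hr : 1 ≤ r) (hrt : r + 1 ≤ t) {y : Equiv.Perm α}
    (hy : y ∈ Y q G s (r + 1)) (hfix : y (q (r + 1)) = q (r + 1)) : y ∈ Y q G s r := by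
  rcases d.decomp hr hrt y hy with h | ⟨y₁, h1, y₂, h2, rfl⟩
  · exact h
  · exfalso
    simp only [Equiv.Perm.mul_apply] at hfix
    rw [d.fix_Y hr (by omega) hrt h2, d.s_q hr hrt] at hfix
    have h3 := d.fix_Y hr (by omega) hrt h1
    rw [← h3] at hfix
    have h4 := y₁.injective hfix
    have := d.hq r (r + 1) hr (by omega) (by omega) hrt h4
    omega

/-- `s r` moves `q r` to `q (r + 1)`. -/
lemma Data.s_q' (d : Data t q G s H) {r : ℕ} (hr : 1 ≤ r) (hrt : r + 1 ≤ t) : s r (q r) = q (r + 1) := by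
  by_cases h : r = 1
  · subst h
    exact d.hs1q.1
  · exact (d.hsq r (by omega) hrt).1

lemma Data.ne_q (d : Data t q G s H) {i j : ℕ} (h1 : 1 ≤ i) (h2 : i ≤ t) (h3 : 1 ≤ j) (h4 : j ≤ t)
    (h : i ≠ j) : q i ≠ q j := fun h5 => h (d.hq i j h1 h2 h3 h4 h5)

/-- transitivity on the moved points -/
lemma Data.exists_last (d : Data t q G s H) {r : ℕ} (hr : 2 ≤ r) (hrt : r ≤ t) :
    ∀ z : α, (∀ j, r < j → j ≤ t → z ≠ q j) → ∃ y ∈ Y q G s r, y (q r) = z := by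
  induction r, hr using Nat.le_induction with
  | base =>
    intro z hz
    by_cases h : z = q 2
    · exact ⟨1, one_mem _, h.symm⟩
    · have ht := d.ht
      have hne : ∀ i, 3 ≤ i → i ≤ t → q 1 ≠ q i ∧ q 2 ≠ q i := fun i h1 h2 =>
        ⟨d.ne_q (by omega) (by omega) (by omega) h2 (by omega),
         d.ne_q (by omega) (by omega) (by omega) h2 (by omega)⟩
      obtain ⟨g, hg, h1, -⟩ := d.h2 (q 2) (q 1) z (q 2) (fun i h1 h2 =>
        ⟨(hne i h1 h2).2, (hne i h1 h2).1, hz i (by omega) h2, (hne i h1 h2).2⟩)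
        (d.ne_q (by omega) (by omega) (by omega) (by omega) (by omega)) h
      exact ⟨g, d.G_le hg, h1⟩
  | succ r hr ih =>
    intro z hz
    by_cases h : z = q (r + 1)
    · exact ⟨1, one_mem _, h.symm⟩
    · obtain ⟨y, hy, h1⟩ := ih (by omega) z (fun j h2 h3 => by
        by_cases hj : j = r + 1
        · rw [hj]; exact h
        · exact hz j (by omega) h3)
      refine ⟨y * s r, mul_mem (Y_mono (by omega) hy) (s_mem_Y (by omega) le_rfl), ?_⟩
      rw [Equiv.Perm.mul_apply, d.s_q (by omega) (by omega), h1]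

/-- multiple transitivity along the chain -/
lemma Data.trans (d : Data t q G s H) {r : ℕ} (hr : 2 ≤ r) (hrt : r ≤ t) :
    ∀ x : ℕ → α, (∀ i j, 1 ≤ i → i ≤ r → 1 ≤ j → j ≤ r → x i = x j → i = j) →
      (∀ i j, 1 ≤ i → i ≤ r → r < j → j ≤ t → x i ≠ q j) →
      ∃ y ∈ Y q G s r, ∀ i, 1 ≤ i → i ≤ r → y (q i) = x i := by
  induction r, hr using Nat.le_induction with
  | base =>
    intro x hx hx'
    have ht := d.ht
    have hne : ∀ i, 3 ≤ i → i ≤ t → q 1 ≠ q i ∧ q 2 ≠ q i := fun i h1 h2 =>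
      ⟨d.ne_q (by omega) (by omega) (by omega) h2 (by omega),
       d.ne_q (by omega) (by omega) (by omega) h2 (by omega)⟩
    obtain ⟨g, hg, h1, h2⟩ := d.h2 (q 1) (q 2) (x 1) (x 2) (fun i h1 h2 =>
      ⟨(hne i h1 h2).1, (hne i h1 h2).2, hx' 1 i le_rfl (by omega) (by omega) h2,
        hx' 2 i (by omega) le_rfl (by omega) h2⟩)
      (d.ne_q (by omega) (by omega) (by omega) (by omega) (by omega))
      (fun h => by have := hx 1 2 le_rfl (by omega) (by omega) le_rfl h; omega)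
    refine ⟨g, d.G_le hg, ?_⟩
    intro i hi hi'
    have : i = 1 ∨ i = 2 := by omega
    rcases this with rfl | rfl
    · exact h1
    · exact h2
  | succ r hr ih =>
    intro x hx hx'
    obtain ⟨u, hu, hu'⟩ := d.exists_last (r := r + 1) (by omega) hrt (x (r + 1))
      (fun j h1 h2 => hx' (r + 1) j (by omega) le_rfl h1 h2)
    have hufix : ∀ j, r + 1 < j → j ≤ t → u (q j) = q j := fun j h1 h2 =>
      d.fix_Y (by omega) h1 h2 hu
    obtain ⟨y, hy, h1⟩ := ih (by omega) (fun i => u⁻¹ (x i))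
      (fun i j h1 h2 h3 h4 h5 => hx i j h1 (by omega) h3 (by omega) (u⁻¹.injective h5))
      (fun i j h1 h2 h3 h4 h5 => by
        rw [Equiv.Perm.inv_eq_iff_eq] at h5
        by_cases hj : j = r + 1
        · subst hj
          rw [hu'] at h5
          have := hx i (r + 1) h1 (by omega) (by omega) le_rfl h5
          omega
        · rw [hufix j (by omega) h4] at h5
          exact hx' i j h1 (by omega) (by omega) h4 h5)
    refine ⟨u * y, mul_mem hu (Y_mono (by omega) hy), ?_⟩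
    intro i hi hi'
    rw [Equiv.Perm.mul_apply]
    by_cases hi2 : i = r + 1
    · subst hi2
      rw [d.fix_Y (by omega) (by omega) hrt hy, hu']
    · rw [h1 i hi (by omega)]
      simp

/-- descending the chain -/
lemma Data.descend (d : Data t q G s H) {y : Equiv.Perm α} (hy : y ∈ Y q G s t)
    (hfix : ∀ i, 1 ≤ i → i ≤ t → y (q i) = q i) : y ∈ H := by
  have ht := d.ht
  have key : ∀ k r : ℕ, r + k = t → 2 ≤ r → y ∈ Y q G s r := by
    intro k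
    induction k with
    | zero =>
      intro r h _
      have : r = t := by omega
      rw [this]; exact hy
    | succ k ih =>
      intro r h hr
      exact d.stab (by omega) (by omega) (ih (r + 1) (by omega) (by omega)) (hfix _ (by omega) (by omega))
  have h2 := key (t - 2) 2 (by omega) le_rfl
  have h3 := d.Y2_le h2
  rw [d.hH]
  refine ⟨⟨h3, ?_⟩, ?_⟩
  · exact MulAction.mem_stabilizer_iff.2 (hfix 1 le_rfl (by omega))
  · exact MulAction.mem_stabilizer_iff.2 (hfix 2 (by omega) (by omega))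

/-- the target group is the top of the chain -/
lemma Data.closure_eq (d : Data t q G s H) :
    Subgroup.closure ((G : Set (Equiv.Perm α)) ∪ {x | ∃ i : ℕ, 2 ≤ i ∧ i + 1 ≤ t ∧ x = s i}) =
      Y q G s t := by
  have ht := d.ht
  apply le_antisymm
  · rw [Subgroup.closure_le]
    rintro x (hx | ⟨i, h1, h2, rfl⟩)
    · exact Y_mono ht (d.G_le hx)
    · exact s_mem_Y (by omega) h2
  · rw [Y, Subgroup.closure_le]
    rintro x (hx | ⟨i, h1, h2, rfl⟩)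
    · exact Subgroup.subset_closure (Or.inl (mem_G2.1 hx).1)
    · by_cases hi : i = 1
      · subst hi
        exact Subgroup.subset_closure (Or.inl d.hs1)
      · exact Subgroup.subset_closure (Or.inr ⟨i, by omega, h2, rfl⟩)

end Witt


/-- Witt's Lemma for constructing transitive extensions. Points `q 1, …, q t` (`t ≥ 2`) of a finite set are given; `G` fixes `q i` for `i ≥ 3` and is doubly transitive on the remaining points; `s 1 ∈ G` swaps `q 1, q 2`; for `2 ≤ i ≤ t-1`, `s i` swaps `q i, q (i+1)` and fixes the other `q j`; with `H` the stabiliser of `q 1, q 2` in `G`: `s i ^ 2 ∈ H`, `(s i * s (i+1)) ^ 3 ∈ H`, `(s i * s j) ^ 2 ∈ H` for `j ≥ i + 2`, and `s i` (`i ≥ 2`) normalises the stabiliser of `q 2` in `G`. Then `G` and the `s i` generate a `t`-transitive group whose pointwise stabiliser of the `q`'s is `H`. -/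
theorem result {α : Type*} [Fintype α] [DecidableEq α] (t : ℕ) (ht : 2 ≤ t) (q : ℕ → α) (hq : ∀ i j : ℕ, 1 ≤ i → i ≤ t → 1 ≤ j → j ≤ t → q i = q j → i = j) (G : Subgroup (Equiv.Perm α)) (hfix : ∀ g ∈ G, ∀ i : ℕ, 3 ≤ i → i ≤ t → g (q i) = q i) (h2 : ∀ a b c d : α, (∀ i, 3 ≤ i → i ≤ t → a ≠ q i ∧ b ≠ q i ∧ c ≠ q i ∧ d ≠ q i) → a ≠ b → c ≠ d → ∃ g ∈ G, g a = c ∧ g b = d) (s : ℕ → Equiv.Perm α) (hs1 : s 1 ∈ G) (hs1q : s 1 (q 1) = q 2 ∧ s 1 (q 2) = q 1) (hsq : ∀ i : ℕ, 2 ≤ i → i + 1 ≤ t → s i (q i) = q (i + 1) ∧ s i (q (i + 1)) = q i ∧ ∀ j : ℕ, 1 ≤ j → j ≤ t → j ≠ i → j ≠ i + 1 → s i (q j) = q j) (H : Subgroup (Equiv.Perm α)) (hH : H = G ⊓ MulAction.stabilizer (Equiv.Perm α) (q 1) ⊓ MulAction.stabilizer (Equiv.Perm α) (q 2)) (hsq2 : ∀ i : ℕ, 1 ≤ i → i + 1 ≤ t → s i ^ 2 ∈ H) (hbraid : ∀ i : ℕ, 1 ≤ i → i + 2 ≤ t → (s i * s (i + 1)) ^ 3 ∈ H) (hcomm : ∀ i j : ℕ, 1 ≤ i → i + 2 ≤ j → j + 1 ≤ t → (s i *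 s j) ^ 2 ∈ H ∧ (s j * s i) ^ 2 ∈ H) (hnorm : ∀ i : ℕ, 2 ≤ i → i + 1 ≤ t → ∀ g ∈ G ⊓ MulAction.stabilizer (Equiv.Perm α) (q 2), s i * g * (s i)⁻¹ ∈ G ⊓ MulAction.stabilizer (Equiv.Perm α) (q 2)) : MulAction.IsMultiplyPretransitive ↥(Subgroup.closure ((G : Set (Equiv.Perm α)) ∪ {x | ∃ i : ℕ, 2 ≤ i ∧ i + 1 ≤ t ∧ x = s i})) α t ∧ Subgroup.closure ((G : Set (Equiv.Perm α)) ∪ {x | ∃ i : ℕ, 2 ≤ i ∧ i + 1 ≤ t ∧ x = s i}) ⊓ fixingSubgroup (Equiv.Perm α) {x | ∃ i : ℕ, 1 ≤ i ∧ i ≤ t ∧ x = q i} = H := by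
  have d : Data t q G s H := ⟨ht, hq, hfix, h2, hs1, hs1q, hsq, hH, hsq2, hbraid, hcomm, hnorm⟩
  rw [d.closure_eq]
  constructor
  · refine ⟨fun x x' => ?_⟩
    have hext : ∀ x : Fin t ↪ α, ∃ y ∈ Y q G s t, ∀ i : Fin t, y (q (i.1 + 1)) = x i := by
      intro x
      let xh : ℕ → α := fun i => if h : 1 ≤ i ∧ i ≤ t then x ⟨i - 1, by omega⟩ else q 0
      have hxh : ∀ i : Fin t, xh (i.1 + 1) = x i := by
        intro i
        have h1 : 1 ≤ i.1 + 1 ∧ i.1 + 1 ≤ t := ⟨by omega, i.2⟩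
        simp only [xh, dif_pos h1]
        congr 1
      obtain ⟨y, hy, h3⟩ := d.trans ht le_rfl xh (by
          intro i j h1 h3 h4 h5 h6
          simp only [xh, dif_pos (And.intro h1 h3), dif_pos (And.intro h4 h5)] at h6
          have := x.injective h6
          have h7 := congrArg Fin.val this
          simp only at h7
          omega) (by
          intro i j _ _ h3 h4
          omega)
      exact ⟨y, hy, fun i => by rw [h3 _ (by omega) i.2, hxh]⟩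
    obtain ⟨y, hy, h3⟩ := hext x
    obtain ⟨y', hy', h4⟩ := hext x'
    refine ⟨⟨y' * y⁻¹, mul_mem hy' (inv_mem hy)⟩, ?_⟩
    ext i
    rw [Function.Embedding.smul_apply, Subgroup.smul_def, Equiv.Perm.smul_def, Equiv.Perm.mul_apply, ← h3 i]
    simp [h4 i]
  · apply le_antisymm
    · rintro y ⟨hy, hy'⟩
      have hy'' := (mem_fixingSubgroup_iff (Equiv.Perm α)).1 hy'
      exact d.descend hy (fun i h1 h3 => hy'' _ ⟨i, h1, h3, rfl⟩)
    · intro y hy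
      refine ⟨d.H_le_Y t hy, (mem_fixingSubgroup_iff (Equiv.Perm α)).2 ?_⟩
      rintro _ ⟨i, h1, h3, rfl⟩
      rw [hH] at hy
      rw [Equiv.Perm.smul_def]
      by_cases h1' : i = 1
      · subst h1'
        exact hy.1.2
      · by_cases h2' : i = 2
        · subst h2'
          exact hy.2
        · exact hfix _ hy.1.1 i (by omega) h3

end Cfsg.Agent.S0709
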