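import Cfsg.Statements.S0710
import Mathlib
import Cfsg.Agent.Lib.H03.Orbit

set_option autoImplicit false
open Cfsg

namespace Cfsg.Agent.S0710


/-- No transitive permutation group on 13 points has order `13 * 12 * 11 * 10 * 9 * 8`. -/
theorem result {α : Type*} [Fintype α] [DecidableEq α] (hα : Fintype.card α = 13) (G : Subgroup (Equiv.Perm α)) [MulAction.IsPretransitive G α] : Nat.card G ≠ 13 * 12 * 11 * 10 * 9 * 8 := by
  classical
  intro hcard
  have hp : Fact (Nat.Prime 13) := ⟨by norm_num⟩
  obtain ⟨P⟩ : Nonempty (Sylow 13 G) := inferInstance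
  have hPcard : Nat.card P = 13 := by
    rw [P.card_eq_multiplicity, hcard]
    have : (13 * 12 * 11 * 10 * 9 * 8 : ℕ) = 13 ^ 1 * 95040 := by norm_num
    rw [this, Nat.factorization_mul (by norm_num) (by norm_num), Nat.Prime.factorization_pow hp.out]
    have h95 : Nat.factorization 95040 13 = 0 := Nat.factorization_eq_zero_of_not_dvd (by norm_num)
    simp [h95]
  have htr : MulAction.IsPretransitive P α :=
    Cfsg.Agent.H03.isPretransitive_sylow 1 (by rw [Nat.card_eq_fintype_card, hα]; norm_num) P
  have hcyc : IsCyclic P := isCyclic_of_prime_card hPcard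
  have hcomm : ∀ x y : P, x * y = y * x := fun x y => by
    obtain ⟨g, hg⟩ := IsCyclic.exists_generator (α := P)
    obtain ⟨m, rfl⟩ := Subgroup.mem_zpowers_iff.mp (hg x)
    obtain ⟨n, rfl⟩ := Subgroup.mem_zpowers_iff.mp (hg y)
    rw [← zpow_add, ← zpow_add, add_comm]
  have hαc : Nat.card α = 13 := by rw [Nat.card_eq_fintype_card, hα]
  set C := Subgroup.centralizer (((P : Subgroup G) : Set G)) with hC
  have hPC : (P : Subgroup G) ≤ C := by
    intro x hx
    rw [hC, Subgroup.mem_centralizer_iff]
    intro y hy
    have := hcomm ⟨y, hy⟩ ⟨x, hx⟩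
    exact congrArg Subtype.val this
  obtain ⟨a⟩ : Nonempty α := by
    have : Nat.card α ≠ 0 := by omega
    exact (Nat.card_ne_zero.mp this).1
  have hCle : Nat.card C ≤ 13 := by
    rw [← hαc]
    refine Nat.card_le_card_of_injective (fun c : C => (c : G) • a) ?_
    intro c₁ c₂ h
    apply Subtype.ext
    apply Subtype.ext
    apply Equiv.ext
    intro x
    obtain ⟨q, rfl⟩ := MulAction.exists_smul_eq P a x
    have h1 : ∀ c : C, ((c : G) * (q : G)) = (q : G) * (c : G) := fun c => by
      have := Subgroup.mem_centralizer_iff.mp c.2 (q : G) q.2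
      exact this.symm
    have h2 : ∀ c : C, (c : G) • (q • a) = (q : G) • ((c : G) • a) := fun c => by
      change ((c : G) * (q : G)) • a = _
      rw [h1, mul_smul]
    have h3 := h2 c₁
    have h4 := h2 c₂
    have h5 : (c₁ : G) • a = (c₂ : G) • a := h
    rw [h5, ← h4] at h3
    exact h3
  have hCP : (P : Subgroup G) = C := by
    apply Subgroup.eq_of_le_of_card_ge hPC
    rw [hPcard]
    exact hCle
  have hCcard : Nat.card C = 13 := by rw [← hCP]; exact hPcard
  set N := Subgroup.normalizer (((P : Subgroup G) : Set G)) with hN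
  have hPN : (P : Subgroup G) ≤ N := Subgroup.le_normalizer
  have hker : (P : Subgroup G).normalizerMonoidHom.ker = (P : Subgroup G).subgroupOf N := by
    rw [Subgroup.normalizerMonoidHom_ker]
    change C.subgroupOf N = _
    rw [← hCP]
  have hkercard : Nat.card (P : Subgroup G).normalizerMonoidHom.ker = 13 := by
    rw [hker]
    exact (Nat.card_congr (Subgroup.subgroupOfEquivOfLe hPN).toEquiv).trans hPcard
  have hrange : Nat.card (P : Subgroup G).normalizerMonoidHom.range ∣ 12 := by
    have h1 : Nat.card (MulAut P) = 12 := by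
      rw [IsCyclic.card_mulAut, hPcard]
      decide
    rw [← h1]
    exact Subgroup.card_subgroup_dvd_card _
  have hNcard : Nat.card N = 13 * Nat.card (P : Subgroup G).normalizerMonoidHom.range := by
    have h := Subgroup.card_mul_index (P : Subgroup G).normalizerMonoidHom.ker
    rw [hkercard, Subgroup.index_ker] at h
    exact h.symm
  have hG := Subgroup.card_mul_index N
  rw [hNcard, hcard] at hG
  have hmod : N.index ≡ 1 [MOD 13] := by
    have h := card_sylow_modEq_one 13 G
    rw [Sylow.card_eq_index_normalizer P] at h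
    exact h
  set e := Nat.card (P : Subgroup G).normalizerMonoidHom.range with he
  set i := N.index with hi
  have hei : e * i = 95040 := by
    have : 13 * (e * i) = 13 * 95040 := by linarith [hG]
    omega
  have hmod' : i % 13 = 1 := hmod
  have hele : e ≤ 12 := Nat.le_of_dvd (by norm_num) hrange
  interval_cases e <;> first | omega | (exfalso; revert hrange; decide)

end Cfsg.Agent.S0710
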