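import Cfsg.Statements.S0711
import Mathlib
import Cfsg.Agent.Lib.H03.JordanN

set_option autoImplicit false
open Cfsg

namespace Cfsg.Agent.S0711

open Cfsg MulAction Equiv Cfsg.Agent.H03

section
variable {α : Type*} [Fintype α] [DecidableEq α]

lemma supp_bound (g h : Equiv.Perm α) (W : Finset α) (hW : ∀ x ∈ W, h x = x) (hWS : W ⊆ g.support) :
    (g⁻¹ * (h * g * h⁻¹)).support.card + (W.filter (fun x => g x ∈ W)).card +
      (g.support ∩ g.support.map h.toEmbedding).card ≤ 2 * g.support.card := by
  classical
  set S := g.support with hS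
  set T := g.support.map h.toEmbedding with hT
  set F := W.filter (fun x => g x ∈ W) with hF
  have hcT : T.card = S.card := Finset.card_map _
  have hu := Finset.card_union_add_card_inter S T
  have hFS : F ⊆ S ∪ T := fun x hx => Finset.mem_union_left _ (hWS (Finset.mem_filter.mp hx).1)
  have hsub : (g⁻¹ * (h * g * h⁻¹)).support ⊆ (S ∪ T) \ F := by
    intro x hx
    rw [Equiv.Perm.mem_support] at hx
    rw [Finset.mem_sdiff]
    constructor
    · by_contra hxn
      rw [Finset.mem_union, not_or] at hxn
      apply hx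
      have h1 : g x = x := by
        by_contra h2
        exact hxn.1 (Equiv.Perm.mem_support.mpr h2)
      have h3 : g (h⁻¹ x) = h⁻¹ x := by
        by_contra h2
        apply hxn.2
        rw [hT, Finset.mem_map]
        exact ⟨h⁻¹ x, Equiv.Perm.mem_support.mpr h2, by simp⟩
      simp only [Equiv.Perm.mul_apply, h3]
      rw [Equiv.Perm.inv_eq_iff_eq]
      simp [h1]
    · intro hxF
      obtain ⟨hxW, hgxW⟩ := Finset.mem_filter.mp hxF
      apply hx
      have h1 : h⁻¹ x = x := by
        rw [Equiv.Perm.inv_eq_iff_eq, hW x hxW]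
      simp only [Equiv.Perm.mul_apply, h1, hW _ hgxW]
      simp
  have h1 := Finset.card_le_card hsub
  rw [Finset.card_sdiff_of_subset hFS] at h1
  have h2 : F.card ≤ (S ∪ T).card := Finset.card_le_card hFS
  omega

lemma exists_fix_move {G : Subgroup (Equiv.Perm α)} {k : ℕ} (hkn : k ≤ Fintype.card α)
    (hG : IsMultiplyPretransitive G α k) (W : Finset α) (hW : W.card + 1 ≤ k) (y z : α) (hy : y ∉ W) (hz : z ∉ W) :
    ∃ h ∈ G, (∀ x ∈ W, h x = x) ∧ h y = z := by
  classical
  have hc : Nat.card α = Fintype.card α := Nat.card_eq_fintype_card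
  have htr : IsMultiplyPretransitive G α (W.card + 1) :=
    isMultiplyPretransitive_of_le (n := k) hW (by omega)
  let e : Fin W.card ≃ W := W.equivFin.symm
  let v : Fin W.card → α := fun i => (e i : α)
  have hv : Function.Injective v := fun i j h => e.injective (Subtype.ext h)
  have hvr : ∀ u, u ∉ W → u ∉ Set.range v := by
    rintro u hu ⟨i, rfl⟩
    exact hu (e i).2
  obtain ⟨h, hh⟩ := exists_smul_of_fn htr (Fin.cons y v : Fin (W.card + 1) → α) (Fin.cons z v)
    (Fin.cons_injective_iff.mpr ⟨hvr y hy, hv⟩) (Fin.cons_injective_iff.mpr ⟨hvr z hz, hv⟩)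
  refine ⟨h, h.2, fun x hx => ?_, ?_⟩
  · have := hh (e.symm ⟨x, hx⟩).succ
    simp only [Fin.cons_succ, v, Equiv.apply_symm_apply] at this
    exact this
  · have := hh 0
    simp only [Fin.cons_zero] at this
    exact this

/-- a set of given size in the support with at most one exit. -/
lemma exists_seg (g : Equiv.Perm α) (r : ℕ) (hr : r ≤ g.support.card) :
    ∃ W : Finset α, W ⊆ g.support ∧ W.card = r ∧ ∀ x ∈ W, ∀ x' ∈ W, g x ∉ W → g x' ∉ W → x = x' := by
  classical
  induction r with
  | zero => exact ⟨∅, by simp, by simp, by simp⟩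
  | succ r ih =>
    obtain ⟨W, hWS, hWc, hWe⟩ := ih (by omega)
    by_cases hex : ∃ x ∈ W, g x ∉ W
    · obtain ⟨x₁, hx₁, hx₁g⟩ := hex
      refine ⟨insert (g x₁) W, ?_, ?_, ?_⟩
      · intro u hu
        rcases Finset.mem_insert.mp hu with rfl | hu
        · exact Equiv.Perm.apply_mem_support.mpr (hWS hx₁)
        · exact hWS hu
      · rw [Finset.card_insert_of_notMem hx₁g, hWc]
      · have key : ∀ u ∈ insert (g x₁) W, g u ∉ insert (g x₁) W → u = g x₁ := by
          intro u hu hgu
          rcases Finset.mem_insert.mp hu with rfl | hu'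
          · rfl
          · exfalso
            rw [Finset.mem_insert, not_or] at hgu
            have := hWe u hu' x₁ hx₁ hgu.2 hx₁g
            rw [this] at hgu
            exact hgu.1 rfl
        intro x hx x' hx' h1 h2
        rw [key x hx h1, key x' hx' h2]
    · push Not at hex
      have hlt : W.card < g.support.card := by omega
      obtain ⟨a, haS, haW⟩ := Finset.exists_mem_notMem_of_card_lt_card hlt
      refine ⟨insert a W, ?_, ?_, ?_⟩
      · intro u hu
        rcases Finset.mem_insert.mp hu with rfl | hu
        · exact haS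
        · exact hWS hu
      · rw [Finset.card_insert_of_notMem haW, hWc]
      · have key : ∀ u ∈ insert a W, g u ∉ insert a W → u = a := by
          intro u hu hgu
          rcases Finset.mem_insert.mp hu with rfl | hu'
          · rfl
          · exfalso
            rw [Finset.mem_insert, not_or] at hgu
            exact hgu.2 (hex u hu')
        intro x hx x' hx' h1 h2
        rw [key x hx h1, key x' hx' h2]

end

/-- A `k`-transitive permutation group (`k ≥ 3`) with a non-identity element of support smaller than `2k - 2` contains a non-identity element of support at most 3, and therefore contains the alternating group. -/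
theorem result {α : Type*} [Fintype α] [DecidableEq α] (G : Subgroup (Equiv.Perm α)) {k : ℕ} (hk : 3 ≤ k) (hkn : k ≤ Fintype.card α) (hG : MulAction.IsMultiplyPretransitive G α k) (g : Equiv.Perm α) (hg : g ∈ G) (hg1 : g ≠ 1) (hsupp : g.support.card < 2 * k - 2) : (∃ h : Equiv.Perm α, h ∈ G ∧ h ≠ 1 ∧ h.support.card ≤ 3) ∧ alternatingGroup α ≤ G := by
  classical
  have hc : Nat.card α = Fintype.card α := Nat.card_eq_fintype_card
  have hG3 : IsMultiplyPretransitive G α 3 := isMultiplyPretransitive_of_le (n := k) hk (by omega)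
  have hG2 : IsMultiplyPretransitive G α 2 := isMultiplyPretransitive_of_le (n := k) (by omega) (by omega)
  have hprim : IsPreprimitive G α := isPreprimitive_of_is_two_pretransitive hG2
  -- the minimal element
  obtain ⟨g₀, ⟨hg₀, hg₀1⟩, hmin⟩ := Set.exists_min_image {h : Equiv.Perm α | h ∈ G ∧ h ≠ 1}
    (fun h => h.support.card) (Set.toFinite _) ⟨g, hg, hg1⟩
  have hmin' : ∀ h ∈ G, h ≠ 1 → g₀.support.card ≤ h.support.card := fun h h1 h2 => hmin h ⟨h1, h2⟩
  have hm2 : g₀.support.card ≤ g.support.card := hmin' g hg hg1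
  -- key claim
  have hsmall : g₀.support.card ≤ 3 := by
    by_contra hbig
    push Not at hbig
    -- g₀.support is not everything
    obtain ⟨z, hz⟩ : ∃ z, z ∉ g₀.support := by
      by_contra hall
      push Not at hall
      have hS_univ : g₀.support = Finset.univ := Finset.eq_univ_iff_forall.mpr hall
      have hcard : g₀.support.card = Fintype.card α := by rw [hS_univ, Finset.card_univ]
      obtain ⟨a, b, c, hab, hac, hbc⟩ : ∃ a b c : α, a ≠ b ∧ a ≠ c ∧ b ≠ c := by
        have : 2 < (Finset.univ : Finset α).card := by rw [Finset.card_univ]; omega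
        obtain ⟨a, _, b, _, c, _, h1, h2, h3⟩ := Finset.two_lt_card.mp this
        exact ⟨a, b, c, h1, h2, h3⟩
      obtain ⟨h, hh1, hh2⟩ := (is_two_pretransitive_iff.mp hG2) hab hac
      have hh1' : (h : Equiv.Perm α) a = a := hh1
      have hh2' : (h : Equiv.Perm α) b = c := hh2
      have hne : (h : Equiv.Perm α) ≠ 1 := by
        intro h1
        rw [h1] at hh2'
        exact hbc hh2'
      have h3 := hmin' h h.2 hne
      have h4 : (h : Equiv.Perm α).support.card < Fintype.card α := by
        apply lt_of_le_of_ne (Finset.card_le_univ _)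
        intro h5
        have : (h : Equiv.Perm α).support = Finset.univ := Finset.eq_univ_of_card _ h5
        have ha : a ∈ (h : Equiv.Perm α).support := by rw [this]; exact Finset.mem_univ _
        exact (Equiv.Perm.mem_support.mp ha) hh1'
      omega
    have hcontr : ∀ h ∈ G, ∀ W : Finset α, (∀ x ∈ W, h x = x) → W ⊆ g₀.support → h * g₀ * h⁻¹ ≠ g₀ →
        2 * g₀.support.card < g₀.support.card + (W.filter (fun x => g₀ x ∈ W)).card + (g₀.support ∩ g₀.support.map h.toEmbedding).card → False := by
      intro h hhG W hW hWS hne hlt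
      have hb := supp_bound g₀ h W hW hWS
      have hcG : g₀⁻¹ * (h * g₀ * h⁻¹) ∈ G := G.mul_mem (G.inv_mem hg₀) (G.mul_mem (G.mul_mem hhG hg₀) (G.inv_mem hhG))
      have hc1 : g₀⁻¹ * (h * g₀ * h⁻¹) ≠ 1 := by
        intro h1
        apply hne
        have := inv_mul_eq_one.mp h1
        exact this.symm
      have := hmin' _ hcG hc1
      omega
    have hneS : ∀ h : Equiv.Perm α, ∀ y ∈ g₀.support, h y ∉ g₀.support → h * g₀ * h⁻¹ ≠ g₀ := by
      intro h y hy hhy heq
      apply hhy
      have h1 : g₀ y ≠ y := Equiv.Perm.mem_support.mp hy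
      rw [Equiv.Perm.mem_support]
      intro h2
      apply h1
      have h3 : h (g₀ y) = g₀ (h y) := by
        have := congrArg (fun π : Equiv.Perm α => π (h y)) heq
        simpa using this
      rw [h2] at h3
      exact h.injective h3
    by_cases hmk : g₀.support.card ≤ k
    · -- small support
      obtain ⟨y, hy⟩ : g₀.support.Nonempty := Finset.card_pos.mp (by omega)
      have hzW : z ∉ g₀.support.erase y := fun h => hz (Finset.mem_of_mem_erase h)
      obtain ⟨h, hhG, hfix, hmove⟩ := exists_fix_move hkn hG (g₀.support.erase y) (by rw [Finset.card_erase_of_mem hy]; omega)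
        y z (Finset.notMem_erase y g₀.support) hzW
      refine hcontr h hhG (g₀.support.erase y) hfix (Finset.erase_subset _ _) (hneS h y hy (by rw [hmove]; exact hz)) ?_
      -- counts
      have hc1 : (g₀.support.erase y).card = g₀.support.card - 1 := Finset.card_erase_of_mem hy
      have hc2 : g₀.support.erase y ⊆ g₀.support ∩ g₀.support.map h.toEmbedding := by
        intro x hx
        refine Finset.mem_inter.mpr ⟨Finset.mem_of_mem_erase hx, Finset.mem_map.mpr ⟨x, Finset.mem_of_mem_erase hx, hfix x hx⟩⟩
      have hc3 := Finset.card_le_card hc2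
      have hc4 : (g₀.support.erase y).erase (g₀⁻¹ y) ⊆ (g₀.support.erase y).filter (fun x => g₀ x ∈ g₀.support.erase y) := by
        intro x hx
        obtain ⟨h1, h2⟩ := Finset.mem_erase.mp hx
        refine Finset.mem_filter.mpr ⟨h2, Finset.mem_erase.mpr ⟨?_, ?_⟩⟩
        · intro h3
          apply h1
          rw [Equiv.Perm.eq_inv_iff_eq]
          exact h3
        · exact Equiv.Perm.apply_mem_support.mpr (Finset.mem_of_mem_erase h2)
      have hc5 := Finset.card_le_card hc4
      have hc6 : (g₀.support.erase y).card - 1 ≤ ((g₀.support.erase y).erase (g₀⁻¹ y)).card := Finset.pred_card_le_card_erase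
      omega
    · -- large support
      push Not at hmk
      have hmk2 : g₀.support.card ≤ 2 * k - 3 := by omega
      obtain ⟨W, hWS, hWc, hWe⟩ := exists_seg g₀ (k - 1) (by omega)
      have hc2 : ∀ h : Equiv.Perm α, (∀ x ∈ W, h x = x) → W ⊆ g₀.support ∩ g₀.support.map h.toEmbedding := by
        intro h hfix x hx
        exact Finset.mem_inter.mpr ⟨hWS hx, Finset.mem_map.mpr ⟨x, hWS hx, hfix x hx⟩⟩
      by_cases hex : ∃ x ∈ W, g₀ x ∉ W
      · obtain ⟨x₁, hx₁, hx₁g⟩ := hex
        have hyS : g₀ x₁ ∈ g₀.support := Equiv.Perm.apply_mem_support.mpr (hWS hx₁)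
        have hcard2 : 1 < (g₀.support \ W).card := by
          rw [Finset.card_sdiff_of_subset hWS, hWc]
          omega
        obtain ⟨y', hy'1, hy'2⟩ := Finset.exists_mem_ne hcard2 (g₀ x₁)
        obtain ⟨hy'g₀.support, hy'W⟩ := Finset.mem_sdiff.mp hy'1
        obtain ⟨h, hhG, hfix, hmove⟩ := exists_fix_move hkn hG W (by omega) (g₀ x₁) y' hx₁g hy'W
        have hneq : h * g₀ * h⁻¹ ≠ g₀ := by
          intro heq
          have h3 := congrArg (fun π : Equiv.Perm α => π x₁) heq
          have hi : h⁻¹ x₁ = x₁ := by rw [Equiv.Perm.inv_eq_iff_eq, hfix x₁ hx₁]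
          simp only [Equiv.Perm.mul_apply, hi, hmove] at h3
          exact hy'2 h3
        refine hcontr h hhG W hfix hWS hneq ?_
        have hc3 : insert y' W ⊆ g₀.support ∩ g₀.support.map h.toEmbedding := by
          apply Finset.insert_subset
          · exact Finset.mem_inter.mpr ⟨hy'g₀.support, Finset.mem_map.mpr ⟨g₀ x₁, hyS, hmove⟩⟩
          · exact hc2 h hfix
        have hc4 := Finset.card_le_card hc3
        rw [Finset.card_insert_of_notMem hy'W, hWc] at hc4
        have hc5 : W.erase x₁ ⊆ W.filter (fun x => g₀ x ∈ W) := by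
          intro x hx
          obtain ⟨h1, h2⟩ := Finset.mem_erase.mp hx
          refine Finset.mem_filter.mpr ⟨h2, ?_⟩
          by_contra h3
          exact h1 (hWe x h2 x₁ hx₁ h3 hx₁g)
        have hc6 := Finset.card_le_card hc5
        rw [Finset.card_erase_of_mem hx₁, hWc] at hc6
        omega
      · push Not at hex
        have hlt : W.card < g₀.support.card := by omega
        obtain ⟨y, hyS, hyW⟩ := Finset.exists_mem_notMem_of_card_lt_card hlt
        have hzW : z ∉ W := fun h => hz (hWS h)
        obtain ⟨h, hhG, hfix, hmove⟩ := exists_fix_move hkn hG W (by omega) y z hyW hzW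
        refine hcontr h hhG W hfix hWS (hneS h y hyS (by rw [hmove]; exact hz)) ?_
        have hc4 := Finset.card_le_card (hc2 h hfix)
        have hc5 : W.filter (fun x => g₀ x ∈ W) = W := Finset.filter_true_of_mem hex
        rw [hc5, hWc]
        rw [hWc] at hc4
        omega
  refine ⟨⟨g₀, hg₀, hg₀1, hsmall⟩, ?_⟩
  have hcases : g₀.support.card = 2 ∨ g₀.support.card = 3 := by
    have h1 := Equiv.Perm.two_le_card_support_of_ne_one hg₀1
    omega
  rcases hcases with h2 | h3
  · have hswap : g₀.IsSwap := Equiv.Perm.card_support_eq_two.mp h2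
    have := Equiv.Perm.subgroup_eq_top_of_isPreprimitive_of_isSwap_mem hprim g₀ hswap hg₀
    rw [this]
    exact le_top
  · have h3c : g₀.IsThreeCycle := card_support_eq_three_iff.mp h3
    exact Equiv.Perm.alternatingGroup_le_of_isPreprimitive_of_isThreeCycle_mem hprim h3c hg₀

end Cfsg.Agent.S0711
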