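import Cfsg.Statements.S0714
import Mathlib

set_option autoImplicit false
open Cfsg

namespace Cfsg.Agent.S0714

open Cfsg MulAction Equiv

section
variable {α : Type*} [Fintype α] [DecidableEq α] {K : Type*} [Field K]

lemma rep_single (g : alternatingGroup α) (x : α) (c : K) :
    permRep K (alternatingGroup α) α g (Pi.single x c) = Pi.single ((g : Equiv.Perm α) x) c := by
  ext y
  change (Pi.single x c : α → K) ((g : Equiv.Perm α)⁻¹ y) = _
  by_cases h : y = (g : Equiv.Perm α) x
  · subst h
    simp
  · rw [Pi.single_eq_of_ne h, Pi.single_eq_of_ne]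
    intro h2
    apply h
    rw [← h2]
    simp

/-- A product of two swaps as an element of the alternating group. -/
def alt2 {a b c d : α} (hab : a ≠ b) (hcd : c ≠ d) : alternatingGroup α :=
  ⟨swap a b * swap c d, by
    rw [Equiv.Perm.mem_alternatingGroup, Equiv.Perm.sign_mul, Equiv.Perm.sign_swap hab, Equiv.Perm.sign_swap hcd]
    rfl⟩

variable (W : Subrepresentation (permRep K (alternatingGroup α) α))

lemma pair_mem (hα : 5 ≤ Fintype.card α) (f : α → K) (hf : f ∈ W.toSubmodule) (a b : α) (hne : f a ≠ f b) :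
    ∃ x y : α, x ≠ y ∧ (Pi.single x 1 - Pi.single y 1 : α → K) ∈ W.toSubmodule := by
  classical
  have hab : a ≠ b := fun h => hne (by rw [h])
  have hcompl : 2 < ({a, b} : Finset α)ᶜ.card := by
    rw [Finset.card_compl, Finset.card_pair hab]
    omega
  obtain ⟨c, hc, d, hd, e, he, hcd, hce, hde⟩ := Finset.two_lt_card.mp hcompl
  simp only [Finset.mem_compl, Finset.mem_insert, Finset.mem_singleton, not_or] at hc hd he
  obtain ⟨hca, hcb⟩ := hc
  obtain ⟨hda, hdb⟩ := hd
  obtain ⟨hea, heb⟩ := he
  -- first element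
  have hba : b ≠ a := Ne.symm hab
  have hac : a ≠ c := Ne.symm hca
  have had : a ≠ d := Ne.symm hda
  have hae : a ≠ e := Ne.symm hea
  have hbc : b ≠ c := Ne.symm hcb
  have hbd : b ≠ d := Ne.symm hdb
  have hbe : b ≠ e := Ne.symm heb
  have hdc : d ≠ c := Ne.symm hcd
  have hec : e ≠ c := Ne.symm hce
  have hed : e ≠ d := Ne.symm hde
  let τ := alt2 hab hcd
  let u : K := f b - f a
  let v : K := f d - f c
  have hu : u ≠ 0 := sub_ne_zero.mpr (Ne.symm hne)
  have hh : (permRep K (alternatingGroup α) α τ f - f) =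
      u • (Pi.single a 1 - Pi.single b 1 : α → K) + v • (Pi.single c 1 - Pi.single d 1 : α → K) := by
    ext x
    change f ((τ : Equiv.Perm α)⁻¹ x) - f x = _
    have hτ : (τ : Equiv.Perm α)⁻¹ = swap c d * swap a b := by
      simp [τ, alt2, mul_inv_rev]
    rw [hτ, Equiv.Perm.mul_apply]
    by_cases h1 : x = a
    · rw [h1]
      simp [Pi.single_apply, swap_apply_of_ne_of_ne, hab, hba, hac, hca, had, hda, hbc, hcb, hbd, hdb, hcd, hdc, u, v]
    by_cases h2 : x = b
    · rw [h2]
      simp [Pi.single_apply, swap_apply_of_ne_of_ne, hab, hba, hac, hca, had, hda, hbc, hcb, hbd, hdb, hcd, hdc, u, v]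
    by_cases h3 : x = c
    · rw [h3]
      simp [Pi.single_apply, swap_apply_of_ne_of_ne, hab, hba, hac, hca, had, hda, hbc, hcb, hbd, hdb, hcd, hdc, u, v]
    by_cases h4 : x = d
    · rw [h4]
      simp [Pi.single_apply, swap_apply_of_ne_of_ne, hab, hba, hac, hca, had, hda, hbc, hcb, hbd, hdb, hcd, hdc, u, v]
    · simp [Pi.single_apply, h1, h2, h3, h4, swap_apply_of_ne_of_ne, u, v]
  have hmem1 : u • (Pi.single a 1 - Pi.single b 1 : α → K) + v • (Pi.single c 1 - Pi.single d 1 : α → K) ∈ W.toSubmodule := by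
    rw [← hh]
    exact W.toSubmodule.sub_mem (W.apply_mem_toSubmodule τ hf) hf
  by_cases hv : v = 0
  · refine ⟨a, b, hab, ?_⟩
    rw [hv, zero_smul, add_zero] at hmem1
    have := W.toSubmodule.smul_mem u⁻¹ hmem1
    rwa [smul_smul, inv_mul_cancel₀ hu, one_smul] at this
  -- second element
  let κ := alt2 hab (Ne.symm hde : e ≠ d)
  have hκa : (κ : Equiv.Perm α) a = b := by
    simp [κ, alt2, swap_apply_of_ne_of_ne, had, hae]
  have hκb : (κ : Equiv.Perm α) b = a := by
    simp [κ, alt2, swap_apply_of_ne_of_ne, hbd, hbe]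
  have hκc : (κ : Equiv.Perm α) c = c := by
    simp [κ, alt2, swap_apply_of_ne_of_ne, hca, hcb, hcd, hce]
  have hκd : (κ : Equiv.Perm α) d = e := by
    simp [κ, alt2, swap_apply_of_ne_of_ne, hea, heb, hda, hdb, hed]
  have hmem2 : (u • (Pi.single b 1 - Pi.single a 1 : α → K) + v • (Pi.single c 1 - Pi.single e 1 : α → K)) ∈ W.toSubmodule := by
    have := W.apply_mem_toSubmodule κ hmem1
    simp only [map_add, map_smul, map_sub, rep_single, hκa, hκb, hκc, hκd] at this
    exact this
  have hy : (2 : K) • (Pi.single c 1 : α → K) - Pi.single d 1 - Pi.single e 1 ∈ W.toSubmodule := by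
    have := W.toSubmodule.smul_mem v⁻¹ (W.toSubmodule.add_mem hmem1 hmem2)
    convert this using 1
    ext x
    simp only [Pi.sub_apply, Pi.smul_apply, Pi.add_apply, smul_eq_mul]
    field_simp
    ring
  by_cases h3 : (3 : K) = 0
  · -- characteristic three
    have hs : (Pi.single c 1 + Pi.single d 1 + Pi.single e 1 : α → K) ∈ W.toSubmodule := by
      have := W.toSubmodule.neg_mem hy
      convert this using 1
      ext x
      simp only [Pi.sub_apply, Pi.smul_apply, Pi.add_apply, Pi.neg_apply, smul_eq_mul]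
      have h2 : (2 : K) = -1 := by
        have : (2 : K) + 1 = 3 := by norm_num
        rw [h3] at this
        exact eq_neg_of_add_eq_zero_left this
      rw [h2]
      ring
    let ρ := alt2 (hea : e ≠ a) hab
    have hρe : (ρ : Equiv.Perm α) e = a := by
      simp [ρ, alt2, swap_apply_of_ne_of_ne, hea, heb, hae, hbe]
    have hρc : (ρ : Equiv.Perm α) c = c := by
      simp [ρ, alt2, swap_apply_of_ne_of_ne, hca, hcb, hce, hac, hbc, hec]
    have hρd : (ρ : Equiv.Perm α) d = d := by
      simp [ρ, alt2, swap_apply_of_ne_of_ne, hda, hdb, hde, had, hbd, hed]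
    have hs2 := W.apply_mem_toSubmodule ρ hs
    simp only [map_add, rep_single, hρe, hρc, hρd] at hs2
    refine ⟨e, a, hea, ?_⟩
    have := W.toSubmodule.sub_mem hs hs2
    convert this using 1
    ext x
    simp only [Pi.sub_apply, Pi.add_apply]
    ring
  · -- characteristic not three
    let μ := alt2 hab hcd
    have hμc : (μ : Equiv.Perm α) c = d := by
      simp [μ, alt2, swap_apply_of_ne_of_ne, hda, hdb, had, hbd]
    have hμd : (μ : Equiv.Perm α) d = c := by
      simp [μ, alt2, swap_apply_of_ne_of_ne, hca, hcb, hac, hbc]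
    have hμe : (μ : Equiv.Perm α) e = e := by
      simp [μ, alt2, swap_apply_of_ne_of_ne, hea, heb, hec, hed, hae, hbe]
    have hy2 := W.apply_mem_toSubmodule μ hy
    simp only [map_sub, map_smul, rep_single, hμc, hμd, hμe] at hy2
    refine ⟨c, d, hcd, ?_⟩
    have := W.toSubmodule.smul_mem (3 : K)⁻¹ (W.toSubmodule.sub_mem hy hy2)
    convert this using 1
    ext x
    simp only [Pi.sub_apply, Pi.smul_apply, smul_eq_mul]
    field_simp
    ring

lemma all_pairs (hα : 5 ≤ Fintype.card α) {x₀ y₀ : α} (hne : x₀ ≠ y₀)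
    (h : (Pi.single x₀ 1 - Pi.single y₀ 1 : α → K) ∈ W.toSubmodule) (x y : α) :
    (Pi.single x 1 - Pi.single y 1 : α → K) ∈ W.toSubmodule := by
  by_cases hxy : x = y
  · subst hxy
    rw [sub_self]
    exact W.toSubmodule.zero_mem
  have htr : IsMultiplyPretransitive (alternatingGroup α) α (Nat.card α - 2) := alternatingGroup.isMultiplyPretransitive α
  have hc : Nat.card α = Fintype.card α := Nat.card_eq_fintype_card
  have htr2 : IsMultiplyPretransitive (alternatingGroup α) α 2 :=
    isMultiplyPretransitive_of_le (n := Nat.card α - 2) (by omega) (by omega)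
  obtain ⟨g, h1, h2⟩ := (is_two_pretransitive_iff.mp htr2) hne hxy
  have := W.apply_mem_toSubmodule g h
  simp only [map_sub, rep_single] at this
  change (Pi.single (g • x₀) 1 - Pi.single (g • y₀) 1 : α → K) ∈ W.toSubmodule at this
  rwa [h1, h2] at this

lemma sumZero_le (hpairs : ∀ x y : α, (Pi.single x 1 - Pi.single y 1 : α → K) ∈ W.toSubmodule)
    (f : α → K) (hf : ∑ x, f x = 0) (x₀ : α) : f ∈ W.toSubmodule := by
  have h1 : f = ∑ x, f x • (Pi.single x 1 - Pi.single x₀ 1 : α → K) := by
    ext z
    simp only [Finset.sum_apply, Pi.smul_apply, Pi.sub_apply, smul_eq_mul, mul_sub, Finset.sum_sub_distrib]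
    rw [← Finset.sum_mul, hf, zero_mul, sub_zero]
    simp [Pi.single_apply]
  rw [h1]
  exact W.toSubmodule.sum_mem (fun x _ => W.toSubmodule.smul_mem _ (hpairs x x₀))

end

/-- Over any field, the permutation module of the alternating group of degree at least 5 has exactly four invariant subspaces: zero, the constant functions, the functions with coordinate sum zero, and everything. -/
theorem result {α : Type*} [Fintype α] [DecidableEq α] (hα : 5 ≤ Fintype.card α) {K : Type*} [Field K] (W : Subrepresentation (Cfsg.permRep K (alternatingGroup α) α)) : W.toSubmodule = ⊥ ∨ W = Cfsg.permConstants K (alternatingGroup α) α ∨ W = Cfsg.permSumZero K (alternatingGroup α) α ∨ W.toSubmodule = ⊤ := by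
  classical
  by_cases hcon : ∀ f ∈ W.toSubmodule, ∀ a b : α, f a = f b
  · -- all constant
    by_cases hb : W.toSubmodule = ⊥
    · exact Or.inl hb
    right; left
    apply Subrepresentation.toSubmodule_injective
    obtain ⟨w, hw, hw0⟩ := Submodule.exists_mem_ne_zero_of_ne_bot hb
    obtain ⟨x, hx⟩ : ∃ x, w x ≠ 0 := by
      by_contra h
      push Not at h
      exact hw0 (funext h)
    obtain ⟨c, hc⟩ : ∃ c, c = w x := ⟨_, rfl⟩
    have hc0 : c ≠ 0 := by rw [hc]; exact hx
    have hwconst : w = c • (fun _ => 1 : α → K) := by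
      ext y
      simp [hcon w hw y x, hc]
    apply le_antisymm
    · intro f hf
      rw [permConstants, Submodule.mem_span_singleton]
      refine ⟨f x, ?_⟩
      ext y
      simp [hcon f hf y x]
    · rw [permConstants, Submodule.span_le]
      rintro _ rfl
      have := W.toSubmodule.smul_mem c⁻¹ hw
      rw [hwconst, smul_smul, inv_mul_cancel₀ hc0, one_smul] at this
      exact this
  · right; right
    push Not at hcon
    obtain ⟨f, hf, a, b, hne⟩ := hcon
    obtain ⟨x₀, y₀, hxy, hmem⟩ := pair_mem W hα f hf a b hne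
    have hpairs := all_pairs W hα hxy hmem
    have hZ : ∀ f : α → K, ∑ x, f x = 0 → f ∈ W.toSubmodule := fun f hf => sumZero_le W hpairs f hf x₀
    by_cases hall : ∀ w ∈ W.toSubmodule, ∑ x, w x = 0
    · left
      apply Subrepresentation.toSubmodule_injective
      apply le_antisymm
      · intro w hw
        exact hall w hw
      · intro w hw
        exact hZ w hw
    · right
      push Not at hall
      obtain ⟨w, hw, hw0⟩ := hall
      rw [eq_top_iff]
      intro g _
      have h1 : g - ((∑ x, g x) * (∑ x, w x)⁻¹) • w ∈ W.toSubmodule := by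
        apply hZ
        simp only [Pi.sub_apply, Pi.smul_apply, smul_eq_mul, Finset.sum_sub_distrib, ← Finset.mul_sum]
        field_simp
        ring
      have := W.toSubmodule.add_mem h1 (W.toSubmodule.smul_mem ((∑ x, g x) * (∑ x, w x)⁻¹) hw)
      simpa using this

end Cfsg.Agent.S0714
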