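import Cfsg.Statements.S0721
import Mathlib
import Cfsg.Agent.Lib.H03.Burn2T
import Cfsg.Agent.Lib.H03.Wagner

set_option autoImplicit false
open Cfsg

namespace Cfsg.Agent.S0721

open Cfsg.Agent.H03 MulAction

def Car (n : ℕ) : Type := Fin n

def fin_succ_equiv (T : Type) [Group T] (m : ℕ) : ((Fin m → T) × T) ≃* (Fin (m + 1) → T) :=
  { toFun := fun p => Fin.snoc p.1 p.2
    invFun := fun f => (Fin.init f, f (Fin.last m))
    left_inv := fun p => by simp
    right_inv := fun f => by simp
    map_mul' := fun p q => by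
      ext i
      refine Fin.lastCases ?_ (fun j => ?_) i <;> simp }

theorem step {H : Type*} [Group H] [Finite H] (N S : Subgroup H) [hNn : N.Normal] (hS : MinN N S)
    (hnmin : ∀ M : Subgroup H, M.Normal → M ≤ N → M = ⊥ ∨ M = N) (T : Type) [Group T] (eT : S ≃* T) :
    ∀ (k : ℕ) (D : Subgroup H), Nat.card N - Nat.card D = k → D ≤ N →
      (∀ n ∈ N, ∀ d ∈ D, n * d * n⁻¹ ∈ D) → ∀ m : ℕ, 0 < m → Nonempty (D ≃* (Fin m → T)) →
      ∃ m' : ℕ, 0 < m' ∧ Nonempty (N ≃* (Fin m' → T)) := by
  intro k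
  induction k using Nat.strong_induction_on with
  | _ k ih =>
    intro D hk hDN hDn m hm he
    by_cases hDeq : D = N
    · subst hDeq
      exact ⟨m, hm, he⟩
    obtain ⟨h, hh⟩ : ∃ h : H, ¬ S.map (MulAut.conj h).toMonoidHom ≤ D := by
      by_contra hcon
      push Not at hcon
      apply hDeq
      apply le_antisymm hDN
      refine (normalClosure_eq N S hS hnmin).trans ?_
      rw [Subgroup.normalClosure, Subgroup.closure_le]
      intro x hx
      obtain ⟨t, ht, hconj⟩ := Group.mem_conjugatesOfSet_iff.mp hx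
      obtain ⟨c, hc⟩ := isConj_iff.mp hconj
      exact hcon c ⟨t, ht, hc⟩
    have hS' := hS.conj h
    obtain ⟨S', hS'def⟩ : ∃ S', S' = S.map (MulAut.conj h).toMonoidHom := ⟨_, rfl⟩
    rw [← hS'def] at hS' hh
    have hinf : S' ⊓ D = ⊥ := by
      by_contra hb
      have := hS'.2.2.2 (S' ⊓ D) inf_le_left (fun n hn u hu =>
        ⟨hS'.2.1 n hn u hu.1, hDn n hn u hu.2⟩) hb
      exact hh (inf_eq_left.mp this)
    have hcomm : ∀ s ∈ S', ∀ d ∈ D, s * d = d * s := by
      intro s hs d hd
      have hc : s * d * s⁻¹ * d⁻¹ ∈ S' ⊓ D := by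
        constructor
        · have : d * s⁻¹ * d⁻¹ ∈ S' := hS'.2.1 d (hDN hd) _ (S'.inv_mem hs)
          have h5 : s * d * s⁻¹ * d⁻¹ = s * (d * s⁻¹ * d⁻¹) := by group
          rw [h5]
          exact S'.mul_mem hs this
        · have : s * d * s⁻¹ ∈ D := hDn s (hS'.1 hs) _ hd
          exact D.mul_mem this (D.inv_mem hd)
      rw [hinf, Subgroup.mem_bot] at hc
      have h6 : s * d * s⁻¹ = d := by
        rw [mul_inv_eq_one] at hc
        exact hc
      rw [mul_inv_eq_iff_eq_mul] at h6
      exact h6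
    let φ : D × S' →* H := D.subtype.noncommCoprod S'.subtype (fun d s => (hcomm s.1 s.2 d.1 d.2).symm)
    have hφ : ∀ d s, φ (d, s) = (d : H) * (s : H) := fun d s => rfl
    have hinj : Function.Injective φ := by
      rw [injective_iff_map_eq_one]
      rintro ⟨d, s⟩ hp
      rw [hφ] at hp
      have h1 : (d : H) = (s : H)⁻¹ := eq_inv_of_mul_eq_one_left hp
      have h2 : (d : H) ∈ S' ⊓ D := ⟨by rw [h1]; exact S'.inv_mem s.2, d.2⟩
      rw [hinf, Subgroup.mem_bot] at h2
      have h3 : (s : H) = 1 := by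
        rw [h2, one_mul] at hp
        exact hp
      exact Prod.ext (Subtype.ext h2) (Subtype.ext h3)
    have hr : φ.range = D ⊔ S' := by
      apply le_antisymm
      · rintro _ ⟨⟨d, s⟩, rfl⟩
        rw [hφ]
        exact Subgroup.mul_mem_sup d.2 s.2
      · apply sup_le
        · intro d hd
          exact ⟨(⟨d, hd⟩, 1), by rw [hφ]; simp⟩
        · intro s hs
          exact ⟨(1, ⟨s, hs⟩), by rw [hφ]; simp⟩
    obtain ⟨e⟩ := he
    have e₃ : S' ≃* S := by
      rw [hS'def]
      exact ((MulAut.conj h).subgroupMap S).symm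
    have e₄ : ↥(D ⊔ S') ≃* (Fin (m + 1) → T) :=
      (MulEquiv.subgroupCongr hr.symm).trans ((MonoidHom.ofInjective hinj).symm.trans
        ((MulEquiv.prodCongr e (e₃.trans eT)).trans (fin_succ_equiv T m)))
    have hD'N : D ⊔ S' ≤ N := sup_le hDN hS'.1
    have hlt : D < D ⊔ S' := by
      refine lt_of_le_of_ne le_sup_left ?_
      intro h4
      apply hh
      rw [h4]
      exact le_sup_right
    have hcard1 : Nat.card D < Nat.card (D ⊔ S' : Subgroup H) := by
      by_contra hle
      push Not at hle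
      exact hlt.ne (Subgroup.eq_of_le_of_card_ge hlt.le hle)
    have hcard2 : Nat.card (D ⊔ S' : Subgroup H) ≤ Nat.card N := Subgroup.card_le_of_le hD'N
    refine ih (Nat.card N - Nat.card (D ⊔ S' : Subgroup H)) (by omega) (D ⊔ S') rfl hD'N ?_ (m + 1) (by omega) ⟨e₄⟩
    intro n hn x hx
    have h7 : (D ⊔ S').map (MulAut.conj n).toMonoidHom ≤ D ⊔ S' := by
      rw [H13.map_conj_sup]
      apply sup_le_sup
      · rintro _ ⟨d, hd, rfl⟩
        exact hDn n hn d hd
      · rintro _ ⟨d, hd, rfl⟩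
        exact hS'.2.1 n hn d hd
    exact h7 ⟨x, hx, rfl⟩

/-- A minimal normal subgroup of a finite group is isomorphic to a direct power `T ^ m` of a simple group `T` (possibly of prime order). -/
theorem result {H : Type*} [Group H] [Finite H] (N : Subgroup H) [N.Normal] (hN : N ≠ ⊥) (hmin : ∀ M : Subgroup H, M.Normal → M ≤ N → M = ⊥ ∨ M = N) : ∃ (T : Type) (_ : Group T) (m : ℕ), IsSimpleGroup T ∧ 0 < m ∧ Nonempty (N ≃* (Fin m → T)) := by
  classical
  obtain ⟨S, hS⟩ := exists_minN N hN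
  have hs : IsSimpleGroup S := by
    haveI : Nontrivial S := (Subgroup.nontrivial_iff_ne_bot S).mpr hS.2.2.1
    refine ⟨fun U hU => ?_⟩
    by_cases hUb : U = ⊥
    · exact Or.inl hUb
    right
    have hnorm : ∀ n ∈ N, ∀ u ∈ U.map S.subtype, n * u * n⁻¹ ∈ U.map S.subtype := by
      intro n hn u hu
      have hle : Subgroup.normalClosure (S : Set H) ≤ Subgroup.normalizer ((U.map S.subtype : Subgroup H) : Set H) := by
        rw [Subgroup.normalClosure, Subgroup.closure_le]
        intro x hx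
        obtain ⟨t, ht, hconj⟩ := Group.mem_conjugatesOfSet_iff.mp hx
        obtain ⟨c, hc⟩ := isConj_iff.mp hconj
        have hxmem : x ∈ S.map (MulAut.conj c).toMonoidHom := ⟨t, ht, hc⟩
        apply mem_normalizer_of_conj
        rintro _ ⟨u', hu', rfl⟩
        by_cases hSc : S.map (MulAut.conj c).toMonoidHom = S
        · rw [hSc] at hxmem
          exact ⟨⟨x, hxmem⟩ * u' * (⟨x, hxmem⟩ : S)⁻¹, hU.conj_mem u' hu' _, rfl⟩
        · have hcm := MinN.comm (hS.conj c) hS hSc x hxmem u' u'.2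
          have : x * (u' : H) * x⁻¹ = u' := by rw [hcm]; group
          change x * (u' : H) * x⁻¹ ∈ _
          rw [this]
          exact ⟨u', hu', rfl⟩
      exact conj_mem_of_normalizer (hle (normalClosure_eq N S hS hmin hn)) hu
    have h1 := hS.2.2.2 (U.map S.subtype) (by
      rintro _ ⟨x, _, rfl⟩
      exact x.2) hnorm (by
      intro h
      exact hUb ((Subgroup.map_eq_bot_iff_of_injective _ S.subtype_injective).mp h))
    rw [eq_top_iff]
    intro x _
    have : (x : H) ∈ U.map S.subtype := by rw [h1]; exact x.2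
    obtain ⟨u, hu, huv⟩ := this
    have : u = x := Subtype.ext huv
    rwa [← this]
  let e : Car (Nat.card S) ≃ S := (Finite.equivFin S).symm
  letI gT : Group (Car (Nat.card S)) := e.group
  let eM : Car (Nat.card S) ≃* S := e.mulEquiv
  obtain ⟨m', hm', he⟩ := step N S hS hmin (Car (Nat.card S)) eM.symm _ S rfl hS.1 hS.2.1 1 one_pos
    ⟨eM.symm.trans (MulEquiv.funUnique (Fin 1) (Car (Nat.card S))).symm⟩
  exact ⟨Car (Nat.card S), gT, m', eM.isSimpleGroup, hm', he⟩

end Cfsg.Agent.S0721
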