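import Cfsg.Statements.S0723
import Mathlib
import Cfsg.Agent.Lib.H03.OS2
import Cfsg.Agent.S0721

set_option autoImplicit false
open Cfsg

namespace Cfsg.Agent.S0723


/-- The core of the O'Nan–Scott Theorem. Let `H` be a primitive permutation group on a finite set whose unique minimal normal subgroup `N` is non-abelian, and `K` a point stabiliser. Then there are a non-abelian simple group `T` and an isomorphism `N ≃* T^m` (`m ≥ 1`) under which `K ⊓ N` becomes either a product `∏ K_i` of proper subgroups `K_i < T`, or the set of functions constant on each block of a partition of the index set into blocks of one common size `k ≥ 2`. -/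
theorem result {α : Type*} [Finite α] (H : Subgroup (Equiv.Perm α)) [MulAction.IsPreprimitive H α] (N : Subgroup H) [N.Normal] (hN : N ≠ ⊥) (hmin : ∀ M : Subgroup H, M.Normal → M ≤ N → M = ⊥ ∨ M = N) (huniq : ∀ L : Subgroup H, L.Normal → L ≠ ⊥ → (∀ M : Subgroup H, M.Normal → M ≤ L → M = ⊥ ∨ M = L) → L = N) (hnab : ¬ IsMulCommutative N) (a : α) : ∃ (T : Type) (_ : Group T) (m : ℕ) (e : N ≃* (Fin m → T)), IsSimpleGroup T ∧ ¬ IsMulCommutative T ∧ 0 < m ∧ ((∃ K : Fin m → Subgroup T, (∀ i, K i ≠ ⊤) ∧ ∀ n : N, (n : H) ∈ MulAction.stabilizer H a ↔ ∀ i, e n i ∈ K i) ∨ (∃ (k : ℕ) (c : Fin m → Fin m), 2 ≤ k ∧ (∀ j : Fin m, Nat.card {i : Fin m // c i = j} = k ∨ Nat.card {i : Fin m // c i = j} = 0) ∧ ∀ n : N, (n : H) ∈ MulAction.stabilizer H a ↔ ∀ i j : Fin m, c i = c j → e n i = e n j)) := by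
  classical
  obtain ⟨T, iG, m, hS, hm, ⟨e⟩⟩ := Cfsg.Agent.S0721.result N hN hmin
  haveI : Finite H := inferInstance
  obtain ⟨e', h⟩ := Cfsg.Agent.H03.OS.onan_scott H N hN hmin hnab a hm e
  refine ⟨T, iG, m, e', hS, ?_, hm, h⟩
  intro hc
  apply hnab
  refine ⟨⟨fun x y => ?_⟩⟩
  apply e.injective
  rw [map_mul, map_mul]
  ext i
  exact hc.is_comm.comm _ _

end Cfsg.Agent.S0723
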