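import Mathlib
import Cfsg.Statements.S0724

set_option autoImplicit false
open Cfsg

namespace Cfsg.Agent.S0724


/-- Blichfeldt's Theorem: if a finite set `L` of natural numbers contains the number of fixed points of every non-identity element of a permutation group `G` of degree `n`, then the order of `G` divides `∏ (n - l)` over `l ∈ L`. -/
theorem result {α : Type*} [Fintype α] [DecidableEq α] (G : Subgroup (Equiv.Perm α)) (L : Finset ℕ) (hL : ∀ g ∈ G, g ≠ 1 → Nat.card (MulAction.fixedBy α g) ∈ L) : Nat.card G ∣ ∏ l ∈ L, (Fintype.card α - l) := by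
  classical
  have hburn : ∀ k : ℕ, (Nat.card G : ℤ) ∣ ∑ g : G, ((Nat.card (MulAction.fixedBy α (g : Equiv.Perm α)) : ℤ)) ^ k := by
    intro k
    have h1 := MulAction.sum_card_fixedBy_eq_card_orbits_mul_card_group G (Fin k → α)
    have h2 : ∀ g : G, Fintype.card (MulAction.fixedBy (Fin k → α) g) =
        (Nat.card (MulAction.fixedBy α (g : Equiv.Perm α))) ^ k := by
      intro g
      have e : MulAction.fixedBy (Fin k → α) g ≃ (Fin k → MulAction.fixedBy α (g : Equiv.Perm α)) :=
        { toFun := fun f i => ⟨f.1 i, by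
            have := congrFun f.2 i
            exact this⟩
          invFun := fun f => ⟨fun i => (f i).1, by
            funext i
            exact (f i).2⟩
          left_inv := fun f => rfl
          right_inv := fun f => rfl }
      rw [← Nat.card_eq_fintype_card, Nat.card_congr e]
      simp
    refine ⟨(Fintype.card (MulAction.orbitRel.Quotient G (Fin k → α)) : ℤ), ?_⟩
    have h3 : (∑ g : G, ((Nat.card (MulAction.fixedBy α (g : Equiv.Perm α)) : ℤ)) ^ k)
        = ((∑ g : G, Fintype.card (MulAction.fixedBy (Fin k → α) g) : ℕ) : ℤ) := by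
      push_cast
      refine Finset.sum_congr rfl fun g _ => ?_
      rw [h2 g]; push_cast; rfl
    rw [h3, h1]
    push_cast
    rw [Nat.card_eq_fintype_card, mul_comm]
  have hpoly : ∀ P : Polynomial ℤ, (Nat.card G : ℤ) ∣ ∑ g : G, P.eval ((Nat.card (MulAction.fixedBy α (g : Equiv.Perm α)) : ℤ)) := by
    intro P
    induction P using Polynomial.induction_on' with
    | add p q hp hq =>
      simp only [Polynomial.eval_add, Finset.sum_add_distrib]
      exact dvd_add hp hq
    | monomial n a =>
      simp only [Polynomial.eval_monomial, ← Finset.mul_sum]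
      exact Dvd.dvd.mul_left (hburn n) a
  by_cases hle : ∀ l ∈ L, l ≤ Fintype.card α
  · have h := hpoly (∏ l ∈ L, (Polynomial.X - Polynomial.C (l : ℤ)))
    have hone : ∀ g : G, g ≠ 1 → Polynomial.eval ((Nat.card (MulAction.fixedBy α (g : Equiv.Perm α)) : ℤ)) (∏ l ∈ L, (Polynomial.X - Polynomial.C (l : ℤ))) = 0 := by
      intro g hg
      rw [Polynomial.eval_prod]
      apply Finset.prod_eq_zero (hL g g.2 (fun h => hg (Subtype.ext h)))
      simp
    rw [Finset.sum_eq_single (1 : G) (fun g _ hg => hone g hg) (by simp)] at h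
    have hfix : Nat.card (MulAction.fixedBy α (((1 : G) : Equiv.Perm α))) = Fintype.card α := by
      rw [Nat.card_eq_fintype_card]
      simp [MulAction.fixedBy]
    rw [hfix, Polynomial.eval_prod] at h
    simp only [Polynomial.eval_sub, Polynomial.eval_X, Polynomial.eval_C] at h
    have h5 : (∏ l ∈ L, ((Fintype.card α : ℤ) - (l : ℤ))) = ((∏ l ∈ L, (Fintype.card α - l) : ℕ) : ℤ) := by
      push_cast
      refine Finset.prod_congr rfl fun l hl => ?_
      rw [Nat.cast_sub (hle l hl)]
    rw [h5] at h
    exact_mod_cast h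
  · push Not at hle
    obtain ⟨l, hl, hlt⟩ := hle
    rw [Finset.prod_eq_zero hl (Nat.sub_eq_zero_of_le hlt.le)]
    exact dvd_zero _

end Cfsg.Agent.S0724
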