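import Cfsg.Statements.S0726

set_option autoImplicit false
open Cfsg

namespace Cfsg.Agent.S0726


/-- The left and right regular permutation representations of a group are each other's centralisers in the symmetric group: the centraliser of the left regular image is the right regular image, and a transitive subgroup centralising the left regular image is the whole right regular image. -/
theorem result {G : Type*} [Group G] : Subgroup.centralizer ((MulAction.toPermHom G G).range : Set (Equiv.Perm G)) = (MulAction.toPermHom Gᵐᵒᵖ G).range ∧ ∀ H : Subgroup (Equiv.Perm G), H ≤ Subgroup.centralizer ((MulAction.toPermHom G G).range : Set (Equiv.Perm G)) → MulAction.IsPretransitive H G → H = (MulAction.toPermHom Gᵐᵒᵖ G).range := by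
  have hsub : Subgroup.centralizer ((MulAction.toPermHom G G).range : Set (Equiv.Perm G)) = (MulAction.toPermHom Gᵐᵒᵖ G).range := by
    ext c
    rw [Subgroup.mem_centralizer_iff]
    constructor
    · intro h
      refine ⟨MulOpposite.op (c 1), ?_⟩
      ext x
      have h1 := h (MulAction.toPermHom G G x) ⟨x, rfl⟩
      have h2 := congrArg (fun p : Equiv.Perm G => p 1) h1
      simp only [Equiv.Perm.coe_mul, Function.comp, MulAction.toPermHom_apply, MulAction.toPerm_apply, smul_eq_mul, mul_one] at h2
      simp [h2]
    · rintro ⟨a, rfl⟩ _ ⟨x, rfl⟩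
      ext y
      simp [mul_assoc]
  refine ⟨hsub, ?_⟩
  intro H hH htr
  apply le_antisymm
  · rw [← hsub]; exact hH
  · rintro _ ⟨a, rfl⟩
    obtain ⟨⟨h, hh⟩, hx⟩ := MulAction.exists_smul_eq H (1 : G) (MulOpposite.unop a)
    have hx' : h 1 = MulOpposite.unop a := hx
    have hc : h ∈ (MulAction.toPermHom Gᵐᵒᵖ G).range := by
      rw [← hsub]; exact hH hh
    obtain ⟨b, rfl⟩ := hc
    have : b = a := by
      simp only [MulAction.toPermHom_apply, MulAction.toPerm_apply, MulOpposite.smul_eq_mul_unop, one_mul] at hx'
      exact MulOpposite.unop_injective hx'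
    rw [← this]; exact hh

end Cfsg.Agent.S0726
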