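import Cfsg.Statements.S0727
import Mathlib
import Cfsg.Agent.Lib.H03.PR3

set_option autoImplicit false
open Cfsg

namespace Cfsg.Agent.S0727

open Cfsg.Agent.H03.PR

/-- A sharply triply transitive permutation group of degree `2^f + 1` is isomorphic to the projective general linear group of degree 2 over the field with `2^f` elements. -/
theorem result {α : Type*} [Fintype α] [DecidableEq α] {f : ℕ} (hf : 1 ≤ f) (hα : Fintype.card α = 2 ^ f + 1) (G : Subgroup (Equiv.Perm α)) (h3 : MulAction.IsMultiplyPretransitive G α 3) (hsharp : ∀ x : Fin 3 ↪ α, MulAction.stabilizer G x = ⊥) : ∃ (F : Type) (_ : Field F) (_ : Fintype F), Fintype.card F = 2 ^ f ∧ Nonempty (G ≃* Matrix.ProjGenLinGroup (Fin 2) F) := by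
  classical

  have hS : Sharp3 G α := sharp3_of_subgroup G h3 hsharp
  have hp2 : 2 ≤ 2 ^ f := by
    calc 2 = 2 ^ 1 := rfl
      _ ≤ 2 ^ f := Nat.pow_le_pow_right (by omega) hf
  obtain ⟨inf, o, e, hio, hie, hoe⟩ := Fintype.two_lt_card_iff.1 (by omega : 2 < Fintype.card α)
  obtain ⟨t, ht1, ht2, ht3⟩ := hS.trans inf o e o inf e hio hie hoe hio.symm hoe hie
  have ht : t * t = 1 := hS.rigid _ inf o e hio hie hoe (by rw [mul_smul, ht1, ht2])
    (by rw [mul_smul, ht2, ht1]) (by rw [mul_smul, ht3, ht3])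
  have hinv : t⁻¹ = t := inv_eq_of_mul_eq_one_left ht
  have hfix : ∀ x : α, t • x = x → x = e := by
    intro x hx
    by_contra hxe
    have h7 := card_fix_mod_two (fun y : α => t • y) (fun y => by
      show t • (t • y) = y
      rw [← mul_smul, ht, one_smul])
    have h8 : Fintype.card α % 2 = 1 := by
      rw [hα]
      have : 2 ^ f % 2 = 0 := by
        obtain ⟨k, rfl⟩ : ∃ k, f = k + 1 := ⟨f - 1, by omega⟩
        rw [pow_succ]
        omega
      omega
    have h9 : 2 ≤ Nat.card {y : α // t • y = y} := by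
      have h10 : (⟨x, hx⟩ : {y : α // t • y = y}) ≠ ⟨e, ht3⟩ := fun h => hxe (congrArg Subtype.val h)
      rw [Nat.card_eq_fintype_card]
      exact Fintype.one_lt_card_iff_nontrivial.2 ⟨⟨_, _, h10⟩⟩
    have h12 : 2 < Nat.card {y : α // t • y = y} := by
      rw [h8] at h7
      omega
    rw [Nat.card_eq_fintype_card] at h12
    obtain ⟨⟨a, ha⟩, ⟨b, hb⟩, ⟨c, hc⟩, hab, hac, hbc⟩ := Fintype.two_lt_card_iff.1 h12
    have h11 := hS.rigid t a b c (fun h => hab (Subtype.ext h)) (fun h => hac (Subtype.ext h))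
      (fun h => hbc (Subtype.ext h)) ha hb hc
    rw [h11, one_smul] at ht1
    exact hio ht1
  let H : Subgroup G := MulAction.stabilizer G inf ⊓ MulAction.stabilizer G o
  have hmemH : ∀ h : G, h ∈ H ↔ h • inf = inf ∧ h • o = o := fun h => Iff.rfl
  have hI := inv_of_fpf H t ht
    (by
      intro h hh
      rw [hinv, hmemH]
      have h1 := ((hmemH h).1 hh).1
      have h2 := ((hmemH h).1 hh).2
      constructor
      · rw [mul_smul, mul_smul, ht1, h2, ht2]
      · rw [mul_smul, mul_smul, ht2, h1, ht1])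
    (by
      intro h hh h1
      have h2 : t • (h • e) = h • e := by
        have h4 : t • (h • e) = (t * h * t⁻¹) • (t • e) := by
          rw [mul_smul, mul_smul, inv_smul_smul]
        rw [h4, h1, ht3]
      have h3 := hfix _ h2
      exact hS.rigid h inf o e hio hie hoe ((hmemH h).1 hh).1 ((hmemH h).1 hh).2 h3)
  haveI : Fact (Nat.Prime 2) := ⟨Nat.prime_two⟩
  obtain ⟨Φ⟩ := pgl_of_sharp3 hS inf o e hio hie hoe t ht1 ht2 ht3
    (fun h h1 h2 => hI h ((hmemH h).2 ⟨h1, h2⟩)) 2 f (by omega) hα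
  letI : Fintype (GaloisField 2 f) := Fintype.ofFinite _
  refine ⟨GaloisField 2 f, inferInstance, inferInstance, ?_, ⟨Φ⟩⟩
  rw [← Nat.card_eq_fintype_card]
  exact GaloisField.card 2 f (by omega)

end Cfsg.Agent.S0727
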