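import Cfsg.Statements.S0728
import Mathlib

set_option autoImplicit false
open Cfsg

namespace Cfsg.Agent.S0728

theorem count_aux {α : Type*} [Fintype α] [DecidableEq α] (G : Subgroup (Equiv.Perm α)) [Fintype G]
    (hfix : ∀ g ∈ G, ∀ a b c : α, a ≠ b → a ≠ c → b ≠ c → g a = a → g b = b → g c = c → g = 1)
    (htr : ∀ a b c a' b' c' : α, a ≠ b → a ≠ c → b ≠ c → a' ≠ b' → a' ≠ c' → b' ≠ c' →
      ∃ g ∈ G, g a = a' ∧ g b = b' ∧ g c = c')
    (h3 : 3 ∣ Fintype.card α - 2) (h6 : 6 ≤ Fintype.card α) (a b : α) (hab : a ≠ b) :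
    (Finset.univ.filter (fun y : G => y ^ 3 = 1 ∧ y ≠ 1 ∧ y.1 a = a ∧ y.1 b = b)).card = 2 := by
  classical
  have iself : ∀ (g : Equiv.Perm α) (x : α), g⁻¹ (g x) = x := fun g x => by simp
  set n := Fintype.card α with hn
  let X : Finset G := Finset.univ.filter (fun y : G => y ^ 3 = 1 ∧ y ≠ 1)
  have hX : ∀ y : G, y ∈ X ↔ y ^ 3 = 1 ∧ y ≠ 1 := fun y => by simp [X]
  have hpow : ∀ (y : G) (x : α), (y ^ 3 = 1) → y.1 (y.1 (y.1 x)) = x := by
    intro y x hy
    have h1 : ((y ^ 3 : G) : Equiv.Perm α) x = x := by rw [hy]; rfl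
    simpa [pow_succ, Equiv.Perm.mul_apply] using h1
  -- fixed points of an element of `X`: exactly two
  have hfp : ∀ y ∈ X, ∃ c d : α, c ≠ d ∧ ∀ x, y.1 x = x ↔ x = c ∨ x = d := by
    intro y hy
    obtain ⟨hy3, hy1⟩ := (hX y).mp hy
    let f : Function.End α := fun x => y.1 x
    have hf : f ^ 3 ^ 1 = 1 := by
      funext x
      rw [pow_one, pow_succ, pow_succ, pow_one]
      exact hpow y x hy3
    haveI : Fact (Nat.Prime 3) := ⟨by norm_num⟩
    have hmod := Equiv.Perm.card_fixedPoints_modEq (p := 3) (n := 1) hf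
    let Fx : Finset α := Finset.univ.filter (fun x => y.1 x = x)
    have hFx : Fintype.card (Function.fixedPoints f) = Fx.card :=
      Fintype.card_of_subtype Fx (fun x => by simp [Fx, Function.mem_fixedPoints, Function.IsFixedPt, f])
    rw [hFx] at hmod
    have hle : Fx.card ≤ 2 := by
      by_contra hlt
      push Not at hlt
      obtain ⟨c, hc, d, hd, e, he, hcd, hce, hde⟩ := Finset.two_lt_card.mp hlt
      have : y.1 = 1 := hfix y.1 y.2 c d e hcd hce hde (Finset.mem_filter.mp hc).2 (Finset.mem_filter.mp hd).2 (Finset.mem_filter.mp he).2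
      exact hy1 (Subtype.ext this)
    have h2 : Fx.card = 2 := by
      unfold Nat.ModEq at hmod
      omega
    obtain ⟨c, d, hcd, hFxe⟩ := Finset.card_eq_two.mp h2
    refine ⟨c, d, hcd, fun x => ?_⟩
    have : x ∈ Fx ↔ x = c ∨ x = d := by rw [hFxe]; simp
    rw [← this]
    simp [Fx]
  -- the first double count
  let R : (Fin 3 ↪ α) → G → Prop := fun e y => y.1 (e 0) = e 1 ∧ y.1 (e 1) = e 2 ∧ y.1 (e 2) = e 0
  have hdc1 := Finset.sum_card_bipartiteAbove_eq_sum_card_bipartiteBelow (s := (Finset.univ : Finset (Fin 3 ↪ α))) (t := X) R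
  have hR1 : ∀ e : Fin 3 ↪ α, (Finset.bipartiteAbove R X e).card = 1 := by
    intro e
    have h01 : e 0 ≠ e 1 := fun h => absurd (e.injective h) (by decide)
    have h02 : e 0 ≠ e 2 := fun h => absurd (e.injective h) (by decide)
    have h12 : e 1 ≠ e 2 := fun h => absurd (e.injective h) (by decide)
    obtain ⟨g, hg, h1, h2, h3'⟩ := htr (e 0) (e 1) (e 2) (e 1) (e 2) (e 0) h01 h02 h12 h12 h01.symm h02.symm
    rw [Finset.card_eq_one]
    refine ⟨⟨g, hg⟩, ?_⟩
    ext y
    simp only [Finset.mem_bipartiteAbove, Finset.mem_singleton]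
    constructor
    · rintro ⟨-, hy0, hy1, hy2⟩
      have : g⁻¹ * y.1 = 1 := by
        refine hfix _ (G.mul_mem (G.inv_mem hg) y.2) (e 0) (e 1) (e 2) h01 h02 h12 ?_ ?_ ?_
        · rw [Equiv.Perm.mul_apply, hy0, ← h1, iself]
        · rw [Equiv.Perm.mul_apply, hy1, ← h2, iself]
        · rw [Equiv.Perm.mul_apply, hy2, ← h3', iself]
      exact Subtype.ext (inv_mul_eq_one.mp this).symm
    · rintro rfl
      refine ⟨?_, h1, h2, h3'⟩
      rw [hX]
      constructor
      · apply Subtype.ext
        refine hfix _ (G.pow_mem hg 3) (e 0) (e 1) (e 2) h01 h02 h12 ?_ ?_ ?_ <;> simp [pow_succ, Equiv.Perm.mul_apply, h1, h2, h3']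
      · intro h
        have : g = 1 := congrArg Subtype.val h
        rw [this] at h1
        exact h01 h1
  have hR2 : ∀ y ∈ X, (Finset.bipartiteBelow R (Finset.univ : Finset (Fin 3 ↪ α)) y).card = n - 2 := by
    intro y hy
    obtain ⟨c, d, hcd, hcdx⟩ := hfp y hy
    have hy3 := ((hX y).mp hy).1
    have hmov : (Finset.univ.filter (fun x => y.1 x ≠ x)).card = n - 2 := by
      have h1 : (Finset.univ.filter (fun x => y.1 x ≠ x)) = (Finset.univ \ {c, d} : Finset α) := by
        ext x
        simp [hcdx]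
      rw [h1, Finset.card_sdiff_of_subset (Finset.subset_univ _), Finset.card_pair hcd, Finset.card_univ]
    rw [← hmov]
    have hinj : ∀ x, y.1 x ≠ x → Function.Injective ![x, y.1 x, y.1 (y.1 x)] := by
      intro x hx
      have h1 : y.1 (y.1 x) ≠ x := by
        intro h
        have h2 := hpow y x hy3
        rw [h] at h2
        exact hx h2
      have h2 : y.1 (y.1 x) ≠ y.1 x := fun h => hx (y.1.injective h)
      intro i j hij
      fin_cases i <;> fin_cases j <;> first | rfl | exact absurd hij.symm hx | exact absurd hij hx | exact absurd hij.symm h1 | exact absurd hij h1 | exact absurd hij.symm h2 | exact absurd hij h2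
    refine Finset.card_bij' (fun e _ => e 0) (fun x hx => ⟨![x, y.1 x, y.1 (y.1 x)], hinj x (Finset.mem_filter.mp hx).2⟩) ?_ ?_ ?_ ?_
    · intro e he
      simp only [Finset.mem_bipartiteBelow, Finset.mem_univ, true_and] at he
      simp only [Finset.mem_filter, Finset.mem_univ, true_and]
      rw [he.1]
      exact fun h => absurd (e.injective h) (by decide)
    · intro x hx
      simp only [Finset.mem_bipartiteBelow, Finset.mem_univ, true_and]
      refine ⟨rfl, rfl, hpow y x hy3⟩
    · intro e he
      simp only [Finset.mem_bipartiteBelow, Finset.mem_univ, true_and] at he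
      ext i
      fin_cases i
      · rfl
      · exact he.1
      · show y.1 (y.1 (e 0)) = e 2
        rw [he.1, he.2.1]
    · intro x hx
      rfl
  rw [Finset.sum_const_nat (m := 1) (fun e _ => hR1 e), Finset.sum_const_nat hR2, Finset.card_univ,
    Fintype.card_embedding_eq, Fintype.card_fin, ← hn] at hdc1
  -- the second double count
  let S : (Fin 2 ↪ α) → G → Prop := fun p y => y.1 (p 0) = p 0 ∧ y.1 (p 1) = p 1
  have hdc2 := Finset.sum_card_bipartiteAbove_eq_sum_card_bipartiteBelow (s := (Finset.univ : Finset (Fin 2 ↪ α))) (t := X) S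
  set k := (Finset.univ.filter (fun y : G => y ^ 3 = 1 ∧ y ≠ 1 ∧ y.1 a = a ∧ y.1 b = b)).card with hk
  have hS1 : ∀ p : Fin 2 ↪ α, (Finset.bipartiteAbove S X p).card = k := by
    intro p
    have hp : p 0 ≠ p 1 := fun h => absurd (p.injective h) (by decide)
    obtain ⟨c, hc1, hc2⟩ : ∃ c, c ≠ p 0 ∧ c ≠ p 1 := by
      have : ({p 0, p 1} : Finset α).card < (Finset.univ : Finset α).card := by
        rw [Finset.card_univ, Finset.card_pair hp]; omega
      obtain ⟨c, -, hc⟩ := Finset.exists_mem_notMem_of_card_lt_card this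
      simp at hc
      exact ⟨c, hc.1, hc.2⟩
    obtain ⟨c', hc1', hc2'⟩ : ∃ c, c ≠ a ∧ c ≠ b := by
      have : ({a, b} : Finset α).card < (Finset.univ : Finset α).card := by
        rw [Finset.card_univ, Finset.card_pair hab]; omega
      obtain ⟨c, -, hc⟩ := Finset.exists_mem_notMem_of_card_lt_card this
      simp at hc
      exact ⟨c, hc.1, hc.2⟩
    obtain ⟨g, hg, h1, h2, -⟩ := htr (p 0) (p 1) c a b c' hp hc1.symm hc2.symm hab hc1'.symm hc2'.symm
    let g' : G := ⟨g, hg⟩
    refine Finset.card_bij' (fun y _ => g' * y * g'⁻¹) (fun y _ => g'⁻¹ * y * g') ?_ ?_ ?_ ?_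
    · intro y hy
      simp only [Finset.mem_bipartiteAbove] at hy
      obtain ⟨hyX, hy0, hy1⟩ := hy
      obtain ⟨hy3, hy1'⟩ := (hX y).mp hyX
      simp only [Finset.mem_filter, Finset.mem_univ, true_and]
      refine ⟨?_, ?_, ?_, ?_⟩
      · rw [conj_pow, hy3, mul_one, mul_inv_cancel]
      · intro h
        apply hy1'
        have : y = g'⁻¹ * (g' * y * g'⁻¹) * g' := by group
        rw [this, h]; group
      · show g (y.1 (g⁻¹ a)) = a
        rw [← h1, iself, hy0]
      · show g (y.1 (g⁻¹ b)) = b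
        rw [← h2, iself, hy1]
    · intro y hy
      simp only [Finset.mem_filter, Finset.mem_univ, true_and] at hy
      obtain ⟨hy3, hy1', hy0, hy1⟩ := hy
      simp only [Finset.mem_bipartiteAbove]
      refine ⟨?_, ?_, ?_⟩
      · rw [hX]
        constructor
        · have : g'⁻¹ * y * g' = g'⁻¹ * y * g'⁻¹⁻¹ := by group
          rw [this, conj_pow, hy3]; group
        · intro h
          apply hy1'
          have : y = g' * (g'⁻¹ * y * g') * g'⁻¹ := by group
          rw [this, h]; group
      · show g⁻¹ (y.1 (g (p 0))) = p 0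
        rw [h1, hy0, ← h1, iself]
      · show g⁻¹ (y.1 (g (p 1))) = p 1
        rw [h2, hy1, ← h2, iself]
    · intro y _
      group
    · intro y _
      group
  have hS2 : ∀ y ∈ X, (Finset.bipartiteBelow S (Finset.univ : Finset (Fin 2 ↪ α)) y).card = 2 := by
    intro y hy
    obtain ⟨c, d, hcd, hcdx⟩ := hfp y hy
    let p₁ : Fin 2 ↪ α := Function.Embedding.embFinTwo hcd
    let p₂ : Fin 2 ↪ α := Function.Embedding.embFinTwo hcd.symm
    have hp12 : p₁ ≠ p₂ := by
      intro h
      have := congrArg (fun f : Fin 2 ↪ α => f 0) h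
      exact hcd this
    rw [Finset.card_eq_two]
    refine ⟨p₁, p₂, hp12, ?_⟩
    ext p
    simp only [Finset.mem_bipartiteBelow, Finset.mem_univ, true_and, Finset.mem_insert, Finset.mem_singleton]
    have hp : p 0 ≠ p 1 := fun h => absurd (p.injective h) (by decide)
    constructor
    · rintro ⟨h0, h1⟩
      rw [hcdx] at h0 h1
      rcases h0 with h0 | h0 <;> rcases h1 with h1 | h1
      · exact absurd (h0.trans h1.symm) hp
      · left
        ext i
        fin_cases i
        · exact h0
        · exact h1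
      · right
        ext i
        fin_cases i
        · exact h0
        · exact h1
      · exact absurd (h0.trans h1.symm) hp
    · rintro (rfl | rfl)
      · exact ⟨(hcdx _).mpr (Or.inl rfl), (hcdx _).mpr (Or.inr rfl)⟩
      · exact ⟨(hcdx _).mpr (Or.inr rfl), (hcdx _).mpr (Or.inl rfl)⟩
  rw [Finset.sum_const_nat (m := k) (fun e _ => hS1 e), Finset.sum_const_nat hS2, Finset.card_univ,
    Fintype.card_embedding_eq, Fintype.card_fin, ← hn] at hdc2
  have hn2 : 0 < n - 2 := by omega
  have e1 : X.card = n * (n - 1) := by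
    have h4 : n.descFactorial 3 = n * (n - 1) * (n - 2) := by
      simp [Nat.descFactorial]
      ring
    rw [h4, mul_one] at hdc1
    exact (Nat.eq_of_mul_eq_mul_right hn2 hdc1).symm
  have e2 : n.descFactorial 2 = n * (n - 1) := by
    simp [Nat.descFactorial]
    ring
  rw [e2, e1] at hdc2
  have hpos : 0 < n * (n - 1) := Nat.mul_pos (by omega) (by omega)
  exact Nat.eq_of_mul_eq_mul_left hpos hdc2


/-- In a sharply triply transitive group of even degree at least 6 (degree `q + 1`, `q` odd), a two-point stabiliser has at most one subgroup of order 3. -/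
theorem result {α : Type*} [Fintype α] [DecidableEq α] (heven : Even (Fintype.card α)) (h6 : 6 ≤ Fintype.card α) (G : Subgroup (Equiv.Perm α)) (h3 : MulAction.IsMultiplyPretransitive G α 3) (hsharp : ∀ x : Fin 3 ↪ α, MulAction.stabilizer G x = ⊥) {a b : α} (hab : a ≠ b) (A B : Subgroup G) (hA : A ≤ MulAction.stabilizer G a ⊓ MulAction.stabilizer G b) (hB : B ≤ MulAction.stabilizer G a ⊓ MulAction.stabilizer G b) (hA3 : Nat.card A = 3) (hB3 : Nat.card B = 3) : A = B := by
  classical
  letI : Fintype G := Fintype.ofFinite G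
  have hfix : ∀ g ∈ G, ∀ a b c : α, a ≠ b → a ≠ c → b ≠ c → g a = a → g b = b → g c = c → g = 1 := by
    intro g hg a b c hab hac hbc h1 h2 h3'
    let e : Fin 3 ↪ α := ⟨![a, b, c], by
      intro i j hij
      fin_cases i <;> fin_cases j <;> first | rfl | exact absurd hij hab | exact absurd hij hac | exact absurd hij hbc | exact absurd hij.symm hab | exact absurd hij.symm hac | exact absurd hij.symm hbc⟩
    have hmem : (⟨g, hg⟩ : G) ∈ MulAction.stabilizer G e := by
      rw [MulAction.mem_stabilizer_iff]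
      ext i
      fin_cases i
      · exact h1
      · exact h2
      · exact h3'
    rw [hsharp, Subgroup.mem_bot] at hmem
    exact congrArg Subtype.val hmem
  have htr : ∀ a b c a' b' c' : α, a ≠ b → a ≠ c → b ≠ c → a' ≠ b' → a' ≠ c' → b' ≠ c' →
      ∃ g ∈ G, g a = a' ∧ g b = b' ∧ g c = c' := by
    intro a b c a' b' c' hab hac hbc hab' hac' hbc'
    let e : Fin 3 ↪ α := ⟨![a, b, c], by
      intro i j hij
      fin_cases i <;> fin_cases j <;> first | rfl | exact absurd hij hab | exact absurd hij hac | exact absurd hij hbc | exact absurd hij.symm hab | exact absurd hij.symm hac | exact absurd hij.symm hbc⟩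
    let e' : Fin 3 ↪ α := ⟨![a', b', c'], by
      intro i j hij
      fin_cases i <;> fin_cases j <;> first | rfl | exact absurd hij hab' | exact absurd hij hac' | exact absurd hij hbc' | exact absurd hij.symm hab' | exact absurd hij.symm hac' | exact absurd hij.symm hbc'⟩
    obtain ⟨g, hg⟩ := h3.exists_smul_eq e e'
    refine ⟨g.1, g.2, ?_, ?_, ?_⟩
    · exact congrArg (fun f : Fin 3 ↪ α => f 0) hg
    · exact congrArg (fun f : Fin 3 ↪ α => f 1) hg
    · exact congrArg (fun f : Fin 3 ↪ α => f 2) hg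
  have hAmem : ∀ x ∈ A, x ^ 3 = 1 ∧ x.1 a = a ∧ x.1 b = b := by
    intro x hx
    have h1 := hA hx
    refine ⟨?_, (Subgroup.mem_inf.mp h1).1, (Subgroup.mem_inf.mp h1).2⟩
    have h2 : (⟨x, hx⟩ : A) ^ Nat.card A = 1 := pow_card_eq_one'
    rw [hA3] at h2
    exact congrArg Subtype.val h2
  have hBmem : ∀ x ∈ B, x ^ 3 = 1 ∧ x.1 a = a ∧ x.1 b = b := by
    intro x hx
    have h1 := hB hx
    refine ⟨?_, (Subgroup.mem_inf.mp h1).1, (Subgroup.mem_inf.mp h1).2⟩
    have h2 : (⟨x, hx⟩ : B) ^ Nat.card B = 1 := pow_card_eq_one'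
    rw [hB3] at h2
    exact congrArg Subtype.val h2
  -- three divides `n - 2`
  have hdvd : 3 ∣ Fintype.card α - 2 := by
    have : Nontrivial A := by
      apply Finite.one_lt_card_iff_nontrivial.mp
      rw [hA3]; norm_num
    obtain ⟨x, hx⟩ := exists_ne (1 : A)
    obtain ⟨hx3, hxa, hxb⟩ := hAmem x.1 x.2
    have hxne : x.1 ≠ 1 := fun h => hx (Subtype.ext h)
    let f : Function.End α := fun z => x.1.1 z
    have hpow : ∀ z, x.1.1 (x.1.1 (x.1.1 z)) = z := by
      intro z
      have h1 : ((x.1 ^ 3 : G) : Equiv.Perm α) z = z := by rw [hx3]; rfl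
      simpa [pow_succ, Equiv.Perm.mul_apply] using h1
    have hf : f ^ 3 ^ 1 = 1 := by
      funext z
      rw [pow_one, pow_succ, pow_succ, pow_one]
      exact hpow z
    haveI : Fact (Nat.Prime 3) := ⟨by norm_num⟩
    have hmod := Equiv.Perm.card_fixedPoints_modEq (p := 3) (n := 1) hf
    let Fx : Finset α := {a, b}
    have hFx : Fintype.card (Function.fixedPoints f) = Fx.card := by
      refine Fintype.card_of_subtype Fx (fun z => ?_)
      simp only [Fx, Finset.mem_insert, Finset.mem_singleton, Function.mem_fixedPoints, Function.IsFixedPt]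
      constructor
      · rintro (rfl | rfl)
        · exact hxa
        · exact hxb
      · intro hz
        by_contra hne
        push Not at hne
        have := hfix x.1.1 x.1.2 a b z hab hne.1.symm hne.2.symm hxa hxb hz
        exact hxne (Subtype.ext this)
    rw [hFx, Finset.card_pair hab] at hmod
    unfold Nat.ModEq at hmod
    omega
  have hcount := count_aux G hfix htr hdvd h6 a b hab
  have hle : A ≤ B := by
    intro x hx
    by_cases hx1 : x = 1
    · rw [hx1]; exact B.one_mem
    obtain ⟨hx3, hxa, hxb⟩ := hAmem x hx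
    let S : Finset G := Finset.univ.filter (fun y : G => y ^ 3 = 1 ∧ y ≠ 1 ∧ y.1 a = a ∧ y.1 b = b)
    let B0 : Finset G := Finset.univ.filter (fun y : G => y ∈ B ∧ y ≠ 1)
    have hB0S : B0 ⊆ S := by
      intro y hy
      obtain ⟨hyB, hy1⟩ := (Finset.mem_filter.mp hy).2
      obtain ⟨h1, h2, h3'⟩ := hBmem y hyB
      exact Finset.mem_filter.mpr ⟨Finset.mem_univ _, h1, hy1, h2, h3'⟩
    have hB0c : B0.card = 2 := by
      have h1 : (Finset.univ.filter (fun y : G => y ∈ B)) = insert 1 B0 := by
        ext y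
        simp only [Finset.mem_filter, Finset.mem_univ, true_and, Finset.mem_insert, B0]
        constructor
        · intro hy
          by_cases h : y = 1
          · exact Or.inl h
          · exact Or.inr ⟨hy, h⟩
        · rintro (rfl | h)
          · exact B.one_mem
          · exact h.1
      have h2 : (Finset.univ.filter (fun y : G => y ∈ B)).card = 3 := by
        rw [← hB3, Nat.card_eq_fintype_card, Fintype.card_subtype]
      rw [h1, Finset.card_insert_of_notMem (by simp [B0])] at h2
      omega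
    have hEq : B0 = S := Finset.eq_of_subset_of_card_le hB0S (by rw [hB0c, hcount])
    have hxS : x ∈ S := Finset.mem_filter.mpr ⟨Finset.mem_univ _, hx3, hx1, hxa, hxb⟩
    rw [← hEq] at hxS
    exact (Finset.mem_filter.mp hxS).2.1
  exact Subgroup.eq_of_le_of_card_ge hle (by rw [hA3, hB3])

end Cfsg.Agent.S0728
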