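import Cfsg.Statements.S0730
import Mathlib
import Cfsg.Agent.Lib.H03.PR6

set_option autoImplicit false
open Cfsg

namespace Cfsg.Agent.S0730

open Cfsg.Agent.H03.PR

/-- A sharply triply transitive group of degree `p^f + 1`, `p` an odd prime and `f` odd, is isomorphic to the projective general linear group of degree 2 over the field with `p^f` elements (for even `f` there is a second, twisted, group). -/
theorem result {α : Type*} [Fintype α] [DecidableEq α] {p f : ℕ} (hp : p.Prime) (hp2 : p ≠ 2) (hfo : Odd f) (hα : Fintype.card α = p ^ f + 1) (G : Subgroup (Equiv.Perm α)) (h3 : MulAction.IsMultiplyPretransitive G α 3) (hsharp : ∀ x : Fin 3 ↪ α, MulAction.stabilizer G x = ⊥) : ∃ (F : Type) (_ : Field F) (_ : Fintype F), Fintype.card F = p ^ f ∧ Nonempty (G ≃* Matrix.ProjGenLinGroup (Fin 2) F) := by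
  classical
  haveI : Fact p.Prime := ⟨hp⟩
  have hS : Sharp3 G α := sharp3_of_subgroup G h3 hsharp
  have hf0 : f ≠ 0 := hfo.pos.ne'
  have hp2' : 3 ≤ p := by
    have := hp.two_le
    omega
  have hpf : 3 ≤ p ^ f := by
    calc 3 ≤ p := hp2'
      _ = p ^ 1 := (pow_one p).symm
      _ ≤ p ^ f := Nat.pow_le_pow_right hp.pos hfo.pos
  obtain ⟨inf, o, e, hio, hie, hoe⟩ := Fintype.two_lt_card_iff.1 (by omega : 2 < Fintype.card α)
  obtain ⟨t, ht1, ht2, ht3⟩ := hS.trans inf o e o inf e hio hie hoe hio.symm hoe hie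
  have ht : t * t = 1 := hS.rigid _ inf o e hio hie hoe (by rw [mul_smul, ht1, ht2])
    (by rw [mul_smul, ht2, ht1]) (by rw [mul_smul, ht3, ht3])
  have hcomm := comm_of_sharp3 hS inf o e hio hie hoe t ht1 ht2 ht3 ht p f hp2 hfo hα
  obtain ⟨F, hF0, hF1, hA1, hA2⟩ := field_of_sharp3 hS inf o e hio hie hoe hcomm
  letI := F
  have hcardY : Nat.card {y : α // y ≠ inf} = p ^ f := by
    rw [Nat.card_eq_fintype_card, Fintype.card_subtype_compl, Fintype.card_subtype_eq, hα]
    omega
  have hchar : (2 : {y : α // y ≠ inf}) ≠ 0 := by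
    intro h2
    have h4 : addOrderOf (1 : {y : α // y ≠ inf}) = 2 := by
      haveI : Fact (Nat.Prime 2) := ⟨Nat.prime_two⟩
      apply addOrderOf_eq_prime
      · rw [two_nsmul, one_add_one_eq_two, h2]
      · exact one_ne_zero
    have h5 := addOrderOf_dvd_natCard (1 : {y : α // y ≠ inf})
    rw [h4, hcardY] at h5
    have h6 := Nat.Prime.dvd_of_dvd_pow Nat.prime_two h5
    have h7 := (Nat.prime_dvd_prime_iff_eq Nat.prime_two hp).1 h6
    exact hp2 h7.symm
  have hI := inv_of_field inf (Subtype.val : {y : α // y ≠ inf} → α) Subtype.val_injective (fun y => y.2)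
    (fun x hx => ⟨⟨x, hx⟩, rfl⟩) hS o e hio hie hoe t ht1 ht2 ht3 ht hF0 hF1 hA1 hA2 hchar
  obtain ⟨Φ⟩ := pgl_of_sharp3 hS inf o e hio hie hoe t ht1 ht2 ht3 hI p f hf0 hα
  letI : Fintype (GaloisField p f) := Fintype.ofFinite _
  refine ⟨GaloisField p f, inferInstance, inferInstance, ?_, ⟨Φ⟩⟩
  rw [← Nat.card_eq_fintype_card]
  exact GaloisField.card p f hf0

end Cfsg.Agent.S0730
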