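import Cfsg.Statements.S0731
import Mathlib
import Cfsg.Agent.Lib.H03.ZC7
import Cfsg.Agent.S0741
import Cfsg.Agent.S0742
import Cfsg.Agent.S0738

set_option autoImplicit false
open Cfsg

namespace Cfsg.Agent.S0731

open Cfsg.Agent.H03.ZC Cfsg.Agent.H03.ZS MulAction

theorem three_trans {G Ω : Type*} [Group G] [Finite G] [MulAction G Ω] [Fintype Ω]
    (h2 : ∀ a b c d : Ω, a ≠ b → c ≠ d → ∃ g : G, g • a = c ∧ g • b = d)
    (h3 : ∀ (g : G) (x y z : Ω), x ≠ y → y ≠ z → x ≠ z → g • x = x → g • y = y → g • z = z → g = 1)
    {x y : Ω} (hxy : x ≠ y)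
    (hd : Nat.card ↥(stabilizer G x ⊓ stabilizer G y : Subgroup G) = Fintype.card Ω - 2) :
    MulAction.IsMultiplyPretransitive G Ω 3 ∧ ∀ t : Fin 3 ↪ Ω, MulAction.stabilizer G t = ⊥ := by
  classical
  constructor
  · refine ⟨fun s t => ?_⟩
    have hs01 : s 0 ≠ s 1 := fun h => absurd (s.injective h) (by decide)
    have hs02 : s 0 ≠ s 2 := fun h => absurd (s.injective h) (by decide)
    have hs12 : s 1 ≠ s 2 := fun h => absurd (s.injective h) (by decide)
    have ht01 : t 0 ≠ t 1 := fun h => absurd (t.injective h) (by decide)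
    have ht02 : t 0 ≠ t 2 := fun h => absurd (t.injective h) (by decide)
    have ht12 : t 1 ≠ t 2 := fun h => absurd (t.injective h) (by decide)
    obtain ⟨g₁, hg₁a, hg₁b⟩ := h2 (s 0) (s 1) (t 0) (t 1) hs01 ht01
    have hc0 : g₁ • s 2 ≠ t 0 := by
      intro h
      exact hs02 (MulAction.injective g₁ (hg₁a.trans h.symm))
    have hc1 : g₁ • s 2 ≠ t 1 := by
      intro h
      exact hs12 (MulAction.injective g₁ (hg₁b.trans h.symm))
    let D' : Subgroup G := stabilizer G (t 0) ⊓ stabilizer G (t 1)
    have hD' : Nat.card D' = Fintype.card Ω - 2 := by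
      rw [← hd]
      exact card_H_eq h2 ht01 hxy
    let φ : D' → {z : Ω // z ≠ t 0 ∧ z ≠ t 1} := fun h => ⟨h.1 • (g₁ • s 2), by
      have h0 : h.1 • t 0 = t 0 := h.2.1
      have h1 : h.1 • t 1 = t 1 := h.2.2
      constructor
      · intro he
        exact hc0 (MulAction.injective h.1 (he.trans h0.symm))
      · intro he
        exact hc1 (MulAction.injective h.1 (he.trans h1.symm))⟩
    have hφ : Function.Injective φ := by
      intro h h' he
      have h4 : h.1 • (g₁ • s 2) = h'.1 • (g₁ • s 2) := congrArg Subtype.val he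
      have h5 : (h'.1⁻¹ * h.1) • (g₁ • s 2) = g₁ • s 2 := by
        rw [mul_smul, h4, inv_smul_smul]
      have h6 : h'.1⁻¹ * h.1 = 1 := by
        refine h3 _ (t 0) (t 1) (g₁ • s 2) ht01 (Ne.symm hc1) (Ne.symm hc0) ?_ ?_ h5
        · exact (D'.mul_mem (D'.inv_mem h'.2) h.2).1
        · exact (D'.mul_mem (D'.inv_mem h'.2) h.2).2
      apply Subtype.ext
      exact (inv_mul_eq_one.1 h6).symm
    have hcardY : Nat.card {z : Ω // z ≠ t 0 ∧ z ≠ t 1} = Fintype.card Ω - 2 := by
      rw [Nat.card_eq_fintype_card, Fintype.card_subtype]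
      have h4 : Finset.univ.filter (fun c : Ω => c ≠ t 0 ∧ c ≠ t 1) = (Finset.univ.erase (t 0)).erase (t 1) := by
        ext c
        simp [and_comm]
      rw [h4, Finset.card_erase_of_mem (Finset.mem_erase.2 ⟨ht01.symm, Finset.mem_univ _⟩),
        Finset.card_erase_of_mem (Finset.mem_univ _), Finset.card_univ]
      omega
    have hφs : Function.Surjective φ := by
      haveI : Fintype D' := Fintype.ofFinite _
      have hbij := (Nat.bijective_iff_injective_and_card φ).2 ⟨hφ, by rw [hD', hcardY]⟩
      exact hbij.2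
    obtain ⟨h, hh⟩ := hφs ⟨t 2, ht02.symm, ht12.symm⟩
    have hh' : h.1 • (g₁ • s 2) = t 2 := congrArg Subtype.val hh
    refine ⟨h.1 * g₁, ?_⟩
    ext i
    fin_cases i
    · show (h.1 * g₁) • s 0 = t 0
      rw [mul_smul, hg₁a]
      exact h.2.1
    · show (h.1 * g₁) • s 1 = t 1
      rw [mul_smul, hg₁b]
      exact h.2.2
    · show (h.1 * g₁) • s 2 = t 2
      rw [mul_smul, hh']
  · intro t
    rw [eq_bot_iff]
    intro g hg
    rw [Subgroup.mem_bot]
    have hg' : ∀ i, g • t i = t i := by
      intro i
      have := congrArg (fun e : Fin 3 ↪ Ω => e i) (show g • t = t from hg)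
      exact this
    have ht01 : t 0 ≠ t 1 := fun h => absurd (t.injective h) (by decide)
    have ht02 : t 0 ≠ t 2 := fun h => absurd (t.injective h) (by decide)
    have ht12 : t 1 ≠ t 2 := fun h => absurd (t.injective h) (by decide)
    exact h3 g _ _ _ ht01 ht12 ht02 (hg' 0) (hg' 1) (hg' 2)


/-- A finite Zassenhaus group whose point stabiliser has an abelian regular normal subgroup on the remaining points is sharply triply transitive or isomorphic to `PSL(2, F)` for a finite field `F` of odd characteristic. -/
theorem result {G Ω : Type*} [Group G] [Finite G] [MulAction G Ω] [Finite Ω] (hZ : Cfsg.IsZassenhausGroup G Ω) (x : Ω) (F : Subgroup G) (hFle : F ≤ MulAction.stabilizer G x) (hFn : (F.subgroupOf (MulAction.stabilizer G x)).Normal) (hFab : IsMulCommutative F) (hreg : ∀ y z : Ω, y ≠ x → z ≠ x → ∃! u : F, (u : G) • y = z) : (MulAction.IsMultiplyPretransitive G Ω 3 ∧ ∀ t : Fin 3 ↪ Ω, MulAction.stabilizer G t = ⊥) ∨ ∃ (K : Type) (_ : Field K) (_ : Fintype K), ringChar K ≠ 2 ∧ Nonempty (G ≃* Matrix.ProjectiveSpecialLinearGroup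 (Fin 2) K) := by
  classical
  letI : Fintype Ω := Fintype.ofFinite Ω
  obtain ⟨hfaith, h2, h3, hne⟩ := zass_facts hZ
  obtain ⟨y, hxy⟩ : ∃ y : Ω, x ≠ y := by
    obtain ⟨-, -, -, ⟨-, -, a, b, hab, -, -⟩, -⟩ := hZ
    by_cases h : x = a
    · exact ⟨b, by rw [h]; exact hab⟩
    · exact ⟨a, h⟩
  set D : Subgroup G := stabilizer G x ⊓ stabilizer G y with hD
  have hdvd : Nat.card D ∣ Fintype.card Ω - 2 := card_dvd_sub_two h3 hxy
  obtain ⟨h₀, hh₀, hh₀a, hh₀b⟩ := hne x y hxy
  obtain ⟨c, hc⟩ : ∃ c : Ω, h₀ • c ≠ c := by
    by_contra hcon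
    push Not at hcon
    exact hh₀ (hfaith h₀ hcon)
  have hcx : c ≠ x := by
    rintro rfl
    exact hc hh₀a
  have hcy : c ≠ y := by
    rintro rfl
    exact hc hh₀b
  have hcΩ3 : 3 ≤ Fintype.card Ω := by
    have h4 : ({x, y, c} : Finset Ω).card = 3 := by
      rw [Finset.card_insert_of_notMem, Finset.card_insert_of_notMem, Finset.card_singleton]
      · simpa using hcy.symm
      · simp [hxy, hcx.symm]
    rw [← h4]
    exact Finset.card_le_univ _
  have hbound : Fintype.card Ω - 2 ≤ 2 * Nat.card D := by
    rcases Nat.even_or_odd (Nat.card D) with heven | hodd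
    · exact Cfsg.Agent.S0741.result hZ hxy heven
    · exact (bound_odd hZ hxy F hFle hFn hFab hreg hodd).2
  have hdpos : 0 < Nat.card D := Nat.card_pos
  obtain ⟨e, he⟩ := hdvd
  have he2 : e ≤ 2 := by
    by_contra hcon
    push Not at hcon
    nlinarith
  have he0 : e ≠ 0 := by
    rintro rfl
    omega
  have hcases : e = 1 ∨ e = 2 := by omega
  rcases hcases with rfl | rfl
  · left
    exact three_trans h2 h3 hxy (by rw [← hD]; omega)
  · right
    rcases Nat.even_or_odd (Nat.card D) with heven | hodd
    · obtain ⟨p, f, K, fK, FK, hp, hp2, hcK, -, hiso⟩ :=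
        Cfsg.Agent.S0742.result hZ hxy heven (by rw [← hD]; omega)
      refine ⟨K, fK, FK, ?_, hiso⟩
      intro hch
      have h4 := FiniteField.even_card_iff_char_two.1 hch
      rw [hcK] at h4
      have h5 : Odd (p ^ f) := (hp.odd_of_ne_two hp2).pow
      rw [Nat.odd_iff] at h5
      omega
    · obtain ⟨-, p, f, hp, hFp, hcard⟩ :=
        Cfsg.Agent.S0738.result hZ hxy (by rw [← hD]; omega) F hFle hFn hreg
      haveI : Fact p.Prime := ⟨hp⟩
      have hq : 2 * Nat.card D + 1 = p ^ f := by omega
      have hpf : Odd (p ^ f) := by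
        rw [← hq]
        exact odd_two_mul_add_one _
      have hnil := (bound_odd hZ hxy F hFle hFn hFab hreg hodd).1
      have hcardH : ∀ a b : Ω, a ≠ b →
          Nat.card ↥(stabilizer G a ⊓ stabilizer G b : Subgroup G) = Nat.card D :=
        fun a b hab => card_H_eq h2 hab hxy
      have key := fun (a b : Ω) (hab : a ≠ b) => Cfsg.Agent.S0739.result hZ hab
        (by rw [hcardH a b hab]; exact hodd)
        (by
          intro q hq hqd
          rw [hcardH a b hab] at hqd
          exact hnil q hq hqd)
      have hinvol : ∀ g : G, g • x = y → g • y = x → g * g = 1 := by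
        intro s hs1 hs2
        have hmem : s * s ∈ D := by
          constructor
          · show (s * s) • x = x
            rw [mul_smul, hs1, hs2]
          · show (s * s) • y = y
            rw [mul_smul, hs2, hs1]
        have h1 := (key x y hxy).2.2 s hs1 hs2 (s * s) hmem
        have h4 : s * (s * s) * s⁻¹ = s * s := by group
        rw [h4] at h1
        have h5 : (⟨s * s, hmem⟩ : D) ^ 2 = 1 := by
          apply Subtype.ext
          show (s * s) ^ 2 = 1
          rw [pow_two]
          nth_rewrite 1 [h1]
          group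
        have h6 : orderOf (⟨s * s, hmem⟩ : D) ∣ 2 := orderOf_dvd_of_pow_eq_one h5
        have h8 : Odd (orderOf (⟨s * s, hmem⟩ : D)) := Odd.of_dvd_nat hodd (orderOf_dvd_natCard _)
        have h9 : orderOf (⟨s * s, hmem⟩ : D) = 1 := by
          rcases (Nat.dvd_prime Nat.prime_two).1 h6 with h | h
          · exact h
          · rw [h] at h8
            exact absurd h8 (by decide)
        exact congrArg Subtype.val (orderOf_eq_one_iff.1 h9)
      have hDcomm : ∀ a ∈ D, ∀ b ∈ D, a * b = b * a := by
        intro a ha b hb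
        have hcyc := (key x y hxy).1
        have := (IsCyclic.isMulCommutative (α := D)).is_comm.comm ⟨a, ha⟩ ⟨b, hb⟩
        exact congrArg Subtype.val this
      have hfpf : ∀ g : G, g * g = 1 → g ≠ 1 → ∀ w : Ω, g • w ≠ w := by
        intro g hgg hg1 w hw
        have hcw : Nat.card (stabilizer G w) = Nat.card D * (Fintype.card Ω - 1) := by
          have h4 := Subgroup.card_mul_index (stabilizer G w)
          have h5 := Subgroup.card_mul_index D
          rw [card_two_trans h2 hxy] at h5
          have h6 : (stabilizer G w).index = Fintype.card Ω := by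
            rw [MulAction.index_stabilizer]
            have : MulAction.orbit G w = Set.univ := by
              ext z
              simp only [Set.mem_univ, iff_true]
              by_cases hz : z = w
              · rw [hz]; exact MulAction.mem_orbit_self w
              · obtain ⟨v, hv1, hv2⟩ : ∃ v : Ω, v ≠ w ∧ True := by
                  exact ⟨z, hz, trivial⟩
                obtain ⟨g', hg', -⟩ := h2 w v z (if z = v then w else v) hv1.symm (by
                  split_ifs with h
                  · rw [h]; exact hv1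
                  · exact h)
                exact ⟨g', hg'⟩
            rw [this, Set.ncard_univ, Nat.card_eq_fintype_card]
          rw [h6] at h4
          have hpos : 0 < Fintype.card Ω := by omega
          apply Nat.eq_of_mul_eq_mul_right hpos
          rw [h4, ← h5]
          ring
        have h5 : (⟨g, hw⟩ : stabilizer G w) ^ 2 = 1 := by
          apply Subtype.ext
          show g ^ 2 = 1
          rw [pow_two, hgg]
        have h6 : orderOf (⟨g, hw⟩ : stabilizer G w) ∣ 2 := orderOf_dvd_of_pow_eq_one h5
        have h7 : Odd (Nat.card (stabilizer G w)) := by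
          rw [hcw]
          have : Fintype.card Ω - 1 = p ^ f := by omega
          rw [this]
          exact hodd.mul hpf
        have h8 : Odd (orderOf (⟨g, hw⟩ : stabilizer G w)) := Odd.of_dvd_nat h7 (orderOf_dvd_natCard _)
        have h9 : orderOf (⟨g, hw⟩ : stabilizer G w) = 1 := by
          rcases (Nat.dvd_prime Nat.prime_two).1 h6 with h | h
          · exact h
          · rw [h] at h8
            exact absurd h8 (by decide)
        exact hg1 (congrArg Subtype.val (orderOf_eq_one_iff.1 h9))
      have hiso := psl_of_half_odd hfaith h2 h3 hxy F hFle hFn hFab hreg hDcomm p f hFp hcard hq hodd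
        hinvol hfpf
      letI fK : Fintype (GaloisField p f) := Fintype.ofFinite _
      refine ⟨GaloisField p f, inferInstance, fK, ?_, hiso⟩
      intro hch
      have h4 := FiniteField.even_card_iff_char_two.1 hch
      have h5 : f ≠ 0 := by
        rintro rfl
        rw [pow_zero] at hq
        omega
      have h6 : Fintype.card (GaloisField p f) = p ^ f := by
        rw [← Nat.card_eq_fintype_card]
        exact GaloisField.card p f h5
      rw [h6] at h4
      rw [Nat.odd_iff] at hpf
      omega

end Cfsg.Agent.S0731
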