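import Cfsg.Statements.S0732
import Mathlib
import Cfsg.Agent.Lib.H03.ZP
import Cfsg.Agent.Lib.H03.ZC7
import Cfsg.Agent.Lib.H17.Mob6
import Cfsg.Agent.Lib.H17.Mob8
import Cfsg.Agent.S0731
import Cfsg.Agent.S0730
import Cfsg.Agent.S0738
import Cfsg.Agent.S0739
import Cfsg.Agent.S0741
import Cfsg.Agent.S0742

set_option autoImplicit false
open Cfsg

namespace Cfsg.Agent.S0732

open Cfsg.Agent.H03.ZC Cfsg.Agent.H03.ZS Cfsg.Agent.H03.ZP MulAction

theorem half_case {G Ω : Type*} [Group G] [Finite G] [MulAction G Ω] [Fintype Ω] (hZ : Cfsg.IsZassenhausGroup G Ω)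
    {x y : Ω} (hxy : x ≠ y) (F : Subgroup G) (hFle : F ≤ MulAction.stabilizer G x)
    (hFn : (F.subgroupOf (MulAction.stabilizer G x)).Normal) (hFab : IsMulCommutative F)
    (hreg : ∀ y z : Ω, y ≠ x → z ≠ x → ∃! u : F, (u : G) • y = z)
    (hd : 2 * Nat.card ↥(stabilizer G x ⊓ stabilizer G y : Subgroup G) = Fintype.card Ω - 2)
    (hΩ : 3 ≤ Fintype.card Ω) :
    ∃ (K : Type) (_ : Field K) (_ : Fintype K), Fintype.card K + 1 = Fintype.card Ω ∧
      Nonempty (G ≃* Matrix.ProjectiveSpecialLinearGroup (Fin 2) K) := by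
  classical
  obtain ⟨hfaith, h2, h3, hne⟩ := zass_facts hZ
  set D : Subgroup G := stabilizer G x ⊓ stabilizer G y with hD
  rcases Nat.even_or_odd (Nat.card D) with heven | hodd
  · obtain ⟨p, f, K, fK, FK, hp, hp2, hcK, hcΩ, hiso⟩ :=
      Cfsg.Agent.S0742.result hZ hxy heven (by rw [← hD]; omega)
    exact ⟨K, fK, FK, by omega, hiso⟩
  · obtain ⟨-, p, f, hp, hFp, hcard⟩ :=
      Cfsg.Agent.S0738.result hZ hxy (by rw [← hD]; omega) F hFle hFn hreg
    haveI : Fact p.Prime := ⟨hp⟩
    have hq : 2 * Nat.card D + 1 = p ^ f := by omega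
    have hpf : Odd (p ^ f) := by
      rw [← hq]
      exact odd_two_mul_add_one _
    have hnil := (bound_odd hZ hxy F hFle hFn hFab hreg hodd).1
    have hcardH : ∀ a b : Ω, a ≠ b →
        Nat.card ↥(stabilizer G a ⊓ stabilizer G b : Subgroup G) = Nat.card D :=
      fun a b hab => card_H_eq h2 hab hxy
    have key := fun (a b : Ω) (hab : a ≠ b) => Cfsg.Agent.S0739.result hZ hab
      (by rw [hcardH a b hab]; exact hodd)
      (by
        intro q hq hqd
        rw [hcardH a b hab] at hqd
        exact hnil q hq hqd)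
    have hinvol : ∀ g : G, g • x = y → g • y = x → g * g = 1 := by
      intro s hs1 hs2
      have hmem : s * s ∈ D := by
        constructor
        · show (s * s) • x = x
          rw [mul_smul, hs1, hs2]
        · show (s * s) • y = y
          rw [mul_smul, hs2, hs1]
      have h1 := (key x y hxy).2.2 s hs1 hs2 (s * s) hmem
      have h4 : s * (s * s) * s⁻¹ = s * s := by group
      rw [h4] at h1
      have h5 : (⟨s * s, hmem⟩ : D) ^ 2 = 1 := by
        apply Subtype.ext
        show (s * s) ^ 2 = 1
        rw [pow_two]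
        nth_rewrite 1 [h1]
        group
      have h6 : orderOf (⟨s * s, hmem⟩ : D) ∣ 2 := orderOf_dvd_of_pow_eq_one h5
      have h8 : Odd (orderOf (⟨s * s, hmem⟩ : D)) := Odd.of_dvd_nat hodd (orderOf_dvd_natCard _)
      have h9 : orderOf (⟨s * s, hmem⟩ : D) = 1 := by
        rcases (Nat.dvd_prime Nat.prime_two).1 h6 with h | h
        · exact h
        · rw [h] at h8
          exact absurd h8 (by decide)
      exact congrArg Subtype.val (orderOf_eq_one_iff.1 h9)
    have hDcomm : ∀ a ∈ D, ∀ b ∈ D, a * b = b * a := by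
      intro a ha b hb
      have hcyc := (key x y hxy).1
      have := (IsCyclic.isMulCommutative (α := D)).is_comm.comm ⟨a, ha⟩ ⟨b, hb⟩
      exact congrArg Subtype.val this
    have hfpf : ∀ g : G, g * g = 1 → g ≠ 1 → ∀ w : Ω, g • w ≠ w := by
      intro g hgg hg1 w hw
      have hcw : Nat.card (stabilizer G w) = Nat.card D * (Fintype.card Ω - 1) := by
        have h4 := Subgroup.card_mul_index (stabilizer G w)
        have h5 := Subgroup.card_mul_index D
        rw [card_two_trans h2 hxy] at h5
        have h6 : (stabilizer G w).index = Fintype.card Ω := by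
          rw [MulAction.index_stabilizer]
          have : MulAction.orbit G w = Set.univ := by
            ext z
            simp only [Set.mem_univ, iff_true]
            by_cases hz : z = w
            · rw [hz]; exact MulAction.mem_orbit_self w
            · obtain ⟨v, hv1, hv2⟩ : ∃ v : Ω, v ≠ w ∧ True := by
                exact ⟨z, hz, trivial⟩
              obtain ⟨g', hg', -⟩ := h2 w v z (if z = v then w else v) hv1.symm (by
                split_ifs with h
                · rw [h]; exact hv1
                · exact h)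
              exact ⟨g', hg'⟩
          rw [this, Set.ncard_univ, Nat.card_eq_fintype_card]
        rw [h6] at h4
        have hpos : 0 < Fintype.card Ω := by omega
        apply Nat.eq_of_mul_eq_mul_right hpos
        rw [h4, ← h5]
        ring
      have h5 : (⟨g, hw⟩ : stabilizer G w) ^ 2 = 1 := by
        apply Subtype.ext
        show g ^ 2 = 1
        rw [pow_two, hgg]
      have h6 : orderOf (⟨g, hw⟩ : stabilizer G w) ∣ 2 := orderOf_dvd_of_pow_eq_one h5
      have h7 : Odd (Nat.card (stabilizer G w)) := by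
        rw [hcw]
        have : Fintype.card Ω - 1 = p ^ f := by omega
        rw [this]
        exact hodd.mul hpf
      have h8 : Odd (orderOf (⟨g, hw⟩ : stabilizer G w)) := Odd.of_dvd_nat h7 (orderOf_dvd_natCard _)
      have h9 : orderOf (⟨g, hw⟩ : stabilizer G w) = 1 := by
        rcases (Nat.dvd_prime Nat.prime_two).1 h6 with h | h
        · exact h
        · rw [h] at h8
          exact absurd h8 (by decide)
      exact hg1 (congrArg Subtype.val (orderOf_eq_one_iff.1 h9))
    have hiso := psl_of_half_odd hfaith h2 h3 hxy F hFle hFn hFab hreg hDcomm p f hFp hcard hq hodd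
      hinvol hfpf
    letI fK : Fintype (GaloisField p f) := Fintype.ofFinite _
    refine ⟨GaloisField p f, inferInstance, fK, ?_, hiso⟩
    have h5 : f ≠ 0 := by
      rintro rfl
      rw [pow_zero] at hq
      omega
    have h6 : Fintype.card (GaloisField p f) = p ^ f := by
      rw [← Nat.card_eq_fintype_card]
      exact GaloisField.card p f h5
    omega


set_option maxHeartbeats 2000000 in
/-- A transitive permutation group on `p + 1` points (`p` prime) of order `(p+1) p d` with `d < p` is isomorphic to `PGL(2,p)` with `d = p - 1`, or to `PSL(2,p)` with `2d = p - 1`, or else `p + 1 = 2^q` for a prime `q`, `d = 1` or `d = q`, and the group is permutation-isomorphic to a group of semi-affine maps `x ↦ a φ(x) + b` of the field with `2^q` elements. -/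
theorem result {α : Type*} [Fintype α] [DecidableEq α] {p d : ℕ} (hp : p.Prime) (hα : Fintype.card α = p + 1) (G : Subgroup (Equiv.Perm α)) [MulAction.IsPretransitive G α] (hG : Nat.card G = (p + 1) * p * d) (hd : d < p) : (d = p - 1 ∧ Nonempty (G ≃* Matrix.ProjGenLinGroup (Fin 2) (ZMod p))) ∨ (2 * d = p - 1 ∧ Nonempty (G ≃* Matrix.ProjectiveSpecialLinearGroup (Fin 2) (ZMod p))) ∨ (∃ q : ℕ, q.Prime ∧ p + 1 = 2 ^ q ∧ (d = 1 ∨ d = q) ∧ ∃ e : α ≃ GaloisField 2 q, ∀ g : G, (e.symm.trans (((g : Equiv.Perm α)).trans e)) ∈ Cfsg.semiaffineGroup (GaloisField 2 q)) := by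
  classical
  have hfaith : ∀ g : G, (∀ x : α, g • x = x) → g = 1 := fun g hg => Subtype.ext (Equiv.ext hg)
  have htrans : ∀ x y : α, ∃ g : G, g • x = y := fun x y => MulAction.exists_smul_eq G x y
  have hα1 : 1 < Fintype.card α := by
    have := hp.pos
    omega
  obtain ⟨a, b, hab⟩ := Fintype.exists_pair_of_one_lt_card hα1
  obtain ⟨F, hFle, hFn, hFp, hreg⟩ := exists_regular_sylow hfaith htrans hp hα hG hd a
  have h2 := two_trans_of_regular htrans F hFle hreg
  have h3 := rigid_of_regular hfaith htrans F hFle hFn hp hFp hreg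
  have hdpos : 0 < d := by
    rcases Nat.eq_zero_or_pos d with h | h
    · subst h
      have := Nat.card_pos (α := G)
      omega
    · exact h
  set D : Subgroup G := stabilizer G a ⊓ stabilizer G b with hD
  have hDcard : Nat.card D = d := by
    have h1 := Subgroup.card_mul_index D
    rw [card_two_trans h2 hab, hα, hG, Nat.add_sub_cancel] at h1
    have hpos : 0 < (p + 1) * p := Nat.mul_pos (Nat.succ_pos p) hp.pos
    apply Nat.eq_of_mul_eq_mul_left hpos
    rw [← h1]
    ring
  haveI hFprime : Fact p.Prime := ⟨hp⟩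
  have hFab : IsMulCommutative F := by
    haveI : IsCyclic F := isCyclic_of_prime_card hFp
    exact IsCyclic.isMulCommutative
  have h2' : MulAction.IsMultiplyPretransitive G α 2 :=
    MulAction.is_two_pretransitive_iff.2 (fun {a b c d} hab hcd => h2 a b c d hab hcd)
  by_cases hN : ∀ N : Subgroup G, N.Normal → MulAction.IsPretransitive N α →
      ∃ a : α, MulAction.stabilizer N a ≠ ⊥
  · have hd1 : d ≠ 1 := by
      rintro rfl
      have hr : ∀ (g : G) (x y : α), x ≠ y → g • x = x → g • y = y → g = 1 := by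
        intro g x y hxy hgx hgy
        have h4 : Nat.card ↥(stabilizer G x ⊓ stabilizer G y : Subgroup G) = 1 :=
          (card_H_eq h2 hxy hab).trans hDcard
        haveI := (Nat.card_eq_one_iff_unique.1 h4).1
        have h5 : (⟨g, hgx, hgy⟩ : ↥(stabilizer G x ⊓ stabilizer G y : Subgroup G)) = 1 :=
          Subsingleton.elim _ _
        exact congrArg Subtype.val h5
      obtain ⟨E, r, j, hr', hj, hcard, hEn, hEab, hEp, hEt, hEs⟩ :=
        Cfsg.Agent.H03.PR.sharp2_abstract (Γ := G) (Y := α) (by omega) h2 hr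
      obtain ⟨x, hx⟩ := hN E hEn ⟨fun a' b' => by
        obtain ⟨u, hu, huv⟩ := hEt a' b'
        exact ⟨⟨u, hu⟩, huv⟩⟩
      apply hx
      rw [eq_bot_iff]
      intro u hu
      rw [Subgroup.mem_bot]
      exact Subtype.ext (hEs u.1 u.2 x hu)
    have hdgt : 1 < d := by omega
    have hp3 : 3 ≤ p := by omega
    have hp2 : p ≠ 2 := by omega
    have hα3 : 3 ≤ Fintype.card α := by omega
    have hDnt : Nontrivial D := by
      rw [← Finite.one_lt_card_iff_nontrivial, hDcard]
      exact hdgt
    obtain ⟨g₀, hg₀⟩ := exists_ne (1 : D)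
    have hZ : Cfsg.IsZassenhausGroup G α :=
      ⟨⟨fun {g₁ g₂} h => Subtype.ext (Equiv.ext h)⟩, h2', h3,
        ⟨g₀.1, fun h => hg₀ (Subtype.ext h), a, b, hab, g₀.2.1, g₀.2.2⟩, hN⟩
    have hdvd : Nat.card D ∣ Fintype.card α - 2 := card_dvd_sub_two h3 hab
    have hbound : Fintype.card α - 2 ≤ 2 * Nat.card D := by
      rcases Nat.even_or_odd (Nat.card D) with heven | hodd
      · exact Cfsg.Agent.S0741.result hZ hab heven
      · exact (bound_odd hZ hab F hFle hFn hFab hreg hodd).2
    rw [hDcard] at hdvd hbound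
    obtain ⟨e, he⟩ := hdvd
    have he2 : e ≤ 2 := by
      by_contra hcon
      push Not at hcon
      nlinarith
    have he0 : e ≠ 0 := by
      rintro rfl
      omega
    have hcases : e = 1 ∨ e = 2 := by omega
    rcases hcases with rfl | rfl
    · left
      have hd' : d = p - 1 := by omega
      refine ⟨hd', ?_⟩
      obtain ⟨h3t, hsharp⟩ := Cfsg.Agent.S0731.three_trans h2 h3 hab (by rw [← hD, hDcard]; omega)
      obtain ⟨K, fK, FK, hK, ⟨Φ⟩⟩ := Cfsg.Agent.S0730.result hp hp2 odd_one (by rw [pow_one]; exact hα) G h3t hsharp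
      rw [pow_one] at hK
      obtain ⟨Ψ⟩ := Cfsg.Agent.H17.Mob.pgl_congr (ZMod.ringEquivOfPrime K hp hK).symm
      exact ⟨Φ.trans Ψ⟩
    · right
      left
      have hd' : 2 * d = p - 1 := by omega
      refine ⟨hd', ?_⟩
      obtain ⟨K, fK, FK, hK, ⟨Φ⟩⟩ := half_case hZ hab F hFle hFn hFab hreg (by rw [← hD, hDcard]; omega) hα3
      have hK' : Fintype.card K = p := by omega
      obtain ⟨Ψ⟩ := Cfsg.Agent.H17.Mob.psl_congr (ZMod.ringEquivOfPrime K hp hK').symm
      exact ⟨Φ.trans Ψ⟩
  · push Not at hN
    obtain ⟨N, hNn, hNt, hNs⟩ := hN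
    haveI := hNn
    obtain ⟨r, hr, hNab, hNp, m, hm⟩ := Cfsg.Agent.H03.regular_normal_of_two_trans
      (by rw [Nat.card_eq_fintype_card]; omega) h2' N hNt hNs
    rw [Nat.card_eq_fintype_card, hα] at hm
    by_cases hp2 : p = 2
    · subst hp2
      have hd1 : d = 1 := by omega
      subst hd1
      left
      refine ⟨rfl, pgl_two hα G (by rw [hG])⟩
    · right
      right
      have hm0 : m ≠ 0 := by
        rintro rfl
        have := hp.pos
        simp at hm
        omega
      have hodd : Even (p + 1) := (hp.odd_of_ne_two hp2).add_one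
      have hr2 : r = 2 := by
        have h4 : 2 ∣ r ^ m := by
          rw [← hm]
          exact hodd.two_dvd
        exact ((Nat.prime_dvd_prime_iff_eq Nat.prime_two hr).1 (Nat.prime_two.dvd_of_dvd_pow h4)).symm
      subst hr2
      have hm1 : m ≠ 1 := by
        rintro rfl
        have := hp.two_le
        omega
      have hmp : m.Prime := (Nat.prime_of_pow_sub_one_prime hm1 (by rw [← hm]; simpa using hp)).2
      obtain ⟨hK, hsemi, ρ, hρ⟩ := semiaffine_of_regular N F hNn a b hab
        (fun x hx y hy => congrArg Subtype.val (hNab.is_comm.comm ⟨x, hx⟩ ⟨y, hy⟩))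
        (fun y => by
          obtain ⟨u, hu⟩ := hNt.exists_smul_eq a y
          exact ⟨u.1, u.2, hu⟩)
        (fun u hu v hv huv => by
          have h4 : (⟨v⁻¹ * u, mul_mem (inv_mem hv) hu⟩ : N) ∈ MulAction.stabilizer N a := by
            show (v⁻¹ * u) • a = a
            rw [mul_smul, huv, inv_smul_smul]
          rw [hNs a, Subgroup.mem_bot] at h4
          have h5 : v⁻¹ * u = 1 := congrArg Subtype.val h4
          exact (inv_mul_eq_one.1 h5).symm)
        hFle
        (fun g hg u hu => hFn.conj_mem ⟨u, hFle hu⟩ hu ⟨g, hg⟩)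
        (fun x hx y hy => congrArg Subtype.val (hFab.is_comm.comm ⟨x, hx⟩ ⟨y, hy⟩))
        hreg
      letI := hK
      have hcardα : Fintype.card α = 2 ^ m := by rw [hα, hm]
      have hdq : d = 1 ∨ d = m := by
        have h4 : Nat.card D ∣ Nat.card (α ≃+* α) := Subgroup.card_dvd_of_injective ρ (by
          intro x y hxy
          apply Subtype.ext
          apply Subtype.ext
          apply Equiv.ext
          intro z
          have h5 := congrArg (fun f : α ≃+* α => f z) hxy
          simp only [hρ] at h5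
          exact h5)
        rw [card_ringAut' Nat.prime_two hcardα (by omega), hDcard] at h4
        exact (Nat.dvd_prime hmp).1 h4
      letI fK : Fintype (GaloisField 2 m) := Fintype.ofFinite _
      have hcK : Fintype.card (GaloisField 2 m) = 2 ^ m := by
        rw [← Nat.card_eq_fintype_card]
        exact GaloisField.card 2 m hm0
      let ι : α ≃+* GaloisField 2 m := FiniteField.ringEquivOfCardEq (by rw [hcardα, hcK])
      refine ⟨m, hmp, hm, hdq, ι.toEquiv, fun g => ?_⟩
      obtain ⟨u, v, φ, hφ⟩ := hsemi g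
      refine ⟨Units.map (ι : α →* GaloisField 2 m) u, ι v, ι.symm.trans (φ.trans ι), fun x => ?_⟩
      have h4 : (ι.toEquiv.symm.trans ((g : Equiv.Perm α).trans ι.toEquiv)) x = ι (g • ι.symm x) := rfl
      rw [h4, hφ]
      simp

end Cfsg.Agent.S0732
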