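import Cfsg.Statements.S0733
import Mathlib

set_option autoImplicit false
open Cfsg

namespace Cfsg.Agent.S0733


/-- A permutation group of affine type — generated by the translations of a finite vector space `V` over `ZMod p` together with a group `G₀` of linear automorphisms — is primitive on `V` if and only if `G₀` is irreducible on `V`. -/
theorem result {p : ℕ} [Fact p.Prime] {V : Type*} [AddCommGroup V] [Module (ZMod p) V] [Finite V] [Nontrivial V] (G₀ : Subgroup (V ≃ₗ[ZMod p] V)) (G : Subgroup (Equiv.Perm V)) (hG : ∀ σ : Equiv.Perm V, σ ∈ G ↔ ∃ g ∈ G₀, ∃ b : V, ∀ x : V, σ x = (g : V ≃ₗ[ZMod p] V) x + b) : MulAction.IsPreprimitive G V ↔ ∀ W : Submodule (ZMod p) V, (∀ g ∈ G₀, ∀ v ∈ W, (g : V ≃ₗ[ZMod p] V) v ∈ W) → W = ⊥ ∨ W = ⊤ := by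
  classical
  have htau : ∀ b : V, Equiv.addRight b ∈ G := fun b =>
    (hG _).mpr ⟨1, G₀.one_mem, b, fun x => by simp⟩
  have hlin : ∀ g ∈ G₀, (g : V ≃ₗ[ZMod p] V).toEquiv ∈ G := fun g hg =>
    (hG _).mpr ⟨g, hg, 0, fun x => by simp⟩
  have htr : MulAction.IsPretransitive G V := by
    refine ⟨fun x y => ⟨⟨Equiv.addRight (y - x), htau _⟩, ?_⟩⟩
    change x + (y - x) = y
    abel
  constructor
  · intro hprim W hW
    have hB : MulAction.IsBlock G (W : Set V) := by
      rw [MulAction.isBlock_iff_smul_eq_of_mem]
      rintro ⟨σ, hσ⟩ a ha hb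
      obtain ⟨g, hg, b, hgb⟩ := (hG σ).mp hσ
      have hb' : σ a ∈ W := hb
      rw [hgb] at hb'
      have hbW : b ∈ W := by
        have := W.sub_mem hb' (hW g hg a ha)
        simpa using this
      ext y
      rw [Set.mem_smul_set]
      constructor
      · rintro ⟨w, hw, rfl⟩
        change σ w ∈ W
        rw [hgb]
        exact W.add_mem (hW g hg w hw) hbW
      · intro hy
        refine ⟨g⁻¹ (y - b), ?_, ?_⟩
        · exact hW g⁻¹ (G₀.inv_mem hg) _ (W.sub_mem hy hbW)
        · change σ _ = y
          rw [hgb]
          have : g (g⁻¹ (y - b)) = y - b := by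
            change (g * g⁻¹) (y - b) = y - b
            simp
          rw [this]
          abel
    rcases hB.subsingleton_or_eq_univ with h | h
    · left
      rw [eq_bot_iff]
      intro x hx
      have := h hx W.zero_mem
      simpa using this
    · right
      rw [eq_top_iff]
      intro x _
      have : x ∈ (W : Set V) := by rw [h]; trivial
      exact this
  · intro hirr
    refine MulAction.IsPreprimitive.of_isTrivialBlock_base (0 : V) ?_
    intro B h0 hB
    have hB' := (MulAction.isBlock_iff_smul_eq_of_mem).mp hB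
    have hadd : ∀ x ∈ B, ∀ y ∈ B, x + y ∈ B := by
      intro x hx y hy
      have h1 := hB' (g := (⟨Equiv.addRight x, htau x⟩ : G)) h0 (by
        change 0 + x ∈ B
        simpa using hx)
      have h2 : (⟨Equiv.addRight x, htau x⟩ : G) • y ∈ B := by
        rw [← h1]
        exact Set.smul_mem_smul_set hy
      have h3 : y + x ∈ B := h2
      rwa [add_comm] at h3
    have hnsmul : ∀ (n : ℕ), ∀ x ∈ B, n • x ∈ B := by
      intro n x hx
      induction n with
      | zero => simpa using h0
      | succ n ih =>
        rw [succ_nsmul]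
        exact hadd _ ih _ hx
    let W : Submodule (ZMod p) V :=
      { carrier := B
        add_mem' := fun {x y} hx hy => hadd x hx y hy
        zero_mem' := h0
        smul_mem' := fun c x hx => by
          have : c • x = c.val • x := by
            conv_lhs => rw [← ZMod.natCast_zmod_val c]
            rw [Nat.cast_smul_eq_nsmul]
          change c • x ∈ B
          rw [this]
          exact hnsmul _ x hx }
    have hW : ∀ g ∈ G₀, ∀ v ∈ W, (g : V ≃ₗ[ZMod p] V) v ∈ W := by
      intro g hg v hv
      have h1 := hB' (g := (⟨(g : V ≃ₗ[ZMod p] V).toEquiv, hlin g hg⟩ : G)) h0 (by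
        change g 0 ∈ B
        simpa using h0)
      have h2 : (⟨(g : V ≃ₗ[ZMod p] V).toEquiv, hlin g hg⟩ : G) • v ∈ B := by
        rw [← h1]
        exact Set.smul_mem_smul_set hv
      exact h2
    rcases hirr W hW with h | h
    · left
      intro x hx y hy
      have hx' : x ∈ W := hx
      have hy' : y ∈ W := hy
      rw [h, Submodule.mem_bot] at hx' hy'
      rw [hx', hy']
    · right
      rw [Set.eq_univ_iff_forall]
      intro x
      have : x ∈ W := by rw [h]; exact Submodule.mem_top
      exact this

end Cfsg.Agent.S0733
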