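import Cfsg.Statements.S0734
import Mathlib

set_option autoImplicit false
open Cfsg

namespace Cfsg.Agent.S0734

open scoped Pointwise


/-- Higman's criterion for primitivity: a transitive action on a finite set is primitive if and only if every non-trivial orbital graph (edges = images of a fixed pair of distinct points) is connected. -/
theorem result {G : Type*} [Group G] {Ω : Type*} [Finite Ω] [MulAction G Ω] [MulAction.IsPretransitive G Ω] [Nontrivial Ω] : MulAction.IsPreprimitive G Ω ↔ ∀ a b : Ω, a ≠ b → (SimpleGraph.fromRel fun x y : Ω => ∃ g : G, g • a = x ∧ g • b = y).Connected := by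
  classical
  constructor
  · intro hprim a b hab
    set Γ := SimpleGraph.fromRel fun x y : Ω => ∃ g : G, g • a = x ∧ g • b = y with hΓ
    have hadj : ∀ (g : G) {x y : Ω}, Γ.Adj x y → Γ.Adj (g • x) (g • y) := by
      intro g x y h
      rw [hΓ, SimpleGraph.fromRel_adj] at h ⊢
      obtain ⟨hne, h | h⟩ := h
      · obtain ⟨k, rfl, rfl⟩ := h
        refine ⟨fun h' => hne (smul_left_cancel g h'), Or.inl ⟨g * k, mul_smul _ _ _, mul_smul _ _ _⟩⟩
      · obtain ⟨k, rfl, rfl⟩ := h
        refine ⟨fun h' => hne (smul_left_cancel g h'), Or.inr ⟨g * k, mul_smul _ _ _, mul_smul _ _ _⟩⟩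
    have hreach : ∀ (g : G) {x y : Ω}, Γ.Reachable x y → Γ.Reachable (g • x) (g • y) := by
      intro g x y h
      let φ : Γ →g Γ := ⟨fun z => g • z, fun {u v} huv => hadj g huv⟩
      exact h.map φ
    have hab' : Γ.Adj a b := by
      rw [hΓ, SimpleGraph.fromRel_adj]
      exact ⟨hab, Or.inl ⟨1, one_smul _ _, one_smul _ _⟩⟩
    have hsub : ∀ g : G, (g • {x | Γ.Reachable a x} ∩ {x | Γ.Reachable a x}).Nonempty →
        g • {x | Γ.Reachable a x} ⊆ {x | Γ.Reachable a x} := by
      rintro g ⟨_, ⟨x, hx, rfl⟩, hgx⟩ _ ⟨z, hz, rfl⟩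
      have hxz : Γ.Reachable x z := (SimpleGraph.Reachable.symm hx).trans hz
      exact (show Γ.Reachable a (g • x) from hgx).trans (hreach g hxz)
    have hB : MulAction.IsBlock G {x | Γ.Reachable a x} := by
      rw [MulAction.isBlock_iff_smul_eq_of_nonempty]
      intro g hg
      apply Set.Subset.antisymm (hsub g hg)
      have h2 := hsub g⁻¹ (by
        obtain ⟨z, hz1, hz2⟩ := hg
        refine ⟨g⁻¹ • z, Set.smul_mem_smul_set hz2, ?_⟩
        rw [Set.mem_smul_set_iff_inv_smul_mem] at hz1
        exact hz1)
      intro z hz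
      rw [Set.mem_smul_set_iff_inv_smul_mem]
      exact h2 (Set.smul_mem_smul_set hz)
    rcases hB.subsingleton_or_eq_univ with h | h
    · exact absurd (h (SimpleGraph.Reachable.refl a) hab'.reachable) hab
    · have hall : ∀ x, Γ.Reachable a x := fun x => by
        have : x ∈ {x | Γ.Reachable a x} := by rw [h]; trivial
        exact this
      have : Nonempty Ω := ⟨a⟩
      exact ⟨fun x y => (SimpleGraph.Reachable.symm (hall x)).trans (hall y)⟩
  · intro h
    obtain ⟨a⟩ : Nonempty Ω := inferInstance
    refine MulAction.IsPreprimitive.of_isTrivialBlock_base a ?_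
    intro B haB hB
    by_cases hsub : B.Subsingleton
    · exact Or.inl hsub
    · right
      obtain ⟨b, hb, hba⟩ : ∃ b ∈ B, b ≠ a := by
        rw [Set.not_subsingleton_iff] at hsub
        exact hsub.exists_ne a
      set Γ := SimpleGraph.fromRel fun x y : Ω => ∃ g : G, g • a = x ∧ g • b = y with hΓ
      have hconn := h a b (Ne.symm hba)
      have hstep : ∀ {x y : Ω}, Γ.Adj x y → x ∈ B → y ∈ B := by
        intro x y hxy hx
        rw [hΓ, SimpleGraph.fromRel_adj] at hxy
        rw [MulAction.isBlock_iff_smul_eq_of_mem] at hB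
        obtain ⟨_, ⟨k, rfl, rfl⟩ | ⟨k, rfl, rfl⟩⟩ := hxy
        · have h2 := hB (g := k) haB hx
          rw [← h2]
          exact Set.smul_mem_smul_set hb
        · have h2 := hB (g := k) hb hx
          rw [← h2]
          exact Set.smul_mem_smul_set haB
      have hwalk : ∀ {x y : Ω}, Γ.Walk x y → x ∈ B → y ∈ B := by
        intro x y w
        induction w with
        | nil => exact id
        | cons hadj _ ih => exact fun hx => ih (hstep hadj hx)
      rw [Set.eq_univ_iff_forall]
      intro y
      obtain ⟨w⟩ := hconn.preconnected a y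
      exact hwalk w haB

end Cfsg.Agent.S0734
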