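import Cfsg.Statements.S0735
import Mathlib

set_option autoImplicit false
open Cfsg

namespace Cfsg.Agent.S0735

open scoped Pointwise

theorem homog {α : Type*} [Fintype α] [DecidableEq α] (G : Subgroup (Equiv.Perm α))
    (h2 : MulAction.IsPretransitive G (Set.powersetCard α 2)) {a b c d : α} (hab : a ≠ b) (hcd : c ≠ d) :
    ∃ g ∈ G, (g a = c ∧ g b = d) ∨ (g a = d ∧ g b = c) := by
  have h1 : ({a, b} : Finset α) ∈ Set.powersetCard α 2 := by
    simp [Set.powersetCard, Finset.card_pair hab]
  have h3 : ({c, d} : Finset α) ∈ Set.powersetCard α 2 := by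
    simp [Set.powersetCard, Finset.card_pair hcd]
  obtain ⟨⟨g, hg⟩, hgs⟩ := h2.exists_smul_eq ⟨_, h1⟩ ⟨_, h3⟩
  have h4 : (⟨g, hg⟩ : G) • ({a, b} : Finset α) = {c, d} := by
    have := congrArg Subtype.val hgs
    simpa [Set.powersetCard.coe_smul] using this
  have ha : g a ∈ ({c, d} : Finset α) := by
    rw [← h4]
    exact Finset.smul_mem_smul_finset (show a ∈ ({a, b} : Finset α) by simp)
  have hb : g b ∈ ({c, d} : Finset α) := by
    rw [← h4]
    exact Finset.smul_mem_smul_finset (show b ∈ ({a, b} : Finset α) by simp)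
  simp only [Finset.mem_insert, Finset.mem_singleton] at ha hb
  refine ⟨g, hg, ?_⟩
  have hne : g a ≠ g b := fun h => hab (g.injective h)
  rcases ha with ha | ha <;> rcases hb with hb | hb
  · exact absurd (ha.trans hb.symm) hne
  · exact Or.inl ⟨ha, hb⟩
  · exact Or.inr ⟨ha, hb⟩
  · exact absurd (ha.trans hb.symm) hne

theorem exists_third {α : Type*} [Fintype α] [DecidableEq α] (hα : 3 ≤ Fintype.card α) (a b : α) :
    ∃ c, c ≠ a ∧ c ≠ b := by
  by_contra hc
  push Not at hc
  have h1 : (Finset.univ : Finset α) ⊆ {a, b} := by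
    intro c _
    by_cases h : c = a
    · simp [h]
    · simp [hc c h]
  have h2 := Finset.card_le_card h1
  have h3 : ({a, b} : Finset α).card ≤ 2 := Finset.card_le_two
  rw [Finset.card_univ] at h2
  omega

/-- A 2-homogeneous permutation group (transitive on 2-subsets) of even order is doubly transitive; a non-trivial 2-homogeneous group is primitive. -/
theorem result {α : Type*} [Fintype α] [DecidableEq α] (G : Subgroup (Equiv.Perm α)) (h2 : MulAction.IsPretransitive G (Set.powersetCard α 2)) (hα : 3 ≤ Fintype.card α) : (Even (Nat.card G) → MulAction.IsMultiplyPretransitive G α 2) ∧ (G ≠ ⊥ → MulAction.IsPreprimitive G α) := by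
  classical
  constructor
  · intro hev
    have h2' : 2 ∣ Nat.card G := hev.two_dvd
    have hp : Fact (Nat.Prime 2) := ⟨Nat.prime_two⟩
    obtain ⟨t, ht⟩ := exists_prime_orderOf_dvd_card' 2 h2'
    have ht' : orderOf (t : Equiv.Perm α) = 2 := by rw [Subgroup.orderOf_coe]; exact ht
    have htt : (t : Equiv.Perm α) * t = 1 := by
      have := pow_orderOf_eq_one (t : Equiv.Perm α)
      rw [ht', sq] at this
      exact this
    have htx : ∀ x, (t : Equiv.Perm α) ((t : Equiv.Perm α) x) = x := fun x => by
      have := congrArg (fun p : Equiv.Perm α => p x) htt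
      simpa using this
    obtain ⟨x, hx⟩ : ∃ x, (t : Equiv.Perm α) x ≠ x := by
      by_contra hall
      push Not at hall
      have : (t : Equiv.Perm α) = 1 := Equiv.ext hall
      rw [this] at ht'
      simp at ht'
    -- every pair is swapped
    have hswap : ∀ c d : α, c ≠ d → ∃ s ∈ G, s c = d ∧ s d = c := by
      intro c d hcd
      obtain ⟨g, hg, h | h⟩ := homog G h2 (a := x) (b := (t : Equiv.Perm α) x) (c := c) (d := d) hx.symm hcd
      · refine ⟨g * t * g⁻¹, G.mul_mem (G.mul_mem hg t.2) (G.inv_mem hg), ?_, ?_⟩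
        · rw [← h.1]
          simp [h.2]
        · rw [← h.2]
          simp [htx, h.1]
      · refine ⟨g * t * g⁻¹, G.mul_mem (G.mul_mem hg t.2) (G.inv_mem hg), ?_, ?_⟩
        · rw [← h.2]
          simp [htx, h.1]
        · rw [← h.1]
          simp [h.2]
    rw [MulAction.is_two_pretransitive_iff]
    intro a b c d hab hcd
    obtain ⟨g, hg, h | h⟩ := homog G h2 hab hcd
    · exact ⟨⟨g, hg⟩, h.1, h.2⟩
    · obtain ⟨s, hs, h3, h4⟩ := hswap c d hcd
      refine ⟨⟨s * g, G.mul_mem hs hg⟩, ?_, ?_⟩
      · change s (g a) = c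
        rw [h.1, h4]
      · change s (g b) = d
        rw [h.2, h3]
  · intro _
    have htr : MulAction.IsPretransitive G α := by
      refine ⟨fun a b => ?_⟩
      by_cases hab : a = b
      · exact ⟨1, by simp [hab]⟩
      · obtain ⟨c, hca, hcb⟩ := exists_third hα a b
        obtain ⟨g, hg, h | h⟩ := homog G h2 (a := a) (b := c) (c := b) (d := c) (Ne.symm hca) (Ne.symm hcb)
        · exact ⟨⟨g, hg⟩, h.1⟩
        · refine ⟨⟨g * g, G.mul_mem hg hg⟩, ?_⟩
          change g (g a) = b
          rw [h.1, h.2]
    have hne : Nonempty α := by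
      have : 0 < Fintype.card α := by omega
      exact Fintype.card_pos_iff.mp this
    obtain ⟨a⟩ := hne
    refine MulAction.IsPreprimitive.of_isTrivialBlock_base a ?_
    intro B haB hB
    by_cases hsub : B.Subsingleton
    · exact Or.inl hsub
    · right
      obtain ⟨b, hb, hba⟩ : ∃ b ∈ B, b ≠ a := by
        rw [Set.not_subsingleton_iff] at hsub
        exact hsub.exists_ne a
      rw [Set.eq_univ_iff_forall]
      intro c
      by_contra hc
      have hca : c ≠ a := fun h => hc (h ▸ haB)
      obtain ⟨g, hg, h⟩ := homog G h2 (a := a) (b := b) (c := a) (d := c) (Ne.symm hba) (Ne.symm hca)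
      have key : ∀ u ∈ B, ∀ v ∈ B, g u = v → (⟨g, hg⟩ : G) • B = B := by
        intro u hu v hv huv
        rw [MulAction.isBlock_iff_smul_eq_of_mem] at hB
        exact hB hu (by
          change g u ∈ B
          rw [huv]; exact hv)
      have hgB : (⟨g, hg⟩ : G) • B = B := by
        rcases h with h | h
        · exact key a haB a haB h.1
        · exact key b hb a haB h.2
      have hcB : c ∈ B := by
        rw [← hgB]
        rcases h with h | h
        · exact ⟨b, hb, h.2⟩
        · exact ⟨a, haB, h.1⟩
      exact hc hcB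

end Cfsg.Agent.S0735
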