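import Cfsg.Statements.S0736
import Mathlib

set_option autoImplicit false
open Cfsg

namespace Cfsg.Agent.S0736

open scoped Pointwise

lemma choose_lucas (p : ℕ) [hp : Fact p.Prime] : ∀ (e m : ℕ), (m * p ^ e + p ^ e - 1).choose (m * p ^ e) ≡ 1 [MOD p] := by
  intro e
  induction e with
  | zero =>
    intro m
    simp
    rfl
  | succ e ih =>
    intro m
    have hpp := hp.out.pos
    have hN : 0 < m * p ^ e + p ^ e := by
      have := pow_pos hpp e
      omega
    set N := m * p ^ e + p ^ e with hNd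
    have e1 : m * p ^ (e + 1) + p ^ (e + 1) - 1 = (N - 1) * p + (p - 1) := by
      have : m * p ^ (e + 1) + p ^ (e + 1) = N * p := by
        rw [hNd, pow_succ]; ring
      rw [this]
      obtain ⟨N', hN'⟩ : ∃ N', N = N' + 1 := ⟨N - 1, by omega⟩
      obtain ⟨p', hp'⟩ : ∃ p', p = p' + 1 := ⟨p - 1, by omega⟩
      rw [hN']
      simp only [Nat.add_sub_cancel]
      rw [hp']
      simp only [Nat.add_sub_cancel]
      ring_nf
      omega
    have e2 : m * p ^ (e + 1) = (m * p ^ e) * p := by
      rw [pow_succ]; ring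
    have h1 := Choose.choose_modEq_choose_mod_mul_choose_div_nat (n := m * p ^ (e + 1) + p ^ (e + 1) - 1) (k := m * p ^ (e + 1)) (p := p)
    have h2 : (m * p ^ (e + 1) + p ^ (e + 1) - 1) / p = N - 1 := by
      rw [e1, mul_comm, Nat.mul_add_div hpp, Nat.div_eq_of_lt (by omega)]
      simp
    have h3 : (m * p ^ (e + 1)) / p = m * p ^ e := by
      rw [e2, Nat.mul_div_cancel _ hpp]
    have h4 : (m * p ^ (e + 1)) % p = 0 := by
      rw [e2, Nat.mul_mod_left]
    rw [h2, h3, h4, Nat.choose_zero_right, one_mul] at h1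
    exact h1.trans (ih m)

variable {α : Type*} [Fintype α] [DecidableEq α]

/-- the count of supersets -/
lemma card_supersets (X D : Finset α) (hD : D ⊆ X) (k : ℕ) (hk : D.card + 1 = k) :
    ((Finset.powersetCard k X).filter (fun Γ => D ⊆ Γ)).card = X.card - D.card := by
  rw [← Finset.card_sdiff_of_subset hD]
  symm
  apply Finset.card_bij (fun x _ => insert x D)
  · intro x hx
    rw [Finset.mem_sdiff] at hx
    rw [Finset.mem_filter, Finset.mem_powersetCard]
    refine ⟨⟨Finset.insert_subset hx.1 hD, ?_⟩, Finset.subset_insert _ _⟩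
    rw [Finset.card_insert_of_notMem hx.2, hk]
  · intro x hx y hy h
    rw [Finset.mem_sdiff] at hx hy
    have : x ∈ insert y D := by rw [← h]; exact Finset.mem_insert_self _ _
    rcases Finset.mem_insert.1 this with h1 | h1
    · exact h1
    · exact absurd h1 hx.2
  · intro Γ hΓ
    rw [Finset.mem_filter, Finset.mem_powersetCard] at hΓ
    obtain ⟨⟨h1, h2⟩, h3⟩ := hΓ
    have hlt : D.card < Γ.card := by omega
    obtain ⟨x, hx, hxD⟩ := Finset.exists_mem_notMem_of_card_lt_card hlt
    refine ⟨x, Finset.mem_sdiff.2 ⟨h1 hx, hxD⟩, ?_⟩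
    apply Finset.eq_of_subset_of_card_le
    · exact Finset.insert_subset hx h3
    · rw [Finset.card_insert_of_notMem hxD, hk, h2]


/-- A `k`-homogeneous permutation group of degree `n`, `k ≥ 2`, with `k + q - 1 ≤ n` for every prime power `q` dividing `k`, is `(k-1)`-homogeneous. -/
theorem result {α : Type*} [Fintype α] [DecidableEq α] (G : Subgroup (Equiv.Perm α)) {k : ℕ} (hk : 2 ≤ k) (hG : MulAction.IsPretransitive G (Set.powersetCard α k)) (hq : ∀ q : ℕ, IsPrimePow q → q ∣ k → k + q - 1 ≤ Fintype.card α) : MulAction.IsPretransitive G (Set.powersetCard α (k - 1)) := by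
  classical
  -- dimension facts
  obtain ⟨p₀, hp₀, hp₀k⟩ := Nat.exists_prime_and_dvd (n := k) (by omega)
  have hnk : k ≤ Fintype.card α := by
    have := hq p₀ hp₀.isPrimePow hp₀k
    have := hp₀.two_le
    omega
  constructor
  intro x y
  set D₁ : Finset α := (x : Finset α) with hD₁
  have hD₁card : D₁.card = k - 1 := x.2
  let P : Finset α → Prop := fun D => ∃ g : G, g • D₁ = D
  have hPsmul : ∀ (g : G) (D : Finset α), P D → P (g • D) := by
    rintro g D ⟨h, rfl⟩
    exact ⟨g * h, by rw [mul_smul]⟩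
  let a : Finset α → ℕ := fun Γ => ((Finset.powersetCard (k - 1) Γ).filter P).card
  have hale : ∀ (g : G) (Γ : Finset α), a Γ ≤ a (g • Γ) := by
    intro g Γ
    apply Finset.card_le_card_of_injOn (fun D => g • D)
    · intro D hD
      simp only [Finset.coe_filter, Set.mem_setOf_eq, Finset.mem_powersetCard] at hD ⊢
      refine ⟨⟨Finset.smul_finset_subset_smul_finset_iff.2 hD.1.1, ?_⟩, hPsmul g D hD.2⟩
      rw [Finset.card_smul_finset]
      exact hD.1.2
    · intro D _ D' _ h
      exact (MulAction.injective g) h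
  have haeq : ∀ (g : G) (Γ : Finset α), a (g • Γ) = a Γ := by
    intro g Γ
    apply le_antisymm _ (hale g Γ)
    have := hale g⁻¹ (g • Γ)
    rwa [inv_smul_smul] at this
  -- a constant value
  obtain ⟨Γ₀, hΓ₀1, hΓ₀2⟩ := Finset.exists_superset_card_eq (s := D₁) (n := k) (by omega) (by exact hnk)
  have haconst : ∀ Γ : Finset α, Γ.card = k → a Γ = a Γ₀ := by
    intro Γ hΓ
    have hm : Γ ∈ Set.powersetCard α k := hΓ
    have hm0 : Γ₀ ∈ Set.powersetCard α k := hΓ₀2
    obtain ⟨g, hg⟩ := hG.exists_smul_eq (⟨Γ₀, hm0⟩ : Set.powersetCard α k) ⟨Γ, hm⟩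
    have : g • Γ₀ = Γ := by
      have h0 := congrArg Subtype.val hg
      exact h0
    rw [← this, haeq]
  have hapos : 0 < a Γ₀ := by
    apply Finset.card_pos.2
    refine ⟨D₁, ?_⟩
    rw [Finset.mem_filter, Finset.mem_powersetCard]
    exact ⟨⟨hΓ₀1, hD₁card⟩, ⟨1, by simp⟩⟩
  have hale2 : a Γ₀ ≤ k := by
    have h1 := Finset.card_filter_le (Finset.powersetCard (k - 1) Γ₀) P
    rw [Finset.card_powersetCard, hΓ₀2] at h1
    have h2 : k.choose (k - 1) = k := by
      rw [Nat.choose_symm (by omega : 1 ≤ k)]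
      simp
    rw [h2] at h1
    exact h1
  -- divisibility by prime powers
  have hdvd : ∀ (p e : ℕ), p.Prime → p ^ e ∣ k → p ^ e ∣ a Γ₀ := by
    intro p e hp hpe
    rcases Nat.eq_zero_or_pos e with rfl | he
    · simp
    haveI : Fact p.Prime := ⟨hp⟩
    set q := p ^ e with hqd
    obtain ⟨m, hm⟩ := hpe
    have hqpp : IsPrimePow q := (hp.isPrimePow).pow (by omega)
    have hqle := hq q hqpp ⟨m, hm⟩
    have hqpos : 0 < q := pow_pos hp.pos e
    obtain ⟨X, hXcard⟩ := Finset.exists_subset_card_eq (s := (Finset.univ : Finset α)) (n := k + q - 1) (by simpa using hqle)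
    have hXc := hXcard.2
    let 𝒟 := (Finset.powersetCard (k - 1) X).filter P
    let 𝒢 := Finset.powersetCard k X
    have hcount := Finset.sum_card_bipartiteAbove_eq_sum_card_bipartiteBelow (s := 𝒟) (t := 𝒢) (fun D Γ => D ⊆ Γ)
    have h1 : ∀ D ∈ 𝒟, (Finset.bipartiteAbove (fun D Γ => D ⊆ Γ) 𝒢 D).card = q := by
      intro D hD
      rw [Finset.mem_filter, Finset.mem_powersetCard] at hD
      have := card_supersets X D hD.1.1 k (by rw [hD.1.2]; omega)
      rw [hXc, hD.1.2] at this
      have h5 : k + q - 1 - (k - 1) = q := by omega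
      rw [h5] at this
      exact this
    have h2 : ∀ Γ ∈ 𝒢, (Finset.bipartiteBelow (fun D Γ => D ⊆ Γ) 𝒟 Γ).card = a Γ₀ := by
      intro Γ hΓ
      rw [Finset.mem_powersetCard] at hΓ
      rw [← haconst Γ hΓ.2]
      congr 1
      ext D
      simp only [Finset.bipartiteBelow, Finset.mem_filter, Finset.mem_powersetCard, 𝒟]
      constructor
      · rintro ⟨⟨⟨_, h3⟩, h4⟩, h5⟩
        exact ⟨⟨h5, h3⟩, h4⟩
      · rintro ⟨⟨h3, h4⟩, h5⟩
        exact ⟨⟨⟨h3.trans hΓ.1, h4⟩, h5⟩, h3⟩
    rw [Finset.sum_congr rfl h1, Finset.sum_congr rfl h2, Finset.sum_const, Finset.sum_const,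
      smul_eq_mul, smul_eq_mul, Finset.card_powersetCard, hXc] at hcount
    -- Lucas
    have hl := choose_lucas p e m
    have e3 : m * p ^ e + p ^ e - 1 = k + q - 1 := by
      rw [hm, ← hqd]; ring_nf
    have e4 : m * p ^ e = k := by rw [hm, ← hqd]; ring
    rw [e3, e4] at hl
    have hcop : Nat.Coprime q ((k + q - 1).choose k) := by
      apply Nat.Coprime.pow_left
      rw [Nat.Prime.coprime_iff_not_dvd hp]
      intro h6
      have h7 := (Nat.modEq_zero_iff_dvd.2 h6).symm.trans hl
      have h8 : p ∣ 1 := (Nat.modEq_zero_iff_dvd.1 h7.symm)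
      exact hp.one_lt.ne' (Nat.dvd_one.1 h8)
    apply hcop.dvd_of_dvd_mul_left
    exact ⟨_, hcount.symm.trans (mul_comm _ _)⟩
  have hkdvd : k ∣ a Γ₀ := by
    rw [← Nat.factorization_prime_le_iff_dvd (by omega) hapos.ne']
    intro p hp
    rw [← hp.pow_dvd_iff_le_factorization hapos.ne']
    exact hdvd p _ hp (Nat.ordProj_dvd k p)
  have hak : a Γ₀ = k := le_antisymm hale2 (Nat.le_of_dvd hapos hkdvd)
  -- conclusion
  obtain ⟨Γ, hΓ1, hΓ2⟩ := Finset.exists_superset_card_eq (s := (y : Finset α)) (n := k) (by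
    have : (y : Finset α).card = k - 1 := y.2
    omega) (by exact hnk)
  have h9 : ((Finset.powersetCard (k - 1) Γ).filter P).card = (Finset.powersetCard (k - 1) Γ).card := by
    rw [Finset.card_powersetCard, hΓ2]
    have h2 : k.choose (k - 1) = k := by
      rw [Nat.choose_symm (by omega : 1 ≤ k)]
      simp
    rw [h2]
    show a Γ = k
    rw [haconst Γ hΓ2, hak]
  have hall : (Finset.powersetCard (k - 1) Γ).filter P = Finset.powersetCard (k - 1) Γ :=
    Finset.eq_of_subset_of_card_le (Finset.filter_subset P _) (le_of_eq h9.symm)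
  have hy : P (y : Finset α) := by
    have hm : (y : Finset α) ∈ (Finset.powersetCard (k - 1) Γ).filter P := by
      rw [hall, Finset.mem_powersetCard]
      exact ⟨hΓ1, y.2⟩
    exact (Finset.mem_filter.1 hm).2
  obtain ⟨g, hg⟩ := hy
  refine ⟨g, ?_⟩
  apply Subtype.ext
  exact hg

end Cfsg.Agent.S0736
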