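import Cfsg.Statements.S0743
import Mathlib

set_option autoImplicit false
open Cfsg

namespace Cfsg.Agent.S0743

theorem orbit_modEq {G α : Type*} [Group G] [Finite G] [MulAction G α] [Finite α] {p : ℕ} [Fact p.Prime]
    (P : Subgroup G) (hP : IsPGroup p P) (s : Set α) (hs : MulAction.fixedPoints P α = s) (a : α) :
    (MulAction.orbit G a).ncard ≡ (MulAction.orbit G a ∩ s).ncard [MOD p] := by
  classical
  have h1 := hP.card_modEq_card_fixedPoints (MulAction.orbit G a)
  rw [Nat.card_coe_set_eq] at h1
  have h2 : Nat.card (MulAction.fixedPoints P (MulAction.orbit G a)) = (MulAction.orbit G a ∩ s).ncard := by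
    rw [← Nat.card_coe_set_eq]
    apply Nat.card_congr
    refine ⟨fun x => ⟨x.1.1, x.1.2, ?_⟩, fun x => ⟨⟨x.1, x.2.1⟩, ?_⟩, fun x => rfl, fun x => rfl⟩
    · rw [← hs]
      intro g
      exact congrArg Subtype.val (x.2 g)
    · intro g
      have : x.1 ∈ MulAction.fixedPoints P α := by rw [hs]; exact x.2.2
      exact Subtype.ext (this g)
  rwa [h2] at h1

theorem gleason_transitive {G α : Type*} [Group G] [Finite G] [MulAction G α] [Finite α]
    {p k : ℕ} (hp : p.Prime) (hk : 1 ≤ k) (hkn : k < Nat.card α)
    (h : ∀ s : Finset α, s.card = k → ∃ P : Subgroup G, IsPGroup p P ∧ MulAction.fixedPoints P α = (s : Set α)) :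
    MulAction.IsPretransitive G α := by
  classical
  have := Fintype.ofFinite α
  rw [Nat.card_eq_fintype_card] at hkn
  have : Fact p.Prime := ⟨hp⟩
  refine ⟨fun a b => ?_⟩
  by_cases hab : a = b
  · exact ⟨1, by simp [hab]⟩
  by_contra hne
  have hb : b ∉ MulAction.orbit G a := fun ⟨g, hg⟩ => hne ⟨g, hg⟩
  -- a set of size `k - 1` avoiding `a` and `b`
  have hcard : k - 1 ≤ ((Finset.univ : Finset α) \ {a, b}).card := by
    have h1 : ((Finset.univ : Finset α) \ {a, b}).card = Fintype.card α - 2 := by
      rw [Finset.card_sdiff_of_subset (Finset.subset_univ _), Finset.card_univ, Finset.card_pair hab]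
    omega
  obtain ⟨S, hS, hScard⟩ := Finset.exists_subset_card_eq hcard
  have haS : a ∉ S := fun h => by simpa using hS h
  have hbS : b ∉ S := fun h => by simpa using hS h
  obtain ⟨P₁, hP₁, hfix₁⟩ := h (insert a S) (by rw [Finset.card_insert_of_notMem haS, hScard]; omega)
  obtain ⟨P₂, hP₂, hfix₂⟩ := h (insert b S) (by rw [Finset.card_insert_of_notMem hbS, hScard]; omega)
  have h1 := orbit_modEq P₁ hP₁ _ hfix₁ a
  have h2 := orbit_modEq P₂ hP₂ _ hfix₂ a
  set O := MulAction.orbit G a with hO
  have ha : a ∈ O := MulAction.mem_orbit_self a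
  have e1 : (O ∩ ((insert a S : Finset α) : Set α)).ncard = (O ∩ (S : Set α)).ncard + 1 := by
    have : O ∩ ((insert a S : Finset α) : Set α) = insert a (O ∩ (S : Set α)) := by
      ext x
      simp only [Set.mem_inter_iff, Finset.coe_insert, Set.mem_insert_iff, Finset.mem_coe]
      constructor
      · rintro ⟨h1, rfl | h2⟩
        · exact Or.inl rfl
        · exact Or.inr ⟨h1, h2⟩
      · rintro (rfl | ⟨h1, h2⟩)
        · exact ⟨ha, Or.inl rfl⟩
        · exact ⟨h1, Or.inr h2⟩
    rw [this, Set.ncard_insert_of_notMem (fun h => haS h.2) (Set.toFinite _)]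
  have e2 : (O ∩ ((insert b S : Finset α) : Set α)).ncard = (O ∩ (S : Set α)).ncard := by
    congr 1
    ext x
    simp only [Set.mem_inter_iff, Finset.coe_insert, Set.mem_insert_iff, Finset.mem_coe]
    constructor
    · rintro ⟨h1, rfl | h2⟩
      · exact absurd h1 hb
      · exact ⟨h1, h2⟩
    · rintro ⟨h1, h2⟩
      exact ⟨h1, Or.inr h2⟩
  rw [e1] at h1
  rw [e2] at h2
  have h3 : (O ∩ (S : Set α)).ncard + 1 ≡ (O ∩ (S : Set α)).ncard + 0 [MOD p] := h1.symm.trans h2
  have h4 := Nat.ModEq.add_left_cancel' _ h3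
  have h5 : p ∣ 1 := (Nat.modEq_zero_iff_dvd).mp h4
  exact hp.one_lt.ne' (Nat.dvd_one.mp h5)

theorem gleason_aux.{u, v} {p : ℕ} (hp : p.Prime) (k : ℕ) : ∀ (G : Type u) (α : Type v) [Group G] [Finite G] [MulAction G α] [Finite α],
    1 ≤ k → k < Nat.card α →
    (∀ s : Finset α, s.card = k → ∃ P : Subgroup G, IsPGroup p P ∧ MulAction.fixedPoints P α = (s : Set α)) →
    MulAction.IsMultiplyPretransitive G α k := by
  classical
  induction k with
  | zero => intro G α _ _ _ _ hk; omega
  | succ j ih =>
    intro G α _ _ _ _ hk hkn h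
    have htr := gleason_transitive hp hk hkn h
    by_cases hj : j = 0
    · subst hj
      rw [show (0 + 1 : ℕ) = 1 from rfl, MulAction.is_one_pretransitive_iff]
      exact htr
    obtain ⟨a⟩ : Nonempty α := by
      have : Nat.card α ≠ 0 := by omega
      exact (Nat.card_ne_zero.mp this).1
    rw [SubMulAction.ofStabilizer.isMultiplyPretransitive (a := a)]
    have hc : Nat.card (SubMulAction.ofStabilizer G a) + 1 = Nat.card α :=
      SubMulAction.nat_card_ofStabilizer_add_one_eq G a
    apply ih (MulAction.stabilizer G a) (SubMulAction.ofStabilizer G a) (by omega) (by omega)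
    intro s' hs'
    have hmap : a ∉ s'.map (Function.Embedding.subtype _) := by
      intro ha
      rw [Finset.mem_map] at ha
      obtain ⟨x, _, hx⟩ := ha
      have hx2 : (x : α) ∈ SubMulAction.ofStabilizer G a := x.2
      rw [SubMulAction.mem_ofStabilizer_iff] at hx2
      exact hx2 hx
    obtain ⟨P, hP, hfix⟩ := h (insert a (s'.map (Function.Embedding.subtype _)))
      (by rw [Finset.card_insert_of_notMem hmap, Finset.card_map, hs'])
    have haP : a ∈ MulAction.fixedPoints P α := by
      rw [hfix]; simp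
    have hle : P ≤ MulAction.stabilizer G a := fun g hg => haP ⟨g, hg⟩
    refine ⟨P.subgroupOf (MulAction.stabilizer G a), ?_, ?_⟩
    · exact IsPGroup.comap_subtype hP
    · ext x
      constructor
      · intro hx
        have h1 : (x : α) ∈ MulAction.fixedPoints P α := by
          rintro ⟨g, hg⟩
          have := hx ⟨⟨g, hle hg⟩, hg⟩
          exact congrArg Subtype.val this
        rw [hfix] at h1
        simp only [Finset.coe_insert, Finset.coe_map, Set.mem_insert_iff, Set.mem_image, Finset.mem_coe] at h1
        rcases h1 with h1 | ⟨y, hy, hyx⟩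
        · have hx2 : (x : α) ∈ SubMulAction.ofStabilizer G a := x.2
          rw [SubMulAction.mem_ofStabilizer_iff] at hx2
          exact absurd h1 hx2
        · have : y = x := Subtype.ext hyx
          rw [← this]
          exact hy
      · intro hx
        have h1 : (x : α) ∈ MulAction.fixedPoints P α := by
          rw [hfix]
          simp only [Finset.coe_insert, Finset.coe_map, Set.mem_insert_iff, Set.mem_image, Finset.mem_coe]
          exact Or.inr ⟨x, hx, rfl⟩
        rintro ⟨⟨g, hg⟩, hg2⟩
        apply Subtype.ext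
        exact h1 ⟨g, hg2⟩

/-- Gleason's Lemma: let `p` be a prime and `1 ≤ k < n`; if every `k`-subset of the `n` points is exactly the fixed-point set of some `p`-subgroup of `G`, then `G` is `k`-transitive. -/
theorem result {α : Type*} [Fintype α] [DecidableEq α] (G : Subgroup (Equiv.Perm α)) {p k : ℕ} (hp : p.Prime) (hk : 1 ≤ k) (hkn : k < Fintype.card α) (h : ∀ s : Finset α, s.card = k → ∃ P : Subgroup G, IsPGroup p P ∧ MulAction.fixedPoints P α = (s : Set α)) : MulAction.IsMultiplyPretransitive G α k := by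
  exact gleason_aux hp k G α hk (by rwa [Nat.card_eq_fintype_card]) h

end Cfsg.Agent.S0743
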