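import Cfsg.Statements.S0744
import Mathlib
import Cfsg.Agent.Lib.H03.Orbit
import Cfsg.Agent.Lib.H03.MultTrans

set_option autoImplicit false
open Cfsg

namespace Cfsg.Agent.S0744

open MulAction in
theorem card_orbit_fixing {α : Type*} [Finite α] (G : Subgroup (Equiv.Perm α)) (u : Set α) (x : α) :
    (orbit (fixingSubgroup G u) x).ncard * Nat.card (fixingSubgroup G (insert x u)) = Nat.card (fixingSubgroup G u) := by
  have : Finite G := inferInstance
  have : Fintype (fixingSubgroup G u) := Fintype.ofFinite _
  have : Fintype (orbit (fixingSubgroup G u) x) := Fintype.ofFinite _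
  have : Fintype (stabilizer (fixingSubgroup G u) x) := Fintype.ofFinite _
  have h := card_orbit_mul_card_stabilizer_eq_card_group (fixingSubgroup G u) x
  rw [← Nat.card_eq_fintype_card, ← Nat.card_eq_fintype_card, ← Nat.card_eq_fintype_card,
    Cfsg.Agent.H03.card_stabilizer_fixing, Nat.card_coe_set_eq] at h
  exact h

open MulAction in
/-- The key transitivity step. -/
theorem top_step {α : Type*} [Fintype α] [DecidableEq α] (G : Subgroup (Equiv.Perm α)) {k : ℕ}
    (hk : 1 < k) (hkn : k ≤ Fintype.card α) (l m : ℕ) (hl : 1 < l)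
    (hkm1 : ∀ s : Finset α, s.card = k - 1 → Nat.card (fixingSubgroup G (s : Set α)) = l)
    (hkm : ∀ s : Finset α, s.card = k → Nat.card (fixingSubgroup G (s : Set α)) = m)
    (t : Finset α) (ht : t.card = k - 2) (a b : α) (ha : a ∉ t) (hb : b ∉ t) :
    ∃ g ∈ fixingSubgroup G (t : Set α), g • a = b := by
  classical
  by_contra hne
  have hab : a ≠ b := by
    rintro rfl
    exact hne ⟨1, one_mem _, one_smul _ _⟩
  set H := fixingSubgroup G (t : Set α) with hH
  set K := fixingSubgroup G ((insert a t : Finset α) : Set α) with hK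
  have hcardat : (insert a t).card = k - 1 := by rw [Finset.card_insert_of_notMem ha, ht]; omega
  have hKl : Nat.card K = l := hkm1 _ hcardat
  have hKH : ∀ g : K, (g : G) ∈ H := by
    intro g
    rw [hH, mem_fixingSubgroup_iff]
    intro y hy
    exact (mem_fixingSubgroup_iff G).mp g.2 y (by simp only [Finset.coe_insert]; exact Set.mem_insert_of_mem _ hy)
  have hKa : ∀ g : K, (g : G) • a = a := by
    intro g
    exact (mem_fixingSubgroup_iff G).mp g.2 a (by simp)
  -- orbit sizes
  have hA : ∀ x, x ∉ t → (orbit H x).ncard * l = Nat.card H := by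
    intro x hx
    have h1 := card_orbit_fixing G (t : Set α) x
    have h2 := hkm1 (insert x t) (by rw [Finset.card_insert_of_notMem hx, ht]; omega)
    simp only [Finset.coe_insert] at h2
    rw [h2] at h1
    exact h1
  have hB : ∀ y, y ∉ insert a t → (orbit K y).ncard * m = l := by
    intro y hy
    have h1 := card_orbit_fixing G ((insert a t : Finset α) : Set α) y
    have h2 := hkm (insert y (insert a t)) (by rw [Finset.card_insert_of_notMem hy, hcardat]; omega)
    simp only [Finset.coe_insert] at h2 h1
    rw [h2] at h1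
    rw [← hKl, hK]
    simpa using h1
  obtain ⟨y₀, hy₀⟩ : ∃ y, y ∉ insert a t := by
    by_contra hall
    push Not at hall
    have : insert a t = Finset.univ := Finset.eq_univ_iff_forall.mpr hall
    rw [this, Finset.card_univ] at hcardat
    omega
  have hmpos : 0 < m := by
    rcases Nat.eq_zero_or_pos m with h | h
    · have := hB y₀ hy₀
      rw [h] at this
      omega
    · exact h
  set d := (orbit K y₀).ncard with hd
  have hdall : ∀ y, y ∉ insert a t → (orbit K y).ncard = d := by
    intro y hy
    have h1 := hB y hy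
    have h2 := hB y₀ hy₀
    exact Nat.eq_of_mul_eq_mul_right hmpos (h1.trans h2.symm)
  -- `d ≠ 1`
  have hd1 : d ≠ 1 := by
    intro hd1
    have htriv : ∀ g : K, g = 1 := by
      intro g
      apply Subtype.ext
      apply Subtype.ext
      apply Equiv.ext
      intro y
      by_cases hy : y ∈ insert a t
      · exact (mem_fixingSubgroup_iff G).mp g.2 y hy
      · have h1 := hdall y hy
        rw [hd1, Set.ncard_eq_one] at h1
        obtain ⟨z, hz⟩ := h1
        have h2 : y ∈ orbit K y := mem_orbit_self y
        have h3 : g • y ∈ orbit K y := mem_orbit _ _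
        rw [hz] at h2 h3
        exact h3.trans h2.symm
    have : Nat.card K = 1 := by
      rw [Nat.card_eq_one_iff_unique]
      exact ⟨⟨fun x y => by rw [htriv x, htriv y]⟩, ⟨1⟩⟩
    omega
  -- the two invariant sets
  have hOa : ∀ y ∈ orbit H a, y ∉ t := by
    rintro _ ⟨h, rfl⟩ hy
    have h1 : (h : G) • ((h : G) • a) = (h : G) • a := (mem_fixingSubgroup_iff G).mp h.2 _ hy
    apply ha
    have h2 := smul_left_cancel (h : G) h1
    have h3 : a ∈ (t : Set α) := by
      rw [← h2]
      exact hy
    exact h3
  have hOb : ∀ y ∈ orbit H b, y ∉ insert a t := by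
    rintro _ ⟨h, rfl⟩ hy
    rw [Finset.mem_insert] at hy
    rcases hy with hy | hy
    · apply hne
      refine ⟨(h : G)⁻¹, H.inv_mem h.2, ?_⟩
      have : (h : G) • b = a := hy
      rw [← this]
      simp
    · have h1 : (h : G) • ((h : G) • b) = (h : G) • b := (mem_fixingSubgroup_iff G).mp h.2 _ hy
      apply hb
      have h2 := smul_left_cancel (h : G) h1
      have h3 : b ∈ (t : Set α) := by
        rw [← h2]
        exact hy
      exact h3
  have hX₂ : d ∣ (orbit H b).ncard := by
    apply Cfsg.Agent.H03.dvd_ncard_of_invariant (G := K)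
    · rintro g _ ⟨h, rfl⟩
      exact ⟨⟨g, hKH g⟩ * h, mul_smul _ _ _⟩
    · intro x hx
      rw [hdall x (hOb x hx)]
  have hX₁ : d ∣ (orbit H a \ {a}).ncard := by
    apply Cfsg.Agent.H03.dvd_ncard_of_invariant (G := K)
    · rintro g _ ⟨⟨h, rfl⟩, hx⟩
      refine ⟨⟨⟨g, hKH g⟩ * h, mul_smul _ _ _⟩, ?_⟩
      intro hx2
      apply hx
      have hx3 : (g : G) • (h • a) = (g : G) • a := by
        rw [hKa g]
        exact hx2
      exact smul_left_cancel (g : G) hx3
    · rintro x ⟨hx1, hx2⟩
      apply dvd_of_eq
      rw [hdall x]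
      intro hx3
      rw [Finset.mem_insert] at hx3
      rcases hx3 with hx3 | hx3
      · exact hx2 hx3
      · exact hOa x hx1 hx3
  have hlpos : 0 < l := by omega
  have heq : (orbit H a).ncard = (orbit H b).ncard :=
    Nat.eq_of_mul_eq_mul_right hlpos ((hA a ha).trans (hA b hb).symm)
  have hapos : 0 < (orbit H a).ncard := by
    rw [Set.ncard_pos (Set.toFinite _)]
    exact ⟨a, mem_orbit_self a⟩
  rw [Set.ncard_sdiff_singleton_of_mem (mem_orbit_self a)] at hX₁
  rw [← heq] at hX₂
  have h5 : d ∣ 1 := by
    have h6 : (orbit H a).ncard = ((orbit H a).ncard - 1) + 1 := by omega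
    rw [h6] at hX₂
    exact (Nat.dvd_add_right hX₁).mp hX₂
  exact hd1 (Nat.dvd_one.mp h5)

open MulAction in
theorem down_step {α : Type*} [Fintype α] [DecidableEq α] (G : Subgroup (Equiv.Perm α)) {k : ℕ}
    (hk : 1 < k) (hkn : k ≤ Fintype.card α) (l m : ℕ) (hl : 1 < l)
    (hkm1 : ∀ s : Finset α, s.card = k - 1 → Nat.card (fixingSubgroup G (s : Set α)) = l)
    (hkm : ∀ s : Finset α, s.card = k → Nat.card (fixingSubgroup G (s : Set α)) = m) :
    ∀ (i j : ℕ), j + i = k - 2 → ∀ t : Finset α, t.card = j → ∀ a b : α, a ∉ t → b ∉ t →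
      ∃ g ∈ fixingSubgroup G (t : Set α), g • a = b := by
  classical
  intro i
  induction i with
  | zero =>
    intro j hj t ht a b ha hb
    exact top_step G hk hkn l m hl hkm1 hkm t (by omega) a b ha hb
  | succ i ih =>
    intro j hj t ht a b ha hb
    by_cases hab : a = b
    · exact ⟨1, one_mem _, by simp [hab]⟩
    obtain ⟨c, hc⟩ : ∃ c, c ∉ insert a (insert b t) := by
      by_contra hall
      push Not at hall
      have h1 : insert a (insert b t) = Finset.univ := Finset.eq_univ_iff_forall.mpr hall
      have h2 : (insert a (insert b t)).card ≤ j + 2 := by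
        calc _ ≤ (insert b t).card + 1 := Finset.card_insert_le _ _
          _ ≤ t.card + 1 + 1 := by gcongr; exact Finset.card_insert_le _ _
          _ = j + 2 := by rw [ht]
      rw [h1, Finset.card_univ] at h2
      omega
    simp only [Finset.mem_insert, not_or] at hc
    have hct : c ∉ t := hc.2.2
    obtain ⟨g, hg, hgab⟩ := ih (j + 1) (by omega) (insert c t) (by rw [Finset.card_insert_of_notMem hct, ht])
      a b (by simp [Ne.symm hc.1, ha]) (by simp [Ne.symm hc.2.1, hb])
    refine ⟨g, ?_, hgab⟩
    rw [mem_fixingSubgroup_iff]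
    intro y hy
    exact (mem_fixingSubgroup_iff G).mp hg y (by simp only [Finset.coe_insert]; exact Set.mem_insert_of_mem _ hy)

/-- If for some `k > 1` the pointwise stabilisers of all `(k-1)`-subsets have the same order `> 1` and those of all `k`-subsets have the same order, then the group is `(k-1)`-transitive. -/
theorem result {α : Type*} [Fintype α] [DecidableEq α] (G : Subgroup (Equiv.Perm α)) {k : ℕ} (hk : 1 < k) (hkn : k ≤ Fintype.card α) (l m : ℕ) (hl : 1 < l) (hkm1 : ∀ s : Finset α, s.card = k - 1 → Nat.card (fixingSubgroup G (s : Set α)) = l) (hkm : ∀ s : Finset α, s.card = k → Nat.card (fixingSubgroup G (s : Set α)) = m) : MulAction.IsMultiplyPretransitive G α (k - 1) := by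
  classical
  have hup : ∀ j, j ≤ k - 1 → MulAction.IsMultiplyPretransitive G α j := by
    intro j
    induction j with
    | zero => exact fun _ => MulAction.is_zero_pretransitive'
    | succ j ih =>
      intro hj
      have hjle : j ≤ (Finset.univ : Finset α).card := by
        rw [Finset.card_univ]; omega
      obtain ⟨t, _, ht⟩ := Finset.exists_subset_card_eq hjle
      apply Cfsg.Agent.H03.isMultiplyPretransitive_add_of_fixing (t : Set α) t.finite_toSet (by
        rw [Set.ncard_coe_finset, ht]) (ih (by omega))
      rw [MulAction.is_one_pretransitive_iff]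
      refine ⟨fun x y => ?_⟩
      have hx : (x : α) ∉ t := by
        have := x.2
        rw [SubMulAction.mem_ofFixingSubgroup_iff] at this
        exact this
      have hy : (y : α) ∉ t := by
        have := y.2
        rw [SubMulAction.mem_ofFixingSubgroup_iff] at this
        exact this
      obtain ⟨g, hg, hgxy⟩ := down_step G hk hkn l m hl hkm1 hkm (k - 2 - j) j (by omega) t ht x y hx hy
      exact ⟨⟨g, hg⟩, Subtype.ext hgxy⟩
  exact hup _ le_rfl

end Cfsg.Agent.S0744
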