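import Cfsg.Statements.S0753
import Mathlib

set_option autoImplicit false
open Cfsg

namespace Cfsg.Agent.S0753

/-- If σ is a ring endomorphism of the field F other than the identity and B is a σ-sesquilinear conjugate-symmetric form with B v v = 0 for every v, then B = 0. -/
theorem result {F V : Type*} [Field F] [AddCommGroup V] [Module F V] (σ : F →+* F) (hσ : σ ≠ RingHom.id F) (B : V →ₛₗ[σ] V →ₗ[F] F) (hS : B.IsSymm) (h0 : ∀ v : V, B v v = 0) : B = 0 := by
  have halt : ∀ x y : V, B x y = - B y x := by
    intro x y
    have h := h0 (x + y)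
    simp only [map_add, LinearMap.add_apply, h0, zero_add, add_zero] at h
    exact eq_neg_of_add_eq_zero_right h
  obtain ⟨a, ha⟩ : ∃ a : F, σ a ≠ a := by
    by_contra hcon
    push Not at hcon
    exact hσ (RingHom.ext hcon)
  ext x y
  have h1 : B x (a • y) = a * B x y := by simp
  have h2 : B (a • y) x = σ a * B y x := by simp
  have h3 : a * B x y = σ a * B x y := by
    have := halt x (a • y)
    rw [h1, h2] at this
    rw [this, halt x y]
    ring
  have h4 : (a - σ a) * B x y = 0 := by
    rw [sub_mul, h3]; ring
  have h5 : a - σ a ≠ 0 := sub_ne_zero.mpr (Ne.symm ha)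
  simpa [h5] using h4

end Cfsg.Agent.S0753
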