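import Cfsg.Statements.S0754
import Mathlib

set_option autoImplicit false
open Cfsg

namespace Cfsg.Agent.S0754


/-- In a field F with q^2 elements, every non-zero μ with μ^q = μ (that is, μ in the subfield of order q) has exactly q + 1 solutions λ of λ^(q+1) = μ. -/
theorem result {F : Type*} [Field F] [Fintype F] {q : ℕ} (hF : Fintype.card F = q ^ 2) (μ : F) (hμ : μ ≠ 0) (hμq : μ ^ q = μ) : Nat.card {x : F // x ^ (q + 1) = μ} = q + 1 := by
  classical
  have hq0 : 0 < q := by
    rcases Nat.eq_zero_or_pos q with h | h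
    · subst h
      have := Fintype.card_pos (α := F)
      simp at hF
    · exact h
  have hq1 : 2 ≤ q := by
    by_contra hlt
    have : q = 1 := by omega
    subst this
    have := Fintype.one_lt_card (α := F)
    omega
  have hcardU : Nat.card Fˣ = (q + 1) * (q - 1) := by
    rw [Nat.card_eq_fintype_card, Fintype.card_units, hF]
    obtain ⟨r, rfl⟩ : ∃ r, q = r + 1 := ⟨q - 1, by omega⟩
    simp only [Nat.add_sub_cancel]
    have : (r + 1) ^ 2 - 1 = (r + 1 + 1) * r := by
      have : (r + 1) ^ 2 = (r + 1 + 1) * r + 1 := by ring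
      omega
    exact this
  let u : Fˣ := Units.mk0 μ hμ
  have hu : u ^ (q - 1) = 1 := by
    apply Units.ext
    simp only [Units.val_pow_eq_pow_val, Units.val_one]
    change μ ^ (q - 1) = 1
    have h1 : μ ^ q = μ ^ (q - 1) * μ := by
      rw [← pow_succ]; congr 1; omega
    rw [h1] at hμq
    exact mul_right_cancel₀ hμ (by simpa using hμq)
  obtain ⟨g, hg⟩ := IsCyclic.exists_generator (α := Fˣ)
  have hog : orderOf g = (q + 1) * (q - 1) := by
    rw [orderOf_eq_card_of_forall_mem_zpowers hg, hcardU]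
  obtain ⟨k, hk⟩ : ∃ k : ℕ, g ^ k = u := by
    have := (mem_powers_iff_mem_zpowers.mpr (hg u))
    exact this
  have hdvd : (q + 1) ∣ k := by
    have h1 : g ^ (k * (q - 1)) = 1 := by rw [pow_mul, hk, hu]
    have h2 := orderOf_dvd_of_pow_eq_one h1
    rw [hog] at h2
    exact Nat.dvd_of_mul_dvd_mul_right (by omega : 0 < q - 1) h2
  obtain ⟨m, rfl⟩ := hdvd
  set x₀ : Fˣ := g ^ m with hx₀
  have hx₀u : x₀ ^ (q + 1) = u := by
    rw [hx₀, ← pow_mul, mul_comm, hk]
  have hker : Nat.card (powMonoidHom (q + 1) : Fˣ →* Fˣ).ker = q + 1 := by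
    rw [IsCyclic.card_powMonoidHom_ker, hcardU]
    exact Nat.gcd_eq_right (Dvd.intro _ rfl)
  refine Eq.trans ?_ hker
  symm
  apply Nat.card_eq_of_bijective (fun z : (powMonoidHom (q + 1) : Fˣ →* Fˣ).ker =>
    (⟨((x₀ * z.1 : Fˣ) : F), by
      have h1 : (z.1 : Fˣ) ^ (q + 1) = 1 := z.2
      have h2 : (x₀ * z.1) ^ (q + 1) = u := by rw [mul_pow, hx₀u, h1, mul_one]
      have h3 := congrArg (Units.val) h2
      simp only [Units.val_pow_eq_pow_val] at h3
      exact h3⟩ : {x : F // x ^ (q + 1) = μ}))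
  constructor
  · intro a b h
    have h1 : ((x₀ * a.1 : Fˣ) : F) = ((x₀ * b.1 : Fˣ) : F) := congrArg Subtype.val h
    have h2 : x₀ * a.1 = x₀ * b.1 := Units.ext h1
    exact Subtype.ext (mul_left_cancel h2)
  · rintro ⟨x, hx⟩
    have hx0 : x ≠ 0 := by
      rintro rfl
      rw [zero_pow (by omega)] at hx
      exact hμ hx.symm
    let y : Fˣ := Units.mk0 x hx0
    have hy : y ^ (q + 1) = u := by
      apply Units.ext
      simpa [y, u] using hx
    refine ⟨⟨x₀⁻¹ * y, ?_⟩, ?_⟩
    · change (x₀⁻¹ * y) ^ (q + 1) = 1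
      rw [mul_pow, hy, inv_pow, hx₀u, inv_mul_cancel]
    · apply Subtype.ext
      simp [y]

end Cfsg.Agent.S0754
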