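import Cfsg.Statements.S0756
import Mathlib
import Cfsg.Agent.Lib.H11.QF4

set_option autoImplicit false
open Cfsg

namespace Cfsg.Agent.S0756


/-- Classification of symmetric bilinear forms over finite fields of odd characteristic: if B is non-degenerate symmetric on V of dimension n + 1 and α is a fixed non-square of F, there is an orthogonal basis b_0, ..., b_n with B(b_i, b_i) = 1 for i < n and B(b_n, b_n) ∈ {1, α}. -/
theorem result {F V : Type*} [Field F] [Finite F] [AddCommGroup V] [Module F V] [FiniteDimensional F V] (h2 : (2 : F) ≠ 0) (B : LinearMap.BilinForm F V) (hS : B.IsSymm) (hB : B.Nondegenerate) {n : ℕ} (hn : Module.finrank F V = n + 1) (α : F) (hα : ¬ IsSquare α) : ∃ b : Module.Basis (Fin (n + 1)) F V, (∀ i j, i ≠ j → B (b i) (b j) = 0) ∧ (∀ i, i ≠ Fin.last n → B (b i) (b i) = 1) ∧ (B (b (Fin.last n)) (b (Fin.last n)) = 1 ∨ B (b (Fin.last n)) (b (Fin.last n)) = α) := by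
  classical
  open Module QuadraticMap in
  haveI : Fintype F := Fintype.ofFinite F
  let Q : QuadraticForm F V := B.toQuadraticMap
  have hQ : ∀ x, Q x = B x x := fun x => rfl
  have hp : ∀ x y, polar Q x y = 2 * B x y := by
    intro x y
    have e : B y x = B x y := hS.eq y x
    simp only [polar, hQ, map_add, LinearMap.add_apply]
    rw [e]
    ring
  have hnd : (polarBilin Q).Nondegenerate := by
    apply Cfsg.Agent.H11.nondeg_of_left
    intro x hx
    apply hB.1
    intro y
    have := hx y
    rw [hp] at this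
    exact (mul_eq_zero.mp this).resolve_left h2
  obtain ⟨v, z, h1, h3, h4, h5⟩ := Cfsg.Agent.H11.exists_orth_family h2 n V Q hn hnd
  have hB1 : ∀ i, B (v i) (v i) = 1 := h1
  have hB2 : ∀ i j, i ≠ j → B (v i) (v j) = 0 := by
    intro i j hij
    have := h3 i j hij
    rw [hp] at this
    exact (mul_eq_zero.mp this).resolve_left h2
  have hB3 : ∀ i, B (v i) z = 0 := by
    intro i
    have := h4 i
    rw [hp] at this
    exact (mul_eq_zero.mp this).resolve_left h2
  have hB4 : B z z ≠ 0 := h5
  have hα0 : α ≠ 0 := by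
    rintro rfl
    exact hα IsSquare.zero
  -- scale z
  obtain ⟨s, hs0, hs⟩ : ∃ s : F, s ≠ 0 ∧ (B z z = s ^ 2 ∨ B z z = s ^ 2 * α) := by
    by_cases hc : IsSquare (B z z)
    · obtain ⟨s, hs⟩ := hc
      refine ⟨s, ?_, Or.inl (by rw [hs]; ring)⟩
      rintro rfl
      apply hB4
      rw [hs]; ring
    · have hodd : ringChar F ≠ 2 := by
        intro h
        apply h2
        have := ringChar.Nat.cast_ringChar (R := F)
        rw [h] at this
        exact_mod_cast this
      have hcα : IsSquare (B z z * α) := by
        rw [← quadraticChar_one_iff_isSquare (mul_ne_zero hB4 hα0), map_mul,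
          (quadraticChar_neg_one_iff_not_isSquare).mpr hc, (quadraticChar_neg_one_iff_not_isSquare).mpr hα]
        norm_num
      obtain ⟨r, hr⟩ := hcα
      have hr0 : r ≠ 0 := by
        rintro rfl
        simp at hr
        tauto
      refine ⟨r / α, div_ne_zero hr0 hα0, Or.inr ?_⟩
      field_simp
      linear_combination hr
  set z' : V := s⁻¹ • z with hz'
  have hz1 : B z' z' = 1 ∨ B z' z' = α := by
    have e : B z' z' = s⁻¹ * s⁻¹ * B z z := by
      simp [hz', mul_assoc]
    rcases hs with hs | hs
    · left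
      rw [e, hs]
      field_simp
    · right
      rw [e, hs]
      field_simp
  have hz2 : ∀ i, B (v i) z' = 0 := by
    intro i
    simp [hz', hB3 i]
  have hz3 : ∀ i, B z' (v i) = 0 := by
    intro i
    have e : B (v i) z' = B z' (v i) := hS.eq (v i) z'
    rw [← e]; exact hz2 i
  let b0 : Fin (n + 1) → V := Fin.snoc (α := fun _ => V) v z'
  have hbl : b0 (Fin.last n) = z' := by simp [b0]
  have hbc : ∀ i : Fin n, b0 i.castSucc = v i := by intro i; simp [b0]
  have horth : ∀ i j, i ≠ j → B (b0 i) (b0 j) = 0 := by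
    intro i j
    refine Fin.lastCases ?_ (fun i => ?_) i <;> refine Fin.lastCases ?_ (fun j => ?_) j
    · intro h; exact absurd rfl h
    · intro _
      rw [hbl, hbc]; exact hz3 j
    · intro _
      rw [hbl, hbc]; exact hz2 i
    · intro h
      rw [hbc, hbc]
      exact hB2 i j (fun e => h (by rw [e]))
  have hnorm : ∀ i, B (b0 i) (b0 i) ≠ 0 := by
    intro i
    refine Fin.lastCases ?_ (fun i => ?_) i
    · rw [hbl]
      rcases hz1 with h | h <;> rw [h]
      · exact one_ne_zero
      · exact hα0
    · rw [hbc, hB1]; exact one_ne_zero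
  have hli : LinearIndependent F b0 := by
    apply LinearMap.BilinForm.linearIndependent_of_iIsOrtho (B := B)
    · intro i j hij
      exact horth i j hij
    · intro i h
      exact hnorm i h
  let b : Module.Basis (Fin (n + 1)) F V :=
    basisOfLinearIndependentOfCardEqFinrank hli (by simp [hn])
  have hb : ∀ i, b i = b0 i := by
    intro i
    simp [b]
  refine ⟨b, ?_, ?_, ?_⟩
  · intro i j hij
    rw [hb, hb]; exact horth i j hij
  · intro i hi
    obtain ⟨j, rfl⟩ : ∃ j : Fin n, i = j.castSucc := by
      refine Fin.lastCases (fun h => absurd rfl h) (fun j _ => ⟨j, rfl⟩) i hi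
    rw [hb, hbc, hB1]
  · rw [hb, hbl]; exact hz1

end Cfsg.Agent.S0756
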