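import Cfsg.Statements.S0757
import Mathlib

set_option autoImplicit false
open Cfsg

namespace Cfsg.Agent.S0757

theorem toMatrix_wss {ι : Type*} [Fintype ι] [DecidableEq ι] {F : Type*} [Field F] [Invertible (2 : F)]
    (w : ι → F) : QuadraticForm.toMatrix' (QuadraticMap.weightedSumSquares F w) = Matrix.diagonal w := by
  ext i j
  simp only [QuadraticForm.toMatrix']
  rw [LinearMap.toMatrix₂'_apply]
  by_cases hij : i = j
  · subst hij
    rw [QuadraticMap.associated_eq_self_apply, QuadraticMap.weightedSumSquares_apply]
    simp [Pi.single_apply]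
  · rw [QuadraticMap.associated_apply, QuadraticMap.weightedSumSquares_apply, QuadraticMap.weightedSumSquares_apply, QuadraticMap.weightedSumSquares_apply]
    rw [Matrix.diagonal_apply_ne _ hij]
    have h : ∀ k, w k • ((Pi.single i (1:F) + Pi.single j (1:F) : ι → F) k * (Pi.single i (1:F) + Pi.single j (1:F) : ι → F) k) = w k • ((Pi.single i (1:F) : ι → F) k * (Pi.single i (1:F) : ι → F) k) + w k • ((Pi.single j (1:F) : ι → F) k * (Pi.single j (1:F) : ι → F) k) := by
      intro k
      by_cases h1 : k = i
      · subst h1
        simp [Pi.single_apply, hij]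
      · by_cases h2 : k = j
        · subst h2
          simp [Pi.single_apply, h1]
        · simp [Pi.single_apply, h1, h2]
    simp_rw [h, Finset.sum_add_distrib]
    simp

/-- The two diagonal forms Σ x_i^2 and Σ_(i<n) x_i^2 + α x_n^2 on F^(n+1), with α a non-square and 2 ≠ 0 in F, are inequivalent quadratic forms (so over a finite field of odd order there are exactly two classes of non-singular symmetric bilinear forms in each dimension). -/
theorem result {F : Type*} [Field F] (h2 : (2 : F) ≠ 0) (n : ℕ) (α : F) (hα : ¬ IsSquare α) : ¬ (QuadraticMap.weightedSumSquares F (fun _ : Fin (n + 1) => (1 : F))).Equivalent (QuadraticMap.weightedSumSquares F (fun i : Fin (n + 1) => if i = Fin.last n then α else (1 : F))) := by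
  classical
  intro ⟨f⟩
  letI : Invertible (2 : F) := invertibleOfNonzero h2
  have h1 : (QuadraticMap.weightedSumSquares F (fun _ : Fin (n + 1) => (1 : F))) =
      (QuadraticMap.weightedSumSquares F (fun i : Fin (n + 1) => if i = Fin.last n then α else (1 : F))).comp f.toLinearEquiv.toLinearMap := by
    ext x
    exact (f.map_app x).symm
  have h2' := congrArg QuadraticForm.discr' h1
  rw [QuadraticForm.discr'_comp] at h2'
  simp only [QuadraticForm.discr', toMatrix_wss, Matrix.det_diagonal] at h2'
  rw [Finset.prod_const_one, Finset.prod_ite_eq' Finset.univ (Fin.last n) (fun _ => α)] at h2'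
  simp only [Finset.mem_univ, if_true] at h2'
  apply hα
  set d := (LinearMap.toMatrix' f.toLinearEquiv.toLinearMap).det with hd
  have hd0 : d ≠ 0 := by
    rintro h0
    rw [h0] at h2'
    simp at h2'
  refine ⟨d⁻¹, ?_⟩
  field_simp
  linear_combination -h2'

end Cfsg.Agent.S0757
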