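import Cfsg.Statements.S0759
import Mathlib
import Cfsg.Agent.Lib.H11.Disc

set_option autoImplicit false
open Cfsg

namespace Cfsg.Agent.S0759

open Module Matrix

theorem exists_ts {F : Type*} [Field F] {S T J : Type} [Fintype S] [Fintype T] [Fintype J] [DecidableEq S] [DecidableEq T] [DecidableEq J]
    (C : T → S → F) (hC : ∀ y : S → F, ∑ t, (∑ s, C t s * y s) ^ 2 = 0)
    (hinj : ∀ y : S → F, (∀ t, ∑ s, C t s * y s = 0) → y = 0) (m : ℕ)
    (hcard : Fintype.card S * Fintype.card J = m) (hcard2 : Fintype.card T * Fintype.card J = 2 * m) :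
    ∃ W : Submodule F (Fin (2 * m) → F), Module.finrank F W = m ∧ ∀ w ∈ W, ∑ i, w i ^ 2 = 0 := by
  classical
  let e : (T × J) ≃ Fin (2 * m) := Fintype.equivFinOfCardEq (by rw [Fintype.card_prod, hcard2])
  let L : ((S × J) → F) →ₗ[F] (Fin (2 * m) → F) :=
    { toFun := fun x k => ∑ s, C (e.symm k).1 s * x (s, (e.symm k).2)
      map_add' := by
        intro x y
        ext k
        simp [mul_add, Finset.sum_add_distrib]
      map_smul' := by
        intro c x
        ext k
        simp [Finset.mul_sum, mul_left_comm] }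
  have hL : ∀ x k, L x k = ∑ s, C (e.symm k).1 s * x (s, (e.symm k).2) := fun _ _ => rfl
  have hLinj : Function.Injective L := by
    rw [injective_iff_map_eq_zero]
    intro x hx
    ext ⟨s, j⟩
    have h1 : (fun s => x (s, j)) = 0 := by
      apply hinj
      intro t
      have := congrFun hx (e (t, j))
      rw [hL] at this
      simpa using this
    exact congrFun h1 s
  refine ⟨LinearMap.range L, ?_, ?_⟩
  · rw [LinearMap.finrank_range_of_inj hLinj, Module.finrank_fintype_fun_eq_card, Fintype.card_prod, hcard]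
  · rintro _ ⟨x, rfl⟩
    have h1 : ∑ i, L x i ^ 2 = ∑ p : T × J, (∑ s, C p.1 s * x (s, p.2)) ^ 2 := by
      rw [← Equiv.sum_comp e]
      apply Finset.sum_congr rfl
      intro p _
      rw [hL]
      simp
    rw [h1, Fintype.sum_prod_type_right]
    apply Finset.sum_eq_zero
    intro j _
    exact hC (fun s => x (s, j))


/-- Type of the orthonormal form: over a finite field of odd order q and for m ≥ 1, the quadratic form Σ_(i<2m) x_i² on F^(2m) admits an m-dimensional subspace on which it vanishes identically if and only if it is not the case that q ≡ 3 (mod 4) and m is odd. -/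
theorem result {F : Type*} [Field F] [Fintype F] (h2 : (2 : F) ≠ 0) (m : ℕ) (hm : 1 ≤ m) : (∃ W : Submodule F (Fin (2 * m) → F), Module.finrank F W = m ∧ ∀ w ∈ W, ∑ i, w i ^ 2 = 0) ↔ ¬ (Fintype.card F % 4 = 3 ∧ Odd m) := by
  classical
  constructor
  · rintro ⟨W, hW, hts⟩ ⟨h3, hodd⟩
    -- orthogonality
    have horth : ∀ u ∈ W, ∀ v ∈ W, u ⬝ᵥ v = 0 := by
      intro u hu v hv
      have h1 := hts (u + v) (W.add_mem hu hv)
      have h4 : ∑ i, (u + v) i ^ 2 = ∑ i, u i ^ 2 + 2 * (u ⬝ᵥ v) + ∑ i, v i ^ 2 := by
        simp only [dotProduct, Finset.mul_sum, ← Finset.sum_add_distrib, Pi.add_apply]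
        apply Finset.sum_congr rfl
        intro i _
        ring
      rw [h4, hts u hu, hts v hv] at h1
      have h5 : 2 * (u ⬝ᵥ v) = 0 := by simpa using h1
      exact (mul_eq_zero.mp h5).resolve_left h2
    obtain ⟨W', hc⟩ := Submodule.exists_isCompl W
    have hW' : Module.finrank F W' = m := by
      have := Submodule.finrank_add_eq_of_isCompl hc
      simp only [Module.finrank_fintype_fun_eq_card, Fintype.card_fin] at this
      omega
    let bW := Module.finBasisOfFinrankEq F W hW
    let bW' := Module.finBasisOfFinrankEq F W' hW'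
    let b : Module.Basis (Fin m ⊕ Fin m) F (Fin (2 * m) → F) := (bW.prod bW').map (Submodule.prodEquivOfIsCompl W W' hc)
    have hbl : ∀ i, b (Sum.inl i) = (bW i : Fin (2 * m) → F) := by
      intro i
      simp [b]
    have hbr : ∀ i, b (Sum.inr i) = (bW' i : Fin (2 * m) → F) := by
      intro i
      simp [b]
    obtain ⟨d, hd, hdet⟩ := Cfsg.Agent.H11.det_gram_eq (1 : Matrix (Fin (2 * m)) (Fin (2 * m)) F) b
    simp only [Matrix.one_mulVec, Matrix.det_one, mul_one] at hdet
    let A : Matrix (Fin m) (Fin m) F := Matrix.of fun i j => (bW i : Fin (2 * m) → F) ⬝ᵥ (bW' j : Fin (2 * m) → F)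
    let D : Matrix (Fin m) (Fin m) F := Matrix.of fun i j => (bW' i : Fin (2 * m) → F) ⬝ᵥ (bW' j : Fin (2 * m) → F)
    have hM : (Matrix.of (fun i j : Fin m ⊕ Fin m => b i ⬝ᵥ b j)) = Matrix.fromBlocks 0 A Aᵀ D := by
      ext i j
      rcases i with i | i <;> rcases j with j | j
      · simp only [Matrix.of_apply, hbl, Matrix.fromBlocks_apply₁₁, Matrix.zero_apply]
        exact horth _ (bW i).2 _ (bW j).2
      · simp only [Matrix.of_apply, hbl, hbr, Matrix.fromBlocks_apply₁₂, A]
      · simp only [Matrix.of_apply, hbl, hbr, Matrix.fromBlocks_apply₂₁, A, Matrix.transpose_apply]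
        exact dotProduct_comm _ _
      · simp only [Matrix.of_apply, hbr, Matrix.fromBlocks_apply₂₂, D]
    rw [hM] at hdet
    have hprod : Cfsg.Agent.H11.hypG m F * Matrix.fromBlocks 0 A Aᵀ D = Matrix.fromBlocks Aᵀ D 0 A := by
      simp [Cfsg.Agent.H11.hypG, Matrix.fromBlocks_multiply]
    have h5 := congrArg Matrix.det hprod
    rw [Matrix.det_mul, Cfsg.Agent.H11.det_hypG, hdet, Matrix.det_fromBlocks_zero₂₁, Matrix.det_transpose, hodd.neg_one_pow] at h5
    have h6 : (-1 : F) = (A.det / d) * (A.det / d) := by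
      field_simp
      linear_combination h5
    have h7 : IsSquare (-1 : F) := ⟨_, h6⟩
    rw [FiniteField.isSquare_neg_one_iff] at h7
    exact h7 h3
  · intro hn
    by_cases h3 : Fintype.card F % 4 = 3
    · -- m even
      have hm2 : ¬ Odd m := fun h => hn ⟨h3, h⟩
      rw [Nat.not_odd_iff_even] at hm2
      obtain ⟨l, rfl⟩ := hm2
      have hq : Fintype.card F % 2 = 1 := by omega
      obtain ⟨a, b, hab⟩ := FiniteField.exists_root_sum_quadratic (R := F) (f := Polynomial.X ^ 2) (g := Polynomial.X ^ 2 + 1)
        (by simp) (by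
          rw [Polynomial.degree_add_eq_left_of_degree_lt] <;> simp) hq
      simp at hab
      apply exists_ts (S := Fin 2) (T := Fin 4) (J := Fin l) (![![1, 0], ![0, 1], ![a, -b], ![b, a]] : Fin 4 → Fin 2 → F)
      · intro y
        simp [Fin.sum_univ_succ]
        linear_combination (y 0 ^ 2 + y 1 ^ 2) * hab
      · intro y hy
        have h0 := hy 0
        have h1 := hy 1
        simp [Fin.sum_univ_succ] at h0 h1
        ext s
        fin_cases s
        · simpa using h0
        · simpa using h1
      · simp; omega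
      · simp; omega
    · have h7 : IsSquare (-1 : F) := by
        rw [FiniteField.isSquare_neg_one_iff]
        exact h3
      obtain ⟨i, hi⟩ := h7
      apply exists_ts (S := Fin 1) (T := Fin 2) (J := Fin m) (![![1], ![i]] : Fin 2 → Fin 1 → F)
      · intro y
        simp [Fin.sum_univ_succ]
        linear_combination (- y 0 ^ 2) * hi
      · intro y hy
        have h0 := hy 0
        simp at h0
        ext s
        fin_cases s
        simpa using h0
      · simp
      · simp

end Cfsg.Agent.S0759
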