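import Cfsg.Statements.S0760
import Mathlib
import Cfsg.Agent.Lib.H11.QF

set_option autoImplicit false
open Cfsg

namespace Cfsg.Agent.S0760

open Module QuadraticMap

universe u v

section
variable {F : Type v} [Field F] {V : Type u} [AddCommGroup V] [Module F V]

/-- maximal totally singular -/
def IsMaxTS (Q : QuadraticForm F V) (W : Submodule F V) : Prop :=
  (∀ w ∈ W, Q w = 0) ∧ ∀ W' : Submodule F V, W ≤ W' → (∀ w ∈ W', Q w = 0) → W' = W

lemma polar_zero_of_ts {Q : QuadraticForm F V} {W : Submodule F V} (h : ∀ w ∈ W, Q w = 0) {x y : V}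
    (hx : x ∈ W) (hy : y ∈ W) : polar Q x y = 0 := by
  simp [polar, h _ hx, h _ hy, h _ (W.add_mem hx hy)]

/-- the reflection -/
noncomputable def rf (Q : QuadraticForm F V) (a : V) : V →ₗ[F] V :=
  LinearMap.id + (polarBilin Q a).smulRight a

lemma rf_apply (Q : QuadraticForm F V) (a x : V) : rf Q a x = x + polar Q a x • a := rfl

lemma rf_isom (Q : QuadraticForm F V) {a : V} (ha : Q a = -1) (x : V) : Q (rf Q a x) = Q x := by
  rw [rf_apply, QuadraticMap.map_add Q, QuadraticMap.map_smul, ha, polar_smul_right, polar_comm]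
  simp only [smul_eq_mul]
  ring

lemma rf_rf (Q : QuadraticForm F V) {a : V} (ha : Q a = -1) (x : V) : rf Q a (rf Q a x) = x := by
  have haa : polar Q a a = -2 := by
    rw [polar_self, ha]; simp
  rw [rf_apply, rf_apply, polar_add_right, polar_smul_right, haa, add_assoc, ← add_smul]
  simp only [smul_eq_mul]
  have : polar Q a x + (polar Q a x + polar Q a x * -2) = 0 := by ring
  rw [this, zero_smul, add_zero]

lemma map_rf_rf (Q : QuadraticForm F V) {a : V} (ha : Q a = -1) (W : Submodule F V) :
    (W.map (rf Q a)).map (rf Q a) = W := by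
  rw [← Submodule.map_comp]
  have : (rf Q a).comp (rf Q a) = LinearMap.id := by
    ext x
    exact rf_rf Q ha x
  rw [this, Submodule.map_id]

lemma rf_maxTS (Q : QuadraticForm F V) {a : V} (ha : Q a = -1) {W : Submodule F V} (hW : IsMaxTS Q W) :
    IsMaxTS Q (W.map (rf Q a)) := by
  refine ⟨?_, ?_⟩
  · rintro _ ⟨w, hw, rfl⟩
    rw [rf_isom Q ha]
    exact hW.1 w hw
  · intro W' hle hW'
    have h1 : W ≤ W'.map (rf Q a) := by
      have := Submodule.map_mono (f := rf Q a) hle
      rwa [map_rf_rf Q ha] at this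
    have h2 := hW.2 _ h1 (by
      rintro _ ⟨w, hw, rfl⟩
      rw [rf_isom Q ha]
      exact hW' w hw)
    rw [← h2, map_rf_rf Q ha]

lemma finrank_rf [FiniteDimensional F V] (Q : QuadraticForm F V) {a : V} (ha : Q a = -1) (W : Submodule F V) :
    finrank F (W.map (rf Q a)) = finrank F W := by
  apply le_antisymm
  · exact Submodule.finrank_map_le _ _
  · have := Submodule.finrank_map_le (rf Q a) (W.map (rf Q a))
    rwa [map_rf_rf Q ha] at this

/-- move a maximal TS subspace to one containing a given singular vector -/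
lemma exists_move [FiniteDimensional F V] (Q : QuadraticForm F V) {W : Submodule F V} (hW : IsMaxTS Q W) {v : V}
    (h0 : Q v = 0) : ∃ W' : Submodule F V, IsMaxTS Q W' ∧ finrank F W' = finrank F W ∧ v ∈ W' := by
  by_cases hv : v ∈ W
  · exact ⟨W, hW, rfl, hv⟩
  · -- some u ∈ W not orthogonal to v
    obtain ⟨u₀, hu₀, hne⟩ : ∃ u ∈ W, polar Q u v ≠ 0 := by
      by_contra hcon
      push Not at hcon
      have hts : ∀ w ∈ W ⊔ Submodule.span F {v}, Q w = 0 := by
        intro w hw
        obtain ⟨x, hx, y, hy, rfl⟩ := Submodule.mem_sup.mp hw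
        obtain ⟨c, rfl⟩ := Submodule.mem_span_singleton.mp hy
        rw [QuadraticMap.map_add Q, QuadraticMap.map_smul, h0, hW.1 x hx, polar_smul_right, hcon x hx]
        simp
      have := hW.2 _ le_sup_left hts
      apply hv
      rw [← this]
      exact Submodule.mem_sup_right (Submodule.mem_span_singleton_self v)
    set u : V := (polar Q u₀ v)⁻¹ • u₀ with hu
    have huW : u ∈ W := W.smul_mem _ hu₀
    have huv : polar Q u v = 1 := by
      rw [hu, polar_smul_left, smul_eq_mul, inv_mul_cancel₀ hne]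
    have hQu : Q u = 0 := hW.1 u huW
    set a : V := u - v with ha
    have hQa : Q a = -1 := by
      rw [ha, sub_eq_add_neg, QuadraticMap.map_add Q, QuadraticMap.map_neg, polar_neg_right, huv, hQu, h0]
      ring
    refine ⟨W.map (rf Q a), rf_maxTS Q hQa hW, finrank_rf Q hQa W, ⟨u, huW, ?_⟩⟩
    rw [rf_apply, ha, polar_sub_left, polar_self, hQu, polar_comm Q v u, huv]
    simp

section split
variable {Q : QuadraticForm F V} {v f₀ : V}

/-- the orthogonal complement of a hyperbolic pair -/
noncomputable def perpU (Q : QuadraticForm F V) (v f₀ : V) : Submodule F V :=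
  LinearMap.ker (polarBilin Q v) ⊓ LinearMap.ker (polarBilin Q f₀)

lemma mem_perpU {x : V} : x ∈ perpU Q v f₀ ↔ polar Q v x = 0 ∧ polar Q f₀ x = 0 := by
  simp [perpU, Submodule.mem_inf, LinearMap.mem_ker]

lemma comap_maxTS (h0 : Q v = 0) (hf : Q f₀ = 0) (hvf : polar Q v f₀ = 1) {W : Submodule F V} (hW : IsMaxTS Q W)
    (hv : v ∈ W) :
    IsMaxTS (Q.comp (perpU Q v f₀).subtype) (W.comap (perpU Q v f₀).subtype) := by
  refine ⟨?_, ?_⟩
  · intro w hw
    exact hW.1 _ hw
  · intro W' hle hW'
    apply le_antisymm _ hle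
    -- W is contained in span v ⊔ W'
    let T : Submodule F V := Submodule.span F {v} ⊔ W'.map (perpU Q v f₀).subtype
    have hT : ∀ w ∈ T, Q w = 0 := by
      intro w hw
      obtain ⟨x, hx, y, hy, rfl⟩ := Submodule.mem_sup.mp hw
      obtain ⟨c, rfl⟩ := Submodule.mem_span_singleton.mp hx
      obtain ⟨y', hy', rfl⟩ := hy
      rw [QuadraticMap.map_add Q, QuadraticMap.map_smul, h0, polar_smul_left]
      have h1 := (mem_perpU.mp y'.2).1
      have h2 := hW' y' hy'
      have h3 : Q (y' : V) = 0 := h2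
      simp only [Submodule.subtype_apply]
      rw [h1, h3]
      simp
    have hWT : W ≤ T := by
      intro x hx
      have hy : x - polar Q x f₀ • v ∈ perpU Q v f₀ := by
        rw [mem_perpU]
        constructor
        · rw [polar_sub_right, polar_smul_right, polar_zero_of_ts hW.1 hv hx, polar_zero_of_ts hW.1 hv hv]
          simp
        · rw [polar_sub_right, polar_smul_right, polar_comm Q f₀ v, hvf, polar_comm Q f₀ x]
          simp
      have hyW : x - polar Q x f₀ • v ∈ W := W.sub_mem hx (W.smul_mem _ hv)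
      have : x = polar Q x f₀ • v + (perpU Q v f₀).subtype ⟨_, hy⟩ := by
        simp
      rw [this]
      apply Submodule.add_mem
      · exact Submodule.mem_sup_left (Submodule.smul_mem _ _ (Submodule.mem_span_singleton_self v))
      · apply Submodule.mem_sup_right
        exact ⟨⟨_, hy⟩, hle hyW, rfl⟩
    have hTW := hW.2 T hWT hT
    intro w hw
    change (w : V) ∈ W
    rw [← hTW]
    exact Submodule.mem_sup_right ⟨w, hw, rfl⟩

lemma finrank_split [FiniteDimensional F V] (hvf : polar Q v f₀ = 1) {W : Submodule F V} (hW : ∀ w ∈ W, Q w = 0) (hv : v ∈ W) :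
    finrank F W = finrank F (W.comap (perpU Q v f₀).subtype) + 1 := by
  let ψ : W →ₗ[F] F := (polarBilin Q f₀).domRestrict W
  have hψ : ∀ x : W, ψ x = polar Q f₀ x := fun _ => rfl
  have hsurj : Function.Surjective ψ := by
    intro c
    refine ⟨c • ⟨v, hv⟩, ?_⟩
    rw [map_smul, hψ, polar_comm, hvf]
    simp
  have h1 := LinearMap.finrank_range_add_finrank_ker ψ
  rw [LinearMap.range_eq_top.2 hsurj, finrank_top, finrank_self] at h1
  have h2 : finrank F (LinearMap.ker ψ) = finrank F (W.comap (perpU Q v f₀).subtype) := by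
    have e1 : finrank F (LinearMap.ker ψ) = finrank F ((LinearMap.ker ψ).map W.subtype) :=
      (Submodule.finrank_map_subtype_eq _ _).symm
    have e2 : finrank F (W.comap (perpU Q v f₀).subtype) = finrank F ((W.comap (perpU Q v f₀).subtype).map (perpU Q v f₀).subtype) :=
      (Submodule.finrank_map_subtype_eq _ _).symm
    rw [e1, e2]
    have e3 : (LinearMap.ker ψ).map W.subtype = (W.comap (perpU Q v f₀).subtype).map (perpU Q v f₀).subtype := by
      ext x
      constructor
      · rintro ⟨y, hy, rfl⟩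
        have hy' : polar Q f₀ (y : V) = 0 := hy
        refine ⟨⟨y, mem_perpU.mpr ⟨polar_zero_of_ts hW hv y.2, hy'⟩⟩, y.2, rfl⟩
      · rintro ⟨y, hy, rfl⟩
        refine ⟨⟨y, hy⟩, (mem_perpU.mp y.2).2, rfl⟩
    rw [e3]
  omega

lemma finrank_perp [FiniteDimensional F V] (h0 : Q v = 0) (hf : Q f₀ = 0) (hvf : polar Q v f₀ = 1) :
    finrank F (perpU Q v f₀) + 2 = finrank F V := by
  have hee : polar Q v v = 0 := by rw [polar_self, h0]; simp
  have hff : polar Q f₀ f₀ = 0 := by rw [polar_self, hf]; simp
  have hfe : polar Q f₀ v = 1 := by rw [polar_comm, hvf]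
  let φ : V →ₗ[F] F × F := LinearMap.prod (polarBilin Q v) (polarBilin Q f₀)
  have hφ : ∀ x, φ x = (polar Q v x, polar Q f₀ x) := fun x => rfl
  have hsurj : Function.Surjective φ := by
    rintro ⟨a, b⟩
    refine ⟨a • f₀ + b • v, ?_⟩
    rw [hφ]
    simp [polar_add_right, polar_smul_right, hvf, hee, hff, hfe]
  have h1 := LinearMap.finrank_range_add_finrank_ker φ
  rw [LinearMap.range_eq_top.2 hsurj, finrank_top, Module.finrank_prod, finrank_self] at h1
  have : LinearMap.ker φ = perpU Q v f₀ := by
    ext x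
    rw [mem_perpU, LinearMap.mem_ker, hφ, Prod.mk_eq_zero]
  rw [this] at h1
  omega

lemma nondeg_perp (hQ : (polarBilin Q).Nondegenerate) (h0 : Q v = 0) (hf : Q f₀ = 0) (hvf : polar Q v f₀ = 1) :
    (polarBilin (Q.comp (perpU Q v f₀).subtype)).Nondegenerate := by
  have hee : polar Q v v = 0 := by rw [polar_self, h0]; simp
  have hff : polar Q f₀ f₀ = 0 := by rw [polar_self, hf]; simp
  have hfe : polar Q f₀ v = 1 := by rw [polar_comm, hvf]
  apply Cfsg.Agent.H11.nondeg_of_left
  rintro ⟨x, hx⟩ hxy
  apply Subtype.ext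
  by_contra hne
  have hne' : x ≠ 0 := hne
  obtain ⟨y₀, hy₀⟩ := Cfsg.Agent.H11.exists_polar_ne hQ hne'
  obtain ⟨hx1, hx2⟩ := mem_perpU.1 hx
  let y : V := y₀ - polar Q v y₀ • f₀ - polar Q f₀ y₀ • v
  have hy : y ∈ perpU Q v f₀ := by
    rw [mem_perpU]
    simp only [y, polar_sub_right, polar_smul_right, hvf, hee, hff, hfe, smul_eq_mul]
    constructor <;> ring
  apply hy₀
  have h3 := hxy ⟨y, hy⟩
  change polar Q x y = 0 at h3
  simp only [y, polar_sub_right, polar_smul_right, smul_eq_mul] at h3
  rw [polar_comm Q x f₀, polar_comm Q x v, hx1, hx2] at h3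
  simpa using h3

end split

theorem main_aux (n : ℕ) : ∀ (V : Type u) [AddCommGroup V] [Module F V] [FiniteDimensional F V]
    (Q : QuadraticForm F V) (W₁ W₂ : Submodule F V), (polarBilin Q).Nondegenerate → finrank F V = n →
    IsMaxTS Q W₁ → IsMaxTS Q W₂ → finrank F W₁ = finrank F W₂ ∧ 2 * finrank F W₁ ≤ n := by
  induction n using Nat.strong_induction_on with
  | _ n ih =>
    intro V _ _ _ Q W₁ W₂ hQ hn h1 h2
    by_cases hW : W₁ = ⊥
    · -- no singular vectors
      have hno : ∀ v : V, Q v = 0 → v = 0 := by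
        intro v hv
        have hts : ∀ w ∈ (⊥ : Submodule F V) ⊔ Submodule.span F {v}, Q w = 0 := by
          intro w hw
          rw [bot_sup_eq] at hw
          obtain ⟨c, rfl⟩ := Submodule.mem_span_singleton.mp hw
          rw [QuadraticMap.map_smul, hv]
          simp
        subst hW
        have := h1.2 _ le_sup_left hts
        rw [bot_sup_eq] at this
        have h3 : v ∈ (⊥ : Submodule F V) := by
          rw [← this]
          exact Submodule.mem_span_singleton_self v
        simpa using h3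
      have hW2 : W₂ = ⊥ := by
        rw [eq_bot_iff]
        intro w hw
        simpa using hno w (h2.1 w hw)
      subst hW hW2
      simp
    · obtain ⟨v, hv, hv0⟩ := Submodule.exists_mem_ne_zero_of_ne_bot hW
      have h0 : Q v = 0 := h1.1 v hv
      obtain ⟨W₂', h2', hfr, hv2⟩ := exists_move Q h2 h0
      obtain ⟨f₀, hf, hvf⟩ := Cfsg.Agent.H11.exists_hyperbolic_pair hQ hv0 h0
      have hU := finrank_perp h0 hf hvf
      have key := ih (finrank F (perpU Q v f₀)) (by omega) (perpU Q v f₀) (Q.comp (perpU Q v f₀).subtype)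
        (W₁.comap (perpU Q v f₀).subtype) (W₂'.comap (perpU Q v f₀).subtype) (nondeg_perp hQ h0 hf hvf) rfl
        (comap_maxTS h0 hf hvf h1 hv) (comap_maxTS h0 hf hvf h2' hv2)
      have e1 := finrank_split hvf h1.1 hv
      have e2 := finrank_split hvf h2'.1 hv2
      omega

end


/-- Witt index is well defined: if Q is a quadratic form on a finite-dimensional space V over a finite field with non-degenerate polar form, and W₁, W₂ are subspaces on which Q vanishes that are maximal with this property, then W₁ and W₂ have the same dimension, and twice this dimension is at most dim V. -/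
theorem result {F V : Type*} [Field F] [Finite F] [AddCommGroup V] [Module F V] [FiniteDimensional F V] (Q : QuadraticForm F V) (hQ : (QuadraticMap.polarBilin Q).Nondegenerate) (W₁ W₂ : Submodule F V) (h₁ : ∀ w ∈ W₁, Q w = 0) (h₂ : ∀ w ∈ W₂, Q w = 0) (hmax₁ : ∀ W : Submodule F V, W₁ ≤ W → (∀ w ∈ W, Q w = 0) → W = W₁) (hmax₂ : ∀ W : Submodule F V, W₂ ≤ W → (∀ w ∈ W, Q w = 0) → W = W₂) : Module.finrank F W₁ = Module.finrank F W₂ ∧ 2 * Module.finrank F W₁ ≤ Module.finrank F V := by
  haveI := FiniteDimensional.finiteDimensional_submodule W₁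
  exact main_aux _ V Q W₁ W₂ hQ rfl ⟨h₁, hmax₁⟩ ⟨h₂, hmax₂⟩

end Cfsg.Agent.S0760
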