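import Cfsg.Statements.S0761
import Mathlib

set_option autoImplicit false
open Cfsg

namespace Cfsg.Agent.S0761


/-- Hyperbolic partners: let B be a non-degenerate bilinear form on a finite-dimensional space, either alternating, or symmetric with 2 ≠ 0. If Z is a subspace on which B vanishes, x ∉ Z is isotropic and orthogonal to Z, then there is an isotropic y with B x y = 1 which is orthogonal to Z. -/
theorem result {F V : Type*} [Field F] [AddCommGroup V] [Module F V] [FiniteDimensional F V] (B : LinearMap.BilinForm F V) (hB : B.Nondegenerate) (hform : B.IsAlt ∨ (B.IsSymm ∧ (2 : F) ≠ 0)) (x : V) (Z : Submodule F V) (hxZ : x ∉ Z) (hx : B x x = 0) (hxz : ∀ z ∈ Z, B x z = 0) (hZ : ∀ z ∈ Z, ∀ z' ∈ Z, B z z' = 0) : ∃ y : V, B y y = 0 ∧ B x y = 1 ∧ ∀ z ∈ Z, B z y = 0 := by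
  obtain ⟨φ, hφx, hφZ⟩ := Submodule.exists_le_ker_of_notMem hxZ
  have hφZ' : ∀ z ∈ Z, φ z = 0 := fun z hz => by
    have := hφZ hz
    simpa using this
  set y₀ := (B.toDual hB).symm φ with hy₀
  have hy₀B : ∀ w, B y₀ w = φ w := fun w => LinearMap.BilinForm.apply_toDual_symm_apply φ w
  rcases hform with halt | ⟨hsym, h2⟩
  · refine ⟨(-(φ x)⁻¹) • y₀, ?_, ?_, ?_⟩
    · exact halt _
    · have h1 : B x y₀ = - φ x := by
        rw [← hy₀B x, halt.neg_eq]
      simp only [map_smul, smul_eq_mul, h1]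
      field_simp
    · intro z hz
      have h1 : B z y₀ = - φ z := by
        rw [← hy₀B z, halt.neg_eq]
      simp only [map_smul, smul_eq_mul, h1, hφZ' z hz]
      simp
  · have hsm : ∀ a b, B a b = B b a := hsym.eq
    set y₁ := (φ x)⁻¹ • y₀ with hy₁
    have h1 : B x y₁ = 1 := by
      rw [hy₁, map_smul, smul_eq_mul, hsm x y₀, hy₀B x]
      field_simp
    have h1z : ∀ z ∈ Z, B z y₁ = 0 := by
      intro z hz
      rw [hy₁, map_smul, smul_eq_mul, hsm z y₀, hy₀B z, hφZ' z hz, mul_zero]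
    refine ⟨y₁ - (B y₁ y₁ / 2) • x, ?_, ?_, ?_⟩
    · simp only [map_sub, map_smul, LinearMap.sub_apply, LinearMap.smul_apply, smul_eq_mul, hx, h1, hsm y₁ x]
      field_simp
      ring
    · simp only [map_sub, map_smul, smul_eq_mul, hx, h1]
      ring
    · intro z hz
      simp only [map_sub, map_smul, smul_eq_mul, h1z z hz, hsm z x, hxz z hz]
      ring

end Cfsg.Agent.S0761
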