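import Cfsg.Statements.S0762
import Mathlib

set_option autoImplicit false
open Cfsg

namespace Cfsg.Agent.S0762


/-- In characteristic two over a finite field, a quadratic form on a space of dimension at least 3 vanishes on some non-zero vector. -/
theorem result {F V : Type*} [Field F] [Finite F] [CharP F 2] [AddCommGroup V] [Module F V] [FiniteDimensional F V] (Q : QuadraticForm F V) (h3 : 3 ≤ Module.finrank F V) : ∃ v : V, v ≠ 0 ∧ Q v = 0 := by
  classical
  have : Fintype F := Fintype.ofFinite F
  have hchar : ringChar F = 2 := ringChar.eq F 2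
  have h22 : (2 : F) = 0 := CharP.cast_eq_zero F 2
  have hself : ∀ x : V, QuadraticMap.polar Q x x = 0 := by
    intro x
    have h1 : x + x = (2 : F) • x := by rw [two_smul]
    rw [QuadraticMap.polar, h1, h22, zero_smul, QuadraticMap.map_zero]
    have : Q x + Q x = 0 := by
      rw [← two_mul, h22, zero_mul]
    linear_combination -this
  have hsol : ∀ r w : V, QuadraticMap.polar Q w r = 0 → Q r ≠ 0 → ∃ t : F, Q (w + t • r) = 0 := by
    intro r w hp hr
    obtain ⟨t, ht⟩ := FiniteField.isSquare_of_char_two hchar (Q w / Q r)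
    refine ⟨t, ?_⟩
    have h1 : Q (w + t • r) = Q w + Q (t • r) + QuadraticMap.polar Q w (t • r) := by
      rw [QuadraticMap.polar]; ring
    rw [h1, QuadraticMap.map_smul, QuadraticMap.polar_smul_right, hp]
    simp only [smul_eq_mul, mul_zero, add_zero]
    have h7 : t * t * Q r = Q w := by
      rw [← ht]
      field_simp
    rw [h7, ← two_mul, h22, zero_mul]
  obtain ⟨e, he⟩ := exists_linearIndependent_of_le_finrank h3
  have hli : ∀ x y z : F, x • e 0 + y • e 1 + z • e 2 = 0 → x = 0 ∧ y = 0 ∧ z = 0 := by
    intro x y z h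
    have := Fintype.linearIndependent_iff.mp he ![x, y, z] (by simpa [Fin.sum_univ_three] using h)
    exact ⟨this 0, this 1, this 2⟩
  set p := QuadraticMap.polar Q with hp
  have hcomm : ∀ x y, p x y = p y x := QuadraticMap.polar_comm Q
  have hadd : ∀ x : F, x + x = 0 := fun x => by rw [← two_mul, h22, zero_mul]
  set a := p (e 1) (e 2) with ha
  set b := p (e 2) (e 0) with hb
  set c := p (e 0) (e 1) with hc
  set r := a • e 0 + b • e 1 + c • e 2 with hr
  have hpr : ∀ w, p w r = a * p w (e 0) + b * p w (e 1) + c * p w (e 2) := by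
    intro w
    rw [hr, hp]
    rw [QuadraticMap.polar_add_right, QuadraticMap.polar_add_right, QuadraticMap.polar_smul_right, QuadraticMap.polar_smul_right, QuadraticMap.polar_smul_right]
    simp
  have hp0 : p (e 0) r = 0 := by
    rw [hpr, hself, hcomm (e 0) (e 2), ← hb, ← hc, mul_zero, zero_add, mul_comm c b]
    exact hadd _
  have hp1 : p (e 1) r = 0 := by
    rw [hpr, hself, hcomm (e 1) (e 0), ← hc, ← ha, mul_zero, add_zero, mul_comm c a]
    exact hadd _
  by_cases hall : a = 0 ∧ b = 0 ∧ c = 0
  · obtain ⟨h1, h2, h3'⟩ := hall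
    have h00 : p (e 1) (e 0) = 0 := by rw [hcomm, ← hc, h3']
    by_cases hQ : Q (e 0) = 0
    · refine ⟨e 0, ?_, hQ⟩
      intro h0
      have := hli 1 0 0 (by simp [h0])
      exact one_ne_zero this.1
    · obtain ⟨t, ht⟩ := hsol (e 0) (e 1) h00 hQ
      refine ⟨_, ?_, ht⟩
      intro h0
      have := hli t 1 0 (by rw [← h0]; simp [add_comm])
      exact one_ne_zero this.2.1
  · have hr0 : r ≠ 0 := by
      intro h0
      have := hli a b c h0
      exact hall this
    by_cases hQ : Q r = 0
    · exact ⟨r, hr0, hQ⟩
    · by_cases ha0 : a = 0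
      · -- use `e 0`
        obtain ⟨t, ht⟩ := hsol r (e 0) hp0 hQ
        refine ⟨_, ?_, ht⟩
        intro h0
        have h5 := hli (1 + t * a) (t * b) (t * c) (by
          rw [← h0, hr]
          simp only [smul_add, smul_smul, add_smul, one_smul]
          abel)
        have ht0 : t = 0 := by
          by_contra ht0
          have hb0 : b = 0 := (mul_eq_zero.mp h5.2.1).resolve_left ht0
          have hc0 : c = 0 := (mul_eq_zero.mp h5.2.2).resolve_left ht0
          exact hall ⟨ha0, hb0, hc0⟩
        rw [ht0] at h5
        simp at h5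
      · obtain ⟨t, ht⟩ := hsol r (e 1) hp1 hQ
        refine ⟨_, ?_, ht⟩
        intro h0
        have h5 := hli (t * a) (1 + t * b) (t * c) (by
          rw [← h0, hr]
          simp only [smul_add, smul_smul, add_smul, one_smul]
          abel)
        have ht0 : t = 0 := (mul_eq_zero.mp h5.1).resolve_right ha0
        rw [ht0] at h5
        simp at h5

end Cfsg.Agent.S0762
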