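import Cfsg.Statements.S0763
import Mathlib
import Cfsg.Agent.Lib.H11.QF2

set_option autoImplicit false
open Cfsg

namespace Cfsg.Agent.S0763


/-- Binary quadratic forms in characteristic two over a finite field: if Q is a quadratic form on a 2-dimensional space whose polar form is non-degenerate, then either there are vectors v, w with Q v = Q w = 0 and polar value 1 (Q is xy in these coordinates), or there are v, w and μ with Q v = 1, Q w = μ, polar value 1 and x² + x + μ without roots in F (Q is x² + xy + μy²). -/
theorem result {F V : Type*} [Field F] [Finite F] [CharP F 2] [AddCommGroup V] [Module F V] (Q : QuadraticForm F V) (h2 : Module.finrank F V = 2) (hQ : (QuadraticMap.polarBilin Q).Nondegenerate) : (∃ v w : V, LinearIndependent F ![v, w] ∧ Q v = 0 ∧ Q w = 0 ∧ QuadraticMap.polar Q v w = 1) ∨ (∃ (v w : V) (μ : F), LinearIndependent F ![v, w] ∧ (∀ x : F, x ^ 2 + x + μ ≠ 0) ∧ Q v = 1 ∧ Q w = μ ∧ QuadraticMap.polar Q v w = 1) := by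
  classical
  open Cfsg.Agent.H11 QuadraticMap Module in
  haveI : FiniteDimensional F V := by
    apply Module.finite_of_finrank_pos
    omega
  by_cases hiso : ∃ v : V, v ≠ 0 ∧ Q v = 0
  · left
    obtain ⟨v, hv, h0⟩ := hiso
    obtain ⟨w, hw, hp⟩ := exists_hyperbolic_pair hQ hv h0
    refine ⟨v, w, ?_, h0, hw, hp⟩
    rw [LinearIndependent.pair_iff]
    intro s t hst
    -- polar with v and w
    have h1 : polar Q v (s • v + t • w) = 0 := by rw [hst]; simp
    have h2 : polar Q w (s • v + t • w) = 0 := by rw [hst]; simp
    have hvv : polar Q v v = 0 := by rw [polar_self, h0]; simp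
    have hww : polar Q w w = 0 := by rw [polar_self, hw]; simp
    have hwv : polar Q w v = 1 := by rw [polar_comm, hp]
    simp only [polar_add_right, polar_smul_right, hvv, hww, hp, hwv, smul_eq_mul, mul_zero, mul_one, zero_add, add_zero] at h1 h2
    exact ⟨h2, h1⟩
  · right
    push Not at hiso
    have haniso : ∀ w, Q w = 0 → w = 0 := by
      intro w hw
      by_contra hne
      exact hiso w hne hw
    obtain ⟨x, y, h1, h2, h3, h4⟩ := binary_basis Q h2 haniso (fun w hw => exists_polar_ne hQ hw)
    exact ⟨x, y, Q y, h3, h4, h1, rfl, h2⟩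

end Cfsg.Agent.S0763
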