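import Cfsg.Statements.S0764
import Mathlib

set_option autoImplicit false
open Cfsg

namespace Cfsg.Agent.S0764

open scoped Matrix
open Matrix

theorem dot_J_self {F : Type*} [Field F] (m : ℕ) (v : Fin m ⊕ Fin m → F) :
    v ⬝ᵥ (Matrix.J (Fin m) F *ᵥ v) = 0 := by
  simp only [Matrix.J, dotProduct, Matrix.mulVec, Fintype.sum_sum_type, Matrix.fromBlocks_apply₁₁, Matrix.fromBlocks_apply₁₂, Matrix.fromBlocks_apply₂₁, Matrix.fromBlocks_apply₂₂]
  simp [Matrix.one_apply, Finset.sum_ite_eq]
  rw [neg_add_eq_zero]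
  apply Finset.sum_congr rfl
  intro i _
  ring

/-- Symplectic transvections are isometries: for every vector v and scalar c the matrix of x ↦ x + c f(x, v) v lies in the symplectic group. -/
theorem result {F : Type*} [Field F] (m : ℕ) (v : Fin m ⊕ Fin m → F) (c : F) : Cfsg.sympTransvection m v c ∈ Matrix.symplecticGroup (Fin m) F := by
  rw [SymplecticGroup.mem_iff, Cfsg.sympTransvection]
  set J := Matrix.J (Fin m) F with hJ
  set u := J *ᵥ v with hu
  have hJJ : J * J = -1 := Matrix.J_squared (Fin m) F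
  have hJT : Jᵀ = -J := Matrix.J_transpose (Fin m) F
  have h1 : vecMulVec v u * J = vecMulVec v v := by
    rw [Matrix.vecMulVec_mul]
    congr 1
    rw [← Matrix.mulVec_transpose, hJT, Matrix.neg_mulVec, hu, Matrix.mulVec_mulVec, hJJ,
      Matrix.neg_mulVec, Matrix.one_mulVec, neg_neg]
  have h2 : J * vecMulVec u v = - vecMulVec v v := by
    rw [Matrix.mul_vecMulVec, hu, Matrix.mulVec_mulVec, hJJ,
      Matrix.neg_mulVec, Matrix.one_mulVec, Matrix.neg_vecMulVec]
  have h3 : vecMulVec v v * vecMulVec u v = 0 := by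
    rw [Matrix.vecMulVec_mul_vecMulVec, hu, dot_J_self]
    simp
  rw [Matrix.transpose_add, Matrix.transpose_smul, Matrix.transpose_vecMulVec, Matrix.transpose_one]
  calc (1 + c • vecMulVec v u) * J * (1 + c • vecMulVec u v)
      = J + c • (vecMulVec v u * J) + c • (J * vecMulVec u v) + (c * c) • (vecMulVec v u * J * vecMulVec u v) := by
        simp only [add_mul, mul_add, one_mul, mul_one, Matrix.smul_mul, Matrix.mul_smul, smul_smul, add_assoc]
    _ = J := by
        rw [h1, h2, h3]
        simp

end Cfsg.Agent.S0764
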