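import Cfsg.Statements.S0766
import Mathlib
import Cfsg.Agent.Lib.H03.SpGenF

set_option autoImplicit false
open Cfsg

namespace Cfsg.Agent.S0766


/-- The subgroup generated by the symplectic transvections acts transitively on ordered pairs (u, v) with f(u, v) = 1. -/
theorem result {F : Type*} [Field F] (m : ℕ) (u v u' v' : Fin m ⊕ Fin m → F) (h : Cfsg.sympForm m F u v = 1) (h' : Cfsg.sympForm m F u' v' = 1) : ∃ A ∈ Subgroup.closure {A : Matrix.symplecticGroup (Fin m) F | ∃ (w : Fin m ⊕ Fin m → F) (c : F), (A : Matrix (Fin m ⊕ Fin m) (Fin m ⊕ Fin m) F) = Cfsg.sympTransvection m w c}, (A : Matrix (Fin m ⊕ Fin m) (Fin m ⊕ Fin m) F).mulVec u = u' ∧ (A : Matrix (Fin m ⊕ Fin m) (Fin m ⊕ Fin m) F).mulVec v = v' := by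
  classical
  have hle : Cfsg.Agent.Lead.spTransGroup (Fin m) F ≤ Subgroup.closure {A : Matrix.symplecticGroup (Fin m) F | ∃ (w : Fin m ⊕ Fin m → F) (c : F), (A : Matrix (Fin m ⊕ Fin m) (Fin m ⊕ Fin m) F) = Cfsg.sympTransvection m w c} := by
    apply (Subgroup.closure_le _).2
    rintro _ ⟨⟨u, c⟩, rfl⟩
    exact Subgroup.subset_closure ⟨u, c, rfl⟩
  have hform : ∀ x y : Fin m ⊕ Fin m → F, Cfsg.sympForm m F x y = Cfsg.Agent.Lead.sympForm x y := fun _ _ => rfl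
  rw [hform] at h h'
  have hp : ∀ a b : Fin m ⊕ Fin m → F, Cfsg.Agent.Lead.sympForm a b = 1 →
      Cfsg.Agent.Lead.IsPartial (fun _ : Fin 1 => b) (fun _ : Fin 1 => a) := by
    intro a b hab
    refine ⟨fun _ _ => Cfsg.Agent.Lead.sympForm_self _, fun _ _ => Cfsg.Agent.Lead.sympForm_self _, fun i j => ?_⟩
    rw [Cfsg.Agent.Lead.sympForm_swap, hab]
    simp [Subsingleton.elim i j]
  obtain ⟨A, hA, h1, h2⟩ := Cfsg.Agent.H03.SpF.tuple_transitiveF 1 _ _ _ _ (hp u v h) (hp u' v' h')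
  exact ⟨A, hle hA, h2 0, h1 0⟩

end Cfsg.Agent.S0766
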