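import Cfsg.Statements.S0767
import Mathlib
import Cfsg.Agent.S0764

set_option autoImplicit false
open Cfsg

namespace Cfsg.Agent.S0767

open scoped Matrix
open Matrix


/-- The root group of a point: T_v(c) T_v(d) = T_v(c + d), and for A in the symplectic group with A v = a v, the conjugate A T_v(c) A⁻¹ is again some T_v(d). -/
theorem result {F : Type*} [Field F] (m : ℕ) (v : Fin m ⊕ Fin m → F) : (∀ c d : F, Cfsg.sympTransvection m v c * Cfsg.sympTransvection m v d = Cfsg.sympTransvection m v (c + d)) ∧ ∀ (A : Matrix (Fin m ⊕ Fin m) (Fin m ⊕ Fin m) F) (a : F), A ∈ Matrix.symplecticGroup (Fin m) F → A.mulVec v = a • v → ∀ c : F, ∃ d : F, A * Cfsg.sympTransvection m v c * A⁻¹ = Cfsg.sympTransvection m v d := by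
  set J := Matrix.J (Fin m) F with hJ
  set u := J *ᵥ v with hu
  have hJJ : J * J = -1 := Matrix.J_squared (Fin m) F
  have hJT : Jᵀ = -J := Matrix.J_transpose (Fin m) F
  have hdot : u ⬝ᵥ v = 0 := by
    rw [dotProduct_comm]
    exact Cfsg.Agent.S0764.dot_J_self m v
  constructor
  · intro c d
    simp only [Cfsg.sympTransvection]
    rw [← hJ, ← hu]
    have h3 : vecMulVec v u * vecMulVec v u = 0 := by
      rw [Matrix.vecMulVec_mul_vecMulVec, hdot]
      simp
    simp only [add_mul, mul_add, one_mul, mul_one, Matrix.smul_mul, Matrix.mul_smul, h3, smul_zero, add_zero, add_smul]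
    abel
  · intro A a hA hAv c
    refine ⟨c * a * a, ?_⟩
    simp only [Cfsg.sympTransvection]
    rw [← hJ, ← hu]
    have hinv : A⁻¹ = (-J) * Aᵀ * J := SymplecticGroup.inv_eq_symplectic_inv A hA
    have hdet : IsUnit A.det := SymplecticGroup.symplectic_det hA
    have hAA : A * A⁻¹ = 1 := Matrix.mul_nonsing_inv A hdet
    have hu2 : u ᵥ* A⁻¹ = a • u := by
      rw [hinv]
      rw [← Matrix.vecMul_vecMul, ← Matrix.vecMul_vecMul]
      have h1 : u ᵥ* (-J) = -v := by
        rw [Matrix.vecMul_neg, ← Matrix.mulVec_transpose, hJT, Matrix.neg_mulVec, hu, Matrix.mulVec_mulVec, hJJ, Matrix.neg_mulVec, Matrix.one_mulVec]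
        simp
      rw [h1, Matrix.neg_vecMul, Matrix.vecMul_transpose, hAv, Matrix.neg_vecMul, Matrix.smul_vecMul, ← Matrix.mulVec_transpose, hJT, Matrix.neg_mulVec]
      simp [hu]
    calc A * (1 + c • vecMulVec v u) * A⁻¹
        = A * A⁻¹ + c • (vecMulVec (A *ᵥ v) (u ᵥ* A⁻¹)) := by
          rw [mul_add, add_mul, mul_one, Matrix.mul_smul, Matrix.smul_mul, Matrix.mul_vecMulVec, Matrix.vecMulVec_mul]
      _ = 1 + (c * a * a) • vecMulVec v u := by
          rw [hAA, hAv, hu2, Matrix.smul_vecMulVec, Matrix.vecMulVec_smul, smul_smul, smul_smul]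

end Cfsg.Agent.S0767
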