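import Cfsg.Statements.S0768
import Mathlib
import Cfsg.Agent.Lib.Lead.SpSimple

set_option autoImplicit false
open scoped LinearAlgebra.Projectivization
open Cfsg

namespace Cfsg.Agent.S0768

open Matrix
open scoped LinearAlgebra.Projectivization

theorem sp_one_prim {F : Type*} [Field F] [Fintype F] :
    MulAction.IsPreprimitive (Matrix.symplecticGroup (Fin 1) F) (ℙ F (Fin 1 ⊕ Fin 1 → F)) := by
  classical
  apply MulAction.isPreprimitive_of_is_two_pretransitive
  rw [MulAction.is_two_pretransitive_iff]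
  -- the form in coordinates
  have hform : ∀ x y : Fin 1 ⊕ Fin 1 → F, Cfsg.Agent.Lead.sympForm x y
      = x (Sum.inr 0) * y (Sum.inl 0) - x (Sum.inl 0) * y (Sum.inr 0) := by
    intro x y
    rw [Cfsg.Agent.Lead.sympForm_apply]
    simp
  have hne : ∀ (x y : Fin 1 ⊕ Fin 1 → F) (hx : x ≠ 0) (hy : y ≠ 0),
      Projectivization.mk F x hx ≠ Projectivization.mk F y hy → Cfsg.Agent.Lead.sympForm x y ≠ 0 := by
    intro x y hx hy hmk h0
    apply hmk
    rw [Projectivization.mk_eq_mk_iff']
    rw [hform] at h0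
    have hfun : ∀ z w : Fin 1 ⊕ Fin 1 → F, z (Sum.inl 0) = w (Sum.inl 0) → z (Sum.inr 0) = w (Sum.inr 0) → z = w := by
      intro z w h1 h2
      funext c
      rcases c with c | c
      · rw [Subsingleton.elim c 0]; exact h1
      · rw [Subsingleton.elim c 0]; exact h2
    by_cases hy1 : y (Sum.inl 0) = 0
    · have hy2 : y (Sum.inr 0) ≠ 0 := by
        intro hy2
        exact hy (hfun _ _ (by simpa using hy1) (by simpa using hy2))
      rw [hy1, mul_zero, zero_sub, neg_eq_zero] at h0
      have hx1 : x (Sum.inl 0) = 0 := (mul_eq_zero.mp h0).resolve_right hy2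
      refine ⟨x (Sum.inr 0) / y (Sum.inr 0), hfun _ _ ?_ ?_⟩
      · simp [hy1, hx1]
      · simp only [Pi.smul_apply, smul_eq_mul]
        field_simp
    · refine ⟨x (Sum.inl 0) / y (Sum.inl 0), hfun _ _ ?_ ?_⟩
      · simp only [Pi.smul_apply, smul_eq_mul]
        field_simp
      · simp only [Pi.smul_apply, smul_eq_mul]
        field_simp
        linear_combination -h0
  intro a b c d hab hcd
  induction a using Projectivization.ind with | _ x hx =>
  induction b using Projectivization.ind with | _ y hy =>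
  induction c using Projectivization.ind with | _ x' hx' =>
  induction d using Projectivization.ind with | _ y' hy' =>
  have h1 := hne x y hx hy hab
  have h2 := hne x' y' hx' hy' hcd
  set s := -(Cfsg.Agent.Lead.sympForm x y)⁻¹ with hs
  set s' := -(Cfsg.Agent.Lead.sympForm x' y')⁻¹ with hs'
  have hs0 : s ≠ 0 := neg_ne_zero.2 (inv_ne_zero h1)
  have hs'0 : s' ≠ 0 := neg_ne_zero.2 (inv_ne_zero h2)
  have e1 : Cfsg.Agent.Lead.sympForm x (s • y) = -1 := by
    rw [Cfsg.Agent.Lead.sympForm_smul_right, hs]; field_simp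
  have e2 : Cfsg.Agent.Lead.sympForm x' (s' • y') = -1 := by
    rw [Cfsg.Agent.Lead.sympForm_smul_right, hs']; field_simp
  obtain ⟨g, -, h3, h4⟩ := Cfsg.Agent.Lead.tuple_transitive 1 _ _ _ _ (Cfsg.Agent.Lead.isPartial_one e1) (Cfsg.Agent.Lead.isPartial_one e2)
  have h3' : g • x = x' := h3 0
  have h4' : g • (s • y) = s' • y' := h4 0
  refine ⟨g, ?_, ?_⟩
  · rw [Projectivization.smul_mk, Projectivization.mk_eq_mk_iff']
    exact ⟨1, by rw [one_smul]; exact h3'.symm⟩
  · rw [Projectivization.smul_mk, Projectivization.mk_eq_mk_iff']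
    refine ⟨s⁻¹ * s', ?_⟩
    have : g • (s • y) = s • (g • y) := smul_comm g s y
    rw [this] at h4'
    rw [mul_smul, ← h4', smul_smul, inv_mul_cancel₀ hs0, one_smul]


/-- Primitivity: for m ≥ 1 and F finite, the symplectic group of the form sympForm (as a subgroup of the general linear group) acts primitively on the projective space of F^(2m). -/
theorem result {F : Type*} [Field F] [Finite F] (m : ℕ) (hm : 1 ≤ m) : MulAction.IsPreprimitive ↥(Cfsg.spGL m F) (ℙ F (Fin m ⊕ Fin m → F)) := by
  classical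
  haveI : Fintype F := Fintype.ofFinite F
  have hprim : MulAction.IsPreprimitive (Matrix.symplecticGroup (Fin m) F) (ℙ F (Fin m ⊕ Fin m → F)) := by
    by_cases h1 : m = 1
    · subst h1
      exact sp_one_prim
    · exact Cfsg.Agent.Lead.sp_preprimitive (by simp; omega)
  let φ : Matrix.symplecticGroup (Fin m) F → ↥(Cfsg.spGL m F) := fun A =>
    ⟨⟨A.1, (A⁻¹).1, congrArg Subtype.val (mul_inv_cancel A), congrArg Subtype.val (inv_mul_cancel A)⟩, fun u v =>
      Cfsg.Agent.Lead.sympForm_mulVec A.2 u v⟩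
  let f : ℙ F (Fin m ⊕ Fin m → F) →ₑ[φ] ℙ F (Fin m ⊕ Fin m → F) :=
    { toFun := id
      map_smul' := by
        intro A x
        induction x using Projectivization.ind with | _ v hv =>
        rfl }
  exact MulAction.IsPreprimitive.of_surjective (f := f) (fun x => ⟨x, rfl⟩)

end Cfsg.Agent.S0768
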