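import Cfsg.Statements.S0769
import Mathlib

set_option autoImplicit false
open Cfsg

namespace Cfsg.Agent.S0769

theorem card_pairs (n : ℕ) : Fintype.card {p : Fin n × Fin n // p.2 < p.1} = n * (n - 1) / 2 := by
  classical
  rw [Fintype.card_subtype]
  have h1 : (Finset.univ.filter (fun p : Fin n × Fin n => p.2 < p.1)).card = ∑ i : Fin n, (i : ℕ) := by
    rw [Finset.card_filter, ← Finset.univ_product_univ, Finset.sum_product]
    apply Finset.sum_congr rfl
    intro i _
    rw [← Finset.card_filter]
    have : (Finset.univ.filter (fun j : Fin n => j < i)) = Finset.Iio i := by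
      ext j; simp
    rw [this, Fin.card_Iio]
  rw [h1, Fin.sum_univ_eq_sum_range (fun i => i) n, Finset.sum_range_id]


/-- Order of the Borel subgroup of GL_n(q): the invertible lower-triangular n × n matrices over a field with q elements number q^(n(n-1)/2) (q-1)^n (unitriangular part times the diagonal torus). -/
theorem result {F : Type*} [Field F] [Fintype F] {q : ℕ} (hF : Fintype.card F = q) (n : ℕ) : Nat.card {g : Matrix.GeneralLinearGroup (Fin n) F // ∀ i j : Fin n, i < j → (g : Matrix (Fin n) (Fin n) F) i j = 0} = q ^ (n * (n - 1) / 2) * (q - 1) ^ n := by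
  classical
  subst hF
  let A := {p : Fin n × Fin n // p.2 < p.1}
  have hdiag : ∀ g : {g : Matrix.GeneralLinearGroup (Fin n) F // ∀ i j : Fin n, i < j → (g : Matrix (Fin n) (Fin n) F) i j = 0},
      ∀ i, (g.1 : Matrix (Fin n) (Fin n) F) i i ≠ 0 := by
    intro g i h0
    have hdet : (g.1 : Matrix (Fin n) (Fin n) F).det = ∏ i, (g.1 : Matrix (Fin n) (Fin n) F) i i :=
      Matrix.det_of_lowerTriangular _ (fun a b hab => g.2 a b hab)
    have hu : IsUnit (g.1 : Matrix (Fin n) (Fin n) F).det := (Matrix.isUnit_iff_isUnit_det _).mp g.1.isUnit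
    have hz : ∏ i, (g.1 : Matrix (Fin n) (Fin n) F) i i = 0 := Finset.prod_eq_zero (Finset.mem_univ i) h0
    rw [hdet, hz] at hu
    exact not_isUnit_zero hu
  let mat : (A → F) × (Fin n → Fˣ) → Matrix (Fin n) (Fin n) F := fun p =>
    Matrix.of fun i j => if h : j < i then p.1 ⟨(i, j), h⟩ else if i = j then ((p.2 i : Fˣ) : F) else 0
  have hmatL : ∀ p, ∀ i j : Fin n, i < j → mat p i j = 0 := by
    intro p i j hij
    simp only [mat, Matrix.of_apply]
    rw [dif_neg (not_lt_of_gt hij), if_neg (ne_of_lt hij)]
  have hmatD : ∀ p, (mat p).det ≠ 0 := by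
    intro p
    rw [Matrix.det_of_lowerTriangular _ (fun a b hab => hmatL p a b hab)]
    rw [Finset.prod_ne_zero_iff]
    intro i _
    simp [mat]
  let e : {g : Matrix.GeneralLinearGroup (Fin n) F // ∀ i j : Fin n, i < j → (g : Matrix (Fin n) (Fin n) F) i j = 0} ≃ (A → F) × (Fin n → Fˣ) :=
    { toFun := fun g => (fun p => (g.1 : Matrix (Fin n) (Fin n) F) p.1.1 p.1.2, fun i => Units.mk0 _ (hdiag g i))
      invFun := fun p => ⟨Matrix.GeneralLinearGroup.mkOfDetNeZero (mat p) (hmatD p), fun i j hij => hmatL p i j hij⟩
      left_inv := by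
        intro g
        apply Subtype.ext
        apply Units.ext
        ext i j
        change mat _ i j = _
        simp only [mat, Matrix.of_apply]
        by_cases h : j < i
        · rw [dif_pos h]
        · rw [dif_neg h]
          by_cases h2 : i = j
          · subst h2
            simp
          · rw [if_neg h2]
            symm
            apply g.2 i j
            omega
      right_inv := by
        rintro ⟨a, d⟩
        refine Prod.ext ?_ ?_
        · funext p
          obtain ⟨⟨i, j⟩, h⟩ := p
          change mat _ i j = _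
          simp only [mat, Matrix.of_apply]
          rw [dif_pos h]
        · funext i
          apply Units.ext
          change mat _ i i = _
          simp [mat] }
  rw [Nat.card_congr e, Nat.card_prod, Nat.card_eq_fintype_card (α := A → F), Nat.card_eq_fintype_card (α := Fin n → Fˣ),
    Fintype.card_fun, Fintype.card_fun, Fintype.card_units, Fintype.card_fin, card_pairs]

end Cfsg.Agent.S0769
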