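import Cfsg.Statements.S0770
import Mathlib

set_option autoImplicit false
open Cfsg

namespace Cfsg.Agent.S0770

open Matrix

theorem mem_diag_iff {F : Type*} [Field F] {n : ℕ} (x : Matrix.GeneralLinearGroup (Fin n) F) :
    x ∈ (Units.map (Matrix.diagonalRingHom (Fin n) F).toMonoidHom).range ↔
      ∃ a : Fin n → Fˣ, (x : Matrix (Fin n) (Fin n) F) = Matrix.diagonal (fun i => (a i : F)) := by
  constructor
  · rintro ⟨u, rfl⟩
    refine ⟨MulEquiv.piUnits u, ?_⟩
    rfl
  · rintro ⟨a, ha⟩
    refine ⟨MulEquiv.piUnits.symm a, ?_⟩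
    apply Units.ext
    rw [ha]
    rfl


/-- For a field with at least 3 elements, an invertible matrix normalises the subgroup of invertible diagonal matrices of GL_n if and only if it is monomial (exactly one non-zero entry in each row). -/
theorem result {F : Type*} [Field F] (hF : ∃ a : F, a ≠ 0 ∧ a ≠ 1) (n : ℕ) (g : Matrix.GeneralLinearGroup (Fin n) F) : g ∈ Subgroup.normalizer ((Units.map (Matrix.diagonalRingHom (Fin n) F).toMonoidHom).range : Subgroup (Matrix.GeneralLinearGroup (Fin n) F)) ↔ ∀ i : Fin n, ∃! j : Fin n, (g : Matrix (Fin n) (Fin n) F) i j ≠ 0 := by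
  classical
  rw [Subgroup.mem_normalizer_iff]
  obtain ⟨a₀, ha₀, ha₁⟩ := hF
  set G : Matrix (Fin n) (Fin n) F := (g : Matrix (Fin n) (Fin n) F) with hG
  set H : Matrix (Fin n) (Fin n) F := ((g⁻¹ : Matrix.GeneralLinearGroup (Fin n) F) : Matrix (Fin n) (Fin n) F) with hH
  have hGH : G * H = 1 := by
    rw [hG, hH, ← Units.val_mul, mul_inv_cancel]; rfl
  have hHG : H * G = 1 := by
    rw [hG, hH, ← Units.val_mul, inv_mul_cancel]; rfl
  have hrow : ∀ i, ∃ j, G i j ≠ 0 := by
    intro i
    by_contra hcon
    push Not at hcon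
    have := congrFun (congrFun hGH i) i
    rw [Matrix.mul_apply, Matrix.one_apply_eq] at this
    simp [hcon] at this
  constructor
  · intro hnorm i
    obtain ⟨j, hj⟩ := hrow i
    refine ⟨j, hj, ?_⟩
    intro k hk
    by_contra hkj
    -- a diagonal matrix
    let a : Fin n → Fˣ := fun c => if c = j then Units.mk0 a₀ ha₀ else 1
    let d : Matrix.GeneralLinearGroup (Fin n) F := Units.map (Matrix.diagonalRingHom (Fin n) F).toMonoidHom (MulEquiv.piUnits.symm a)
    have hd : (d : Matrix (Fin n) (Fin n) F) = Matrix.diagonal (fun i => (a i : F)) := rfl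
    have hdmem : d ∈ (Units.map (Matrix.diagonalRingHom (Fin n) F).toMonoidHom).range := ⟨_, rfl⟩
    have h2 := (hnorm d).mp hdmem
    obtain ⟨b, hb⟩ := (mem_diag_iff _).mp h2
    have h3 : G * Matrix.diagonal (fun i => (a i : F)) = Matrix.diagonal (fun i => (b i : F)) * G := by
      rw [← hb, ← hd]
      have e : g * d = (g * d * g⁻¹) * g := by group
      exact congrArg Units.val e
    have h4 := congrFun (congrFun h3 i) j
    have h5 := congrFun (congrFun h3 i) k
    rw [Matrix.mul_diagonal, Matrix.diagonal_mul] at h4 h5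
    have ea : (a j : F) = a₀ := by simp [a]
    have ek : (a k : F) = 1 := by simp [a, hkj]
    rw [ea] at h4
    rw [ek, mul_one] at h5
    have h6 : a₀ = b i := by
      have : G i j * a₀ = G i j * b i := by rw [h4]; ring
      exact mul_left_cancel₀ hj this
    have h7 : (b i : F) = 1 := by
      have : G i k * 1 = G i k * b i := by
        rw [mul_one, mul_comm (G i k) (b i : F)]
        exact h5
      exact (mul_left_cancel₀ hk this).symm
    exact ha₁ (h6.trans h7)
  · intro hmono
    choose π hπ1 hπ2 using hmono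
    have hπinj : Function.Injective π := by
      intro i i' hii
      by_contra hne
      have h1 := congrFun (congrFun hGH i) i
      have h2 := congrFun (congrFun hGH i') i
      rw [Matrix.mul_apply, Matrix.one_apply_eq] at h1
      rw [Matrix.mul_apply, Matrix.one_apply_ne (Ne.symm hne)] at h2
      have h3 : ∀ r, ∀ j, j ≠ π r → G r j = 0 := by
        intro r j hj
        by_contra h
        exact hj (hπ2 r j h)
      rw [Finset.sum_eq_single (π i) (fun j _ hj => by rw [h3 i j hj, zero_mul]) (by simp)] at h1
      rw [Finset.sum_eq_single (π i') (fun j _ hj => by rw [h3 i' j hj, zero_mul]) (by simp)] at h2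
      rw [← hii] at h2
      have h4 := (mul_eq_zero.mp h2).resolve_left (by rw [hii]; exact hπ1 i')
      rw [h4, mul_zero] at h1
      exact zero_ne_one h1
    have hπbij : Function.Bijective π := Finite.injective_iff_bijective.mp hπinj
    let σ : Equiv.Perm (Fin n) := Equiv.ofBijective π hπbij
    have hσ : ∀ i, σ i = π i := fun i => rfl
    have h3 : ∀ r, ∀ j, j ≠ π r → G r j = 0 := by
      intro r j hj
      by_contra h
      exact hj (hπ2 r j h)
    have hcomm : ∀ a : Fin n → F, G * Matrix.diagonal a = Matrix.diagonal (a ∘ π) * G := by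
      intro a
      ext i j
      rw [Matrix.mul_diagonal, Matrix.diagonal_mul]
      by_cases hj : j = π i
      · subst hj
        simp [mul_comm]
      · rw [h3 i j hj]; simp
    intro h
    constructor
    · intro hh
      obtain ⟨a, ha⟩ := (mem_diag_iff _).mp hh
      rw [mem_diag_iff]
      refine ⟨a ∘ π, ?_⟩
      have e : ((g * h * g⁻¹ : Matrix.GeneralLinearGroup (Fin n) F) : Matrix (Fin n) (Fin n) F)
          = G * (h : Matrix (Fin n) (Fin n) F) * H := rfl
      rw [e, ha, hcomm, Matrix.mul_assoc, hGH, Matrix.mul_one]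
      rfl
    · intro hh
      obtain ⟨b, hb⟩ := (mem_diag_iff _).mp hh
      rw [mem_diag_iff]
      refine ⟨b ∘ σ.symm, ?_⟩
      have e : ((g * h * g⁻¹ : Matrix.GeneralLinearGroup (Fin n) F) : Matrix (Fin n) (Fin n) F)
          = G * (h : Matrix (Fin n) (Fin n) F) * H := rfl
      rw [e] at hb
      have h5 : G * (h : Matrix (Fin n) (Fin n) F) = G * Matrix.diagonal (fun i => (b (σ.symm i) : F)) := by
        rw [hcomm]
        have h6 : ((fun i => (b (σ.symm i) : F)) ∘ π) = fun i => (b i : F) := by
          funext i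
          simp only [Function.comp, ← hσ, Equiv.symm_apply_apply]
        rw [h6, ← hb, Matrix.mul_assoc, hHG, Matrix.mul_one]
      have h7 := congrArg (fun M => H * M) h5
      simp only [← Matrix.mul_assoc, hHG, Matrix.one_mul] at h7
      rw [h7]
      rfl

end Cfsg.Agent.S0770
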