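import Cfsg.Statements.S0771
import Mathlib
import Cfsg.Agent.Lib.H03.Parab

set_option autoImplicit false
open Cfsg

namespace Cfsg.Agent.S0771

open Matrix Module Cfsg.Agent.H03.Parab
open scoped MatrixGroups

theorem card_P {F : Type*} [Field F] [Fintype F] (k l : ℕ) :
    Nat.card ↥(P (k + l) k F) = Fintype.card F ^ (k * l) * (∏ i : Fin k, (Fintype.card F ^ k - Fintype.card F ^ (i : ℕ))) *
      ∏ i : Fin l, (Fintype.card F ^ l - Fintype.card F ^ (i : ℕ)) := by
  classical
  let ε : Fin k ⊕ Fin l ≃ Fin (k + l) := finSumFinEquiv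
  have hinr : ∀ i : Fin l, k ≤ ((ε (Sum.inr i) : Fin (k + l)) : ℕ) := by
    intro i
    simp [ε]
  have hinl : ∀ i : Fin k, ((ε (Sum.inl i) : Fin (k + l)) : ℕ) < k := by
    intro i
    simp [ε]
  have hcase : ∀ i : Fin (k + l), (∃ j : Fin l, i = ε (Sum.inr j) ∧ k ≤ (i : ℕ)) ∨ (∃ j : Fin k, i = ε (Sum.inl j) ∧ (i : ℕ) < k) := by
    intro i
    obtain ⟨s, rfl⟩ := ε.surjective i
    rcases s with s | s
    · right; exact ⟨s, rfl, hinl s⟩
    · left; exact ⟨s, rfl, hinr s⟩
  let blk : Matrix (Fin (k + l)) (Fin (k + l)) F → Matrix (Fin k ⊕ Fin l) (Fin k ⊕ Fin l) F := fun M => M.submatrix ε ε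
  have hblk0 : ∀ g : ↥(P (k + l) k F), (blk (g.1 : Matrix (Fin (k + l)) (Fin (k + l)) F)).toBlocks₂₁ = 0 := by
    intro g
    ext i j
    exact (mem_P_iff g.1).mp g.2 _ _ (hinr i) (hinl j)
  have hblkeq : ∀ g : ↥(P (k + l) k F), blk (g.1 : Matrix (Fin (k + l)) (Fin (k + l)) F) =
      fromBlocks (blk (g.1 : Matrix (Fin (k + l)) (Fin (k + l)) F)).toBlocks₁₁ (blk (g.1 : Matrix (Fin (k + l)) (Fin (k + l)) F)).toBlocks₁₂ 0 (blk (g.1 : Matrix (Fin (k + l)) (Fin (k + l)) F)).toBlocks₂₂ := by
    intro g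
    conv_lhs => rw [← Matrix.fromBlocks_toBlocks (blk (g.1 : Matrix (Fin (k + l)) (Fin (k + l)) F)), hblk0]
  have hdet : ∀ g : ↥(P (k + l) k F), (blk (g.1 : Matrix (Fin (k + l)) (Fin (k + l)) F)).toBlocks₁₁.det * (blk (g.1 : Matrix (Fin (k + l)) (Fin (k + l)) F)).toBlocks₂₂.det = (g.1 : Matrix (Fin (k + l)) (Fin (k + l)) F).det := by
    intro g
    have h1 : (blk (g.1 : Matrix (Fin (k + l)) (Fin (k + l)) F)).det = (g.1 : Matrix (Fin (k + l)) (Fin (k + l)) F).det := Matrix.det_submatrix_equiv_self ε _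
    rw [← h1, hblkeq g, Matrix.det_fromBlocks_zero₂₁]
    simp
  have hdet0 : ∀ g : ↥(P (k + l) k F), (g.1 : Matrix (Fin (k + l)) (Fin (k + l)) F).det ≠ 0 := by
    intro g
    exact ((Matrix.isUnit_iff_isUnit_det _).mp g.1.isUnit).ne_zero
  let mat : GL (Fin k) F × GL (Fin l) F × Matrix (Fin k) (Fin l) F → Matrix (Fin (k + l)) (Fin (k + l)) F := fun p =>
    (fromBlocks (p.1 : Matrix (Fin k) (Fin k) F) p.2.2 0 (p.2.1 : Matrix (Fin l) (Fin l) F)).submatrix ε.symm ε.symm
  have hmatdet : ∀ p, (mat p).det ≠ 0 := by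
    intro p
    simp only [mat]
    rw [Matrix.det_submatrix_equiv_self, Matrix.det_fromBlocks_zero₂₁]
    apply mul_ne_zero
    · exact ((Matrix.isUnit_iff_isUnit_det _).mp p.1.isUnit).ne_zero
    · exact ((Matrix.isUnit_iff_isUnit_det _).mp p.2.1.isUnit).ne_zero
  let E : ↥(P (k + l) k F) ≃ GL (Fin k) F × GL (Fin l) F × Matrix (Fin k) (Fin l) F :=
    { toFun := fun g => (Matrix.GeneralLinearGroup.mkOfDetNeZero (blk (g.1 : Matrix (Fin (k + l)) (Fin (k + l)) F)).toBlocks₁₁ (by
          intro h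
          apply hdet0 g
          rw [← hdet g, h, zero_mul]),
        Matrix.GeneralLinearGroup.mkOfDetNeZero (blk (g.1 : Matrix (Fin (k + l)) (Fin (k + l)) F)).toBlocks₂₂ (by
          intro h
          apply hdet0 g
          rw [← hdet g, h, mul_zero]),
        (blk (g.1 : Matrix (Fin (k + l)) (Fin (k + l)) F)).toBlocks₁₂)
      invFun := fun p => ⟨Matrix.GeneralLinearGroup.mkOfDetNeZero (mat p) (hmatdet p), by
        rw [mem_P_iff]
        intro i j hi hj
        change mat p i j = 0
        simp only [mat, Matrix.submatrix_apply]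
        obtain ⟨s, rfl⟩ := ε.surjective i
        obtain ⟨t, rfl⟩ := ε.surjective j
        rcases s with s | s
        · have := hinl s
          omega
        · rcases t with t | t
          · simp
          · have := hinr t
            omega⟩
      left_inv := by
        intro g
        apply Subtype.ext
        apply Units.ext
        ext i j
        change mat _ i j = _
        simp only [mat, Matrix.submatrix_apply]
        obtain ⟨s, rfl⟩ := ε.surjective i
        obtain ⟨t, rfl⟩ := ε.surjective j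
        simp only [Equiv.symm_apply_apply]
        rcases s with s | s <;> rcases t with t | t
        · rfl
        · rfl
        · simp only [Matrix.fromBlocks_apply₂₁, Matrix.zero_apply]
          exact ((mem_P_iff g.1).mp g.2 _ _ (hinr s) (hinl t)).symm
        · rfl
      right_inv := by
        rintro ⟨A, D, B⟩
        refine Prod.ext ?_ (Prod.ext ?_ ?_)
        · apply Units.ext
          ext i j
          change mat _ (ε (Sum.inl i)) (ε (Sum.inl j)) = _
          simp [mat]
        · apply Units.ext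
          ext i j
          change mat _ (ε (Sum.inr i)) (ε (Sum.inr j)) = _
          simp [mat]
        · ext i j
          change mat _ (ε (Sum.inl i)) (ε (Sum.inr j)) = _
          simp [mat] }
  rw [Nat.card_congr E, Nat.card_prod, Nat.card_prod, Matrix.card_GL_field, Matrix.card_GL_field]
  have hM : Nat.card (Matrix (Fin k) (Fin l) F) = Fintype.card F ^ (k * l) := by
    change Nat.card (Fin k → Fin l → F) = _
    rw [Nat.card_fun, Nat.card_fun]
    simp only [Nat.card_eq_fintype_card, Fintype.card_fin]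
    rw [← pow_mul, mul_comm]
  rw [hM]
  ring


/-- Maximal parabolic of GL_n(q): the stabiliser of the coordinate subspace spanned by the first k basis vectors has order q^(k(n-k)) · |GL_k(q)| · |GL_(n-k)(q)| (unipotent radical of order q^(k(n-k)) and Levi complement GL_k × GL_(n-k)). -/
theorem result {F : Type*} [Field F] [Fintype F] {q : ℕ} (hF : Fintype.card F = q) (n k : ℕ) (hk : k ≤ n) : Nat.card ↥(Cfsg.stabilizing (Cfsg.glToMat (Fin n) F) {v : Fin n → F | ∀ i : Fin n, k ≤ (i : ℕ) → v i = 0}) = q ^ (k * (n - k)) * (∏ i : Fin k, (q ^ k - q ^ (i : ℕ))) * ∏ i : Fin (n - k), (q ^ (n - k) - q ^ (i : ℕ)) := by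
  classical
  subst hF
  obtain ⟨l, rfl⟩ := Nat.exists_eq_add_of_le hk
  have hl : k + l - k = l := by omega
  rw [hl]
  exact card_P k l

end Cfsg.Agent.S0771
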