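import Cfsg.Statements.S0773
import Mathlib
import Cfsg.Agent.Lib.H03.Parab

set_option autoImplicit false
open Cfsg

namespace Cfsg.Agent.S0773

open Matrix Module Cfsg.Agent.H03.Parab
open scoped MatrixGroups

variable {F : Type*} [Field F] {n : ℕ}

/-- anti-transpose -/
def N' (A : Matrix (Fin n) (Fin n) F) : Matrix (Fin n) (Fin n) F :=
  Matrix.of fun a b => A (Fin.rev b) (Fin.rev a)

lemma N'_mul (A B : Matrix (Fin n) (Fin n) F) : N' A * N' B = N' (B * A) := by
  ext a b
  simp only [N', Matrix.mul_apply, Matrix.of_apply]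
  rw [← Equiv.sum_comp Fin.revPerm]
  apply Finset.sum_congr rfl
  intro c _
  simp [mul_comm]

lemma N'_one : N' (1 : Matrix (Fin n) (Fin n) F) = 1 := by
  ext a b
  simp only [N', Matrix.of_apply, Matrix.one_apply]
  by_cases h : a = b
  · simp [h]
  · have : Fin.rev b ≠ Fin.rev a := fun e => h (Fin.rev_injective e).symm
    simp [h, this]

/-- the automorphism -/
def phi (g : GL (Fin n) F) : GL (Fin n) F :=
  ⟨N' ((g⁻¹ : GL (Fin n) F) : Matrix (Fin n) (Fin n) F), N' (g : Matrix (Fin n) (Fin n) F), by
    rw [N'_mul, ← Units.val_mul, mul_inv_cancel, Units.val_one, N'_one], by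
    rw [N'_mul, ← Units.val_mul, inv_mul_cancel, Units.val_one, N'_one]⟩

lemma phi_val (g : GL (Fin n) F) : ((phi g : GL (Fin n) F) : Matrix (Fin n) (Fin n) F) = N' ((g⁻¹ : GL (Fin n) F) : Matrix (Fin n) (Fin n) F) := rfl

lemma phi_inv_val (g : GL (Fin n) F) : (((phi g)⁻¹ : GL (Fin n) F) : Matrix (Fin n) (Fin n) F) = N' (g : Matrix (Fin n) (Fin n) F) := rfl

lemma phi_phi (g : GL (Fin n) F) : phi (phi g) = g := by
  apply Units.ext
  rw [phi_val, phi_inv_val]
  ext a b
  simp [N']

lemma phi_mul (g h : GL (Fin n) F) : phi (g * h) = phi g * phi h := by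
  apply Units.ext
  rw [Units.val_mul, phi_val, phi_val, phi_val, N'_mul, ← Units.val_mul, _root_.mul_inv_rev]

lemma phi_mem {k : ℕ} (hk : k ≤ n) {g : GL (Fin n) F} (hg : g ∈ P n k F) : phi g ∈ P n (n - k) F := by
  rw [mem_P_iff]
  intro a b ha hb
  rw [phi_val]
  have hginv : g⁻¹ ∈ P n k F := (P n k F).inv_mem hg
  rw [mem_P_iff] at hginv
  apply hginv
  · simp only [Fin.val_rev]
    have := b.2
    omega
  · simp only [Fin.val_rev]
    have := a.2
    omega

/-- the dimension -/
lemma finrank_US {m : ℕ} (hm : m < n) : finrank F (US n m F) = m := by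
  classical
  let f : {i : Fin n // m ≤ (i : ℕ)} → Fin n := Subtype.val
  have hf : Function.Injective f := Subtype.val_injective
  let L : (Fin n → F) →ₗ[F] ({i : Fin n // m ≤ (i : ℕ)} → F) := LinearMap.funLeft F F f
  have hsurj : Function.Surjective L := LinearMap.funLeft_surjective_of_injective F F f hf
  have hker : LinearMap.ker L = US n m F := by
    ext v
    rw [LinearMap.mem_ker, mem_US]
    constructor
    · intro h i hi
      exact congrFun h ⟨i, hi⟩
    · intro h
      funext i
      exact h i.1 i.2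
  have h1 := LinearMap.finrank_range_add_finrank_ker L
  rw [LinearMap.range_eq_top.2 hsurj, finrank_top, hker] at h1
  simp only [Module.finrank_fintype_fun_eq_card, Fintype.card_fin] at h1
  have hc : Fintype.card {i : Fin n // m ≤ (i : ℕ)} = n - m := by
    rw [Fintype.card_subtype]
    have : (Finset.univ.filter (fun i : Fin n => m ≤ (i : ℕ))) = Finset.Ici (⟨m, hm⟩ : Fin n) := by
      ext i
      simp [Fin.le_def]
    rw [this, Fin.card_Ici]
  rw [hc] at h1
  omega

/-- invariant subspaces -/
lemma invariant {m : ℕ} (W : Submodule F (Fin n → F))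
    (hW : ∀ h ∈ P n m F, ∀ x ∈ W, (h : Matrix (Fin n) (Fin n) F) *ᵥ x ∈ W) :
    W = ⊥ ∨ W = US n m F ∨ W = ⊤ := by
  classical
  have hexp : ∀ x : Fin n → F, x = ∑ a, x a • e a := by
    intro x
    ext i
    simp [Finset.sum_apply, e, Pi.single_apply]
  by_cases h1 : ∃ x ∈ W, x ∉ US n m F
  · right; right
    obtain ⟨x, hx, hxU⟩ := h1
    rw [mem_US] at hxU
    push Not at hxU
    obtain ⟨i, hi, hxi⟩ := hxU
    have h2 : ∀ a, a ≠ i → (e a : Fin n → F) ∈ W := by
      intro a ha
      have hBA : (e i : Fin n → F) ⬝ᵥ e a = 0 := by rw [e_dot, e_ne ha]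
      have hm := T_mem_P (k := m) hBA (Or.inr (fun j hj => e_ne (by
        rintro rfl
        omega)))
      have h3 := hW _ hm x hx
      rw [TGL_val, T, Matrix.add_mulVec, Matrix.one_mulVec, vecMulVec_mulVec, op_smul_eq_smul, e_dot] at h3
      have h4 := W.sub_mem h3 hx
      rw [add_sub_cancel_left] at h4
      have h5 := W.smul_mem (x i)⁻¹ h4
      rwa [smul_smul, inv_mul_cancel₀ hxi, one_smul] at h5
    have h3 : (e i : Fin n → F) ∈ W := by
      have e1 : x i • (e i : Fin n → F) = x - ∑ a ∈ Finset.univ.erase i, x a • e a := by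
        apply eq_sub_of_add_eq
        rw [Finset.add_sum_erase _ (fun a => x a • (e a : Fin n → F)) (Finset.mem_univ i)]
        exact (hexp x).symm
      have h4 : x i • (e i : Fin n → F) ∈ W := by
        rw [e1]
        exact W.sub_mem hx (W.sum_mem (fun a ha => W.smul_mem _ (h2 a (Finset.ne_of_mem_erase ha))))
      have h5 := W.smul_mem (x i)⁻¹ h4
      rwa [smul_smul, inv_mul_cancel₀ hxi, one_smul] at h5
    rw [eq_top_iff]
    intro y _
    rw [hexp y]
    apply W.sum_mem
    intro a _
    apply W.smul_mem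
    by_cases ha : a = i
    · rw [ha]; exact h3
    · exact h2 a ha
  · push Not at h1
    by_cases h2 : W = ⊥
    · exact Or.inl h2
    · right; left
      apply le_antisymm h1
      obtain ⟨x, hx, hx0⟩ := Submodule.exists_mem_ne_zero_of_ne_bot h2
      obtain ⟨j, hj⟩ : ∃ j, x j ≠ 0 := by
        by_contra hcon
        push Not at hcon
        exact hx0 (funext hcon)
      have hxU := h1 x hx
      have hjm : (j : ℕ) < m := by
        by_contra hcon
        exact hj (hxU j (by omega))
      have h3 : ∀ a : Fin n, (a : ℕ) < m → a ≠ j → (e a : Fin n → F) ∈ W := by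
        intro a ham ha
        have hBA : (e j : Fin n → F) ⬝ᵥ e a = 0 := by rw [e_dot, e_ne ha]
        have hm := T_mem_P (k := m) hBA (Or.inl (fun i hi => e_ne (by
          rintro rfl
          omega)))
        have h3 := hW _ hm x hx
        rw [TGL_val, T, Matrix.add_mulVec, Matrix.one_mulVec, vecMulVec_mulVec, op_smul_eq_smul, e_dot] at h3
        have h4 := W.sub_mem h3 hx
        rw [add_sub_cancel_left] at h4
        have h5 := W.smul_mem (x j)⁻¹ h4
        rwa [smul_smul, inv_mul_cancel₀ hj, one_smul] at h5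
      have h4 : (e j : Fin n → F) ∈ W := by
        have e1 : x j • (e j : Fin n → F) = x - ∑ a ∈ Finset.univ.erase j, x a • e a := by
          apply eq_sub_of_add_eq
          rw [Finset.add_sum_erase _ (fun a => x a • (e a : Fin n → F)) (Finset.mem_univ j)]
          exact (hexp x).symm
        have h5 : x j • (e j : Fin n → F) ∈ W := by
          rw [e1]
          apply W.sub_mem hx
          apply W.sum_mem
          intro a ha
          by_cases ham : (a : ℕ) < m
          · exact W.smul_mem _ (h3 a ham (Finset.ne_of_mem_erase ha))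
          · rw [hxU a (by omega), zero_smul]
            exact W.zero_mem
        have h6 := W.smul_mem (x j)⁻¹ h5
        rwa [smul_smul, inv_mul_cancel₀ hj, one_smul] at h6
      intro y hy
      rw [hexp y]
      apply W.sum_mem
      intro a _
      by_cases ham : (a : ℕ) < m
      · apply W.smul_mem
        by_cases ha : a = j
        · rw [ha]; exact h4
        · exact h3 a ham ha
      · rw [(mem_US.mp hy) a (by omega), zero_smul]
        exact W.zero_mem


/-- The stabilisers in GL_n(F), F finite, of the coordinate subspaces of dimensions k and n − k are isomorphic groups, but when 2k ≠ n (and 0 < k < n) no element of GL_n conjugates one onto the other. -/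
theorem result {F : Type*} [Field F] [Finite F] (n k : ℕ) (hk0 : 0 < k) (hkn : k < n) (h2 : 2 * k ≠ n) : Nonempty (↥(Cfsg.stabilizing (Cfsg.glToMat (Fin n) F) {v : Fin n → F | ∀ i : Fin n, k ≤ (i : ℕ) → v i = 0}) ≃* ↥(Cfsg.stabilizing (Cfsg.glToMat (Fin n) F) {v : Fin n → F | ∀ i : Fin n, n - k ≤ (i : ℕ) → v i = 0})) ∧ ∀ g : Matrix.GeneralLinearGroup (Fin n) F, (Cfsg.stabilizing (Cfsg.glToMat (Fin n) F) {v : Fin n → F | ∀ i : Fin n, k ≤ (i : ℕ) → v i = 0}).map (MulAut.conj g).toMonoidHom ≠ Cfsg.stabilizing (Cfsg.glToMat (Fin n) F) {v : Fin n → F | ∀ i : Fin n, n - k ≤ (i : ℕ) → v i = 0} := by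
  classical
  have hkle : k ≤ n := hkn.le
  constructor
  · -- iso
    let Φ : GL (Fin n) F ≃* GL (Fin n) F :=
      { toFun := phi
        invFun := phi
        left_inv := phi_phi
        right_inv := phi_phi
        map_mul' := phi_mul }
    have hmap : (P n k F).map Φ.toMonoidHom = P n (n - k) F := by
      ext h
      constructor
      · rintro ⟨g, hg, rfl⟩
        exact phi_mem hkle hg
      · intro hh
        refine ⟨phi h, ?_, phi_phi h⟩
        have := phi_mem (k := n - k) (by omega) hh
        have e1 : n - (n - k) = k := by omega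
        rwa [e1] at this
    exact ⟨(Φ.subgroupMap (P n k F)).trans (MulEquiv.subgroupCongr hmap)⟩
  · intro g hg
    -- the image of the subspace
    let G := (g : Matrix (Fin n) (Fin n) F).mulVecLin
    have hinj : Function.Injective G := Matrix.mulVec_injective_of_isUnit g.isUnit
    let W : Submodule F (Fin n → F) := (US n k F).map G
    have hWfr : finrank F W = k := by
      have : finrank F W = finrank F (US n k F) := (Submodule.equivMapOfInjective _ hinj (US n k F)).finrank_eq.symm
      rw [this, finrank_US hkn]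
    have hinv : ∀ h ∈ P n (n - k) F, ∀ x ∈ W, (h : Matrix (Fin n) (Fin n) F) *ᵥ x ∈ W := by
      intro h hh x hx
      have hh' : h ∈ Subgroup.map (MulAut.conj g).toMonoidHom (P n k F) := by
        rw [hg]; exact hh
      obtain ⟨p, hp, rfl⟩ := hh'
      obtain ⟨y, hy, rfl⟩ := hx
      refine ⟨(p : Matrix (Fin n) (Fin n) F) *ᵥ y, ?_, ?_⟩
      · exact (hp y).mp hy
      · change (g : Matrix (Fin n) (Fin n) F) *ᵥ ((p : Matrix (Fin n) (Fin n) F) *ᵥ y)
          = ((g * p * g⁻¹ : GL (Fin n) F) : Matrix (Fin n) (Fin n) F) *ᵥ ((g : Matrix (Fin n) (Fin n) F) *ᵥ y)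
        rw [Matrix.mulVec_mulVec, Matrix.mulVec_mulVec, ← Units.val_mul, ← Units.val_mul]
        congr 2
        group
    rcases invariant W hinv with h | h | h
    · rw [h, finrank_bot] at hWfr
      omega
    · rw [h, finrank_US (by omega)] at hWfr
      omega
    · rw [h, finrank_top] at hWfr
      simp at hWfr
      omega

end Cfsg.Agent.S0773
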