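import Cfsg.Statements.S0774
import Mathlib
import Cfsg.Agent.Lib.H03.SpPara

set_option autoImplicit false
open Cfsg

namespace Cfsg.Agent.S0774

open Matrix Cfsg.Agent.H11 Cfsg.Agent.H03.SpPara

section
variable {F : Type*} [Field F] {m : ℕ}

/-- The flag subspace. -/
def FS (m : ℕ) (F : Type*) [Field F] (k : Fin m) : Submodule F (Fin m ⊕ Fin m → F) where
  carrier := {v | (∀ i : Fin m, (k : ℕ) < (i : ℕ) → v (Sum.inl i) = 0) ∧ ∀ i : Fin m, v (Sum.inr i) = 0}
  add_mem' := by
    rintro a b ⟨h1, h2⟩ ⟨h3, h4⟩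
    exact ⟨fun i hi => by simp [h1 i hi, h3 i hi], fun i => by simp [h2 i, h4 i]⟩
  zero_mem' := ⟨fun _ _ => rfl, fun _ => rfl⟩
  smul_mem' := by
    rintro c a ⟨h1, h2⟩
    exact ⟨fun i hi => by simp [h1 i hi], fun i => by simp [h2 i]⟩

theorem mem_FS (k : Fin m) (v : Fin m ⊕ Fin m → F) :
    v ∈ FS m F k ↔ (∀ i : Fin m, (k : ℕ) < (i : ℕ) → v (Sum.inl i) = 0) ∧ ∀ i : Fin m, v (Sum.inr i) = 0 := Iff.rfl

theorem FS_mono {j k : Fin m} (h : j ≤ k) : FS m F j ≤ FS m F k := by
  rintro v ⟨h1, h2⟩
  exact ⟨fun i hi => h1 i (lt_of_le_of_lt h hi), h2⟩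

/-- The matrix of a triangular tuple. -/
def coordMat (y : Fin m → (Fin m ⊕ Fin m → F)) : Matrix (Fin m) (Fin m) F := Matrix.of fun j k => y k (Sum.inl j)

theorem coordMat_det (y : Fin m → (Fin m ⊕ Fin m → F)) (hy : ∀ k, y k ∈ FS m F k) :
    (coordMat y).det = ∏ k, y k (Sum.inl k) := by
  rw [Matrix.det_of_upperTriangular]
  · rfl
  · intro i j hij
    exact (hy j).1 i hij

theorem li_iff (y : Fin m → (Fin m ⊕ Fin m → F)) (hy : ∀ k, y k ∈ FS m F k) :
    LinearIndependent F y ↔ ∀ k, y k (Sum.inl k) ≠ 0 := by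
  classical
  let π : (Fin m ⊕ Fin m → F) →ₗ[F] (Fin m → F) := LinearMap.funLeft F F Sum.inl
  let ι : (Fin m → F) →ₗ[F] (Fin m ⊕ Fin m → F) :=
    { toFun := fun c => Sum.elim c 0
      map_add' := fun a b => by funext r; rcases r with r | r <;> simp
      map_smul' := fun c a => by funext r; rcases r with r | r <;> simp }
  have hcol : ∀ k, π (y k) = fun j => coordMat y j k := fun k => rfl
  have hy' : ∀ k, ι (fun j => coordMat y j k) = y k := by
    intro k
    funext r
    rcases r with r | r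
    · rfl
    · exact ((hy k).2 r).symm
  have hιk : LinearMap.ker ι = ⊥ := by
    rw [LinearMap.ker_eq_bot]
    intro a b h
    funext r
    exact congrFun h (Sum.inl r)
  have hdet : (coordMat y).det ≠ 0 ↔ ∀ k, y k (Sum.inl k) ≠ 0 := by
    rw [coordMat_det y hy, Finset.prod_ne_zero_iff]
    simp
  rw [← hdet]
  constructor
  · intro h
    have h1 : LinearIndependent F (fun k j => coordMat y j k) := by
      apply LinearIndependent.of_comp ι
      have : ι ∘ (fun k j => coordMat y j k) = y := funext hy'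
      rw [this]
      exact h
    have h2 : LinearIndependent F (coordMat y).col := h1
    have h3 := (Matrix.linearIndependent_cols_iff_isUnit).mp h2
    exact ((Matrix.isUnit_iff_isUnit_det _).mp h3).ne_zero
  · intro h
    have h2 : LinearIndependent F (coordMat y).col := Matrix.linearIndependent_cols_of_det_ne_zero h
    have h3 : LinearIndependent F (fun k j => coordMat y j k) := h2
    have h4 := h3.map' ι hιk
    have : ι ∘ (fun k j => coordMat y j k) = y := funext hy'
    rwa [this] at h4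

theorem form_FS {j k : Fin m} {u v : Fin m ⊕ Fin m → F} (hu : u ∈ FS m F j) (hv : v ∈ FS m F k) : Cfsg.sympForm m F u v = 0 := by
  rw [sympForm_eq_sum]
  refine Finset.sum_eq_zero fun i _ => ?_
  rw [hu.2 i, hv.2 i]
  ring

/-- The elements of the `k`-th flag subspace with nonzero `k`-th coordinate. -/
def Zk (m : ℕ) (F : Type*) [Field F] (k : Fin m) : Type _ := {v : Fin m ⊕ Fin m → F // v ∈ FS m F k ∧ v (Sum.inl k) ≠ 0}

noncomputable def ZkEquiv (k : Fin m) : Zk m F k ≃ ({j : Fin m // (j : ℕ) < k} → F) × {x : F // x ≠ 0} := by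
  classical
  exact
  { toFun := fun v => (fun j => v.1 (Sum.inl j.1), ⟨v.1 (Sum.inl k), v.2.2⟩)
    invFun := fun p => ⟨Sum.elim (fun i => if h : (i : ℕ) < k then p.1 ⟨i, h⟩ else if i = k then p.2.1 else 0) 0, by
      refine ⟨⟨fun i hi => ?_, fun i => rfl⟩, ?_⟩
      · have h1 : ¬ (i : ℕ) < k := by omega
        have h2 : i ≠ k := by
          rintro rfl
          omega
        rw [Sum.elim_inl, dif_neg h1, if_neg h2]
      · simp only [Sum.elim_inl, lt_irrefl, dite_false, if_true]
        exact p.2.2⟩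
    left_inv := by
      rintro ⟨v, ⟨h1, h2⟩, h3⟩
      apply Subtype.ext
      funext r
      rcases r with r | r
      · simp only [Sum.elim_inl]
        by_cases h : (r : ℕ) < k
        · simp [h]
        · by_cases hr : r = k
          · subst hr
            simp
          · have h4 : (k : ℕ) < r := by
              have : (r : ℕ) ≠ k := fun h5 => hr (Fin.ext h5)
              omega
            simp [h, hr, h1 r h4]
      · exact (h2 r).symm
    right_inv := by
      rintro ⟨c, x, hx⟩
      simp only [Sum.elim_inl, lt_irrefl, dite_false, if_true, Prod.mk.injEq]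
      constructor
      · funext j
        simp [j.2]
      · trivial }

theorem card_Zk [Fintype F] {q : ℕ} (hF : Fintype.card F = q) (k : Fin m) : Nat.card (Zk m F k) = q ^ (k : ℕ) * (q - 1) := by
  classical
  rw [Nat.card_congr (ZkEquiv k), Nat.card_prod]
  congr 1
  · rw [Nat.card_fun, Nat.card_eq_fintype_card (α := F), hF]
    congr 1
    have : {j : Fin m // (j : ℕ) < k} ≃ Fin k :=
      { toFun := fun j => ⟨j.1, j.2⟩
        invFun := fun i => ⟨⟨i.1, lt_trans i.2 k.2⟩, i.2⟩
        left_inv := fun _ => rfl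
        right_inv := fun _ => rfl }
    rw [Nat.card_congr this]
    simp
  · rw [Nat.card_eq_fintype_card, Fintype.card_subtype_compl, hF]
    simp

end

/-- Borel subgroup of the symplectic group: the elements of Sp_2m(q) stabilising each of the totally isotropic coordinate subspaces ⟨e_0, ..., e_k⟩ (k < m) form a subgroup of order q^(m²) (q − 1)^m. -/
theorem result {F : Type*} [Field F] [Fintype F] {q : ℕ} (hF : Fintype.card F = q) (m : ℕ) : Nat.card ↥(⨅ k : Fin m, Cfsg.stabilizing (Cfsg.spToMat m F) {v : Fin m ⊕ Fin m → F | (∀ i : Fin m, (k : ℕ) < (i : ℕ) → v (Sum.inl i) = 0) ∧ ∀ i : Fin m, v (Sum.inr i) = 0}) = q ^ (m ^ 2) * (q - 1) ^ m := by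
  classical
  have hq1 : 1 ≤ q := by
    have : 1 < Fintype.card F := Fintype.one_lt_card
    omega
  let e : Fin m → (Fin m ⊕ Fin m → F) := fun i => Pi.single (Sum.inl i) 1
  have heFS : ∀ k, e k ∈ FS m F k := by
    intro k
    refine ⟨fun i hi => ?_, fun i => ?_⟩
    · have : (Sum.inl i : Fin m ⊕ Fin m) ≠ Sum.inl k := by
        intro h
        have := Sum.inl.inj h
        subst this
        omega
      simp [e, Pi.single_apply, this]
    · simp [e]
  have hdiag : ∀ k, e k (Sum.inl k) ≠ 0 := by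
    intro k
    simp [e]
  let x₀ : TI m m F := ⟨e, (li_iff e heFS).mpr hdiag, fun i j => form_FS (heFS i) (heFS j)⟩
  let Y : Set (TI m m F) := {y | ∀ k, y.1 k ∈ FS m F k}
  have hstep : ∀ (g : Matrix.symplecticGroup (Fin m) F), (∀ k, (g • x₀).1 k ∈ FS m F k) → ∀ k, ∀ v ∈ FS m F k, (g : Matrix (Fin m ⊕ Fin m) (Fin m ⊕ Fin m) F).mulVec v ∈ FS m F k := by
    intro g hg k v hv
    have h1 : v = ∑ j, v (Sum.inl j) • e j := by
      funext r
      rcases r with r | r
      · simp [e, Finset.sum_apply, Pi.single_apply]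
      · rw [hv.2 r]
        simp [e, Finset.sum_apply, Pi.single_apply]
    rw [h1, Matrix.mulVec_sum]
    refine Submodule.sum_mem _ fun j _ => ?_
    rw [Matrix.mulVec_smul]
    by_cases hj : j ≤ k
    · exact Submodule.smul_mem _ _ (FS_mono hj (hg j))
    · have h2 : v (Sum.inl j) = 0 := hv.1 j (by
        have : k < j := not_le.mp hj
        exact this)
      rw [h2, zero_smul]
      exact Submodule.zero_mem _
  have hiff : ∀ g : Matrix.symplecticGroup (Fin m) F,
      g ∈ (⨅ k : Fin m, Cfsg.stabilizing (Cfsg.spToMat m F) {v : Fin m ⊕ Fin m → F | (∀ i : Fin m, (k : ℕ) < (i : ℕ) → v (Sum.inl i) = 0) ∧ ∀ i : Fin m, v (Sum.inr i) = 0}) ↔ g • x₀ ∈ Y := by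
    intro g
    rw [Subgroup.mem_iInf]
    constructor
    · intro hg k
      exact (hg k _).mp (heFS k)
    · intro hg k v
      have h3 := hstep g hg k
      constructor
      · exact h3 v
      · intro hv
        let L : FS m F k → FS m F k := fun w => ⟨(g : Matrix (Fin m ⊕ Fin m) (Fin m ⊕ Fin m) F).mulVec w, h3 w w.2⟩
        have hL : Function.Injective L := by
          intro a a' h
          exact Subtype.ext (sp_mulVec_inj g (congrArg Subtype.val h))
        obtain ⟨w, hw⟩ := (Finite.injective_iff_surjective.mp hL) ⟨_, hv⟩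
        have h4 : (w : Fin m ⊕ Fin m → F) = v := sp_mulVec_inj g (congrArg Subtype.val hw)
        rw [← h4]
        exact w.2
  have hcount := fiber_count (G := Matrix.symplecticGroup (Fin m) F) x₀ Y
  have hleft : Nat.card ↥(⨅ k : Fin m, Cfsg.stabilizing (Cfsg.spToMat m F) {v : Fin m ⊕ Fin m → F | (∀ i : Fin m, (k : ℕ) < (i : ℕ) → v (Sum.inl i) = 0) ∧ ∀ i : Fin m, v (Sum.inr i) = 0}) = Nat.card {g : Matrix.symplecticGroup (Fin m) F // g • x₀ ∈ Y} :=
    Nat.card_congr (Equiv.subtypeEquivRight hiff)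
  have hY : Nat.card Y = ∏ k : Fin m, (q ^ (k : ℕ) * (q - 1)) := by
    simp only [← card_Zk hF]
    rw [← Nat.card_pi]
    apply Nat.card_congr
    exact
      { toFun := fun y k => ⟨y.1.1 k, y.2 k, (li_iff y.1.1 y.2).mp y.1.2.1 k⟩
        invFun := fun z => ⟨⟨fun k => (z k).1, (li_iff _ (fun k => (z k).2.1)).mpr (fun k => (z k).2.2),
          fun i j => form_FS (z i).2.1 (z j).2.1⟩, fun k => (z k).2.1⟩
        left_inv := fun y => rfl
        right_inv := fun z => rfl }
  rw [hleft]
  have hSp := Lead.card_Sp hF m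
  have harith := pure_arith hq1 m m le_rfl
  rw [Nat.sub_self] at harith
  simp only [Finset.range_zero, Finset.prod_empty, mul_one] at harith
  rw [card_TI hF, hY, hSp, ← harith] at hcount
  have hpos : 0 < ∏ i ∈ Finset.range m, (q ^ (2 * m - i) - q ^ i) := by
    rw [← card_TI (m := m) hF m]
    exact Nat.card_pos_iff.mpr ⟨⟨x₀⟩, inferInstance⟩
  apply Nat.eq_of_mul_eq_mul_right hpos
  rw [hcount]
  have h5 : ∏ k : Fin m, (q ^ (k : ℕ) * (q - 1)) = q ^ (∑ k : Fin m, (k : ℕ)) * (q - 1) ^ m := by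
    rw [Finset.prod_mul_distrib, Finset.prod_pow_eq_pow_sum]
    simp
  rw [h5]
  have h6 : ∑ k : Fin m, (k : ℕ) = m * (m - 1) / 2 := by
    rw [Fin.sum_univ_eq_sum_range (fun i => i) m, Finset.sum_range_id]
  have h7 : m * (m - 1) / 2 + m * (m + 1) / 2 = m ^ 2 := by
    have h8 : m * (m + 1) = m * (m - 1) + 2 * m := by
      cases m with
      | zero => simp
      | succ n =>
        simp only [Nat.add_sub_cancel]
        ring
    have h10 : m ^ 2 = m * (m - 1) + m := by
      cases m with
      | zero => simp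
      | succ n =>
        simp only [Nat.add_sub_cancel]
        ring
    obtain ⟨a, ha⟩ : 2 ∣ m * (m - 1) := (Nat.even_mul_pred_self m).two_dvd
    rw [h8, h10, ha]
    omega
  rw [h6, ← h7, pow_add]
  simp only [mul_zero, add_zero, zero_pow (two_ne_zero), pow_zero, mul_one]
  ring

end Cfsg.Agent.S0774
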