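import Cfsg.Statements.S0775
import Mathlib
import Cfsg.Agent.Lib.H03.SpPara

set_option autoImplicit false
open Cfsg

namespace Cfsg.Agent.S0775


/-- Maximal parabolics of the symplectic group: if W is a k-dimensional subspace of F^(2m) on which the symplectic form vanishes identically, its stabiliser in Sp_2m(q) has order q^(k(k+1)/2 + 2k(m−k)) · |Sp_(2m−2k)(q)| · |GL_k(q)|. -/
theorem result {F : Type*} [Field F] [Fintype F] {q : ℕ} (hF : Fintype.card F = q) (m k : ℕ) (hk : k ≤ m) (W : Submodule F (Fin m ⊕ Fin m → F)) (hWk : Module.finrank F W = k) (hW : ∀ u ∈ W, ∀ v ∈ W, Cfsg.sympForm m F u v = 0) : Nat.card ↥(Cfsg.stabilizing (Cfsg.spToMat m F) (W : Set (Fin m ⊕ Fin m → F))) = q ^ (k * (k + 1) / 2 + 2 * k * (m - k)) * (q ^ ((m - k) ^ 2) * ∏ i ∈ Finset.range (m - k), (q ^ (2 * (i + 1)) - 1)) * ∏ i : Fin k, (q ^ k - q ^ (i : ℕ)) := by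
  classical
  have hq1 : 1 ≤ q := by
    have : 1 < Fintype.card F := Fintype.one_lt_card
    omega
  let b := Module.finBasisOfFinrankEq F W hWk
  have hxLI : LinearIndependent F (fun i => (b i : Fin m ⊕ Fin m → F)) := by
    have := b.linearIndependent.map' W.subtype (Submodule.ker_subtype W)
    exact this
  let x₀ : Cfsg.Agent.H03.SpPara.TI m k F := ⟨fun i => (b i : Fin m ⊕ Fin m → F), hxLI, fun i j => hW _ (b i).2 _ (b j).2⟩
  let Y : Set (Cfsg.Agent.H03.SpPara.TI m k F) := {y | ∀ i, y.1 i ∈ W}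
  have hmem : ∀ (g : Matrix.symplecticGroup (Fin m) F), (∀ i, (g • x₀).1 i ∈ W) → ∀ v ∈ W, (g : Matrix (Fin m ⊕ Fin m) (Fin m ⊕ Fin m) F).mulVec v ∈ W := by
    intro g hg v hv
    have h1 := b.sum_repr ⟨v, hv⟩
    have h2 : v = ∑ i, b.repr ⟨v, hv⟩ i • (b i : Fin m ⊕ Fin m → F) := by
      have h5 : ((∑ i, b.repr ⟨v, hv⟩ i • b i : W) : Fin m ⊕ Fin m → F) = v := congrArg Subtype.val h1
      refine h5.symm.trans ?_
      rw [AddSubmonoidClass.coe_finset_sum]
      simp only [SetLike.val_smul]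
    rw [h2, Matrix.mulVec_sum]
    refine Submodule.sum_mem _ fun i _ => ?_
    rw [Matrix.mulVec_smul]
    exact Submodule.smul_mem _ _ (hg i)
  have hiff : ∀ g : Matrix.symplecticGroup (Fin m) F, g ∈ Cfsg.stabilizing (Cfsg.spToMat m F) (W : Set (Fin m ⊕ Fin m → F)) ↔ g • x₀ ∈ Y := by
    intro g
    constructor
    · intro hg i
      exact (hg _).mp (b i).2
    · intro hg v
      have h3 := hmem g hg
      constructor
      · exact h3 v
      · intro hv
        let L : W → W := fun w => ⟨(g : Matrix (Fin m ⊕ Fin m) (Fin m ⊕ Fin m) F).mulVec w, h3 w w.2⟩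
        have hL : Function.Injective L := by
          intro a a' h
          exact Subtype.ext (Cfsg.Agent.H03.SpPara.sp_mulVec_inj g (congrArg Subtype.val h))
        obtain ⟨w, hw⟩ := (Finite.injective_iff_surjective.mp hL) ⟨_, hv⟩
        have h4 : (w : Fin m ⊕ Fin m → F) = v := Cfsg.Agent.H03.SpPara.sp_mulVec_inj g (congrArg Subtype.val hw)
        rw [← h4]
        exact w.2
  have hcount := Cfsg.Agent.H03.SpPara.fiber_count (G := Matrix.symplecticGroup (Fin m) F) x₀ Y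
  have hleft : Nat.card ↥(Cfsg.stabilizing (Cfsg.spToMat m F) (W : Set (Fin m ⊕ Fin m → F))) = Nat.card {g : Matrix.symplecticGroup (Fin m) F // g • x₀ ∈ Y} :=
    Nat.card_congr (Equiv.subtypeEquivRight hiff)
  have hY : Nat.card Y = ∏ i : Fin k, (q ^ k - q ^ (i : ℕ)) := by
    let E : Y ≃ {s : Fin k → W // LinearIndependent F s} :=
      { toFun := fun y => ⟨fun i => ⟨y.1.1 i, y.2 i⟩, LinearIndependent.of_comp W.subtype y.1.2.1⟩
        invFun := fun s => ⟨⟨fun i => (s.1 i : Fin m ⊕ Fin m → F), s.2.map' W.subtype (Submodule.ker_subtype W), fun i j => hW _ (s.1 i).2 _ (s.1 j).2⟩, fun i => (s.1 i).2⟩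
        left_inv := fun y => rfl
        right_inv := fun s => rfl }
    rw [Nat.card_congr E, card_linearIndependent (by rw [hWk]), hWk, hF]
  rw [hleft]
  rw [Cfsg.Agent.H03.SpPara.card_TI hF, hY, Lead.card_Sp hF, ← Cfsg.Agent.H03.SpPara.pure_arith hq1 m k hk] at hcount
  have hpos : 0 < ∏ i ∈ Finset.range k, (q ^ (2 * m - i) - q ^ i) := by
    rw [← Cfsg.Agent.H03.SpPara.card_TI (m := m) hF k]
    exact Nat.card_pos_iff.mpr ⟨⟨x₀⟩, inferInstance⟩
  apply Nat.eq_of_mul_eq_mul_right hpos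
  rw [hcount]
  ring

end Cfsg.Agent.S0775
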