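import Cfsg.Statements.S0776
import Mathlib
import Cfsg.Agent.S0752
import Cfsg.Agent.Lib.H11.Symp2
import Cfsg.Agent.Lib.H11.SpReg
import Cfsg.Agent.Lib.H03.Block

set_option autoImplicit false
open Cfsg

namespace Cfsg.Agent.S0776

open Matrix Cfsg.Agent.H11

section
variable {F : Type*} [Field F] {m : ℕ}

theorem exists_sp (S : Submodule F (Fin m ⊕ Fin m → F)) (k : ℕ) (hdim : Module.finrank F S = 2 * k)
    (hS : ∀ u ∈ S, (∀ v ∈ S, Cfsg.sympForm m F u v = 0) → u = 0) :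
    ∃ e f : Fin k → (Fin m ⊕ Fin m → F), (∀ i, e i ∈ S) ∧ (∀ i, f i ∈ S) ∧
      (∀ i j, Cfsg.sympForm m F (e i) (f j) = if i = j then 1 else 0) ∧
      (∀ i j, Cfsg.sympForm m F (e i) (e j) = 0) ∧ (∀ i j, Cfsg.sympForm m F (f i) (f j) = 0) := by
  let BS : LinearMap.BilinForm F S := (sympBilin m F).domRestrict₁₂ S S
  have hBS : ∀ x y : S, BS x y = Cfsg.sympForm m F x y := fun _ _ => rfl
  have hAlt : BS.IsAlt := fun x => sympForm_self (x : Fin m ⊕ Fin m → F)
  obtain ⟨m', k', e, f, r, h1, h2, h3, h4, h5, h6⟩ := Cfsg.Agent.S0752.alt_family (F := F) (2 * k) S BS hAlt hdim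
  have hk' : k' = 0 := by
    by_contra hne
    have hj : 0 < k' := Nat.pos_of_ne_zero hne
    have hz := h5.ne_zero ⟨0, hj⟩
    apply hz
    apply Subtype.ext
    apply hS _ (r ⟨0, hj⟩).2
    intro v hv
    exact h4 ⟨0, hj⟩ ⟨v, hv⟩
  have hm' : m' = k := by omega
  subst hm'
  exact ⟨fun i => e i, fun i => f i, fun i => (e i).2, fun i => (f i).2, h1, h2, h3⟩

/-- The map of a symplectic family. -/
noncomputable def famMap {k : ℕ} (e f : Fin k → (Fin m ⊕ Fin m → F)) : (Fin k ⊕ Fin k → F) →ₗ[F] (Fin m ⊕ Fin m → F) :=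
  Fintype.linearCombination F (Sum.elim f e : Fin k ⊕ Fin k → (Fin m ⊕ Fin m → F))

theorem famMap_apply {k : ℕ} (e f : Fin k → (Fin m ⊕ Fin m → F)) (a : Fin k ⊕ Fin k → F) :
    famMap e f a = ∑ i, a (Sum.inl i) • f i + ∑ i, a (Sum.inr i) • e i := by
  simp [famMap, Fintype.linearCombination_apply, Fintype.sum_sum_type]

theorem sf_sum {k l : ℕ} (c : Fin k → F) (d : Fin l → F) (x : Fin k → (Fin m ⊕ Fin m → F)) (y : Fin l → (Fin m ⊕ Fin m → F)) :
    Cfsg.sympForm m F (∑ i, c i • x i) (∑ j, d j • y j) = ∑ i, ∑ j, c i * d j * Cfsg.sympForm m F (x i) (y j) := by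
  simp only [← sympBilin_apply, map_sum, map_smul, LinearMap.sum_apply, LinearMap.smul_apply, smul_eq_mul]
  simp only [Finset.mul_sum]
  rw [Finset.sum_comm]
  apply Finset.sum_congr rfl
  intro i _
  apply Finset.sum_congr rfl
  intro j _
  ring

theorem famMap_form {k : ℕ} (e f : Fin k → (Fin m ⊕ Fin m → F))
    (h1 : ∀ i j, Cfsg.sympForm m F (e i) (f j) = if i = j then 1 else 0)
    (h2 : ∀ i j, Cfsg.sympForm m F (e i) (e j) = 0) (h3 : ∀ i j, Cfsg.sympForm m F (f i) (f j) = 0)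
    (a a' : Fin k ⊕ Fin k → F) : Cfsg.sympForm m F (famMap e f a) (famMap e f a') = Cfsg.sympForm k F a a' := by
  rw [famMap_apply, famMap_apply, sympForm_add_left, sympForm_add_right, sympForm_add_right, sf_sum, sf_sum, sf_sum, sf_sum,
    sympForm_eq_sum (m := k)]
  simp only [h1, h2, h3, mul_zero, Finset.sum_const_zero, zero_add, add_zero]
  have h4 : ∀ i j, Cfsg.sympForm m F (f i) (e j) = -(if j = i then 1 else 0) := by
    intro i j
    rw [sympForm_comm, h1]
  simp only [h4, mul_neg, mul_ite, mul_one, mul_zero, Finset.sum_neg_distrib, Finset.sum_ite_eq', Finset.sum_ite_eq,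
    Finset.mem_univ, if_true]
  rw [Finset.sum_sub_distrib]
  ring

end

/-- If W ≤ F^(2m) is a 2k-dimensional subspace on which the symplectic form is non-degenerate, then the stabiliser of W in Sp_2m(F) is isomorphic to Sp_2k(F) × Sp_(2m−2k)(F). -/
theorem result {F : Type*} [Field F] (m k : ℕ) (hk : k ≤ m) (W : Submodule F (Fin m ⊕ Fin m → F)) (hWk : Module.finrank F W = 2 * k) (hW : ∀ u ∈ W, (∀ v ∈ W, Cfsg.sympForm m F u v = 0) → u = 0) : Nonempty (↥(Cfsg.stabilizing (Cfsg.spToMat m F) (W : Set (Fin m ⊕ Fin m → F))) ≃* Matrix.symplecticGroup (Fin k) F × Matrix.symplecticGroup (Fin (m - k)) F) := by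
  classical
  have hdimP : Module.finrank F ((sympBilin m F).orthogonal W) = 2 * (m - k) := by
    rw [finrank_symp_orthogonal, hWk]
    omega
  set P := (sympBilin m F).orthogonal W with hPdef
  have hP : ∀ x, x ∈ P ↔ ∀ w ∈ W, Cfsg.sympForm m F w x = 0 := fun x => mem_symp_orthogonal
  have hP' : ∀ x ∈ P, ∀ w ∈ W, Cfsg.sympForm m F x w = 0 := by
    intro x hx w hw
    rw [sympForm_comm, (hP x).mp hx w hw, neg_zero]
  have hWP : W ⊓ P = ⊥ := by
    rw [eq_bot_iff]
    rintro u ⟨huW, huP⟩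
    exact (Submodule.mem_bot F).mpr (hW u huW (hP' u huP))
  have hWPs : W ⊔ P = ⊤ := by
    apply Submodule.eq_top_of_finrank_eq
    have h1 := Submodule.finrank_sup_add_finrank_inf_eq W P
    rw [hWP, finrank_bot, add_zero, hWk, hdimP] at h1
    rw [h1, Module.finrank_fintype_fun_eq_card]
    simp only [Fintype.card_sum, Fintype.card_fin]
    omega
  have hPnd : ∀ u ∈ P, (∀ v ∈ P, Cfsg.sympForm m F u v = 0) → u = 0 := by
    intro u huP hu
    apply sympForm_left_eq_zero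
    intro y
    have hy : y ∈ W ⊔ P := by rw [hWPs]; trivial
    obtain ⟨y₁, hy₁, y₂, hy₂, rfl⟩ := Submodule.mem_sup.mp hy
    rw [sympForm_add_right, hP' u huP y₁ hy₁, hu y₂ hy₂, add_zero]
  obtain ⟨e, f, heW, hfW, h1, h2, h3⟩ := exists_sp W k hWk hW
  obtain ⟨e', f', heP, hfP, h1', h2', h3'⟩ := exists_sp P (m - k) hdimP hPnd
  let T₁ := famMap e f
  let T₂ := famMap e' f'
  have hT₁W : ∀ a, T₁ a ∈ W := by
    intro a
    rw [show T₁ a = famMap e f a from rfl, famMap_apply]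
    exact Submodule.add_mem _ (Submodule.sum_mem _ fun i _ => Submodule.smul_mem _ _ (hfW i))
      (Submodule.sum_mem _ fun i _ => Submodule.smul_mem _ _ (heW i))
  have hT₂P : ∀ b, T₂ b ∈ P := by
    intro a
    rw [show T₂ a = famMap e' f' a from rfl, famMap_apply]
    exact Submodule.add_mem _ (Submodule.sum_mem _ fun i _ => Submodule.smul_mem _ _ (hfP i))
      (Submodule.sum_mem _ fun i _ => Submodule.smul_mem _ _ (heP i))
  let Θ₀ : ((Fin k ⊕ Fin k → F) × (Fin (m - k) ⊕ Fin (m - k) → F)) →ₗ[F] (Fin m ⊕ Fin m → F) := LinearMap.coprod T₁ T₂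
  have hΘ₀ : ∀ a b, Θ₀ (a, b) = T₁ a + T₂ b := fun a b => by simp [Θ₀]
  have hform : ∀ a b a' b', Cfsg.sympForm m F (Θ₀ (a, b)) (Θ₀ (a', b')) = Cfsg.sympForm k F a a' + Cfsg.sympForm (m - k) F b b' := by
    intro a b a' b'
    rw [hΘ₀, hΘ₀, sympForm_add_left, sympForm_add_right, sympForm_add_right, (hP _).mp (hT₂P b') _ (hT₁W a), hP' _ (hT₂P b) _ (hT₁W a')]
    rw [famMap_form e f h1 h2 h3, famMap_form e' f' h1' h2' h3']
    ring
  have hz : ∀ (r : ℕ) (x : Fin r ⊕ Fin r → F), Cfsg.sympForm r F x 0 = 0 := by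
    intro r x
    simp [Cfsg.sympForm]
  have hz' : ∀ (r : ℕ) (x : Fin r ⊕ Fin r → F), Cfsg.sympForm r F 0 x = 0 := by
    intro r x
    simp [Cfsg.sympForm]
  have hinj : Function.Injective Θ₀ := by
    rw [injective_iff_map_eq_zero]
    rintro ⟨a, b⟩ h
    have h0 : ∀ a' b', Cfsg.sympForm k F a a' + Cfsg.sympForm (m - k) F b b' = 0 := by
      intro a' b'
      rw [← hform, h, hz']
    refine Prod.ext ?_ ?_
    · apply sympForm_left_eq_zero
      intro a'
      have := h0 a' 0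
      rwa [hz, add_zero] at this
    · apply sympForm_left_eq_zero
      intro b'
      have := h0 0 b'
      rwa [hz, zero_add] at this
  have hdim : Module.finrank F ((Fin k ⊕ Fin k → F) × (Fin (m - k) ⊕ Fin (m - k) → F)) = Module.finrank F (Fin m ⊕ Fin m → F) := by
    rw [Module.finrank_prod, Module.finrank_fintype_fun_eq_card, Module.finrank_fintype_fun_eq_card, Module.finrank_fintype_fun_eq_card]
    simp only [Fintype.card_sum, Fintype.card_fin]
    omega
  let Θ : ((Fin k ⊕ Fin k → F) × (Fin (m - k) ⊕ Fin (m - k) → F)) ≃ₗ[F] (Fin m ⊕ Fin m → F) := LinearEquiv.ofInjectiveOfFinrankEq Θ₀ hinj hdim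
  have hΘapp : ∀ x, Θ x = Θ₀ x := fun x => rfl
  have hWiff : ∀ v, v ∈ (W : Set (Fin m ⊕ Fin m → F)) ↔ ∃ a, v = Θ (a, 0) := by
    intro v
    constructor
    · intro hv
      obtain ⟨⟨a, b⟩, rfl⟩ := Θ.surjective v
      refine ⟨a, ?_⟩
      rw [hΘapp] at hv ⊢
      rw [hΘ₀] at hv
      have h3' : T₂ b ∈ W := by
        have := Submodule.sub_mem W hv (hT₁W a)
        rwa [add_sub_cancel_left] at this
      have h5 : T₂ b = 0 := hW _ h3' (hP' _ (hT₂P b))
      have h6 : (0, b) = (0 : (Fin k ⊕ Fin k → F) × (Fin (m - k) ⊕ Fin (m - k) → F)) := hinj (by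
        rw [hΘ₀, h5, map_zero, map_zero, add_zero])
      have hb : b = 0 := congrArg Prod.snd h6
      rw [hb]
      rfl
    · rintro ⟨a, rfl⟩
      rw [hΘapp, hΘ₀, map_zero, add_zero]
      exact hT₁W a
  exact Cfsg.Agent.H03.Block.block_equiv (Cfsg.spToMat m F) (Cfsg.spToMat k F) (Cfsg.spToMat (m - k) F)
    (Cfsg.sympForm m F) (Cfsg.sympForm k F) (Cfsg.sympForm (m - k) F) Θ (W : Set (Fin m ⊕ Fin m → F))
    Subtype.val_injective Subtype.val_injective Subtype.val_injective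
    (fun h u v => sympForm_mulVec h.2 u v) (fun M _ hM => ⟨⟨M, mem_symplectic_of_preserves hM⟩, rfl⟩)
    (fun h u v => sympForm_mulVec h.2 u v) (fun M _ hM => ⟨⟨M, mem_symplectic_of_preserves hM⟩, rfl⟩)
    (fun h u v => sympForm_mulVec h.2 u v) (fun M _ hM => ⟨⟨M, mem_symplectic_of_preserves hM⟩, rfl⟩)
    hform hWiff (hz' k) (hz (m - k)) (fun a ha => sympForm_left_eq_zero a ha)

end Cfsg.Agent.S0776
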