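import Cfsg.Statements.S0778
import Mathlib

set_option autoImplicit false
open Cfsg

namespace Cfsg.Agent.S0778

open Matrix
open scoped MatrixGroups

variable {F : Type*} [Field F] {m : ℕ}

/-- the block matrix -/
def diagM (X : GL (Fin m) F) : Matrix (Fin m ⊕ Fin m) (Fin m ⊕ Fin m) F :=
  fromBlocks (X : Matrix (Fin m) (Fin m) F) 0 0 ((X⁻¹ : GL (Fin m) F) : Matrix (Fin m) (Fin m) F)ᵀ

lemma inv_mul_val (X : GL (Fin m) F) :
    ((X⁻¹ : GL (Fin m) F) : Matrix (Fin m) (Fin m) F) * (X : Matrix (Fin m) (Fin m) F) = 1 := by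
  rw [← Units.val_mul, inv_mul_cancel]; rfl

lemma mul_inv_val (X : GL (Fin m) F) :
    (X : Matrix (Fin m) (Fin m) F) * ((X⁻¹ : GL (Fin m) F) : Matrix (Fin m) (Fin m) F) = 1 := by
  rw [← Units.val_mul, mul_inv_cancel]; rfl

lemma diagM_mem (X : GL (Fin m) F) : diagM X ∈ Matrix.symplecticGroup (Fin m) F := by
  rw [SymplecticGroup.mem_iff']
  simp only [diagM, J, fromBlocks_transpose, fromBlocks_multiply, transpose_transpose, transpose_zero]
  simp only [Matrix.mul_zero, Matrix.zero_mul, add_zero, zero_add, Matrix.mul_neg, Matrix.neg_mul, Matrix.mul_one, Matrix.one_mul]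
  rw [inv_mul_val, ← Matrix.transpose_mul, inv_mul_val, transpose_one, neg_zero]

lemma diagM_mul (X Y : GL (Fin m) F) : diagM (X * Y) = diagM X * diagM Y := by
  simp only [diagM, fromBlocks_multiply, Matrix.mul_zero, Matrix.zero_mul, add_zero, zero_add, _root_.mul_inv_rev, Units.val_mul, Matrix.transpose_mul]

lemma diagM_mulVec_inl (X : GL (Fin m) F) (v : Fin m ⊕ Fin m → F) (i : Fin m) :
    (diagM X *ᵥ v) (Sum.inl i) = ((X : Matrix (Fin m) (Fin m) F) *ᵥ (fun j => v (Sum.inl j))) i := by
  simp [diagM, Matrix.mulVec, dotProduct, Fintype.sum_sum_type]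

lemma diagM_mulVec_inr (X : GL (Fin m) F) (v : Fin m ⊕ Fin m → F) (i : Fin m) :
    (diagM X *ᵥ v) (Sum.inr i) = (((X⁻¹ : GL (Fin m) F) : Matrix (Fin m) (Fin m) F)ᵀ *ᵥ (fun j => v (Sum.inr j))) i := by
  simp [diagM, Matrix.mulVec, dotProduct, Fintype.sum_sum_type]


/-- The elements of Sp_2m(F) stabilising both W = ⟨e_1..e_m⟩ and U = ⟨f_1..f_m⟩ form a subgroup isomorphic to GL_m(F) (block-diagonal matrices diag(X, X^(−ᵀ)) up to the sign convention of J), for m ≥ 1 or m = 0 alike. -/
theorem result {F : Type*} [Field F] (m : ℕ) : Nonempty (↥(Cfsg.stabilizing (Cfsg.spToMat m F) {v : Fin m ⊕ Fin m → F | ∀ i : Fin m, v (Sum.inr i) = 0} ⊓ Cfsg.stabilizing (Cfsg.spToMat m F) {v : Fin m ⊕ Fin m → F | ∀ i : Fin m, v (Sum.inl i) = 0}) ≃* Matrix.GeneralLinearGroup (Fin m) F) := by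
  classical
  let G := Matrix.symplecticGroup (Fin m) F
  let S₁ : Set (Fin m ⊕ Fin m → F) := {v | ∀ i : Fin m, v (Sum.inr i) = 0}
  let S₂ : Set (Fin m ⊕ Fin m → F) := {v | ∀ i : Fin m, v (Sum.inl i) = 0}
  have hmem : ∀ X : GL (Fin m) F, (⟨diagM X, diagM_mem X⟩ : G) ∈ Cfsg.stabilizing (Cfsg.spToMat m F) S₁ ⊓ Cfsg.stabilizing (Cfsg.spToMat m F) S₂ := by
    intro X
    constructor
    · intro v
      change (∀ i, v (Sum.inr i) = 0) ↔ (∀ i, (diagM X *ᵥ v) (Sum.inr i) = 0)
      constructor
      · intro h i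
        rw [diagM_mulVec_inr]
        have : (fun j => v (Sum.inr j)) = 0 := funext h
        rw [this, Matrix.mulVec_zero]
        rfl
      · intro h i
        have h1 : ((X⁻¹ : GL (Fin m) F) : Matrix (Fin m) (Fin m) F)ᵀ *ᵥ (fun j => v (Sum.inr j)) = 0 := by
          funext c
          rw [← diagM_mulVec_inr]
          exact h c
        have h2 := congrArg (fun w => (X : Matrix (Fin m) (Fin m) F)ᵀ *ᵥ w) h1
        simp only [Matrix.mulVec_mulVec, ← Matrix.transpose_mul, inv_mul_val, transpose_one, Matrix.one_mulVec, Matrix.mulVec_zero] at h2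
        exact congrFun h2 i
    · intro v
      change (∀ i, v (Sum.inl i) = 0) ↔ (∀ i, (diagM X *ᵥ v) (Sum.inl i) = 0)
      constructor
      · intro h i
        rw [diagM_mulVec_inl]
        have : (fun j => v (Sum.inl j)) = 0 := funext h
        rw [this, Matrix.mulVec_zero]
        rfl
      · intro h i
        have h1 : (X : Matrix (Fin m) (Fin m) F) *ᵥ (fun j => v (Sum.inl j)) = 0 := by
          funext c
          rw [← diagM_mulVec_inl]
          exact h c
        have h2 := congrArg (fun w => ((X⁻¹ : GL (Fin m) F) : Matrix (Fin m) (Fin m) F) *ᵥ w) h1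
        simp only [Matrix.mulVec_mulVec, inv_mul_val, Matrix.one_mulVec, Matrix.mulVec_zero] at h2
        exact congrFun h2 i
  let φ : GL (Fin m) F →* ↥(Cfsg.stabilizing (Cfsg.spToMat m F) S₁ ⊓ Cfsg.stabilizing (Cfsg.spToMat m F) S₂) :=
    { toFun := fun X => ⟨⟨diagM X, diagM_mem X⟩, hmem X⟩
      map_one' := by
        apply Subtype.ext
        apply Subtype.ext
        change diagM 1 = 1
        simp [diagM]
      map_mul' := by
        intro X Y
        apply Subtype.ext
        apply Subtype.ext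
        exact diagM_mul X Y }
  have hinj : Function.Injective φ := by
    intro X Y h
    apply Units.ext
    have h1 : diagM X = diagM Y := congrArg (fun z => (z.1.1 : Matrix (Fin m ⊕ Fin m) (Fin m ⊕ Fin m) F)) h
    ext i j
    have := congrFun (congrFun h1 (Sum.inl i)) (Sum.inl j)
    simpa [diagM] using this
  have hsurj : Function.Surjective φ := by
    rintro ⟨⟨g, hgsp⟩, hg1, hg2⟩
    -- blocks vanish
    have hC : ∀ i j, g (Sum.inr i) (Sum.inl j) = 0 := by
      intro i j
      have h1 : (Pi.single (Sum.inl j) 1 : Fin m ⊕ Fin m → F) ∈ S₁ := by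
        intro a
        simp
      have h2 := (hg1 _).mp h1 i
      simpa using h2
    have hB : ∀ i j, g (Sum.inl i) (Sum.inr j) = 0 := by
      intro i j
      have h1 : (Pi.single (Sum.inr j) 1 : Fin m ⊕ Fin m → F) ∈ S₂ := by
        intro a
        simp
      have h2 := (hg2 _).mp h1 i
      simpa using h2
    let A : Matrix (Fin m) (Fin m) F := g.toBlocks₁₁
    let D : Matrix (Fin m) (Fin m) F := g.toBlocks₂₂
    have hg : g = fromBlocks A 0 0 D := by
      ext i j
      rcases i with i | i <;> rcases j with j | j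
      · rfl
      · simpa using hB i j
      · simpa using hC i j
      · rfl
    have hsp := SymplecticGroup.mem_iff'.mp hgsp
    rw [hg] at hsp
    simp only [J, fromBlocks_transpose, fromBlocks_multiply, transpose_zero] at hsp
    simp only [Matrix.mul_zero, Matrix.zero_mul, add_zero, zero_add, Matrix.mul_neg, Matrix.neg_mul, Matrix.mul_one, Matrix.one_mul] at hsp
    have h21 : Dᵀ * A = 1 := by
      have := congrArg Matrix.toBlocks₂₁ hsp
      simpa using this
    have h12 : A * Dᵀ = 1 := mul_eq_one_comm.mp h21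
    let X : GL (Fin m) F := ⟨A, Dᵀ, h12, h21⟩
    refine ⟨X, ?_⟩
    apply Subtype.ext
    apply Subtype.ext
    change diagM X = g
    rw [hg]
    simp only [diagM]
    congr 1
  exact ⟨(MulEquiv.ofBijective φ ⟨hinj, hsurj⟩).symm⟩

end Cfsg.Agent.S0778
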