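import Cfsg.Statements.S0779
import Mathlib
import Cfsg.Agent.Lib.H03.Herm

set_option autoImplicit false
open Cfsg

namespace Cfsg.Agent.S0779


/-- Unitary transvections: let |F| = q², h the standard Hermitian form Σ x_i y_i^q and v ≠ 0 with h(v, v) = 0. The linear map x ↦ x + c h(x, v) v is an isometry of h if and only if c = 0 or c^(q−1) = −1. -/
theorem result {F : Type*} [Field F] [Fintype F] {q : ℕ} (hF : Fintype.card F = q ^ 2) (n : ℕ) (v : Fin n → F) (hv : v ≠ 0) (hv0 : Cfsg.hermForm n F q v v = 0) (c : F) : (∀ x y : Fin n → F, Cfsg.hermForm n F q ((Cfsg.unitaryTransvection n q v c).mulVec x) ((Cfsg.unitaryTransvection n q v c).mulVec y) = Cfsg.hermForm n F q x y) ↔ (c = 0 ∨ c ^ (q - 1) = -1) := by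
  classical
  have hq0 : 0 < q := by
    rcases Nat.eq_zero_or_pos q with h | h
    · subst h
      have := Fintype.card_pos (α := F)
      simp at hF
    · exact h
  obtain ⟨φ, hφ⟩ := Cfsg.Agent.H03.exists_frob hF
  have hT : ∀ x, (Cfsg.unitaryTransvection n q v c).mulVec x = x + (c * Cfsg.hermForm n F q x v) • v := by
    intro x
    rw [Cfsg.unitaryTransvection, Matrix.add_mulVec, Matrix.one_mulVec, Matrix.smul_mulVec, Matrix.vecMulVec_mulVec]
    funext i
    simp only [Pi.add_apply, Pi.smul_apply, smul_eq_mul, MulOpposite.smul_eq_mul_unop, MulOpposite.unop_op]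
    congr 1
    have : (fun j => v j ^ q) ⬝ᵥ x = Cfsg.hermForm n F q x v := by
      simp only [dotProduct, Cfsg.hermForm]
      exact Finset.sum_congr rfl fun j _ => mul_comm _ _
    rw [this]; ring
  have hconj : ∀ y, (Cfsg.hermForm n F q y v) ^ q = Cfsg.hermForm n F q v y := by
    intro y
    simp only [Cfsg.hermForm]
    rw [← hφ, map_sum]
    refine Finset.sum_congr rfl fun i _ => ?_
    rw [map_mul, hφ, hφ, Cfsg.Agent.H03.frob_frob hF, mul_comm]
  have hform : ∀ x y, Cfsg.hermForm n F q ((Cfsg.unitaryTransvection n q v c).mulVec x) ((Cfsg.unitaryTransvection n q v c).mulVec y) = Cfsg.hermForm n F q x y + (c + c ^ q) * (Cfsg.hermForm n F q x v * Cfsg.hermForm n F q v y) := by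
    intro x y
    rw [hT, hT]
    set a := c * Cfsg.hermForm n F q x v with ha
    set b := c * Cfsg.hermForm n F q y v with hb
    have hexp : Cfsg.hermForm n F q (x + a • v) (y + b • v) = Cfsg.hermForm n F q x y + b ^ q * Cfsg.hermForm n F q x v + a * Cfsg.hermForm n F q v y + a * b ^ q * Cfsg.hermForm n F q v v := by
      simp only [Cfsg.hermForm, Finset.mul_sum, ← Finset.sum_add_distrib]
      refine Finset.sum_congr rfl fun i _ => ?_
      simp only [Pi.add_apply, Pi.smul_apply, smul_eq_mul]
      have h7 : (y i + b * v i) ^ q = y i ^ q + b ^ q * v i ^ q := by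
        rw [← hφ, map_add, map_mul, hφ, hφ, hφ]
      rw [h7]
      ring
    rw [hexp, hv0]
    have hbq : b ^ q = c ^ q * Cfsg.hermForm n F q v y := by
      rw [hb, mul_pow, hconj]
    rw [hbq, ha]
    ring
  have hcq : c ^ q = c ^ (q - 1) * c := by
    rw [← pow_succ]; congr 1; omega
  constructor
  · intro h
    have hex : ∃ i, v i ≠ 0 := by
      by_contra hall
      push Not at hall
      exact hv (funext hall)
    obtain ⟨i, hi⟩ := hex
    have h1 := h (Pi.single i 1) (Pi.single i 1)
    rw [hform] at h1
    have h2 : (c + c ^ q) * (Cfsg.hermForm n F q (Pi.single i 1) v * Cfsg.hermForm n F q v (Pi.single i 1)) = 0 := by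
      linear_combination h1
    have hA : Cfsg.hermForm n F q (Pi.single i 1) v = v i ^ q := by
      simp [Cfsg.hermForm, Pi.single_apply]
    have hB : Cfsg.hermForm n F q v (Pi.single i 1) = v i := by
      simp only [Cfsg.hermForm, Pi.single_apply, ite_pow, one_pow, zero_pow hq0.ne']
      simp
    rw [hA, hB] at h2
    have h3 : c + c ^ q = 0 := by
      refine (mul_eq_zero.mp h2).resolve_right ?_
      exact mul_ne_zero (pow_ne_zero _ hi) hi
    by_cases hc : c = 0
    · exact Or.inl hc
    · right
      rw [hcq] at h3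
      have h4 : c * (1 + c ^ (q - 1)) = 0 := by linear_combination h3
      have h5 := (mul_eq_zero.mp h4).resolve_left hc
      linear_combination h5
  · intro h x y
    rw [hform]
    have h0 : c + c ^ q = 0 := by
      rcases h with rfl | h
      · rw [zero_pow hq0.ne']; simp
      · rw [hcq, h]; ring
    rw [h0]; ring

end Cfsg.Agent.S0779
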