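import Cfsg.Statements.S0780
import Mathlib
import Cfsg.Agent.Lib.H03.SUGen3
import Cfsg.Agent.Lib.H27.GeoSUGen

set_option autoImplicit false
open Cfsg

namespace Cfsg.Agent.S0780

lemma exists_lam {F : Type*} [Field F] [Fintype F] {q : ℕ} (hF : Fintype.card F = q ^ 2) (hq : 3 ≤ q) :
    ∃ lam : F, lam ≠ 0 ∧ lam ≠ 1 ∧ lam ^ q = lam := by
  classical
  obtain ⟨g, hg⟩ := IsCyclic.exists_generator (α := Fˣ)
  have hord : orderOf g = q ^ 2 - 1 := by
    rw [orderOf_eq_card_of_forall_mem_zpowers hg, Nat.card_eq_fintype_card, Fintype.card_units, hF]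
  obtain ⟨r, rfl⟩ : ∃ r, q = r + 3 := ⟨q - 3, by omega⟩
  have hsq : (r + 3) ^ 2 - 1 = (r + 3 - 1) * (r + 3 + 1) := by
    have : (r + 3) ^ 2 = (r + 2) * (r + 4) + 1 := by ring
    have h2 : r + 3 - 1 = r + 2 := rfl
    rw [this, h2]
    rfl
  refine ⟨((g ^ (r + 3 + 1) : Fˣ) : F), Units.ne_zero _, ?_, ?_⟩
  · intro h
    have h1 : g ^ (r + 3 + 1) = 1 := Units.ext h
    have h2 := orderOf_dvd_of_pow_eq_one h1
    rw [hord, hsq] at h2
    have h3 := Nat.le_of_dvd (by omega) h2
    have h4 : r + 3 - 1 = r + 2 := rfl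
    rw [h4] at h3
    nlinarith
  · have h1 : (g ^ (r + 3 + 1)) ^ (r + 3) = g ^ (r + 3 + 1) := by
      have h2 : g ^ ((r + 3) ^ 2 - 1) = 1 := by
        rw [← hord]; exact pow_orderOf_eq_one g
      rw [hsq] at h2
      have h3 : (r + 3 + 1) * (r + 3) = (r + 3 - 1) * (r + 3 + 1) + (r + 3 + 1) := by
        have h4 : r + 3 - 1 = r + 2 := rfl
        rw [h4]
        ring
      rw [← pow_mul, h3, pow_add, h2, one_mul]
    exact congrArg Units.val h1

/-- Generation of SU_n(q), n ≥ 3, (n, q) ≠ (3, 2), by unitary transvections: the subgroup generated by the elements whose matrix is x ↦ x + c h(x, v) v with v isotropic is all of SU_n(q). -/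
theorem result {F : Type*} [Field F] [Fintype F] {q : ℕ} (hF : Fintype.card F = q ^ 2) (n : ℕ) (hn : 3 ≤ n) (h32 : ¬ (n = 3 ∧ q = 2)) : Subgroup.closure {A : ↥(Cfsg.SU n F q) | ∃ (v : Fin n → F) (c : F), Cfsg.hermForm n F q v v = 0 ∧ ((A : Matrix.SpecialLinearGroup (Fin n) F) : Matrix (Fin n) (Fin n) F) = Cfsg.unitaryTransvection n q v c} = ⊤ := by
  classical
  have hq2 := Lead.two_le_q hF
  change H03.SUG.TT n F q = ⊤
  by_cases hq : q = 2
  · subst hq
    have hn4 : 4 ≤ n := by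
      by_contra hlt
      exact h32 ⟨by omega, rfl⟩
    obtain ⟨σ, hS⟩ := H28.exists_hs hF
    let φ : Cfsg.SU n F 2 →* GL (Fin n) F := (Matrix.SpecialLinearGroup.toGL).comp (Cfsg.SU n F 2).subtype
    have hφ : Function.Injective φ := by
      intro a b hab
      apply Subtype.ext
      apply Subtype.ext
      exact congrArg Units.val hab
    have hAll : H27.SG.AllT hS ((H03.SUG.TT n F 2).map φ) := by
      intro u hu a ha
      have hm := H28.ut_mem hS hu ha
      have hdet : ((H28.ut hS hu a : GL (Fin n) F) : Matrix (Fin n) (Fin n) F).det = 1 := by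
        have h0 := hm.2
        exact Units.ext_iff.1 (MonoidHom.mem_ker.1 h0)
      let A : Cfsg.SU n F 2 := ⟨⟨((H28.ut hS hu a : GL (Fin n) F) : Matrix (Fin n) (Fin n) F), hdet⟩, hm.1⟩
      refine ⟨A, ?_, Units.ext rfl⟩
      apply Subgroup.subset_closure
      refine ⟨u, a, hu, ?_⟩
      apply Matrix.mulVec_injective
      funext x
      rw [H03.SUG.ut_mulVec' hF]
      exact H28.ut_mulVec hS hu a x
    have hle := H27.SG.gsu_le hS hn4 hAll
    rw [eq_top_iff]
    intro g _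
    have hg : φ g ∈ H28.GSU n F 2 := by
      refine ⟨g.2, ?_⟩
      show φ g ∈ Cfsg.Geo.specialLinear (Fin n) F
      apply MonoidHom.mem_ker.2
      apply Units.ext
      exact (g : Matrix.SpecialLinearGroup (Fin n) F).2
    obtain ⟨t, ht, hte⟩ := hle hg
    rwa [← hφ hte]
  · obtain ⟨lam, h1, h2, h3⟩ := exists_lam hF (by omega)
    exact H03.SUG.TT_eq_top_of_lam hF h1 h2 h3 hn

end Cfsg.Agent.S0780
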