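import Cfsg.Statements.S0781
import Mathlib
import Cfsg.Agent.Lib.Lead.PSUGen
import Cfsg.Agent.S0779

set_option autoImplicit false
open Cfsg

namespace Cfsg.Agent.S0781


/-- In SU_n(q) with n ≥ 4, or n = 3 and q > 2, every element whose matrix is a unitary transvection x ↦ x + c h(x, v) v (v isotropic) is a commutator ⁅B, C⁆ of two elements of SU_n(q). -/
theorem result {F : Type*} [Field F] [Fintype F] {q : ℕ} (hF : Fintype.card F = q ^ 2) (n : ℕ) (hn : 4 ≤ n ∨ (n = 3 ∧ 3 ≤ q)) (A : ↥(Cfsg.SU n F q)) (v : Fin n → F) (c : F) (hv0 : Cfsg.hermForm n F q v v = 0) (hA : ((A : Matrix.SpecialLinearGroup (Fin n) F) : Matrix (Fin n) (Fin n) F) = Cfsg.unitaryTransvection n q v c) : A ∈ commutatorSet ↥(Cfsg.SU n F q) := by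
  classical
  open Matrix Cfsg.Agent.Lead Cfsg.Agent.Lead.PSU Cfsg.Agent.H12.UTrans in
  have hq2 := two_le_q hF
  have hn3 : 3 ≤ n := by
    rcases hn with h | h <;> omega
  have hn0 : 0 < n := by omega
  have hq0 : 0 < q := by omega
  -- the trivial cases
  have htriv : (c = 0 ∨ v = 0) → A ∈ commutatorSet ↥(Cfsg.SU n F q) := by
    intro h
    have hA1 : A = 1 := by
      apply Subtype.ext
      apply Subtype.ext
      have h1 : ((A : Matrix.SpecialLinearGroup (Fin n) F) : Matrix (Fin n) (Fin n) F) = 1 := by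
        rw [hA]
        unfold Cfsg.unitaryTransvection
        rcases h with rfl | rfl
        · simp
        · ext i j
          simp [Matrix.vecMulVec_apply]
      exact h1
    rw [hA1]
    exact ⟨1, 1, by simp⟩
  by_cases hc0 : c = 0
  · exact htriv (Or.inl hc0)
  by_cases hv : v = 0
  · exact htriv (Or.inr hv)
  -- `c` has trace zero
  have hpres : ∀ x y : Fin n → F, Cfsg.hermForm n F q ((Cfsg.unitaryTransvection n q v c).mulVec x) ((Cfsg.unitaryTransvection n q v c).mulVec y) = Cfsg.hermForm n F q x y := by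
    intro x y
    rw [← hA]
    exact A.2 x y
  have hcq : c ^ q = - c := by
    rcases (Cfsg.Agent.S0779.result hF n v hv hv0 c).1 hpres with h | h
    · exact absurd h hc0
    · have h1 : c ^ q = c ^ (q - 1) * c := by
        rw [← pow_succ, Nat.sub_add_cancel (by omega)]
      rw [h1, h]
      ring
  -- a vector `w`
  obtain ⟨c₀, hc₀⟩ := exists_c hF
  obtain ⟨e₁, e₂, h11, h22, h12, hve⟩ := exists_frame hF hv hv0 hc₀
  have h21 : Cfsg.hermForm n F q e₂ e₁ = 0 := by
    rw [herm_conj hF e₁ e₂, h12, zero_pow (by omega)]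
  have hON : IsON (n := n) (F := F) q ![e₁, e₂] := by
    intro i j
    fin_cases i <;> fin_cases j <;> simp [h11, h22, h12, h21]
  obtain ⟨vv, hvv, hvv2⟩ := extend_ON hF (n - 2) 2 (by omega) ![e₁, e₂] hON
  let i₀ : Fin n := ⟨0, by omega⟩
  let i₁ : Fin n := ⟨1, by omega⟩
  let i₂ : Fin n := ⟨2, by omega⟩
  have he1 : vv i₀ = e₁ := hvv2 0
  have he2 : vv i₁ = e₂ := hvv2 1
  set w := vv i₂ with hw
  have hww : Cfsg.hermForm n F q w w = 1 := by
    have := hvv i₂ i₂
    simpa using this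
  have hw1 : Cfsg.hermForm n F q w e₁ = 0 := by
    have := hvv i₂ i₀
    rw [he1] at this
    simpa [i₂, i₀, Fin.ext_iff] using this
  have hw2 : Cfsg.hermForm n F q w e₂ = 0 := by
    have := hvv i₂ i₁
    rw [he2] at this
    simpa [i₂, i₁, Fin.ext_iff] using this
  have hwv : Cfsg.hermForm n F q w v = 0 := by
    rw [hve, herm_add_right hF, herm_smul_right hF, hw1, hw2]
    simp
  -- the parameters
  obtain ⟨ξ, hξ⟩ := exists_trace_eq hF (1 : F) (one_pow q)
  set α := c * ξ with hα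
  have hαα : α - α ^ q = c := by
    rw [hα, mul_pow, hcq]
    linear_combination c * hξ
  have hfix : ∀ y : Fin n → F, (- Cfsg.hermForm n F q y y) ^ q = - Cfsg.hermForm n F q y y := by
    intro y
    rw [neg_pow, neg_one_pow_q hF, ← herm_conj hF y y]
    ring
  obtain ⟨b, hb⟩ := exists_trace_eq hF _ (hfix (α • w))
  obtain ⟨b', hb'⟩ := exists_trace_eq hF _ (hfix w)
  have hadm : Adm q v (α • w) b := ⟨hv0, by rw [herm_smul_left, hwv, mul_zero], by rw [hb]; ring⟩
  have hadm' : Adm q v w b' := ⟨hv0, hwv, by rw [hb']; ring⟩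
  refine ⟨E hF hn0 v (α • w) b hadm, E hF hn0 v w b' hadm', ?_⟩
  rw [E_commutator]
  apply su_ext
  intro x
  rw [act_E]
  have h1 : Cfsg.hermForm n F q (α • w) w - Cfsg.hermForm n F q w (α • w) = c := by
    rw [herm_smul_left, herm_smul_right hF, hww, mul_one, mul_one, hαα]
  rw [h1]
  show _ = ((A : Matrix.SpecialLinearGroup (Fin n) F) : Matrix (Fin n) (Fin n) F) *ᵥ x
  rw [hA]
  unfold Efun
  rw [herm_zero_right hF, smul_zero, add_zero, sub_zero]
  funext k
  simp only [Cfsg.unitaryTransvection, Matrix.add_mulVec, Matrix.one_mulVec, Matrix.smul_mulVec,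
    Matrix.vecMulVec_mulVec, Pi.add_apply, Pi.smul_apply, smul_eq_mul, Cfsg.hermForm,
    MulOpposite.smul_eq_mul_unop, MulOpposite.unop_op, dotProduct]
  have h2 : (∑ i, v i ^ q * x i) = ∑ i, x i * v i ^ q :=
    Finset.sum_congr rfl fun i _ => mul_comm _ _
  rw [h2]
  ring

end Cfsg.Agent.S0781
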