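import Cfsg.Statements.S0782
import Mathlib
import Cfsg.Agent.Lib.H03.TIStab2

set_option autoImplicit false
open Cfsg

namespace Cfsg.Agent.S0782

open Cfsg Matrix Module Cfsg.Agent.Lead Cfsg.Agent.H03.TS

variable {F : Type*} [Field F] [Fintype F] {q : ℕ}

/-- order formula -/
def fT (q i : ℕ) : ℕ := if Even i then q ^ (i + 1) + 1 else q ^ (i + 1) - 1

/-- order formula -/
def guF (q m : ℕ) : ℕ := q ^ (m * (m - 1) / 2) * ∏ i ∈ Finset.range m, fT q i

/-- order formula -/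
def glP (q k : ℕ) : ℕ := ∏ i : Fin k, ((q ^ 2) ^ k - (q ^ 2) ^ (i : ℕ))

/-- order formula -/
def aF (q n k : ℕ) : ℕ := q ^ (k * (2 * n - 3 * k)) * glP q k * guF q (n - 2 * k)

lemma glP_succ (q k : ℕ) (hq : 1 ≤ q) : glP q (k + 1) = ((q ^ 2) ^ (k + 1) - 1) * (q ^ (2 * k) * glP q k) := by
  unfold glP
  rw [Fin.prod_univ_succ]
  simp only [Fin.val_zero, pow_zero, Fin.val_succ]
  congr 1
  have h1 : ∀ i : Fin k, (q ^ 2) ^ (k + 1) - (q ^ 2) ^ ((i : ℕ) + 1) = q ^ 2 * ((q ^ 2) ^ k - (q ^ 2) ^ (i : ℕ)) := by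
    intro i
    generalize q ^ 2 = Q
    rw [Nat.mul_sub, pow_succ Q k, pow_succ Q (i : ℕ), mul_comm _ Q, mul_comm _ Q]
  simp only [h1]
  rw [Finset.prod_mul_distrib, Finset.prod_const, Finset.card_univ, Fintype.card_fin, ← pow_mul]

lemma exp_id (m : ℕ) : (m + 2) * (m + 2 - 1) / 2 = m * (m - 1) / 2 + (2 * m + 1) := by
  cases m with
  | zero => rfl
  | succ r =>
    have h : (r + 1 + 2) * (r + 1 + 2 - 1) = (r + 1) * (r + 1 - 1) + 2 * (2 * (r + 1) + 1) := by
      simp only [Nat.add_sub_cancel]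
      have : r + 1 + 2 - 1 = r + 2 := by omega
      rw [this]
      ring
    rw [h, Nat.add_mul_div_left _ _ (by norm_num)]

lemma guF_succ (hF : Fintype.card F = q ^ 2) (m : ℕ) :
    guF q (m + 2) = q ^ (2 * m + 1) * ((hermCnt F q (m + 2) 0 - 1) * guF q m) := by
  have h1 := herm_card_zero hF (m + 2)
  change hermCnt F q (m + 2) 0 = _ at h1
  rw [h1, Nat.add_sub_cancel]
  unfold guF
  rw [exp_id, pow_add, Finset.prod_range_succ, Finset.prod_range_succ]
  have h2 : fT q m * fT q (m + 1) = if Even (m + 2) then (q ^ (m + 2) - 1) * (q ^ (m + 2 - 1) + 1) else (q ^ (m + 2) + 1) * (q ^ (m + 2 - 1) - 1) := by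
    unfold fT
    have h3 : m + 2 - 1 = m + 1 := rfl
    rw [h3]
    by_cases he : Even m
    · have he1 : ¬ Even (m + 1) := by
        rw [Nat.not_even_iff_odd]; exact he.add_one
      have he2 : Even (m + 2) := he.add (by decide)
      simp only [he, he1, he2, if_true, if_false]
      ring
    · have he1 : Even (m + 1) := (Nat.not_even_iff_odd.1 he).add_one
      have he2 : ¬ Even (m + 2) := by
        intro h5
        have : Even m := by
          have := (Nat.even_add.1 h5).2 (by decide)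
          exact this
        exact he this
      simp only [he, he1, he2, if_true, if_false]
      ring
  rw [← h2]
  ring

theorem T_mul_A (hF : Fintype.card F = q ^ 2) (k : ℕ) : ∀ n : ℕ, 2 * k ≤ n →
    Nat.card {Y : Submodule F (Fin n → F) // finrank F Y = k ∧ ∀ x ∈ Y, ∀ y ∈ Y, hermForm n F q x y = 0} * aF q n k = guF q n := by
  have hq2 := two_le_q hF
  induction k with
  | zero =>
    intro n _
    rw [T_zero]
    simp [aF, glP]
  | succ k ih =>
    intro n hn
    obtain ⟨m, rfl⟩ : ∃ m, n = m + 2 := ⟨n - 2, by omega⟩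
    have hm : 2 * k ≤ m := by omega
    have h1 := ih m hm
    have h2 := T_rec hF m k
    rw [guF_succ hF m, ← h1]
    have h3 : aF q (m + 2) (k + 1) = q ^ (2 * m + 1) * (((q ^ 2) ^ (k + 1) - 1) * aF q m k) := by
      unfold aF
      rw [glP_succ q k (by omega)]
      have h4 : m + 2 - 2 * (k + 1) = m - 2 * k := by omega
      rw [h4]
      obtain ⟨t, ht⟩ : ∃ t, 2 * m = t + 3 * k := ⟨2 * m - 3 * k, by omega⟩
      have h5 : 2 * (m + 2) - 3 * (k + 1) = t + 1 := by omega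
      have h6 : 2 * m - 3 * k = t := by omega
      rw [h5, h6]
      have h7 : q ^ ((k + 1) * (t + 1)) * q ^ (2 * k) = q ^ (2 * m + 1) * q ^ (k * t) := by
        rw [← pow_add, ← pow_add]
        congr 1
        rw [ht]
        ring
      calc q ^ ((k + 1) * (t + 1)) * (((q ^ 2) ^ (k + 1) - 1) * (q ^ (2 * k) * glP q k)) * guF q (m - 2 * k)
          = (q ^ ((k + 1) * (t + 1)) * q ^ (2 * k)) * (((q ^ 2) ^ (k + 1) - 1) * (glP q k * guF q (m - 2 * k))) := by ring
        _ = (q ^ (2 * m + 1) * q ^ (k * t)) * (((q ^ 2) ^ (k + 1) - 1) * (glP q k * guF q (m - 2 * k))) := by rw [h7]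
        _ = _ := by ring
    rw [h3]
    calc _ = q ^ (2 * m + 1) * ((Nat.card {W : Submodule F (Fin (m + 2) → F) // finrank F W = k + 1 ∧ ∀ x ∈ W, ∀ y ∈ W, hermForm (m + 2) F q x y = 0} *
      ((q ^ 2) ^ (k + 1) - 1)) * aF q m k) := by ring
      _ = _ := by rw [h2]; ring

/-- Maximal parabolics of SU_n(q): if W is a k-dimensional subspace of F^n (n ≥ 1, |F| = q²) on which the Hermitian form vanishes, then (q + 1) times the order of its stabiliser in SU_n(q) equals q^(k(2n−3k)) · |GL_k(q²)| · |GU_(n−2k)(q)|, where |GU_m(q)| = q^(m(m−1)/2) Π_(i=1..m) (q^i − (−1)^i). -/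
theorem result {F : Type*} [Field F] [Fintype F] {q : ℕ} (hF : Fintype.card F = q ^ 2) (n k : ℕ) (hn : 1 ≤ n) (hk : 2 * k ≤ n) (W : Submodule F (Fin n → F)) (hWk : Module.finrank F W = k) (hW : ∀ u ∈ W, ∀ v ∈ W, Cfsg.hermForm n F q u v = 0) : (q + 1) * Nat.card ↥((Cfsg.stabilizing (Cfsg.slToMat n F) (W : Set (Fin n → F))).subgroupOf (Cfsg.SU n F q)) = q ^ (k * (2 * n - 3 * k)) * (∏ i : Fin k, ((q ^ 2) ^ k - (q ^ 2) ^ (i : ℕ))) * (q ^ ((n - 2 * k) * ((n - 2 * k) - 1) / 2) * ∏ i ∈ Finset.range (n - 2 * k), (if Even i then q ^ (i + 1) + 1 else q ^ (i + 1) - 1)) := by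
  classical
  have hc := card_stab_eq hF hn hW
  rw [hc]
  have h1 := card_GU_orbit hF hW
  rw [hWk] at h1
  have h2 := T_mul_A hF k n hk
  have h3 : Nat.card (GU n F q) = guF q n := by
    rw [card_GU hF]
    rfl
  rw [h3, ← h2] at h1
  have hpos : 0 < Nat.card {Y : Submodule F (Fin n → F) // finrank F Y = k ∧ ∀ x ∈ Y, ∀ y ∈ Y, hermForm n F q x y = 0} := by
    haveI : Finite (Submodule F (Fin n → F)) := Finite.of_injective (fun W => (W : Set (Fin n → F))) (fun _ _ e => SetLike.coe_injective e)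
    haveI : Nonempty {Y : Submodule F (Fin n → F) // finrank F Y = k ∧ ∀ x ∈ Y, ∀ y ∈ Y, hermForm n F q x y = 0} := ⟨⟨W, hWk, hW⟩⟩
    exact Nat.card_pos
  have h4 := Nat.eq_of_mul_eq_mul_left hpos h1
  rw [← h4]
  rfl

end Cfsg.Agent.S0782
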