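import Cfsg.Statements.S0783
import Mathlib
import Cfsg.Agent.Lib.Lead.SUOrder

set_option autoImplicit false
open Cfsg

namespace Cfsg.Agent.S0783

open Matrix

theorem cyc_lemma {C : Type*} [Group C] [Finite C] [hc : IsCyclic C] (n : ℕ) :
    ∃ ψ : C →* Multiplicative (ZMod (Nat.gcd n (Nat.card C))), Function.Surjective ψ ∧
      ∀ x, ψ x = 1 ↔ ∃ l : C, x = l ^ n := by
  classical
  set N := Nat.card C with hN
  set d := Nat.gcd n N with hd
  have hdN : d ∣ N := Nat.gcd_dvd_right _ _
  have hdn : d ∣ n := Nat.gcd_dvd_left _ _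
  let e : Multiplicative (ZMod N) ≃* C := zmodCyclicMulEquiv hc
  let c : ZMod N →+ ZMod d := (ZMod.castHom hdN (ZMod d)).toAddMonoidHom
  have hNpos : NeZero N := ⟨Nat.card_pos.ne'⟩
  have hdpos : NeZero d := ⟨fun h => by
    rw [h, zero_dvd_iff] at hdN
    exact hNpos.out hdN⟩
  let ψ : C →* Multiplicative (ZMod d) := (AddMonoidHom.toMultiplicative c).comp e.symm.toMonoidHom
  have hψ : ∀ a : Multiplicative (ZMod N), ψ (e a) = Multiplicative.ofAdd (c a.toAdd) := by
    intro a
    simp [ψ]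
  refine ⟨ψ, ?_, ?_⟩
  · intro y
    obtain ⟨k, hk⟩ := ZMod.castHom_surjective hdN y.toAdd
    refine ⟨e (Multiplicative.ofAdd k), ?_⟩
    rw [hψ]
    show Multiplicative.ofAdd ((ZMod.castHom hdN (ZMod d)) k) = y
    rw [hk]
    rfl
  · intro x
    constructor
    · intro hx
      obtain ⟨a, rfl⟩ := e.surjective x
      rw [hψ] at hx
      have h0 : c a.toAdd = 0 := Multiplicative.ofAdd.injective hx
      set k : ZMod N := a.toAdd with hk
      have h1 : ((k.val : ℕ) : ZMod d) = 0 := by
        have : c k = ((k.val : ℕ) : ZMod d) := by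
          show (ZMod.castHom hdN (ZMod d)) k = _
          rw [ZMod.castHom_apply, ZMod.natCast_val]
        rw [← this]
        exact h0
      obtain ⟨t, ht⟩ := (ZMod.natCast_eq_zero_iff _ _).mp h1
      have hbez : ((d : ℤ) : ZMod N) = (n : ZMod N) * ((Nat.gcdA n N : ℤ) : ZMod N) := by
        rw [hd, Nat.gcd_eq_gcd_ab]
        push_cast
        simp
      have hk' : k = (n : ZMod N) * (((Nat.gcdA n N : ℤ) : ZMod N) * (t : ZMod N)) := by
        have h2 : k = ((k.val : ℕ) : ZMod N) := (ZMod.natCast_zmod_val k).symm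
        rw [h2, ht]
        push_cast at hbez ⊢
        rw [hbez]
        ring
      refine ⟨e (Multiplicative.ofAdd (((Nat.gcdA n N : ℤ) : ZMod N) * (t : ZMod N))), ?_⟩
      rw [← map_pow, ← ofAdd_nsmul, nsmul_eq_mul, ← hk']
      rfl
    · rintro ⟨l, rfl⟩
      rw [map_pow]
      show ψ l ^ n = 1
      have h2 : ∀ y : Multiplicative (ZMod d), y ^ n = 1 := by
        intro y
        show Multiplicative.ofAdd (n • y.toAdd) = 1
        rw [nsmul_eq_mul, (ZMod.natCast_eq_zero_iff n d).mpr hdn, zero_mul]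
        rfl
      exact h2 _
theorem cyc_lemma' {C : Type*} [Group C] [Finite C] [hc : IsCyclic C] (n N : ℕ) (hN : Nat.card C = N) :
    ∃ ψ : C →* Multiplicative (ZMod (Nat.gcd n N)), Function.Surjective ψ ∧
      ∀ x, ψ x = 1 ↔ ∃ l : C, x = l ^ n := by
  subst hN
  exact cyc_lemma n

section
variable {F : Type*} [Field F] [Fintype F] {q : ℕ}

/-- A scalar of norm one, as an element of `GU`. -/
noncomputable def scal (hF : Fintype.card F = q ^ 2) (n : ℕ) (l : Fˣ) (hl : (l : F) ^ (q + 1) = 1) : Cfsg.GU n F q :=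
  ⟨Matrix.GeneralLinearGroup.mkOfDetNeZero ((l : F) • (1 : Matrix (Fin n) (Fin n) F)) (by
      rw [Matrix.det_smul, Matrix.det_one, mul_one]
      exact pow_ne_zero _ l.ne_zero), by
    intro u v
    show Cfsg.hermForm n F q (((l : F) • (1 : Matrix (Fin n) (Fin n) F)) *ᵥ u) (((l : F) • (1 : Matrix (Fin n) (Fin n) F)) *ᵥ v) = _
    rw [Matrix.smul_mulVec, Matrix.smul_mulVec, Matrix.one_mulVec, Matrix.one_mulVec, Lead.herm_smul_left,
      Lead.herm_smul_right hF, ← mul_assoc, mul_comm (l : F), ← pow_succ, hl, one_mul]⟩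

theorem scal_coe (hF : Fintype.card F = q ^ 2) (n : ℕ) (l : Fˣ) (hl : (l : F) ^ (q + 1) = 1) :
    ((scal hF n l hl : Matrix.GeneralLinearGroup (Fin n) F) : Matrix (Fin n) (Fin n) F) = (l : F) • (1 : Matrix (Fin n) (Fin n) F) := rfl

theorem scal_central (hF : Fintype.card F = q ^ 2) (n : ℕ) (l : Fˣ) (hl : (l : F) ^ (q + 1) = 1) :
    scal hF n l hl ∈ Subgroup.center (Cfsg.GU n F q) := by
  rw [Subgroup.mem_center_iff]
  intro g
  apply Subtype.ext
  apply Units.ext
  show ((g : Matrix.GeneralLinearGroup (Fin n) F) : Matrix (Fin n) (Fin n) F) * ((l : F) • 1) = ((l : F) • 1) * ((g : Matrix.GeneralLinearGroup (Fin n) F) : Matrix (Fin n) (Fin n) F)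
  simp

/-- The centre consists of scalars. -/
theorem center_scalar (hF : Fintype.card F = q ^ 2) {n : ℕ} (hn : 2 ≤ n) (z : Cfsg.GU n F q) (hz : z ∈ Subgroup.center (Cfsg.GU n F q)) :
    ∃ l : Fˣ, ((z : Matrix.GeneralLinearGroup (Fin n) F) : Matrix (Fin n) (Fin n) F) = (l : F) • 1 := by
  classical
  have hq2 := Lead.two_le_q hF
  set M : Matrix (Fin n) (Fin n) F := ((z : Matrix.GeneralLinearGroup (Fin n) F) : Matrix (Fin n) (Fin n) F) with hM
  have hcomm : ∀ g : Cfsg.GU n F q, M * ((g : Matrix.GeneralLinearGroup (Fin n) F) : Matrix (Fin n) (Fin n) F) = ((g : Matrix.GeneralLinearGroup (Fin n) F) : Matrix (Fin n) (Fin n) F) * M := by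
    intro g
    have h1 := Subgroup.mem_center_iff.mp hz g
    have h2 := congrArg (fun x : Cfsg.GU n F q => ((x : Matrix.GeneralLinearGroup (Fin n) F) : Matrix (Fin n) (Fin n) F)) h1
    exact h2.symm
  -- an element of norm one different from one
  obtain ⟨x, hx1, hxn⟩ : ∃ x : F, x ≠ 1 ∧ x ^ (q + 1) = 1 := by
    have hc := Lead.card_norm_one hF
    have h3 : 1 < Nat.card {a : F // a ^ (q + 1) = 1} := by rw [hc]; omega
    haveI : Nontrivial {a : F // a ^ (q + 1) = 1} := Finite.one_lt_card_iff_nontrivial.mp h3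
    obtain ⟨a, ha⟩ := exists_ne (⟨1, one_pow _⟩ : {a : F // a ^ (q + 1) = 1})
    exact ⟨a.1, fun h => ha (Subtype.ext h), a.2⟩
  have hx0 : x ≠ 0 := by
    rintro rfl
    simp at hxn
  -- diagonal elements
  have hdiag : ∀ i j, i ≠ j → M i j = 0 := by
    intro i j hij
    let d : Fin n → F := fun a => if a = i then x else 1
    let Dm : Matrix (Fin n) (Fin n) F := Matrix.diagonal d
    have hdet : Dm.det ≠ 0 := by
      rw [Matrix.det_diagonal, Finset.prod_ne_zero_iff]
      intro a _
      simp only [d]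
      split_ifs
      · exact hx0
      · exact one_ne_zero
    let g : Cfsg.GU n F q := ⟨Matrix.GeneralLinearGroup.mkOfDetNeZero Dm hdet, by
      intro v w
      change Cfsg.hermForm n F q (Dm *ᵥ v) (Dm *ᵥ w) = Cfsg.hermForm n F q v w
      simp only [Cfsg.hermForm, Dm, Matrix.mulVec_diagonal]
      refine Finset.sum_congr rfl fun a _ => ?_
      by_cases ha : a = i
      · simp only [d, ha, if_true, mul_pow]
        rw [pow_succ] at hxn
        linear_combination (v i * w i ^ q) * hxn
      · simp [d, ha]⟩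
    have h4 : M * Dm = Dm * M := hcomm g
    have h5 := congrFun (congrFun h4 i) j
    rw [Matrix.mul_diagonal, Matrix.diagonal_mul] at h5
    simp only [d, if_pos rfl, if_neg (Ne.symm hij), mul_one] at h5
    have h6 : (x - 1) * M i j = 0 := by linear_combination -h5
    exact (mul_eq_zero.mp h6).resolve_left (sub_ne_zero.mpr hx1)
  have hconst : ∀ i j, M i i = M j j := by
    intro i j
    by_cases hij : i = j
    · rw [hij]
    let σ : Equiv.Perm (Fin n) := Equiv.swap i j
    let Pm : Matrix (Fin n) (Fin n) F := σ.permMatrix F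
    have hdet : Pm.det ≠ 0 := by
      rw [Matrix.det_permutation, Equiv.Perm.sign_swap hij]
      simp
    let g : Cfsg.GU n F q := ⟨Matrix.GeneralLinearGroup.mkOfDetNeZero Pm hdet, by
      intro v w
      change Cfsg.hermForm n F q (Pm *ᵥ v) (Pm *ᵥ w) = Cfsg.hermForm n F q v w
      rw [show Pm *ᵥ v = v ∘ σ from Matrix.permMatrix_mulVec σ, show Pm *ᵥ w = w ∘ σ from Matrix.permMatrix_mulVec σ]
      exact Equiv.sum_comp σ (fun a => v a * w a ^ q)⟩
    have h4 : M * Pm = Pm * M := hcomm g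
    let v₁ : Fin n → F := fun _ => 1
    have h5 : M *ᵥ (Pm *ᵥ v₁) = Pm *ᵥ (M *ᵥ v₁) := by
      rw [Matrix.mulVec_mulVec, Matrix.mulVec_mulVec, h4]
    have h6 : Pm *ᵥ v₁ = v₁ := by
      rw [show Pm *ᵥ v₁ = v₁ ∘ σ from Matrix.permMatrix_mulVec σ]
      rfl
    rw [h6, show Pm *ᵥ (M *ᵥ v₁) = (M *ᵥ v₁) ∘ σ from Matrix.permMatrix_mulVec σ] at h5
    have hMv : ∀ a, (M *ᵥ v₁) a = M a a := by
      intro a
      simp only [Matrix.mulVec, dotProduct, v₁, mul_one]
      rw [Finset.sum_eq_single a]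
      · intro b _ hb
        exact hdiag a b (Ne.symm hb)
      · simp
    have h7 := congrFun h5 i
    rw [hMv, Function.comp_apply, hMv] at h7
    rw [h7]
    simp [σ]
  let i₀ : Fin n := ⟨0, by omega⟩
  have hMs : M = M i₀ i₀ • 1 := by
    ext i j
    by_cases hij : i = j
    · subst hij
      simp [hconst i i₀]
    · simp [hdiag i j hij, hij]
  have ha : M i₀ i₀ ≠ 0 := by
    intro h0
    rw [h0, zero_smul] at hMs
    have hdet : M.det ≠ 0 := by
      have := (z : Matrix.GeneralLinearGroup (Fin n) F).isUnit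
      exact ((Matrix.isUnit_iff_isUnit_det _).mp this).ne_zero
    apply hdet
    rw [hMs]
    haveI : Nonempty (Fin n) := ⟨i₀⟩
    exact Matrix.det_zero
  exact ⟨Units.mk0 _ ha, hMs⟩

end

/-- PGU_n(q)/PSU_n(q) is cyclic of order (n, q+1): for n ≥ 2 and |F| = q² there is a surjective homomorphism from GU_n(q) onto the cyclic group of order gcd(n, q + 1) whose kernel is generated by the determinant-one elements together with the centre. -/
theorem result {F : Type*} [Field F] [Fintype F] {q : ℕ} (hF : Fintype.card F = q ^ 2) (n : ℕ) (hn : 2 ≤ n) : ∃ φ : ↥(Cfsg.GU n F q) →* Multiplicative (ZMod (Nat.gcd n (q + 1))), Function.Surjective φ ∧ φ.ker = (Matrix.GeneralLinearGroup.det : Matrix.GeneralLinearGroup (Fin n) F →* Fˣ).ker.subgroupOf (Cfsg.GU n F q) ⊔ Subgroup.center ↥(Cfsg.GU n F q) := by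
  classical
  have hq2 := Lead.two_le_q hF
  have hn1 : 1 ≤ n := by omega
  obtain ⟨φf, hφf⟩ := Lead.exists_frob hF
  -- the determinant onto the norm-one group
  let D := Lead.guDet (n := n) (F := F) (q := q)
  have hcardC : Nat.card D.range = q + 1 := Lead.card_range_guDet hF hn1
  haveI : Finite D.range := inferInstance
  obtain ⟨ψ, hψs, hψk⟩ := cyc_lemma' (C := D.range) n (q + 1) hcardC
  have hrange : ∀ l : D.range, ((l : Fˣ) : F) ^ (q + 1) = 1 := by
    rintro ⟨_, g, rfl⟩
    exact Lead.det_pow_of_GU hF g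
  have hmemr : ∀ l : Fˣ, (l : F) ^ (q + 1) = 1 → l ∈ D.range := by
    intro l hl
    obtain ⟨g, hg⟩ := Lead.exists_GU_det hF hn1 _ hl
    exact ⟨g, Units.ext hg⟩
  refine ⟨ψ.comp D.rangeRestrict, hψs.comp D.rangeRestrict_surjective, ?_⟩
  apply le_antisymm
  · intro x hx
    rw [MonoidHom.mem_ker, MonoidHom.comp_apply, hψk] at hx
    obtain ⟨l, hl⟩ := hx
    have hl1 := hrange l
    let s := scal hF n (l : Fˣ) hl1
    have hDs : D s = (l : Fˣ) ^ n := by
      apply Units.ext
      show ((s : Matrix.GeneralLinearGroup (Fin n) F) : Matrix (Fin n) (Fin n) F).det = _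
      rw [scal_coe, Matrix.det_smul, Matrix.det_one, mul_one]
      simp
    have hDx : D x = (l : Fˣ) ^ n := by
      have := congrArg Subtype.val hl
      simpa using this
    have h1 : x * s⁻¹ ∈ (Matrix.GeneralLinearGroup.det : Matrix.GeneralLinearGroup (Fin n) F →* Fˣ).ker.subgroupOf (Cfsg.GU n F q) := by
      rw [Subgroup.mem_subgroupOf, MonoidHom.mem_ker]
      show D (x * s⁻¹) = 1
      rw [map_mul, map_inv, hDx, hDs, mul_inv_cancel]
    have h2 : s ∈ Subgroup.center (Cfsg.GU n F q) := scal_central hF n _ hl1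
    have h3 := Subgroup.mul_mem_sup h1 h2
    rwa [inv_mul_cancel_right] at h3
  · rw [sup_le_iff]
    constructor
    · intro x hx
      rw [Subgroup.mem_subgroupOf, MonoidHom.mem_ker] at hx
      rw [MonoidHom.mem_ker, MonoidHom.comp_apply]
      have h1 : D.rangeRestrict x = 1 := by
        apply Subtype.ext
        exact hx
      rw [h1, map_one]
    · intro z hz
      obtain ⟨l, hl⟩ := center_scalar hF hn z hz
      -- norm of the scalar
      have hl1 : (l : F) ^ (q + 1) = 1 := by
        let i₀ : Fin n := ⟨0, by omega⟩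
        have h1 := z.2 (Pi.single i₀ 1) (Pi.single i₀ 1)
        have h2 : (Units.coeHom (Matrix (Fin n) (Fin n) F)) (z : Matrix.GeneralLinearGroup (Fin n) F) = (l : F) • 1 := hl
        rw [h2, Matrix.smul_mulVec, Matrix.one_mulVec, Lead.herm_smul_left, Lead.herm_smul_right hF, Lead.herm_single_single hF] at h1
        simp only [if_true, mul_one] at h1
        rw [pow_succ, mul_comm]
        exact h1
      rw [MonoidHom.mem_ker, MonoidHom.comp_apply, hψk]
      refine ⟨⟨l, hmemr l hl1⟩, ?_⟩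
      apply Subtype.ext
      apply Units.ext
      show ((z : Matrix.GeneralLinearGroup (Fin n) F) : Matrix (Fin n) (Fin n) F).det = _
      rw [hl, Matrix.det_smul, Matrix.det_one, mul_one]
      simp

end Cfsg.Agent.S0783
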