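import Cfsg.Statements.S0786
import Mathlib
import Cfsg.Agent.Lib.H03.OGen

set_option autoImplicit false
open Cfsg

namespace Cfsg.Agent.S0786


/-- Generation by reflections: if F is finite, Q is a quadratic form on F^n with non-degenerate polar form, and (|F|, n) ≠ (2, 4), then the isometry group of Q is generated by the reflections r_v, Q(v) ≠ 0. -/
theorem result {F : Type*} [Field F] [Fintype F] {n : ℕ} (Q : QuadraticForm F (Fin n → F)) (hQ : (QuadraticMap.polarBilin Q).Nondegenerate) (h : Fintype.card F ≠ 2 ∨ n ≠ 4) : Subgroup.closure {g : ↥(Cfsg.isometryGroup F ⇑Q) | ∃ v : Fin n → F, Q v ≠ 0 ∧ ((g : Matrix.GeneralLinearGroup (Fin n) F) : Matrix (Fin n) (Fin n) F) = Cfsg.reflectionMatrix ⇑Q v} = ⊤ := by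
  classical
  apply Cfsg.Agent.H03.OGen.closure_refl_eq_top Q hQ
  rw [Nat.card_eq_fintype_card]
  simpa using h

end Cfsg.Agent.S0786
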