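import Cfsg.Statements.S0787
import Mathlib
import Cfsg.Agent.Lib.H03.ODick
import Cfsg.Agent.Lib.H03.OSpin

set_option autoImplicit false
open Cfsg

namespace Cfsg.Agent.S0787

open Cfsg.Agent.H11 Cfsg.Agent.H03.OGen Cfsg.Agent.H03.ODick Cfsg.Agent.H03.OSpin Matrix
open scoped commutatorElement

lemma unique_of_le {G : Type*} [Group G] (A H : Subgroup G) (hA : A.index = 2) (hH : H.index = 2)
    (hle : A ≤ H) : H = A := by
  have h1 := Subgroup.relIndex_mul_index hle
  rw [hA, hH] at h1
  have h3 : A.relIndex H = 1 := by omega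
  exact le_antisymm (Subgroup.relIndex_eq_one.1 h3) hle


/-- Existence and uniqueness of Ω: if F is finite, n ≥ 2, Q is a quadratic form on F^n with non-degenerate polar form and (|F|, n) ≠ (2, 4), then the group of isometries of determinant one has a unique subgroup of index 2. -/
theorem result {F : Type*} [Field F] [Fintype F] {n : ℕ} (hn : 2 ≤ n) (Q : QuadraticForm F (Fin n → F)) (hQ : (QuadraticMap.polarBilin Q).Nondegenerate) (h : Fintype.card F ≠ 2 ∨ n ≠ 4) : ∃! H : Subgroup ↥(Cfsg.specialIsometryGroup F ⇑Q), H.index = 2 := by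
  classical
  have hG : Nat.card F ≠ 2 ∨ Fintype.card (Fin n) ≠ 4 := by
    rcases h with h | h
    · left; rwa [Nat.card_eq_fintype_card]
    · right; simpa using h
  have hcn : 2 ≤ Fintype.card (Fin n) := by simpa using hn
  have hr : 0 < Module.finrank F (Fin n → F) := by
    rw [Module.finrank_fintype_fun_eq_card]
    omega
  set SO := Cfsg.specialIsometryGroup F ⇑Q with hSO
  have hmem : ∀ g : ↥(Cfsg.isometryGroup F ⇑Q), g ∈ SO ↔
      ((g : Matrix.GeneralLinearGroup (Fin n) F) : Matrix (Fin n) (Fin n) F).det = 1 := by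
    intro g
    rw [hSO, Cfsg.specialIsometryGroup, MonoidHom.mem_ker, Units.ext_iff]
    rfl
  have hprod : ∀ u v (hu : Q u ≠ 0) (hv : Q v ≠ 0), refl Q u hu * refl Q v hv ∈ SO := by
    intro u v hu hv
    rw [hmem]
    show (Cfsg.reflectionMatrix ⇑Q u * Cfsg.reflectionMatrix ⇑Q v).det = 1
    rw [Matrix.det_mul, Cfsg.Agent.H03.reflection_det Q u hu, Cfsg.Agent.H03.reflection_det Q v hv]
    ring
  have hΩSO : Cfsg.Omega F ⇑Q ≤ SO := by
    intro g hg
    exact comm_map_one (Matrix.GeneralLinearGroup.det.comp (Cfsg.isometryGroup F ⇑Q).subtype) hg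
  let A : Subgroup ↥SO := (Cfsg.Omega F ⇑Q).subgroupOf SO
  have hAidx : A.index = 2 := by
    by_cases h2 : (2 : F) = 0
    · -- characteristic two
      set D := dickHom h2 Q hQ hG with hD
      have hker : Cfsg.Omega F ⇑Q = D.ker := by
        apply le_antisymm
        · intro g hg
          exact comm_map_one D hg
        · intro g hg
          obtain ⟨L, hL, hgL⟩ := exists_list_of_isometry Q hQ hG g
          apply mem_of_even_list Q _ (fun u v hu hv => refl_mul_refl_mem_even h2 Q hQ hG hu hv) L hL _ g hgL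
          have h3 : dick Q g = 1 := hg
          rw [dick_of_list h2 Q hQ g L hL hgL] at h3
          exact (neg_one_pow_eq_one_iff_even (by decide)).1 h3
      have hAker : A = (D.comp SO.subtype).ker := by
        ext g
        show (g : ↥(Cfsg.isometryGroup F ⇑Q)) ∈ Cfsg.Omega F ⇑Q ↔ D g = 1
        rw [hker]
        rfl
      obtain ⟨v, hv⟩ := exists_ne_of_nondeg hQ hr
      have hvSO : refl Q v hv ∈ SO := by
        rw [hmem]
        show (Cfsg.reflectionMatrix ⇑Q v).det = 1
        rw [Cfsg.Agent.H03.reflection_det Q v hv]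
        linear_combination (-1 : F) * h2
      have hs : Function.Surjective (D.comp SO.subtype) := by
        intro y
        rcases Int.units_eq_one_or y with rfl | rfl
        · exact ⟨1, by simp⟩
        · exact ⟨⟨refl Q v hv, hvSO⟩, dickHom_refl h2 Q hQ hG v hv⟩
      rw [hAker, Subgroup.index_ker, MonoidHom.range_eq_top.2 hs, Nat.card_congr Subgroup.topEquiv.toEquiv,
        Nat.card_eq_fintype_card, Fintype.card_units_int]
    · -- odd characteristic
      obtain ⟨χ₁, χ₂, h1, h3, hΩ, hs⟩ := odd_chars h2 hcn Q hQ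
      have hne : (-1 : F) ≠ 1 := by
        intro h
        apply h2
        linear_combination (-1 : F) * h
      have hSOχ : ∀ g, g ∈ SO ↔ χ₁ g = 1 := by
        intro g
        obtain ⟨L, hL, hgL⟩ := exists_list_of_isometry Q hQ hG g
        have h4 := map_prod_refl Q L hL g hgL χ₁ (fun _ => -1) h1
        simp only [List.map_const', List.prod_replicate] at h4
        have h5 := map_prod_refl Q L hL g hgL (Matrix.GeneralLinearGroup.det.comp (Cfsg.isometryGroup F ⇑Q).subtype) (fun _ => -1) (fun v hv => det_refl_hom Q v hv)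
        simp only [List.map_const', List.prod_replicate] at h5
        have hne1 : (-1 : Fˣ) ≠ 1 := by
          intro h
          have := congrArg Units.val h
          simp only [Units.val_neg, Units.val_one] at this
          exact hne this
        constructor
        · intro hg
          have h6 : (Matrix.GeneralLinearGroup.det.comp (Cfsg.isometryGroup F ⇑Q).subtype) g = 1 := hg
          rw [h6] at h5
          rw [h4, ((neg_one_pow_eq_one_iff_even hne1).1 h5.symm).neg_one_pow]
        · intro hg
          rw [hg] at h4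
          have h7 := (neg_one_pow_eq_one_iff_even (by decide)).1 h4.symm
          show (Matrix.GeneralLinearGroup.det.comp (Cfsg.isometryGroup F ⇑Q).subtype) g = 1
          rw [h5, h7.neg_one_pow]
      have hAker : A = (χ₂.comp SO.subtype).ker := by
        ext g
        show (g : ↥(Cfsg.isometryGroup F ⇑Q)) ∈ Cfsg.Omega F ⇑Q ↔ χ₂ g = 1
        rw [hΩ]
        exact ⟨fun h => h.2, fun h => ⟨(hSOχ _).1 g.2, h⟩⟩
      obtain ⟨g₂, hg₂⟩ := hs ((1 : ℤˣ), (-1 : ℤˣ))
      have b1 : χ₁ g₂ = 1 := congrArg Prod.fst hg₂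
      have b2 : χ₂ g₂ = -1 := congrArg Prod.snd hg₂
      have hs' : Function.Surjective (χ₂.comp SO.subtype) := by
        intro y
        rcases Int.units_eq_one_or y with rfl | rfl
        · exact ⟨1, by simp⟩
        · exact ⟨⟨g₂, (hSOχ _).2 b1⟩, b2⟩
      rw [hAker, Subgroup.index_ker, MonoidHom.range_eq_top.2 hs', Nat.card_congr Subgroup.topEquiv.toEquiv,
        Nat.card_eq_fintype_card, Fintype.card_units_int]
  refine ⟨A, hAidx, fun H hH => unique_of_le A H hAidx hH ?_⟩
  -- every subgroup of index two contains Ω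
  have hSOn : SO.Normal := by
    rw [hSO, Cfsg.specialIsometryGroup]
    exact MonoidHom.normal_ker _
  let Sq : Set ↥(Cfsg.isometryGroup F ⇑Q) := {y | ∃ x ∈ SO, y = x ^ 2}
  let N := Subgroup.normalClosure Sq
  have hgen := closure_refl_eq_top Q hQ hG
  have hΩN : Cfsg.Omega F ⇑Q ≤ N := by
    apply commutator_le_of_gen _ hgen
    rintro a ⟨u, hu, ha⟩ b ⟨v, hv, hb⟩
    have ea : a = refl Q u hu := isom_ext ha
    have eb : b = refl Q v hv := isom_ext hb
    apply Subgroup.subset_normalClosure
    refine ⟨refl Q u hu * refl Q v hv, hprod u v hu hv, ?_⟩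
    rw [ea, eb, commutatorElement_def, refl_inv, refl_inv, pow_two]
    group
  have hNH : N ≤ H.map SO.subtype := by
    rw [show N = Subgroup.closure (Group.conjugatesOfSet Sq) from rfl, Subgroup.closure_le]
    intro y hy
    rw [Group.mem_conjugatesOfSet_iff] at hy
    obtain ⟨z, ⟨x, hx, rfl⟩, hconj⟩ := hy
    obtain ⟨c, hc⟩ := isConj_iff.1 hconj
    have hcx : c * x * c⁻¹ ∈ SO := hSOn.conj_mem x hx c
    refine ⟨(⟨c * x * c⁻¹, hcx⟩ : ↥SO) ^ 2, Subgroup.sq_mem_of_index_two hH _, ?_⟩
    rw [← hc]
    show (c * x * c⁻¹) ^ 2 = c * x ^ 2 * c⁻¹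
    rw [pow_two, pow_two]
    group
  intro g hg
  have h3 : (g : ↥(Cfsg.isometryGroup F ⇑Q)) ∈ H.map SO.subtype := hNH (hΩN hg)
  obtain ⟨x, hx, hxg⟩ := h3
  have : x = g := Subtype.ext hxg
  rwa [this] at hx

end Cfsg.Agent.S0787
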