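import Cfsg.Statements.S0788
import Mathlib
import Cfsg.Agent.Lib.H03.OSpin

set_option autoImplicit false
open Cfsg

namespace Cfsg.Agent.S0788

open Cfsg.Agent.H11 Cfsg.Agent.H03.OGen Cfsg.Agent.H03.OSpin


/-- Ω has index 4 in O for q odd: if F is finite of odd characteristic, n ≥ 2 and Q is a quadratic form on F^n with non-degenerate polar form, then the commutator subgroup of the isometry group of Q (the group Ω of our definitions) has index 4 in it. -/
theorem result {F : Type*} [Field F] [Fintype F] (h2 : (2 : F) ≠ 0) {n : ℕ} (hn : 2 ≤ n) (Q : QuadraticForm F (Fin n → F)) (hQ : (QuadraticMap.polarBilin Q).Nondegenerate) : (Cfsg.Omega F ⇑Q).index = 4 := by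
  classical
  obtain ⟨χ₁, χ₂, h1, h3, hΩ, hs⟩ := odd_chars h2 (by simpa using hn) Q hQ
  have hker : Cfsg.Omega F ⇑Q = (χ₁.prod χ₂).ker := by
    ext g
    rw [hΩ, MonoidHom.mem_ker, MonoidHom.prod_apply, Prod.ext_iff]
    rfl
  rw [hker, Subgroup.index_ker, MonoidHom.range_eq_top.2 hs, Nat.card_congr Subgroup.topEquiv.toEquiv,
    Nat.card_prod, Nat.card_eq_fintype_card, Fintype.card_units_int]

end Cfsg.Agent.S0788
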