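import Cfsg.Statements.S0789
import Mathlib
import Cfsg.Agent.Lib.H03.ODick

set_option autoImplicit false
open Cfsg

namespace Cfsg.Agent.S0789

open Cfsg.Agent.H11 Cfsg.Agent.H03.OGen Cfsg.Agent.H03.ODick


/-- Ω has index 2 in O for q even: if F is finite of characteristic two, n ≥ 2, Q is a quadratic form on F^n with non-degenerate polar form, and (|F|, n) ≠ (2, 4), then the commutator subgroup of the isometry group of Q has index 2 in it. -/
theorem result {F : Type*} [Field F] [Fintype F] [CharP F 2] {n : ℕ} (hn : 2 ≤ n) (Q : QuadraticForm F (Fin n → F)) (hQ : (QuadraticMap.polarBilin Q).Nondegenerate) (h : Fintype.card F ≠ 2 ∨ n ≠ 4) : (Cfsg.Omega F ⇑Q).index = 2 := by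
  classical
  have h2 : (2 : F) = 0 := CharTwo.two_eq_zero
  have hG : Nat.card F ≠ 2 ∨ Fintype.card (Fin n) ≠ 4 := by
    rcases h with h | h
    · left; rwa [Nat.card_eq_fintype_card]
    · right; simpa using h
  set D := dickHom h2 Q hQ hG with hD
  have hker : Cfsg.Omega F ⇑Q = D.ker := by
    apply le_antisymm
    · intro g hg
      exact comm_map_one D hg
    · intro g hg
      obtain ⟨L, hL, hgL⟩ := exists_list_of_isometry Q hQ hG g
      apply mem_of_even_list Q _ (fun u v hu hv => refl_mul_refl_mem_even h2 Q hQ hG hu hv) L hL _ g hgL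
      have h3 : dick Q g = 1 := hg
      rw [dick_of_list h2 Q hQ g L hL hgL] at h3
      exact (neg_one_pow_eq_one_iff_even (by decide)).1 h3
  have hr : 0 < Module.finrank F (Fin n → F) := by
    rw [Module.finrank_fintype_fun_eq_card]
    simp
    omega
  obtain ⟨v, hv⟩ := exists_ne_of_nondeg hQ hr
  have hs : Function.Surjective D := by
    intro y
    rcases Int.units_eq_one_or y with rfl | rfl
    · exact ⟨1, by simp⟩
    · exact ⟨refl Q v hv, dickHom_refl h2 Q hQ hG v hv⟩
  rw [hker, Subgroup.index_ker, MonoidHom.range_eq_top.2 hs, Nat.card_congr Subgroup.topEquiv.toEquiv,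
    Nat.card_eq_fintype_card, Fintype.card_units_int]

end Cfsg.Agent.S0789
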