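import Cfsg.Statements.S0790
import Mathlib
import Cfsg.Agent.Lib.H11.Spin7

set_option autoImplicit false
open Cfsg

namespace Cfsg.Agent.S0790

open Cfsg.Agent.H11

/-- −1 ∈ Ω⁺_2m(q) iff q^m ≡ 1 (mod 4), for q odd and m ≥ 1 (so that in the other case SO⁺_2m(q) = 2 × Ω⁺_2m(q)). -/
theorem result {F : Type*} [Field F] [Fintype F] {q : ℕ} (hF : Fintype.card F = q) (hodd : Odd q) (m : ℕ) (hm : 1 ≤ m) : (∃ g : ↥(Cfsg.isometryGroup F (Cfsg.quadFormPlus m F)), g ∈ Cfsg.Omega F (Cfsg.quadFormPlus m F) ∧ ((g : Matrix.GeneralLinearGroup (Fin m ⊕ Fin m) F) : Matrix (Fin m ⊕ Fin m) (Fin m ⊕ Fin m) F) = -1) ↔ q ^ m % 4 = 1 := by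
  classical
  subst hF
  have h2 : (2 : F) ≠ 0 := by
    have hchar : ringChar F ≠ 2 := by
      intro h
      have := FiniteField.even_card_of_char_two h
      exact (Nat.not_even_iff_odd.2 hodd) (Nat.even_iff.2 this)
    exact Ring.two_ne_zero hchar
  have hc : 2 ≤ Fintype.card (Fin m ⊕ Fin m) := by simp; omega
  rw [pairs_criterion h2 hc (plusForm m F) (plus_nondeg m) (plus_pairs m)
    (firstIdx m le_rfl) (firstIdx_nodup le_rfl) (quadFormPlus m F) rfl (-1) ?_, firstIdx_length,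
    neg_one_pow_isSquare_iff rfl hodd m]
  rw [← Matrix.diagonal_one, Matrix.diagonal_neg]
  congr 1
  funext k
  rw [if_pos]
  rcases k with i | i
  · exact ⟨i, (mem_firstIdx le_rfl i).2 i.2, Or.inl rfl⟩
  · exact ⟨i, (mem_firstIdx le_rfl i).2 i.2, Or.inr rfl⟩

end Cfsg.Agent.S0790
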