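import Cfsg.Statements.S0791
import Mathlib
import Cfsg.Agent.Lib.H11.Spin7

set_option autoImplicit false
open Cfsg

namespace Cfsg.Agent.S0791

open Cfsg.Agent.H11 Matrix
open Cfsg.Agent.H03 (reflection_mulVec)


/-- −1 ∈ Ω⁻_2m(q) iff q^m ≡ −1 (mod 4), for q odd and m ≥ 1; for the minus-type form quadFormMinus (m−1) with anisotropic binary part. -/
theorem result {F : Type*} [Field F] [Fintype F] {q : ℕ} (hF : Fintype.card F = q) (hodd : Odd q) (m : ℕ) (hm : 1 ≤ m) (a b : F) (hab : ∀ z₁ z₂ : F, z₁ ^ 2 + a * z₁ * z₂ + b * z₂ ^ 2 = 0 → z₁ = 0 ∧ z₂ = 0) : (∃ g : ↥(Cfsg.isometryGroup F (Cfsg.quadFormMinus (m - 1) F a b)), g ∈ Cfsg.Omega F (Cfsg.quadFormMinus (m - 1) F a b) ∧ ((g : Matrix.GeneralLinearGroup ((Fin (m - 1) ⊕ Fin (m - 1)) ⊕ Fin 2) F) : Matrix ((Fin (m - 1) ⊕ Fin (m - 1)) ⊕ Fin 2) ((Fin (m - 1) ⊕ Fin (m - 1)) ⊕ Fin 2) F) = -1) ↔ q ^ m % 4 = 3 := by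
  classical
  subst hF
  have h2 : (2 : F) ≠ 0 := by
    have hchar : ringChar F ≠ 2 := by
      intro h
      have := FiniteField.even_card_of_char_two h
      exact (Nat.not_even_iff_odd.2 hodd) (Nat.even_iff.2 this)
    exact Ring.two_ne_zero hchar
  set k := m - 1 with hk
  have hmk : m = k + 1 := by omega
  set Q := minusForm k F a b with hQdef
  have hQc : ⇑Q = quadFormMinus k F a b := minusForm_coe k a b
  have hnd := minus_nondeg h2 k a b hab
  have hpairs := minus_pairs (F := F) k a b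
  set x : (Fin k ⊕ Fin k) ⊕ Fin 2 → F := Pi.single (Sum.inr 0) 1 with hx
  set y : (Fin k ⊕ Fin k) ⊕ Fin 2 → F := (-a) • Pi.single (Sum.inr 0) 1 + (2 : F) • Pi.single (Sum.inr 1) 1 with hy
  have hy0 : y (Sum.inr 0) = -a := by simp [hy, Pi.single_apply]
  have hy1 : y (Sum.inr 1) = 2 := by simp [hy, Pi.single_apply]
  have hQx : Q x = 1 := by
    rw [hQc]; simp [quadFormMinus, hx, Pi.single_apply]
  have hQy : Q y = 4 * b - a ^ 2 := by
    rw [hQc]; simp only [quadFormMinus, hy0, hy1]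
    have : ∀ i, y (Sum.inl (Sum.inl i)) = 0 := fun i => by simp [hy, Pi.single_apply]
    simp only [this, zero_mul, Finset.sum_const_zero, zero_add]
    ring
  have hpx : ∀ z, QuadraticMap.polar (⇑Q) x z = 2 * z (Sum.inr 0) + a * z (Sum.inr 1) := by
    intro z
    rw [hQc, polar_minus']
    simp [hx, Pi.single_apply]
  have hpy : ∀ z, QuadraticMap.polar (⇑Q) y z = (4 * b - a ^ 2) * z (Sum.inr 1) := by
    intro z
    rw [hQc, polar_minus', hy0, hy1]
    have : ∀ i, y (Sum.inl (Sum.inl i)) = 0 := fun i => by simp [hy, Pi.single_apply]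
    have h' : ∀ i, y (Sum.inl (Sum.inr i)) = 0 := fun i => by simp [hy, Pi.single_apply]
    simp only [this, h', zero_mul, mul_zero, Finset.sum_const_zero, add_zero, zero_add]
    ring
  have hD : 4 * b - a ^ 2 ≠ 0 := by
    intro h
    have := (hab (-a) 2 (by linear_combination h)).2
    exact h2 this
  have hdisc : ¬ IsSquare (a ^ 2 - 4 * b) := by
    rintro ⟨c, hc⟩
    have := (hab (c - a) 2 (by linear_combination (-1 : F) * hc)).2
    exact h2 this
  have hQx0 : Q x ≠ 0 := by rw [hQx]; exact one_ne_zero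
  have hQy0 : Q y ≠ 0 := by rw [hQy]; exact hD
  -- the product of the two binary reflections
  have hRR : reflectionMatrix (⇑Q) x * reflectionMatrix (⇑Q) y =
      Matrix.diagonal (fun i => match i with
        | Sum.inr _ => (-1 : F)
        | Sum.inl _ => 1) := by
    apply mat_ext_mulVec
    intro z
    rw [← Matrix.mulVec_mulVec, reflection_mulVec, reflection_mulVec, hpy, hQy, hpx, hQx]
    have hne : (4 * b - a ^ 2)⁻¹ * ((4 * b - a ^ 2) * z (Sum.inr 1)) = z (Sum.inr 1) := by
      field_simp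
    rw [hne]
    funext i
    rcases i with i | i
    · have h1 : x (Sum.inl i) = 0 := by simp [hx, Pi.single_apply]
      have h3 : y (Sum.inl i) = 0 := by simp [hy, Pi.single_apply]
      simp [Matrix.mulVec_diagonal, h1, h3]
    · fin_cases i
      · have h1 : x (Sum.inr 0) = 1 := by simp [hx]
        have h3 : x (Sum.inr 1) = 0 := by simp [hx, Pi.single_apply]
        simp [Matrix.mulVec_diagonal, h1, h3, hy0, hy1]
        ring
      · have h1 : x (Sum.inr 0) = 1 := by simp [hx]
        have h3 : x (Sum.inr 1) = 0 := by simp [hx, Pi.single_apply]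
        simp [Matrix.mulVec_diagonal, h1, h3, hy0, hy1]
        ring
  set T := firstIdx k le_rfl with hT
  have hTn : T.Nodup := firstIdx_nodup le_rfl
  set L := pairVecs (F := F) (fun j : Fin k => (Sum.inl (Sum.inl j) : (Fin k ⊕ Fin k) ⊕ Fin 2)) (fun j => Sum.inl (Sum.inr j)) T ++ [x, y] with hL
  have hLne : ∀ v ∈ L, Q v ≠ 0 := by
    intro v hv
    rw [hL, List.mem_append] at hv
    rcases hv with hv | hv
    · exact pairVecs_ne hpairs T v hv
    · simp only [List.mem_cons, List.not_mem_nil, or_false] at hv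
      rcases hv with rfl | rfl
      · exact hQx0
      · exact hQy0
  have hprod : (L.map (fun v => reflectionMatrix (⇑Q) v)).prod = -1 := by
    rw [hL, List.map_append, List.prod_append, pairVecs_prod hpairs T hTn]
    simp only [List.map_cons, List.map_nil, List.prod_cons, List.prod_nil, mul_one]
    rw [hRR, Matrix.diagonal_mul_diagonal, ← Matrix.diagonal_one, Matrix.diagonal_neg]
    congr 1
    funext i
    rcases i with (i | i) | i
    · rw [if_pos ⟨i, (mem_firstIdx le_rfl i).2 i.2, Or.inl rfl⟩]; simp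
    · rw [if_pos ⟨i, (mem_firstIdx le_rfl i).2 i.2, Or.inr rfl⟩]; simp
    · rw [if_neg]
      · simp
      · rintro ⟨j, -, h | h⟩ <;> simp at h
  have hprodQ : (L.map (fun v => Q v)).prod = (-1) ^ k * (4 * b - a ^ 2) := by
    rw [hL, List.map_append, List.prod_append, pairVecs_prodQ hpairs T, firstIdx_length]
    simp [hQx, hQy]
  have hlen : Even L.length := by
    rw [hL, List.length_append, pairVecs_length, firstIdx_length]
    simp only [List.length_cons, List.length_nil]
    exact ⟨k + 1, by ring⟩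
  obtain ⟨g₀, hg₀, -⟩ := exists_prod_refl.{0} Q L hLne
  have hcrit := spinor_criterion h2 (by simp) Q hnd g₀ L hLne hg₀
  rw [hprodQ] at hcrit
  have hiff : IsSquare ((-1 : F) ^ k * (4 * b - a ^ 2)) ↔ Fintype.card F ^ m % 4 = 3 := by
    have e1 : (-1 : F) ^ k * (4 * b - a ^ 2) = (-1) ^ (k + 1) * (a ^ 2 - 4 * b) := by
      rw [pow_succ]; ring
    have hs := neg_one_pow_isSquare_iff (F := F) rfl hodd (k + 1)
    rw [e1, ← hmk] at *
    have hpw : ((-1 : F)) ^ m ≠ 0 := pow_ne_zero _ (by simp [h2])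
    have hd0 : a ^ 2 - 4 * b ≠ 0 := by
      intro h; apply hdisc; rw [h]; exact IsSquare.zero
    have hodd' : Odd (Fintype.card F ^ m) := hodd.pow
    have hmod : Fintype.card F ^ m % 4 = 1 ∨ Fintype.card F ^ m % 4 = 3 := by
      rcases hodd' with ⟨t, ht⟩
      omega
    rw [← chiU_eq_one_iff, chiU_mul hpw hd0]
    have hch : chiU (a ^ 2 - 4 * b) = -1 := by
      rw [chiU, if_neg hdisc]
    rw [hch]
    constructor
    · intro h
      have h5 : chiU ((-1 : F) ^ m) = -1 := by
        have := congrArg (fun u : ℤˣ => u * (-1)) h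
        simpa using this
      have h6 : ¬ IsSquare ((-1 : F) ^ m) := by
        intro h7
        rw [chiU_eq_one_iff.2 h7] at h5
        exact absurd h5 (by decide)
      rw [hs] at h6
      omega
    · intro h
      have h6 : ¬ IsSquare ((-1 : F) ^ m) := by
        rw [hs]; omega
      rw [chiU, if_neg h6]
      decide
  have main : ∀ Q₀ : ((Fin k ⊕ Fin k) ⊕ Fin 2 → F) → F, ⇑Q = Q₀ →
      ((∃ g : ↥(isometryGroup F Q₀), g ∈ Omega F Q₀ ∧ ((g : GL ((Fin k ⊕ Fin k) ⊕ Fin 2) F) : Matrix ((Fin k ⊕ Fin k) ⊕ Fin 2) ((Fin k ⊕ Fin k) ⊕ Fin 2) F) = -1) ↔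
        Fintype.card F ^ m % 4 = 3) := by
    intro Q₀ h
    subst h
    constructor
    · rintro ⟨g, hg, hgD⟩
      have : g = g₀ := isom_ext (by
        rw [hgD, hg₀, hprod])
      rw [this] at hg
      rw [← hiff]
      exact (hcrit.1 hg).2
    · intro h
      refine ⟨g₀, hcrit.2 ⟨hlen, hiff.2 h⟩, ?_⟩
      rw [hg₀, hprod]
  exact main _ hQc

end Cfsg.Agent.S0791
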