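import Cfsg.Statements.S0792
import Mathlib
import Cfsg.Agent.Lib.H03.OGen
import Cfsg.Agent.Lib.H11.Spin7

set_option autoImplicit false
open Cfsg

namespace Cfsg.Agent.S0792

open Cfsg.Agent.H11 Cfsg.Agent.H03.OGen Matrix

theorem aux {F : Type*} [Field F] {n : ℕ} (Q : QuadraticForm F (Fin n → F))
    (C : Subgroup ↥(Cfsg.isometryGroup F ⇑Q))
    (hC : ∀ u v (hu : Q u ≠ 0) (hv : Q v ≠ 0), refl Q u hu * refl Q v hv ∈ C) :
    ∀ (L : List (Fin n → F)), (∀ v ∈ L, Q v ≠ 0) → Even L.length →
      ∀ g : ↥(Cfsg.isometryGroup F ⇑Q),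
        ((g : Matrix.GeneralLinearGroup (Fin n) F) : Matrix (Fin n) (Fin n) F) =
          (L.map (fun v => Cfsg.reflectionMatrix ⇑Q v)).prod → g ∈ C
  | [], _, _, g, hg => by
    have : g = 1 := by
      apply Subtype.ext
      apply Units.ext
      simpa using hg
    rw [this]
    exact C.one_mem
  | [v], _, he, _, _ => by
    exact absurd he (by simp)
  | u :: v :: L, hL, he, g, hg => by
    have hu := hL u (by simp)
    have hv := hL v (by simp)
    have e : g = (refl Q u hu * refl Q v hv) * ((refl Q v hv * refl Q u hu) * g) := by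
      have : refl Q u hu * refl Q v hv * (refl Q v hv * refl Q u hu) = 1 := by
        calc _ = refl Q u hu * (refl Q v hv * refl Q v hv) * refl Q u hu := by group
          _ = 1 := by rw [refl_mul_self, mul_one, refl_mul_self]
      rw [← mul_assoc, this, one_mul]
    rw [e]
    apply C.mul_mem (hC u v hu hv)
    apply aux Q C hC L (fun w hw => hL w (by simp [hw]))
    · simpa [Nat.even_add_one] using he
    · simp only [List.map_cons, List.prod_cons] at hg
      have h1 : (((refl Q v hv * refl Q u hu * g : ↥(Cfsg.isometryGroup F ⇑Q)) : Matrix.GeneralLinearGroup (Fin n) F) : Matrix (Fin n) (Fin n) F) =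
          Cfsg.reflectionMatrix ⇑Q v * Cfsg.reflectionMatrix ⇑Q u * ((g : Matrix.GeneralLinearGroup (Fin n) F) : Matrix (Fin n) (Fin n) F) := rfl
      rw [h1, hg]
      calc _ = Cfsg.reflectionMatrix ⇑Q v * (Cfsg.reflectionMatrix ⇑Q u * Cfsg.reflectionMatrix ⇑Q u) * (Cfsg.reflectionMatrix ⇑Q v * (L.map (fun v => Cfsg.reflectionMatrix ⇑Q v)).prod) := by
            simp only [mul_assoc]
        _ = _ := by
            rw [refl_sq Q u hu, mul_one, ← mul_assoc, refl_sq Q v hv, one_mul]


/-- For q odd and Q with non-degenerate polar form on F^n, the determinant-one isometries form the subgroup generated by all products r_u r_v of two reflections (Q(u), Q(v) ≠ 0). -/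
theorem result {F : Type*} [Field F] [Fintype F] (h2 : (2 : F) ≠ 0) {n : ℕ} (Q : QuadraticForm F (Fin n → F)) (hQ : (QuadraticMap.polarBilin Q).Nondegenerate) : Cfsg.specialIsometryGroup F ⇑Q = Subgroup.closure {g : ↥(Cfsg.isometryGroup F ⇑Q) | ∃ u v : Fin n → F, Q u ≠ 0 ∧ Q v ≠ 0 ∧ ((g : Matrix.GeneralLinearGroup (Fin n) F) : Matrix (Fin n) (Fin n) F) = Cfsg.reflectionMatrix ⇑Q u * Cfsg.reflectionMatrix ⇑Q v} := by
  classical
  have hcard : Nat.card F ≠ 2 := card_ne_two_of h2
  apply le_antisymm
  · intro g hg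
    obtain ⟨L, hL, hgL⟩ := exists_list_of_isometry Q hQ (Or.inl hcard) g
    apply aux Q _ _ L hL _ g hgL
    · intro u v hu hv
      apply Subgroup.subset_closure
      exact ⟨u, v, hu, hv, rfl⟩
    · have h1 := map_prod_refl Q L hL g hgL (Matrix.GeneralLinearGroup.det.comp (Cfsg.isometryGroup F ⇑Q).subtype) (fun _ => -1) (fun v hv => det_refl_hom Q v hv)
      have h3 : (Matrix.GeneralLinearGroup.det.comp (Cfsg.isometryGroup F ⇑Q).subtype) g = 1 := hg
      rw [h3] at h1
      simp only [List.map_const', List.prod_replicate] at h1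
      have hne1 : (-1 : Fˣ) ≠ 1 := by
        intro h
        have := congrArg Units.val h
        simp only [Units.val_neg, Units.val_one] at this
        apply h2
        linear_combination (-1 : F) * this
      exact (neg_one_pow_eq_one_iff_even hne1).1 h1.symm
  · rw [Subgroup.closure_le]
    rintro g ⟨u, v, hu, hv, hg⟩
    show (Matrix.GeneralLinearGroup.det.comp (Cfsg.isometryGroup F ⇑Q).subtype) g = 1
    apply Units.ext
    show ((g : Matrix.GeneralLinearGroup (Fin n) F) : Matrix (Fin n) (Fin n) F).det = 1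
    rw [hg, Matrix.det_mul, Cfsg.Agent.H03.reflection_det Q u hu, Cfsg.Agent.H03.reflection_det Q v hv]
    ring

end Cfsg.Agent.S0792
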