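import Cfsg.Statements.S0793
import Mathlib
import Cfsg.Agent.Lib.H03.Quad

set_option autoImplicit false
open Cfsg

namespace Cfsg.Agent.S0793

open scoped Matrix
open Matrix


/-- Root elements: if Q(u) = Q(v) = 0 and f(u, v) = 0 (f the polar form), then for every c the Siegel matrix T_(u,v)(c) preserves Q, fixes u and v, and T(c) T(d) = T(c + d). -/
theorem result {F : Type*} [Field F] {n : ℕ} (Q : QuadraticForm F (Fin n → F)) (u v : Fin n → F) (hu : Q u = 0) (hv : Q v = 0) (huv : QuadraticMap.polar ⇑Q u v = 0) : (∀ c x, Q ((Cfsg.siegelMatrix ⇑Q u v c).mulVec x) = Q x) ∧ (∀ c, (Cfsg.siegelMatrix ⇑Q u v c).mulVec u = u ∧ (Cfsg.siegelMatrix ⇑Q u v c).mulVec v = v) ∧ ∀ c d, Cfsg.siegelMatrix ⇑Q u v c * Cfsg.siegelMatrix ⇑Q u v d = Cfsg.siegelMatrix ⇑Q u v (c + d) := by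
  classical
  have huu : QuadraticMap.polar (⇑Q) u u = 0 := by rw [QuadraticMap.polar_self, hu]; simp
  have hvv : QuadraticMap.polar (⇑Q) v v = 0 := by rw [QuadraticMap.polar_self, hv]; simp
  have hvu : QuadraticMap.polar (⇑Q) v u = 0 := by rw [QuadraticMap.polar_comm]; exact huv
  refine ⟨?_, ?_, ?_⟩
  · intro c x
    rw [Cfsg.Agent.H03.siegel_mulVec]
    set a := c * QuadraticMap.polar (⇑Q) u x with ha
    set b := c * QuadraticMap.polar (⇑Q) v x with hb
    have h1 : x + a • v - b • u = x + (a • v + (-b) • u) := by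
      rw [neg_smul, sub_eq_add_neg, add_assoc]
    have h2 : Q (a • v + (-b) • u) = 0 := by
      have h3 : Q (a • v + (-b) • u) = Q (a • v) + Q ((-b) • u) + QuadraticMap.polar (⇑Q) (a • v) ((-b) • u) := by
        rw [QuadraticMap.polar]; ring
      rw [h3, QuadraticMap.map_smul, QuadraticMap.map_smul, hu, hv, QuadraticMap.polar_smul_left, QuadraticMap.polar_smul_right, hvu]
      simp
    have h4 : Q (x + (a • v + (-b) • u)) = Q x + Q (a • v + (-b) • u) + QuadraticMap.polar (⇑Q) x (a • v + (-b) • u) := by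
      rw [QuadraticMap.polar]; ring
    rw [h1, h4, h2, QuadraticMap.polar_add_right, QuadraticMap.polar_smul_right, QuadraticMap.polar_smul_right,
      QuadraticMap.polar_comm (⇑Q) x v, QuadraticMap.polar_comm (⇑Q) x u]
    simp only [smul_eq_mul, ha, hb]
    ring
  · intro c
    constructor
    · rw [Cfsg.Agent.H03.siegel_mulVec, huu, hvu]; simp
    · rw [Cfsg.Agent.H03.siegel_mulVec, huv, hvv]; simp
  · intro c d
    simp only [Cfsg.siegelMatrix]
    set wu := Cfsg.polarVec (⇑Q) u with hwu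
    set wv := Cfsg.polarVec (⇑Q) v with hwv
    have d1 : wu ⬝ᵥ v = 0 := by rw [hwu, Cfsg.Agent.H03.polarVec_dot, huv]
    have d2 : wu ⬝ᵥ u = 0 := by rw [hwu, Cfsg.Agent.H03.polarVec_dot, huu]
    have d3 : wv ⬝ᵥ v = 0 := by rw [hwv, Cfsg.Agent.H03.polarVec_dot, hvv]
    have d4 : wv ⬝ᵥ u = 0 := by rw [hwv, Cfsg.Agent.H03.polarVec_dot, hvu]
    have hP : (vecMulVec v wu - vecMulVec u wv) * (vecMulVec v wu - vecMulVec u wv) = 0 := by
      simp only [sub_mul, mul_sub, Matrix.vecMulVec_mul_vecMulVec, d1, d2, d3, d4]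
      simp
    simp only [add_mul, mul_add, one_mul, mul_one, Matrix.smul_mul, Matrix.mul_smul, hP, smul_zero, add_zero, add_smul]
    abel

end Cfsg.Agent.S0793
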