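import Cfsg.Statements.S0794
import Mathlib
import Cfsg.Agent.Lib.H03.OSpin
import Cfsg.Agent.S0793

set_option autoImplicit false
open Cfsg

namespace Cfsg.Agent.S0794

open Cfsg.Agent.H11 Cfsg.Agent.H03.OGen Cfsg.Agent.H03.OSpin Matrix QuadraticMap Cfsg.Agent.H03
open scoped commutatorElement


/-- For q odd, n ≥ 5 and Q with non-degenerate polar form: an isometry whose matrix is a Siegel transformation T_(u,v)(c) (u, v singular and orthogonal) is a commutator in the isometry group, so lies in Ω. -/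
theorem result {F : Type*} [Field F] [Fintype F] (h2 : (2 : F) ≠ 0) {n : ℕ} (hn : 5 ≤ n) (Q : QuadraticForm F (Fin n → F)) (hQ : (QuadraticMap.polarBilin Q).Nondegenerate) (u v : Fin n → F) (hu : Q u = 0) (hv : Q v = 0) (huv : QuadraticMap.polar ⇑Q u v = 0) (c : F) (g : ↥(Cfsg.isometryGroup F ⇑Q)) (hg : ((g : Matrix.GeneralLinearGroup (Fin n) F) : Matrix (Fin n) (Fin n) F) = Cfsg.siegelMatrix ⇑Q u v c) : g ∈ commutatorSet ↥(Cfsg.isometryGroup F ⇑Q) ∧ g ∈ Cfsg.Omega F ⇑Q := by
  classical
  have hS := Cfsg.Agent.S0793.result Q u v hu hv huv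
  obtain ⟨hS1, hS2, hS3⟩ := hS
  have hT0 : Cfsg.siegelMatrix ⇑Q u v 0 = 1 := by
    apply mat_ext_mulVec
    intro x
    rw [siegel_mulVec]
    simp
  -- group elements attached to Siegel matrices
  have hEl : ∀ d : F, ∃ T : ↥(Cfsg.isometryGroup F ⇑Q), ((T : Matrix.GeneralLinearGroup (Fin n) F) : Matrix (Fin n) (Fin n) F) = Cfsg.siegelMatrix ⇑Q u v d := by
    intro d
    have h1 : Cfsg.siegelMatrix ⇑Q u v d * Cfsg.siegelMatrix ⇑Q u v (-d) = 1 := by
      rw [hS3, add_neg_cancel, hT0]
    have h3 : Cfsg.siegelMatrix ⇑Q u v (-d) * Cfsg.siegelMatrix ⇑Q u v d = 1 := by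
      rw [hS3, neg_add_cancel, hT0]
    exact ⟨⟨⟨_, _, h1, h3⟩, mem_isometryGroup_iff.2 (fun x => hS1 d x)⟩, rfl⟩
  have hcomm : g ∈ commutatorSet ↥(Cfsg.isometryGroup F ⇑Q) := by
    by_cases hspan : u ∈ Submodule.span F {v}
    · -- trivial case
      obtain ⟨τ, rfl⟩ := Submodule.mem_span_singleton.1 hspan
      have : Cfsg.siegelMatrix ⇑Q (τ • v) v c = 1 := by
        apply mat_ext_mulVec
        intro x
        rw [siegel_mulVec, polar_smul_left, Matrix.one_mulVec]
        simp only [smul_eq_mul]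
        rw [add_sub_assoc, sub_eq_zero.2, add_zero]
        rw [smul_smul]
        congr 1
        ring
      rw [this] at hg
      have hg1 : g = 1 := by
        apply Subtype.ext
        apply Units.ext
        exact hg
      rw [hg1]
      exact ⟨1, 1, by simp⟩
    · obtain ⟨a, ha1, ha2⟩ := exists_dual hQ hspan
      obtain ⟨u', p1, p2, p3⟩ : ∃ u', polar Q u' u = 1 ∧ polar Q u' v = 0 ∧ Q u' = 0 := by
        refine ⟨a - Q a • u, ?_, ?_, ?_⟩
        · rw [polar_sub_left, polar_smul_left, ha1, polar_self', hu]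
          simp
        · rw [polar_sub_left, polar_smul_left, ha2, huv]
          simp
        · rw [Q_sub, QuadraticMap.map_smul, hu, polar_smul_right, polar_comm Q a u, polar_comm Q u a, ha1]
          simp
      have p4 : polar Q u u = 0 := by rw [polar_self', hu, mul_zero]
      have p5 : polar Q u u' = 1 := by rw [polar_comm]; exact p1
      obtain ⟨μ, hμ0, hμ1⟩ := exists_ne_zero_one (card_ne_two_of h2)
      have hQt : ∀ t : F, Q (u - t • u') = -t := by
        intro t
        rw [Q_sub, hu, QuadraticMap.map_smul, p3, polar_smul_right, p5]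
        simp
      have hQμ : ∀ t : F, t ≠ 0 → Q (u - t • u') ≠ 0 := by
        intro t ht
        rw [hQt]
        exact neg_ne_zero.2 ht
      have hr1 : ∀ t : F, t ≠ 0 → Cfsg.reflectionMatrix ⇑Q (u - t • u') *ᵥ u = t • u' := by
        intro t ht
        rw [reflection_mulVec, hQt, polar_sub_left, polar_smul_left, p1, p4]
        have : (-t)⁻¹ * (0 - t • (1 : F)) = 1 := by
          simp only [smul_eq_mul, mul_one, zero_sub]
          exact inv_mul_cancel₀ (neg_ne_zero.2 ht)
        rw [this, one_smul]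
        abel
      have hr2 : ∀ t : F, t ≠ 0 → Cfsg.reflectionMatrix ⇑Q (u - t • u') *ᵥ u' = t⁻¹ • u := by
        intro t ht
        rw [reflection_mulVec, hQt, polar_sub_left, polar_smul_left, p5, polar_self', p3]
        have : (-t)⁻¹ * (1 - t • (2 * (0 : F))) = -t⁻¹ := by
          simp
        rw [this, neg_smul, smul_sub, smul_smul, inv_mul_cancel₀ ht, one_smul]
        abel
      have hQ1 := hQμ 1 one_ne_zero
      have hQ2 := hQμ μ hμ0
      set h := refl Q (u - μ • u') hQ2 * refl Q (u - (1 : F) • u') hQ1 with hh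
      have hmv : ∀ x, ((h : Matrix.GeneralLinearGroup (Fin n) F) : Matrix (Fin n) (Fin n) F) *ᵥ x =
          Cfsg.reflectionMatrix ⇑Q (u - μ • u') *ᵥ (Cfsg.reflectionMatrix ⇑Q (u - (1 : F) • u') *ᵥ x) := by
        intro x
        rw [Matrix.mulVec_mulVec]
        rfl
      have hhu : ((h : Matrix.GeneralLinearGroup (Fin n) F) : Matrix (Fin n) (Fin n) F) *ᵥ u = μ⁻¹ • u := by
        rw [hmv, hr1 1 one_ne_zero, one_smul, hr2 μ hμ0]
      have hhv : ((h : Matrix.GeneralLinearGroup (Fin n) F) : Matrix (Fin n) (Fin n) F) *ᵥ v = v := by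
        have hf : ∀ t : F, polar Q (u - t • u') v = 0 := by
          intro t
          rw [polar_sub_left, polar_smul_left, huv, p2]
          simp
        rw [hmv, reflection_mulVec (v := u - (1 : F) • u') (x := v), hf, reflection_mulVec (v := u - μ • u'), mul_zero, zero_smul, sub_zero]
        · rw [hf]
          simp
      -- the conjugation formula
      have hμi : μ⁻¹ - 1 ≠ 0 := by
        intro h5
        apply hμ1
        field_simp at h5
        linear_combination (-1 : F) * h5
      obtain ⟨T, hT⟩ := hEl (c / (μ⁻¹ - 1))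
      obtain ⟨T', hT'⟩ := hEl (μ⁻¹ * (c / (μ⁻¹ - 1)))
      have hconj : h * T * h⁻¹ = T' := by
        rw [mul_inv_eq_iff_eq_mul]
        apply isom_ext
        show ((h : Matrix.GeneralLinearGroup (Fin n) F) : Matrix (Fin n) (Fin n) F) * ((T : Matrix.GeneralLinearGroup (Fin n) F) : Matrix (Fin n) (Fin n) F) =
          ((T' : Matrix.GeneralLinearGroup (Fin n) F) : Matrix (Fin n) (Fin n) F) * ((h : Matrix.GeneralLinearGroup (Fin n) F) : Matrix (Fin n) (Fin n) F)
        rw [hT, hT']
        apply mat_ext_mulVec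
        intro x
        rw [← Matrix.mulVec_mulVec, ← Matrix.mulVec_mulVec, siegel_mulVec, siegel_mulVec]
        rw [Matrix.mulVec_sub, Matrix.mulVec_add, Matrix.mulVec_smul, Matrix.mulVec_smul, hhu, hhv]
        have hp : ∀ y, polar Q (((h : Matrix.GeneralLinearGroup (Fin n) F) : Matrix (Fin n) (Fin n) F) *ᵥ x) (((h : Matrix.GeneralLinearGroup (Fin n) F) : Matrix (Fin n) (Fin n) F) *ᵥ y) = polar Q x y := by
          intro y
          exact polar_of_isom Q (g := ((h : Matrix.GeneralLinearGroup (Fin n) F) : Matrix (Fin n) (Fin n) F).mulVecLin) (fun z => h.2 z z) x y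
        have hp1 : polar Q v (((h : Matrix.GeneralLinearGroup (Fin n) F) : Matrix (Fin n) (Fin n) F) *ᵥ x) = polar Q v x := by
          rw [polar_comm, ← hhv, hp, hhv, polar_comm]
        have hp2 : polar Q u (((h : Matrix.GeneralLinearGroup (Fin n) F) : Matrix (Fin n) (Fin n) F) *ᵥ x) = μ * polar Q u x := by
          have e := hp u
          rw [hhu, polar_smul_right, smul_eq_mul] at e
          rw [polar_comm]
          rw [polar_comm Q u x, ← e]
          field_simp
        rw [hp1, hp2]
        match_scalars <;> field_simp <;> ring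
      refine ⟨h, T, ?_⟩
      rw [commutatorElement_def, hconj]
      apply isom_ext
      rw [hg]
      show ((T' : Matrix.GeneralLinearGroup (Fin n) F) : Matrix (Fin n) (Fin n) F) * ((T⁻¹ : ↥(Cfsg.isometryGroup F ⇑Q)) : Matrix.GeneralLinearGroup (Fin n) F).val = _
      obtain ⟨T'', hT''⟩ := hEl (-(c / (μ⁻¹ - 1)))
      have hinv : T⁻¹ = T'' := by
        rw [inv_eq_iff_mul_eq_one]
        apply isom_ext
        show ((T : Matrix.GeneralLinearGroup (Fin n) F) : Matrix (Fin n) (Fin n) F) * ((T'' : Matrix.GeneralLinearGroup (Fin n) F) : Matrix (Fin n) (Fin n) F) = 1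
        rw [hT, hT'', hS3, add_neg_cancel, hT0]
      rw [hinv, hT', hT'', hS3]
      congr 1
      field_simp
      ring
  refine ⟨hcomm, ?_⟩
  show g ∈ commutator _
  rw [commutator_eq_closure]
  exact Subgroup.subset_closure hcomm

end Cfsg.Agent.S0794
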