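import Cfsg.Statements.S0795
import Mathlib
import Cfsg.Agent.Lib.H03.OSpin
import Cfsg.Agent.Lib.H03.OSiegel
import Cfsg.Agent.S0794

set_option autoImplicit false
open Cfsg

namespace Cfsg.Agent.S0795

open Cfsg.Agent.H11 Cfsg.Agent.H03.OGen Cfsg.Agent.H03.OSpin Cfsg.Agent.H03.OPlane Cfsg.Agent.H03.OSiegel Matrix QuadraticMap Cfsg.Agent.H03
open scoped commutatorElement

lemma comm_mem_of_commute {G : Type*} [Group G] (N : Subgroup G) [N.Normal] {a b : G}
    (h : Commute (QuotientGroup.mk a : G ⧸ N) (QuotientGroup.mk b)) : ⁅a, b⁆ ∈ N := by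
  rw [← QuotientGroup.eq_one_iff, commutatorElement_def, QuotientGroup.mk_mul, QuotientGroup.mk_mul,
      QuotientGroup.mk_mul, QuotientGroup.mk_inv, QuotientGroup.mk_inv]
  rw [mul_inv_eq_iff_eq_mul, mul_inv_eq_iff_eq_mul, one_mul]
  exact h


/-- Generation of Ω by root elements: for q odd, n ≥ 5 and Q with non-degenerate polar form on F^n, the commutator subgroup of the isometry group equals the subgroup generated by the isometries whose matrices are Siegel transformations T_(u,v)(c) with u, v singular and orthogonal. -/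
theorem result {F : Type*} [Field F] [Fintype F] (h2 : (2 : F) ≠ 0) {n : ℕ} (hn : 5 ≤ n) (Q : QuadraticForm F (Fin n → F)) (hQ : (QuadraticMap.polarBilin Q).Nondegenerate) : Cfsg.Omega F ⇑Q = Subgroup.closure {g : ↥(Cfsg.isometryGroup F ⇑Q) | ∃ (u v : Fin n → F) (c : F), Q u = 0 ∧ Q v = 0 ∧ QuadraticMap.polar ⇑Q u v = 0 ∧ ((g : Matrix.GeneralLinearGroup (Fin n) F) : Matrix (Fin n) (Fin n) F) = Cfsg.siegelMatrix ⇑Q u v c} := by
  classical
  have hfr : Module.finrank F (Fin n → F) = n := by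
    rw [Module.finrank_fintype_fun_eq_card]; simp
  have hn' : 5 ≤ Module.finrank F (Fin n → F) := by rwa [hfr]
  have hchar : ringChar F ≠ 2 := by
    intro h
    apply h2
    have := ringChar.spec F 2
    simpa [h] using this
  set S := Subgroup.closure {g : ↥(Cfsg.isometryGroup F ⇑Q) | ∃ (u v : Fin n → F) (c : F), Q u = 0 ∧ Q v = 0 ∧ polar ⇑Q u v = 0 ∧ ((g : Matrix.GeneralLinearGroup (Fin n) F) : Matrix (Fin n) (Fin n) F) = Cfsg.siegelMatrix ⇑Q u v c} with hSdef
  apply le_antisymm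
  swap
  · rw [hSdef, Subgroup.closure_le]
    rintro g ⟨u, v, c, hu, hv, huv, hg⟩
    exact (Cfsg.Agent.S0794.result h2 hn Q hQ u v hu hv huv c g hg).2
  -- elements of `S`
  have hEl : ∀ (u v : Fin n → F) (c : F), Q u = 0 → Q v = 0 → polar ⇑Q u v = 0 →
      ∃ T ∈ S, ((T : Matrix.GeneralLinearGroup (Fin n) F) : Matrix (Fin n) (Fin n) F) = Cfsg.siegelMatrix ⇑Q u v c := by
    intro u v c hu hv huv
    obtain ⟨hS1, -, hS3⟩ := Cfsg.Agent.S0793.result Q u v hu hv huv
    have hT0 : Cfsg.siegelMatrix ⇑Q u v 0 = 1 := by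
      apply mat_ext_mulVec
      intro x
      rw [siegel_mulVec]
      simp
    have h1 : Cfsg.siegelMatrix ⇑Q u v c * Cfsg.siegelMatrix ⇑Q u v (-c) = 1 := by
      rw [hS3, add_neg_cancel, hT0]
    have h3 : Cfsg.siegelMatrix ⇑Q u v (-c) * Cfsg.siegelMatrix ⇑Q u v c = 1 := by
      rw [hS3, neg_add_cancel, hT0]
    refine ⟨⟨⟨_, _, h1, h3⟩, mem_isometryGroup_iff.2 (fun x => hS1 c x)⟩, ?_, rfl⟩
    exact Subgroup.subset_closure ⟨u, v, c, hu, hv, huv, rfl⟩
  have hSn : S.Normal := by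
    constructor
    intro x hx k
    rw [hSdef] at hx
    induction hx using Subgroup.closure_induction with
    | mem x hx =>
      obtain ⟨u, v, c, hu, hv, huv, hg⟩ := hx
      set K := ((k : Matrix.GeneralLinearGroup (Fin n) F) : Matrix (Fin n) (Fin n) F) with hK
      have hKQ : ∀ y, Q (K *ᵥ y) = Q y := fun y => k.2 y y
      have hKp : ∀ a b, polar ⇑Q (K *ᵥ a) (K *ᵥ b) = polar ⇑Q a b := fun a b =>
        polar_of_isom Q (g := K.mulVecLin) hKQ a b
      apply Subgroup.subset_closure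
      refine ⟨K *ᵥ u, K *ᵥ v, c, by rw [hKQ, hu], by rw [hKQ, hv], by rw [hKp, huv], ?_⟩
      have e : (k * x * k⁻¹ : ↥(Cfsg.isometryGroup F ⇑Q)) * k = k * x := by group
      have e2 : ((k * x * k⁻¹ : ↥(Cfsg.isometryGroup F ⇑Q)) : Matrix.GeneralLinearGroup (Fin n) F).val * K = K * Cfsg.siegelMatrix ⇑Q u v c := by
        rw [← hg]
        exact congrArg (fun z : ↥(Cfsg.isometryGroup F ⇑Q) => (z : Matrix.GeneralLinearGroup (Fin n) F).val) e
      have hKinv : K * ((k⁻¹ : ↥(Cfsg.isometryGroup F ⇑Q)) : Matrix.GeneralLinearGroup (Fin n) F).val = 1 := by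
        have : k * k⁻¹ = 1 := mul_inv_cancel k
        exact congrArg (fun z : ↥(Cfsg.isometryGroup F ⇑Q) => (z : Matrix.GeneralLinearGroup (Fin n) F).val) this
      have hKinv' : ((k⁻¹ : ↥(Cfsg.isometryGroup F ⇑Q)) : Matrix.GeneralLinearGroup (Fin n) F).val * K = 1 := by
        have : k⁻¹ * k = 1 := inv_mul_cancel k
        exact congrArg (fun z : ↥(Cfsg.isometryGroup F ⇑Q) => (z : Matrix.GeneralLinearGroup (Fin n) F).val) this
      have e3 : K * Cfsg.siegelMatrix ⇑Q u v c = Cfsg.siegelMatrix ⇑Q (K *ᵥ u) (K *ᵥ v) c * K := by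
        apply mat_ext_mulVec
        intro y
        rw [← Matrix.mulVec_mulVec, ← Matrix.mulVec_mulVec, siegel_mulVec, siegel_mulVec, hKp, hKp,
          Matrix.mulVec_sub, Matrix.mulVec_add, Matrix.mulVec_smul, Matrix.mulVec_smul]
      generalize ((k * x * k⁻¹ : ↥(Cfsg.isometryGroup F ⇑Q)) : Matrix.GeneralLinearGroup (Fin n) F).val = P at e2
      generalize ((k⁻¹ : ↥(Cfsg.isometryGroup F ⇑Q)) : Matrix.GeneralLinearGroup (Fin n) F).val = K' at hKinv hKinv'
      calc P = P * (K * K') := by rw [hKinv, mul_one]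
        _ = (P * K) * K' := by rw [mul_assoc]
        _ = (Cfsg.siegelMatrix ⇑Q (K *ᵥ u) (K *ᵥ v) c * K) * K' := by rw [e2, e3]
        _ = Cfsg.siegelMatrix ⇑Q (K *ᵥ u) (K *ᵥ v) c * (K * K') := by rw [mul_assoc]
        _ = _ := by rw [hKinv, mul_one]
    | one => simp [S.one_mem]
    | mul a b _ _ ha hb =>
      have : k * (a * b) * k⁻¹ = (k * a * k⁻¹) * (k * b * k⁻¹) := by group
      rw [this]
      exact S.mul_mem ha hb
    | inv a _ ha =>
      have : k * a⁻¹ * k⁻¹ = (k * a * k⁻¹)⁻¹ := by group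
      rw [this]
      exact S.inv_mem ha
  -- the orbit relation
  let Rel : (Fin n → F) → (Fin n → F) → Prop := fun x y => ∃ s ∈ S,
    ((s : Matrix.GeneralLinearGroup (Fin n) F) : Matrix (Fin n) (Fin n) F) *ᵥ x = y
  have Rrefl : ∀ x, Rel x x := fun x => ⟨1, S.one_mem, by simp⟩
  have Rsymm : ∀ x y, Rel x y → Rel y x := by
    rintro x y ⟨s, hs, rfl⟩
    refine ⟨s⁻¹, S.inv_mem hs, ?_⟩
    rw [Matrix.mulVec_mulVec]
    have : s⁻¹ * s = 1 := inv_mul_cancel s
    have e := congrArg (fun z : ↥(Cfsg.isometryGroup F ⇑Q) => (z : Matrix.GeneralLinearGroup (Fin n) F).val) this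
    have e2 : ((s⁻¹ : ↥(Cfsg.isometryGroup F ⇑Q)) : Matrix.GeneralLinearGroup (Fin n) F).val * (s : Matrix.GeneralLinearGroup (Fin n) F).val = 1 := e
    rw [e2, Matrix.one_mulVec]
  have Rtrans : ∀ x y z, Rel x y → Rel y z → Rel x z := by
    rintro x y z ⟨s, hs, rfl⟩ ⟨t, ht, rfl⟩
    refine ⟨t * s, S.mul_mem ht hs, ?_⟩
    rw [Matrix.mulVec_mulVec]
    rfl
  -- moves
  have Rmove : ∀ x v, Q x ≠ 0 → v ≠ 0 → Q v = 0 → polar ⇑Q x v = 0 → Rel x (x + v) := by
    intro x v hx hv hQv hxv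
    obtain ⟨u, hu, huv, hux⟩ := exists_move_partner h2 hQ hn' hx hv hQv hxv
    obtain ⟨T, hT, hTm⟩ := hEl u v (polar ⇑Q u x)⁻¹ hu hQv huv
    refine ⟨T, hT, ?_⟩
    rw [hTm, siegel_mulVec, inv_mul_cancel₀ hux, one_smul, polar_comm ⇑Q v x, hxv]
    simp
  have Radj : ∀ x z, Q x ≠ 0 → Q z = Q x → polar ⇑Q x z = 2 * Q x → Rel x z := by
    intro x z hx hz hxz
    by_cases hd : z - x = 0
    · rw [sub_eq_zero] at hd
      rw [hd]
      exact Rrefl x
    · have hQd : Q (z - x) = 0 := by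
        rw [Q_sub, hz, polar_comm, hxz]
        ring
      have hp : polar ⇑Q x (z - x) = 0 := by
        rw [polar_sub_right, hxz, polar_self']
        ring
      have := Rmove x (z - x) hx hd hQd hp
      rwa [add_sub_cancel] at this
  have Rplane : ∀ x y, Q x ≠ 0 → Q y = Q x → 4 * Q x * Q y - (polar ⇑Q x y) ^ 2 ≠ 0 → Rel x y := by
    intro x y hx hxy hD
    obtain ⟨z, hz, hz1, hz2⟩ := exists_common h2 hQ hn' hx hxy hD
    have hy : Q y ≠ 0 := by rw [hxy]; exact hx
    exact Rtrans _ _ _ (Radj x z hx hz hz1) (Rsymm _ _ (Radj y z hy (by rw [hz, hxy]) (by rw [hxy]; exact hz2)))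
  have hdim : Fintype.card F = 3 → Module.finrank F (Fin n → F) ≠ 3 ∧ Module.finrank F (Fin n → F) ≠ 4 := by
    intro _
    omega
  have Rtransit : ∀ x y, Q x ≠ 0 → Q y = Q x → Rel x y := by
    intro x y hx hxy
    by_cases hD : 4 * Q x * Q y - (polar ⇑Q x y) ^ 2 = 0
    · have hC : polar ⇑Q x y = 2 * Q x ∨ polar ⇑Q x y = -(2 * Q x) := by
        have : (polar ⇑Q x y - 2 * Q x) * (polar ⇑Q x y + 2 * Q x) = 0 := by
          rw [hxy] at hD
          linear_combination (-1 : F) * hD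
        rcases mul_eq_zero.1 this with h4 | h4
        · left; linear_combination h4
        · right; linear_combination h4
      rcases hC with hC | hC
      · exact Radj x y hx hxy hC
      · by_cases hd : x + y = 0
        · -- `y = -x`
          have hy : y = -x := by
            rw [eq_neg_iff_add_eq_zero, add_comm]
            exact hd
          obtain ⟨u, hu1, hu2⟩ := perp1_value h2 hQ (by omega) hx (Q x)
          have h4A : 4 * Q x * Q x ≠ 0 := by
            have : (4 : F) = 2 * 2 := by norm_num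
            rw [this]
            exact mul_ne_zero (mul_ne_zero (mul_ne_zero h2 h2) hx) hx
          have e1 : Rel x u := Rplane x u hx hu2 (by
            rw [hu1, hu2]
            simpa using h4A)
          have hu0 : Q u ≠ 0 := by rw [hu2]; exact hx
          have e2 : Rel u y := Rplane u y hu0 (by rw [hxy, hu2]) (by
            rw [hy, polar_neg_right, polar_comm, hu1, QuadraticMap.map_neg, hu2]
            simpa using h4A)
          exact Rtrans _ _ _ e1 e2
        · have hQd : Q (x + y) = 0 := by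
            rw [Q_add, hC, hxy]
            ring
          have hp : polar ⇑Q x (x + y) = 0 := by
            rw [polar_add_right, hC, polar_self']
            ring
          obtain ⟨u, hu, hu1, hu2⟩ := exists_inter_odd h2 hQ hdim hx hd hQd hp
          have e3 : x - (x + y) = -y := by abel
          rw [e3, QuadraticMap.map_neg, polar_neg_right] at hu2
          have hu0 : Q u ≠ 0 := by rw [hu]; exact hx
          have e1 : Rel u x := Rplane u x hu0 hu.symm hu1
          have e2 : Rel u y := Rplane u y hu0 (by rw [hxy, hu]) (by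
            intro h
            apply hu2
            linear_combination h)
          exact Rtrans _ _ _ (Rsymm _ _ e1) e2
    · exact Rplane x y hx hxy hD
  -- conjugate reflections
  have hmk : ∀ x y (hx : Q x ≠ 0) (hy : Q y ≠ 0), Q y = Q x →
      (QuotientGroup.mk (refl Q x hx) : ↥(Cfsg.isometryGroup F ⇑Q) ⧸ S) = QuotientGroup.mk (refl Q y hy) := by
    intro x y hx hy hxy
    obtain ⟨s, hs, hsx⟩ := Rtransit x y hx hxy
    have hne : Q (((s : Matrix.GeneralLinearGroup (Fin n) F) : Matrix (Fin n) (Fin n) F) *ᵥ x) ≠ 0 := by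
      rw [hsx]; exact hy
    have e := conj_refl Q s x hx hne
    have e2 : refl Q (((s : Matrix.GeneralLinearGroup (Fin n) F) : Matrix (Fin n) (Fin n) F) *ᵥ x) hne = refl Q y hy :=
      refl_congr Q hne hy (by rw [hsx])
    rw [← e2, ← e]
    have hs1 : (QuotientGroup.mk s : ↥(Cfsg.isometryGroup F ⇑Q) ⧸ S) = 1 := (QuotientGroup.eq_one_iff s).2 hs
    rw [QuotientGroup.mk_mul, QuotientGroup.mk_mul, QuotientGroup.mk_inv, hs1]
    simp
  -- the two classes
  obtain ⟨ν, hν⟩ := FiniteField.exists_nonsquare hchar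
  have hν0 : ν ≠ 0 := fun h => hν (by simp [h])
  obtain ⟨a₁, ha₁⟩ := exists_ne_of_nondeg hQ (by omega)
  obtain ⟨a₂, ha₁₂, ha₂⟩ := perp1_value h2 hQ (by omega) ha₁ (ν * Q a₁)
  have ha₂0 : Q a₂ ≠ 0 := by rw [ha₂]; exact mul_ne_zero hν0 ha₁
  have hcomm12 : Commute (QuotientGroup.mk (refl Q a₁ ha₁) : ↥(Cfsg.isometryGroup F ⇑Q) ⧸ S) (QuotientGroup.mk (refl Q a₂ ha₂0)) := by
    rw [commute_iff_eq, ← QuotientGroup.mk_mul, ← QuotientGroup.mk_mul]
    congr 1
    have hne : Q (((refl Q a₁ ha₁ : ↥(Cfsg.isometryGroup F ⇑Q)) : Matrix.GeneralLinearGroup (Fin n) F).val *ᵥ a₂) ≠ 0 := by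
      have : ((refl Q a₁ ha₁ : ↥(Cfsg.isometryGroup F ⇑Q)) : Matrix.GeneralLinearGroup (Fin n) F).val *ᵥ a₂ = a₂ := refl_fix Q ha₁₂
      rw [this]; exact ha₂0
    have e := conj_refl Q (refl Q a₁ ha₁) a₂ ha₂0 hne
    have e2 : refl Q (((refl Q a₁ ha₁ : ↥(Cfsg.isometryGroup F ⇑Q)) : Matrix.GeneralLinearGroup (Fin n) F).val *ᵥ a₂) hne = refl Q a₂ ha₂0 :=
      refl_congr Q hne ha₂0 (by rw [show ((refl Q a₁ ha₁ : ↥(Cfsg.isometryGroup F ⇑Q)) : Matrix.GeneralLinearGroup (Fin n) F).val *ᵥ a₂ = a₂ from refl_fix Q ha₁₂])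
    rw [e2, mul_inv_eq_iff_eq_mul] at e
    exact e
  have hclass : ∀ x (hx : Q x ≠ 0),
      (QuotientGroup.mk (refl Q x hx) : ↥(Cfsg.isometryGroup F ⇑Q) ⧸ S) = QuotientGroup.mk (refl Q a₁ ha₁) ∨
      (QuotientGroup.mk (refl Q x hx) : ↥(Cfsg.isometryGroup F ⇑Q) ⧸ S) = QuotientGroup.mk (refl Q a₂ ha₂0) := by
    intro x hx
    have key : ∀ a (ha : Q a ≠ 0), IsSquare (Q x / Q a) →
        (QuotientGroup.mk (refl Q x hx) : ↥(Cfsg.isometryGroup F ⇑Q) ⧸ S) = QuotientGroup.mk (refl Q a ha) := by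
      rintro a ha ⟨t, ht⟩
      have ht0 : t ≠ 0 := by
        rintro rfl
        rw [mul_zero] at ht
        exact (div_ne_zero hx ha) ht
      have hQ' : Q (t⁻¹ • x) = Q a := by
        rw [QuadraticMap.map_smul]
        simp only [smul_eq_mul]
        rw [div_eq_iff ha] at ht
        rw [ht]
        field_simp
      have hQ'0 : Q (t⁻¹ • x) ≠ 0 := by rw [hQ']; exact ha
      have e1 : refl Q x hx = refl Q (t⁻¹ • x) hQ'0 :=
        refl_congr Q hx hQ'0 (reflMat_smul Q _ (inv_ne_zero ht0) x hx).symm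
      rw [e1]
      exact hmk _ _ _ _ hQ'.symm
    by_cases h5 : IsSquare (Q x / Q a₁)
    · exact Or.inl (key a₁ ha₁ h5)
    · right
      apply key a₂ ha₂0
      rw [ha₂]
      have h6 : chiU (Q x / (ν * Q a₁)) = 1 := by
        have e : Q x / (ν * Q a₁) * ν * ν = Q x / Q a₁ * ν := by
          field_simp
        have h7 : chiU (Q x / Q a₁ * ν) = 1 := by
          rw [chiU_mul (div_ne_zero hx ha₁) hν0, chiU, if_neg h5, chiU, if_neg hν]
          decide
        rw [← e] at h7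
        have h8 : Q x / (ν * Q a₁) ≠ 0 := div_ne_zero hx (mul_ne_zero hν0 ha₁)
        rw [mul_assoc, chiU_mul h8 (mul_ne_zero hν0 hν0), chiU_eq_one_iff.2 ⟨ν, rfl⟩, mul_one] at h7
        exact h7
      exact chiU_eq_one_iff.1 h6
  apply commutator_le_of_gen _ (closure_refl_eq_top Q hQ (Or.inl (card_ne_two_of h2)))
  rintro a ⟨x, hx, ha⟩ b ⟨y, hy, hb⟩
  have ea : a = refl Q x hx := isom_ext ha
  have eb : b = refl Q y hy := isom_ext hb
  rw [ea, eb]
  apply comm_mem_of_commute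
  rcases hclass x hx with h5 | h5 <;> rcases hclass y hy with h6 | h6 <;> rw [h5, h6] <;>
    first | exact hcomm12 | exact hcomm12.symm

end Cfsg.Agent.S0795
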