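import Cfsg.Statements.S0796
import Mathlib
import Cfsg.Agent.Lib.H03.JordanN

set_option autoImplicit false
open Cfsg

namespace Cfsg.Agent.S0796


/-- If G is finite and acts faithfully and primitively on X, H is the stabiliser of a point, A is a normal subgroup of H whose normal closure in G is G, then for every non-trivial normal subgroup K of G the quotient G ⧸ K is isomorphic to A ⧸ B for some normal subgroup B of A. -/
theorem result {G X : Type*} [Group G] [Finite G] [MulAction G X] [FaithfulSMul G X] (hprim : MulAction.IsPreprimitive G X) (x : X) (A : Subgroup G) (hA : A ≤ MulAction.stabilizer G x) (hAn : (A.subgroupOf (MulAction.stabilizer G x)).Normal) (hgen : Subgroup.normalClosure (A : Set G) = ⊤) (K : Subgroup G) [K.Normal] (hK : K ≠ ⊥) : ∃ (B : Subgroup A) (_ : B.Normal), Nonempty (G ⧸ K ≃* A ⧸ B) := by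
  classical
  have htrans : MulAction.IsPretransitive K X := Cfsg.Agent.H03.isPretransitive_normal_of_prim hprim K hK
  -- decomposition of G
  have hdec : ∀ g : G, ∃ k ∈ K, ∃ h ∈ MulAction.stabilizer G x, g = k * h := by
    intro g
    obtain ⟨k, hk⟩ := htrans.exists_smul_eq x (g • x)
    refine ⟨k, k.2, (k : G)⁻¹ * g, ?_, by group⟩
    rw [MulAction.mem_stabilizer_iff, mul_smul, inv_smul_eq_iff]
    exact hk.symm
  set T : Subgroup G := A ⊔ K with hT
  have hAT : A ≤ T := le_sup_left
  have hKT : K ≤ T := le_sup_right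
  have hTtop : T = ⊤ := by
    rw [eq_top_iff, ← hgen]
    unfold Subgroup.normalClosure
    rw [Subgroup.closure_le]
    intro y hy
    rw [Group.mem_conjugatesOfSet_iff] at hy
    obtain ⟨a, ha, hc⟩ := hy
    obtain ⟨g, rfl⟩ := isConj_iff.mp hc
    obtain ⟨k, hk, h, hh, rfl⟩ := hdec g
    have h1 : h * a * h⁻¹ ∈ A := by
      have ha' : (⟨a, hA ha⟩ : MulAction.stabilizer G x) ∈ A.subgroupOf (MulAction.stabilizer G x) := ha
      have := hAn.conj_mem _ ha' ⟨h, hh⟩
      exact this
    have : k * h * a * (k * h)⁻¹ = k * (h * a * h⁻¹) * k⁻¹ := by group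
    rw [SetLike.mem_coe, this]
    exact T.mul_mem (T.mul_mem (hKT hk) (hAT h1)) (T.inv_mem (hKT hk))
  let φ : A →* G ⧸ K := (QuotientGroup.mk' K).comp A.subtype
  have hφ : Function.Surjective φ := by
    intro q
    obtain ⟨g, rfl⟩ := QuotientGroup.mk_surjective q
    have hg : g ∈ ((A ⊔ K : Subgroup G) : Set G) := by
      rw [← hT, hTtop]; trivial
    rw [Subgroup.mul_normal] at hg
    obtain ⟨a, ha, k, hk, rfl⟩ := hg
    refine ⟨⟨a, ha⟩, ?_⟩
    change ((a : G) : G ⧸ K) = ((a * k : G) : G ⧸ K)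
    rw [QuotientGroup.eq]
    simpa [mul_assoc] using hk
  exact ⟨φ.ker, inferInstance, ⟨(QuotientGroup.quotientKerEquivOfSurjective φ hφ).symm⟩⟩

end Cfsg.Agent.S0796
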