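import Cfsg.Statements.S0797
import Mathlib
import Cfsg.Agent.Lib.H03.OSpin

set_option autoImplicit false
open Cfsg

namespace Cfsg.Agent.S0797

open Cfsg.Agent.H11 Cfsg.Agent.H03.OGen Cfsg.Agent.H03.OSpin

lemma units_mul_eq_one {a b : ℤˣ} (h : a * b = 1) : a = b := by
  rcases Int.units_eq_one_or a with rfl | rfl <;> rcases Int.units_eq_one_or b with rfl | rfl <;> first | rfl | (exact absurd h (by decide))

lemma index_ker_of_surj {G : Type*} [Group G] (χ : G →* ℤˣ) (h : Function.Surjective χ) : χ.ker.index = 2 := by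
  rw [Subgroup.index_ker, MonoidHom.range_eq_top.2 h, Nat.card_congr Subgroup.topEquiv.toEquiv,
    Nat.card_eq_fintype_card, Fintype.card_units_int]

lemma surj_of {G : Type*} [Group G] (χ : G →* ℤˣ) (g : G) (h : χ g = -1) : Function.Surjective χ := by
  intro y
  rcases Int.units_eq_one_or y with rfl | rfl
  · exact ⟨1, by simp⟩
  · exact ⟨g, h⟩


/-- O^ε_2m(q) ≅ Ω.2² for q odd: if F is finite of odd characteristic, n ≥ 2 is even and Q has non-degenerate polar form on F^n, the isometry group of Q has exactly three subgroups of index 2. -/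
theorem result {F : Type*} [Field F] [Fintype F] (h2 : (2 : F) ≠ 0) {n : ℕ} (hn : 2 ≤ n) (heven : Even n) (Q : QuadraticForm F (Fin n → F)) (hQ : (QuadraticMap.polarBilin Q).Nondegenerate) : Nat.card {H : Subgroup ↥(Cfsg.isometryGroup F ⇑Q) // H.index = 2} = 3 := by
  classical
  obtain ⟨χ₁, χ₂, h1, h3, hΩ, hs⟩ := odd_chars h2 (by simpa using hn) Q hQ
  obtain ⟨g₁, hg₁⟩ := hs ((-1 : ℤˣ), (1 : ℤˣ))
  obtain ⟨g₂, hg₂⟩ := hs ((1 : ℤˣ), (-1 : ℤˣ))
  have a1 : χ₁ g₁ = -1 := congrArg Prod.fst hg₁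
  have a2 : χ₂ g₁ = 1 := congrArg Prod.snd hg₁
  have b1 : χ₁ g₂ = 1 := congrArg Prod.fst hg₂
  have b2 : χ₂ g₂ = -1 := congrArg Prod.snd hg₂
  set χ₃ := χ₁ * χ₂ with hχ₃
  have c1 : χ₃ g₁ = -1 := by simp [hχ₃, a1, a2]
  have c2 : χ₃ g₂ = -1 := by simp [hχ₃, b1, b2]
  have i1 : χ₁.ker.index = 2 := index_ker_of_surj _ (surj_of _ g₁ a1)
  have i2 : χ₂.ker.index = 2 := index_ker_of_surj _ (surj_of _ g₂ b2)
  have i3 : χ₃.ker.index = 2 := index_ker_of_surj _ (surj_of _ g₁ c1)
  have hcl : ∀ H : Subgroup ↥(Cfsg.isometryGroup F ⇑Q), H.index = 2 →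
      H = χ₁.ker ∨ H = χ₂.ker ∨ H = χ₃.ker := by
    intro H hH
    -- the character attached to `H`
    let lH : ↥(Cfsg.isometryGroup F ⇑Q) →* ℤˣ := MonoidHom.mk' (fun g => if g ∈ H then 1 else -1) (by
      intro a b
      have := Subgroup.mul_mem_iff_of_index_two hH (a := a) (b := b)
      by_cases ha : a ∈ H <;> by_cases hb : b ∈ H <;> simp [ha, hb, this])
    have hl : ∀ g, lH g = 1 ↔ g ∈ H := by
      intro g
      show (if g ∈ H then (1 : ℤˣ) else -1) = 1 ↔ g ∈ H
      by_cases h : g ∈ H <;> simp [h]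
    have hl' : ∀ g, lH g = -1 ↔ g ∉ H := by
      intro g
      show (if g ∈ H then (1 : ℤˣ) else -1) = -1 ↔ g ∉ H
      by_cases h : g ∈ H
      · simp [h]
      · simp [h]
    have hOl : ∀ g, χ₁ g = 1 → χ₂ g = 1 → lH g = 1 := by
      intro g h4 h5
      exact comm_map_one lH ((hΩ g).2 ⟨h4, h5⟩)
    have key : ∀ g, (χ₁ g = 1 → χ₂ g = 1 → lH g = 1) ∧ (χ₁ g = 1 → χ₂ g = -1 → lH g = lH g₂) ∧
        (χ₁ g = -1 → χ₂ g = 1 → lH g = lH g₁) ∧ (χ₁ g = -1 → χ₂ g = -1 → lH g = lH g₁ * lH g₂) := by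
      intro g
      refine ⟨hOl g, ?_, ?_, ?_⟩
      · intro h4 h5
        apply units_mul_eq_one
        rw [← map_mul]
        apply hOl
        · rw [map_mul, h4, b1, one_mul]
        · rw [map_mul, h5, b2]; decide
      · intro h4 h5
        apply units_mul_eq_one
        rw [← map_mul]
        apply hOl
        · rw [map_mul, h4, a1]; decide
        · rw [map_mul, h5, a2, one_mul]
      · intro h4 h5
        apply units_mul_eq_one
        rw [← map_mul, ← map_mul]
        apply hOl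
        · rw [map_mul, map_mul, h4, a1, b1]; decide
        · rw [map_mul, map_mul, h5, a2, b2]; decide
    have hval : ∀ g, lH g = 1 ∨ lH g = -1 := fun g => Int.units_eq_one_or _
    have hval1 : ∀ g, χ₁ g = 1 ∨ χ₁ g = -1 := fun g => Int.units_eq_one_or _
    have hval2 : ∀ g, χ₂ g = 1 ∨ χ₂ g = -1 := fun g => Int.units_eq_one_or _
    rcases hval g₁ with l1 | l1 <;> rcases hval g₂ with l2 | l2
    · -- both in `H`: then `H` is everything
      exfalso
      have : H = ⊤ := by
        rw [eq_top_iff]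
        intro g _
        rw [← hl]
        obtain ⟨k1, k2, k3, k4⟩ := key g
        rcases hval1 g with m1 | m1 <;> rcases hval2 g with m2 | m2
        · exact k1 m1 m2
        · rw [k2 m1 m2, l2]
        · rw [k3 m1 m2, l1]
        · rw [k4 m1 m2, l1, l2, one_mul]
      rw [this, Subgroup.index_top] at hH
      omega
    · right; left
      ext g
      rw [← hl, MonoidHom.mem_ker]
      obtain ⟨k1, k2, k3, k4⟩ := key g
      rcases hval1 g with m1 | m1 <;> rcases hval2 g with m2 | m2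
      · simp [k1 m1 m2, m2]
      · simp only [k2 m1 m2, m2, l2]
      · simp [k3 m1 m2, m2, l1]
      · simp only [k4 m1 m2, m2, l1, l2, one_mul]
    · left
      ext g
      rw [← hl, MonoidHom.mem_ker]
      obtain ⟨k1, k2, k3, k4⟩ := key g
      rcases hval1 g with m1 | m1 <;> rcases hval2 g with m2 | m2
      · simp [k1 m1 m2, m1]
      · simp [k2 m1 m2, m1, l2]
      · simp only [k3 m1 m2, m1, l1]
      · simp only [k4 m1 m2, m1, l1, l2, mul_one]
    · right; right
      ext g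
      rw [← hl, MonoidHom.mem_ker, hχ₃, MonoidHom.mul_apply]
      obtain ⟨k1, k2, k3, k4⟩ := key g
      rcases hval1 g with m1 | m1 <;> rcases hval2 g with m2 | m2
      · simp [k1 m1 m2, m1, m2]
      · simp [k2 m1 m2, m1, m2, l2]
      · simp [k3 m1 m2, m1, m2, l1]
      · simp [k4 m1 m2, m1, m2, l1, l2]
  have hne12 : χ₁.ker ≠ χ₂.ker := by
    intro h
    have : g₁ ∈ χ₂.ker := a2
    rw [← h, MonoidHom.mem_ker, a1] at this
    exact absurd this (by decide)
  have hne13 : χ₁.ker ≠ χ₃.ker := by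
    intro h
    have : g₂ ∈ χ₁.ker := b1
    rw [h, MonoidHom.mem_ker, c2] at this
    exact absurd this (by decide)
  have hne23 : χ₂.ker ≠ χ₃.ker := by
    intro h
    have : g₁ ∈ χ₂.ker := a2
    rw [h, MonoidHom.mem_ker, c1] at this
    exact absurd this (by decide)
  have hset : {H : Subgroup ↥(Cfsg.isometryGroup F ⇑Q) | H.index = 2} = {χ₁.ker, χ₂.ker, χ₃.ker} := by
    ext H
    simp only [Set.mem_setOf_eq, Set.mem_insert_iff, Set.mem_singleton_iff]
    constructor
    · exact hcl H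
    · rintro (rfl | rfl | rfl)
      · exact i1
      · exact i2
      · exact i3
  have := Set.ncard_eq_three.2 ⟨_, _, _, hne12, hne13, hne23, hset⟩
  rw [← Nat.card_coe_set_eq] at this
  exact this

end Cfsg.Agent.S0797
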