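import Cfsg.Statements.S0798
import Mathlib
import Cfsg.Agent.Lib.H03.OSpin
import Cfsg.Agent.Lib.H03.OPlane

set_option autoImplicit false
open Cfsg

namespace Cfsg.Agent.S0798

open Cfsg.Agent.H11 Cfsg.Agent.H03.OGen Cfsg.Agent.H03.OSpin Cfsg.Agent.H03.OPlane Matrix QuadraticMap

/-- the product of two reflections spanning a nondegenerate plane -/
lemma plane_mem {F : Type*} [Field F] [Fintype F] {n : ℕ} (Q : QuadraticForm F (Fin n → F))
    {c : F} (hc : c ≠ 0) (R : Subgroup ↥(Cfsg.isometryGroup F ⇑Q))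
    (hR : ∀ v (hv : Q v ≠ 0) (t : F), t ≠ 0 → Q v = c * t ^ 2 → refl Q v hv ∈ R)
    {w w' : Fin n → F} (hw : Q w ≠ 0) (hw' : Q w' ≠ 0) (hsq : IsSquare (Q w * Q w'))
    (hD : 4 * Q w * Q w' - (polar Q w w') ^ 2 ≠ 0) : refl Q w hw * refl Q w' hw' ∈ R := by
  obtain ⟨α, β, hx⟩ := exists_plane_value Q w w' c hD
  obtain ⟨s, hs⟩ := hsq
  have hx0 : Q (α • w + β • w') ≠ 0 := by rw [hx]; exact hc
  have hy := Q_plane_y Q w w' α β
  have hy0 : Q ((α * Q w + β * polar Q w w') • w' - (β * Q w') • w) ≠ 0 := by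
    rw [hy]
    exact mul_ne_zero (mul_ne_zero hw hw') hx0
  have hs0 : s ≠ 0 := by
    rintro rfl
    rw [mul_zero] at hs
    exact (mul_ne_zero hw hw') hs
  rw [refl_plane Q w w' α β hw hw' hx0 hy0]
  apply R.mul_mem
  · exact hR _ hx0 1 one_ne_zero (by rw [hx]; ring)
  · exact hR _ hy0 s hs0 (by rw [hy, hx, hs]; ring)


/-- For q odd, n ≥ 2 even, Q with non-degenerate polar form (n, |F|) ≠ (4, 3), and a fixed c ≠ 0: the subgroup of the isometry group generated by the reflections r_v with Q(v) ∈ c·(F^×)² has index 2. -/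
theorem result {F : Type*} [Field F] [Fintype F] (h2 : (2 : F) ≠ 0) {n : ℕ} (hn : 2 ≤ n) (heven : Even n) (Q : QuadraticForm F (Fin n → F)) (hQ : (QuadraticMap.polarBilin Q).Nondegenerate) (h43 : ¬ (n = 4 ∧ Fintype.card F = 3)) (c : F) (hc : c ≠ 0) : (Subgroup.closure {g : ↥(Cfsg.isometryGroup F ⇑Q) | ∃ (v : Fin n → F) (t : F), t ≠ 0 ∧ Q v = c * t ^ 2 ∧ ((g : Matrix.GeneralLinearGroup (Fin n) F) : Matrix (Fin n) (Fin n) F) = Cfsg.reflectionMatrix ⇑Q v}).index = 2 := by
  classical
  have hcn : 2 ≤ Fintype.card (Fin n) := by simpa using hn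
  have hfr : Module.finrank F (Fin n → F) = n := by
    rw [Module.finrank_fintype_fun_eq_card]; simp
  have hchar : ringChar F ≠ 2 := by
    intro h
    apply h2
    have := ringChar.spec F 2
    simpa [h] using this
  obtain ⟨χ₁, χ₂, h1, h3, -, -⟩ := odd_chars h2 hcn Q hQ
  set R := Subgroup.closure {g : ↥(Cfsg.isometryGroup F ⇑Q) | ∃ (v : Fin n → F) (t : F), t ≠ 0 ∧ Q v = c * t ^ 2 ∧ ((g : Matrix.GeneralLinearGroup (Fin n) F) : Matrix (Fin n) (Fin n) F) = Cfsg.reflectionMatrix ⇑Q v} with hRdef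
  have hR : ∀ v (hv : Q v ≠ 0) (t : F), t ≠ 0 → Q v = c * t ^ 2 → refl Q v hv ∈ R := by
    intro v hv t ht hvt
    exact Subgroup.subset_closure ⟨v, t, ht, hvt, rfl⟩
  -- the pair lemma
  have hpair : ∀ (w w' : Fin n → F) (hw : Q w ≠ 0) (hw' : Q w' ≠ 0), IsSquare (Q w * Q w') →
      refl Q w hw * refl Q w' hw' ∈ R := by
    intro w w' hw hw' hsq
    obtain ⟨s, hs⟩ := hsq
    have hs0 : s ≠ 0 := by
      rintro rfl
      rw [mul_zero] at hs
      exact (mul_ne_zero hw hw') hs
    set A := Q w with hA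
    have ht0 : s / Q w' ≠ 0 := div_ne_zero hs0 hw'
    have hw1 : Q ((s / Q w') • w') = A := by
      rw [QuadraticMap.map_smul]
      simp only [smul_eq_mul]
      field_simp
      rw [pow_two, ← hs]
      ring
    have hw10 : Q ((s / Q w') • w') ≠ 0 := by rw [hw1]; exact hw
    have e1 : refl Q w' hw' = refl Q ((s / Q w') • w') hw10 :=
      refl_congr Q hw' hw10 (reflMat_smul Q _ ht0 w' hw').symm
    rw [e1]
    generalize (s / Q w') • w' = w₁ at hw1 hw10
    -- now both have the same value
    have hsqA : IsSquare (Q w * Q w₁) := ⟨A, by rw [hw1, ← hA]⟩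
    by_cases hD : 4 * Q w * Q w₁ - (polar Q w w₁) ^ 2 = 0
    · -- degenerate plane
      have hC : polar Q w w₁ = 2 * A ∨ polar Q w w₁ = -(2 * A) := by
        have : (polar Q w w₁ - 2 * A) * (polar Q w w₁ + 2 * A) = 0 := by
          rw [hw1, ← hA] at hD
          linear_combination (-1 : F) * hD
        rcases mul_eq_zero.1 this with h4 | h4
        · left; linear_combination h4
        · right; linear_combination h4
      obtain ⟨w₂, hw2, hw20, e2, hC2⟩ : ∃ w₂, Q w₂ = A ∧ ∃ h : Q w₂ ≠ 0,
          refl Q w₁ hw10 = refl Q w₂ h ∧ polar Q w w₂ = 2 * A := by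
        rcases hC with hC | hC
        · exact ⟨w₁, hw1, hw10, rfl, hC⟩
        · have hneg : Q (-w₁) = A := by rw [QuadraticMap.map_neg, hw1]
          have hneg0 : Q (-w₁) ≠ 0 := by rw [hneg]; exact hw
          refine ⟨-w₁, hneg, hneg0, ?_, ?_⟩
          · apply refl_congr Q hw10 hneg0
            have := reflMat_smul Q (-1 : F) (by simp) w₁ hw10
            simpa using this.symm
          · rw [polar_neg_right, hC]; ring
      rw [e2]
      by_cases hd : w = w₂
      · subst hd
        rw [refl_mul_self]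
        exact R.one_mem
      · have hd0 : w - w₂ ≠ 0 := sub_ne_zero.2 hd
        have hQd : Q (w - w₂) = 0 := by
          rw [Q_sub, hw2, hC2, ← hA]; ring
        have hwd : polar Q w (w - w₂) = 0 := by
          rw [polar_sub_right, hC2, polar_self', ← hA]; ring
        have hdim : Fintype.card F = 3 → Module.finrank F (Fin n → F) ≠ 3 ∧ Module.finrank F (Fin n → F) ≠ 4 := by
          intro hc3
          rw [hfr]
          constructor
          · rintro rfl
            exact absurd heven (by decide)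
          · rintro rfl
            exact h43 ⟨rfl, hc3⟩
        obtain ⟨u, hu, hu1, hu2⟩ := exists_inter_odd h2 hQ hdim hw hd0 hQd hwd
        have e3 : w - (w - w₂) = w₂ := by abel
        rw [e3] at hu2
        have hu0 : Q u ≠ 0 := by rw [hu]; exact hw
        have e4 : refl Q w hw * refl Q w₂ hw20 =
            (refl Q w hw * refl Q u hu0) * (refl Q u hu0 * refl Q w₂ hw20) := by
          calc _ = refl Q w hw * (refl Q u hu0 * refl Q u hu0) * refl Q w₂ hw20 := by
                rw [refl_mul_self, mul_one]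
            _ = _ := by group
        rw [e4]
        apply R.mul_mem
        · apply plane_mem Q hc R hR hw hu0 ⟨A, by rw [hu, ← hA]⟩
          rw [polar_comm]
          intro h5
          apply hu1
          linear_combination h5
        · apply plane_mem Q hc R hR hu0 hw20 ⟨A, by rw [hu, hw2]⟩
          exact hu2
    · exact plane_mem Q hc R hR hw hw10 hsqA hD
  -- the character
  have hc' : ∃ χ : ↥(Cfsg.isometryGroup F ⇑Q) →* ℤˣ, ∀ v (hv : Q v ≠ 0), χ (refl Q v hv) = chiU (c * Q v) := by
    by_cases hcs : IsSquare c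
    · refine ⟨χ₂, fun v hv => ?_⟩
      rw [h3, chiU_mul hc hv, chiU_eq_one_iff.2 hcs, one_mul]
    · refine ⟨χ₁ * χ₂, fun v hv => ?_⟩
      have : chiU c = -1 := by rw [chiU, if_neg hcs]
      rw [MonoidHom.mul_apply, h1, h3, chiU_mul hc hv, this]
  obtain ⟨χ, hχ⟩ := hc'
  obtain ⟨ν, hν⟩ := FiniteField.exists_nonsquare hchar
  have hν0 : ν ≠ 0 := fun h => hν (by simp [h])
  obtain ⟨w₀, hw₀⟩ := exists_value_of_nondeg Q hQ (by rw [hfr]; exact hn) (c * ν)
  have hw₀0 : Q w₀ ≠ 0 := by rw [hw₀]; exact mul_ne_zero hc hν0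
  have hχw₀ : χ (refl Q w₀ hw₀0) = -1 := by
    rw [hχ, hw₀, chiU_mul hc (mul_ne_zero hc hν0), chiU_mul hc hν0, ← mul_assoc, ← chiU_mul hc hc]
    have h5 : chiU (c * c) = 1 := chiU_eq_one_iff.2 ⟨c, rfl⟩
    rw [h5, one_mul, chiU, if_neg hν]
  have hclass : ∀ v, Q v ≠ 0 → IsSquare (c * Q v) → ∃ t : F, t ≠ 0 ∧ Q v = c * t ^ 2 := by
    rintro v hv ⟨s, hs⟩
    have hs0 : s ≠ 0 := by
      rintro rfl
      rw [mul_zero] at hs
      exact (mul_ne_zero hc hv) hs
    refine ⟨s / c, div_ne_zero hs0 hc, ?_⟩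
    field_simp
    rw [pow_two, ← hs]
    ring
  -- the dichotomy
  have hdich : ∀ (L : List (Fin n → F)), (∀ v ∈ L, Q v ≠ 0) → ∀ g : ↥(Cfsg.isometryGroup F ⇑Q),
      ((g : Matrix.GeneralLinearGroup (Fin n) F) : Matrix (Fin n) (Fin n) F) =
        (L.map (fun v => Cfsg.reflectionMatrix ⇑Q v)).prod → g ∈ R ∨ refl Q w₀ hw₀0 * g ∈ R := by
    intro L
    induction L with
    | nil =>
      intro _ g hg
      left
      have : g = 1 := by
        apply Subtype.ext
        apply Units.ext
        simpa using hg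
      rw [this]
      exact R.one_mem
    | cons v L ih =>
      intro hL g hg
      have hv := hL v List.mem_cons_self
      have hg' : ((refl Q v hv * g : ↥(Cfsg.isometryGroup F ⇑Q)) : Matrix.GeneralLinearGroup (Fin n) F).val =
          (L.map (fun v => Cfsg.reflectionMatrix ⇑Q v)).prod := by
        simp only [List.map_cons, List.prod_cons] at hg
        show Cfsg.reflectionMatrix ⇑Q v * ((g : Matrix.GeneralLinearGroup (Fin n) F) : Matrix (Fin n) (Fin n) F) = _
        rw [hg, ← mul_assoc, refl_sq Q v hv, one_mul]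
      have hg2 : g = refl Q v hv * (refl Q v hv * g) := by
        rw [← mul_assoc, refl_mul_self, one_mul]
      set g' := refl Q v hv * g with hg'd
      have hih := ih (fun w hw => hL w (List.mem_cons_of_mem _ hw)) g' hg'
      by_cases hvc : IsSquare (c * Q v)
      · obtain ⟨t, ht, hvt⟩ := hclass v hv hvc
        have hrv : refl Q v hv ∈ R := hR v hv t ht hvt
        rcases hih with hih | hih
        · left
          rw [hg2]
          exact R.mul_mem hrv hih
        · right
          -- conjugate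
          have hQr : Q (((refl Q w₀ hw₀0 : ↥(Cfsg.isometryGroup F ⇑Q)) : Matrix.GeneralLinearGroup (Fin n) F).val *ᵥ v) = Q v :=
            (refl Q w₀ hw₀0).2 v v
          have hne : Q (((refl Q w₀ hw₀0 : ↥(Cfsg.isometryGroup F ⇑Q)) : Matrix.GeneralLinearGroup (Fin n) F).val *ᵥ v) ≠ 0 := by
            rw [hQr]; exact hv
          have hconj := conj_refl Q (refl Q w₀ hw₀0) v hv hne
          have hm : refl Q w₀ hw₀0 * refl Q v hv * (refl Q w₀ hw₀0)⁻¹ ∈ R := by
            rw [hconj]
            exact hR _ hne t ht (by rw [hQr, hvt])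
          have e : refl Q w₀ hw₀0 * g = (refl Q w₀ hw₀0 * refl Q v hv * (refl Q w₀ hw₀0)⁻¹) * (refl Q w₀ hw₀0 * g') := by
            rw [hg2]
            group
          rw [e]
          exact R.mul_mem hm hih
      · have hsq : IsSquare (Q w₀ * Q v) := by
          have h5 : IsSquare ((c * Q w₀) * (c * Q v)) := by
            have h6 : chiU ((c * Q w₀) * (c * Q v)) = 1 := by
              rw [chiU_mul (mul_ne_zero hc hw₀0) (mul_ne_zero hc hv)]
              have h7 : chiU (c * Q v) = -1 := by rw [chiU, if_neg hvc]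
              rw [h7, ← hχ w₀ hw₀0, hχw₀]
              decide
            exact chiU_eq_one_iff.1 h6
          obtain ⟨s, hs⟩ := h5
          refine ⟨s / c, ?_⟩
          field_simp
          linear_combination hs
        have hsq' : IsSquare (Q v * Q w₀) := by rwa [mul_comm]
        rcases hih with hih | hih
        · right
          have e : refl Q w₀ hw₀0 * g = (refl Q w₀ hw₀0 * refl Q v hv) * g' := by
            rw [hg2]
            group
          rw [e]
          exact R.mul_mem (hpair w₀ v hw₀0 hv hsq) hih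
        · left
          have e : g = (refl Q v hv * refl Q w₀ hw₀0) * (refl Q w₀ hw₀0 * g') := by
            have : (refl Q v hv * refl Q w₀ hw₀0) * (refl Q w₀ hw₀0 * g') = refl Q v hv * (refl Q w₀ hw₀0 * refl Q w₀ hw₀0) * g' := by
              group
            rw [this, refl_mul_self, mul_one, ← hg2]
          rw [e]
          exact R.mul_mem (hpair v w₀ hv hw₀0 hsq') hih
  -- `R` is the kernel
  have hRle : R ≤ χ.ker := by
    rw [hRdef, Subgroup.closure_le]
    rintro g ⟨v, t, ht, hvt, hg⟩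
    have hv : Q v ≠ 0 := by
      rw [hvt]
      exact mul_ne_zero hc (pow_ne_zero _ ht)
    have e : g = refl Q v hv := isom_ext hg
    show χ g = 1
    rw [e, hχ, hvt, chiU_eq_one_iff]
    exact ⟨c * t, by ring⟩
  have hRker : R = χ.ker := by
    apply le_antisymm hRle
    intro g hg
    obtain ⟨L, hL, hgL⟩ := exists_list_of_isometry Q hQ (Or.inl (card_ne_two_of h2)) g
    rcases hdich L hL g hgL with h5 | h5
    · exact h5
    · exfalso
      have h6 : χ (refl Q w₀ hw₀0 * g) = 1 := hRle h5
      rw [map_mul, hχw₀, show χ g = 1 from hg] at h6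
      exact absurd h6 (by decide)
  have hs : Function.Surjective χ := by
    intro y
    rcases Int.units_eq_one_or y with rfl | rfl
    · exact ⟨1, by simp⟩
    · exact ⟨_, hχw₀⟩
  rw [hRker, Subgroup.index_ker, MonoidHom.range_eq_top.2 hs, Nat.card_congr Subgroup.topEquiv.toEquiv,
    Nat.card_eq_fintype_card, Fintype.card_units_int]

end Cfsg.Agent.S0798
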