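import Cfsg.Statements.S0801
import Mathlib
import Cfsg.Agent.Lib.H03.DL4

set_option autoImplicit false
open Cfsg

namespace Cfsg.Agent.S0801

open Cfsg.Agent.H03.DL
open Cfsg.Agent.Lead.DicksonSL (xE yE)

/-- Let F be a finite field of odd characteristic and λ ≠ 0 an element generating F as a field. Then the lower and upper unitriangular matrices with off-diagonal entries 1 and λ generate SL_2(F), unless |F| = 9 and λ² = −1, in which case they generate a subgroup of order 120. -/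
theorem result {F : Type*} [Field F] [Fintype F] (h2 : (2 : F) ≠ 0) (lam : F) (hlam : lam ≠ 0) (hgen : Subfield.closure ({lam} : Set F) = ⊤) : (Subgroup.closure {g : Matrix.SpecialLinearGroup (Fin 2) F | (g : Matrix (Fin 2) (Fin 2) F) = !![1, 0; 1, 1] ∨ (g : Matrix (Fin 2) (Fin 2) F) = !![1, lam; 0, 1]} = ⊤ ∧ ¬ (Fintype.card F = 9 ∧ lam ^ 2 = -1)) ∨ (Fintype.card F = 9 ∧ lam ^ 2 = -1 ∧ Nat.card ↥(Subgroup.closure {g : Matrix.SpecialLinearGroup (Fin 2) F | (g : Matrix (Fin 2) (Fin 2) F) = !![1, 0; 1, 1] ∨ (g : Matrix (Fin 2) (Fin 2) F) = !![1, lam; 0, 1]}) = 120) := by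
  classical
  obtain ⟨L, hL⟩ : ∃ L, L = Subgroup.closure {g : Matrix.SpecialLinearGroup (Fin 2) F | (g : Matrix (Fin 2) (Fin 2) F) = !![1, 0; 1, 1] ∨ (g : Matrix (Fin 2) (Fin 2) F) = !![1, lam; 0, 1]} := ⟨_, rfl⟩
  rw [← hL]
  have hset : {g : Matrix.SpecialLinearGroup (Fin 2) F | (g : Matrix (Fin 2) (Fin 2) F) = !![1, 0; 1, 1] ∨ (g : Matrix (Fin 2) (Fin 2) F) = !![1, lam; 0, 1]} = ({yE 1, xE lam} : Set (Matrix.SpecialLinearGroup (Fin 2) F)) := by
    ext g
    simp only [Set.mem_setOf_eq, Set.mem_insert_iff, Set.mem_singleton_iff]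
    constructor
    · rintro (h | h)
      · exact Or.inl (Subtype.ext h)
      · exact Or.inr (Subtype.ext h)
    · rintro (rfl | rfl)
      · exact Or.inl rfl
      · exact Or.inr rfl
  rw [hset] at hL
  have hx : xE lam ∈ L := by rw [hL]; exact Subgroup.subset_closure (by simp)
  have hy : yE (1 : F) ∈ L := by rw [hL]; exact Subgroup.subset_closure (by simp)
  by_cases hc : Fintype.card F = 9 ∧ lam ^ 2 = -1
  · right
    refine ⟨hc.1, hc.2, ?_⟩
    obtain ⟨p, hp⟩ := CharP.exists F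
    haveI : Fact p.Prime := ⟨CharP.char_is_prime F p⟩
    obtain ⟨n, hp', hn⟩ := FiniteField.card F p
    have h9 : p ∣ 3 ^ 2 := by
      rw [show 3 ^ 2 = 9 from rfl, ← hc.1, hn]
      exact dvd_pow_self p n.ne_zero
    have hp3 : p = 3 := (Nat.prime_dvd_prime_iff_eq hp' Nat.prime_three).1 (hp'.dvd_of_dvd_pow h9)
    subst hp3
    exact card_L hgen hc.2 hL
  · left
    refine ⟨?_, hc⟩
    apply top_of_ne h2 hlam hgen hx hy
    intro h3 hC
    haveI : CharP F 3 := char3_of h3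
    haveI : Fact (Nat.Prime 3) := ⟨Nat.prime_three⟩
    exact hc ⟨card_nine hgen hC, hC⟩

end Cfsg.Agent.S0801
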