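import Cfsg.Statements.S0805
import Mathlib
import Cfsg.Agent.Lib.H03.PSLSub

set_option autoImplicit false
open Cfsg

namespace Cfsg.Agent.S0805


/-- Subfield subgroups: let F be a finite field of odd order q and K a finite field with |K|^m = q, m ≥ 1. Then PSL_2(F) has a subgroup isomorphic to PSL_2(K), and has a subgroup isomorphic to PGL_2(K) if and only if m is even. -/
theorem result {F K : Type*} [Field F] [Fintype F] [Field K] [Fintype K] {q : ℕ} (hF : Fintype.card F = q) (hodd : Odd q) (m : ℕ) (hm : 1 ≤ m) (hK : Fintype.card K ^ m = q) : (∃ H : Subgroup (Matrix.ProjectiveSpecialLinearGroup (Fin 2) F), Nonempty (H ≃* Matrix.ProjectiveSpecialLinearGroup (Fin 2) K)) ∧ ((∃ H : Subgroup (Matrix.ProjectiveSpecialLinearGroup (Fin 2) F), Nonempty (H ≃* Matrix.ProjGenLinGroup (Fin 2) K)) ↔ Even m) := by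
  classical
  subst hF
  obtain ⟨φ⟩ := H03.PS.exists_embed hm hK
  refine ⟨H03.PS.exists_PSL_sub φ, ?_, ?_⟩
  · rintro ⟨H, ⟨e⟩⟩
    by_contra hc
    rw [Nat.not_even_iff_odd] at hc
    exact H03.PS.not_PGL_of_odd hK hodd hc H e
  · intro hev
    exact H03.PS.exists_PGL_sub φ (H03.PS.isSquare_of_even φ hK hodd hev)

end Cfsg.Agent.S0805
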