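import Cfsg.Statements.S0806
import Cfsg.Agent.Lib.H09.Dick9

set_option autoImplicit false
open Cfsg

namespace Cfsg.Agent.S0806

open Cfsg.Agent.H09.Dick Cfsg.Agent.H11.SL2X MulAction

set_option maxHeartbeats 2000000 in
/-- Minimal index (Galois): if q ∉ {2, 3, 5, 7, 9, 11} then every proper subgroup of PSL_2(q) has index ≥ q + 1, and some subgroup has index exactly q + 1. -/
theorem result {F : Type*} [Field F] [Fintype F] {q : ℕ} (hF : Fintype.card F = q) (hq : q ∉ ({2, 3, 5, 7, 9, 11} : Finset ℕ)) : (∀ H : Subgroup (Matrix.ProjectiveSpecialLinearGroup (Fin 2) F), H ≠ ⊤ → q + 1 ≤ H.index) ∧ ∃ H : Subgroup (Matrix.ProjectiveSpecialLinearGroup (Fin 2) F), H.index = q + 1 := by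
  classical
  have hq2 : 2 ≤ q := hF ▸ card_two_le F
  have hq3 : q ≠ 2 ∧ q ≠ 3 ∧ q ≠ 5 ∧ q ≠ 7 ∧ q ≠ 9 ∧ q ≠ 11 := by
    simpa using hq
  obtain ⟨h2, h3, h5, h7, h9, h11⟩ := hq3
  obtain ⟨p, hp⟩ := CharP.exists F
  haveI : Fact p.Prime := ⟨CharP.char_is_prime F p⟩
  constructor
  · intro H hH
    have hN0 := card_PS2 F
    rw [hF] at hN0
    obtain ⟨N, hNN⟩ : ∃ N, N = Nat.card (PS2 F) := ⟨_, rfl⟩
    have hidx : Nat.card H * H.index = N := by
      rw [hNN]
      exact Subgroup.card_mul_index H
    have htop : Nat.card H ≠ N := by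
      intro h
      apply hH
      rw [hNN] at h
      exact Subgroup.eq_top_of_card_eq H h
    have hdvd : Nat.card H ∣ N := by
      rw [hNN]
      exact Subgroup.card_subgroup_dvd_card H
    have hNpos : 0 < N := by
      rw [hNN]
      exact Nat.card_pos
    have hle : Nat.card H ≤ N := Nat.le_of_dvd hNpos hdvd
    have hHpos : 0 < Nat.card H := Nat.card_pos
    obtain ⟨d, hd⟩ : ∃ d, d = Nat.gcd 2 (q - 1) := ⟨_, rfl⟩
    have hN : N * d = q * (q ^ 2 - 1) := by
      rw [hNN, hd]
      exact hN0
    obtain ⟨r, rfl⟩ : ∃ r, q = r + 4 := ⟨q - 4, by omega⟩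
    have e1 : (r + 4) ^ 2 - 1 = (r + 3) * (r + 5) := by
      have : (r + 4) ^ 2 = (r + 3) * (r + 5) + 1 := by ring
      omega
    rw [e1] at hN
    have hdpos : 0 < d := by
      rw [hd]
      exact Nat.gcd_pos_of_pos_left _ (by norm_num)
    have hmain : ∀ b, b * d ≤ (r + 4) * (r + 3) → Nat.card H ≤ b → r + 4 + 1 ≤ H.index := by
      intro b hb hc
      by_contra hlt
      have hlt' : H.index ≤ r + 4 := by omega
      have h4 : Nat.card H * H.index * d ≤ b * (r + 4) * d := Nat.mul_le_mul_right d (Nat.mul_le_mul hc hlt')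
      rw [hidx, hN] at h4
      have h5 : b * (r + 4) * d ≤ (r + 4) * (r + 3) * (r + 4) := by
        calc b * (r + 4) * d = b * d * (r + 4) := by ring
          _ ≤ _ := Nat.mul_le_mul_right _ hb
      have h6 : (r + 4) * ((r + 3) * (r + 5)) ≤ (r + 4) * (r + 3) * (r + 4) := h4.trans h5
      nlinarith
    have hdc := gcd_two_cases (q := r + 4) (by omega)
    rw [← hd] at hdc
    rcases dickson_int hF p H with ⟨k, hk, ha⟩ | ⟨x, hx⟩ | ⟨⟨e⟩⟩ | ⟨⟨e⟩⟩ | ⟨⟨e⟩⟩ | ⟨K, i1, i2, m, hm, hres⟩
    · rw [← hd] at hk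
      have hkle : k * d ≤ r + 4 + 1 := by
        rcases hk with hk | hk
        · have hposd : 0 < (r + 4 + 1) / d := by
            rcases hdc with ⟨h, -⟩ | ⟨h, -⟩ <;> rw [h] <;> omega
          have := Nat.le_of_dvd hposd hk
          calc k * d ≤ (r + 4 + 1) / d * d := Nat.mul_le_mul_right d this
            _ ≤ _ := Nat.div_mul_le_self _ _
        · have hposd : 0 < (r + 4 - 1) / d := by
            rcases hdc with ⟨h, -⟩ | ⟨h, -⟩ <;> rw [h] <;> omega
          have := Nat.le_of_dvd hposd hk
          calc k * d ≤ (r + 4 - 1) / d * d := Nat.mul_le_mul_right d this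
            _ ≤ r + 4 - 1 := Nat.div_mul_le_self _ _
            _ ≤ _ := by omega
      have hcard : Nat.card H ≤ 2 * k := by
        rcases card_of_a ha with h | h
        · exact h.le.trans (by omega)
        · exact h.le
      refine hmain (2 * k) ?_ hcard
      nlinarith
    · letI : MulAction (PS2 F) (XX F) := MulAction.compHom _ actP
      have h1 := index_stab x
      have h4 : H ≤ stabilizer (PS2 F) x := fun h hh => hx h hh
      have h6 := Subgroup.index_dvd_of_le h4
      have h7 : H.index ≠ 0 := Subgroup.index_ne_zero_of_finite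
      rw [h1, hF] at h6
      exact Nat.le_of_dvd (Nat.pos_of_ne_zero h7) h6
    · have hc := card_of_iso e
      rw [card_A4] at hc
      refine hmain 12 ?_ hc.le
      rcases hdc with ⟨h, ⟨j, hj⟩⟩ | ⟨h, ⟨j, hj⟩⟩ <;> rw [h]
      · nlinarith
      · have : 13 ≤ r + 4 := by omega
        nlinarith
    · have hc := card_of_iso e
      rw [card_S4] at hc
      refine hmain 24 ?_ hc.le
      rcases hdc with ⟨h, ⟨j, hj⟩⟩ | ⟨h, ⟨j, hj⟩⟩ <;> rw [h]
      · by_cases h4 : r = 0
        · subst h4
          exfalso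
          rw [h] at hN
          rw [hc] at hdvd
          have hN60 : N = 60 := by omega
          rw [hN60] at hdvd
          omega
        · have : 6 ≤ r + 4 := by omega
          nlinarith
      · have : 13 ≤ r + 4 := by omega
        nlinarith
    · have hc := card_of_iso e
      rw [card_A5] at hc
      refine hmain 60 ?_ hc.le
      rcases hdc with ⟨h, ⟨j, hj⟩⟩ | ⟨h, ⟨j, hj⟩⟩ <;> rw [h]
      · by_cases h4 : 10 ≤ r + 4
        · nlinarith
        · exfalso
          have hr : r = 0 ∨ r = 2 ∨ r = 4 := by omega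
          rw [h] at hN
          rw [hc] at hdvd htop
          rcases hr with rfl | rfl | rfl
          · omega
          · have hN60 : N = 210 := by omega
            rw [hN60] at hdvd
            omega
          · have hN60 : N = 504 := by omega
            rw [hN60] at hdvd
            omega
      · have : 13 ≤ r + 4 := by omega
        nlinarith
    · have hq0 := card_two_le K
      obtain ⟨q₀, hq₀⟩ : ∃ q₀, Fintype.card K = q₀ := ⟨_, rfl⟩
      rw [hq₀] at hm hq0
      have hcPS := card_PS2 K
      have hcPG := card_PGL K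
      rw [hq₀] at hcPS hcPG
      by_cases hm1 : m = 1
      · subst hm1
        rw [pow_one] at hm
        exfalso
        subst hm
        rw [e1] at hcPS hcPG
        rcases hres with ⟨⟨e⟩⟩ | ⟨⟨e⟩⟩
        · have hc := card_of_iso e
          apply htop
          rw [hc]
          apply Nat.eq_of_mul_eq_mul_right hdpos
          rw [hN, hd]
          exact hcPS
        · have hc := card_of_iso e
          rw [hcPG] at hc
          rw [hc] at hle htop
          have h4 : N ≤ N * d := Nat.le_mul_of_pos_right N hdpos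
          rw [hN] at h4
          omega
      · have hm2 : 2 ≤ m := by
          rcases m with _ | _ | m
          · simp at hm
          · simp at hm1
          · omega
        have hq02 : q₀ ^ 2 ≤ r + 4 := by
          rw [← hm]
          exact Nat.pow_le_pow_right (by omega) hm2
        obtain ⟨s, rfl⟩ : ∃ s, q₀ = s + 2 := ⟨q₀ - 2, by omega⟩
        have e2 : (s + 2) ^ 2 - 1 = (s + 1) * (s + 3) := by
          have : (s + 2) ^ 2 = (s + 1) * (s + 3) + 1 := by ring
          omega
        rw [e2] at hcPS hcPG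
        have hcb : Nat.card H ≤ (s + 2) * ((s + 1) * (s + 3)) := by
          rcases hres with ⟨⟨e⟩⟩ | ⟨⟨e⟩⟩
          · have hc := card_of_iso e
            rw [hc, ← hcPS]
            have : 0 < Nat.gcd 2 (s + 2 - 1) := Nat.gcd_pos_of_pos_left _ (by norm_num)
            exact Nat.le_mul_of_pos_right _ this
          · have hc := card_of_iso e
            rw [hc, hcPG]
        refine hmain _ ?_ hcb
        have hd2 : d ≤ 2 := by
          rcases hdc with ⟨h, -⟩ | ⟨h, -⟩ <;> omega
        have h6 : (s + 1) * (s + 3) ≤ r + 3 := by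
          have : (s + 2) ^ 2 = (s + 1) * (s + 3) + 1 := by ring
          omega
        have h7 : (s + 2) * 2 ≤ r + 4 := by
          calc (s + 2) * 2 ≤ (s + 2) * (s + 2) := Nat.mul_le_mul_left _ (by omega)
            _ = (s + 2) ^ 2 := by ring
            _ ≤ _ := hq02
        calc (s + 2) * ((s + 1) * (s + 3)) * d ≤ (s + 2) * ((s + 1) * (s + 3)) * 2 := Nat.mul_le_mul_left _ hd2
          _ = (s + 2) * 2 * ((s + 1) * (s + 3)) := by ring
          _ ≤ _ := Nat.mul_le_mul h7 h6
  · letI : MulAction (PS2 F) (XX F) := MulAction.compHom _ actP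
    refine ⟨stabilizer (PS2 F) (Cfsg.Agent.H27.DC.ptI : XX F), ?_⟩
    rw [index_stab, hF]

end Cfsg.Agent.S0806
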