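import Cfsg.Statements.S0808
import Mathlib
import Cfsg.Agent.Lib.H03.PSLKlein2

set_option autoImplicit false
open Cfsg

namespace Cfsg.Agent.S0808


/-- Conjugacy classes of four-groups in PSL_2(q), q odd: if q ≡ 3 or 5 (mod 8) all Klein four-subgroups are conjugate; if q ≡ 1 or 7 (mod 8) there are two Klein four-subgroups which are not conjugate, and every Klein four-subgroup is conjugate to one of them. -/
theorem result {F : Type*} [Field F] [Fintype F] {q : ℕ} (hF : Fintype.card F = q) (hodd : Odd q) : ((q % 8 = 3 ∨ q % 8 = 5) → ∀ V W : Subgroup (Matrix.ProjectiveSpecialLinearGroup (Fin 2) F), IsKleinFour V → IsKleinFour W → ∃ g : Matrix.ProjectiveSpecialLinearGroup (Fin 2) F, W = V.map (MulAut.conj g).toMonoidHom) ∧ ((q % 8 = 1 ∨ q % 8 = 7) → ∃ V₁ V₂ : Subgroup (Matrix.ProjectiveSpecialLinearGroup (Fin 2) F), IsKleinFour V₁ ∧ IsKleinFour V₂ ∧ (¬ ∃ g : Matrix.ProjectiveSpecialLinearGroup (Fin 2) F, V₂ = V₁.map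 (MulAut.conj g).toMonoidHom) ∧ ∀ W : Subgroup (Matrix.ProjectiveSpecialLinearGroup (Fin 2) F), IsKleinFour W → (∃ g : Matrix.ProjectiveSpecialLinearGroup (Fin 2) F, W = V₁.map (MulAut.conj g).toMonoidHom) ∨ (∃ g : Matrix.ProjectiveSpecialLinearGroup (Fin 2) F, W = V₂.map (MulAut.conj g).toMonoidHom)) := by
  classical
  subst hF
  have h2 : (2 : F) ≠ 0 := by
    intro h
    have := H11.SL2T.two_zero_iff.1 h
    rcases hodd with ⟨m, hm⟩
    omega
  obtain ⟨y₀, hy₀⟩ := H11.SL2T.exists_anti h2 ((H03.PK.Q4_wS F).ns h2) ((H03.PK.Q4_wS F).trace h2)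
  have hbase : H03.PK.Anti (H11.SL2X.wS) y₀ := ⟨H03.PK.Q4_wS F, hy₀⟩
  refine ⟨?_, ?_⟩
  · intro hq V W hV hW
    have hns2 : ¬ IsSquare (2 : F) := by
      rw [FiniteField.isSquare_two_iff]
      omega
    obtain ⟨x, y, hxy, rfl⟩ := H03.PK.exists_of_klein h2 V hV
    obtain ⟨x', y', hxy', rfl⟩ := H03.PK.exists_of_klein h2 W hW
    obtain ⟨δ, hδ, c⟩ := H03.PK.exists_Cj h2 hxy hxy'
    by_cases hs : IsSquare δ
    · obtain ⟨h, h1, h3⟩ := (c.one_of_square hδ hs).exists_SL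
      refine ⟨H11.SL2X.pr h, ?_⟩
      have := H03.PK.VV_map x y h
      rw [this, H03.PK.conj_eq h1, H03.PK.conj_eq h3]
    · have c2 := (H03.PK.Cj_two h2 hxy).symm h2
      have c3 := c2.trans c
      have hs' : IsSquare (δ * (2 : F)⁻¹) := H11.SL2T.mul_nonsq h2 hs (by rwa [isSquare_inv])
      obtain ⟨h, h1, h3⟩ := (c3.one_of_square (mul_ne_zero hδ (inv_ne_zero h2)) hs').exists_SL
      refine ⟨H11.SL2X.pr h, ?_⟩
      rw [← H03.PK.VV_mul x y]
      have := H03.PK.VV_map x (x * y) h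
      rw [this, H03.PK.conj_eq h1, H03.PK.conj_eq h3]
  · intro hq
    have hs2 : IsSquare (2 : F) := by
      rw [FiniteField.isSquare_two_iff]
      omega
    obtain ⟨v, hv⟩ := H11.SL2T.exists_nonsq h2
    have hv0 : v ≠ 0 := by
      rintro rfl
      exact hv (IsSquare.zero)
    obtain ⟨g₀, hg₀⟩ := H03.PK.exists_det_eq v
    obtain ⟨x₂, y₂, hxy₂, c₀⟩ := H03.PK.exists_conj_pair hbase (g := g₀) (by rw [hg₀]; exact hv0)
    rw [hg₀] at c₀
    refine ⟨H03.PK.VV H11.SL2X.wS y₀, H03.PK.VV x₂ y₂, H03.PK.VV_klein h2 hbase, H03.PK.VV_klein h2 hxy₂, ?_, ?_⟩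
    · rintro ⟨g, hg⟩
      obtain ⟨h, rfl⟩ := H11.SL2X.pr_surj g
      rw [H03.PK.VV_map] at hg
      have ha : H11.SL2X.pr x₂ ∈ H03.PK.VV x₂ y₂ := Subgroup.subset_closure (by simp)
      have hb : H11.SL2X.pr y₂ ∈ H03.PK.VV x₂ y₂ := Subgroup.subset_closure (by simp)
      rw [hg] at ha hb
      have c1 := H03.PK.Rl_of_mem h2 hs2 (hbase.conj h) hxy₂ ha hb
      have c3 := (H03.PK.Cj_conj (x := H11.SL2X.wS) (y := y₀) h).trans1 c1
      have c4 := c₀.trans (c3.symm one_ne_zero)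
      exact hv (H03.PK.square_of_Cj_self h2 hbase (by simpa using c4))
    · intro W hW
      obtain ⟨x', y', hxy', rfl⟩ := H03.PK.exists_of_klein h2 W hW
      obtain ⟨δ, hδ, c⟩ := H03.PK.exists_Cj h2 hbase hxy'
      by_cases hs : IsSquare δ
      · left
        obtain ⟨h, h1, h3⟩ := (c.one_of_square hδ hs).exists_SL
        refine ⟨H11.SL2X.pr h, ?_⟩
        rw [H03.PK.VV_map, H03.PK.conj_eq h1, H03.PK.conj_eq h3]
      · right
        have c3 := (c₀.symm hv0).trans c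
        have hs' : IsSquare (δ * v⁻¹) := H11.SL2T.mul_nonsq h2 hs (by rwa [isSquare_inv])
        obtain ⟨h, h1, h3⟩ := (c3.one_of_square (mul_ne_zero hδ (inv_ne_zero hv0)) hs').exists_SL
        refine ⟨H11.SL2X.pr h, ?_⟩
        rw [H03.PK.VV_map, H03.PK.conj_eq h1, H03.PK.conj_eq h3]

end Cfsg.Agent.S0808
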