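import Cfsg.Statements.S0810
import Cfsg.Agent.Lib.H09.Dick10
import Cfsg.Agent.S0804

set_option autoImplicit false
open Cfsg

namespace Cfsg.Agent.S0810

open Cfsg.Agent.H09.Dick Cfsg.Agent.H11.SL2X MulAction

set_option maxHeartbeats 2000000 in
/-- PSL_2(q) is minimal simple iff q is 2^r (r prime), 3^r (r an odd prime), a prime greater than 5 congruent to 2 or 3 mod 5, or 5. -/
theorem result {F : Type*} [Field F] [Fintype F] {q : ℕ} (hF : Fintype.card F = q) : Cfsg.IsMinimalSimple (Matrix.ProjectiveSpecialLinearGroup (Fin 2) F) ↔ ((∃ r : ℕ, r.Prime ∧ q = 2 ^ r) ∨ (∃ r : ℕ, r.Prime ∧ r ≠ 2 ∧ q = 3 ^ r) ∨ (q.Prime ∧ 5 < q ∧ (q % 5 = 2 ∨ q % 5 = 3)) ∨ q = 5) := by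
  classical
  have hq2 : 2 ≤ q := hF ▸ card_two_le F
  obtain ⟨p, hp⟩ := CharP.exists F
  haveI : Fact p.Prime := ⟨CharP.char_is_prime F p⟩
  have hpp : p.Prime := Fact.out
  obtain ⟨n, -, hn⟩ := FiniteField.card F p
  have hqn : q = p ^ (n : ℕ) := hF ▸ hn
  have hN := card_PS2 F
  rw [hF] at hN
  constructor
  · rintro ⟨hs, hnc, hsolv⟩
    have hNs : ¬ Group.IsSolvable (PS2 F) := by
      intro h
      apply hnc
      have hc := (IsSimpleGroup.comm_iff_isSolvable (G := PS2 F)).2 h
      exact ⟨⟨hc⟩⟩
    have hq4 : 4 ≤ q := by
      by_contra hlt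
      exact hNs (solvable_PS2_small F (by omega))
    have key : ∀ (K : Type) [Field K] [Fintype K] (m : ℕ), 2 ≤ m → 4 ≤ Fintype.card K → Fintype.card K ^ m = q → False := by
      intro K _ _ m hm h4 hK
      obtain ⟨φ⟩ := Cfsg.Agent.H03.PS.exists_embed (F := F) (K := K) (m := m) (by omega) (by rw [hK, hF])
      let H := (Cfsg.Agent.H03.PS.psMap φ).range
      let e : PS2 K ≃* H := MonoidHom.ofInjective (Cfsg.Agent.H03.PS.psMap_injective φ)
      have hne : H ≠ ⊤ := by
        intro htop
        have h1 := card_PS2_lt K (F := F) hm (by rw [hK, hF])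
        have h2 : Nat.card H = Nat.card (PS2 F) := by
          rw [htop]
          exact Subgroup.card_top
        rw [← card_of_iso e] at h2
        omega
      haveI := hsolv H hne
      exact not_solvable_PS2 K h4 (solvable_of_mulEquiv e)
    have key5 : 6 ≤ q → 5 ∣ q * (q ^ 2 - 1) → False := by
      intro h6 h5
      obtain ⟨H, ⟨e⟩⟩ := (Cfsg.Agent.S0804.result hF).2 h5
      have hne : H ≠ ⊤ := by
        intro htop
        have hc := card_of_iso e
        rw [card_A5, htop, Subgroup.card_top] at hc
        have hd : Nat.gcd 2 (q - 1) ≤ 2 := Nat.gcd_le_left _ (by norm_num)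
        have h7 : q * (q ^ 2 - 1) ≤ Nat.card (PS2 F) * 2 := by
          rw [← hN]
          exact Nat.mul_le_mul_left _ hd
        have h8 : 35 ≤ q ^ 2 - 1 := by
          have : 36 ≤ q ^ 2 := by nlinarith
          omega
        have h9 : 6 * 35 ≤ q * (q ^ 2 - 1) := Nat.mul_le_mul h6 h8
        change Nat.card (PS2 F) = 60 at hc
        omega
      haveI : Group.IsSolvable (H : Subgroup (PS2 F)) := hsolv H hne
      haveI : Group.IsSolvable (alternatingGroup (Fin 5)) := Group.isSolvable_of_surjective (f := e.toMonoidHom) e.surjective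
      exact not_solvable_A5 this
    have hgf : ∀ a : ℕ, a ≠ 0 → ∃ (K : Type) (_ : Field K) (_ : Fintype K), Fintype.card K = p ^ a := by
      intro a ha
      haveI : Fintype (GaloisField p a) := Fintype.ofFinite _
      refine ⟨GaloisField p a, inferInstance, inferInstance, ?_⟩
      rw [← Nat.card_eq_fintype_card, GaloisField.card p a ha]
    have hdv : ∀ a : ℕ, a ∣ (n : ℕ) → 2 ≤ a → a < n → 4 ≤ p ^ a → False := by
      rintro a ⟨b, hb⟩ ha hlt h4
      obtain ⟨K, _, _, hK⟩ := hgf a (by omega)
      refine key K b ?_ (by rw [hK]; exact h4) (by rw [hK, ← pow_mul, ← hb, hqn])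
      by_contra hb2
      have : b = 0 ∨ b = 1 := by omega
      rcases this with rfl | rfl
      · simp at hb
      · omega
    have hn2 : p = 2 ∨ p = 3 → 2 ≤ (n : ℕ) := by
      intro hp23
      by_contra hlt
      have : (n : ℕ) = 1 := by
        have := n.pos
        omega
      rw [this, pow_one] at hqn
      omega
    by_cases hp2 : p = 2
    · left
      refine ⟨n, ?_, by rw [hqn, hp2]⟩
      by_contra hnp
      obtain ⟨a, h1, h2, h3⟩ := (Nat.not_prime_iff_exists_dvd_lt (hn2 (Or.inl hp2))).1 hnp
      refine hdv a h1 h2 h3 ?_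
      rw [hp2]
      calc 4 = 2 ^ 2 := rfl
        _ ≤ 2 ^ a := Nat.pow_le_pow_right (by norm_num) h2
    by_cases hp3 : p = 3
    · right
      left
      subst hp3
      have hodd : Odd (n : ℕ) := by
        by_contra hne
        rw [Nat.not_odd_iff_even] at hne
        obtain ⟨s, hs⟩ := hne
        have h1 : q % 5 = 1 ∨ q % 5 = 4 := by
          have e : q = 9 ^ s := by
            rw [hqn, hs, ← two_mul, pow_mul]
            norm_num
          have h3 : ∀ s : ℕ, 9 ^ s % 5 = 1 ∨ 9 ^ s % 5 = 4 := by
            intro s
            induction s with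
            | zero => simp
            | succ s ih =>
              rw [pow_succ]
              omega
          rw [e]
          exact h3 s
        have h5 := hn2 (Or.inr rfl)
        apply key5
        · have : 3 ^ 2 ≤ 3 ^ (n : ℕ) := Nat.pow_le_pow_right (by norm_num) h5
          rw [hqn]
          omega
        · rw [five_dvd_iff (by omega)]
          omega
      refine ⟨n, ?_, ?_, hqn⟩
      · by_contra hnp
        obtain ⟨a, h1, h2, h3⟩ := (Nat.not_prime_iff_exists_dvd_lt (hn2 (Or.inr rfl))).1 hnp
        refine hdv a h1 h2 h3 ?_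
        calc 4 ≤ 3 ^ 2 := by norm_num
          _ ≤ 3 ^ a := Nat.pow_le_pow_right (by norm_num) h2
      · intro h
        rw [h] at hodd
        exact absurd hodd (by decide)
    have hp5' : 5 ≤ p := by
      have := hpp.two_le
      by_contra hlt
      have h4 : p ≠ 4 := by
        rintro rfl
        exact absurd hpp (by norm_num)
      omega
    have hn1 : (n : ℕ) = 1 := by
      by_contra hne
      have hn2' : 2 ≤ (n : ℕ) := by
        have := n.pos
        omega
      obtain ⟨K, _, _, hK⟩ := hgf 1 (by norm_num)
      rw [pow_one] at hK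
      exact key K n hn2' (by omega) (by rw [hK, hqn])
    rw [hn1, pow_one] at hqn
    subst hqn
    by_cases hp5 : q = 5
    · right
      right
      right
      exact hp5
    · right
      right
      left
      have h5q : 5 < q := by omega
      refine ⟨hpp, h5q, ?_⟩
      have h0 : q % 5 ≠ 0 := by
        intro h
        have h1 : 5 ∣ q := Nat.dvd_of_mod_eq_zero h
        have h2 := (Nat.prime_dvd_prime_iff_eq (by norm_num) hpp).1 h1
        omega
      by_contra hcon
      exact key5 h5q ((five_dvd_iff (by omega)).2 (by omega))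
  · intro hc
    have hq4 : 4 ≤ q := by
      rcases hc with ⟨r, hr, rfl⟩ | ⟨r, hr, -, rfl⟩ | ⟨-, h, -⟩ | h
      · calc 4 = 2 ^ 2 := rfl
          _ ≤ 2 ^ r := Nat.pow_le_pow_right (by norm_num) hr.two_le
      · calc 4 ≤ 3 ^ 2 := by norm_num
          _ ≤ 3 ^ r := Nat.pow_le_pow_right (by norm_num) hr.two_le
      · omega
      · omega
    refine ⟨Cfsg.Agent.H11.PSL_simple' 2 le_rfl (by rw [hF]; omega), ?_, ?_⟩
    · intro hcomm
      exact pr_not_comm F (hcomm.is_comm.comm _ _)
    intro H hH
    rcases dickson_int hF p H with ⟨k, hk, ha⟩ | ⟨x, hx⟩ | ⟨⟨e⟩⟩ | ⟨⟨e⟩⟩ | ⟨⟨e⟩⟩ | ⟨K, i1, i2, m, hm, hres⟩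
    · rcases ha with ⟨hcyc, -⟩ | ⟨⟨e⟩⟩
      · exact Group.isSolvable_of_comm (fun a b => (IsCyclic.commGroup (α := H)).mul_comm a b)
      · haveI := solvable_dihedral k
        exact solvable_of_mulEquiv e
    · exact solvable_of_fix hx
    · have hc' := card_of_iso e
      rw [card_A4] at hc'
      exact solvable_of_two_three (a := 2) (b := 1) (by rw [hc']; norm_num)
    · have hc' := card_of_iso e
      rw [card_S4] at hc'
      exact solvable_of_two_three (a := 3) (b := 1) (by rw [hc']; norm_num)
    · exfalso
      have h5 := (Cfsg.Agent.S0804.result hF).1 ⟨H, ⟨e⟩⟩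
      rw [five_dvd_iff (by omega)] at h5
      have hsq : q = 4 ∨ q = 5 ∨ q ^ 2 % 5 = 4 := by
        have hpm : ∀ s : ℕ, 4 ^ (2 * s + 1) % 5 = 4 := by
          intro s
          induction s with
          | zero => norm_num
          | succ s ih =>
            have e : 4 ^ (2 * (s + 1) + 1) = 4 ^ (2 * s + 1) * 16 := by ring
            rw [e]
            omega
        rcases hc with ⟨r, hr, rfl⟩ | ⟨r, hr, hr2, rfl⟩ | ⟨-, -, h⟩ | h
        · rcases hr.eq_two_or_odd' with rfl | ⟨s, rfl⟩
          · left
            norm_num
          · right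
            right
            rw [← pow_mul, mul_comm, pow_mul]
            norm_num
            exact hpm s
        · obtain ⟨s, rfl⟩ := (hr.eq_two_or_odd').resolve_left hr2
          right
          right
          rw [← pow_mul, mul_comm, pow_mul]
          norm_num
          rw [Nat.pow_mod]
          norm_num
          exact hpm s
        · right
          right
          rw [Nat.pow_mod]
          rcases h with h | h <;> rw [h]
        · right
          left
          exact h
      rcases hsq with h | h | h
      · apply hH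
        apply Subgroup.eq_top_of_card_eq
        have hc' := card_of_iso e
        rw [card_A5] at hc'
        rw [hc']
        subst h
        have e0 : Nat.gcd 2 (4 - 1) = 1 := by norm_num
        rw [e0] at hN
        change 60 = Nat.card (PS2 F)
        omega
      · apply hH
        apply Subgroup.eq_top_of_card_eq
        have hc' := card_of_iso e
        rw [card_A5] at hc'
        rw [hc']
        subst h
        have e0 : Nat.gcd 2 (5 - 1) = 2 := by norm_num
        rw [e0] at hN
        change 60 = Nat.card (PS2 F)
        omega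
      · have := sq_mod_five h
        omega
    · by_cases h3 : Fintype.card K ≤ 3
      · rcases hres with ⟨⟨e⟩⟩ | ⟨⟨e⟩⟩
        · haveI := solvable_PS2_small K h3
          exact solvable_of_mulEquiv e
        · haveI := solvable_PGL_small K h3
          exact solvable_of_mulEquiv e
      · exfalso
        have hc1 : 1 < Fintype.card K := Fintype.one_lt_card
        have hm1 : m = 1 := by
          rcases hc with ⟨r, hr, rfl⟩ | ⟨r, hr, -, rfl⟩ | ⟨hq, -, -⟩ | rfl
          · rcases m_eq_one Nat.prime_two (Or.inr hr) hm hc1 with h | h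
            · exact h
            · omega
          · rcases m_eq_one Nat.prime_three (Or.inr hr) hm hc1 with h | h
            · exact h
            · omega
          · rw [← pow_one q] at hm
            rcases m_eq_one hq (Or.inl rfl) hm hc1 with h | h
            · exact h
            · subst h
              rw [pow_one] at hm
              exact (Nat.pow_right_injective (Nat.Prime.two_le hq)) (by simpa using hm)
          · rw [show (5 : ℕ) = 5 ^ 1 by norm_num] at hm
            rcases m_eq_one (by norm_num) (Or.inl rfl) hm hc1 with h | h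
            · exact h
            · rw [h] at hm
              exact Nat.pow_right_injective (show 2 ≤ 5 by norm_num) hm
        subst hm1
        rw [pow_one] at hm
        exact hH (top_of_same_card K (by rw [hm, hF]) hres)

end Cfsg.Agent.S0810
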