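import Cfsg.Statements.S0812
import Cfsg.Agent.Lib.H09.Dick13

set_option autoImplicit false
open Cfsg

namespace Cfsg.Agent.S0812

open Cfsg.Agent.H09.Dick Cfsg.Agent.H11.SL2X MulAction

set_option maxHeartbeats 2000000 in
/-- For q ∉ {2, 3, 5, 7, 9, 11}, PSL_2(q) has a maximal subgroup isomorphic to the dihedral group of order 2(q − 1)/d, d = gcd(2, q − 1). -/
theorem result {F : Type*} [Field F] [Fintype F] {q : ℕ} (hF : Fintype.card F = q) (hq : q ∉ ({2, 3, 5, 7, 9, 11} : Finset ℕ)) : ∃ H : Subgroup (Matrix.ProjectiveSpecialLinearGroup (Fin 2) F), IsCoatom H ∧ Nonempty (H ≃* DihedralGroup ((q - 1) / Nat.gcd 2 (q - 1))) := by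
  classical
  simp only [Finset.mem_insert, Finset.mem_singleton, not_or] at hq
  have hq2 : 2 ≤ q := hF ▸ card_two_le F
  obtain ⟨c, W, h1, h2, h3, h4, h5⟩ := split_torus hF
  have hd1 : Nat.gcd 2 (q - 1) ∣ q - 1 := Nat.gcd_dvd_right _ _
  have hk : orderOf c * Nat.gcd 2 (q - 1) = q - 1 := by
    rw [h1]
    exact Nat.div_mul_cancel hd1
  have hk2 : 2 ≤ orderOf c := by
    rcases gcd_two_cases hq2 with ⟨h6, h7⟩ | ⟨h6, ⟨r, h7⟩⟩
    · rw [h6, mul_one] at hk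
      omega
    · rw [h6] at hk
      omega
  obtain ⟨D, hc, hW, hcard, ⟨e⟩⟩ := dihedral_sub' c W h2 h3 h4 hk2
  refine ⟨D, ?_, ?_⟩
  · exact torus_coatom hF hc hW rfl hcard h4 hk2 (fun x hx => h5 hk2 x ⟨hx c hc, hx W hW⟩) (Or.inr ⟨hk, by
      simp only [Finset.mem_insert, Finset.mem_singleton, not_or]
      exact hq⟩)
  · rw [← h1]
    exact ⟨e⟩

end Cfsg.Agent.S0812
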