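import Cfsg.Statements.S0819
-- import your own Cfsg.Agent.* helpers here

set_option autoImplicit false
open Cfsg

namespace Cfsg.Agent.S0819

open Matrix

def addM : Fin 4 → Fin 4 → Fin 4 := ![![0, 1, 2, 3], ![1, 0, 3, 2], ![2, 3, 0, 1], ![3, 2, 1, 0]]
def mulM : Fin 4 → Fin 4 → Fin 4 := ![![0, 0, 0, 0], ![0, 1, 2, 3], ![0, 2, 3, 1], ![0, 3, 1, 2]]

def pwM (a b : Fin 4) : ℕ → Fin 4 × Fin 4 × Fin 4
  | 0 => (1, 0, 0)
  | k + 1 =>
    let v := pwM a b k
    (v.2.2, addM v.1 (mulM b v.2.2), addM v.2.1 (mulM a v.2.2))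

theorem pwM_table : ∀ a b : Fin 4, ∃ k : Fin 4, (pwM a b (![3, 4, 5, 14] k)).2.1 = 0 ∧ (pwM a b (![3, 4, 5, 14] k)).2.2 = 0 := by
  decide +kernel

section
variable {F : Type*} [Field F]

def pwF (a b : F) : ℕ → F × F × F
  | 0 => (1, 0, 0)
  | k + 1 =>
    let v := pwF a b k
    (v.2.2, v.1 + b * v.2.2, v.2.1 + a * v.2.2)

theorem cayley3 (G : Matrix (Fin 3) (Fin 3) F) :
    ∃ a b : F, G * G * G = a • (G * G) + b • G + G.det • 1 := by
  refine ⟨G 0 0 + G 1 1 + G 2 2, -(G 0 0 * G 1 1 - G 0 1 * G 1 0 + G 0 0 * G 2 2 - G 0 2 * G 2 0 + G 1 1 * G 2 2 - G 1 2 * G 2 1), ?_⟩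
  apply Matrix.ext
  intro i j
  simp only [Matrix.add_apply, Matrix.smul_apply, Matrix.mul_apply, Fin.sum_univ_three, Matrix.det_fin_three, smul_eq_mul,
    Matrix.one_apply]
  fin_cases i <;> fin_cases j <;> simp <;> ring

theorem pw_eq (G : Matrix (Fin 3) (Fin 3) F) (a b : F) (h : G * G * G = a • (G * G) + b • G + (1 : F) • 1) (k : ℕ) :
    G ^ k = (pwF a b k).1 • 1 + (pwF a b k).2.1 • G + (pwF a b k).2.2 • (G * G) := by
  induction k with
  | zero => simp [pwF]
  | succ k ih =>
    rw [pow_succ, ih]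
    simp only [pwF, Matrix.add_mul, Matrix.smul_mul, Matrix.one_mul, add_smul]
    rw [h]
    simp only [smul_add, smul_smul, one_smul, mul_one]
    abel_nf
    simp only [mul_comm]
    abel

end


/-- No element of PSL_3(4) has order 15. -/
theorem result {F : Type*} [Field F] [Fintype F] (hF : Fintype.card F = 4) (g : Matrix.ProjectiveSpecialLinearGroup (Fin 3) F) : orderOf g ≠ 15 := by
  classical
intro hord
have h4 : (4 : F) = 0 := by
  have := FiniteField.cast_card_eq_zero F
  rw [hF] at this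
  exact_mod_cast this
have h2 : (2 : F) = 0 := by
  have h : (2 : F) * 2 = 0 := by
    rw [← h4]; norm_num
  simpa using h
have hpow : ∀ c : F, c ≠ 0 → c ^ 3 = 1 := by
  intro c hc
  have := FiniteField.pow_card_sub_one_eq_one c hc
  rwa [hF] at this
-- the element ω
obtain ⟨ω, hω0, hω1⟩ : ∃ ω : F, ω ≠ 0 ∧ ω ≠ 1 := by
  by_contra hcon
  push Not at hcon
  have h1 : (Finset.univ : Finset F) ⊆ {0, 1} := by
    intro x _
    by_cases hx : x = 0
    · simp [hx]
    · simp [hcon x hx]
  have h2' := Finset.card_le_card h1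
  rw [Finset.card_univ, hF] at h2'
  have h3 := Finset.card_le_two (a := (0 : F)) (b := 1)
  omega
have hωω : ω * ω = ω + 1 := by
  have h1 := hpow ω hω0
  have h3 : (ω - 1) * (ω * ω + ω + 1) = 0 := by
    have : (ω - 1) * (ω * ω + ω + 1) = ω ^ 3 - 1 := by ring
    rw [this, h1, sub_self]
  have h5 : ω * ω + ω + 1 = 0 := (mul_eq_zero.1 h3).resolve_left (sub_ne_zero.2 hω1)
  linear_combination h5 - (ω + 1) * h2
have hadd2 : ∀ x : F, x + x = 0 := by
  intro x
  rw [← two_mul, h2, zero_mul]
let ι : Fin 4 → F := ![0, 1, ω, ω + 1]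
have hι0 : ι 0 = 0 := rfl
have hι1 : ι 1 = 1 := rfl
have hι2 : ι 2 = ω := rfl
have hι3 : ι 3 = ω + 1 := rfl
have hsurj : ∀ x : F, ∃ y, ι y = x := by
  have hinj : Function.Injective ι := by
    intro x y hxy
    have hne1 : ω + 1 ≠ 0 := by
      intro h
      apply hω1
      linear_combination h - h2
    have hne2 : ω + 1 ≠ 1 := by
      intro h
      apply hω0
      linear_combination h
    have hne3 : ω + 1 ≠ ω := by
      intro h
      exact one_ne_zero (add_left_cancel (a := ω) (by rw [h, add_zero]))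
    fin_cases x <;> fin_cases y <;> first
      | rfl
      | (exfalso; simp only [ι, Matrix.cons_val] at hxy; first
          | exact zero_ne_one hxy
          | exact one_ne_zero hxy
          | exact hω0 hxy
          | exact hω0 hxy.symm
          | exact hω1 hxy
          | exact hω1 hxy.symm
          | exact hne1 hxy
          | exact hne1 hxy.symm
          | exact hne2 hxy
          | exact hne2 hxy.symm
          | exact hne3 hxy
          | exact hne3 hxy.symm)
  have hbij : Function.Bijective ι := by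
    rw [Fintype.bijective_iff_injective_and_card]
    refine ⟨hinj, ?_⟩
    rw [hF, Fintype.card_fin]
  exact hbij.2
have hadd : ∀ x y, ι (addM x y) = ι x + ι y := by
  intro x y
  fin_cases x <;> fin_cases y <;> simp [addM, ι, hadd2] <;> first
    | ring1
    | linear_combination (-1 : F) * h2
    | linear_combination (-(ω + 1)) * h2
    | linear_combination (-1 - ω) * h2
    | linear_combination (-2 - ω) * h2
    | linear_combination (-1 - 2 * ω) * h2
    | linear_combination (ω + 1) * h2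
    | linear_combination (1 : F) * h2
    | linear_combination ω * h2
    | linear_combination (-ω) * h2
    | linear_combination (2 + ω) * h2
    | linear_combination (1 + 2 * ω) * h2
have hmul : ∀ x y, ι (mulM x y) = ι x * ι y := by
  intro x y
  fin_cases x <;> fin_cases y <;> simp [mulM, ι] <;> first
    | linear_combination hωω
    | linear_combination -hωω
    | linear_combination hωω + ω * h2
    | linear_combination -hωω - ω * h2
    | linear_combination hωω + (ω + 1) * h2
    | linear_combination -hωω - (ω + 1) * h2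
    | linear_combination -hωω + ω * h2
    | linear_combination hωω - ω * h2
    | linear_combination -hωω + (ω + 1) * h2
    | linear_combination hωω - (ω + 1) * h2
have hpw : ∀ (a b : Fin 4) (k : ℕ), ι (pwM a b k).1 = (pwF (ι a) (ι b) k).1 ∧ ι (pwM a b k).2.1 = (pwF (ι a) (ι b) k).2.1 ∧ ι (pwM a b k).2.2 = (pwF (ι a) (ι b) k).2.2 := by
  intro a b k
  induction k with
  | zero => exact ⟨rfl, rfl, rfl⟩
  | succ k ih =>
    obtain ⟨h1, h2', h3⟩ := ih
    refine ⟨h3, ?_, ?_⟩
    · simp only [pwM, pwF]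
      rw [hadd, hmul, h1, h3]
    · simp only [pwM, pwF]
      rw [hadd, hmul, h2', h3]
obtain ⟨G, rfl⟩ := QuotientGroup.mk_surjective g
obtain ⟨a, b, hab⟩ := cayley3 (G : Matrix (Fin 3) (Fin 3) F)
rw [G.2] at hab
obtain ⟨a', rfl⟩ := hsurj a
obtain ⟨b', rfl⟩ := hsurj b
obtain ⟨k, hk1, hk2⟩ := pwM_table a' b'
have hG := pw_eq (G : Matrix (Fin 3) (Fin 3) F) _ _ hab (![3, 4, 5, 14] k)
obtain ⟨e1, e2, e3⟩ := hpw a' b' (![3, 4, 5, 14] k)
rw [← e1, ← e2, ← e3, hk1, hk2, hι0, zero_smul, zero_smul, add_zero, add_zero] at hG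
set K := (![3, 4, 5, 14] k : ℕ) with hK
set s := ι (pwM a' b' K).1 with hs
have hcen : G ^ K ∈ Subgroup.center (SpecialLinearGroup (Fin 3) F) := by
  rw [Matrix.SpecialLinearGroup.mem_center_iff]
  refine ⟨s, ?_, ?_⟩
  · have h1 : ((G ^ K : SpecialLinearGroup (Fin 3) F) : Matrix (Fin 3) (Fin 3) F).det = 1 := (G ^ K).2
    have h3 : ((G ^ K : SpecialLinearGroup (Fin 3) F) : Matrix (Fin 3) (Fin 3) F) = s • 1 := by
      rw [← hG]
      rfl
    rw [h3, Matrix.det_smul, Matrix.det_one, mul_one] at h1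
    exact h1
  · have h3 : ((G ^ K : SpecialLinearGroup (Fin 3) F) : Matrix (Fin 3) (Fin 3) F) = s • 1 := by
      rw [← hG]
      rfl
    rw [h3]
    ext i j
    simp [Matrix.scalar_apply, Matrix.diagonal_apply, Matrix.one_apply]
have hone : (QuotientGroup.mk G : Matrix.ProjectiveSpecialLinearGroup (Fin 3) F) ^ K = 1 := by
  have : (QuotientGroup.mk (G ^ K) : Matrix.ProjectiveSpecialLinearGroup (Fin 3) F) = 1 := (QuotientGroup.eq_one_iff _).2 hcen
  exact_mod_cast this
have hdvd := orderOf_dvd_of_pow_eq_one hone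
rw [hord] at hdvd
have hKv : K ∈ ({3, 4, 5, 14} : Finset ℕ) := by
  rw [hK]
  fin_cases k <;> simp
simp only [Finset.mem_insert, Finset.mem_singleton] at hKv
rcases hKv with h | h | h | h <;> rw [h] at hdvd <;> omega

end Cfsg.Agent.S0819
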