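import Cfsg.Statements.S0820
-- import your own Cfsg.Agent.* helpers here

set_option autoImplicit false
open Cfsg

namespace Cfsg.Agent.S0820

open Matrix Module

section
variable {F : Type*} [Field F]

/-- An element of `SL₃` with `(X - 1)² = 0`, `X ≠ 1` is conjugate in `SL₃` to the elementary transvection. -/
theorem conj_std (X : SpecialLinearGroup (Fin 3) F) (hne : (X : Matrix (Fin 3) (Fin 3) F) ≠ 1)
    (hsq : ((X : Matrix (Fin 3) (Fin 3) F) - 1) * ((X : Matrix (Fin 3) (Fin 3) F) - 1) = 0) :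
    ∃ g T : SpecialLinearGroup (Fin 3) F, (T : Matrix (Fin 3) (Fin 3) F) = !![1, 1, 0; 0, 1, 0; 0, 0, 1] ∧
      (X : Matrix (Fin 3) (Fin 3) F) * (g : Matrix (Fin 3) (Fin 3) F) = (g : Matrix (Fin 3) (Fin 3) F) * (T : Matrix (Fin 3) (Fin 3) F) := by
  classical
  set N : Matrix (Fin 3) (Fin 3) F := (X : Matrix (Fin 3) (Fin 3) F) - 1 with hN
  have hN0 : N ≠ 0 := by
    intro h
    apply hne
    rw [hN, sub_eq_zero] at h
    exact h
  have hX : ∀ v, (X : Matrix (Fin 3) (Fin 3) F) *ᵥ v = v + N *ᵥ v := by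
    intro v
    rw [hN, Matrix.sub_mulVec, Matrix.one_mulVec]
    abel
  obtain ⟨w, hw⟩ : ∃ w, N *ᵥ w ≠ 0 := by
    by_contra hcon
    push Not at hcon
    apply hN0
    apply Matrix.toLin'.injective
    apply LinearMap.ext
    intro v
    rw [Matrix.toLin'_apply, hcon]
    simp
  set u := N *ᵥ w with hu
  have hNu : N *ᵥ u = 0 := by
    rw [hu, Matrix.mulVec_mulVec, hsq, Matrix.zero_mulVec]
  -- the kernel has dimension at least two
  have hker : ∃ z, N *ᵥ z = 0 ∧ z ∉ Submodule.span F {u} := by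
    by_contra hcon
    push Not at hcon
    have h1 : LinearMap.ker N.mulVecLin ≤ Submodule.span F {u} := by
      intro z hz
      exact hcon z (LinearMap.mem_ker.1 hz)
    have h2 : LinearMap.range N.mulVecLin ≤ LinearMap.ker N.mulVecLin := by
      rintro _ ⟨v, rfl⟩
      rw [LinearMap.mem_ker, Matrix.mulVecLin_apply, Matrix.mulVecLin_apply, Matrix.mulVec_mulVec, hsq, Matrix.zero_mulVec]
    have h3 := LinearMap.finrank_range_add_finrank_ker N.mulVecLin
    have h4 := Submodule.finrank_mono h1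
    have h5 := Submodule.finrank_mono h2
    rw [finrank_span_singleton hw] at h4
    rw [Module.finrank_fin_fun] at h3
    omega
  obtain ⟨z, hNz, hzu⟩ := hker
  let g₀ : Matrix (Fin 3) (Fin 3) F := (Matrix.of ![u, w, z])ᵀ
  have hg₀ : ∀ c : Fin 3 → F, g₀ *ᵥ c = c 0 • u + c 1 • w + c 2 • z := by
    intro c
    funext i
    simp [g₀, Matrix.mulVec, dotProduct, Fin.sum_univ_three, mul_comm]
  have hdet : g₀.det ≠ 0 := by
    intro h0
    obtain ⟨c, hc, hc0⟩ := Matrix.exists_mulVec_eq_zero_iff.2 h0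
    rw [hg₀] at hc0
    have h1 := congrArg (fun v => N *ᵥ v) hc0
    simp only [Matrix.mulVec_add, Matrix.mulVec_smul, hNu, hNz, Matrix.mulVec_zero, smul_zero, zero_add, add_zero] at h1
    have hc1 : c 1 = 0 := (smul_eq_zero.1 h1).resolve_right hw
    rw [hc1, zero_smul, add_zero] at hc0
    have hc2 : c 2 = 0 := by
      by_contra hne2
      apply hzu
      rw [Submodule.mem_span_singleton]
      refine ⟨-(c 2)⁻¹ * c 0, ?_⟩
      have h3 : z = -(c 2)⁻¹ • (c 0 • u) := by
        have h4 : c 2 • z = - (c 0 • u) := eq_neg_of_add_eq_zero_right hc0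
        have h5 : z = (c 2)⁻¹ • (c 2 • z) := by
          rw [smul_smul, inv_mul_cancel₀ hne2, one_smul]
        rw [h5, h4, smul_neg, neg_smul]
      rw [h3, smul_smul]
    rw [hc2, zero_smul, add_zero] at hc0
    have hc3 : c 0 = 0 := (smul_eq_zero.1 hc0).resolve_right hw
    apply hc
    funext i
    fin_cases i
    · exact hc3
    · exact hc1
    · exact hc2
  set δ := g₀.det with hδ
  let D : Matrix (Fin 3) (Fin 3) F := Matrix.diagonal ![1, 1, δ⁻¹]
  have hD : D.det = δ⁻¹ := by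
    simp [D, Matrix.det_diagonal, Fin.prod_univ_three]
  let Tm : Matrix (Fin 3) (Fin 3) F := !![1, 1, 0; 0, 1, 0; 0, 0, 1]
  have hTdet : Tm.det = 1 := by
    simp [Tm, Matrix.det_fin_three]
  have hXg : (X : Matrix (Fin 3) (Fin 3) F) * g₀ = g₀ * Tm := by
    apply Matrix.toLin'.injective
    apply LinearMap.ext
    intro c
    simp only [Matrix.toLin'_apply, ← Matrix.mulVec_mulVec]
    rw [hX, hg₀, hg₀]
    simp only [Matrix.mulVec_add, Matrix.mulVec_smul, hNu, hNz, smul_zero, add_zero]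
    have e0 : (Tm *ᵥ c) 0 = c 0 + c 1 := by simp [Tm, Matrix.mulVec, dotProduct, Fin.sum_univ_three]
    have e1 : (Tm *ᵥ c) 1 = c 1 := by simp [Tm, Matrix.mulVec, dotProduct, Fin.sum_univ_three]
    have e2 : (Tm *ᵥ c) 2 = c 2 := by simp [Tm, Matrix.mulVec, dotProduct, Fin.sum_univ_three]
    rw [e0, e1, e2, add_smul, ← hu]
    abel
  have hDT : D * Tm = Tm * D := by
    apply Matrix.ext
    intro i j
    fin_cases i <;> fin_cases j <;> simp [D, Tm, Matrix.mul_apply, Fin.sum_univ_three, Matrix.diagonal_apply]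
  refine ⟨⟨g₀ * D, ?_⟩, ⟨Tm, hTdet⟩, rfl, ?_⟩
  · rw [Matrix.det_mul, hD, mul_inv_cancel₀ hdet]
  · change (X : Matrix (Fin 3) (Fin 3) F) * (g₀ * D) = (g₀ * D) * Tm
    rw [← Matrix.mul_assoc, hXg, Matrix.mul_assoc, Matrix.mul_assoc, hDT]

end


/-- Any two elements of order 2 of PSL_3(4) are conjugate. -/
theorem result {F : Type*} [Field F] [Fintype F] (hF : Fintype.card F = 4) (x y : Matrix.ProjectiveSpecialLinearGroup (Fin 3) F) (hx : orderOf x = 2) (hy : orderOf y = 2) : IsConj x y := by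
  classical
have h4 : (4 : F) = 0 := by
  have := FiniteField.cast_card_eq_zero F
  rw [hF] at this
  exact_mod_cast this
have h2 : (2 : F) = 0 := by
  have h : (2 : F) * 2 = 0 := by
    rw [← h4]; norm_num
  simpa using h
have hpow : ∀ c : F, c ≠ 0 → c ^ 3 = 1 := by
  intro c hc
  have := FiniteField.pow_card_sub_one_eq_one c hc
  rwa [hF] at this
-- normalising a lift
have hlift : ∀ x : Matrix.ProjectiveSpecialLinearGroup (Fin 3) F, orderOf x = 2 →
    ∃ X : SpecialLinearGroup (Fin 3) F, (QuotientGroup.mk X : Matrix.ProjectiveSpecialLinearGroup (Fin 3) F) = x ∧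
      (X : Matrix (Fin 3) (Fin 3) F) ≠ 1 ∧
      ((X : Matrix (Fin 3) (Fin 3) F) - 1) * ((X : Matrix (Fin 3) (Fin 3) F) - 1) = 0 := by
  intro x hx
  obtain ⟨X, rfl⟩ := QuotientGroup.mk_surjective x
  have hx2 : (QuotientGroup.mk X : Matrix.ProjectiveSpecialLinearGroup (Fin 3) F) ^ 2 = 1 := by
    rw [← hx]
    exact pow_orderOf_eq_one _
  have hx1 : (QuotientGroup.mk X : Matrix.ProjectiveSpecialLinearGroup (Fin 3) F) ≠ 1 := by
    intro h
    rw [h, orderOf_one] at hx
    omega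
  have hcen : X ^ 2 ∈ Subgroup.center (SpecialLinearGroup (Fin 3) F) := by
    rw [← QuotientGroup.eq_one_iff]
    exact_mod_cast hx2
  rw [Matrix.SpecialLinearGroup.mem_center_iff] at hcen
  obtain ⟨c, hc3, hc⟩ := hcen
  rw [Fintype.card_fin] at hc3
  have hCdet : (Matrix.scalar (Fin 3) c).det = 1 := by
    simp [Matrix.scalar_apply, Matrix.det_diagonal, ← hc3]
  let C : SpecialLinearGroup (Fin 3) F := ⟨Matrix.scalar (Fin 3) c, hCdet⟩
  have hC : C ∈ Subgroup.center (SpecialLinearGroup (Fin 3) F) := by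
    rw [Matrix.SpecialLinearGroup.mem_center_iff]
    exact ⟨c, by rw [Fintype.card_fin, hc3], rfl⟩
  have hCC : C * C * (X ^ 2) = 1 := by
    apply Subtype.ext
    have e : ((X ^ 2 : SpecialLinearGroup (Fin 3) F) : Matrix (Fin 3) (Fin 3) F) = Matrix.scalar (Fin 3) c := hc.symm
    change (Matrix.scalar (Fin 3) c * Matrix.scalar (Fin 3) c) * ((X ^ 2 : SpecialLinearGroup (Fin 3) F) : Matrix (Fin 3) (Fin 3) F) = 1
    rw [e, ← map_mul, ← map_mul, ← map_one (Matrix.scalar (Fin 3))]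
    congr 1
    rw [← hc3]
    ring
  have hsq1 : (X * C) * (X * C) = 1 := by
    have e1 : X * C = C * X := (Subgroup.mem_center_iff.1 hC X)
    rw [← hCC, e1, pow_two]
    calc C * X * (C * X) = C * (X * C) * X := by simp only [mul_assoc]
      _ = C * (C * X) * X := by rw [e1]
      _ = C * C * (X * X) := by simp only [mul_assoc]
  have hmk : (QuotientGroup.mk (X * C) : Matrix.ProjectiveSpecialLinearGroup (Fin 3) F) = QuotientGroup.mk X :=
    QuotientGroup.mk_mul_of_mem X hC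
  refine ⟨X * C, hmk, ?_, ?_⟩
  · intro h
    apply hx1
    rw [← hmk]
    have : X * C = 1 := Subtype.ext h
    rw [this]
    rfl
  · have e : (((X * C : SpecialLinearGroup (Fin 3) F) : Matrix (Fin 3) (Fin 3) F)) * ((X * C : SpecialLinearGroup (Fin 3) F) : Matrix (Fin 3) (Fin 3) F) = 1 :=
      congrArg (fun g : SpecialLinearGroup (Fin 3) F => (g : Matrix (Fin 3) (Fin 3) F)) hsq1
    generalize ((X * C : SpecialLinearGroup (Fin 3) F) : Matrix (Fin 3) (Fin 3) F) = M at e ⊢
    have e2 : (M - 1) * (M - 1) = (M * M) + 1 - (2 : F) • M := by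
      rw [two_smul]
      noncomm_ring
    rw [e2, e, h2, zero_smul, sub_zero]
    have e3 : (1 : Matrix (Fin 3) (Fin 3) F) + 1 = (2 : F) • 1 := by rw [two_smul]
    rw [e3, h2, zero_smul]
obtain ⟨X, rfl, hX1, hX2⟩ := hlift x hx
obtain ⟨Y, rfl, hY1, hY2⟩ := hlift y hy
obtain ⟨g, T, hT, hg⟩ := conj_std X hX1 hX2
obtain ⟨g', T', hT', hg'⟩ := conj_std Y hY1 hY2
have hTT : T = T' := Subtype.ext (hT.trans hT'.symm)
subst hTT
have hc1 : X * g = g * T := Subtype.ext hg
have hc2 : Y * g' = g' * T := Subtype.ext hg'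
have hconj : IsConj X Y := by
  rw [isConj_iff]
  refine ⟨g' * g⁻¹, ?_⟩
  have e1 : X = g * T * g⁻¹ := by rw [← hc1]; group
  have e2 : Y = g' * T * g'⁻¹ := by rw [← hc2]; group
  rw [e1, e2]
  group
exact (QuotientGroup.mk' (Subgroup.center (SpecialLinearGroup (Fin 3) F))).map_isConj hconj

end Cfsg.Agent.S0820
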