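import Mathlib
import Cfsg.Agent.Lib.H01.OmNoIso
import Cfsg.Statements.S0821
-- import your own Cfsg.Agent.* helpers here

set_option autoImplicit false
open Cfsg

namespace Cfsg.Agent.S0821


/-- PSp_2m(q) ≇ PΩ_(2m+1)(q) for q odd and m ≥ 3 (they have the same order). -/
theorem result {F : Type*} [Field F] [Fintype F] (hodd : Odd (Fintype.card F)) (m : ℕ) (hm : 3 ≤ m) : IsEmpty (Cfsg.PSp m F ≃* Cfsg.POmega F (Cfsg.quadFormOdd m F)) := by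
  refine ⟨fun φ => ?_⟩
  have h2 : (2 : F) ≠ 0 := Cfsg.Agent.Lead.Ortho.two_ne_zero_of_odd rfl hodd
  obtain ⟨p, hp⟩ := CharP.exists F
  haveI := hp
  haveI : Fact p.Prime := ⟨CharP.char_is_prime F p⟩
  obtain ⟨m', rfl⟩ : ∃ m', m = m' + 1 + 1 := ⟨m - 2, by omega⟩
  have C := Cfsg.Agent.H01.Om.mkCx (Cfsg.Agent.Lead.Ortho.qfOdd (F := F) (m' + 1 + 1))
    (Cfsg.Agent.Lead.Ortho.ndOdd _ h2) (Cfsg.Agent.Lead.Omega.frameOdd_HF _) (by omega) (Cfsg.Agent.Lead.Omega.frameOdd_anis _)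
  haveI : Nonempty (Fin (m' + 1 + 1)) := ⟨0⟩
  exact Cfsg.Agent.H01.Om.no_iso (p := p) (l := Fin (m' + 1 + 1)) C h2 (by
    simp only [Fintype.card_sum, Fintype.card_fin]
    omega) φ.symm


end Cfsg.Agent.S0821
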