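import Cfsg.Statements.S0823
import Mathlib

set_option autoImplicit false
open Cfsg

namespace Cfsg.Agent.S0823

open Matrix

abbrev Idx := Unit ⊕ (Fin 1 ⊕ Fin 1)

section
variable {F : Type*} [Field F]

def vec (a b c : F) : Idx → F := Sum.elim (fun _ => a) (Sum.elim (fun _ => b) (fun _ => c))

theorem vec_eta (v : Idx → F) : v = vec (v (.inl ())) (v (.inr (.inl 0))) (v (.inr (.inr 0))) := by
  funext i
  rcases i with ⟨⟩ | i | i
  · rfl
  · rw [Subsingleton.elim i 0]; rfl
  · rw [Subsingleton.elim i 0]; rfl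

theorem vec_inj {a b c a' b' c' : F} (h : vec a b c = vec a' b' c') : a = a' ∧ b = b' ∧ c = c' :=
  ⟨congrFun h (.inl ()), congrFun h (.inr (.inl 0)), congrFun h (.inr (.inr 0))⟩

theorem Q_vec (a b c : F) : Cfsg.quadFormOdd 1 F (vec a b c) = a ^ 2 + b * c := by
  simp [Cfsg.quadFormOdd, vec]

theorem smul_vec (k a b c : F) : k • vec a b c = vec (k * a) (k * b) (k * c) := by
  funext i
  rcases i with ⟨⟩ | i | i <;> rfl

theorem add_vec (a b c a' b' c' : F) : vec a b c + vec a' b' c' = vec (a + a') (b + b') (c + c') := by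
  funext i
  rcases i with ⟨⟩ | i | i <;> rfl

def mat3 (a b c d e f g h i : F) : Matrix Idx Idx F :=
  Matrix.of (Sum.elim (fun _ => Sum.elim (fun _ => a) (Sum.elim (fun _ => b) (fun _ => c)))
    (Sum.elim (fun _ => Sum.elim (fun _ => d) (Sum.elim (fun _ => e) (fun _ => f)))
      (fun _ => Sum.elim (fun _ => g) (Sum.elim (fun _ => h) (fun _ => i)))))

theorem mat3_mulVec (a b c d e f g h i x y z : F) :
    mat3 a b c d e f g h i *ᵥ vec x y z = vec (a * x + b * y + c * z) (d * x + e * y + f * z) (g * x + h * y + i * z) := by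
  funext r
  rcases r with ⟨⟩ | r | r <;>
  simp [mat3, vec, Matrix.mulVec, dotProduct, Fintype.sum_sum_type] <;> ring

def eIdx : Idx ≃ Fin 3 where
  toFun := Sum.elim (fun _ => 0) (Sum.elim (fun _ => 1) (fun _ => 2))
  invFun := ![.inl (), .inr (.inl 0), .inr (.inr 0)]
  left_inv := by
    rintro (⟨⟩ | i | i)
    · rfl
    · rw [Subsingleton.elim i 0]; rfl
    · rw [Subsingleton.elim i 0]; rfl
  right_inv := by
    intro i; fin_cases i <;> rfl

theorem det_mat3 (a b c d e f g h i : F) :
    (mat3 a b c d e f g h i).det = a * e * i - a * f * h - b * d * i + b * f * g + c * d * h - c * e * g := by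
  have h1 : (mat3 a b c d e f g h i).submatrix eIdx.symm eIdx.symm = !![a, b, c; d, e, f; g, h, i] := by
    ext r s
    fin_cases r <;> fin_cases s <;> rfl
  rw [← Matrix.det_submatrix_equiv_self eIdx.symm, h1, Matrix.det_fin_three]
  simp

def PP : Fin 4 → Idx → F := ![vec 0 1 0, vec 0 0 1, vec 1 1 (-1), vec 1 (-1) 1]

theorem PP_class (h30 : (3 : F) = 0) (h20 : (2 : F) ≠ 0) (hel : ∀ x : F, x = 0 ∨ x = 1 ∨ x = -1) (v : Idx → F) (hv : v ≠ 0)
    (hQ : Cfsg.quadFormOdd 1 F v = 0) : ∃ j, ∃ c : F, c ≠ 0 ∧ v = c • PP j := by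
  rw [vec_eta v] at hQ hv ⊢
  set a := v (.inl ())
  set b := v (.inr (.inl 0))
  set c := v (.inr (.inr 0))
  rw [Q_vec] at hQ
  have h10 : (1 : F) ≠ -1 := by
    intro h
    apply h20
    linear_combination h
  have h1n : (-1 : F) ≠ 0 := by simp
  rcases hel a with ha | ha | ha
  · rw [ha] at hQ hv ⊢
    have hbc : b * c = 0 := by simpa using hQ
    rcases mul_eq_zero.mp hbc with hb | hc
    · rw [hb] at hv ⊢
      refine ⟨1, c, ?_, ?_⟩
      · intro h
        apply hv
        rw [h]
        funext r; rcases r with ⟨⟩ | r | r <;> rfl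
      · simp [PP, smul_vec]
    · rw [hc] at hv ⊢
      refine ⟨0, b, ?_, ?_⟩
      · intro h
        apply hv
        rw [h]
        funext r; rcases r with ⟨⟩ | r | r <;> rfl
      · simp [PP, smul_vec]
  all_goals
    rw [ha] at hQ ⊢
    have hbc : b * c = -1 := by linear_combination hQ
    rcases hel b with hb | hb | hb <;> rcases hel c with hc | hc | hc <;> rw [hb, hc] at hbc ⊢ <;>
      first
      | (exfalso; simp at hbc; done)
      | (exfalso; apply h10; simpa using hbc)
      | (exfalso; apply h10; linear_combination hbc)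
      | (refine ⟨2, 1, one_ne_zero, ?_⟩; simp [PP, smul_vec]; done)
      | (refine ⟨3, 1, one_ne_zero, ?_⟩; simp [PP, smul_vec]; done)
      | (refine ⟨2, -1, h1n, ?_⟩; rw [show (PP 2 : Idx → F) = vec 1 1 (-1) from rfl, smul_vec]; simp; done)
      | (refine ⟨3, -1, h1n, ?_⟩; rw [show (PP 3 : Idx → F) = vec 1 (-1) 1 from rfl, smul_vec]; simp; done)

theorem PP_uniq (h20 : (2 : F) ≠ 0) {c c' : F} (hc : c ≠ 0) (hc' : c' ≠ 0) {j j' : Fin 4} (h : c • (PP j : Idx → F) = c' • (PP j' : Idx → F)) : j = j' := by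
  fin_cases j <;> fin_cases j' <;> first | rfl | skip
  all_goals
    exfalso
    simp only [PP, Fin.isValue, Fin.reduceFinMk, Matrix.cons_val, smul_vec] at h
    obtain ⟨h1, h2, h3⟩ := vec_inj h
    simp at h1 h2 h3
  all_goals first
    | exact hc h1.symm
    | exact hc h2.symm
    | exact hc h3.symm
    | exact hc h1
    | exact hc h2
    | exact hc h3
    | exact hc' h1.symm
    | exact hc' h2.symm
    | exact hc' h3.symm
    | exact hc' h1
    | exact hc' h2
    | exact hc' h3
    | (refine hc' ((mul_eq_zero.mp (?_ : (2 : F) * c' = 0)).resolve_left h20); linear_combination h2 - h1)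
    | (refine hc' ((mul_eq_zero.mp (?_ : (2 : F) * c' = 0)).resolve_left h20); linear_combination h3 - h1)

end

/-- SO_3(3) ≅ S_4: the determinant-one isometries of the form x_0² + x_1y_1 over the field with 3 elements form a group isomorphic to the symmetric group on 4 letters. -/
theorem result {F : Type*} [Field F] [Fintype F] (hF : Fintype.card F = 3) : Nonempty (↥(Cfsg.specialIsometryGroup F (Cfsg.quadFormOdd 1 F)) ≃* Equiv.Perm (Fin 4)) := by
  classical
  have hcast : ((Fintype.card F : ℕ) : F) = 0 := Nat.cast_card_eq_zero F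
  have h30 : (3 : F) = 0 := by
    rw [hF] at hcast
    exact_mod_cast hcast
  have h20 : (2 : F) ≠ 0 := by
    intro h
    exact one_ne_zero (show (1 : F) = 0 by linear_combination h30 - h)
  have h10 : (1 : F) ≠ -1 := by
    intro h
    apply h20
    linear_combination h
  have hel : ∀ x : F, x = 0 ∨ x = 1 ∨ x = -1 := by
    have h1n : (-1 : F) ≠ 0 := by simp
    have hc : ({0, 1, -1} : Finset F).card = Fintype.card F := by
      rw [hF, Finset.card_insert_of_notMem, Finset.card_pair h10]
      simp [h1n.symm]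
    have h := Finset.eq_univ_of_card _ hc
    intro x
    have : x ∈ ({0, 1, -1} : Finset F) := h ▸ Finset.mem_univ x
    simpa using this
  have hPP0 : ∀ i, (PP i : Idx → F) ≠ 0 := by
    intro i h
    fin_cases i
    · exact one_ne_zero (congrFun h (.inr (.inl 0)))
    · exact one_ne_zero (congrFun h (.inr (.inr 0)))
    · exact one_ne_zero (congrFun h (.inl ()))
    · exact one_ne_zero (congrFun h (.inl ()))
  have hPPQ : ∀ i, Cfsg.quadFormOdd 1 F (PP i) = 0 := by
    intro i
    fin_cases i <;> simp [PP, Q_vec]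
  have hstep : ∀ (g : ↥(Cfsg.specialIsometryGroup F (Cfsg.quadFormOdd 1 F))) (i : Fin 4), ∃ j, ∃ c : F, c ≠ 0 ∧
      ((g.1.1 : Matrix Idx Idx F) *ᵥ PP i) = c • PP j := by
    intro g i
    apply PP_class h30 h20 hel
    · intro h
      apply hPP0 i
      have h2 : ((g.1.1⁻¹ : Matrix.GeneralLinearGroup Idx F) : Matrix Idx Idx F) *ᵥ ((g.1.1 : Matrix Idx Idx F) *ᵥ PP i) = PP i := by
        rw [Matrix.mulVec_mulVec, ← Units.val_mul, inv_mul_cancel]
        simp
      rw [← h2, h, Matrix.mulVec_zero]
    · exact (g.1.2 (PP i) (PP i)).trans (hPPQ i)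
  choose f c hc hf using hstep
  letI act : MulAction ↥(Cfsg.specialIsometryGroup F (Cfsg.quadFormOdd 1 F)) (Fin 4) :=
    { smul := f
      one_smul := by
        intro i
        have h := hf 1 i
        show f 1 i = i
        apply PP_uniq h20 (hc 1 i) one_ne_zero (j' := i)
        rw [← h, one_smul]
        simp
      mul_smul := by
        intro g h i
        have h1 := hf (g * h) i
        have h2 := hf h i
        have h3 := hf g (f h i)
        show f (g * h) i = f g (f h i)
        apply PP_uniq h20 (hc (g * h) i) (mul_ne_zero (hc h i) (hc g (f h i)))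
        rw [← h1, mul_smul, ← h3, ← Matrix.mulVec_smul, ← h2, Matrix.mulVec_mulVec]
        rfl }
  have hact : ∀ (g : ↥(Cfsg.specialIsometryGroup F (Cfsg.quadFormOdd 1 F))) (i : Fin 4), g • i = f g i := fun _ _ => rfl
  let φ := MulAction.toPermHom ↥(Cfsg.specialIsometryGroup F (Cfsg.quadFormOdd 1 F)) (Fin 4)
  have hφ : ∀ (g : ↥(Cfsg.specialIsometryGroup F (Cfsg.quadFormOdd 1 F))) (i : Fin 4), φ g i = f g i := fun _ _ => rfl
  have hinj : Function.Injective φ := by
    rw [injective_iff_map_eq_one]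
    intro g hg
    have hfix : ∀ i, f g i = i := by
      intro i
      rw [← hφ, hg]
      rfl
    let M : Matrix Idx Idx F := g.1.1
    have hM : ∀ i, M *ᵥ PP i = c g i • PP i := by
      intro i
      have := hf g i
      rwa [hfix] at this
    have e0 := hM 0
    have e1 := hM 1
    have e2 := hM 2
    have e3 := hM 3
    have hrel : (PP 2 : Idx → F) - PP 3 = (2 : F) • ((PP 0 : Idx → F) - PP 1) := by
      funext r
      rcases r with ⟨⟩ | r | r <;> simp [PP, vec] <;> ring
    have hrel2 := congrArg (fun w => M *ᵥ w) hrel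
    simp only [Matrix.mulVec_sub, Matrix.mulVec_smul, e0, e1, e2, e3] at hrel2
    have hc1 := congrFun hrel2 (.inl ())
    have hc2 := congrFun hrel2 (.inr (.inl 0))
    have hc3 := congrFun hrel2 (.inr (.inr 0))
    simp [PP, vec] at hc1 hc2 hc3
    set a := c g 0 with ha
    have h2eq : ∀ x y : F, (2 : F) * x = 2 * y → x = y := fun x y h => mul_left_cancel₀ h20 h
    have h23 : c g 3 = c g 2 := by linear_combination -hc1
    have h20' : c g 2 = a := h2eq _ _ (by rw [← hc2, h23]; ring)
    have h21 : c g 1 = a := by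
      apply h2eq
      rw [← h20']
      linear_combination hc3 - hc1
    rw [h23, h20'] at e3
    rw [h20'] at e2
    rw [h21] at e1
    have hMv : ∀ v : Idx → F, M *ᵥ v = a • v := by
      intro v
      have hdec : v = ((v (.inl ())) * 2⁻¹) • ((PP 2 : Idx → F) + PP 3) + (v (.inr (.inl 0))) • PP 0 + (v (.inr (.inr 0))) • PP 1 := by
        funext r
        rcases r with ⟨⟩ | r | r
        · simp [PP, vec]
          field_simp
          ring
        · rw [Subsingleton.elim r 0]
          simp [PP, vec]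
        · rw [Subsingleton.elim r 0]
          simp [PP, vec]
      rw [hdec]
      simp only [Matrix.mulVec_add, Matrix.mulVec_smul, e0, e1, e2, e3]
      module
    have hMeq : M = a • (1 : Matrix Idx Idx F) := by
      apply Matrix.mulVec_injective
      funext v
      rw [hMv, Matrix.smul_mulVec, Matrix.one_mulVec]
    have hdet : M.det = 1 := by
      have h1 : g.1 ∈ (Matrix.GeneralLinearGroup.det.comp (Cfsg.isometryGroup F (Cfsg.quadFormOdd 1 F)).subtype).ker := g.2
      have h2 := congrArg Units.val ((MonoidHom.mem_ker).mp h1)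
      exact h2
    rw [hMeq, Matrix.det_smul, Matrix.det_one, mul_one] at hdet
    have hcardI : Fintype.card Idx = 3 := rfl
    rw [hcardI] at hdet
    have ha1 : a = 1 := by
      rcases hel a with h | h | h
      · rw [h] at hdet; simp at hdet
      · exact h
      · rw [h] at hdet
        exfalso
        apply h10
        linear_combination (-1 : F) * hdet
    apply Subtype.ext
    apply Subtype.ext
    apply Units.ext
    show M = 1
    rw [hMeq, ha1, one_smul]
  have hsurj : Function.Surjective φ := by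
    rw [← MonoidHom.range_eq_top, eq_top_iff]
    have hcl := Equiv.Perm.closure_cycle_adjacent_swap (isCycle_finRotate (n := 2)) (support_finRotate (n := 2)) (0 : Fin 4)
    rw [← hcl, Subgroup.closure_le]
    -- explicit elements
    have hmem : ∀ (a b c d e f' g h i : F) (hdet : (mat3 a b c d e f' g h i).det = 1)
      (hiso : ∀ x y z : F, (a * x + b * y + c * z) ^ 2 + (d * x + e * y + f' * z) * (g * x + h * y + i * z) = x ^ 2 + y * z),
      ∃ u : ↥(Cfsg.specialIsometryGroup F (Cfsg.quadFormOdd 1 F)), (u.1.1 : Matrix Idx Idx F) = mat3 a b c d e f' g h i := by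
      intro a b c d e f' g h i hdet hiso
      let U : Matrix.GeneralLinearGroup Idx F := Matrix.GeneralLinearGroup.mkOfDetNeZero (mat3 a b c d e f' g h i) (by rw [hdet]; exact one_ne_zero)
      have hU : (U : Matrix Idx Idx F) = mat3 a b c d e f' g h i := rfl
      have hUi : U ∈ Cfsg.isometryGroup F (Cfsg.quadFormOdd 1 F) := by
        intro u v
        show Cfsg.quadFormOdd 1 F ((U : Matrix Idx Idx F) *ᵥ u) = Cfsg.quadFormOdd 1 F u
        rw [hU, vec_eta u, mat3_mulVec, Q_vec, Q_vec, hiso]
      refine ⟨⟨⟨U, hUi⟩, ?_⟩, rfl⟩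
      show (Matrix.GeneralLinearGroup.det.comp (Cfsg.isometryGroup F (Cfsg.quadFormOdd 1 F)).subtype) ⟨U, hUi⟩ = 1
      apply Units.ext
      exact hdet
    have hnotfix : ∀ (u : ↥(Cfsg.specialIsometryGroup F (Cfsg.quadFormOdd 1 F))) (s : Equiv.Perm (Fin 4))
        (k : Fin 4 → F) (hk : ∀ i, k i ≠ 0) (hu : ∀ i, (u.1.1 : Matrix Idx Idx F) *ᵥ PP i = k i • PP (s i)), φ u = s := by
      intro u s k hk hu
      ext i
      rw [hφ]
      congr 1
      apply PP_uniq h20 (hc u i) (hk i)
      rw [← hf, hu]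
    have h1n : (-1 : F) ≠ 0 := by simp
    rintro s (rfl | rfl)
    · obtain ⟨u, hu⟩ := hmem (-1) 0 1 0 0 1 (-1) 1 (-1) (by rw [det_mat3]; ring) (by
        intro x y z
        linear_combination (-x * z) * h30)
      refine ⟨u, hnotfix u _ (fun _ => 1) (fun _ => one_ne_zero) ?_⟩
      intro i
      rw [hu]
      have e1 : (-1 : F) + -1 = 1 := by linear_combination -h30
      have e2 : (-1 : F) + -1 + -1 = 0 := by linear_combination -h30
      fin_cases i
      · simp [PP, mat3_mulVec]
      · simp [PP, mat3_mulVec]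
      · simp [PP, mat3_mulVec, e1]
      · simp [PP, mat3_mulVec, e2]
    · obtain ⟨u, hu⟩ := hmem (-1) 0 0 0 0 1 0 1 0 (by rw [det_mat3]; ring) (by
        intro x y z
        ring)
      refine ⟨u, hnotfix u _ ![1, 1, -1, -1] ?_ ?_⟩
      · intro i; fin_cases i <;> simp
      · intro i
        rw [hu]
        fin_cases i
        · simp [PP, mat3_mulVec]
        · simp [PP, mat3_mulVec]
        · have hs : (Equiv.swap (0 : Fin 4) (finRotate (2 + 2) 0)) 2 = 2 := by decide
          show mat3 (-1) 0 0 0 0 1 0 1 0 *ᵥ PP 2 = (-1 : F) • PP ((Equiv.swap (0 : Fin 4) (finRotate (2 + 2) 0)) 2)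
          rw [hs]
          show mat3 (-1) 0 0 0 0 1 0 1 0 *ᵥ vec 1 1 (-1) = (-1 : F) • vec 1 1 (-1)
          rw [mat3_mulVec, smul_vec]
          congr 1 <;> ring
        · have hs : (Equiv.swap (0 : Fin 4) (finRotate (2 + 2) 0)) 3 = 3 := by decide
          show mat3 (-1) 0 0 0 0 1 0 1 0 *ᵥ PP 3 = (-1 : F) • PP ((Equiv.swap (0 : Fin 4) (finRotate (2 + 2) 0)) 3)
          rw [hs]
          show mat3 (-1) 0 0 0 0 1 0 1 0 *ᵥ vec 1 (-1) 1 = (-1 : F) • vec 1 (-1) 1
          rw [mat3_mulVec, smul_vec]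
          congr 1 <;> ring
  exact ⟨MulEquiv.ofBijective φ ⟨hinj, hsurj⟩⟩

end Cfsg.Agent.S0823
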