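import Cfsg.Statements.S0824
import Cfsg.Agent.Lib.Lead.OrthoOrder
-- import your own Cfsg.Agent.* helpers here

set_option autoImplicit false
open Cfsg

namespace Cfsg.Agent.S0824

open Matrix

abbrev Ix4 := (Fin 1 ⊕ Fin 1) ⊕ Fin 2

section
variable {F : Type*} [Field F]

def vecc (x y a b : F) : Ix4 → F := Sum.elim (Sum.elim (fun _ => x) (fun _ => y)) ![a, b]

theorem vecc_eta (v : Ix4 → F) :
    v = vecc (v (.inl (.inl 0))) (v (.inl (.inr 0))) (v (.inr 0)) (v (.inr 1)) := by
  funext i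
  rcases i with (i | i) | i
  · rw [Subsingleton.elim i 0]; rfl
  · rw [Subsingleton.elim i 0]; rfl
  · fin_cases i <;> rfl

theorem vecc_inj {x y a b x' y' a' b' : F} (h : vecc x y a b = vecc x' y' a' b') : x = x' ∧ y = y' ∧ a = a' ∧ b = b' :=
  ⟨congrFun h (.inl (.inl 0)), congrFun h (.inl (.inr 0)), congrFun h (.inr 0), congrFun h (.inr 1)⟩

theorem Q_vecc (x y a b : F) : Cfsg.quadFormMinus 1 F 1 1 (vecc x y a b) = x * y + (a ^ 2 + a * b + b ^ 2) := by
  simp [Cfsg.quadFormMinus, vecc]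

theorem smul_vecc (k x y a b : F) : k • vecc x y a b = vecc (k * x) (k * y) (k * a) (k * b) := by
  funext i
  rcases i with (i | i) | i
  · rfl
  · rfl
  · fin_cases i <;> rfl

theorem add_vecc (x y a b x' y' a' b' : F) :
    vecc x y a b + vecc x' y' a' b' = vecc (x + x') (y + y') (a + a') (b + b') := by
  funext i
  rcases i with (i | i) | i
  · rfl
  · rfl
  · fin_cases i <;> rfl

/-- The five singular vectors. -/
def vs : Fin 5 → (Ix4 → F) :=
  ![vecc 1 0 0 0, vecc 0 1 0 0, vecc 1 1 1 0, vecc 1 1 0 1, vecc 1 1 1 1]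

end


/-- O⁻_4(2) ≅ S_5: the isometry group of the form x y + z_1² + z_1 z_2 + z_2² over the field with 2 elements is isomorphic to the symmetric group on 5 letters. -/
theorem result {F : Type*} [Field F] [Fintype F] (hF : Fintype.card F = 2) : Nonempty (↥(Cfsg.isometryGroup F (Cfsg.quadFormMinus 1 F 1 1)) ≃* Equiv.Perm (Fin 5)) := by
  classical
have hel : ∀ x : F, x = 0 ∨ x = 1 := by
  intro x
  have h1 : ({0, 1} : Finset F).card = Fintype.card F := by
    rw [hF, Finset.card_pair zero_ne_one]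
  have h := Finset.eq_univ_of_card _ h1
  have : x ∈ ({0, 1} : Finset F) := h ▸ Finset.mem_univ x
  simpa using this
have h20 : (1 : F) + 1 = 0 := by
  rcases hel (1 + 1) with h | h
  · exact h
  · exact absurd (left_eq_add.1 h.symm) one_ne_zero
have h01 : (0 : F) ≠ 1 := zero_ne_one
have hvsQ : ∀ k, Cfsg.quadFormMinus 1 F 1 1 (vs k) = 0 := by
  intro k
  fin_cases k
  · change Cfsg.quadFormMinus 1 F 1 1 (vecc 1 0 0 0) = 0
    rw [Q_vecc]
    ring
  · change Cfsg.quadFormMinus 1 F 1 1 (vecc 0 1 0 0) = 0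
    rw [Q_vecc]
    ring
  · change Cfsg.quadFormMinus 1 F 1 1 (vecc 1 1 1 0) = 0
    rw [Q_vecc]
    linear_combination h20
  · change Cfsg.quadFormMinus 1 F 1 1 (vecc 1 1 0 1) = 0
    rw [Q_vecc]
    linear_combination h20
  · change Cfsg.quadFormMinus 1 F 1 1 (vecc 1 1 1 1) = 0
    rw [Q_vecc]
    linear_combination (1 + 1 : F) * h20
have hvs0 : ∀ k, (vs k : Ix4 → F) ≠ 0 := by
  intro k h0
  fin_cases k
  · exact one_ne_zero (congrFun h0 (.inl (.inl 0)))
  · exact one_ne_zero (congrFun h0 (.inl (.inr 0)))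
  · exact one_ne_zero (congrFun h0 (.inl (.inl 0)))
  · exact one_ne_zero (congrFun h0 (.inl (.inl 0)))
  · exact one_ne_zero (congrFun h0 (.inl (.inl 0)))
have hvsinj : Function.Injective (vs : Fin 5 → (Ix4 → F)) := by
  intro k l h
  have e0 := congrFun h (.inl (.inl 0))
  have e1 := congrFun h (.inl (.inr 0))
  have e2 := congrFun h (.inr 0)
  have e3 := congrFun h (.inr 1)
  fin_cases k <;> fin_cases l <;> first
    | rfl
    | (exfalso; first
        | exact h01 e0 | exact h01.symm e0 | exact h01 e1 | exact h01.symm e1 | exact h01 e2 | exact h01.symm e2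
        | exact h01 e3 | exact h01.symm e3)
have hvssurj : ∀ v : Ix4 → F, Cfsg.quadFormMinus 1 F 1 1 v = 0 → v ≠ 0 → ∃ k, vs k = v := by
  intro v hQ hv
  have e := vecc_eta v
  rw [e] at hQ hv
  rw [e]
  rw [Q_vecc] at hQ
  have hv00 : vecc (0 : F) 0 0 0 = 0 := by
    funext i
    rcases i with (i | i) | i
    · rfl
    · rfl
    · fin_cases i <;> rfl
  rcases hel (v (.inl (.inl 0))) with h0 | h0 <;> rcases hel (v (.inl (.inr 0))) with h1 | h1 <;>
    rcases hel (v (.inr 0)) with h2 | h2 <;> rcases hel (v (.inr 1)) with h3 | h3 <;>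
    simp only [h0, h1, h2, h3] at hQ hv ⊢
  · exact absurd hv00 hv
  · exfalso
    apply one_ne_zero (α := F)
    linear_combination hQ
  · exfalso
    apply one_ne_zero (α := F)
    linear_combination hQ
  · exfalso
    apply one_ne_zero (α := F)
    linear_combination hQ - h20
  · exact ⟨1, rfl⟩
  · exfalso
    apply one_ne_zero (α := F)
    linear_combination hQ
  · exfalso
    apply one_ne_zero (α := F)
    linear_combination hQ
  · exfalso
    apply one_ne_zero (α := F)
    linear_combination hQ - h20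
  · exact ⟨0, rfl⟩
  · exfalso
    apply one_ne_zero (α := F)
    linear_combination hQ
  · exfalso
    apply one_ne_zero (α := F)
    linear_combination hQ
  · exfalso
    apply one_ne_zero (α := F)
    linear_combination hQ - h20
  · exfalso
    apply one_ne_zero (α := F)
    linear_combination hQ
  · exact ⟨3, rfl⟩
  · exact ⟨2, rfl⟩
  · exact ⟨4, rfl⟩
-- the action
let G := Cfsg.isometryGroup F (Cfsg.quadFormMinus 1 F 1 1)
have hGQ : ∀ (g : G) (v : Ix4 → F), Cfsg.quadFormMinus 1 F 1 1 ((g.1 : Matrix Ix4 Ix4 F) *ᵥ v) = Cfsg.quadFormMinus 1 F 1 1 v :=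
  fun g v => g.2 v v
let e5 : Fin 5 ≃ {v : Ix4 → F // Cfsg.quadFormMinus 1 F 1 1 v = 0 ∧ v ≠ 0} :=
  Equiv.ofBijective (fun k => ⟨vs k, hvsQ k, hvs0 k⟩)
    ⟨fun k l h => hvsinj (congrArg Subtype.val h), fun ⟨v, hv1, hv2⟩ => by
      obtain ⟨k, hk⟩ := hvssurj v hv1 hv2
      exact ⟨k, Subtype.ext hk⟩⟩
have hact : ∀ (g : G) (v : {v : Ix4 → F // Cfsg.quadFormMinus 1 F 1 1 v = 0 ∧ v ≠ 0}),
    Cfsg.quadFormMinus 1 F 1 1 ((g.1 : Matrix Ix4 Ix4 F) *ᵥ v.1) = 0 ∧ (g.1 : Matrix Ix4 Ix4 F) *ᵥ v.1 ≠ 0 := by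
  intro g v
  refine ⟨by rw [hGQ]; exact v.2.1, ?_⟩
  intro h0
  apply v.2.2
  have h1 := congrArg (fun w => ((g⁻¹).1 : Matrix Ix4 Ix4 F) *ᵥ w) h0
  simp only [Matrix.mulVec_zero, Matrix.mulVec_mulVec] at h1
  have h2 : ((g⁻¹).1 : Matrix Ix4 Ix4 F) * (g.1 : Matrix Ix4 Ix4 F) = 1 := by
    have := congrArg (fun x : G => ((x.1 : GL Ix4 F) : Matrix Ix4 Ix4 F)) (inv_mul_cancel g)
    simpa using this
  rwa [h2, Matrix.one_mulVec] at h1
let φ₀ : G →* Equiv.Perm {v : Ix4 → F // Cfsg.quadFormMinus 1 F 1 1 v = 0 ∧ v ≠ 0} :=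
  { toFun := fun g =>
      { toFun := fun v => ⟨_, hact g v⟩
        invFun := fun v => ⟨_, hact g⁻¹ v⟩
        left_inv := fun v => by
          apply Subtype.ext
          simp only [Matrix.mulVec_mulVec]
          have h2 : ((g⁻¹).1 : Matrix Ix4 Ix4 F) * (g.1 : Matrix Ix4 Ix4 F) = 1 := by
            have := congrArg (fun x : G => ((x.1 : GL Ix4 F) : Matrix Ix4 Ix4 F)) (inv_mul_cancel g)
            simpa using this
          rw [h2, Matrix.one_mulVec]
        right_inv := fun v => by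
          apply Subtype.ext
          simp only [Matrix.mulVec_mulVec]
          have h2 : (g.1 : Matrix Ix4 Ix4 F) * ((g⁻¹).1 : Matrix Ix4 Ix4 F) = 1 := by
            have := congrArg (fun x : G => ((x.1 : GL Ix4 F) : Matrix Ix4 Ix4 F)) (mul_inv_cancel g)
            simpa using this
          rw [h2, Matrix.one_mulVec] }
    map_one' := by
      ext v
      simp
    map_mul' := fun g h => by
      ext v
      simp [Matrix.mulVec_mulVec] }
let φ : G →* Equiv.Perm (Fin 5) := (Equiv.permCongrHom e5.symm).toMonoidHom.comp φ₀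
have hker : ∀ g : G, φ₀ g = 1 → g = 1 := by
  intro g hg
  have hfix : ∀ k, (g.1 : Matrix Ix4 Ix4 F) *ᵥ vs k = vs k := by
    intro k
    have h := DFunLike.congr_fun hg ⟨vs k, hvsQ k, hvs0 k⟩
    exact congrArg Subtype.val h
  have hall : ∀ x y a b : F, (g.1 : Matrix Ix4 Ix4 F) *ᵥ vecc x y a b = vecc x y a b := by
    intro x y a b
    have e : vecc x y a b = (x + a + b) • vs 0 + (y + a + b) • vs 1 + a • vs 2 + b • vs 3 := by
      change vecc x y a b = (x + a + b) • vecc 1 0 0 0 + (y + a + b) • vecc 0 1 0 0 + a • vecc 1 1 1 0 + b • vecc 1 1 0 1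
      simp only [smul_vecc, add_vecc, mul_one, mul_zero, add_zero, zero_add]
      have h3 : ∀ s t : F, s + t + t = s := by
        intro s t
        linear_combination t * h20
      have h4 : x + a + b + a + b = x := by
        linear_combination (a + b) * h20
      have h5 : y + a + b + a + b = y := by
        linear_combination (a + b) * h20
      rw [h4, h5]
    rw [e, Matrix.mulVec_add, Matrix.mulVec_add, Matrix.mulVec_add, Matrix.mulVec_smul, Matrix.mulVec_smul, Matrix.mulVec_smul,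
      Matrix.mulVec_smul, hfix, hfix, hfix, hfix]
  apply Subtype.ext
  apply Units.ext
  apply Matrix.toLin'.injective
  apply LinearMap.ext
  intro v
  rw [Matrix.toLin'_apply, Matrix.toLin'_apply]
  rw [vecc_eta v, hall]
  simp
have hinj : Function.Injective φ := by
  rw [injective_iff_map_eq_one]
  intro g hg
  apply hker
  have h1 : (Equiv.permCongrHom e5.symm) (φ₀ g) = 1 := hg
  exact (map_eq_one_iff _ (MulEquiv.injective _)).1 h1
have hcard : Nat.card G = Nat.card (Equiv.Perm (Fin 5)) := by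
  have h1 := Cfsg.Agent.Lead.Ortho.card_GO_minus hF 2 (by norm_num) 1 1 (by
    intro z₁ z₂ hz
    rcases hel z₁ with rfl | rfl <;> rcases hel z₂ with rfl | rfl
    · exact ⟨rfl, rfl⟩
    · exfalso
      apply one_ne_zero (α := F)
      linear_combination hz
    · exfalso
      apply one_ne_zero (α := F)
      linear_combination hz
    · exfalso
      apply one_ne_zero (α := F)
      linear_combination hz - h20)
  have h2 : Nat.card G = 2 * 2 ^ (2 * (2 - 1)) * (2 ^ 2 + 1) * ∏ i ∈ Finset.range (2 - 1), (2 ^ (2 * (i + 1)) - 1) := h1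
  rw [h2, Nat.card_perm, Nat.card_eq_fintype_card, Fintype.card_fin]
  norm_num [Finset.prod_range_succ, Nat.factorial]
exact ⟨MulEquiv.ofBijective φ ((Nat.bijective_iff_injective_and_card φ).2 ⟨hinj, hcard⟩)⟩

end Cfsg.Agent.S0824
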