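import Cfsg.Statements.S0825
import Mathlib
import Cfsg.Agent.Lib.H03.O6S8

set_option autoImplicit false
open Cfsg

namespace Cfsg.Agent.S0825


/-- O⁺_6(2) ≅ S_8: the isometry group of the hyperbolic form x_1y_1 + x_2y_2 + x_3y_3 over the field with 2 elements is isomorphic to the symmetric group on 8 letters. -/
theorem result {F : Type*} [Field F] [Fintype F] (hF : Fintype.card F = 2) : Nonempty (↥(Cfsg.isometryGroup F (Cfsg.quadFormPlus 3 F)) ≃* Equiv.Perm (Fin 8)) := by
  exact Cfsg.Agent.H03.O6.main hF

end Cfsg.Agent.S0825
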