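import Cfsg.Statements.S0826
import Cfsg.Agent.Lib.H29.SpQuot
-- import your own Cfsg.Agent.* helpers here

set_option autoImplicit false
open Cfsg

namespace Cfsg.Agent.S0826

open Matrix

abbrev Wv (n : ℕ) := Fin (2 * n) → ZMod 2


/-- S_2n ≤ Sp_(2n−2)(2) for n ≥ 3: there is an injective homomorphism from the symmetric group on 2n letters into the symplectic group of degree 2n − 2 over the field with two elements. -/
theorem result (n : ℕ) (hn : 3 ≤ n) : ∃ f : Equiv.Perm (Fin (2 * n)) →* Matrix.symplecticGroup (Fin (n - 1)) (ZMod 2), Function.Injective f := by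
  classical
have hF : ∀ c : ZMod 2, c = 0 ∨ c = 1 := by decide
have hcc : ∀ c : ZMod 2, c * c = c := by decide
have h2z : ((2 : ℕ) : ZMod 2) = 0 := by decide
let sm : (Wv n) →ₗ[ZMod 2] ZMod 2 := ∑ i, LinearMap.proj i
have hsm : ∀ x : (Wv n), sm x = ∑ i, x i := by
  intro x
  simp only [sm, LinearMap.sum_apply, LinearMap.proj_apply]
let U : Submodule (ZMod 2) (Wv n) := LinearMap.ker sm
have hU : ∀ x : (Wv n), x ∈ U ↔ ∑ i, x i = 0 := by
  intro x
  rw [← hsm]
  exact LinearMap.mem_ker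
let dot : (Wv n) →ₗ[ZMod 2] (Wv n) →ₗ[ZMod 2] ZMod 2 := LinearMap.mk₂ (ZMod 2) (fun x y => x ⬝ᵥ y)
  (fun x y z => add_dotProduct x y z) (fun c x y => smul_dotProduct c x y)
  (fun x y z => dotProduct_add x y z) (fun c x y => dotProduct_smul c x y)
have hdot : ∀ x y : (Wv n), dot x y = ∑ i, x i * y i := fun _ _ => rfl
let ω : U →ₗ[ZMod 2] U →ₗ[ZMod 2] ZMod 2 := dot.compl₁₂ U.subtype U.subtype
have hω : ∀ x y : U, ω x y = ∑ i, (x : (Wv n)) i * (y : (Wv n)) i := fun _ _ => rfl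
have halt : ∀ v, ω v v = 0 := by
  intro v
  rw [hω]
  simp only [hcc]
  exact (hU _).1 v.2
have h1U : (fun _ => 1 : (Wv n)) ∈ U := by
  rw [hU]
  simp only [Finset.sum_const, Finset.card_univ, Fintype.card_fin, nsmul_eq_mul, mul_one]
  push_cast
  have : (2 : ZMod 2) = 0 := by decide
  rw [this, zero_mul]
let one : U := ⟨fun _ => 1, h1U⟩
have hone : one ≠ 0 := by
  intro h
  have := congrFun (congrArg Subtype.val h) ⟨0, by omega⟩
  exact one_ne_zero this
let R : Submodule (ZMod 2) U := Submodule.span (ZMod 2) {one}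
have hpair : ∀ a b : Fin (2 * n), a ≠ b → ((Pi.single a 1 + Pi.single b 1 : (Wv n))) ∈ U := by
  intro a b hab
  rw [hU]
  simp only [Pi.add_apply, Finset.sum_add_distrib, Finset.sum_pi_single', Finset.mem_univ, if_true]
  decide
have hR : ∀ x, x ∈ R ↔ ∀ y, ω x y = 0 := by
  intro x
  constructor
  · intro hx y
    obtain ⟨c, rfl⟩ := Submodule.mem_span_singleton.1 hx
    rw [hω]
    have h1 : ∑ i, (y : (Wv n)) i = 0 := (hU _).1 y.2
    calc ∑ i, ((c • one : U) : (Wv n)) i * (y : (Wv n)) i = c * ∑ i, (y : (Wv n)) i := by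
          rw [Finset.mul_sum]
          apply Finset.sum_congr rfl
          intro i _
          change (c * 1) * _ = _
          rw [mul_one]
      _ = 0 := by rw [h1, mul_zero]
  · intro h
    have hcst : ∀ a b : Fin (2 * n), (x : (Wv n)) a = (x : (Wv n)) b := by
      intro a b
      by_cases hab : a = b
      · rw [hab]
      · have h1 := h ⟨_, hpair a b hab⟩
        rw [hω] at h1
        simp only [Pi.add_apply, mul_add, Finset.sum_add_distrib, mul_ite, mul_one, mul_zero,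
          Pi.single_apply, Finset.sum_ite_eq', Finset.mem_univ, if_true] at h1
        have h2 : ∀ c d : ZMod 2, c + d = 0 → c = d := by decide
        exact h2 _ _ h1
    rw [Submodule.mem_span_singleton]
    refine ⟨(x : (Wv n)) ⟨0, by omega⟩, ?_⟩
    apply Subtype.ext
    funext i
    change (x : (Wv n)) ⟨0, by omega⟩ * 1 = (x : (Wv n)) i
    rw [mul_one]
    exact hcst _ _
have hd : Module.finrank (ZMod 2) U = Module.finrank (ZMod 2) R + 2 * (n - 1) := by
  have h1 : Module.finrank (ZMod 2) R = 1 := finrank_span_singleton hone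
  have hsm0 : sm ≠ 0 := by
    intro h
    have h2 := congrArg (fun φ : (Wv n) →ₗ[ZMod 2] ZMod 2 => φ (Pi.single ⟨0, by omega⟩ 1)) h
    simp only [hsm, LinearMap.zero_apply] at h2
    simp at h2
  have h2 := Module.Dual.finrank_ker_add_one_of_ne_zero hsm0
  have h3 : Module.finrank (ZMod 2) (Wv n) = 2 * n := by simp [Wv]
  rw [h3] at h2
  rw [h1]
  change Module.finrank (ZMod 2) (LinearMap.ker sm) = _
  omega
let ρ₀ : Equiv.Perm (Fin (2 * n)) → (Wv n) →ₗ[ZMod 2] (Wv n) := fun g => LinearMap.funLeft (ZMod 2) (ZMod 2) (g⁻¹ : Equiv.Perm (Fin (2 * n)))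
have hρ₀ : ∀ g x i, ρ₀ g x i = x (g⁻¹ i) := fun _ _ _ => rfl
have hρU : ∀ g, ∀ x ∈ U, ρ₀ g x ∈ U := by
  intro g x hx
  rw [hU] at hx ⊢
  simp only [hρ₀]
  rw [Equiv.sum_comp (g⁻¹ : Equiv.Perm (Fin (2 * n))) x]
  exact hx
let ρ : Equiv.Perm (Fin (2 * n)) →* Module.End (ZMod 2) U :=
  { toFun := fun g => (ρ₀ g).restrict (hρU g)
    map_one' := by
      apply LinearMap.ext
      intro x
      apply Subtype.ext
      funext i
      rfl
    map_mul' := by
      intro a b
      apply LinearMap.ext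
      intro x
      apply Subtype.ext
      funext i
      rfl }
have hρ : ∀ g (x : U) i, ((ρ g x : U) : (Wv n)) i = (x : (Wv n)) (g⁻¹ i) := fun _ _ _ => rfl
have hpres : ∀ g x y, ω (ρ g x) (ρ g y) = ω x y := by
  intro g x y
  rw [hω, hω]
  simp only [hρ]
  exact Equiv.sum_comp (g⁻¹ : Equiv.Perm (Fin (2 * n))) (fun i => (x : (Wv n)) i * (y : (Wv n)) i)
obtain ⟨f, hf⟩ := Cfsg.Agent.H29.exists_sp_hom ω halt R hR (n - 1) hd ρ hpres
refine ⟨f, ?_⟩
rw [injective_iff_map_eq_one]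
intro g hg
by_contra hg1
obtain ⟨a, ha⟩ : ∃ a, g a ≠ a := by
  by_contra hcon
  push Not at hcon
  exact hg1 (Equiv.ext hcon)
have hex : ∀ s : Finset (Fin (2 * n)), s.card ≤ 4 → ∃ t, t ∉ s := by
  intro s hs
  by_contra hcon
  push Not at hcon
  have h1 : s = Finset.univ := Finset.eq_univ_iff_forall.2 hcon
  rw [h1, Finset.card_univ, Fintype.card_fin] at hs
  omega
obtain ⟨b, hb⟩ := hex {a, g a} ((Finset.card_le_two).trans (by norm_num))
simp only [Finset.mem_insert, Finset.mem_singleton, not_or] at hb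
obtain ⟨t, ht⟩ := hex {a, b, g a, g b} Finset.card_le_four
simp only [Finset.mem_insert, Finset.mem_singleton, not_or] at ht
let x : U := ⟨_, hpair a b (Ne.symm hb.1)⟩
have hx : ∀ i, (x : (Wv n)) i = (if i = a then 1 else 0) + (if i = b then 1 else 0) := by
  intro i
  simp only [x, Pi.add_apply, Pi.single_apply]
have h1 := hf g hg x
obtain ⟨c, hc⟩ := Submodule.mem_span_singleton.1 h1
have hc' : ∀ i, c = (x : (Wv n)) (g⁻¹ i) - (x : (Wv n)) i := by
  intro i
  have h2 := congrFun (congrArg Subtype.val hc) i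
  have h3 : c * 1 = (x : (Wv n)) (g⁻¹ i) - (x : (Wv n)) i := h2
  rwa [mul_one] at h3
have hg_inv : ∀ i j, g⁻¹ i = j ↔ i = g j := by
  intro i j
  rw [Equiv.Perm.inv_eq_iff_eq]
have hc0 : c = 0 := by
  rw [hc' t, hx, hx]
  have e1 : g⁻¹ t ≠ a := fun h => ht.2.2.1 ((hg_inv _ _).1 h)
  have e2 : g⁻¹ t ≠ b := fun h => ht.2.2.2 ((hg_inv _ _).1 h)
  simp only [if_neg e1, if_neg e2, if_neg ht.1, if_neg ht.2.1, add_zero, sub_zero]
have h2 := hc' (g a)
have hga : g⁻¹ (g a) = a := by simp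
rw [hc0, hga, hx, hx] at h2
simp only [ha, if_true, if_false, Ne.symm hb.1] at h2
rw [if_neg (Ne.symm hb.2)] at h2
simp at h2

end Cfsg.Agent.S0826
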