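import Cfsg.Statements.S0828
import Mathlib
import Cfsg.Agent.Lib.H03.TICount
import Cfsg.Agent.Lib.Lead.SpBasic

set_option autoImplicit false
open Cfsg

namespace Cfsg.Agent.S0828

variable {F : Type*} [Field F] [Fintype F]

lemma symp_sesq : H03.SesqF (Cfsg.sympForm 2 F) (id : F → F) where
  add_left := fun x y z => Lead.sympForm_add_left x y z
  smul_left := fun a x z => Lead.sympForm_smul_left a x z
  add_right := fun x y z => Lead.sympForm_add_right z x y
  smul_right := fun a x z => Lead.sympForm_smul_right a z x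
  symm0 := fun x y h => by
    have h1 : Lead.sympForm y x = - Lead.sympForm x y := Lead.sympForm_swap y x
    have h2 : Lead.sympForm x y = 0 := h
    show Lead.sympForm y x = 0
    rw [h1, h2, neg_zero]

lemma lines (v : Fin 2 ⊕ Fin 2 → F) (hv : v ≠ 0) :
    Nat.card {W : Submodule F (Fin 2 ⊕ Fin 2 → F) // Module.finrank F W = 2 ∧ v ∈ W ∧ ∀ x ∈ W, ∀ y ∈ W, Cfsg.sympForm 2 F x y = 0} =
      Fintype.card F + 1 := by
  classical
  have hself : ∀ x : Fin 2 ⊕ Fin 2 → F, Cfsg.sympForm 2 F x x = 0 := fun x => Lead.sympForm_self x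
  have h1 := H03.SesqF.lines_count (symp_sesq (F := F)) hv (hself v)
  -- the functional
  let φ : (Fin 2 ⊕ Fin 2 → F) →ₗ[F] F :=
    { toFun := fun u => Cfsg.sympForm 2 F v u
      map_add' := fun x y => Lead.sympForm_add_right v x y
      map_smul' := fun a x => Lead.sympForm_smul_right a v x }
  have hφ : φ ≠ 0 := by
    obtain ⟨z, hz⟩ := Lead.sympForm_nondeg hv
    intro h0
    apply hz
    exact congrArg (fun f => f z) h0
  have hsurj : LinearMap.range φ = ⊤ := LinearMap.range_eq_top.2 (LinearMap.surjective hφ)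
  have hrk := LinearMap.finrank_range_add_finrank_ker φ
  rw [hsurj, finrank_top, Module.finrank_self, Module.finrank_fintype_fun_eq_card] at hrk
  have hrk' : Module.finrank F (LinearMap.ker φ) = 3 := by
    simp at hrk
    omega
  have hvker : (F ∙ v) ≤ LinearMap.ker φ := by
    rw [Submodule.span_singleton_le_iff_mem]
    exact hself v
  have h2 : Nat.card {w // w ∉ (F ∙ v) ∧ Cfsg.sympForm 2 F w w = 0 ∧ Cfsg.sympForm 2 F v w = 0} =
      Nat.card {x // x ∈ LinearMap.ker φ ∧ x ∉ (F ∙ v)} := by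
    apply Nat.card_congr
    apply Equiv.subtypeEquivRight
    intro x
    constructor
    · rintro ⟨h3, _, h4⟩
      exact ⟨h4, h3⟩
    · rintro ⟨h3, h4⟩
      exact ⟨h4, hself x, h3⟩
  rw [h2, H03.card_diff _ _ hvker, H03.card_sub, H03.card_sub, hrk', finrank_span_singleton hv] at h1
  have hq2 : 2 ≤ Fintype.card F := Fintype.one_lt_card
  obtain ⟨r, hr⟩ : ∃ r, Fintype.card F = r + 2 := ⟨Fintype.card F - 2, by omega⟩
  rw [hr] at h1 ⊢
  have h3 : (r + 2) ^ 2 - (r + 2) = (r + 2) * (r + 1) := by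
    have : (r + 2) ^ 2 = (r + 2) * (r + 1) + (r + 2) := by ring
    omega
  have h4 : (r + 2) ^ 3 - (r + 2) ^ 1 = (r + 2 + 1) * ((r + 2) * (r + 1)) := by
    have : (r + 2) ^ 3 = (r + 2 + 1) * ((r + 2) * (r + 1)) + (r + 2) ^ 1 := by ring
    omega
  rw [h3, h4] at h1
  have hpos : 0 < (r + 2) * (r + 1) := by positivity
  exact (Nat.eq_of_mul_eq_mul_right hpos h1).symm

/-- The symplectic generalised quadrangle over a field with q elements: the number of 2-dimensional subspaces of F^4 on which the symplectic form vanishes is (q + 1)(q² + 1), and every non-zero vector lies in exactly q + 1 of them. -/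
theorem result {F : Type*} [Field F] [Fintype F] {q : ℕ} (hF : Fintype.card F = q) : Nat.card {W : Submodule F (Fin 2 ⊕ Fin 2 → F) // Module.finrank F W = 2 ∧ ∀ u ∈ W, ∀ v ∈ W, Cfsg.sympForm 2 F u v = 0} = (q + 1) * (q ^ 2 + 1) ∧ ∀ v : Fin 2 ⊕ Fin 2 → F, v ≠ 0 → Nat.card {W : Submodule F (Fin 2 ⊕ Fin 2 → F) // Module.finrank F W = 2 ∧ v ∈ W ∧ ∀ u ∈ W, ∀ w ∈ W, Cfsg.sympForm 2 F u w = 0} = q + 1 := by
  classical
  subst hF
  have hself : ∀ x : Fin 2 ⊕ Fin 2 → F, Cfsg.sympForm 2 F x x = 0 := fun x => Lead.sympForm_self x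
  refine ⟨?_, fun v hv => ?_⟩
  · have h1 := H03.ti_total (h := Cfsg.sympForm 2 F) (Fintype.card F + 1) (fun v hv _ => lines v hv)
    have h2 : Nat.card {v : Fin 2 ⊕ Fin 2 → F // v ≠ 0 ∧ Cfsg.sympForm 2 F v v = 0} =
        Nat.card {x // x ∈ (⊤ : Submodule F (Fin 2 ⊕ Fin 2 → F)) ∧ x ∉ (⊥ : Submodule F (Fin 2 ⊕ Fin 2 → F))} := by
      apply Nat.card_congr
      apply Equiv.subtypeEquivRight
      intro x
      simp [hself x]
    rw [h2, H03.card_diff _ _ bot_le, H03.card_sub ⊤, H03.card_sub ⊥, finrank_top, finrank_bot, Module.finrank_fintype_fun_eq_card] at h1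
    simp only [Fintype.card_sum, Fintype.card_fin, Nat.card_eq_fintype_card] at h1
    have hq2 : 2 ≤ Fintype.card F := Fintype.one_lt_card
    obtain ⟨r, hr⟩ : ∃ r, Fintype.card F = r + 2 := ⟨Fintype.card F - 2, by omega⟩
    rw [hr] at h1 ⊢
    have h3 : (r + 2) ^ 2 - 1 = (r + 1) * (r + 3) := by
      have : (r + 2) ^ 2 = (r + 1) * (r + 3) + 1 := by ring
      omega
    have h4 : (r + 2) ^ (2 + 2) - 1 = ((r + 2) ^ 2 + 1) * ((r + 1) * (r + 3)) := by
      have : (r + 2) ^ (2 + 2) = ((r + 2) ^ 2 + 1) * ((r + 1) * (r + 3)) + 1 := by ring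
      omega
    simp only [pow_zero] at h1
    rw [h3, h4] at h1
    have hpos : 0 < (r + 1) * (r + 3) := by positivity
    apply Nat.eq_of_mul_eq_mul_right hpos
    rw [Nat.card_eq_fintype_card, ← h1]
    ring
  · exact lines v hv

end Cfsg.Agent.S0828
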