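import Cfsg.Statements.S0830
import Mathlib
import Cfsg.Agent.Lib.H03.TIHerm

set_option autoImplicit false
open Cfsg

namespace Cfsg.Agent.S0830


/-- The unitary quadrangle of PSU_5(q): with |F| = q², the number of 2-dimensional subspaces of F^5 on which the Hermitian form vanishes is (q³ + 1)(q⁵ + 1). -/
theorem result {F : Type*} [Field F] [Fintype F] {q : ℕ} (hF : Fintype.card F = q ^ 2) : Nat.card {W : Submodule F (Fin 5 → F) // Module.finrank F W = 2 ∧ ∀ u ∈ W, ∀ v ∈ W, Cfsg.hermForm 5 F q u v = 0} = (q ^ 3 + 1) * (q ^ 5 + 1) := by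
  classical
  have hq2 := Lead.two_le_q hF
  have hz2 := Lead.herm_card_zero hF 3
  have hz4 := Lead.herm_card_zero hF 5
  change Lead.hermCnt F q 3 0 = _ at hz2
  change Lead.hermCnt F q 5 0 = _ at hz4
  simp only [show ¬ Even 3 from by decide, show ¬ Even 5 from by decide, if_false] at hz2 hz4
  have hp : 0 < q ^ 2 - 1 := by
    have : 2 ^ 2 ≤ q ^ 2 := Nat.pow_le_pow_left hq2 2
    omega
  have hp4 : 0 < q ^ 4 - 1 := by
    have : 2 ^ 4 ≤ q ^ 4 := Nat.pow_le_pow_left hq2 4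
    omega
  have hc : ∀ v : Fin (3 + 2) → F, v ≠ 0 → Cfsg.hermForm (3 + 2) F q v v = 0 →
      Nat.card {W : Submodule F (Fin (3 + 2) → F) // Module.finrank F W = 2 ∧ v ∈ W ∧ ∀ x ∈ W, ∀ y ∈ W, Cfsg.hermForm (3 + 2) F q x y = 0} = q ^ 3 + 1 := by
    intro v hv hvv
    have h1 := H03.herm_lines hF 3 (by norm_num) hv hvv
    rw [hz2] at h1
    simp only [Nat.add_sub_cancel, Nat.reduceSub, pow_one] at h1
    exact Nat.eq_of_mul_eq_mul_right hp h1
  have h2 := H03.herm_total hF 3 (q ^ 3 + 1) hc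
  rw [hz4] at h2
  simp only [Nat.add_sub_cancel, Nat.reduceSub] at h2
  have h3 : Nat.card {W : Submodule F (Fin 5 → F) // Module.finrank F W = 2 ∧ ∀ u ∈ W, ∀ v ∈ W, Cfsg.hermForm 5 F q u v = 0} * (q ^ 4 - 1) =
      (q ^ 3 + 1) * (q ^ 5 + 1) * (q ^ 4 - 1) := by
    rw [← h2]
    ring
  exact Nat.eq_of_mul_eq_mul_right hp4 h3

end Cfsg.Agent.S0830
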