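import Cfsg.Statements.S0831
import Mathlib
import Cfsg.Agent.Lib.H11.MTS8

set_option autoImplicit false
open Cfsg

namespace Cfsg.Agent.S0831


/-- The two families of maximal totally singular subspaces of the hyperbolic quadric: for the form Σ x_i y_i on F^(2m), m ≥ 1, and m-dimensional subspaces U, W, X on which it vanishes, the parities of m − dim(U ∩ W), m − dim(W ∩ X) and m − dim(U ∩ X) sum to an even number (so 'even codimension of the intersection' is an equivalence relation), and there exist two such subspaces meeting in codimension 1 (so there are exactly two classes). -/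
theorem result {F : Type*} [Field F] (m : ℕ) (hm : 1 ≤ m) : (∀ U W X : Submodule F (Fin m ⊕ Fin m → F), (Module.finrank F U = m ∧ ∀ w ∈ U, Cfsg.quadFormPlus m F w = 0) → (Module.finrank F W = m ∧ ∀ w ∈ W, Cfsg.quadFormPlus m F w = 0) → (Module.finrank F X = m ∧ ∀ w ∈ X, Cfsg.quadFormPlus m F w = 0) → Even ((m - Module.finrank F ↥(U ⊓ W)) + (m - Module.finrank F ↥(W ⊓ X)) + (m - Module.finrank F ↥(U ⊓ X)))) ∧ ∃ U W : Submodule F (Fin m ⊕ Fin m → F), (Module.finrank F U = m ∧ ∀ w ∈ U, Cfsg.quadFormPlus m F w = 0) ∧ (Module.finrank F W = m ∧ ∀ w ∈ W, Cfsg.quadFormPlus m F w = 0) ∧ Module.finrank F ↥(U ⊓ W) + 1 = m := by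
  classical
  open H11 in
  have hd := H11.card_sum m
  have hn := H11.plus_nondeg' (F := F) m
  refine ⟨?_, ?_⟩
  · intro U W X hU hW hX
    have hU' : H11.IsMTS (H11.plusForm m F) m U := ⟨hU.1, hU.2⟩
    have hW' : H11.IsMTS (H11.plusForm m F) m W := ⟨hW.1, hW.2⟩
    have hX' : H11.IsMTS (H11.plusForm m F) m X := ⟨hX.1, hX.2⟩
    have h := H11.triangle hd hn hU' hW' hX'
    have h1 := H11.IsMTS.inf_le hU' (W := W)
    have h2 := H11.IsMTS.inf_le hW' (W := X)
    have h3 := H11.IsMTS.inf_le hU' (W := X)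
    rw [Nat.even_iff]
    omega
  · let i₀ : Fin m := ⟨0, hm⟩
    have hne : H11.plusForm m F (H11.hypVec i₀ 1) ≠ 0 := by
      rw [H11.Q_hypVec]; simp
    have hU := H11.U0_mts (F := F) m
    have h := H11.finrank_inf_refl hd hn hne hU hU
    have hW := hU.refl hne
    refine ⟨H11.U0 m F, (H11.U0 m F).map (H11.Rf (H11.plusForm m F) (H11.hypVec i₀ 1)), ⟨hU.card, hU.sing⟩, ⟨hW.card, hW.sing⟩, ?_⟩
    have h4 := H11.IsMTS.inf_le hU (W := (H11.U0 m F).map (H11.Rf (H11.plusForm m F) (H11.hypVec i₀ 1)))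
    rw [inf_idem, hU.card] at h
    omega

end Cfsg.Agent.S0831
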