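import Cfsg.Statements.S0832
import Mathlib
import Cfsg.Agent.Lib.H11.MTS8

set_option autoImplicit false
open Cfsg

namespace Cfsg.Agent.S0832

section Aux

variable {ι : Type} [Fintype ι] [DecidableEq ι] {F : Type*} [Field F]
  {Q : QuadraticForm F (ι → F)} {m : ℕ}

lemma q_add (x y : ι → F) : Q (x + y) = Q x + Q y + QuadraticMap.polarBilin Q x y := by
  rw [QuadraticMap.polarBilin_apply_apply, QuadraticMap.polar]
  ring

lemma q_smul (c : F) (x : ι → F) : Q (c • x) = c * c * Q x := by
  rw [QuadraticMap.map_smul]; simp [smul_eq_mul]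

lemma pb_of_sing {U : Submodule F (ι → F)} (hU : ∀ u ∈ U, Q u = 0) {x y : ι → F} (hx : x ∈ U) (hy : y ∈ U) :
    QuadraticMap.polarBilin Q x y = 0 := by
  have h := q_add (Q := Q) x y
  rw [hU _ (U.add_mem hx hy), hU _ hx, hU _ hy] at h
  simpa using h.symm

lemma pb_comm (x y : ι → F) : QuadraticMap.polarBilin Q x y = QuadraticMap.polarBilin Q y x := by
  rw [QuadraticMap.polarBilin_apply_apply, QuadraticMap.polarBilin_apply_apply, QuadraticMap.polar_comm]

lemma pb_self (x : ι → F) : QuadraticMap.polarBilin Q x x = 2 * Q x := by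
  have h := q_add (Q := Q) x x
  have h2 : x + x = (2 : F) • x := by rw [two_smul]
  rw [h2, q_smul] at h
  linear_combination -h

/-- sum decomposition -/
lemma sing_sup {U : Submodule F (ι → F)} (hU : ∀ u ∈ U, Q u = 0) {u : ι → F} (hu : Q u = 0)
    (hp : ∀ x ∈ U, QuadraticMap.polarBilin Q x u = 0) : ∀ x ∈ U ⊔ Submodule.span F {u}, Q x = 0 := by
  intro x hx
  obtain ⟨w, hw, y, hy, rfl⟩ := Submodule.mem_sup.1 hx
  obtain ⟨c, rfl⟩ := Submodule.mem_span_singleton.1 hy
  rw [q_add, q_smul, hU w hw, hu, map_smul, hp w hw]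
  simp

variable (hdim : Fintype.card ι = 2 * m) (hQ : (QuadraticMap.polarBilin Q).Nondegenerate)
include hdim hQ

lemma finrank_sup_span {U : Submodule F (ι → F)} {u : ι → F} (h : u ∉ U) :
    Module.finrank F (U ⊔ Submodule.span F {u} : Submodule F (ι → F)) = Module.finrank F U + 1 := by
  have hu : u ≠ 0 := fun h0 => h (h0 ▸ U.zero_mem)
  have h1 := Submodule.finrank_sup_add_finrank_inf_eq U (Submodule.span F {u})
  have h2 : U ⊓ Submodule.span F {u} = ⊥ := by
    rw [eq_bot_iff]
    rintro x ⟨hx1, hx2⟩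
    obtain ⟨c, rfl⟩ := Submodule.mem_span_singleton.1 hx2
    by_cases hc : c = 0
    · simp [hc]
    · exact absurd ((U.smul_mem_iff hc).1 hx1) h
  rw [h2, finrank_bot, add_zero, finrank_span_singleton hu] at h1
  exact h1

lemma step_mts {U W : Submodule F (ι → F)} (hU : ∀ u ∈ U, Q u = 0) (hW : H11.IsMTS Q m W) (h : ¬ U ≤ W) :
    ∃ W', H11.IsMTS Q m W' ∧ Module.finrank F (W ⊓ U : Submodule F (ι → F)) < Module.finrank F (W' ⊓ U : Submodule F (ι → F)) := by
  obtain ⟨u, huU, huW⟩ := SetLike.not_le_iff_exists.1 h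
  have hu0 : u ≠ 0 := fun h0 => huW (h0 ▸ W.zero_mem)
  set W₁ : Submodule F (ι → F) := W ⊓ (H11.Pb Q).orthogonal (Submodule.span F {u}) with hW₁
  have hmem : ∀ x, x ∈ W₁ ↔ x ∈ W ∧ QuadraticMap.polarBilin Q u x = 0 := by
    intro x
    constructor
    · rintro ⟨h1, h2⟩
      exact ⟨h1, h2 u (Submodule.mem_span_singleton_self u)⟩
    · rintro ⟨h1, h2⟩
      refine ⟨h1, ?_⟩
      intro y hy
      obtain ⟨c, rfl⟩ := Submodule.mem_span_singleton.1 hy
      show QuadraticMap.polarBilin Q (c • u) x = 0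
      rw [map_smul, LinearMap.smul_apply, h2, smul_zero]
  have hfr := H11.finrank_inf_orth hdim hQ hW (Submodule.span F {u})
  rw [finrank_span_singleton hu0] at hfr
  have h0 : W ⊓ Submodule.span F {u} = ⊥ := by
    rw [eq_bot_iff]
    rintro x ⟨hx1, hx2⟩
    obtain ⟨c, rfl⟩ := Submodule.mem_span_singleton.1 hx2
    by_cases hc : c = 0
    · simp [hc]
    · exact absurd ((W.smul_mem_iff hc).1 hx1) huW
  rw [h0, finrank_bot, add_zero] at hfr
  have huW₁ : u ∉ W₁ := fun h1 => huW h1.1
  have hmts : H11.IsMTS Q m (W₁ ⊔ Submodule.span F {u}) := by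
    refine ⟨?_, ?_⟩
    · rw [finrank_sup_span hdim hQ huW₁]
      exact hfr
    · apply sing_sup
      · intro x hx
        exact hW.sing x hx.1
      · exact hU u huU
      · intro x hx
        rw [pb_comm]
        exact ((hmem x).1 hx).2
  refine ⟨_, hmts, ?_⟩
  apply Submodule.finrank_lt_finrank_of_lt
  refine lt_of_le_of_ne ?_ ?_
  · rintro x ⟨hx1, hx2⟩
    refine ⟨Submodule.mem_sup_left ((hmem x).2 ⟨hx1, pb_of_sing hU huU hx2⟩), hx2⟩
  · intro he
    have : u ∈ W ⊓ U := by
      rw [he]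
      exact ⟨Submodule.mem_sup_right (Submodule.mem_span_singleton_self u), huU⟩
    exact huW this.1

lemma exists_mts_ge {U : Submodule F (ι → F)} (hU : ∀ u ∈ U, Q u = 0) (n : ℕ) : ∀ W, H11.IsMTS Q m W →
    n + Module.finrank F (W ⊓ U : Submodule F (ι → F)) = Module.finrank F U → ∃ W', H11.IsMTS Q m W' ∧ U ≤ W' := by
  induction n using Nat.strong_induction_on with
  | _ n ih =>
    intro W hW hn
    by_cases hle : U ≤ W
    · exact ⟨W, hW, hle⟩
    · obtain ⟨W', hW', hlt⟩ := step_mts hdim hQ hU hW hle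
      have h1 : Module.finrank F (W' ⊓ U : Submodule F (ι → F)) ≤ Module.finrank F U :=
        Submodule.finrank_mono inf_le_right
      exact ih (Module.finrank F U - Module.finrank F (W' ⊓ U : Submodule F (ι → F))) (by omega) W' hW' (by omega)

/-- main: two `m`-spaces -/
lemma two_mts {U W : Submodule F (ι → F)} (hUf : Module.finrank F U + 1 = m) (hU : ∀ u ∈ U, Q u = 0)
    (hW : H11.IsMTS Q m W) (hUW : U ≤ W) :
    ∃ W', H11.IsMTS Q m W' ∧ U ≤ W' ∧ W' ≠ W ∧ ∀ X, H11.IsMTS Q m X → U ≤ X → X = W ∨ X = W' := by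
  classical
  -- the vector `e`
  obtain ⟨e, heW, heU⟩ : ∃ e ∈ W, e ∉ U := by
    by_contra hc
    push Not at hc
    have h1 : Module.finrank F W ≤ Module.finrank F U := Submodule.finrank_mono hc
    have := hW.card
    omega
  have hWe : W = U ⊔ Submodule.span F {e} := by
    symm
    apply Submodule.eq_of_le_of_finrank_eq
    · exact sup_le hUW ((Submodule.span_singleton_le_iff_mem _ _).2 heW)
    · rw [finrank_sup_span hdim hQ heU, hW.card, hUf]
  -- a vector of `U^⊥` outside `W`
  have hforth : Module.finrank F ((H11.Pb Q).orthogonal U) + Module.finrank F U = 2 * m :=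
    H11.finrank_orth hdim hQ U
  obtain ⟨f₀, hf₀o, hf₀W⟩ : ∃ f₀ ∈ (H11.Pb Q).orthogonal U, f₀ ∉ W := by
    by_contra hc
    push Not at hc
    have h1 : Module.finrank F ((H11.Pb Q).orthogonal U) ≤ Module.finrank F W := Submodule.finrank_mono hc
    have := hW.card
    omega
  have hf₀U : ∀ u ∈ U, QuadraticMap.polarBilin Q u f₀ = 0 := fun u hu => hf₀o u hu
  have horth := H11.IsMTS.orth_eq hdim hQ hW
  have hef₀ : QuadraticMap.polarBilin Q e f₀ ≠ 0 := by
    intro h0
    apply hf₀W
    rw [← horth]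
    intro y hy
    rw [hWe] at hy
    obtain ⟨u, hu, z, hz, rfl⟩ := Submodule.mem_sup.1 hy
    obtain ⟨c, rfl⟩ := Submodule.mem_span_singleton.1 hz
    show QuadraticMap.polarBilin Q (u + c • e) f₀ = 0
    rw [map_add, map_smul, LinearMap.add_apply, LinearMap.smul_apply, hf₀U u hu, h0]
    simp
  -- normalize
  have hQe : Q e = 0 := hW.sing e heW
  have heperp : ∀ u ∈ U, QuadraticMap.polarBilin Q u e = 0 := fun u hu => pb_of_sing hW.sing (hUW hu) heW
  obtain ⟨f₁, hef₁, hf₁U⟩ : ∃ f₁, QuadraticMap.polarBilin Q e f₁ = 1 ∧ ∀ u ∈ U, QuadraticMap.polarBilin Q u f₁ = 0 := by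
    refine ⟨(QuadraticMap.polarBilin Q e f₀)⁻¹ • f₀, ?_, ?_⟩
    · rw [map_smul, smul_eq_mul, inv_mul_cancel₀ hef₀]
    · intro u hu
      rw [map_smul, hf₀U u hu, smul_zero]
  obtain ⟨f, hef, hQf, hfU⟩ : ∃ f, QuadraticMap.polarBilin Q e f = 1 ∧ Q f = 0 ∧ ∀ u ∈ U, QuadraticMap.polarBilin Q u f = 0 := by
    refine ⟨f₁ + (-Q f₁) • e, ?_, ?_, ?_⟩
    · rw [map_add, map_smul, hef₁, pb_self, hQe]
      simp
    · rw [q_add, q_smul, hQe, map_smul, pb_comm f₁ e, hef₁]
      simp
    · intro u hu
      rw [map_add, map_smul, hf₁U u hu, heperp u hu]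
      simp
  have hfnW : f ∉ W := by
    intro h1
    have := pb_of_sing hW.sing heW h1
    rw [hef] at this
    exact one_ne_zero this
  have hfnU : f ∉ U := fun h1 => hfnW (hUW h1)
  refine ⟨U ⊔ Submodule.span F {f}, ⟨?_, ?_⟩, le_sup_left, ?_, ?_⟩
  · rw [finrank_sup_span hdim hQ hfnU, hUf]
  · exact sing_sup hU hQf hfU
  · intro h1
    apply hfnW
    rw [← h1]
    exact Submodule.mem_sup_right (Submodule.mem_span_singleton_self f)
  · intro X hX hUX
    obtain ⟨x, hxX, hxU⟩ : ∃ x ∈ X, x ∉ U := by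
      by_contra hc
      push Not at hc
      have h1 : Module.finrank F X ≤ Module.finrank F U := Submodule.finrank_mono hc
      have := hX.card
      omega
    have hXx : X = U ⊔ Submodule.span F {x} := by
      symm
      apply Submodule.eq_of_le_of_finrank_eq
      · exact sup_le hUX ((Submodule.span_singleton_le_iff_mem _ _).2 hxX)
      · rw [finrank_sup_span hdim hQ hxU, hX.card, hUf]
    have hxperp : ∀ u ∈ U, QuadraticMap.polarBilin Q u x = 0 := fun u hu => pb_of_sing hX.sing (hUX hu) hxX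
    set α := QuadraticMap.polarBilin Q f x with hα
    set β := QuadraticMap.polarBilin Q e x with hβ
    set x' : ι → F := x - α • e - β • f with hx'
    have hfe : QuadraticMap.polarBilin Q f e = 1 := by rw [pb_comm, hef]
    have hx'e : QuadraticMap.polarBilin Q e x' = 0 := by
      rw [hx', map_sub, map_sub, map_smul, map_smul, hef, pb_self, hQe, ← hβ]
      simp
    have hx'f : QuadraticMap.polarBilin Q f x' = 0 := by
      rw [hx', map_sub, map_sub, map_smul, map_smul, hfe, pb_self, hQf, ← hα]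
      simp
    have hx'U : ∀ u ∈ U, QuadraticMap.polarBilin Q u x' = 0 := by
      intro u hu
      rw [hx', map_sub, map_sub, map_smul, map_smul, hxperp u hu, heperp u hu, hfU u hu]
      simp
    have hx'W : x' ∈ W := by
      rw [← horth]
      intro y hy
      rw [hWe] at hy
      obtain ⟨u, hu, z, hz, rfl⟩ := Submodule.mem_sup.1 hy
      obtain ⟨c, rfl⟩ := Submodule.mem_span_singleton.1 hz
      show QuadraticMap.polarBilin Q (u + c • e) x' = 0
      rw [map_add, map_smul, LinearMap.add_apply, LinearMap.smul_apply, hx'U u hu, hx'e]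
      simp
    have hx'Ux : x' ∈ U := by
      rw [hWe] at hx'W
      obtain ⟨u, hu, z, hz, hz2⟩ := Submodule.mem_sup.1 hx'W
      obtain ⟨c, rfl⟩ := Submodule.mem_span_singleton.1 hz
      have hc : c = 0 := by
        have h1 : QuadraticMap.polarBilin Q f (u + c • e) = 0 := by rw [hz2, hx'f]
        rw [map_add, map_smul, pb_comm f u, hfU u hu, hfe] at h1
        simpa using h1
      rw [← hz2, hc]
      simpa using hu
    -- the value of `Q x`
    have hx_eq : x = x' + (α • e + β • f) := by rw [hx']; abel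
    have hQx : Q x = 0 := hX.sing x hxX
    have hab : α * β = 0 := by
      have h6 : QuadraticMap.polarBilin Q (α • e) (β • f) = α * β := by
        rw [map_smul, map_smul, LinearMap.smul_apply, hef]
        simp [mul_comm]
      have h7 : QuadraticMap.polarBilin Q x' (α • e + β • f) = 0 := by
        rw [map_add, map_smul, map_smul, heperp x' hx'Ux, hfU x' hx'Ux]
        simp
      rw [hx_eq, q_add, hU _ hx'Ux, q_add, q_smul, q_smul, hQe, hQf, h6, h7] at hQx
      simpa using hQx
    rcases mul_eq_zero.1 hab with h0 | h0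
    · right
      -- `x ∈ U ⊔ ⟨f⟩`
      symm
      apply Submodule.eq_of_le_of_finrank_eq
      · refine sup_le hUX ?_
        rw [Submodule.span_singleton_le_iff_mem]
        have hβ0 : β ≠ 0 := by
          intro hb
          apply hxU
          rw [hx_eq, h0, hb]
          simpa using hx'Ux
        have h5 : f = β⁻¹ • (x - x') := by
          rw [hx_eq, h0]
          simp only [zero_smul, zero_add, add_sub_cancel_left, smul_smul, inv_mul_cancel₀ hβ0, one_smul]
        rw [h5]
        exact X.smul_mem _ (X.sub_mem hxX (hUX hx'Ux))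
      · rw [finrank_sup_span hdim hQ hfnU, hX.card, hUf]
    · left
      symm
      apply Submodule.eq_of_le_of_finrank_eq
      · rw [hWe]
        refine sup_le hUX ?_
        rw [Submodule.span_singleton_le_iff_mem]
        have hα0 : α ≠ 0 := by
          intro hb
          apply hxU
          rw [hx_eq, h0, hb]
          simpa using hx'Ux
        have h5 : e = α⁻¹ • (x - x') := by
          rw [hx_eq, h0]
          simp only [zero_smul, add_zero, add_sub_cancel_left, smul_smul, inv_mul_cancel₀ hα0, one_smul]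
        rw [h5]
        exact X.smul_mem _ (X.sub_mem hxX (hUX hx'Ux))
      · rw [hW.card, hX.card]

end Aux

/-- For the form Σ x_i y_i on F^(2m) over a finite field, m ≥ 1: an (m−1)-dimensional subspace on which the form vanishes is contained in exactly two m-dimensional subspaces on which it vanishes. -/
theorem result {F : Type*} [Field F] [Finite F] (m : ℕ) (hm : 1 ≤ m) (U : Submodule F (Fin m ⊕ Fin m → F)) (hU : Module.finrank F U + 1 = m ∧ ∀ u ∈ U, Cfsg.quadFormPlus m F u = 0) : Nat.card {W : Submodule F (Fin m ⊕ Fin m → F) // Module.finrank F W = m ∧ (∀ w ∈ W, Cfsg.quadFormPlus m F w = 0) ∧ U ≤ W} = 2 := by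
  classical
  have hd := H11.card_sum m
  have hn := H11.plus_nondeg' (F := F) m
  have hU' : ∀ u ∈ U, H11.plusForm m F u = 0 := hU.2
  have hU0 := H11.U0_mts (F := F) m
  have hle : Module.finrank F (H11.U0 m F ⊓ U : Submodule F (Fin m ⊕ Fin m → F)) ≤ Module.finrank F U :=
    Submodule.finrank_mono inf_le_right
  obtain ⟨W, hW, hUW⟩ := exists_mts_ge hd hn hU' (Module.finrank F U - Module.finrank F (H11.U0 m F ⊓ U : Submodule F (Fin m ⊕ Fin m → F))) _ hU0 (by omega)
  obtain ⟨W', hW', hUW', hne, hall⟩ := two_mts hd hn hU.1 hU' hW hUW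
  rw [Nat.card_eq_two_iff]
  refine ⟨⟨W, hW.card, hW.sing, hUW⟩, ⟨W', hW'.card, hW'.sing, hUW'⟩, ?_, ?_⟩
  · intro h1
    exact hne (congrArg Subtype.val h1).symm
  · ext ⟨X, hX1, hX2, hX3⟩
    simp only [Set.mem_insert_iff, Set.mem_singleton_iff, Set.mem_univ, iff_true, Subtype.mk.injEq]
    exact hall X ⟨hX1, hX2⟩ hX3

end Cfsg.Agent.S0832
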