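import Cfsg.Statements.S0833
-- import your own Cfsg.Agent.* helpers here

set_option autoImplicit false
open Cfsg
open scoped TensorProduct

namespace Cfsg.Agent.S0833

open TensorProduct in
theorem exists_iso_sub {F U : Type*} [Field F] [AddCommGroup U] [Module F U] [FiniteDimensional F U]
    (B : LinearMap.BilinForm F U) (h : B.Nondegenerate) (hA : B.IsAlt) (k : ℕ) (hU : Module.finrank F U = 2 * k)
    (j : ℕ) (hj : j ≤ k) : ∃ L : Submodule F U, Module.finrank F L = j ∧ ∀ x ∈ L, ∀ y ∈ L, B x y = 0 := by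
  induction j with
  | zero => exact ⟨⊥, by simp, by simp⟩
  | succ j ih =>
    obtain ⟨L, hL, hiso⟩ := ih (by omega)
    have horth := LinearMap.BilinForm.finrank_orthogonal h L
    have hmem : ∀ v, v ∈ B.orthogonal L ↔ ∀ n ∈ L, B n v = 0 := fun v => Iff.rfl
    obtain ⟨v, hv, hvL⟩ : ∃ v ∈ B.orthogonal L, v ∉ L := by
      by_contra hcon
      push Not at hcon
      have h1 := Submodule.finrank_mono (show B.orthogonal L ≤ L from hcon)
      omega
    have hv0 : v ≠ 0 := by
      rintro rfl
      exact hvL L.zero_mem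
    refine ⟨L ⊔ Submodule.span F {v}, ?_, ?_⟩
    · have h1 := Submodule.finrank_sup_add_finrank_inf_eq L (Submodule.span F {v})
      have h2 : L ⊓ Submodule.span F {v} = ⊥ := by
        rw [Submodule.eq_bot_iff]
        rintro x ⟨hx1, hx2⟩
        obtain ⟨c, rfl⟩ := Submodule.mem_span_singleton.1 hx2
        by_cases hc : c = 0
        · simp [hc]
        · exfalso
          apply hvL
          have := L.smul_mem c⁻¹ hx1
          rwa [smul_smul, inv_mul_cancel₀ hc, one_smul] at this
      rw [h2, finrank_bot, add_zero, hL, finrank_span_singleton hv0] at h1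
      exact h1
    · intro x hx y hy
      obtain ⟨a, ha, s, hs, rfl⟩ := Submodule.mem_sup.1 hx
      obtain ⟨a', ha', s', hs', rfl⟩ := Submodule.mem_sup.1 hy
      obtain ⟨c, rfl⟩ := Submodule.mem_span_singleton.1 hs
      obtain ⟨c', rfl⟩ := Submodule.mem_span_singleton.1 hs'
      have e1 : B a a' = 0 := hiso a ha a' ha'
      have e2 : B a v = 0 := (hmem v).1 hv a ha
      have e3 : B a' v = 0 := (hmem v).1 hv a' ha'
      have e4 : B v a' = 0 := by
        have := hA.neg_eq v a'
        rw [e3, neg_eq_zero] at this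
        exact this.symm ▸ rfl
      have e5 : B v v = 0 := hA v
      simp only [map_add, map_smul, LinearMap.add_apply, LinearMap.smul_apply, e1, e2, e4, e5, smul_eq_mul, mul_zero,
        add_zero]


/-- If B₁, B₂ are non-degenerate alternating forms on U (dim 2k) and W (dim 2l), then B₁ ⊗ B₂ on U ⊗ W is symmetric, non-degenerate, and vanishes identically on some subspace of dimension 2kl (half of dim U ⊗ W). -/
theorem result {F U W : Type*} [Field F] [Fintype F] [AddCommGroup U] [Module F U] [FiniteDimensional F U] [AddCommGroup W] [Module F W] [FiniteDimensional F W] (B₁ : LinearMap.BilinForm F U) (B₂ : LinearMap.BilinForm F W) (h₁ : B₁.Nondegenerate) (h₂ : B₂.Nondegenerate) (hA₁ : B₁.IsAlt) (hA₂ : B₂.IsAlt) (k l : ℕ) (hU : Module.finrank F U = 2 * k) (hW : Module.finrank F W = 2 * l) : (B₁.tmul B₂).IsSymm ∧ (B₁.tmul B₂).Nondegenerate ∧ (∃ X : Submodule F (TensorProduct F U W), Module.finrank F X = 2 * k * l ∧ ∀ x ∈ X, ∀ y ∈ X, (B₁.tmul B₂) x y = 0) := by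
  classical
have hneg₁ : ∀ x y, B₁ x y = - B₁ y x := fun x y => by rw [hA₁.neg_eq y x]
have hneg₂ : ∀ x y, B₂ x y = - B₂ y x := fun x y => by rw [hA₂.neg_eq y x]
have hpure : ∀ u w u' w', (B₁.tmul B₂) (u ⊗ₜ[F] w) (u' ⊗ₜ[F] w') = B₁ u u' * B₂ w w' := by
  intro u w u' w'
  rw [LinearMap.BilinForm.tensorDistrib_tmul, smul_eq_mul, mul_comm]
have key : ∀ x y, (B₁.tmul B₂) x y = (B₁.tmul B₂) y x := by
  intro x y
  induction x using TensorProduct.induction_on with
  | zero => simp
  | add a b ha hb => simp only [map_add, LinearMap.add_apply, ha, hb]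
  | tmul u w =>
    induction y using TensorProduct.induction_on with
    | zero => simp
    | add a b ha hb => simp only [map_add, LinearMap.add_apply, ha, hb]
    | tmul u' w' =>
      rw [hpure, hpure, hneg₁ u u', hneg₂ w w']
      ring
refine ⟨⟨key⟩, ?_, ?_⟩
· -- nondegeneracy
  let b₁ := Module.finBasis F U
  let b₂ := Module.finBasis F W
  let d₁ := B₁.dualBasis h₁ b₁
  let d₂ := B₂.dualBasis h₂ b₂
  let b := b₁.tensorProduct b₂
  have hfun : ∀ i j, (B₁.tmul B₂) (d₁ i ⊗ₜ[F] d₂ j) = b.coord (i, j) := by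
    intro i j
    apply b.ext
    rintro ⟨k', l'⟩
    rw [Module.Basis.coord_apply, Module.Basis.repr_self, Module.Basis.tensorProduct_apply, hpure,
      LinearMap.BilinForm.apply_dualBasis_left, LinearMap.BilinForm.apply_dualBasis_left, Finsupp.single_apply]
    by_cases h1 : k' = i <;> by_cases h2 : l' = j <;> simp [h1, h2]
  have hright : LinearMap.SeparatingRight (B₁.tmul B₂) := by
    intro y hy
    apply b.repr.injective
    ext ⟨i, j⟩
    have h3 := hy (d₁ i ⊗ₜ[F] d₂ j)
    rw [hfun, Module.Basis.coord_apply] at h3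
    rw [h3]
    simp
  refine ⟨?_, hright⟩
  intro x hx
  apply hright
  intro y
  rw [key]
  exact hx y
· obtain ⟨L, hL, hiso⟩ := exists_iso_sub B₁ h₁ hA₁ k hU k le_rfl
  let φ : (L ⊗[F] W) →ₗ[F] (U ⊗[F] W) := LinearMap.rTensor W L.subtype
  have hinj : Function.Injective φ := Module.Flat.rTensor_preserves_injective_linearMap _ L.injective_subtype
  refine ⟨LinearMap.range φ, ?_, ?_⟩
  · rw [LinearMap.finrank_range_of_inj hinj, Module.finrank_tensorProduct, hL, hW]
    ring
  · rintro _ ⟨s, rfl⟩ _ ⟨t, rfl⟩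
    induction s using TensorProduct.induction_on with
    | zero => simp
    | add a b ha hb => simp only [map_add, LinearMap.add_apply, ha, hb, add_zero]
    | tmul u w =>
      induction t using TensorProduct.induction_on with
      | zero => simp
      | add a b ha hb => simp only [map_add, ha, hb, add_zero]
      | tmul u' w' =>
        change (B₁.tmul B₂) ((u : U) ⊗ₜ[F] w) ((u' : U) ⊗ₜ[F] w') = 0
        rw [hpure, hiso _ u.2 _ u'.2, zero_mul]

end Cfsg.Agent.S0833
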