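import Cfsg.Statements.S0834
import Mathlib

set_option autoImplicit false
open Cfsg

namespace Cfsg.Agent.S0834

open TensorProduct

variable {F U W : Type*} [Field F] [AddCommGroup U] [Module F U] [AddCommGroup W] [Module F W]

lemma diag_ne {V ι : Type*} [AddCommGroup V] [Module F V] (B : LinearMap.BilinForm F V) (h : B.Nondegenerate)
    [Fintype ι] (e : Module.Basis ι F V) (ho : ∀ i j, i ≠ j → B (e i) (e j) = 0) (i : ι) : B (e i) (e i) ≠ 0 := by
  classical
  intro h0
  apply e.ne_zero i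
  apply h.1
  intro y
  rw [← e.sum_repr y, map_sum]
  apply Finset.sum_eq_zero
  intro j _
  rw [map_smul]
  by_cases hij : i = j
  · subst hij
    rw [h0, smul_zero]
  · rw [ho i j hij, smul_zero]

lemma ti_span {M : Type*} [AddCommGroup M] [Module F M] (T : LinearMap.BilinForm F M) (S : Set M)
    (h : ∀ x ∈ S, ∀ y ∈ S, T x y = 0) : ∀ x ∈ Submodule.span F S, ∀ y ∈ Submodule.span F S, T x y = 0 := by
  intro x hx y hy
  induction hx using Submodule.span_induction with
  | zero => simp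
  | add a b _ _ ha hb => rw [map_add, LinearMap.add_apply, ha, hb, add_zero]
  | smul c a _ ha => rw [map_smul, LinearMap.smul_apply, ha, smul_zero]
  | mem a ha =>
    induction hy using Submodule.span_induction with
    | zero => simp
    | add c d _ _ hc hd => rw [map_add, hc, hd, add_zero]
    | smul c d _ hd => rw [map_smul, hd, smul_zero]
    | mem b hb => exact h a ha b hb

/-- A block -/
noncomputable def vec {k l : ℕ} (e : Module.Basis (Fin 2 × Fin k) F U) (f : Module.Basis (Fin 2 × Fin l) F W)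
    (i : Fin k) (j : Fin l) (p : Fin 2 → Fin 2 → F) : TensorProduct F U W :=
  p 0 0 • (e (0, i) ⊗ₜ[F] f (0, j)) + p 0 1 • (e (0, i) ⊗ₜ[F] f (1, j)) +
    p 1 0 • (e (1, i) ⊗ₜ[F] f (0, j)) + p 1 1 • (e (1, i) ⊗ₜ[F] f (1, j))

lemma coord_vec {k l : ℕ} (e : Module.Basis (Fin 2 × Fin k) F U) (f : Module.Basis (Fin 2 × Fin l) F W)
    (i i' : Fin k) (j j' : Fin l) (p : Fin 2 → Fin 2 → F) (s t : Fin 2) :
    (e.tensorProduct f).coord ((s, i'), (t, j')) (vec e f i j p) = if i' = i ∧ j' = j then p s t else 0 := by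
  classical
  have h : ∀ (s₁ t₁ : Fin 2), (e.tensorProduct f).coord ((s, i'), (t, j')) (e (s₁, i) ⊗ₜ[F] f (t₁, j)) =
      if s = s₁ ∧ t = t₁ ∧ i' = i ∧ j' = j then 1 else 0 := by
    intro s₁ t₁
    rw [← Module.Basis.tensorProduct_apply, Module.Basis.coord_apply, Module.Basis.repr_self, Finsupp.single_apply]
    simp only [Prod.mk.injEq]
    refine if_congr ?_ rfl rfl
    constructor
    · rintro ⟨⟨a, b⟩, c, d⟩
      exact ⟨a.symm, c.symm, b.symm, d.symm⟩
    · rintro ⟨a, b, c, d⟩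
      exact ⟨⟨a.symm, c.symm⟩, b.symm, d.symm⟩
  unfold vec
  simp only [map_add, map_smul, h, smul_eq_mul]
  by_cases h3 : i' = i <;> by_cases h4 : j' = j <;> fin_cases s <;> fin_cases t <;> simp [h3, h4]

lemma tmul_pure (B₁ : LinearMap.BilinForm F U) (B₂ : LinearMap.BilinForm F W) (u u' : U) (w w' : W) :
    (B₁.tmul B₂) (u ⊗ₜ[F] w) (u' ⊗ₜ[F] w') = B₁ u u' * B₂ w w' := by
  rw [LinearMap.BilinForm.tensorDistrib_tmul, smul_eq_mul, mul_comm]

section
variable {k l : ℕ} {e : Module.Basis (Fin 2 × Fin k) F U} {f : Module.Basis (Fin 2 × Fin l) F W}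
  {B₁ : LinearMap.BilinForm F U} {B₂ : LinearMap.BilinForm F W}

lemma T_vec_ne (ho₁ : ∀ a b, a ≠ b → B₁ (e a) (e b) = 0) (ho₂ : ∀ a b, a ≠ b → B₂ (f a) (f b) = 0)
    {i i' : Fin k} {j j' : Fin l} (h : i ≠ i' ∨ j ≠ j') (p p' : Fin 2 → Fin 2 → F) :
    (B₁.tmul B₂) (vec e f i j p) (vec e f i' j' p') = 0 := by
  have key : ∀ s s' t t' : Fin 2, B₁ (e (s, i)) (e (s', i')) * B₂ (f (t, j)) (f (t', j')) = 0 := by
    intro s s' t t'
    rcases h with h | h
    · rw [ho₁ _ _ (fun h1 => h (Prod.mk.inj h1).2), zero_mul]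
    · rw [ho₂ _ _ (fun h1 => h (Prod.mk.inj h1).2), mul_zero]
  unfold vec
  simp only [map_add, map_smul, LinearMap.add_apply, LinearMap.smul_apply, tmul_pure, key, smul_zero, add_zero]

lemma T_vec_same (ho₁ : ∀ a b, a ≠ b → B₁ (e a) (e b) = 0) (ho₂ : ∀ a b, a ≠ b → B₂ (f a) (f b) = 0)
    (i : Fin k) (j : Fin l) (p p' : Fin 2 → Fin 2 → F) :
    (B₁.tmul B₂) (vec e f i j p) (vec e f i j p') =
      p 0 0 * p' 0 0 * (B₁ (e (0, i)) (e (0, i)) * B₂ (f (0, j)) (f (0, j))) +
      p 0 1 * p' 0 1 * (B₁ (e (0, i)) (e (0, i)) * B₂ (f (1, j)) (f (1, j))) +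
      p 1 0 * p' 1 0 * (B₁ (e (1, i)) (e (1, i)) * B₂ (f (0, j)) (f (0, j))) +
      p 1 1 * p' 1 1 * (B₁ (e (1, i)) (e (1, i)) * B₂ (f (1, j)) (f (1, j))) := by
  have h01 : ∀ (m : Fin k), B₁ (e (0, m)) (e (1, m)) = 0 := fun m => ho₁ _ _ (by simp)
  have h10 : ∀ (m : Fin k), B₁ (e (1, m)) (e (0, m)) = 0 := fun m => ho₁ _ _ (by simp)
  have h01' : ∀ (m : Fin l), B₂ (f (0, m)) (f (1, m)) = 0 := fun m => ho₂ _ _ (by simp)
  have h10' : ∀ (m : Fin l), B₂ (f (1, m)) (f (0, m)) = 0 := fun m => ho₂ _ _ (by simp)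
  unfold vec
  simp only [map_add, map_smul, LinearMap.add_apply, LinearMap.smul_apply, tmul_pure, h01, h10, h01', h10',
    smul_eq_mul, zero_mul, mul_zero, add_zero, zero_add]
  ring

end

lemma exists_sol [Fintype F] (h2 : (2 : F) ≠ 0) (α β : F) (hα : α ≠ 0) : ∃ x y : F, x ^ 2 + α * y ^ 2 + β = 0 := by
  classical
  have hchar : ringChar F ≠ 2 := by
    intro h
    apply h2
    have := ringChar.Nat.cast_ringChar (R := F)
    rw [h] at this
    exact_mod_cast this
  have h1 := FiniteField.odd_card_of_char_ne_two hchar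
  have hf : (Polynomial.X ^ 2 + Polynomial.C β : Polynomial F).degree = 2 :=
    Polynomial.degree_X_pow_add_C (by norm_num) β
  have hg : (Polynomial.C α * Polynomial.X ^ 2 : Polynomial F).degree = 2 :=
    Polynomial.degree_C_mul_X_pow 2 hα
  obtain ⟨a, b, hab⟩ := FiniteField.exists_root_sum_quadratic hf hg h1
  refine ⟨a, b, ?_⟩
  simp only [Polynomial.eval_add, Polynomial.eval_pow, Polynomial.eval_X, Polynomial.eval_C, Polynomial.eval_mul] at hab
  linear_combination hab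

/-- the main construction -/
theorem block_lagrangian [Fintype F] [FiniteDimensional F U] [FiniteDimensional F W] (h2 : (2 : F) ≠ 0) {k l : ℕ}
    (e : Module.Basis (Fin 2 × Fin k) F U) (f : Module.Basis (Fin 2 × Fin l) F W)
    (B₁ : LinearMap.BilinForm F U) (B₂ : LinearMap.BilinForm F W)
    (ho₁ : ∀ a b, a ≠ b → B₁ (e a) (e b) = 0) (ho₂ : ∀ a b, a ≠ b → B₂ (f a) (f b) = 0)
    (hne₁ : ∀ a, B₁ (e a) (e a) ≠ 0) (hne₂ : ∀ a, B₂ (f a) (f a) ≠ 0) :
    ∃ X : Submodule F (TensorProduct F U W), Module.finrank F X = 2 * k * l ∧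
      ∀ x ∈ X, ∀ y ∈ X, (B₁.tmul B₂) x y = 0 := by
  classical
  -- the parameters
  let α : Fin l → F := fun j => B₂ (f (1, j)) (f (1, j)) / B₂ (f (0, j)) (f (0, j))
  let β : Fin k → F := fun i => B₁ (e (1, i)) (e (1, i)) / B₁ (e (0, i)) (e (0, i))
  have hα : ∀ j, α j ≠ 0 := fun j => div_ne_zero (hne₂ _) (hne₂ _)
  have hsol : ∀ (i : Fin k) (j : Fin l), ∃ x y : F, x ^ 2 + α j * y ^ 2 + β i = 0 :=
    fun i j => exists_sol h2 _ _ (hα j)
  choose x y hxy using hsol
  let P : Fin 2 → Fin k → Fin l → Fin 2 → Fin 2 → F := fun s i j =>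
    if s = 0 then ![![x i j, y i j], ![1, 0]] else ![![-(α j * y i j), x i j], ![0, -1]]
  let g : Fin 2 × (Fin k × Fin l) → TensorProduct F U W := fun a => vec e f a.2.1 a.2.2 (P a.1 a.2.1 a.2.2)
  have hP0 : ∀ i j, P 0 i j = ![![x i j, y i j], ![1, 0]] := fun i j => rfl
  have hP1 : ∀ i j, P 1 i j = ![![-(α j * y i j), x i j], ![0, -1]] := fun i j => rfl
  have hfin : ∀ s : Fin 2, s = 0 ∨ s = 1 := by decide
  have hli : LinearIndependent F g := by
    rw [Fintype.linearIndependent_iff]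
    intro c hc a
    obtain ⟨s, i, j⟩ := a
    have hsum : ∀ ψ : TensorProduct F U W →ₗ[F] F, ∑ a, c a * ψ (g a) = 0 := by
      intro ψ
      have := congrArg ψ hc
      rw [map_sum, map_zero] at this
      simpa only [map_smul, smul_eq_mul] using this
    have h1 := hsum ((e.tensorProduct f).coord ((1, i), (s, j)))
    rw [Finset.sum_eq_single ((s, (i, j)))] at h1
    · have h3 : (e.tensorProduct f).coord ((1, i), (s, j)) (g (s, (i, j))) = P s i j 1 s := by
        show (e.tensorProduct f).coord ((1, i), (s, j)) (vec e f i j (P s i j)) = _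
        rw [coord_vec]
        simp
      rw [h3] at h1
      rcases hfin s with rfl | rfl
      · have h5 : P 0 i j 1 0 = 1 := rfl
        rw [h5, mul_one] at h1
        exact h1
      · have h5 : P 1 i j 1 1 = -1 := rfl
        rw [h5] at h1
        simpa using h1
    · rintro ⟨s', i', j'⟩ _ hne
      show c _ * (e.tensorProduct f).coord ((1, i), (s, j)) (vec e f i' j' (P s' i' j')) = 0
      rw [coord_vec]
      by_cases h3 : i = i' ∧ j = j'
      · obtain ⟨rfl, rfl⟩ := h3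
        have hs : s' ≠ s := fun h4 => hne (by rw [h4])
        have : P s' i j 1 s = 0 := by
          rcases hfin s with rfl | rfl <;> rcases hfin s' with rfl | rfl
          · exact absurd rfl hs
          · rfl
          · rfl
          · exact absurd rfl hs
        rw [if_pos ⟨rfl, rfl⟩, this, mul_zero]
      · rw [if_neg h3, mul_zero]
    · intro h4
      exact absurd (Finset.mem_univ _) h4
  refine ⟨Submodule.span F (Set.range g), ?_, ?_⟩
  · rw [finrank_span_eq_card hli]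
    simp
    ring
  · apply ti_span
    rintro _ ⟨⟨s, i, j⟩, rfl⟩ _ ⟨⟨s', i', j'⟩, rfl⟩
    show (B₁.tmul B₂) (vec e f i j (P s i j)) (vec e f i' j' (P s' i' j')) = 0
    by_cases h3 : i = i' ∧ j = j'
    · obtain ⟨rfl, rfl⟩ := h3
      rw [T_vec_same ho₁ ho₂]
      have hA := hne₁ (0, i)
      have hC := hne₂ (0, j)
      have hα' : α j = B₂ (f (1, j)) (f (1, j)) / B₂ (f (0, j)) (f (0, j)) := rfl
      have hβ' : β i = B₁ (e (1, i)) (e (1, i)) / B₁ (e (0, i)) (e (0, i)) := rfl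
      have hE := hxy i j
      have hC1 : B₂ (f (1, j)) (f (1, j)) = α j * B₂ (f (0, j)) (f (0, j)) := by
        rw [hα']; field_simp
      have hA1 : B₁ (e (1, i)) (e (1, i)) = β i * B₁ (e (0, i)) (e (0, i)) := by
        rw [hβ']; field_simp
      rw [hC1, hA1]
      have e1 : P 0 i j 0 0 = x i j := rfl
      have e2 : P 0 i j 0 1 = y i j := rfl
      have e3 : P 0 i j 1 0 = 1 := rfl
      have e4 : P 0 i j 1 1 = 0 := rfl
      have e5 : P 1 i j 0 0 = -(α j * y i j) := rfl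
      have e6 : P 1 i j 0 1 = x i j := rfl
      have e7 : P 1 i j 1 0 = 0 := rfl
      have e8 : P 1 i j 1 1 = -1 := rfl
      rcases hfin s with rfl | rfl <;> rcases hfin s' with rfl | rfl
      · simp only [e1, e2, e3, e4, e5, e6, e7, e8]
        linear_combination (B₁ (e (0, i)) (e (0, i)) * B₂ (f (0, j)) (f (0, j))) * hE
      · simp only [e1, e2, e3, e4, e5, e6, e7, e8]
        ring
      · simp only [e1, e2, e3, e4, e5, e6, e7, e8]
        ring
      · simp only [e1, e2, e3, e4, e5, e6, e7, e8]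
        linear_combination (B₁ (e (0, i)) (e (0, i)) * B₂ (f (0, j)) (f (0, j)) * α j) * hE
    · have : i ≠ i' ∨ j ≠ j' := by
        by_contra h4
        push Not at h4
        exact h3 h4
      exact T_vec_ne ho₁ ho₂ this _ _

/-- Over a finite field with 2 ≠ 0: if B₁ on U (dim 2k, k ≥ 1) and B₂ on W (dim 2l, l ≥ 1) are non-degenerate symmetric forms admitting no totally isotropic subspaces of dimensions k, resp. l (minus type), then B₁ ⊗ B₂ admits a totally isotropic subspace of dimension 2kl (plus type). -/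
theorem result {F U W : Type*} [Field F] [Fintype F] [AddCommGroup U] [Module F U] [FiniteDimensional F U] [AddCommGroup W] [Module F W] [FiniteDimensional F W] (h2 : (2 : F) ≠ 0) (B₁ : LinearMap.BilinForm F U) (B₂ : LinearMap.BilinForm F W) (h₁ : B₁.Nondegenerate) (h₂ : B₂.Nondegenerate) (hS₁ : B₁.IsSymm) (hS₂ : B₂.IsSymm) (k l : ℕ) (hk : 1 ≤ k) (hl : 1 ≤ l) (hU : Module.finrank F U = 2 * k) (hW : Module.finrank F W = 2 * l) (hm₁ : ¬ (∃ X : Submodule F (U), Module.finrank F X = k ∧ ∀ x ∈ X, ∀ y ∈ X, (B₁) x y = 0)) (hm₂ : ¬ (∃ X : Submodule F (W), Module.finrank F X = l ∧ ∀ x ∈ X, ∀ y ∈ X, (B₂) x y = 0)) : (∃ X : Submodule F (TensorProduct F U W), Module.finrank F X = 2 * k * l ∧ ∀ x ∈ X, ∀ y ∈ X, (B₁.tmul B₂) x y = 0) := by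
  classical
  haveI : Invertible (2 : F) := invertibleOfNonzero h2
  obtain ⟨e₀, he₀⟩ := LinearMap.BilinForm.exists_orthogonal_basis (LinearMap.BilinForm.isSymm_iff.1 hS₁)
  obtain ⟨f₀, hf₀⟩ := LinearMap.BilinForm.exists_orthogonal_basis (LinearMap.BilinForm.isSymm_iff.1 hS₂)
  let σ₁ : Fin 2 × Fin k ≃ Fin (Module.finrank F U) := finProdFinEquiv.trans (finCongr hU.symm)
  let σ₂ : Fin 2 × Fin l ≃ Fin (Module.finrank F W) := finProdFinEquiv.trans (finCongr hW.symm)
  let e := e₀.reindex σ₁.symm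
  let f := f₀.reindex σ₂.symm
  have ho₁ : ∀ a b, a ≠ b → B₁ (e a) (e b) = 0 := by
    intro a b hab
    simp only [e, Module.Basis.reindex_apply, Equiv.symm_symm]
    exact he₀ (fun h => hab (σ₁.injective h))
  have ho₂ : ∀ a b, a ≠ b → B₂ (f a) (f b) = 0 := by
    intro a b hab
    simp only [f, Module.Basis.reindex_apply, Equiv.symm_symm]
    exact hf₀ (fun h => hab (σ₂.injective h))
  exact block_lagrangian h2 e f B₁ B₂ ho₁ ho₂ (diag_ne B₁ h₁ e ho₁) (diag_ne B₂ h₂ f ho₂)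

end Cfsg.Agent.S0834
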