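import Cfsg.Statements.S0835
import Mathlib
import Cfsg.Agent.S0756
import Cfsg.Agent.Lib.H11.Disc
import Cfsg.Agent.Lib.H11.MTS8

set_option autoImplicit false
open Cfsg

namespace Cfsg.Agent.S0835

open TensorProduct Matrix Module

section
variable {F : Type*} [Field F] {V : Type*} [AddCommGroup V] [Module F V]

/-- Gram matrix -/
noncomputable abbrev Gm {ι : Type*} (B : LinearMap.BilinForm F V) (b : Basis ι F V) : Matrix ι ι F :=
  Matrix.of fun i j => B (b i) (b j)

lemma gm_change {ι κ : Type*} [Fintype ι] [DecidableEq ι] [Fintype κ] [DecidableEq κ]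
    (B : LinearMap.BilinForm F V) (b : Basis ι F V) (c : Basis κ F V) :
    ∃ d : F, d ≠ 0 ∧ (Gm B c).det = d ^ 2 * (Gm B b).det := by
  classical
  let σ : κ ≃ ι := c.indexEquiv b
  let b' : Basis κ F V := b.reindex σ.symm
  have h1 : Gm B b' = (Gm B b).submatrix σ σ := by
    ext i j
    simp [b', Gm]
  let P : Matrix κ κ F := b'.toMatrix c
  have h2 : Gm B c = Pᵀ * Gm B b' * P := by
    have h3 := LinearMap.BilinForm.toMatrix_mul_basis_toMatrix (B := B) (b := b') c
    have h4 : ∀ (e : Basis κ F V), LinearMap.BilinForm.toMatrix e B = Gm B e := by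
      intro e
      ext i j
      rw [LinearMap.BilinForm.toMatrix_apply]
      rfl
    rw [h4, h4] at h3
    exact h3.symm
  have h5 : IsUnit P := by
    have := (b'.invertibleToMatrix c)
    exact isUnit_of_invertible P
  have h6 : P.det ≠ 0 := by
    have := (Matrix.isUnit_iff_isUnit_det P).1 h5
    exact this.ne_zero
  refine ⟨P.det, h6, ?_⟩
  rw [h2, det_mul, det_mul, det_transpose, h1, det_submatrix_equiv_self]
  ring

end

section
variable {F : Type*} [Field F] {M : Type*} [AddCommGroup M] [Module F M] [FiniteDimensional F M]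

/-- the determinant condition for the existence of a Lagrangian -/
theorem sq_of_lagrangian (T : LinearMap.BilinForm F M) (hS : ∀ x y, T x y = T y x) (m : ℕ)
    (hM : finrank F M = 2 * m) (X : Submodule F M) (hX : finrank F X = m) (hTI : ∀ x ∈ X, ∀ y ∈ X, T x y = 0)
    {ι : Type*} [Fintype ι] [DecidableEq ι] (b : Basis ι F M) :
    IsSquare ((-1 : F) ^ m * (Gm T b).det) := by
  classical
  obtain ⟨Y, hY⟩ := Submodule.exists_isCompl X
  have hYf : finrank F Y = m := by
    have := Submodule.finrank_add_eq_of_isCompl hY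
    omega
  let bX := finBasisOfFinrankEq F X hX
  let bY := finBasisOfFinrankEq F Y hYf
  let c : Basis (Fin m ⊕ Fin m) F M := (bX.prod bY).map (Submodule.prodEquivOfIsCompl X Y hY)
  have hc1 : ∀ i, c (Sum.inl i) = (bX i : M) := by
    intro i
    simp [c]
  have hc2 : ∀ i, c (Sum.inr i) = (bY i : M) := by
    intro i
    simp [c]
  let A : Matrix (Fin m) (Fin m) F := Matrix.of fun i j => T (bX i : M) (bY j : M)
  let D : Matrix (Fin m) (Fin m) F := Matrix.of fun i j => T (bY i : M) (bY j : M)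
  have h1 : Gm T c = Matrix.fromBlocks 0 A Aᵀ D := by
    ext i j
    rcases i with i | i <;> rcases j with j | j
    · simp only [Gm, of_apply, hc1, fromBlocks_apply₁₁, Matrix.zero_apply]
      exact hTI _ (bX i).2 _ (bX j).2
    · simp only [Gm, of_apply, hc1, hc2, fromBlocks_apply₁₂, A]
    · simp only [Gm, of_apply, hc1, hc2, fromBlocks_apply₂₁, transpose_apply, A]
      exact hS _ _
    · simp only [Gm, of_apply, hc2, fromBlocks_apply₂₂, D]
  have h2 : Gm T c * H11.hypG m F = Matrix.fromBlocks A 0 D Aᵀ := by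
    rw [h1, H11.hypG, Matrix.fromBlocks_multiply]
    simp
  have h3 := congrArg Matrix.det h2
  rw [det_mul, H11.det_hypG, det_fromBlocks_zero₁₂, det_transpose] at h3
  obtain ⟨d, hd, h4⟩ := gm_change T b c
  rw [h4] at h3
  refine ⟨A.det / d, ?_⟩
  field_simp
  linear_combination h3

end

section
variable {F : Type*} [Field F] [Fintype F] {U : Type*} [AddCommGroup U] [Module F U] [FiniteDimensional F U]

lemma diag_det {n : ℕ} (δ : F) (G : Matrix (Fin (n + 1)) (Fin (n + 1)) F)
    (h1 : ∀ i j, i ≠ j → G i j = 0) (h2 : ∀ i, i ≠ Fin.last n → G i i = 1) (h3 : G (Fin.last n) (Fin.last n) = δ) :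
    G.det = δ := by
  classical
  have hdiag : G = Matrix.diagonal (fun i => if i = Fin.last n then δ else 1) := by
    ext i j
    rw [Matrix.diagonal_apply]
    by_cases hij : i = j
    · subst hij
      rw [if_pos rfl]
      by_cases hi : i = Fin.last n
      · rw [if_pos hi, hi, h3]
      · rw [if_neg hi, h2 i hi]
    · rw [if_neg hij, h1 i j hij]
  rw [hdiag, Matrix.det_diagonal, Fin.prod_univ_castSucc]
  simp [Fin.castSucc_ne_last]

/-- existence of a Lagrangian from the discriminant. -/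
theorem lagrangian_of_sq (h2 : (2 : F) ≠ 0) (B : LinearMap.BilinForm F U) (hS : B.IsSymm) (hB : B.Nondegenerate)
    (k : ℕ) (hU : finrank F U = 2 * k) {ι : Type*} [Fintype ι] [DecidableEq ι] (e : Basis ι F U)
    (hsq : IsSquare ((-1 : F) ^ k * (Gm B e).det)) :
    ∃ X : Submodule F U, finrank F X = k ∧ ∀ x ∈ X, ∀ y ∈ X, B x y = 0 := by
  classical
  rcases Nat.eq_zero_or_pos k with rfl | hk
  · exact ⟨⊥, by simp, by simp⟩
  obtain ⟨n, hn⟩ : ∃ n, 2 * k = n + 1 := ⟨2 * k - 1, by omega⟩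
  have hchar : ringChar F ≠ 2 := by
    intro h
    apply h2
    have := ringChar.Nat.cast_ringChar (R := F)
    rw [h] at this
    exact_mod_cast this
  obtain ⟨α, hα⟩ := FiniteField.exists_nonsquare hchar
  obtain ⟨a, ha1, ha2, ha3⟩ := Cfsg.Agent.S0756.result h2 B hS hB (by rw [hU, hn]) α hα
  let Bh : LinearMap.BilinForm F (Fin k ⊕ Fin k → F) := QuadraticMap.polarBilin (H11.plusForm k F)
  have hBh : ∀ x y, Bh x y = x ⬝ᵥ (H11.hypG k F *ᵥ y) := fun x y => H11.polar_quadFormPlus k x y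
  have hBhS : Bh.IsSymm := ⟨fun x y => QuadraticMap.polar_comm _ x y⟩
  have hHf : finrank F (Fin k ⊕ Fin k → F) = n + 1 := by
    rw [finrank_fintype_fun_eq_card, H11.card_sum, hn]
  obtain ⟨a', ha1', ha2', ha3'⟩ := Cfsg.Agent.S0756.result h2 Bh hBhS (H11.plus_nondeg' k) hHf α hα
  set δ := B (a (Fin.last n)) (a (Fin.last n)) with hδ
  set δ' := Bh (a' (Fin.last n)) (a' (Fin.last n)) with hδ'
  have hd1 : (Gm B a).det = δ := diag_det δ _ (fun i j hij => ha1 i j hij) (fun i hi => ha2 i hi) rfl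
  have hd2 : (Gm Bh a').det = δ' := diag_det δ' _ (fun i j hij => ha1' i j hij) (fun i hi => ha2' i hi) rfl
  obtain ⟨d, hd, hd3⟩ := gm_change B e a
  let std := Pi.basisFun F (Fin k ⊕ Fin k)
  have hst : Gm Bh std = H11.hypG k F := by
    ext i j
    simp only [Gm, of_apply, hBh, std, Pi.basisFun_apply]
    rw [Matrix.mulVec_single_one, single_dotProduct]
    simp
  obtain ⟨d', hd', hd4⟩ := gm_change Bh std a'
  rw [hst, H11.det_hypG] at hd4
  rw [hd1] at hd3
  rw [hd2] at hd4
  obtain ⟨s, hs⟩ := hsq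
  have hprod : δ * δ' = (d * d' * s) ^ 2 := by
    have h1 : ((-1 : F) ^ k) ^ 2 = 1 := by
      rw [← pow_mul, mul_comm, pow_mul]
      simp
    rw [hd3, hd4]
    calc d ^ 2 * (Gm B e).det * (d' ^ 2 * (-1) ^ k) = d ^ 2 * d' ^ 2 * ((-1) ^ k * (Gm B e).det) := by ring
      _ = _ := by rw [hs]; ring
  have heq : δ = δ' := by
    rcases ha3 with h1 | h1 <;> rcases ha3' with h1' | h1'
    · rw [h1, h1']
    · exfalso
      apply hα
      rw [h1, h1', one_mul] at hprod
      exact ⟨_, hprod.trans (sq _)⟩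
    · exfalso
      apply hα
      rw [h1, h1', mul_one] at hprod
      exact ⟨_, hprod.trans (sq _)⟩
    · rw [h1, h1']
  let φ : U ≃ₗ[F] (Fin k ⊕ Fin k → F) := a.equiv a' (Equiv.refl _)
  have hφ : ∀ i, φ (a i) = a' i := fun i => by simp [φ]
  have hiso : B = Bh.compl₁₂ φ.toLinearMap φ.toLinearMap := by
    apply LinearMap.ext_basis a a
    intro i j
    simp only [LinearMap.compl₁₂_apply, LinearEquiv.coe_coe, hφ]
    by_cases hij : i = j
    · subst hij
      by_cases hi : i = Fin.last n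
      · rw [hi]
        exact heq
      · rw [ha2 i hi, ha2' i hi]
    · rw [ha1 i j hij, ha1' i j hij]
  have hU0 := H11.U0_mts (F := F) k
  refine ⟨(H11.U0 k F).map φ.symm.toLinearMap, ?_, ?_⟩
  · rw [LinearEquiv.finrank_map_eq]
    exact hU0.card
  · rintro _ ⟨x, hx, rfl⟩ _ ⟨y, hy, rfl⟩
    rw [hiso]
    simp only [LinearMap.compl₁₂_apply, LinearEquiv.coe_coe, LinearEquiv.apply_symm_apply]
    exact hU0.polar_zero hx hy

end

/-- Over a finite field with 2 ≠ 0: if B₁ on U (dim 2k, k ≥ 1) is non-degenerate symmetric of minus type (no totally isotropic k-subspace) and B₂ on W (dim 2l + 1) is non-degenerate symmetric, then B₁ ⊗ B₂ (dimension 2k(2l+1)) admits no totally isotropic subspace of dimension k(2l+1) (minus type). -/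
theorem result {F U W : Type*} [Field F] [Fintype F] [AddCommGroup U] [Module F U] [FiniteDimensional F U] [AddCommGroup W] [Module F W] [FiniteDimensional F W] (h2 : (2 : F) ≠ 0) (B₁ : LinearMap.BilinForm F U) (B₂ : LinearMap.BilinForm F W) (h₁ : B₁.Nondegenerate) (h₂ : B₂.Nondegenerate) (hS₁ : B₁.IsSymm) (hS₂ : B₂.IsSymm) (k l : ℕ) (hk : 1 ≤ k) (hU : Module.finrank F U = 2 * k) (hW : Module.finrank F W = 2 * l + 1) (hm₁ : ¬ (∃ X : Submodule F (U), Module.finrank F X = k ∧ ∀ x ∈ X, ∀ y ∈ X, (B₁) x y = 0)) : ¬ (∃ X : Submodule F (TensorProduct F U W), Module.finrank F X = k * (2 * l + 1) ∧ ∀ x ∈ X, ∀ y ∈ X, (B₁.tmul B₂) x y = 0) := by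
  classical
  intro ⟨X, hX, hTI⟩
  let e := Module.finBasis F U
  let f := Module.finBasis F W
  let T := B₁.tmul B₂
  have hpure : ∀ u w u' w', T (u ⊗ₜ[F] w) (u' ⊗ₜ[F] w') = B₁ u u' * B₂ w w' := by
    intro u w u' w'
    show (B₁.tmul B₂) _ _ = _
    rw [LinearMap.BilinForm.tensorDistrib_tmul, smul_eq_mul, mul_comm]
  have hTS : ∀ x y, T x y = T y x := by
    have hs1 : LinearMap.IsSymm B₁ := LinearMap.BilinForm.isSymm_iff.1 hS₁
    have hs2 : LinearMap.IsSymm B₂ := LinearMap.BilinForm.isSymm_iff.1 hS₂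
    have := LinearMap.IsSymm.tmul hs1 hs2
    intro x y
    exact this.eq x y
  have hM : Module.finrank F (TensorProduct F U W) = 2 * (k * (2 * l + 1)) := by
    rw [Module.finrank_tensorProduct, hU, hW]
    ring
  have h1 := sq_of_lagrangian T hTS (k * (2 * l + 1)) hM X hX hTI (e.tensorProduct f)
  have h2' : Gm T (e.tensorProduct f) = Matrix.kroneckerMap (· * ·) (Gm B₁ e) (Gm B₂ f) := by
    ext ⟨i, j⟩ ⟨i', j'⟩
    simp only [Gm, Matrix.of_apply, Module.Basis.tensorProduct_apply, hpure, Matrix.kroneckerMap_apply]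
  rw [h2'] at h1
  have h3 := Matrix.det_kronecker (Gm B₁ e) (Gm B₂ f)
  have h3' : (Matrix.kroneckerMap (· * ·) (Gm B₁ e) (Gm B₂ f)).det = (Gm B₁ e).det ^ Fintype.card (Fin (Module.finrank F W)) * (Gm B₂ f).det ^ Fintype.card (Fin (Module.finrank F U)) := h3
  rw [h3', Fintype.card_fin, Fintype.card_fin] at h1
  have hdet₁ : (Gm B₁ e).det ≠ 0 := by
    have := (LinearMap.BilinForm.nondegenerate_iff_det_ne_zero (B := B₁) e).1 h₁
    convert this using 2
    ext i j
    rw [LinearMap.BilinForm.toMatrix_apply]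
    rfl
  have hdet₂ : (Gm B₂ f).det ≠ 0 := by
    have := (LinearMap.BilinForm.nondegenerate_iff_det_ne_zero (B := B₂) f).1 h₂
    convert this using 2
    ext i j
    rw [LinearMap.BilinForm.toMatrix_apply]
    rfl
  set a := (Gm B₁ e).det with ha
  set b := (Gm B₂ f).det with hb
  rw [hU, hW] at h1
  have hd : ((-1 : F) ^ (k * l) * a ^ l * b ^ k) ≠ 0 := by
    have hneg : (-1 : F) ^ (k * l) ≠ 0 := pow_ne_zero _ (neg_ne_zero.2 one_ne_zero)
    exact mul_ne_zero (mul_ne_zero hneg (pow_ne_zero _ hdet₁)) (pow_ne_zero _ hdet₂)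
  have h4 : (-1 : F) ^ (k * (2 * l + 1)) * (a ^ (2 * l + 1) * b ^ (2 * k)) =
      ((-1 : F) ^ (k * l) * a ^ l * b ^ k) ^ 2 * ((-1 : F) ^ k * a) := by
    have e1 : k * (2 * l + 1) = 2 * (k * l) + k := by ring
    have e2 : (-1 : F) ^ (2 * (k * l)) = ((-1 : F) ^ (k * l)) ^ 2 := by
      rw [mul_comm 2, pow_mul]
    rw [e1, pow_add, e2, pow_succ a, mul_comm 2 l, pow_mul a l 2, mul_comm 2 k, pow_mul b k 2]
    ring
  rw [h4, H11.isSquare_mul_sq_iff hd] at h1
  exact hm₁ (lagrangian_of_sq h2 B₁ hS₁ h₁ k hU e h1)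

end Cfsg.Agent.S0835
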