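import Cfsg.Statements.S0836
import Mathlib
import Cfsg.Agent.Lib.Lead.SLn

set_option autoImplicit false
open Cfsg

namespace Cfsg.Agent.S0836

open Matrix Matrix.SpecialLinearGroup in
open scoped commutatorElement in
theorem comm_two {ι F : Type*} [Fintype ι] [DecidableEq ι] [Field F] {i j : ι} (hij : i ≠ j) (x y c : F)
    (hx : x ≠ 0) (hc : (x ^ 2 - 1) * y = c) :
    ⁅diag2n hij x hx, SpecialLinearGroup.transvection hij y⁆
      = (SpecialLinearGroup.transvection hij c : Matrix.SpecialLinearGroup ι F) := by
  have hkey : diag2n hij x hx * SpecialLinearGroup.transvection hij y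
      = SpecialLinearGroup.transvection hij c * SpecialLinearGroup.transvection hij y * diag2n hij x hx := by
    apply Subtype.ext
    change (diag2n hij x hx).1 * ((SpecialLinearGroup.transvection hij y : Matrix.SpecialLinearGroup ι F) : Matrix ι ι F)
      = ((SpecialLinearGroup.transvection hij c : Matrix.SpecialLinearGroup ι F) : Matrix ι ι F) * ((SpecialLinearGroup.transvection hij y : Matrix.SpecialLinearGroup ι F) : Matrix ι ι F) * (diag2n hij x hx).1
    simp only [SpecialLinearGroup.transvection_coe, diag2n_coe]
    ext a b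
    simp only [Matrix.mul_diagonal, Matrix.diagonal_mul, Matrix.add_mul, Matrix.mul_add, Matrix.add_apply, Matrix.one_mul, Matrix.mul_one]
    have hsing : ∀ z w : F, (Matrix.single i j z * Matrix.single i j w : Matrix ι ι F) = 0 :=
      fun z w => Matrix.single_mul_single_of_ne _ _ _ _ hij.symm _
    simp only [hsing, add_zero, Matrix.mul_diagonal, Matrix.add_apply, Matrix.single_apply, Matrix.one_apply, Matrix.diagonal_apply]
    by_cases h1 : i = a <;> by_cases h2 : j = b
    · subst h1 h2
      have h3 : x * x⁻¹ = 1 := mul_inv_cancel₀ hx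
      simp [hij, hij.symm]
      field_simp
      linear_combination hc
    · simp [h1, h2]
      by_cases h4 : a = b
      · subst h4; simp
      · simp [h4]
    · simp [h1, h2]
      by_cases h4 : a = b
      · subst h4; simp [h1, Ne.symm h1]
      · simp [h4]
    · simp [h1, h2]
      by_cases h4 : a = b
      · subst h4; simp
      · simp [h4]
  rw [commutatorElement_def, hkey]
  group


/-- For i ≠ j and any scalar c, the elementary transvection 1 + c E_ij is a commutator ⁅g, h⁆ of two elements of SL_n(F) provided n ≥ 3, or n = 2 and F contains x ≠ 0 with x² ≠ 1. -/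
theorem result {F : Type*} [Field F] (n : ℕ) (hn : 3 ≤ n ∨ (n = 2 ∧ ∃ x : F, x ≠ 0 ∧ x ^ 2 ≠ 1)) (i j : Fin n) (hij : i ≠ j) (c : F) (t : Matrix.SpecialLinearGroup (Fin n) F) (ht : (t : Matrix (Fin n) (Fin n) F) = Matrix.transvection i j c) : t ∈ commutatorSet (Matrix.SpecialLinearGroup (Fin n) F) := by
  classical
  rcases hn with hn | ⟨hn2, x, hx0, hx1⟩
  · -- a third index
    have : ∃ k : Fin n, k ≠ i ∧ k ≠ j := by
      by_contra hcon
      push Not at hcon
      have hsub : (Finset.univ : Finset (Fin n)) ⊆ {i, j} := by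
        intro k _
        by_cases hk : k = i
        · simp [hk]
        · simp [hcon k hk]
      have := Finset.card_le_card hsub
      rw [Finset.card_univ, Fintype.card_fin] at this
      have h2 : ({i, j} : Finset (Fin n)).card ≤ 2 := Finset.card_le_two
      omega
    obtain ⟨k, hki, hkj⟩ := this
    refine ⟨Matrix.SpecialLinearGroup.transvection (Ne.symm hki) c, Matrix.SpecialLinearGroup.transvection hkj (1 : F), ?_⟩
    rw [Cfsg.Agent.Lead.commutator_transvection hij (Ne.symm hki) hkj c]
    apply Subtype.ext
    rw [ht]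
    rfl
  · have hne : x ^ 2 - 1 ≠ 0 := sub_ne_zero.mpr hx1
    refine ⟨Matrix.SpecialLinearGroup.diag2n hij x hx0, Matrix.SpecialLinearGroup.transvection hij (c / (x ^ 2 - 1)), ?_⟩
    rw [comm_two hij x (c / (x ^ 2 - 1)) c hx0 (by field_simp)]
    apply Subtype.ext
    rw [ht]
    rfl

end Cfsg.Agent.S0836
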