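import Cfsg.Statements.S0838
import Mathlib
import Cfsg.Agent.S0756
import Cfsg.Agent.Lib.H11.QF4

set_option autoImplicit false
open Cfsg

namespace Cfsg.Agent.S0838

open Matrix QuadraticMap

section
variable {F : Type*} [Field F] [Fintype F]

theorem normal_form (h2 : (2 : F) ≠ 0) {n : ℕ} (Q : QuadraticForm F (Fin (n + 1) → F))
    (hQ : (QuadraticMap.polarBilin Q).Nondegenerate) (α : F) (hα : ¬ IsSquare α) :
    ∃ (b : Module.Basis (Fin (n + 1)) F (Fin (n + 1) → F)) (δ d : F),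
      (∀ i j, i ≠ j → polar Q (b i) (b j) = 0) ∧ (∀ i, i ≠ Fin.last n → polar Q (b i) (b i) = 1) ∧
      polar Q (b (Fin.last n)) (b (Fin.last n)) = δ ∧ (δ = 1 ∨ δ = α) ∧ d ≠ 0 ∧
      δ = d ^ 2 * (Matrix.of (fun i j : Fin (n + 1) => polar Q (Pi.single i 1) (Pi.single j 1))).det := by
  classical
  obtain ⟨b, h1, h2', h3⟩ := Cfsg.Agent.S0756.result (n := n) h2 (QuadraticMap.polarBilin Q)
    (LinearMap.BilinForm.IsSymm.mk (fun x y => by simpa using polar_comm Q x y)) hQ (by simp) α hα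
  obtain ⟨d, hd, hdet⟩ := Cfsg.Agent.H11.det_gram_basis Q b
  refine ⟨b, polar Q (b (Fin.last n)) (b (Fin.last n)), d, fun i j hij => h1 i j hij, fun i hi => h2' i hi, rfl, h3, hd, ?_⟩
  rw [← hdet]
  have hdiag : (Matrix.of (fun i j : Fin (n + 1) => polar Q (b i) (b j))) =
      Matrix.diagonal (fun i => if i = Fin.last n then polar Q (b (Fin.last n)) (b (Fin.last n)) else 1) := by
    ext i j
    rw [Matrix.diagonal_apply, Matrix.of_apply]
    by_cases hij : i = j
    · subst hij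
      rw [if_pos rfl]
      by_cases hi : i = Fin.last n
      · rw [if_pos hi, hi]
      · rw [if_neg hi]
        exact h2' i hi
    · rw [if_neg hij]
      exact h1 i j hij
  rw [hdiag, Matrix.det_diagonal, Fin.prod_univ_castSucc]
  simp [Fin.castSucc_ne_last]

end

/-- Over a finite field with 2 ≠ 0 and n odd: two quadratic forms Q₁, Q₂ on F^n with non-degenerate polar forms are similar — there are an invertible linear map g and a scalar c ≠ 0 with Q₂ (g v) = c · Q₁ v for all v. -/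
theorem result {F : Type*} [Field F] [Fintype F] (h2 : (2 : F) ≠ 0) {n : ℕ} (hn : Odd n) (Q₁ Q₂ : QuadraticForm F (Fin n → F)) (h₁ : (QuadraticMap.polarBilin Q₁).Nondegenerate) (h₂ : (QuadraticMap.polarBilin Q₂).Nondegenerate) : ∃ (g : (Fin n → F) ≃ₗ[F] (Fin n → F)) (c : F), c ≠ 0 ∧ ∀ v, Q₂ (g v) = c * Q₁ v := by
  classical
  obtain ⟨n', rfl⟩ : ∃ n', n = n' + 1 := by
    obtain ⟨t, ht⟩ := hn
    exact ⟨2 * t, ht⟩
  have hchar : ringChar F ≠ 2 := by
    intro h
    apply h2
    have := ringChar.Nat.cast_ringChar (R := F)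
    rw [h] at this
    exact_mod_cast this
  obtain ⟨α, hα⟩ := FiniteField.exists_nonsquare hchar
  have hα0 : α ≠ 0 := by
    rintro rfl
    exact hα (IsSquare.zero)
  let D : QuadraticForm F (Fin (n' + 1) → F) → F := fun Q => (Matrix.of (fun i j : Fin (n' + 1) => polar Q (Pi.single i 1) (Pi.single j 1))).det
  have hDne : ∀ Q : QuadraticForm F (Fin (n' + 1) → F), (QuadraticMap.polarBilin Q).Nondegenerate → D Q ≠ 0 := by
    intro Q hQ h0
    obtain ⟨b, δ, d, -, -, -, hδ, -, hδD⟩ := normal_form h2 Q hQ α hα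
    rw [show (Matrix.of (fun i j : Fin (n' + 1) => polar Q (Pi.single i 1) (Pi.single j 1))).det = D Q from rfl, h0, mul_zero] at hδD
    rcases hδ with h | h
    · rw [h] at hδD; exact one_ne_zero hδD
    · rw [h] at hδD; exact hα0 hδD
  have hD₁ := hDne Q₁ h₁
  have hD₂ := hDne Q₂ h₂
  -- the scalar
  obtain ⟨c, hc0, hcs⟩ : ∃ c : F, c ≠ 0 ∧ IsSquare (c ^ (n' + 1) * D Q₁ * D Q₂) := by
    by_cases hs : IsSquare (D Q₁ * D Q₂)
    · exact ⟨1, one_ne_zero, by simpa using hs⟩
    · refine ⟨α, hα0, ?_⟩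
      have h3 : IsSquare (α * (D Q₁ * D Q₂)) := by
        have h4 : quadraticChar F (α * (D Q₁ * D Q₂)) = 1 := by
          rw [map_mul, (quadraticChar_neg_one_iff_not_isSquare).mpr hα, (quadraticChar_neg_one_iff_not_isSquare).mpr hs]
          norm_num
        exact (quadraticChar_one_iff_isSquare (mul_ne_zero hα0 (mul_ne_zero hD₁ hD₂))).mp h4
      obtain ⟨t, ht⟩ := hn
      obtain ⟨r, hr⟩ := h3
      rw [ht]
      refine ⟨α ^ t * r, ?_⟩
      calc α ^ (2 * t + 1) * D Q₁ * D Q₂ = (α ^ t) ^ 2 * (α * (D Q₁ * D Q₂)) := by ring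
        _ = _ := by rw [hr]; ring
  let Q' : QuadraticForm F (Fin (n' + 1) → F) := c • Q₁
  have hpolar : ∀ x y, polar Q' x y = c * polar Q₁ x y := by
    intro x y
    simp [Q', polar, mul_sub]
  have hnd' : (QuadraticMap.polarBilin Q').Nondegenerate := by
    constructor
    · intro x hx
      apply h₁.1
      intro y
      have := hx y
      rw [QuadraticMap.polarBilin_apply_apply, hpolar] at this
      rw [QuadraticMap.polarBilin_apply_apply]
      exact (mul_eq_zero.mp this).resolve_left hc0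
    · intro x hx
      apply h₁.2
      intro y
      have := hx y
      rw [QuadraticMap.polarBilin_apply_apply, hpolar] at this
      rw [QuadraticMap.polarBilin_apply_apply]
      exact (mul_eq_zero.mp this).resolve_left hc0
  have hDQ' : D Q' = c ^ (n' + 1) * D Q₁ := by
    show Matrix.det _ = _
    have : (Matrix.of (fun i j : Fin (n' + 1) => polar Q' (Pi.single i 1) (Pi.single j 1))) = c • (Matrix.of (fun i j : Fin (n' + 1) => polar Q₁ (Pi.single i 1) (Pi.single j 1))) := by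
      ext i j
      simp [hpolar]
    rw [this, Matrix.det_smul]
    simp [D]
  obtain ⟨b₁, δ₁, d₁, h1a, h1b, h1c, h1d, hd₁, h1e⟩ := normal_form h2 Q' hnd' α hα
  obtain ⟨b₂, δ₂, d₂, h2a, h2b, h2c, h2d, hd₂, h2e⟩ := normal_form h2 Q₂ h₂ α hα
  have hδ : δ₁ = δ₂ := by
    have h5 : IsSquare (δ₁ * δ₂) := by
      rw [h1e, h2e]
      change IsSquare (d₁ ^ 2 * D Q' * (d₂ ^ 2 * D Q₂))
      rw [hDQ']
      obtain ⟨r, hr⟩ := hcs
      refine ⟨d₁ * d₂ * r, ?_⟩
      calc d₁ ^ 2 * (c ^ (n' + 1) * D Q₁) * (d₂ ^ 2 * D Q₂) = d₁ ^ 2 * d₂ ^ 2 * (c ^ (n' + 1) * D Q₁ * D Q₂) := by ring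
        _ = _ := by rw [hr]; ring
    rcases h1d with h | h <;> rcases h2d with h' | h'
    · rw [h, h']
    · exfalso; rw [h, h', one_mul] at h5; exact hα h5
    · exfalso; rw [h, h', mul_one] at h5; exact hα h5
    · rw [h, h']
  let g := b₁.equiv b₂ (Equiv.refl _)
  have hg : ∀ i, g (b₁ i) = b₂ i := fun i => by simp [g]
  have hform : ((QuadraticMap.polarBilin Q₂).compl₁₂ g.toLinearMap g.toLinearMap) = QuadraticMap.polarBilin Q' := by
    apply LinearMap.BilinForm.ext_basis b₁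
    intro i j
    simp only [LinearMap.compl₁₂_apply, LinearEquiv.coe_coe, QuadraticMap.polarBilin_apply_apply, hg]
    by_cases hij : i = j
    · subst hij
      by_cases hi : i = Fin.last n'
      · rw [hi, h1c, h2c, hδ]
      · rw [h1b i hi, h2b i hi]
    · rw [h1a i j hij, h2a i j hij]
  refine ⟨g, c, hc0, fun v => ?_⟩
  have h7 := congrArg (fun B => B v v) hform
  simp only [LinearMap.compl₁₂_apply, LinearEquiv.coe_coe, QuadraticMap.polarBilin_apply_apply, QuadraticMap.polar_self] at h7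
  have h8 : (2 : F) * Q₂ (g v) = 2 * (c * Q₁ v) := by
    have h9 : Q' v = c * Q₁ v := by simp [Q']
    rw [← h9]
    simpa using h7
  exact mul_left_cancel₀ h2 h8

end Cfsg.Agent.S0838
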