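import Cfsg.Statements.S0839
import Mathlib
import Cfsg.Agent.Lib.H11.SpTr

set_option autoImplicit false
open Cfsg

namespace Cfsg.Agent.S0839

open Matrix in
theorem exists_row {n : ℕ} {F : Type*} [Field F] (w : Fin (n + 2) → F) (hw : w ≠ 0) :
    ∃ h : Matrix.SpecialLinearGroup (Fin (n + 2)) F, (h : Matrix (Fin (n + 2)) (Fin (n + 2)) F) 0 = w := by
  classical
  obtain ⟨k, hk⟩ : ∃ k, w k ≠ 0 := by
    by_contra hcon
    push Not at hcon
    exact hw (funext hcon)
  -- identity with row k replaced by w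
  let A : Matrix (Fin (n + 2)) (Fin (n + 2)) F := (1 : Matrix _ _ F).updateRow k w
  have hA : A.det = w k := by
    have h1 : w = ∑ j, w j • (1 : Matrix (Fin (n + 2)) (Fin (n + 2)) F) j := by
      ext a
      simp [Matrix.one_apply, Finset.sum_apply]
    have := Matrix.det_updateRow_sum (1 : Matrix (Fin (n + 2)) (Fin (n + 2)) F) k w
    rw [← h1] at this
    simp only [A]
    rw [this]
    simp
  let σ : Equiv.Perm (Fin (n + 2)) := Equiv.swap 0 k
  let B : Matrix (Fin (n + 2)) (Fin (n + 2)) F := A.submatrix σ id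
  have hB : B.det = Equiv.Perm.sign σ * w k := by
    have := Matrix.det_permute σ A
    simp only [B]
    rw [this, hA]
  have hB0 : B.det ≠ 0 := by
    rw [hB]
    apply mul_ne_zero _ hk
    intro h
    rcases Int.units_eq_one_or (Equiv.Perm.sign σ) with h1 | h1 <;> simp [h1] at h
  have hrow0 : B 0 = w := by
    ext j
    simp [B, σ, A]
  let C : Matrix (Fin (n + 2)) (Fin (n + 2)) F := B.updateRow 1 (B.det⁻¹ • B 1)
  have hC : C.det = 1 := by
    simp only [C]
    rw [Matrix.det_updateRow_smul, Matrix.updateRow_eq_self, inv_mul_cancel₀ hB0]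
  refine ⟨⟨C, hC⟩, ?_⟩
  ext j
  have h01 : (0 : Fin (n + 2)) ≠ 1 := by simp [Fin.ext_iff]
  change C 0 j = w j
  simp only [C, Matrix.updateRow_ne h01]
  rw [hrow0]


/-- Every transvection t ∈ SL_(n+2)(F) (rank(t − 1) = 1, (t − 1)² = 0) is conjugate in SL_(n+2)(F) to 1 + v·e_0ᵀ for some column vector v with v_0 = 0 (the group A of matrices that are the identity except in the first column below the diagonal); the dimension is written n + 2 ≥ 2. -/
theorem result {F : Type*} [Field F] (n : ℕ) (t : Matrix.SpecialLinearGroup (Fin (n + 2)) F) (ht : Cfsg.IsTransvection (t : Matrix (Fin (n + 2)) (Fin (n + 2)) F)) : ∃ (g : Matrix.SpecialLinearGroup (Fin (n + 2)) F) (v : Fin (n + 2) → F), v 0 = 0 ∧ ((g⁻¹ * t * g : Matrix.SpecialLinearGroup (Fin (n + 2)) F) : Matrix (Fin (n + 2)) (Fin (n + 2)) F) = 1 + Matrix.vecMulVec v (Pi.single 0 1) := by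
  classical
  open Matrix in
  obtain ⟨ht1, ht2⟩ := ht
  obtain ⟨u, w, hu, hw, hdec⟩ := Cfsg.Agent.H11.SpTr.exists_decomp' _ ht1
  -- w ⬝ u = 0
  have hwu : w ⬝ᵥ u = 0 := by
    rw [hdec] at ht2
    rw [Matrix.vecMulVec_mul_vecMulVec] at ht2
    obtain ⟨a, ha⟩ : ∃ a, u a ≠ 0 := by
      by_contra hcon
      push Not at hcon
      exact hu (funext hcon)
    obtain ⟨b, hb⟩ : ∃ b, w b ≠ 0 := by
      by_contra hcon
      push Not at hcon
      exact hw (funext hcon)
    have := congrFun (congrFun ht2 a) b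
    simp [Matrix.vecMulVec_apply] at this
    rcases this with h | h | h
    · exact absurd h ha
    · exact h
    · exact absurd h hb
  obtain ⟨h, hh⟩ := exists_row w hw
  refine ⟨h⁻¹, (h : Matrix (Fin (n + 2)) (Fin (n + 2)) F) *ᵥ u, ?_, ?_⟩
  · have : ((h : Matrix (Fin (n + 2)) (Fin (n + 2)) F) *ᵥ u) 0 = w ⬝ᵥ u := by
      rw [Matrix.mulVec, ← hh]
    rw [this, hwu]
  · have hkey : (t : Matrix (Fin (n + 2)) (Fin (n + 2)) F) = 1 + vecMulVec u w := by
      rw [← hdec]; simp
    have hinv : ((h⁻¹ : Matrix.SpecialLinearGroup _ F) : Matrix (Fin (n + 2)) (Fin (n + 2)) F) * h = 1 := by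
      rw [← Matrix.SpecialLinearGroup.coe_mul]; simp
    have hinv2 : (h : Matrix (Fin (n + 2)) (Fin (n + 2)) F) * ((h⁻¹ : Matrix.SpecialLinearGroup _ F) : Matrix (Fin (n + 2)) (Fin (n + 2)) F) = 1 := by
      rw [← Matrix.SpecialLinearGroup.coe_mul]; simp
    set H : Matrix (Fin (n + 2)) (Fin (n + 2)) F := (h : Matrix (Fin (n + 2)) (Fin (n + 2)) F) with hHdef
    set Hi : Matrix (Fin (n + 2)) (Fin (n + 2)) F := ((h⁻¹ : Matrix.SpecialLinearGroup _ F) : Matrix (Fin (n + 2)) (Fin (n + 2)) F) with hHi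
    have hwH : w ᵥ* Hi = Pi.single 0 1 := by
      rw [← hh]
      have : (H 0) ᵥ* Hi = (H * Hi) 0 := by
        ext j
        simp [Matrix.vecMul, Matrix.mul_apply, dotProduct]
      rw [this, hinv2]
      ext j
      simp [Matrix.one_apply, Pi.single_apply, eq_comm]
    have e : ((h⁻¹⁻¹ * t * h⁻¹ : Matrix.SpecialLinearGroup (Fin (n + 2)) F) : Matrix (Fin (n + 2)) (Fin (n + 2)) F)
        = H * (t : Matrix (Fin (n + 2)) (Fin (n + 2)) F) * Hi := by
      simp [hHdef, hHi]
    rw [e, hkey, Matrix.mul_add, Matrix.add_mul, Matrix.mul_one, hinv2, Matrix.mul_vecMulVec, Matrix.vecMulVec_mul, hwH]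

end Cfsg.Agent.S0839
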