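import Cfsg.Statements.S0840
import Mathlib
import Cfsg.Agent.Lib.H22.Central
import Cfsg.Agent.Lib.H19.FrobCount

set_option autoImplicit false
open scoped ComplexConjugate
open Cfsg

namespace Cfsg.Agent.S0840


/-- Class multiplication coefficients from the character table: for elements a, b, c of a finite group G, the number of ordered pairs (x, y) with x conjugate to a, y conjugate to b and x * y = c equals the product of the sizes of the conjugacy classes of a and b, divided by the order of G, times the sum over the irreducible characters χ of χ a * χ b * conj (χ c) / χ 1. -/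
theorem result {G : Type*} [Group G] [Finite G] (a b c : G) : (Nat.card {p : G × G // IsConj a p.1 ∧ IsConj b p.2 ∧ p.1 * p.2 = c} : ℂ) = (Nat.card {x : G // IsConj a x} : ℂ) * (Nat.card {x : G // IsConj b x} : ℂ) / (Nat.card G : ℂ) * ∑ᶠ χ : Cfsg.IrrCharacter G, (χ : G → ℂ) a * (χ : G → ℂ) b * conj ((χ : G → ℂ) c) / (χ : G → ℂ) 1 := by
  classical
  haveI : Fintype G := Fintype.ofFinite G
  haveI : Fintype (IrrCharacter G) := Fintype.ofFinite _
  -- class sizes
  have hidx : ∀ g : G, (Subgroup.centralizer ({g} : Set G)).index = Nat.card {x : G // IsConj g x} := by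
    intro g
    have h1 := (MulAction.stabilizer (ConjAct G) g).card_mul_index
    have h2 := H19.card_class_mul_card_centralizer g
    have h3 := (Subgroup.centralizer ({g} : Set G)).card_mul_index
    have h4 : (ConjClasses.mk g).carrier.ncard = Nat.card {x : G // IsConj g x} := by
      rw [← Nat.card_coe_set_eq]
      apply Nat.card_congr
      refine Equiv.subtypeEquivRight ?_
      intro x
      rw [ConjClasses.mem_carrier_iff_mk_eq, ConjClasses.mk_eq_mk_iff_isConj]
      exact ⟨fun h => h.symm, fun h => h.symm⟩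
    rw [h4] at h2
    have hpos : 0 < Nat.card (Subgroup.centralizer ({g} : Set G)) := Nat.card_pos
    apply Nat.eq_of_mul_eq_mul_left hpos
    rw [h3, mul_comm, h2]
  -- convolution
  have h1 : H22.conv (H21.classIndicator a) (H21.classIndicator b) c =
      (Nat.card {p : G × G // IsConj a p.1 ∧ IsConj b p.2 ∧ p.1 * p.2 = c} : ℂ) := by
    unfold H22.conv H21.classIndicator
    have h2 : ∀ h : G, ((if IsConj h a then (1 : ℂ) else 0) * if IsConj (h⁻¹ * c) b then 1 else 0) =
        if IsConj h a ∧ IsConj (h⁻¹ * c) b then 1 else 0 := by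
      intro h
      by_cases h3 : IsConj h a
      · by_cases h4 : IsConj (h⁻¹ * c) b
        · rw [if_pos h3, if_pos h4, if_pos ⟨h3, h4⟩, mul_one]
        · rw [if_pos h3, if_neg h4, if_neg (fun h5 : IsConj h a ∧ IsConj (h⁻¹ * c) b => h4 h5.2), mul_zero]
      · rw [if_neg h3, if_neg (fun h5 : IsConj h a ∧ IsConj (h⁻¹ * c) b => h3 h5.1), zero_mul]
    simp only [h2]
    rw [Finset.sum_boole, Nat.card_eq_fintype_card]
    congr 1
    rw [Fintype.card_subtype]
    apply Finset.card_bij (fun h _ => (⟨h, h⁻¹ * c⟩ : G × G))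
    · intro h hh
      simp only [Finset.mem_filter, Finset.mem_univ, true_and] at hh ⊢
      exact ⟨hh.1.symm, hh.2.symm, by group⟩
    · intro h _ h' _ he
      exact congrArg Prod.fst he
    · rintro ⟨x, y⟩ hh
      simp only [Finset.mem_filter, Finset.mem_univ, true_and] at hh
      refine ⟨x, ?_, ?_⟩
      · simp only [Finset.mem_filter, Finset.mem_univ, true_and]
        obtain ⟨h3, h4, rfl⟩ := hh
        refine ⟨h3.symm, ?_⟩
        simpa using h4.symm
      · obtain ⟨h3, h4, rfl⟩ := hh
        simp
  have h2 : H22.conv (H21.classIndicator a) (H21.classIndicator b) = H22.ofOm (H22.cc a * H22.cc b) := by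
    rw [H22.ofOm_mul, H22.ofOm_cc, H22.ofOm_cc]
  rw [← h1, h2, finsum_eq_sum_of_fintype]
  unfold H22.ofOm H22.cc centralChar
  simp only [Pi.mul_apply]
  rw [hidx a, hidx b]
  rw [div_eq_mul_inv, mul_comm (_ * _) (Nat.card G : ℂ)⁻¹, mul_assoc]
  congr 1
  rw [Finset.mul_sum]
  apply Finset.sum_congr rfl
  intro χ _
  have h3 := H22.irr_one_ne_zero' χ
  field_simp

end Cfsg.Agent.S0840
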