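import Cfsg.Statements.S0841
import Mathlib

set_option autoImplicit false
open Cfsg
open scoped commutatorElement

namespace Cfsg.Agent.S0841

/-- If the commutator subgroup of G lies in the centre, then for all x, y in G and every natural number n one has (x * y) ^ n = x ^ n * y ^ n * c ^ (n * (n - 1) / 2) with c = y⁻¹ * x⁻¹ * y * x. -/
theorem result {G : Type*} [Group G] (hG : commutator G ≤ Subgroup.center G) (x y : G) (n : ℕ) : (x * y) ^ n = x ^ n * y ^ n * (y⁻¹ * x⁻¹ * y * x) ^ (n * (n - 1) / 2) := by
  set c : G := y⁻¹ * x⁻¹ * y * x with hc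
  have hcmem : c ∈ Subgroup.center G := by
    apply hG
    rw [commutator_def]
    have : c = ⁅y⁻¹, x⁻¹⁆ := by
      rw [commutatorElement_def, hc]; simp
    rw [this]
    exact Subgroup.commutator_mem_commutator (Subgroup.mem_top _) (Subgroup.mem_top _)
  have hcc : ∀ g : G, c * g = g * c := fun g => (Subgroup.mem_center_iff.mp hcmem g).symm
  have hyx : y * x = x * y * c := by
    rw [hc]; group
  have hpow : ∀ m : ℕ, y ^ m * x = x * y ^ m * c ^ m := by
    intro m
    induction m with
    | zero => simp
    | succ m ih =>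
      have hc' : ∀ (k : ℕ) (g : G), c ^ k * g = g * c ^ k := by
        intro k g
        exact ((Commute.pow_left (show Commute c g from hcc g) k))
      calc y ^ (m + 1) * x = y ^ m * (y * x) := by rw [pow_succ]; group
        _ = (y ^ m * x) * y * c := by rw [hyx]; group
        _ = x * y ^ m * c ^ m * y * c := by rw [ih]
        _ = x * y ^ m * (c ^ m * y) * c := by group
        _ = x * y ^ m * (y * c ^ m) * c := by rw [hc']
        _ = x * y ^ (m + 1) * c ^ (m + 1) := by rw [pow_succ y, pow_succ c]; group
  have hc' : ∀ (k : ℕ) (g : G), c ^ k * g = g * c ^ k := by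
    intro k g
    exact ((Commute.pow_left (show Commute c g from hcc g) k))
  have key : ∀ m : ℕ, (x * y) ^ m = x ^ m * y ^ m * c ^ (m * (m - 1) / 2) := by
    intro m
    induction m with
    | zero => simp
    | succ m ih =>
      have htri : (m + 1) * (m + 1 - 1) / 2 = m * (m - 1) / 2 + m := by
        have h := Nat.triangle_succ m
        simpa using h
      rw [pow_succ, ih, htri, pow_add c]
      calc x ^ m * y ^ m * c ^ (m * (m - 1) / 2) * (x * y)
          = x ^ m * y ^ m * (c ^ (m * (m - 1) / 2) * (x * y)) := by group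
        _ = x ^ m * y ^ m * ((x * y) * c ^ (m * (m - 1) / 2)) := by rw [hc']
        _ = x ^ m * (y ^ m * x) * y * c ^ (m * (m - 1) / 2) := by group
        _ = x ^ m * (x * y ^ m * c ^ m) * y * c ^ (m * (m - 1) / 2) := by rw [hpow]
        _ = x ^ m * x * y ^ m * (c ^ m * y) * c ^ (m * (m - 1) / 2) := by group
        _ = x ^ m * x * y ^ m * (y * c ^ m) * c ^ (m * (m - 1) / 2) := by rw [hc']
        _ = x ^ (m + 1) * y ^ (m + 1) * (c ^ (m * (m - 1) / 2) * c ^ m) := by
            rw [pow_succ x, pow_succ y, (Commute.pow_pow (Commute.refl c) (m * (m - 1) / 2) m).eq]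
            group
  exact key n

end Cfsg.Agent.S0841
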