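import Cfsg.Statements.S0842
import Cfsg.Agent.Lib.H15.QuatD
import Cfsg.Agent.Lib.H15.ZStarQD

set_option autoImplicit false
set_option linter.style.haveILetI false
open Cfsg

namespace Cfsg.Agent.S0842

open Cfsg.Agent.H15

/-- Suppose a Sylow 2-subgroup S of the finite group G is generalized quaternion of order at least 16, and let D be the commutator subgroup of S, C its centralizer and N its normalizer in G. Then there is a subgroup K of odd order, contained in C and normalized by N, with K ⊔ S = N and K ⊔ (S ⊓ C) = C, and C has index 2 in N. -/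
theorem result {G : Type*} [Group G] [Finite G] (S : Sylow 2 G) (n : ℕ) (e : (S : Subgroup G) ≃* QuaternionGroup (2 ^ (n + 2))) (D : Subgroup G) (hD : D = ⁅(S : Subgroup G), (S : Subgroup G)⁆) : ∃ K : Subgroup G, Odd (Nat.card K) ∧ K ≤ Subgroup.centralizer (D : Set G) ∧ Subgroup.normalizer (D : Set G) ≤ Subgroup.normalizer (K : Set G) ∧ K ⊔ (S : Subgroup G) = Subgroup.normalizer (D : Set G) ∧ K ⊔ ((S : Subgroup G) ⊓ Subgroup.centralizer (D : Set G)) = Subgroup.centralizer (D : Set G) ∧ ((Subgroup.centralizer (D : Set G)).subgroupOf (Subgroup.normalizer (D : Set G))).index = 2 := by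
  classical
  haveI : Fact (Nat.Prime 2) := ⟨Nat.prime_two⟩
  obtain ⟨x, y, h⟩ := exists_qdata (by omega) e
  have hm3 : 3 ≤ n + 2 + 1 := by omega
  have hDx : D = Subgroup.zpowers (x * x) := hD.trans h.commutator_eq
  subst hDx
  rw [centralizer_zpowers_eq_singleton]
  set C := Subgroup.centralizer ({x * x} : Set G) with hC
  set N := Subgroup.normalizer ((Subgroup.zpowers (x * x) : Subgroup G) : Set G) with hN
  have hCN : C ≤ N := h.C_le_normalizer
  have hSN : (S : Subgroup G) ≤ N := h.T_le_normalizer
  -- the Sylow subgroup of `C`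
  obtain ⟨S₀, hS₀⟩ := h.exists_sylow_C hm3
  have hcyc : IsCyclic (S₀ : Subgroup C) := by
    rw [hS₀]
    let f : (Subgroup.zpowers x).subgroupOf C →* Subgroup.zpowers x :=
      { toFun := fun a => ⟨(a : C), a.2⟩
        map_one' := rfl
        map_mul' := fun _ _ => rfl }
    refine isCyclic_of_injective f ?_
    intro a b hab
    exact Subtype.ext (Subtype.ext (congrArg (fun z : Subgroup.zpowers x => (z : G)) hab))
  obtain ⟨k, hk⟩ := index_oddCore_of_cyclic S₀ hcyc
  set L := oddCore C with hL
  set K := L.map C.subtype with hK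
  have hKC : K ≤ C := by
    rintro _ ⟨l, -, rfl⟩
    exact l.2
  -- `L ⊔ S₀ = ⊤`
  have hsup : L ⊔ (S₀ : Subgroup C) = ⊤ := by
    have h1 : (L ⊔ (S₀ : Subgroup C)).index ∣ 2 ^ k := by
      rw [← hk]
      exact Subgroup.index_dvd_of_le le_sup_left
    have h2 : (L ⊔ (S₀ : Subgroup C)).index ∣ (S₀ : Subgroup C).index :=
      Subgroup.index_dvd_of_le le_sup_right
    have h3 : ¬ 2 ∣ (S₀ : Subgroup C).index := S₀.not_dvd_index
    obtain ⟨j, -, hj⟩ := (Nat.dvd_prime_pow Nat.prime_two).mp h1
    rcases j with _ | j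
    · rw [pow_zero] at hj
      exact Subgroup.index_eq_one.mp hj
    · exfalso
      apply h3
      rw [hj, pow_succ] at h2
      exact (Dvd.intro_left _ rfl).trans h2
  have hKsup : K ⊔ Subgroup.zpowers x = C := by
    have h1 := congrArg (Subgroup.map C.subtype) hsup
    rw [Subgroup.map_sup, hS₀, ← hK, ← MonoidHom.range_eq_map, Subgroup.range_subtype,
      Subgroup.map_subgroupOf_eq_of_le (Subgroup.zpowers_le.mpr h.x_mem_C)] at h1
    exact h1
  have hSC : (S : Subgroup G) ⊓ C = Subgroup.zpowers x := h.T_inf_C hm3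
  have hxS : Subgroup.zpowers x ≤ (S : Subgroup G) := Subgroup.zpowers_le.mpr h.hxT
  have hcases := fun g hg => h.N_cases hm3 (g := g) hg
  refine ⟨K, ?_, hKC, ?_, ?_, ?_, ?_⟩
  · -- odd order
    have h1 : Nat.card K = Nat.card L :=
      Nat.card_congr (Subgroup.equivMapOfInjective L C.subtype (Subgroup.subtype_injective _)).symm.toEquiv
    rw [h1]
    exact Nat.Coprime.odd_of_right card_oddCore_coprime
  · -- `N` normalizes `K`
    have hkey : ∀ g ∈ N, ∀ c ∈ K, g * c * g⁻¹ ∈ K := by
      intro g hg
      let φ : C ≃* C :=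
        { toFun := fun c => ⟨g * c * g⁻¹, h.conj_mem_C_of_normalizer hg c.2⟩
          invFun := fun c => ⟨g⁻¹ * c * g, by
            have := h.conj_mem_C_of_normalizer (N.inv_mem hg) c.2
            simpa using this⟩
          left_inv := fun c => Subtype.ext (by simp [mul_assoc])
          right_inv := fun c => Subtype.ext (by simp [mul_assoc])
          map_mul' := fun a b => Subtype.ext (by simp [mul_assoc]) }
      haveI hchar : L.Characteristic := Cfsg.Agent.H06.pPrimeCore_characteristic C 2
      rintro _ ⟨l, hl, rfl⟩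
      have h1 : L.comap φ.toMonoidHom = L := hchar.fixed φ
      have h2 : l ∈ L.comap φ.toMonoidHom := by rw [h1]; exact hl
      exact ⟨φ l, h2, rfl⟩
    intro g hg
    rw [Subgroup.mem_normalizer_iff]
    intro c
    refine ⟨hkey g hg c, fun hc => ?_⟩
    have := hkey g⁻¹ (N.inv_mem hg) _ hc
    simpa [mul_assoc] using this
  · -- `K S = N`
    apply le_antisymm
    · exact sup_le (hKC.trans hCN) hSN
    · intro g hg
      have hC_le : C ≤ K ⊔ (S : Subgroup G) := by
        rw [← hKsup]
        exact sup_le le_sup_left (hxS.trans le_sup_right)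
      rcases hcases g hg with h1 | h1
      · exact hC_le h1
      · have h2 := Subgroup.mul_mem _ (hC_le h1) (Subgroup.mem_sup_right h.hyT)
        simpa using h2
  · rw [hSC]
    exact hKsup
  · -- index 2
    rw [Subgroup.index_eq_two_iff]
    have hyN : y ∈ N := hSN h.hyT
    have hyC : y ∉ C := h.y_not_mem_C hm3
    refine ⟨⟨y, hyN⟩, ?_⟩
    rintro ⟨b, hb⟩
    show Xor (b * y ∈ C) (b ∈ C)
    by_cases hbC : b ∈ C
    · right
      refine ⟨hbC, fun h1 => hyC ?_⟩
      have h2 := C.mul_mem (C.inv_mem hbC) h1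
      simpa using h2
    · left
      refine ⟨?_, hbC⟩
      rcases hcases b hb with h1 | h1
      · exact absurd h1 hbC
      · have hyyC : y * y ∈ C := by
          rw [h.hyy]
          exact Subgroup.pow_mem _ h.x_mem_C _
        have h2 := C.mul_mem h1 hyyC
        convert h2 using 1
        group

end Cfsg.Agent.S0842
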