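import Cfsg.Statements.S0843
import Cfsg.Agent.Lib.H15.QuatD
import Cfsg.Agent.Lib.H15.ZStarQD

set_option autoImplicit false
open Cfsg

namespace Cfsg.Agent.S0843

open Cfsg.Agent.H15

/-- Suppose a Sylow 2-subgroup S of the finite group G is generalized quaternion of order at least 16; let D be the commutator subgroup of S and X the set of elements of the centralizer of D whose order is divisible by the order of D. Then D is contained in the cyclic subgroup generated by any element of X; an element of G conjugating some element of X into the centralizer of D normalizes D; and the normalizer of D maps X to itself under conjugation. -/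
theorem result {G : Type*} [Group G] [Finite G] (S : Sylow 2 G) (n : ℕ) (e : (S : Subgroup G) ≃* QuaternionGroup (2 ^ (n + 2))) (D : Subgroup G) (hD : D = ⁅(S : Subgroup G), (S : Subgroup G)⁆) : (∀ y : G, y ∈ Subgroup.centralizer (D : Set G) → Nat.card D ∣ orderOf y → D ≤ Subgroup.zpowers y) ∧ (∀ g y : G, y ∈ Subgroup.centralizer (D : Set G) → Nat.card D ∣ orderOf y → g * y * g⁻¹ ∈ Subgroup.centralizer (D : Set G) → g ∈ Subgroup.normalizer (D : Set G)) ∧ (∀ g y : G, g ∈ Subgroup.normalizer (D : Set G) → y ∈ Subgroup.centralizer (D : Set G) → Nat.card D ∣ orderOf y → g * y * g⁻¹ ∈ Subgroup.centralizer (D : Set G) ∧ Nat.card D ∣ orderOf (g * y * g⁻¹)) := by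
  classical
  haveI : Fact (Nat.Prime 2) := ⟨Nat.prime_two⟩
  obtain ⟨x, y, h⟩ := exists_qdata (by omega) e
  have hm3 : 3 ≤ n + 2 + 1 := by omega
  have hDx : D = Subgroup.zpowers (x * x) := hD.trans h.commutator_eq
  subst hDx
  rw [centralizer_zpowers_eq_singleton, h.card_D]
  refine ⟨?_, ?_, ?_⟩
  · intro c hc ho
    rw [Subgroup.zpowers_le]
    exact h.sq_mem_zpowers hm3 hc ho
  · intro g c hc ho hg
    rcases h.conj_X hm3 hc ho hg with h1 | h1
    · exact h.C_le_normalizer h1
    · have h2 := Subgroup.mul_mem _ (h.C_le_normalizer h1) (h.T_le_normalizer h.hyT)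
      simpa using h2
  · intro g c hg hc ho
    refine ⟨h.conj_mem_C_of_normalizer hg hc, ?_⟩
    have h3 : orderOf (g * c * g⁻¹) = orderOf c :=
      orderOf_injective (MulAut.conj g).toMonoidHom (MulAut.conj g).injective c
    rw [h3]
    exact ho

end Cfsg.Agent.S0843
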