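import Cfsg.Statements.S0844
import Cfsg.Agent.Lib.H15.ZStarQD

set_option autoImplicit false
open Cfsg

namespace Cfsg.Agent.S0844

/-- Suppose a Sylow 2-subgroup S of the finite group G is generalized quaternion of order at least 16. Then G has two non-principal irreducible characters χ₁ and χ₂ with χ₁ 1 = χ₂ 1 + 1 such that χ₁ g - χ₂ g = 1 for every element g whose order is not divisible by 4. -/
theorem result {G : Type*} [Group G] [Fintype G] (S : Sylow 2 G) (n : ℕ) (e : (S : Subgroup G) ≃* QuaternionGroup (2 ^ (n + 2))) : ∃ χ₁ χ₂ : G → ℂ, Cfsg.IsIrrCharacter G χ₁ ∧ Cfsg.IsIrrCharacter G χ₂ ∧ χ₁ ≠ (fun _ => 1) ∧ χ₂ ≠ (fun _ => 1) ∧ χ₁ 1 = χ₂ 1 + 1 ∧ ∀ g : G, ¬ 4 ∣ orderOf g → χ₁ g - χ₂ g = 1 := by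
  obtain ⟨x, y, h⟩ := Cfsg.Agent.H15.exists_qdata (by omega) e
  obtain ⟨χ₁, χ₂, h1, h2, -, hd, hv, -⟩ := h.exc_pair (by omega)
  refine ⟨χ₁.1, χ₂.1, χ₁.2, χ₂.2, ?_, ?_, hd, ?_⟩
  · intro h3
    exact h1 (Subtype.ext h3)
  · intro h3
    exact h2 (Subtype.ext h3)
  · intro g hg
    have h4 : ¬ 2 ^ (n + 2 + 1 - 1) ∣ orderOf g := by
      intro h5
      apply hg
      refine Dvd.dvd.trans ?_ h5
      rw [show n + 2 + 1 - 1 = n + 2 by omega, pow_add]
      exact Dvd.intro_left _ rfl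
    have := hv g h4
    linear_combination -this

end Cfsg.Agent.S0844
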