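import Cfsg.Statements.S0846
import Cfsg.Agent.Lib.H15.ZStarQE

set_option autoImplicit false
open Cfsg

namespace Cfsg.Agent.S0846

/-- Suppose a Sylow 2-subgroup S of the finite group G is generalized quaternion of order at least 16. Then every Sylow 2-subgroup of the subgroup generated by the involutions of G is cyclic. -/
theorem result {G : Type*} [Group G] [Finite G] (S : Sylow 2 G) (n : ℕ) (e : (S : Subgroup G) ≃* QuaternionGroup (2 ^ (n + 2))) (Q : Sylow 2 ↥(Subgroup.closure {g : G | orderOf g = 2})) : IsCyclic Q := by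
  classical
  haveI : Fact (Nat.Prime 2) := ⟨Nat.prime_two⟩
  obtain ⟨x, y, h⟩ := Cfsg.Agent.H15.exists_qdata (by omega) e
  obtain ⟨M, hM, hz, hxM, -⟩ := h.exists_normal_M (by omega)
  revert Q
  generalize hE : Subgroup.closure {g : G | orderOf g = 2} = E
  intro Q
  have hEM : E ≤ M := by
    rw [← hE, Subgroup.closure_le]
    intro t ht
    obtain ⟨c, rfl⟩ := isConj_iff.mp (h.involution_conj t ht)
    exact hM.conj_mem _ hz c
  have hp : IsPGroup 2 ((Q : Subgroup E).map E.subtype) := Q.isPGroup'.map _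
  obtain ⟨c, -, hc⟩ := Cfsg.Agent.H15.exists_conj_le_sylow_of_le ⊤ _ S le_top le_top hp
  have hmem : ∀ q : (Q : Subgroup E), c * ((q : E) : G) * c⁻¹ ∈ Subgroup.zpowers x := by
    intro q
    apply h.inf_zpowers_of_M hxM (hc _ ⟨(q : E), q.2, rfl⟩)
    exact hM.conj_mem _ (hEM (q : E).2) c
  let f : (Q : Subgroup E) →* Subgroup.zpowers x :=
    { toFun := fun q => ⟨c * ((q : E) : G) * c⁻¹, hmem q⟩
      map_one' := by ext; simp
      map_mul' := fun a b => by ext; simp [mul_assoc] }
  have hf : Function.Injective f := by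
    intro a b hab
    have h1 : c * ((a : E) : G) * c⁻¹ = c * ((b : E) : G) * c⁻¹ :=
      congrArg (fun w : Subgroup.zpowers x => (w : G)) hab
    have h2 := mul_left_cancel (mul_right_cancel h1)
    exact Subtype.ext (Subtype.ext h2)
  exact isCyclic_of_injective f hf

end Cfsg.Agent.S0846
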