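import Cfsg.Statements.S0849
import Mathlib

set_option autoImplicit false
open Cfsg

namespace Cfsg.Agent.S0849

theorem ext_mem {G : Type*} [Group G] (H : Subgroup G) (θ : H → ℂ) (y : H) :
    Cfsg.extendByZero H θ (y : G) = θ y := by
  unfold Cfsg.extendByZero
  exact Subtype.val_injective.extend_apply _ _ _

theorem ext_not_mem {G : Type*} [Group G] (H : Subgroup G) (θ : H → ℂ) (y : G) (hy : y ∉ H) :
    Cfsg.extendByZero H θ y = 0 := by
  unfold Cfsg.extendByZero
  rw [Function.extend_apply']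
  · rfl
  · rintro ⟨a, rfl⟩
    exact hy a.2


/-- Let H be a subgroup of a finite group G and S a subset of H that is mapped to itself under conjugation by H, is disjoint from its conjugate by any element outside H, and is closed under inverses. Let φ be a class function of H vanishing on H away from S, and let u, v be involutions of G. Then the sum of the induced function of φ over all products a * b with a conjugate to u and b conjugate to v equals the index of H times the sum of φ (a * b) over such pairs with a and b in H. -/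
theorem result {G : Type*} [Group G] [Fintype G] (H : Subgroup G) (S : Set G) (hSH : S ⊆ H) (hHS : ∀ h ∈ H, ∀ s ∈ S, h * s * h⁻¹ ∈ S) (hTI : ∀ g : G, g ∉ H → ∀ s ∈ S, g * s * g⁻¹ ∉ S) (hinv : ∀ s ∈ S, s⁻¹ ∈ S) (φ : H → ℂ) (hφ : Cfsg.IsClassFunction H φ) (hφS : ∀ x : H, (x : G) ∉ S → φ x = 0) (u v : G) (hu : orderOf u = 2) (hv : orderOf v = 2) : ∑ᶠ p ∈ {p : G × G | IsConj u p.1 ∧ IsConj v p.2}, Cfsg.indFun H φ (p.1 * p.2) = (H.index : ℂ) * ∑ᶠ p ∈ {p : H × H | IsConj u (p.1 : G) ∧ IsConj v (p.2 : G)}, φ (p.1 * p.2) := by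
  classical
  -- key vanishing
  have hext0 : ∀ y : G, y ∉ S → Cfsg.extendByZero H φ y = 0 := by
    intro y hy
    by_cases hyH : y ∈ H
    · have := ext_mem H φ ⟨y, hyH⟩
      simp only at this
      rw [this]
      exact hφS _ hy
    · exact ext_not_mem _ _ _ hyH
  have hinv2 : ∀ a : G, orderOf a = 2 → a * a = 1 := by
    intro a ha
    have := pow_orderOf_eq_one a
    rw [ha, pow_two] at this
    exact this
  have hconj2 : ∀ a w : G, orderOf w = 2 → IsConj w a → a * a = 1 := by
    intro a w hw h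
    apply hinv2
    rw [← hw]
    obtain ⟨c, hc⟩ := isConj_iff.mp h
    rw [← hc]
    simpa using orderOf_injective (MulAut.conj c).toMonoidHom (MulAut.conj c).injective w
  have hmemH : ∀ a b : G, a * a = 1 → b * b = 1 → a * b ∈ S → a ∈ H ∧ b ∈ H := by
    intro a b ha hb hab
    have hinvS := hinv _ hab
    have aeq : a⁻¹ = a := by
      rw [inv_eq_iff_mul_eq_one]; exact ha
    have beq : b⁻¹ = b := by
      rw [inv_eq_iff_mul_eq_one]; exact hb
    constructor
    · by_contra h
      apply hTI a h _ hab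
      rw [mul_inv_rev, aeq, beq] at hinvS
      have : a * (a * b) * a⁻¹ = b * a := by
        rw [aeq, ← mul_assoc, ha, one_mul]
      rw [this]; exact hinvS
    · by_contra h
      apply hTI b h _ hab
      rw [mul_inv_rev, aeq, beq] at hinvS
      have : b * (a * b) * b⁻¹ = b * a := by
        rw [beq, mul_assoc, mul_assoc, hb, mul_one]
      rw [this]; exact hinvS
  set P : Finset (G × G) := Finset.univ.filter (fun p => IsConj u p.1 ∧ IsConj v p.2) with hP
  set Q : Finset (H × H) := Finset.univ.filter (fun p => IsConj u (p.1 : G) ∧ IsConj v (p.2 : G)) with hQ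
  have hL : ∑ᶠ p ∈ {p : G × G | IsConj u p.1 ∧ IsConj v p.2}, Cfsg.indFun H φ (p.1 * p.2)
      = ∑ p ∈ P, Cfsg.indFun H φ (p.1 * p.2) := by
    rw [← finsum_mem_coe_finset]
    congr 1
    ext p
    simp [hP]
  have hR : ∑ᶠ p ∈ {p : H × H | IsConj u (p.1 : G) ∧ IsConj v (p.2 : G)}, φ (p.1 * p.2)
      = ∑ p ∈ Q, φ (p.1 * p.2) := by
    rw [← finsum_mem_coe_finset]
    congr 1
    ext p
    simp [hQ]
  rw [hL, hR]
  -- conjugation invariance
  have hinvar : ∀ x : G, ∑ p ∈ P, Cfsg.extendByZero H φ (x⁻¹ * (p.1 * p.2) * x)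
      = ∑ p ∈ P, Cfsg.extendByZero H φ (p.1 * p.2) := by
    intro x
    apply Finset.sum_nbij' (fun p => (x⁻¹ * p.1 * x, x⁻¹ * p.2 * x)) (fun p => (x * p.1 * x⁻¹, x * p.2 * x⁻¹))
    · rintro ⟨a, b⟩ hp
      simp only [hP, Finset.mem_filter, Finset.mem_univ, true_and] at hp ⊢
      refine ⟨hp.1.trans ?_, hp.2.trans ?_⟩
      · exact isConj_iff.mpr ⟨x⁻¹, by simp⟩
      · exact isConj_iff.mpr ⟨x⁻¹, by simp⟩
    · rintro ⟨a, b⟩ hp
      simp only [hP, Finset.mem_filter, Finset.mem_univ, true_and] at hp ⊢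
      refine ⟨hp.1.trans ?_, hp.2.trans ?_⟩
      · exact isConj_iff.mpr ⟨x, by simp⟩
      · exact isConj_iff.mpr ⟨x, by simp⟩
    · rintro ⟨a, b⟩ hp
      simp [mul_assoc]
    · rintro ⟨a, b⟩ hp
      simp [mul_assoc]
    · rintro ⟨a, b⟩ hp
      simp only
      congr 1
      group
  have hsumP : ∑ p ∈ P, Cfsg.extendByZero H φ (p.1 * p.2) = ∑ p ∈ Q, φ (p.1 * p.2) := by
    -- restrict to pairs in H
    have h1 : ∑ p ∈ P, Cfsg.extendByZero H φ (p.1 * p.2)
        = ∑ p ∈ P.filter (fun p => p.1 ∈ H ∧ p.2 ∈ H), Cfsg.extendByZero H φ (p.1 * p.2) := by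
      symm
      apply Finset.sum_filter_of_ne
      rintro ⟨a, b⟩ hp hne
      simp only [hP, Finset.mem_filter, Finset.mem_univ, true_and] at hp
      by_contra hcon
      apply hne
      apply hext0
      intro hS
      exact hcon (hmemH a b (hconj2 a u hu hp.1) (hconj2 b v hv hp.2) hS)
    rw [h1]
    symm
    apply Finset.sum_bij (fun (p : H × H) _ => ((p.1 : G), (p.2 : G)))
    · rintro ⟨a, b⟩ hp
      simp only [hQ, Finset.mem_filter, Finset.mem_univ, true_and] at hp
      simp only [hP, Finset.mem_filter, Finset.mem_univ, true_and]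
      exact ⟨hp, a.2, b.2⟩
    · rintro ⟨a, b⟩ _ ⟨c, d⟩ _ h
      simp only [Prod.mk.injEq] at h
      rw [Subtype.ext h.1, Subtype.ext h.2]
    · rintro ⟨a, b⟩ hp
      simp only [hP, Finset.mem_filter, Finset.mem_univ, true_and] at hp
      refine ⟨(⟨a, hp.2.1⟩, ⟨b, hp.2.2⟩), ?_, rfl⟩
      simp only [hQ, Finset.mem_filter, Finset.mem_univ, true_and]
      exact hp.1
    · rintro ⟨a, b⟩ _
      have := ext_mem H φ (a * b)
      simpa using this.symm
  have hcard : (Nat.card H : ℂ)⁻¹ * (Fintype.card G : ℂ) = (H.index : ℂ) := by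
    have h1 : (Nat.card H : ℂ) ≠ 0 := by exact_mod_cast (Nat.card_pos (α := H)).ne'
    have h2 := H.card_mul_index
    rw [Nat.card_eq_fintype_card (α := G)] at h2
    rw [← h2]
    push_cast
    field_simp
  unfold Cfsg.indFun
  rw [← Finset.mul_sum, Finset.sum_comm]
  simp only [hinvar]
  rw [Finset.sum_const, hsumP, Finset.card_univ, nsmul_eq_mul, ← mul_assoc, hcard]

end Cfsg.Agent.S0849
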