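import Cfsg.Statements.S0850
import Mathlib
import Cfsg.Agent.Lib.H03.SharpLin

set_option autoImplicit false
open Cfsg

namespace Cfsg.Agent.S0850

theorem ext_mem {G : Type*} [Group G] (H : Subgroup G) (θ : H → ℂ) (y : H) :
    Cfsg.extendByZero H θ (y : G) = θ y := by
  unfold Cfsg.extendByZero
  exact Subtype.val_injective.extend_apply _ _ _

theorem ext_not_mem {G : Type*} [Group G] (H : Subgroup G) (θ : H → ℂ) (y : G) (hy : y ∉ H) :
    Cfsg.extendByZero H θ y = 0 := by
  unfold Cfsg.extendByZero
  rw [Function.extend_apply']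
  · rfl
  · rintro ⟨a, rfl⟩
    exact hy a.2


/-- Let K be a subgroup of the finite group G that meets each conjugate by an element outside its normalizer N trivially, is properly contained in N, and contains the centralizer of each of its non-identity elements (a T.I. subgroup with Frobenius normalizer). Then no element of N outside K is conjugate in G to an element of K, and for every class function ϑ of N that vanishes on N away from K and at the identity, the function induced from ϑ to G agrees with ϑ on all of N. -/
theorem result {G : Type*} [Group G] [Fintype G] (K : Subgroup G) (hTI : ∀ g : G, g ∉ Subgroup.normalizer (K : Set G) → ∀ k ∈ K, g * k * g⁻¹ ∈ K → k = 1) (hlt : K < Subgroup.normalizer (K : Set G)) (hC : ∀ k ∈ K, k ≠ 1 → Subgroup.centralizer ({k} : Set G) ≤ K) : (∀ x ∈ Subgroup.normalizer (K : Set G), x ∉ K → ∀ g : G, g * x * g⁻¹ ∉ K) ∧ ∀ (ϑ : Subgroup.normalizer (K : Set G) → ℂ), Cfsg.IsClassFunction (Subgroup.normalizer (K : Set G)) ϑ → (∀ x : Subgroup.normalizer (K : Set G), (x : G) ∉ K → ϑ x = 0) → ϑ 1 = 0 → ∀ x : Subgroup.normalizer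 (K : Set G), Cfsg.indFun (Subgroup.normalizer (K : Set G)) ϑ x = ϑ x := by
  classical
  have hK1 : ∀ x ∈ Subgroup.normalizer (K : Set G), x ∉ K → ∀ g : G, g * x * g⁻¹ ∉ K := by
    intro x hxN hxK g hy
    -- g ∉ N
    have hgN : g ∉ Subgroup.normalizer (K : Set G) := by
      intro hgN
      have h1 : g⁻¹ ∈ Subgroup.normalizer (K : Set G) := inv_mem hgN
      have h2 := (Subgroup.mem_normalizer_iff.mp h1 (g * x * g⁻¹)).mp hy
      have h3 : g⁻¹ * (g * x * g⁻¹) * g⁻¹⁻¹ = x := by group
      rw [h3] at h2
      exact hxK h2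
    -- the powers of x
    have hZK : ∀ z ∈ Subgroup.zpowers x, z ∈ K → z = 1 := by
      rintro z ⟨i, rfl⟩ hzK
      apply hTI g hgN _ hzK
      have : g * (x ^ i) * g⁻¹ = (g * x * g⁻¹) ^ i := by
        simp [conj_zpow]
      simp only [this] at *
      exact zpow_mem hy i
    have hfree : ∀ z ∈ Subgroup.zpowers x, z ≠ 1 → ∀ k ∈ K, k ≠ 1 → z * k * z⁻¹ ≠ k := by
      intro z hz hz1 k hk hk1 hfix
      apply hz1
      apply hZK z hz
      apply hC k hk hk1
      rw [Subgroup.mem_centralizer_singleton_iff]
      calc z * k = z * k * z⁻¹ * z := by group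
        _ = k * z := by rw [hfix]
    letI : MulAction (Subgroup.zpowers x) G :=
      MulAction.compHom G ((MulAut.conj : G →* MulAut G).comp (Subgroup.zpowers x).subtype)
    have hsm : ∀ (z : Subgroup.zpowers x) (k : G), z • k = (z : G) * k * (z : G)⁻¹ := fun z k => rfl
    have hdvd := Cfsg.Agent.H03.card_dvd_ncard_of_free (G := Subgroup.zpowers x) (α := G)
      ((K : Set G) \ {1})
      (by
        rintro ⟨z, hz⟩ k ⟨hk, hk1⟩
        have hzN : z ∈ Subgroup.normalizer (K : Set G) := by
          obtain ⟨i, rfl⟩ := hz
          exact zpow_mem hxN i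
        refine ⟨?_, ?_⟩
        · rw [hsm]
          exact (Subgroup.mem_normalizer_iff.mp hzN k).mp hk
        · rw [hsm]
          intro h
          apply hk1
          have h' : z * k * z⁻¹ = 1 := h
          have : k = z⁻¹ * (z * k * z⁻¹) * z := by group
          rw [this, h']
          simp)
      (by
        rintro ⟨z, hz⟩ hz1 k ⟨hk, hk1⟩ hfix
        exact hfree z hz (by simpa [Subtype.ext_iff] using hz1) k hk hk1 hfix)
    have hcardZ : Nat.card (Subgroup.zpowers x) = orderOf x := Nat.card_zpowers x
    have hnc : ((K : Set G) \ {1}).ncard = Nat.card K - 1 := by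
      rw [Set.ncard_diff_singleton_of_mem (one_mem K)]
      rfl
    rw [hcardZ, hnc] at hdvd
    have hdvd2 : orderOf x ∣ Nat.card K := by
      have e : orderOf (g * x * g⁻¹) = orderOf x := by
        simpa using orderOf_injective (MulAut.conj g).toMonoidHom (MulAut.conj g).injective x
      rw [← e]
      exact Subgroup.orderOf_dvd_natCard K hy
    have hpos : 0 < Nat.card K := Nat.card_pos
    have hone : orderOf x ∣ 1 := by
      have := Nat.dvd_sub hdvd2 hdvd
      have h3 : Nat.card K - (Nat.card K - 1) = 1 := by omega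
      rwa [h3] at this
    have hx1 : x = 1 := orderOf_eq_one_iff.mp (Nat.dvd_one.mp hone)
    exact hxK (hx1 ▸ one_mem K)
  refine ⟨hK1, ?_⟩
  intro ϑ hcl hoff h1 x
  have hNpos : (Nat.card (Subgroup.normalizer (K : Set G)) : ℂ) ≠ 0 := by
    exact_mod_cast (Nat.card_pos (α := Subgroup.normalizer (K : Set G))).ne'
  unfold Cfsg.indFun
  by_cases hxK : (x : G) ∈ K
  · by_cases hx1 : x = 1
    · subst hx1
      have : ∀ g : G, Cfsg.extendByZero (Subgroup.normalizer (K : Set G)) ϑ
          (g⁻¹ * ((1 : Subgroup.normalizer (K : Set G)) : G) * g) = 0 := by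
        intro g
        have e : g⁻¹ * ((1 : Subgroup.normalizer (K : Set G)) : G) * g
            = ((1 : Subgroup.normalizer (K : Set G)) : G) := by simp
        rw [e, ext_mem, h1]
      simp only [this, Finset.sum_const_zero, mul_zero, h1]
    · have hxne : (x : G) ≠ 1 := fun h => hx1 (Subtype.ext h)
      have key : ∀ g : G, Cfsg.extendByZero (Subgroup.normalizer (K : Set G)) ϑ (g⁻¹ * (x : G) * g)
          = if g ∈ Subgroup.normalizer (K : Set G) then ϑ x else 0 := by
        intro g
        split_ifs with hg
        · have : g⁻¹ * (x : G) * g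
              = (((⟨g, hg⟩ : Subgroup.normalizer (K : Set G))⁻¹ * x * (⟨g, hg⟩ : Subgroup.normalizer (K : Set G)) :
                  Subgroup.normalizer (K : Set G)) : G) := rfl
          rw [this, ext_mem]
          have := hcl x (⟨g, hg⟩ : Subgroup.normalizer (K : Set G))⁻¹
          rwa [inv_inv] at this
        · have hg' : g⁻¹ ∉ Subgroup.normalizer (K : Set G) := fun h => hg (by simpa using inv_mem h)
          have hnotK : g⁻¹ * (x : G) * g ∉ K := by
            intro h
            apply hxne
            apply hTI g⁻¹ hg' _ hxK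
            simpa using h
          by_cases hy : g⁻¹ * (x : G) * g ∈ Subgroup.normalizer (K : Set G)
          · have := ext_mem (Subgroup.normalizer (K : Set G)) ϑ ⟨_, hy⟩
            simp only at this
            rw [this]
            exact hoff _ hnotK
          · exact ext_not_mem _ _ _ hy
      simp only [key]
      rw [Finset.sum_ite, Finset.sum_const_zero, add_zero, Finset.sum_const, nsmul_eq_mul]
      have hc : ((Finset.univ.filter (· ∈ Subgroup.normalizer (K : Set G))).card : ℂ)
          = (Nat.card (Subgroup.normalizer (K : Set G)) : ℂ) := by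
        rw [Nat.card_eq_fintype_card, Fintype.card_subtype]
      rw [hc, ← mul_assoc, inv_mul_cancel₀ hNpos, one_mul]
  · have hzero : ϑ x = 0 := hoff x hxK
    rw [hzero]
    have : ∀ g : G, Cfsg.extendByZero (Subgroup.normalizer (K : Set G)) ϑ (g⁻¹ * (x : G) * g) = 0 := by
      intro g
      by_cases hy : g⁻¹ * (x : G) * g ∈ Subgroup.normalizer (K : Set G)
      · have := ext_mem (Subgroup.normalizer (K : Set G)) ϑ ⟨_, hy⟩
        simp only at this
        rw [this]
        apply hoff
        have := hK1 x x.2 hxK g⁻¹
        simpa using this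
      · exact ext_not_mem _ _ _ hy
    simp [this]

end Cfsg.Agent.S0850
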