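import Cfsg.Statements.S0851
import Cfsg.Agent.Lib.H17.TIF

set_option autoImplicit false
set_option linter.style.longLine false
open Cfsg

namespace Cfsg.Agent.S0851

open Cfsg.Agent.H21 Cfsg.Agent.H06 Cfsg.Agent.H06.Brauer Cfsg.Agent.H17.TIF

/-- Let K be a subgroup of the finite group G that meets each conjugate by an element outside its normalizer N trivially, is properly contained in N, and contains the centralizer of each of its non-identity elements (a T.I. subgroup with Frobenius normalizer). Suppose K is abelian, let e be the index of K in N, and call an irreducible character of N relevant when it takes at some element of K a value different from its degree. Then either there is exactly one relevant character and K is an elementary abelian p-group of order e + 1 for some prime p, or there are a sign ε and an injective map f from the relevant characters to the irreducible characters of G such that inducing χ - ξ to G gives ε (f χ - f ξ) for all relevant χ and ξ. -/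
theorem result {G : Type*} [Group G] [Fintype G] (K : Subgroup G) (hTI : ∀ g : G, g ∉ Subgroup.normalizer (K : Set G) → ∀ k ∈ K, g * k * g⁻¹ ∈ K → k = 1) (hlt : K < Subgroup.normalizer (K : Set G)) (hC : ∀ k ∈ K, k ≠ 1 → Subgroup.centralizer ({k} : Set G) ≤ K) (hab : ∀ a ∈ K, ∀ b ∈ K, a * b = b * a) : (Nat.card {χ : Cfsg.IrrCharacter (Subgroup.normalizer (K : Set G)) // ∃ k : Subgroup.normalizer (K : Set G), (k : G) ∈ K ∧ (χ : ↥(Subgroup.normalizer (K : Set G)) → ℂ) k ≠ (χ : ↥(Subgroup.normalizer (K : Set G)) → ℂ) 1} = 1 ∧ ∃ p : ℕ, p.Prime ∧ Cfsg.IsElementaryAbelian p K ∧ Nat.card K = (K.subgroupOf (Subgroup.normalizer (K : Set G))).index + 1) ∨ ∃ (ε : ℂ) (f : {χ : Cfsg.IrrCharacter (Subgroup.normalizer (K : Set G)) // ∃ k : Subgroup.normalizer (K : Set G), (k : G) ∈ K ∧ (χ : ↥(Subgroup.normalizer (K : Set G)) → ℂ) k ≠ (χ : ↥(Subgroup.normalizer (K : Set G)) → ℂ) 1} → Cfsg.IrrCharacter G), (ε = 1 ∨ ε = -1) ∧ Function.Injective f ∧ ∀ χ ξ, Cfsg.indFun (Subgroup.normalizer (K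 : Set G)) ((χ.1 : ↥(Subgroup.normalizer (K : Set G)) → ℂ) - (ξ.1 : ↥(Subgroup.normalizer (K : Set G)) → ℂ)) = ε • ((f χ : G → ℂ) - (f ξ : G → ℂ)) := by
  classical
  right
  set N := Subgroup.normalizer (K : Set G) with hN
  let A : Subgroup N := K.subgroupOf N
  haveI hAn : A.Normal := by
    constructor
    intro n hn g
    rw [Subgroup.mem_subgroupOf] at hn ⊢
    have hg : (g : G) ∈ Subgroup.normalizer (K : Set G) := g.2
    rw [Subgroup.mem_normalizer_iff] at hg
    simpa using (hg _).1 hn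
  have hcomm : ∀ a ∈ A, ∀ b ∈ A, a * b = b * a := by
    intro a ha b hb
    apply Subtype.ext
    exact hab _ ha _ hb
  have hfree : ∀ a ∈ A, a ≠ 1 → ∀ t : N, t * a = a * t → t ∈ A := by
    intro a ha ha1 t ht
    have h1 : (a : G) ≠ 1 := fun h => ha1 (Subtype.ext h)
    apply Subgroup.mem_subgroupOf.mpr
    apply hC _ ha h1
    rw [Subgroup.mem_centralizer_iff]
    intro y hy
    rw [Set.mem_singleton_iff] at hy
    subst hy
    exact (congrArg Subtype.val ht).symm
  let R := {χ : Cfsg.IrrCharacter N // ∃ k : N, (k : G) ∈ K ∧ (χ : N → ℂ) k ≠ (χ : N → ℂ) 1}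
  have hrel : ∀ χ : R, ∃ n ∈ A, (χ.1 : N → ℂ) n ≠ (χ.1 : N → ℂ) 1 := by
    rintro ⟨χ, k, hk, hne⟩
    exact ⟨k, hk, hne⟩
  have hone : ∀ χ : R, (χ.1 : N → ℂ) 1 = A.index := fun χ => relevant_one A hcomm hfree χ.1.2 (hrel χ)
  have hvan : ∀ (χ : R) (x : N), x ∉ A → (χ.1 : N → ℂ) x = 0 := fun χ x hx => relevant_vanish A hcomm hfree χ.1.2 (hrel χ) x hx
  let S : N → Prop := fun n => (n : G) ∈ K ∧ n ≠ 1
  have hST : ∀ n, S n → ∀ x : G, x ∉ N → ∀ m : N, (m : G) = x⁻¹ * n * x → ¬ S m := by
    intro n hn x hx m hm hSm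
    have hx' : x⁻¹ ∉ N := fun h => hx (by simpa using N.inv_mem h)
    have h1 := hTI x⁻¹ hx' n hn.1 (by rw [inv_inv, ← hm]; exact hSm.1)
    exact hn.2 (Subtype.ext h1)
  have hsupp : ∀ χ ξ : R, ∀ n, ¬ S n → ((χ.1 : N → ℂ) - (ξ.1 : N → ℂ)) n = 0 := by
    intro χ ξ n hn
    simp only [Pi.sub_apply]
    by_cases h1 : n = 1
    · rw [h1, hone, hone, sub_self]
    · have h2 : n ∉ A := fun h => hn ⟨h, h1⟩
      rw [hvan χ n h2, hvan ξ n h2, sub_self]
  haveI : Fintype (IrrCharacter N) := Fintype.ofFinite _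
  have hclass : ∀ χ ξ : R, IsClassFunction N ((χ.1 : N → ℂ) - (ξ.1 : N → ℂ)) := by
    intro χ ξ g k
    simp only [Pi.sub_apply]
    rw [isClassFunction_of_isCharacter (isCharacter_of_irr χ.1.2) g k,
      isClassFunction_of_isCharacter (isCharacter_of_irr ξ.1.2) g k]
  have hiso : ∀ χ ξ χ' ξ' : R, classInner (indFun N ((χ.1 : N → ℂ) - (ξ.1 : N → ℂ))) (indFun N ((χ'.1 : N → ℂ) - (ξ'.1 : N → ℂ))) = classInner ((χ.1 : N → ℂ) - (ξ.1 : N → ℂ)) ((χ'.1 : N → ℂ) - (ξ'.1 : N → ℂ)) := fun χ ξ χ' ξ' =>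
    inner_ind_ind N S _ _ (hsupp χ ξ) (hsupp χ' ξ') (hclass χ' ξ') hST
  have hne : ∀ {χ ξ : R}, χ ≠ ξ → χ.1 ≠ ξ.1 := fun h h2 => h (Subtype.ext h2)
  obtain ⟨ε, f, hε, hf, hall⟩ := assemble (G := G) (R := R) (fun χ => indFun N (χ.1 : N → ℂ))
    (by
      intro χ ξ hχξ
      rw [← indFun_sub']
      apply diff_form
      · rw [indFun_sub']
        exact gen_sub (gen_of_char (isCharacter_indFun N (isCharacter_of_irr χ.1.2)))
          (gen_of_char (isCharacter_indFun N (isCharacter_of_irr ξ.1.2)))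
      · rw [hiso, classInner_sub_left', classInner_sub_right', classInner_sub_right',
          classInner_irr, classInner_irr, classInner_irr, classInner_irr, if_pos rfl, if_pos rfl,
          if_neg (hne hχξ), if_neg (hne hχξ.symm)]
        norm_num
      · rw [indFun_sub']
        simp only [Pi.sub_apply]
        rw [indFun_one, indFun_one, hone, hone, sub_self])
    (by
      intro χ ξ η h1 h2 h3
      rw [← indFun_sub', ← indFun_sub', hiso, classInner_sub_left', classInner_sub_right',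
        classInner_sub_right', classInner_irr, classInner_irr, classInner_irr, classInner_irr,
        if_pos rfl, if_neg (hne h2), if_neg (hne h1.symm), if_neg (hne h3)]
      norm_num)
  refine ⟨ε, f, hε, hf, fun χ ξ => ?_⟩
  rw [indFun_sub']
  exact hall χ ξ

end Cfsg.Agent.S0851
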