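import Cfsg.Statements.S0855
import Cfsg.Agent.Lib.H22.NormalAb
import Cfsg.Agent.Lib.H23.KGV2
import Cfsg.Agent.Lib.H06.OddPGroup
import Cfsg.Agent.Lib.H04.Cliff.Extend

set_option autoImplicit false
set_option linter.style.haveILetI false
set_option linter.unusedVariables false
set_option linter.unusedSectionVars false
set_option linter.unusedSimpArgs false

namespace Cfsg.Agent.S0855

open Cfsg Cfsg.Agent.H21 Cfsg.Agent.H22 Cfsg.Agent.H23

universe u

/-- A normal subgroup of index `p` exists if `p` divides the index of the derived group. -/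
theorem exists_index_prime {G : Type u} [Group G] [Finite G] {p : ℕ} [hp : Fact p.Prime]
    (h : p ∣ (commutator G).index) : ∃ N : Subgroup G, N.Normal ∧ N.index = p := by
  classical
  let A := Abelianization G
  let π : G →* A := Abelianization.of
  have hπ : Function.Surjective π := QuotientGroup.mk'_surjective _
  have hcardA : p ∣ Nat.card A := h
  obtain ⟨a, ha⟩ := exists_prime_orderOf_dvd_card' p hcardA
  let φ : A →* A := powMonoidHom p
  have hφinj : ¬ Function.Injective φ := by
    intro hinj
    have h1 : φ a = φ 1 := by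
      show a ^ p = 1 ^ p
      rw [one_pow, ← ha, pow_orderOf_eq_one]
    have h2 := hinj h1
    rw [h2, orderOf_one] at ha
    exact hp.out.one_lt.ne ha
  have hφsurj : ¬ Function.Surjective φ := fun hs => hφinj (Finite.injective_iff_surjective.2 hs)
  let R := A ⧸ φ.range
  have hRnt : Nontrivial R := by
    obtain ⟨y, hy⟩ := not_forall.1 hφsurj
    refine ⟨⟨(y : R), 1, ?_⟩⟩
    intro h1
    have := (QuotientGroup.eq_one_iff y).1 h1
    obtain ⟨z, hz⟩ := this
    exact hy ⟨z, hz⟩
  have hRp : IsPGroup p R := by
    intro r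
    obtain ⟨y, rfl⟩ := QuotientGroup.mk'_surjective φ.range r
    refine ⟨1, ?_⟩
    rw [pow_one, ← map_pow]
    apply (QuotientGroup.eq_one_iff _).2
    exact ⟨y, rfl⟩
  obtain ⟨M, hMn, hMi⟩ := Cfsg.Agent.H06.exists_normal_index_prime hRp
  let q : G →* R := (QuotientGroup.mk' φ.range).comp π
  have hq : Function.Surjective q := (QuotientGroup.mk'_surjective _).comp hπ
  refine ⟨M.comap q, inferInstance, ?_⟩
  rw [Subgroup.index_comap_of_surjective _ hq, hMi]

/-- The forward direction. -/
theorem core {p : ℕ} [hp : Fact p.Prime] (n : ℕ) : ∀ (G : Type u) [Group G] [Finite G],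
    Nat.card G = n → (∀ χ : IrrCharacter G, ∃ k : ℕ, (χ : G → ℂ) 1 = (p : ℂ) ^ k) →
    ∃ A : Subgroup G, A.Normal ∧ (∀ a ∈ A, ∀ b ∈ A, a * b = b * a) ∧ Nat.Coprime (Nat.card A) p ∧
      ∃ k : ℕ, A.index = p ^ k := by
  induction n using Nat.strong_induction_on with
  | _ n ih =>
    intro G _ _ hn hdeg
    classical
    haveI := Fintype.ofFinite G
    haveI : Fintype (IrrCharacter G) := Fintype.ofFinite _
    have hp' : p.Prime := hp.out
    have hdeg' : ∀ χ : IrrCharacter G, ∃ k : ℕ, charDegree χ.1 = p ^ k := by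
      intro χ
      obtain ⟨k, hk⟩ := hdeg χ
      refine ⟨k, ?_⟩
      have h1 := one_eq_charDegree (isCharacter_of_irr χ.2)
      rw [hk] at h1
      exact_mod_cast h1.symm
    by_cases hpd : p ∣ Nat.card G
    · -- a normal subgroup of index `p`
      have hidx : p ∣ (commutator G).index := by
        have h1 := sum_sq_kerChars (commutator G)
        have h2 : ∑ χ : IrrCharacter G, charDegree χ.1 ^ 2 = Nat.card G := sum_degree_sq
        have h3 : ∑ χ ∈ Finset.univ \ kerChars (commutator G), charDegree χ.1 ^ 2 +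
            ∑ χ ∈ kerChars (commutator G), charDegree χ.1 ^ 2 = Nat.card G := by
          rw [Finset.sum_sdiff (Finset.subset_univ _), h2]
        rw [h1] at h3
        have h4 : p ∣ ∑ χ ∈ Finset.univ \ kerChars (commutator G), charDegree χ.1 ^ 2 := by
          refine Finset.dvd_sum fun χ hχ => ?_
          obtain ⟨k, hk⟩ := hdeg' χ
          rcases k with _ | k
          · exfalso
            have h5 : charDegree χ.1 = 1 := by simpa using hk
            have hχ' : χ ∉ kerChars (commutator G) := (Finset.mem_sdiff.mp hχ).2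
            apply hχ'
            rw [mem_kerChars]
            intro a ha
            have h6 : (χ.1 1 : ℂ) = 1 := by
              have := one_eq_charDegree (isCharacter_of_irr χ.2)
              rw [this, h5]
              simp
            let ω : G →* ℂˣ := Cfsg.Agent.H04.Cliff.linU χ.1 (isCharacter_of_irr χ.2) h6
            have h7 : ω a = 1 := Cfsg.Agent.H04.Cliff.map_commutator_eq_one ω ha
            have h8 : χ.1 a = (ω a : ℂ) := rfl
            rw [h8, h7, h6]
            rfl
          · rw [hk]
            exact dvd_pow (dvd_pow_self p (Nat.succ_ne_zero k)) two_ne_zero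
        exact (Nat.dvd_add_right h4).mp (h3 ▸ hpd)
      obtain ⟨N, hNn, hNi⟩ := exists_index_prime hidx
      haveI := hNn
      haveI : Fintype N := Fintype.ofFinite _
      haveI : Fintype (IrrCharacter N) := Fintype.ofFinite _
      have hcardN : Nat.card N < n := by
        have h1 : N.index * Nat.card N = Nat.card G := Subgroup.index_mul_card N
        rw [hNi, hn] at h1
        have h2 : 0 < Nat.card N := Nat.card_pos
        nlinarith [hp'.two_le]
      obtain ⟨A₀, hA₀n, hA₀c, hA₀p, j, hj⟩ := ih _ hcardN N rfl (by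
        intro θ
        obtain ⟨χ, hχ⟩ := exists_irr_over N θ.2
        obtain ⟨e, he, hd, -⟩ := degree_over N θ.2 χ hχ
        obtain ⟨k, hk⟩ := hdeg' χ
        have h1 : charDegree θ.1 ∣ p ^ k := by
          rw [← hk, hd]
          exact dvd_mul_left _ _
        obtain ⟨i, -, hi⟩ := (Nat.dvd_prime_pow hp').1 h1
        refine ⟨i, ?_⟩
        have h2 := one_eq_charDegree (isCharacter_of_irr θ.2)
        rw [h2, hi]
        simp)
      set m := Nat.card A₀ with hm
      have hkey : ∀ x : N, x ^ m = 1 → x ∈ A₀ := by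
        intro x hx
        haveI := hA₀n
        have h1 : ((x : N ⧸ A₀)) ^ m = 1 := by
          rw [← QuotientGroup.mk_pow, hx]
          rfl
        have h2 : ((x : N ⧸ A₀)) ^ (p ^ j) = 1 := by
          have h3 : Nat.card (N ⧸ A₀) = p ^ j := hj
          rw [← h3]
          exact pow_card_eq_one'
        have h4 : orderOf ((x : N ⧸ A₀)) = 1 :=
          Nat.eq_one_of_dvd_coprimes (hA₀p.pow_right j) (orderOf_dvd_of_pow_eq_one h1)
            (orderOf_dvd_of_pow_eq_one h2)
        have h5 := orderOf_eq_one_iff.mp h4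
        exact (QuotientGroup.eq_one_iff x).1 h5
      have hkey2 : ∀ x ∈ A₀, x ^ m = 1 := by
        intro x hx
        have := pow_card_eq_one' (x := (⟨x, hx⟩ : A₀))
        exact congrArg Subtype.val this
      refine ⟨A₀.map N.subtype, ?_, ?_, ?_, ?_⟩
      · constructor
        rintro _ ⟨a, ha, rfl⟩ g
        have h1 : g * (a : G) * g⁻¹ ∈ N := hNn.conj_mem _ a.2 g
        refine ⟨⟨_, h1⟩, hkey _ ?_, rfl⟩
        apply Subtype.ext
        simp only [Subgroup.coe_pow, OneMemClass.coe_one]
        rw [conj_pow]
        have h2 := congrArg Subtype.val (hkey2 a ha)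
        simp only [Subgroup.coe_pow, OneMemClass.coe_one] at h2
        rw [h2]
        simp
      · rintro _ ⟨a, ha, rfl⟩ _ ⟨b, hb, rfl⟩
        exact congrArg Subtype.val (hA₀c a ha b hb)
      · have : Nat.card (A₀.map N.subtype) = Nat.card A₀ :=
          Nat.card_congr (Subgroup.equivMapOfInjective _ _ N.subtype_injective).symm.toEquiv
        rw [this]
        exact hA₀p
      · refine ⟨j + 1, ?_⟩
        rw [Subgroup.index_map_subtype, hj, hNi, pow_succ]
    · -- no `p` in the order: abelian
      refine ⟨⊤, inferInstance, ?_, ?_, 0, by simp⟩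
      · intro a _ b _
        refine comm_of_degrees_one ?_ a b
        intro χ
        obtain ⟨k, hk⟩ := hdeg' χ
        have h1 := charDegree_dvd_card χ
        rcases k with _ | k
        · simpa using hk
        · exfalso
          apply hpd
          rw [hk] at h1
          exact (dvd_pow_self p (Nat.succ_ne_zero k)).trans h1
      · rw [Subgroup.card_top]
        exact ((Nat.Prime.coprime_iff_not_dvd hp').2 hpd).symm

theorem result {G : Type*} [Group G] [Finite G] (p : ℕ) (hp : p.Prime) : (∀ χ : Cfsg.IrrCharacter G, ∃ k : ℕ, (χ : G → ℂ) 1 = (p : ℂ) ^ k) ↔ ∃ A : Subgroup G, A.Normal ∧ (∀ a ∈ A, ∀ b ∈ A, a * b = b * a) ∧ Nat.Coprime (Nat.card A) p ∧ ∃ k : ℕ, A.index = p ^ k := by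
  haveI : Fact p.Prime := ⟨hp⟩
  constructor
  · intro h
    exact core _ G rfl h
  · rintro ⟨A, hAn, hAc, -, k, hk⟩ χ
    classical
    haveI := Fintype.ofFinite G
    haveI := hAn
    have h1 := ito_dvd χ.2 A hAc
    rw [hk] at h1
    obtain ⟨i, -, hi⟩ := (Nat.dvd_prime_pow hp).1 h1
    refine ⟨i, ?_⟩
    have h2 := one_eq_charDegree (isCharacter_of_irr χ.2)
    rw [h2, hi]
    simp

end Cfsg.Agent.S0855
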