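import Cfsg.Statements.S0857
import Cfsg.Agent.Lib.H04.Cliff.Chief

set_option autoImplicit false
open Cfsg

namespace Cfsg.Agent.S0857

open Cfsg Cfsg.Agent.H21 Cfsg.Agent.H06 Cfsg.Agent.H04.Cliff

set_option linter.style.haveILetI false
set_option linter.unusedVariables false
set_option linter.unusedSectionVars false
set_option linter.unusedSimpArgs false


/-- Let L < K be normal subgroups of the finite group G with no normal subgroup of G strictly between them and with K / L abelian (the commutator subgroup of K lies in L). Let ϑ be an irreducible character of K invariant under conjugation by G. Then the restriction of ϑ to L is irreducible; or it equals e times an irreducible character of L with e ^ 2 equal to the index of L in K; or it is the sum of a family of pairwise distinct irreducible characters of L indexed by a set whose size is the index of L in K. -/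
theorem result {G : Type*} [Group G] [Fintype G] (K L : Subgroup G) [hK : K.Normal] [L.Normal] (hLK : L < K) (hchief : ∀ M : Subgroup G, M.Normal → L ≤ M → M ≤ K → M = L ∨ M = K) (hab : ⁅K, K⁆ ≤ L) (ϑ : K → ℂ) (hϑ : Cfsg.IsIrrCharacter K ϑ) (hinv : ∀ (g : G) (n : K), ϑ ⟨g * n * g⁻¹, hK.conj_mem (n : G) n.2 g⟩ = ϑ n) : Cfsg.IsIrrCharacter L (fun x : L => ϑ ⟨(x : G), hLK.le x.2⟩) ∨ (∃ (φ : L → ℂ) (e : ℕ), Cfsg.IsIrrCharacter L φ ∧ (fun x : L => ϑ ⟨(x : G), hLK.le x.2⟩) = (e : ℂ) • φ ∧ e ^ 2 = L.relIndex K) ∨ (∃ F : Finset (L → ℂ), (∀ φ ∈ F, Cfsg.IsIrrCharacter L φ) ∧ F.card = L.relIndex K ∧ (fun x : L => ϑ ⟨(x : G), hLK.le x.2⟩) = ∑ φ ∈ F, φ) := by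
  classical
  haveI : Fintype K := Fintype.ofFinite _
  haveI : Fintype L := Fintype.ofFinite _
  let H : Subgroup K := L.subgroupOf K
  haveI hHn : H.Normal := inferInstance
  let A : Subgroup (MulAut K) := (MulAut.conjNormal : G →* MulAut K).range
  have hAH : ∀ σ ∈ A, ∀ x ∈ H, σ x ∈ H := by
    rintro _ ⟨g, rfl⟩ x hx
    rw [Subgroup.mem_subgroupOf] at hx ⊢
    simpa [MulAut.conjNormal_apply] using (inferInstance : L.Normal).conj_mem _ hx g
  have hchief' : ∀ M : Subgroup K, H ≤ M → (∀ σ ∈ A, ∀ x ∈ M, σ x ∈ M) → M = H ∨ M = ⊤ := by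
    intro M hHM hM
    have hn : (M.map K.subtype).Normal := by
      refine ⟨fun n hn g => ?_⟩
      obtain ⟨m, hm, rfl⟩ := Subgroup.mem_map.mp hn
      refine Subgroup.mem_map.mpr ⟨MulAut.conjNormal g m, hM _ ⟨g, rfl⟩ m hm, ?_⟩
      simp [MulAut.conjNormal_apply]
    have h1 : L ≤ M.map K.subtype := by
      intro x hx
      exact Subgroup.mem_map.mpr ⟨⟨x, hLK.le hx⟩, hHM (Subgroup.mem_subgroupOf.mpr hx), rfl⟩
    have h2 : M.map K.subtype ≤ K := by
      rintro _ ⟨m, -, rfl⟩
      exact m.2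
    rcases hchief _ hn h1 h2 with h | h
    · left
      apply le_antisymm _ hHM
      intro x hx
      rw [Subgroup.mem_subgroupOf, ← h]
      exact Subgroup.mem_map.mpr ⟨x, hx, rfl⟩
    · right
      rw [eq_top_iff]
      intro x _
      have hx : (x : G) ∈ M.map K.subtype := by rw [h]; exact x.2
      obtain ⟨m, hm, hmx⟩ := Subgroup.mem_map.mp hx
      have : m = x := Subtype.ext hmx
      exact this ▸ hm
  have hab' : ∀ x y : K, x * y * x⁻¹ * y⁻¹ ∈ H := by
    intro x y
    rw [Subgroup.mem_subgroupOf]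
    apply hab
    exact Subgroup.commutator_mem_commutator x.2 y.2
  have hinv' : ∀ σ ∈ A, ∀ x, ϑ (σ x) = ϑ x := by
    rintro _ ⟨g, rfl⟩ x
    have := hinv g x
    rw [← this]
    congr 1
  have hmain := chief_trichotomy H A hAH hchief' hab' hϑ hinv'
  let f : H ≃* L := Subgroup.subgroupOfEquivOfLe hLK.le
  have hfs : Function.Surjective (f.symm.toMonoidHom : L →* H) := f.symm.surjective
  have hval : ∀ x : L, (((f.symm x : H) : K) : G) = x := by
    intro x
    have : f (f.symm x) = x := f.apply_symm_apply x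
    exact congrArg Subtype.val this
  have hres : (fun x : L => ϑ ⟨(x : G), hLK.le x.2⟩) = (fun y : H => ϑ y) ∘ (f.symm.toMonoidHom : L →* H) := by
    funext x
    simp only [Function.comp_apply]
    congr 1
  have hirrT : ∀ {φ : H → ℂ}, IsIrrCharacter H φ → IsIrrCharacter L (φ ∘ (f.symm.toMonoidHom : L →* H)) :=
    fun hφ => H21.isIrrCharacter_comp_of_surjective _ hfs hφ
  rcases hmain with h | ⟨φ, e, hφ, h1, h2⟩ | ⟨F, hF, hc, hs⟩
  · left
    rw [hres]
    exact hirrT h
  · right; left
    refine ⟨φ ∘ (f.symm.toMonoidHom : L →* H), e, hirrT hφ, ?_, h2⟩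
    rw [hres, h1]
    rfl
  · right; right
    have hinj : Function.Injective (fun φ : H → ℂ => φ ∘ (f.symm.toMonoidHom : L →* H)) :=
      fun a b hab => hfs.injective_comp_right hab
    refine ⟨F.image (fun φ : H → ℂ => φ ∘ (f.symm.toMonoidHom : L →* H)), ?_, ?_, ?_⟩
    · intro ψ hψ
      obtain ⟨φ, hφ, rfl⟩ := Finset.mem_image.mp hψ
      exact hirrT (hF φ hφ)
    · rw [Finset.card_image_of_injective _ hinj, hc]
      rfl
    · rw [hres, hs, Finset.sum_image (fun a _ b _ hab => hinj hab)]
      funext x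
      simp [Finset.sum_apply]

end Cfsg.Agent.S0857
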