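import Cfsg.Statements.S0859
import Cfsg.Agent.Lib.H04.Cliff.Mono

set_option autoImplicit false
open Cfsg

namespace Cfsg.Agent.S0859

open Cfsg Cfsg.Agent.H21 Cfsg.Agent.H04.Cliff

set_option linter.style.haveILetI false
set_option linter.unusedVariables false
set_option linter.unusedSectionVars false
set_option linter.unusedSimpArgs false


/-- Let G be a finite solvable group and N a normal subgroup such that for every prime p every Sylow p-subgroup of N is abelian. Suppose every irreducible character of G is induced from an irreducible character of some subgroup containing N whose restriction to N is irreducible. Then every irreducible character of G is induced from a character of degree 1 of some subgroup. -/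
theorem result {G : Type*} [Group G] [Fintype G] [Group.IsSolvable G] (N : Subgroup G) [N.Normal] (hab : ∀ (p : ℕ) [Fact p.Prime] (P : Sylow p N), ∀ a ∈ P, ∀ b ∈ P, a * b = b * a) (hrel : ∀ χ : G → ℂ, Cfsg.IsIrrCharacter G χ → ∃ (H : Subgroup G) (hNH : N ≤ H) (ψ : H → ℂ), Cfsg.IsIrrCharacter H ψ ∧ Cfsg.indFun H ψ = χ ∧ Cfsg.IsIrrCharacter N (fun n : N => ψ ⟨(n : G), hNH n.2⟩)) (χ : G → ℂ) (hχ : Cfsg.IsIrrCharacter G χ) : ∃ (U : Subgroup G) (lam : U → ℂ), Cfsg.IsCharacter U lam ∧ lam 1 = 1 ∧ Cfsg.indFun U lam = χ := by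
  classical
  obtain ⟨H, hNH, ψ, hψ, hind, hres⟩ := hrel χ hχ
  have hAGN : AG N := by
    intro p hp P hPN hP a ha b hb
    haveI := Fact.mk hp
    have h1 : IsPGroup p (P.subgroupOf N) := hP.to_le (by
      intro x hx
      exact hx) |> fun h => by
        have hinj : Function.Injective (Subgroup.subgroupOfEquivOfLe hPN).toMonoidHom :=
          (Subgroup.subgroupOfEquivOfLe hPN).injective
        exact IsPGroup.of_injective hP _ hinj
    obtain ⟨Q, hQ⟩ := h1.exists_le_sylow
    have h2 := hab p Q ⟨a, hPN ha⟩ (hQ (Subgroup.mem_subgroupOf.mpr ha)) ⟨b, hPN hb⟩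
      (hQ (Subgroup.mem_subgroupOf.mpr hb))
    exact congrArg Subtype.val h2
  haveI : Group.IsSolvable H := Group.isSolvable_of_isSolvable_injective H.subtype_injective
  have hres' : IsIrrCharacter (N.subgroupOf H) (fun x : N.subgroupOf H => ψ x) := by
    let f : N.subgroupOf H →* N := (Subgroup.subgroupOfEquivOfLe hNH).toMonoidHom
    have hf : Function.Surjective f := (Subgroup.subgroupOfEquivOfLe hNH).surjective
    exact isIrrCharacter_comp_of_surjective f hf hres
  obtain ⟨U₁, μ₁, hμc, hμ1, hμind⟩ := mono_of_irr_res _ H (N.subgroupOf H) rfl (hAGN.sub H) ψ hψ hres'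
  let ee : U₁ ≃* U₁.map H.subtype := U₁.equivMapOfInjective H.subtype H.subtype_injective
  refine ⟨U₁.map H.subtype, μ₁ ∘ ee.symm, isCharacter_comp ee.symm.toMonoidHom hμc, ?_, ?_⟩
  · simpa using hμ1
  · rw [ind_through H U₁ μ₁, hμind, hind]

end Cfsg.Agent.S0859
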