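import Cfsg.Statements.S0860
import Cfsg.Agent.Lib.H06.CharClifford
import Cfsg.Agent.Lib.H21.CharBasis

set_option autoImplicit false
set_option linter.style.haveILetI false

namespace Cfsg.Agent.S0860

open Cfsg Cfsg.Agent.H21 Cfsg.Agent.H06
open scoped ComplexConjugate

theorem result {G : Type*} [Group G] [Finite G] {A : Type*} [Group A] [MulAction A (Cfsg.IrrCharacter G)] [MulAction A (ConjClasses G)] (hcompat : ∀ (a : A) (χ : Cfsg.IrrCharacter G) (g g' : G), ConjClasses.mk g' = a • ConjClasses.mk g → ((a • χ : Cfsg.IrrCharacter G) : G → ℂ) g' = (χ : G → ℂ) g) (a : A) : Nat.card {χ : Cfsg.IrrCharacter G // a • χ = χ} = Nat.card {C : ConjClasses G // a • C = C} := by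
  classical
  haveI := Fintype.ofFinite G
  haveI : Fintype (IrrCharacter G) := Fintype.ofFinite _
  haveI : Fintype (ConjClasses G) := Fintype.ofFinite _
  have hG0 : (Nat.card G : ℂ) ≠ 0 := by simp [Nat.card_pos.ne']
  let f : G → ℂ := fun g => ∑ χ : IrrCharacter G, ((a • χ : IrrCharacter G) : G → ℂ) g * conj ((χ : G → ℂ) g)
  have hfcl : IsClassFunction G f := by
    intro g k
    simp only [f]
    refine Finset.sum_congr rfl fun χ _ => ?_
    have h1 := isCharacter_conj (isCharacter_of_irr χ.2) g k
    have h2 := isCharacter_conj (isCharacter_of_irr (a • χ).2) g k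
    rw [h1, h2]
  have hfval : ∀ r : G, f r = if a • (ConjClasses.mk r) = ConjClasses.mk r then
      (Nat.card (Subgroup.centralizer ({r} : Set G)) : ℂ) else 0 := by
    intro r
    -- pick `s` with `mk r = a • mk s`
    obtain ⟨s, hs⟩ := ConjClasses.mk_surjective (a⁻¹ • ConjClasses.mk r)
    have hs' : ConjClasses.mk r = a • ConjClasses.mk s := by rw [hs, smul_inv_smul]
    have h1 : f r = ∑ χ : IrrCharacter G, (χ : G → ℂ) s * conj ((χ : G → ℂ) r) := by
      simp only [f]
      refine Finset.sum_congr rfl fun χ _ => ?_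
      rw [hcompat a χ s r hs']
    rw [h1]
    have h2 : a • ConjClasses.mk r = ConjClasses.mk r ↔ IsConj s r := by
      rw [← ConjClasses.mk_eq_mk_iff_isConj]
      constructor
      · intro h
        rw [hs]
        exact inv_smul_eq_iff.mpr h.symm
      · intro h
        rw [hs, inv_smul_eq_iff] at h
        exact h.symm
    split_ifs with h
    · exact column_orthogonality_of_isConj (h2.mp h)
    · exact column_orthogonality_of_not_isConj (fun hc => h (h2.mpr hc))
  have h1 : ∑ χ : IrrCharacter G, classInner ((a • χ : IrrCharacter G) : G → ℂ) (χ : G → ℂ) =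
      (Nat.card {χ : IrrCharacter G // a • χ = χ} : ℂ) := by
    have : ∀ χ : IrrCharacter G, classInner ((a • χ : IrrCharacter G) : G → ℂ) (χ : G → ℂ) =
        if a • χ = χ then 1 else 0 := by
      intro χ
      exact classInner_irr (a • χ) χ
    simp only [this]
    rw [Finset.sum_boole, Nat.card_eq_fintype_card, Fintype.card_subtype]
  have h2 : ∑ χ : IrrCharacter G, classInner ((a • χ : IrrCharacter G) : G → ℂ) (χ : G → ℂ) =
      (Nat.card G : ℂ)⁻¹ * ∑ g : G, f g := by
    simp only [classInner, f]
    rw [← Finset.mul_sum, Finset.sum_comm]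
  have h3 : ∑ g : G, f g = (Nat.card G : ℂ) *
      (Nat.card {C : ConjClasses G // a • C = C} : ℂ) := by
    have hfib := Finset.sum_fiberwise_of_maps_to (s := (Finset.univ : Finset G))
      (t := (Finset.univ : Finset (ConjClasses G))) (g := ConjClasses.mk)
      (fun x _ => Finset.mem_univ _) f
    rw [← hfib, Nat.card_eq_fintype_card (α := {C : ConjClasses G // _}), Fintype.card_subtype,
      ← Finset.sum_boole, Finset.mul_sum]
    refine Finset.sum_congr rfl fun C _ => ?_
    obtain ⟨r, rfl⟩ := ConjClasses.mk_surjective C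
    have h4 : ∑ g ∈ Finset.univ.filter (fun g => ConjClasses.mk g = ConjClasses.mk r), f g =
        ∑ x : G, classIndicator r x * f x := by
      rw [Finset.sum_filter]
      refine Finset.sum_congr rfl fun x _ => ?_
      simp only [classIndicator, ConjClasses.mk_eq_mk_iff_isConj]
      split_ifs <;> simp
    rw [h4, sum_isConj f hfcl r, hfval r]
    by_cases h6 : a • ConjClasses.mk r = ConjClasses.mk r
    · rw [if_pos h6, if_pos h6]
      rw [← Nat.cast_mul, index_mul_card_centralizer r]
      simp
    · rw [if_neg h6, if_neg h6]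
      simp
  rw [h2, h3, ← mul_assoc, inv_mul_cancel₀ hG0, one_mul] at h1
  exact_mod_cast h1.symm

end Cfsg.Agent.S0860
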