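import Cfsg.Statements.S0861
import Cfsg.Agent.Lib.H23.KGV2

set_option autoImplicit false

namespace Cfsg.Agent.S0861

open Cfsg Cfsg.Agent.H23 Cfsg.Agent.H21

set_option linter.style.haveILetI false

theorem result {G : Type*} [Group G] [Finite G] (p : ℕ) [Fact p.Prime] (P : Sylow p G) [(P : Subgroup G).Normal] (hab : ∀ a ∈ P, ∀ b ∈ P, a * b = b * a) (g : G) (hg : g ∈ P) (hC : Subgroup.centralizer ({g} : Set G) = P) : Nat.card (Cfsg.IrrCharacter G) ≤ Nat.card P ∧ (Nat.card (Cfsg.IrrCharacter G) = Nat.card P → commutator G ≤ P) := by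
  classical
  haveI := Fintype.ofFinite G
  have hcop : (Nat.card (P : Subgroup G)).Coprime (P : Subgroup G).index := P.card_coprime_index
  obtain ⟨H, hH⟩ := Subgroup.exists_right_complement'_of_coprime hcop
  have hidx : ¬ p ∣ (P : Subgroup G).index := P.not_dvd_index
  have key := card_conjClasses_le_semi (V := (P : Subgroup G)) (G := H) (p := p)
    P.isPGroup' hidx hab hH (v := g) hg
  have hbot : H ⊓ Subgroup.centralizer ({g} : Set G) = ⊥ := by
    rw [hC]
    have := hH.disjoint
    rw [inf_comm]
    exact disjoint_iff.mp this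
  rw [hbot] at key
  simp only [Subgroup.card_bot, one_mul] at key
  have hcard : Nat.card (Cfsg.IrrCharacter G) = Nat.card (ConjClasses G) := by
    exact card_irr_eq_card_conjClasses
  have hle : Nat.card (ConjClasses H) ≤ Nat.card H := by
    exact Nat.card_le_card_of_surjective (ConjClasses.mk : H → ConjClasses H)
      ConjClasses.mk_surjective
  rw [hcard]
  refine ⟨by omega, fun he => ?_⟩
  have heq : Nat.card (ConjClasses H) = Nat.card H := by omega
  have hinj : Function.Injective (ConjClasses.mk : H → ConjClasses H) := by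
    have hb := (Nat.bijective_iff_surjective_and_card (ConjClasses.mk : H → ConjClasses H)).2
      ⟨ConjClasses.mk_surjective, heq.symm⟩
    exact hb.1
  have hcomm : ∀ a b : H, a * b = b * a := by
    intro a b
    have h1 : IsConj (b * a * b⁻¹) a := by
      rw [isConj_comm]; exact isConj_iff.mpr ⟨b, rfl⟩
    have h2 : b * a * b⁻¹ = a := hinj (ConjClasses.mk_eq_mk_iff_isConj.mpr h1)
    calc a * b = (b * a * b⁻¹) * b := by rw [h2]
      _ = b * a := by group
  -- `G ⧸ P` is a quotient of `H`.
  have hsurj : Function.Surjective ((QuotientGroup.mk' (P : Subgroup G)).comp H.subtype) := by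
    intro q
    obtain ⟨x, rfl⟩ := QuotientGroup.mk'_surjective (P : Subgroup G) q
    obtain ⟨⟨a, b⟩, hab'⟩ := hH.2 x
    refine ⟨b, ?_⟩
    simp only [MonoidHom.coe_comp, Function.comp_apply, Subgroup.coe_subtype]
    rw [← hab']
    simp only [QuotientGroup.mk'_apply]
    rw [QuotientGroup.eq]
    have : ((b : G))⁻¹ * ((a : G) * (b : G)) = (b : G)⁻¹ * (a : G) * (b : G) := by group
    show (b : G)⁻¹ * ((a : G) * (b : G)) ∈ (P : Subgroup G)
    rw [this]
    have hn : (P : Subgroup G).Normal := inferInstance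
    have := hn.conj_mem a a.2 (b : G)⁻¹
    simpa using this
  rw [commutator_def, Subgroup.commutator_le]
  intro x _ y _
  rw [← QuotientGroup.eq_one_iff]
  obtain ⟨a, ha⟩ := hsurj (x : G ⧸ (P : Subgroup G))
  obtain ⟨b, hb⟩ := hsurj (y : G ⧸ (P : Subgroup G))
  have hcq : ((x : G ⧸ (P : Subgroup G))) * (y : G ⧸ (P : Subgroup G)) =
      (y : G ⧸ (P : Subgroup G)) * (x : G ⧸ (P : Subgroup G)) := by
    rw [← ha, ← hb, ← map_mul, ← map_mul, hcomm]
  simp only [commutatorElement_def, QuotientGroup.mk_mul, QuotientGroup.mk_inv]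
  rw [hcq]
  group

end Cfsg.Agent.S0861
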