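import Cfsg.Statements.S0862
import Cfsg.Agent.Lib.H04.Cliff.Det

set_option autoImplicit false
open Cfsg

namespace Cfsg.Agent.S0862

open Cfsg Cfsg.Agent.H21 Cfsg.Agent.H04.Cliff Module
open scoped ComplexConjugate

set_option linter.style.haveILetI false
set_option linter.unusedVariables false
set_option linter.unusedSectionVars false
set_option linter.unusedSimpArgs false


/-- Let N be a normal subgroup of the finite group G and ϑ an irreducible character of N of degree d coprime to the index of N, which is the restriction of some irreducible character of G. Let μ be a character of G of degree 1 whose restriction to N is the determinantal character of ϑ. Then there is exactly one irreducible character χ of G restricting to ϑ whose determinantal character is μ. -/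
theorem result {G : Type*} [Group G] [Finite G] (N : Subgroup G) [N.Normal] (ϑ : N → ℂ) (hϑ : Cfsg.IsIrrCharacter N ϑ) (d : ℕ) (hd : ϑ 1 = d) (hcop : Nat.Coprime N.index d) (hext : ∃ η : G → ℂ, Cfsg.IsIrrCharacter G η ∧ (∀ n : N, η n = ϑ n)) (μ : G → ℂ) (hμ : Cfsg.IsCharacter G μ ∧ μ 1 = 1) (hμN : ∀ n : N, μ n = Cfsg.detChar ϑ n) : ∃! χ : G → ℂ, Cfsg.IsIrrCharacter G χ ∧ (∀ n : N, χ n = ϑ n) ∧ Cfsg.detChar χ = μ := by
  obtain ⟨m, ρ, hρ, rfl⟩ := hϑ
  have hfin := finrank_of_degree ρ hd
  obtain ⟨η, hη, hηn⟩ := hext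
  obtain ⟨τ, -, hτ⟩ := exists_rep_on_W ρ N.subtype (isCharacter_of_irr hη) hηn
  obtain ⟨hμc, hμ1⟩ := hμ
  obtain ⟨τ', hτ', hdet, huniq⟩ := det_ext_unique hρ τ hτ (by rw [hfin]; exact hcop)
    (linU μ hμc hμ1) (fun n => by
      rw [coe_linU, hμN, detChar_rep ρ n])
  obtain ⟨h1, h2⟩ := char_of_ext hρ hτ'
  refine ⟨τ'.character, ⟨h1, h2, ?_⟩, ?_⟩
  · funext g
    rw [detChar_rep τ' g, ← hdet g, coe_linU]
  · rintro χ' ⟨hχ', hχ'n, hχ'd⟩
    obtain ⟨τ'', rfl, hτ''⟩ := exists_rep_on_W ρ N.subtype (isCharacter_of_irr hχ') hχ'n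
    have := huniq τ'' hτ'' (fun g => by
      rw [coe_linU, ← hχ'd, detChar_rep τ'' g])
    rw [this]

end Cfsg.Agent.S0862
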