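import Cfsg.Statements.S0865
import Cfsg.Agent.Lib.H04.Cliff.Det

set_option autoImplicit false
open Cfsg

namespace Cfsg.Agent.S0865

open Cfsg Cfsg.Agent.H21 Cfsg.Agent.H04.Cliff Module
open scoped ComplexConjugate

set_option linter.style.haveILetI false
set_option linter.unusedVariables false
set_option linter.unusedSectionVars false
set_option linter.unusedSimpArgs false


/-- Let N be a normal subgroup of the finite group G and λ a character of N of degree 1, invariant under conjugation by G, whose order (under pointwise multiplication) is coprime to the index of N. Then there is a character μ of G of degree 1 restricting to λ with the same order as λ, and μ is the only degree-1 character of G restricting to λ whose order is coprime to the index of N. -/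
theorem result {G : Type*} [Group G] [Finite G] (N : Subgroup G) [hN : N.Normal] (lam : N → ℂ) (hlam : Cfsg.IsCharacter N lam ∧ lam 1 = 1) (hinv : ∀ (g : G) (n : N), lam ⟨g * n * g⁻¹, hN.conj_mem (n : G) n.2 g⟩ = lam n) (hcop : Nat.Coprime N.index (orderOf lam)) : ∃ μ : G → ℂ, (Cfsg.IsCharacter G μ ∧ μ 1 = 1 ∧ (∀ n : N, μ n = lam n) ∧ orderOf μ = orderOf lam) ∧ ∀ μ' : G → ℂ, Cfsg.IsCharacter G μ' ∧ μ' 1 = 1 → (∀ n : N, μ' n = lam n) → Nat.Coprime N.index (orderOf μ') → μ' = μ := by
  classical
  let φ : N →* ℂˣ := linU lam hlam.1 hlam.2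
  have hord : orderOf φ = orderOf lam := by
    rw [← orderOf_coe φ]
    rfl
  obtain ⟨μ, hμ, hμo, huniq⟩ := canon_ext N φ
    (fun g n => by
      apply Units.ext
      exact hinv g n)
    (by rw [hord]; exact hcop)
  refine ⟨fun g => (μ g : ℂ), ⟨Cfsg.Agent.H23.isCharacter_hom μ, by simp, fun n => ?_, ?_⟩, ?_⟩
  · show (μ n : ℂ) = lam n
    rw [hμ]; rfl
  · rw [orderOf_coe, hμo, hord]
  · rintro μ' ⟨h1, h2⟩ h3 h4
    let ω : G →* ℂˣ := linU μ' h1 h2
    have hω : ω = μ := by
      apply huniq
      · intro n
        apply Units.ext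
        exact h3 n
      · have : orderOf ω = orderOf μ' := by
          rw [← orderOf_coe ω]
          rfl
        rw [this]
        exact h4
    funext g
    rw [← hω]
    rfl

end Cfsg.Agent.S0865
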