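import Cfsg.Statements.S0866
import Cfsg.Agent.Lib.H04.Cliff.Det

set_option autoImplicit false
open Cfsg

namespace Cfsg.Agent.S0866

open Cfsg Cfsg.Agent.H21 Cfsg.Agent.H04.Cliff Module
open scoped ComplexConjugate

set_option linter.style.haveILetI false
set_option linter.unusedVariables false
set_option linter.unusedSectionVars false
set_option linter.unusedSimpArgs false


/-- Let N be a normal subgroup of the finite group G and ϑ an irreducible character of N, invariant under conjugation by G, of degree d coprime to the index of N. Then ϑ is the restriction of an irreducible character of G if and only if the determinantal character of ϑ is the restriction of a character of G of degree 1. -/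
theorem result {G : Type*} [Group G] [Finite G] (N : Subgroup G) [hN : N.Normal] (ϑ : N → ℂ) (hϑ : Cfsg.IsIrrCharacter N ϑ) (hinv : ∀ (g : G) (n : N), ϑ ⟨g * n * g⁻¹, hN.conj_mem (n : G) n.2 g⟩ = ϑ n) (d : ℕ) (hd : ϑ 1 = d) (hcop : Nat.Coprime N.index d) : (∃ χ : G → ℂ, Cfsg.IsIrrCharacter G χ ∧ (∀ n : N, χ n = ϑ n)) ↔ ∃ μ : G → ℂ, Cfsg.IsCharacter G μ ∧ μ 1 = 1 ∧ ∀ n : N, μ n = Cfsg.detChar ϑ n := by
  obtain ⟨m, ρ, hρ, rfl⟩ := hϑ
  have hinv' := inv_of_char rfl hinv
  have hfin := finrank_of_degree ρ hd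
  constructor
  · rintro ⟨χ, hχ, hχn⟩
    obtain ⟨τ, rfl, hτ⟩ := exists_rep_on_W ρ N.subtype (isCharacter_of_irr hχ) hχn
    refine ⟨fun g => (detU τ g : ℂ), Cfsg.Agent.H23.isCharacter_hom _, by simp, fun n => ?_⟩
    show LinearMap.det (τ (N.subtype n)) = _
    rw [detChar_rep ρ n, hτ]
  · rintro ⟨μ, hμ, hμ1, hμn⟩
    obtain ⟨τ, -, hτ⟩ := extends_of_det hρ hinv' (linU μ hμ hμ1)
      (fun n => by
        rw [coe_linU, hμn, detChar_rep ρ n])
      (by rw [hfin]; exact hcop)
    obtain ⟨h1, h2⟩ := char_of_ext hρ hτ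
    exact ⟨τ.character, h1, h2⟩

end Cfsg.Agent.S0866
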