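import Cfsg.Statements.S0868
import Cfsg.Agent.Lib.H04.Cliff.Gallagher

set_option autoImplicit false
open scoped ComplexConjugate
open Cfsg

namespace Cfsg.Agent.S0868

open Cfsg Cfsg.Agent.H21 Cfsg.Agent.H04.Cliff Module
open scoped ComplexConjugate

set_option linter.style.haveILetI false
set_option linter.unusedVariables false
set_option linter.unusedSectionVars false
set_option linter.unusedSimpArgs false


/-- Let N be a normal subgroup of the finite group G, χ an irreducible character of G whose restriction ϑ to N is irreducible, and ψ an irreducible character of G. Define η on G by η g = (1 / order of N) * Σ over n in N of ψ (n * g) * conj (χ (n * g)). Then: if the restriction of ψ to N has nonzero inner product with ϑ, η is an irreducible character of G; if that inner product is zero, η vanishes identically; and if ψ = χ then η is identically 1. -/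
theorem result {G : Type*} [Group G] [Fintype G] (N : Subgroup G) [N.Normal] [Fintype N] (χ : G → ℂ) (hχ : Cfsg.IsIrrCharacter G χ) (hχN : Cfsg.IsIrrCharacter N (fun n : N => χ n)) (ψ : G → ℂ) (hψ : Cfsg.IsIrrCharacter G ψ) (η : G → ℂ) (hη : η = fun g => (Nat.card N : ℂ)⁻¹ * ∑ n : N, ψ ((n : G) * g) * conj (χ ((n : G) * g))) : (Cfsg.classInner (fun n : N => ψ n) (fun n : N => χ n) ≠ 0 → Cfsg.IsIrrCharacter G η) ∧ (Cfsg.classInner (fun n : N => ψ n) (fun n : N => χ n) = 0 → η = 0) ∧ (ψ = χ → η = fun _ => 1) := by
  classical
  haveI : Fintype (IrrCharacter G) := Fintype.ofFinite _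
  have hχc := isCharacter_of_irr hχ
  have hψc := isCharacter_of_irr hψ
  have hcard : (Nat.card N : ℂ) ≠ 0 := Nat.cast_ne_zero.mpr Nat.card_pos.ne'
  subst hη
  refine ⟨fun hne => ?_, fun h0 => ?_, fun hEq => ?_⟩
  · -- Gallagher with the trivial character
    have hone : IsIrrCharacter N (fun _ : N => (1 : ℂ)) := isIrrCharacter_one
    have hmul : (fun _ : N => (1 : ℂ)) * (fun n : N => χ n) = (fun n : N => χ n) := by
      funext n; simp
    have hinv1 : ∀ t : G, H06.twist N (fun _ : N => (1 : ℂ)) t = fun _ : N => (1 : ℂ) := fun t => rfl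
    have hinv2 : ∀ t : G, H06.twist N (fun n : N => χ n) t = fun n : N => χ n := by
      intro t
      funext n
      exact isCharacter_conj hχc (n : G) t
    have hbij := gallagher_bij N hone (by rw [hmul]; exact hχN) hinv1 hinv2 hχc (fun n => rfl)
    have hmem : ψ ∈ {ψ : G → ℂ | IsIrrCharacter G ψ ∧
        classInner (indFun N ((fun _ : N => (1 : ℂ)) * (fun n : N => χ n))) ψ ≠ 0} := by
      refine ⟨hψ, ?_⟩
      rw [hmul, frobenius_reciprocity N _ _ (isClassFunction_of_isCharacter hψc)]
      intro h
      apply hne
      rw [← classInner_comm_conj, h, map_zero]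
    obtain ⟨β, ⟨hβ, hβc⟩, hβψ⟩ := hbij.surjOn hmem
    simp only at hβψ
    obtain ⟨e, he, -, hres⟩ := H06.clifford_restrict N hone hβ hinv1 hβc
    have hβ1 : ∀ n : N, β n = β 1 := by
      intro n
      have h1 := hres n
      have h2 := hres 1
      simp only [OneMemClass.coe_one] at h2
      rw [h1, h2]
    have hβg : ∀ (n : N) (g : G), β ((n : G) * g) = β g := fun n g =>
      character_mul_of_mem_ker (isCharacter_of_irr hβ) (hβ1 n) g
    have hres1 : classInner (fun n : N => χ n) (fun n : N => χ n) = 1 := H06.classInner_irr_self hχN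
    have : (fun g => (Nat.card N : ℂ)⁻¹ * ∑ n : N, ψ ((n : G) * g) * conj (χ ((n : G) * g))) = β := by
      funext g
      have h1 : ∀ n : N, ψ ((n : G) * g) * conj (χ ((n : G) * g)) =
          β g * (χ ((n : G) * g) * conj (χ ((n : G) * g))) := by
        intro n
        rw [← hβψ, Pi.mul_apply, hβg]
        ring
      simp only [h1]
      rw [← Finset.mul_sum, H23.sum_coset_norm_eq N hχ hres1 g]
      field_simp
    rw [this]
    exact hβ
  · funext g
    have := H23.sum_coset_mul_conj N hψc hχc h0 g
    simp only [this, mul_zero, Pi.zero_apply]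
  · subst hEq
    funext g
    have hres1 : classInner (fun n : N => ψ n) (fun n : N => ψ n) = 1 := H06.classInner_irr_self hχN
    rw [H23.sum_coset_norm_eq N hψ hres1 g]
    field_simp

end Cfsg.Agent.S0868
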