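-- Banaschewski's lemma
import Cfsg.Statements.S0869
import Mathlib

set_option autoImplicit false
open Cfsg

namespace Cfsg.Agent.S0869

/-- Let R be an additive subgroup of the functions from a nonempty finite set S to the integers, closed under pointwise multiplication, that does not contain the constant function 1. Then there are a point x in S and a prime p such that p divides f(x) for every f in R. -/
theorem result {S : Type*} [Finite S] [Nonempty S] (R : AddSubgroup (S → ℤ)) (hmul : ∀ f ∈ R, ∀ g ∈ R, f * g ∈ R) (h1 : (1 : S → ℤ) ∉ R) : ∃ (x : S) (p : ℕ), p.Prime ∧ ∀ f ∈ R, (p : ℤ) ∣ f x := by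
  classical
  by_contra hcon
  push Not at hcon
  -- at each point some f takes the value 1
  have hpt : ∀ x : S, ∃ f ∈ R, f x = 1 := by
    intro x
    -- the ideal of values at x
    let I : AddSubgroup ℤ := R.map (Pi.evalAddMonoidHom (fun _ => ℤ) x)
    obtain ⟨d, hd⟩ : ∃ d : ℤ, I = AddSubgroup.zmultiples d :=
      by
        obtain ⟨a, ha⟩ := Int.subgroup_cyclic I
        exact ⟨a, by rw [ha, AddSubgroup.zmultiples_eq_closure]⟩
    have hd1 : d.natAbs = 1 := by
      by_contra hne
      obtain ⟨p, hp, hdvd⟩ := Nat.exists_prime_and_dvd hne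
      obtain ⟨f, hf, hnd⟩ := hcon x p hp
      apply hnd
      have hmem : f x ∈ I := ⟨f, hf, rfl⟩
      rw [hd] at hmem
      obtain ⟨k, hk⟩ := AddSubgroup.mem_zmultiples_iff.mp hmem
      rw [← hk]
      have : (p : ℤ) ∣ d := Int.natCast_dvd.mpr hdvd
      simpa using Dvd.dvd.mul_left this k
    have hmem : d ∈ I := by rw [hd]; exact AddSubgroup.mem_zmultiples d
    obtain ⟨f, hf, hfx⟩ := hmem
    have hfx' : f x = d := hfx
    rcases Int.natAbs_eq d with h | h
    · rw [hd1] at h
      exact ⟨f, hf, by rw [hfx', h]; rfl⟩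
    · rw [hd1] at h
      refine ⟨-f, R.neg_mem hf, ?_⟩
      simp [hfx', h]
  choose F hFR hF1 using hpt
  -- claim: for every finite set T, there is g ∈ R with g y = 1 on T
  have key : ∀ T : Finset S, ∃ g ∈ R, ∀ y ∈ T, g y = 1 := by
    intro T
    induction T using Finset.induction_on with
    | empty =>
      obtain ⟨x⟩ := ‹Nonempty S›
      exact ⟨0, R.zero_mem, by simp⟩
    | insert a s ha ih =>
      obtain ⟨g, hg, hgs⟩ := ih
      refine ⟨g + F a - g * F a, R.sub_mem (R.add_mem hg (hFR a)) (hmul _ hg _ (hFR a)), ?_⟩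
      intro y hy
      rw [Finset.mem_insert] at hy
      rcases hy with rfl | hy
      · simp [hF1]
      · simp [hgs y hy]
  have := Fintype.ofFinite S
  obtain ⟨g, hg, hg1⟩ := key Finset.univ
  apply h1
  have : g = 1 := by
    funext y
    simpa using hg1 y (Finset.mem_univ y)
  rwa [this] at hg

end Cfsg.Agent.S0869
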