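import Cfsg.Statements.S0873
import Cfsg.Agent.Lib.H04.CharBasic
import Mathlib

set_option autoImplicit false
set_option linter.style.haveILetI false
open Cfsg

namespace Cfsg.Agent.S0873

open Cfsg.Agent.H04

theorem result {G : Type*} [Group G] [Finite G] (p : ℕ) [Fact p.Prime] (C P : Subgroup G) [hC : C.Normal] (hP : IsPGroup p P) (hcop : Nat.Coprime (Nat.card C) p) (hCP : C ⊔ P = ⊤) (lam : C → ℂ) (hlam : Cfsg.IsCharacter C lam ∧ lam 1 = 1) (hinv : ∀ (g : G) (c : C), lam ⟨g * c * g⁻¹, hC.conj_mem (c : G) c.2 g⟩ = lam c) (hker : ∀ c : C, (c : G) ∈ Subgroup.centralizer (P : Set G) → lam c = 1) : lam = fun _ => 1 := by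
  classical
  have hmul := linChar_mul hlam.1 hlam.2
  have hne := linChar_ne_zero hlam.1 hlam.2
  funext c0
  -- the kernel
  let K : Subgroup C :=
    { carrier := {c | lam c = 1}
      one_mem' := hlam.2
      mul_mem' := fun {a b} ha hb => by
        show lam (a * b) = 1
        rw [hmul, show lam a = 1 from ha, show lam b = 1 from hb, one_mul]
      inv_mem' := fun {a} ha => by
        show lam a⁻¹ = 1
        have h := hmul a a⁻¹
        rw [mul_inv_cancel, show lam a = 1 from ha, hlam.2, one_mul] at h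
        exact h.symm }
  let A := {c : C // lam c = lam c0}
  have hAcard : Nat.card A = Nat.card K := by
    apply Nat.card_congr
    refine
      { toFun := fun a => ⟨a.1 * c0⁻¹, ?_⟩
        invFun := fun k => ⟨k.1 * c0, ?_⟩
        left_inv := fun a => by apply Subtype.ext; simp
        right_inv := fun k => by apply Subtype.ext; simp }
    · show lam (a.1 * c0⁻¹) = 1
      have h := hmul c0 c0⁻¹
      rw [mul_inv_cancel, hlam.2] at h
      rw [hmul, a.2, ← h]
    · show lam (k.1 * c0) = lam c0
      rw [hmul, show lam k.1 = 1 from k.2, one_mul]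
  letI act : MulAction P A :=
    { smul := fun q a => ⟨⟨(q : G) * (a.1 : G) * (q : G)⁻¹, hC.conj_mem _ a.1.2 _⟩, by
        rw [hinv]; exact a.2⟩
      one_smul := fun a => by
        apply Subtype.ext; apply Subtype.ext
        show ((1 : P) : G) * (a.1 : G) * ((1 : P) : G)⁻¹ = a.1
        simp
      mul_smul := fun u v a => by
        apply Subtype.ext; apply Subtype.ext
        show ((u * v : P) : G) * (a.1 : G) * ((u * v : P) : G)⁻¹ = (u : G) * ((v : G) * (a.1 : G) * (v : G)⁻¹) * (u : G)⁻¹
        simp only [Subgroup.coe_mul, mul_inv_rev]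
        group }
  have hsmul : ∀ (q : P) (a : A), (((q • a : A) : C) : G) = (q : G) * (a.1 : G) * (q : G)⁻¹ := fun _ _ => rfl
  have key := hP.card_modEq_card_fixedPoints A
  have hpnd : ¬ p ∣ Nat.card A := by
    rw [hAcard]
    intro hd
    have h1 : Nat.card K ∣ Nat.card C := Subgroup.card_subgroup_dvd_card K
    have h2 := hd.trans h1
    have h3 := Nat.Coprime.eq_one_of_dvd hcop.symm h2
    exact (Fact.out : p.Prime).one_lt.ne' h3
  have hne' : Nonempty (MulAction.fixedPoints P A) := by
    by_contra hcon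
    rw [not_nonempty_iff] at hcon
    have h0 : Nat.card (MulAction.fixedPoints P A) = 0 := Nat.card_of_isEmpty
    rw [h0] at key
    exact hpnd ((Nat.modEq_zero_iff_dvd).mp key)
  obtain ⟨⟨z, hz⟩⟩ := hne'
  have hzc : ((z.1 : C) : G) ∈ Subgroup.centralizer (P : Set G) := by
    rw [Subgroup.mem_centralizer_iff]
    intro q hq
    have h1 : q * ((z.1 : C) : G) * q⁻¹ = ((z.1 : C) : G) :=
      congrArg (fun a : A => ((a : C) : G)) (hz ⟨q, hq⟩)
    exact mul_inv_eq_iff_eq_mul.mp h1
  have h2 := hker z.1 hzc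
  rw [← z.2, h2]

end Cfsg.Agent.S0873
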