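import Cfsg.Statements.S0875
import Cfsg.Agent.Lib.H04.Cliff.AlgCoef
import Cfsg.Agent.Lib.H23.CharAvg
import Cfsg.Agent.Lib.H09.KChief
import Cfsg.Agent.Lib.H06.Brauer3

set_option autoImplicit false
open Cfsg

namespace Cfsg.Agent.S0875

open Cfsg Cfsg.Agent.H21 Cfsg.Agent.H04.Cliff Cfsg.Agent.H06.Brauer Cfsg.Agent.H06 Module
open scoped ComplexConjugate

set_option linter.style.haveILetI false
set_option linter.unusedVariables false
set_option linter.unusedSectionVars false
set_option linter.unusedSimpArgs false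

/-- Uniqueness of the part of order prime to `m`. -/
theorem part_unique {G : Type*} [Group G] {m n : ℕ} (hcop : Nat.Coprime m n)
    {u v u' v' : G} (hu : u ^ m = 1) (hv : v ^ n = 1) (hu' : u' ^ m = 1) (hv' : v' ^ n = 1)
    (hc : Commute u v) (hc' : Commute u' v') (h : u * v = u' * v') : v = v' := by
  have hgcd := Nat.gcd_eq_gcd_ab m n
  rw [hcop.gcd_eq_one] at hgcd
  have key : ∀ a b : G, a ^ m = 1 → b ^ n = 1 → Commute a b →
      (a * b) ^ ((m : ℤ) * Nat.gcdA m n) = b := by
    intro a b ha hb hab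
    rw [hab.mul_zpow]
    have h1 : a ^ ((m : ℤ) * Nat.gcdA m n) = 1 := by
      rw [zpow_mul, zpow_natCast, ha, one_zpow]
    have h2 : b ^ ((m : ℤ) * Nat.gcdA m n) = b := by
      have h3 : ((m : ℤ) * Nat.gcdA m n) = 1 - (n : ℤ) * Nat.gcdB m n := by
        have := hgcd
        push_cast at this
        linarith
      rw [h3, zpow_sub, zpow_one, zpow_mul, zpow_natCast, hb, one_zpow, inv_one, mul_one]
    rw [h1, h2, one_mul]
  rw [← key u v hu hv hc, ← key u' v' hu' hv' hc', h]

theorem pow_m_of_coprime {G : Type*} [Group G] [Finite G] {m n : ℕ} (hmn : Nat.card G = m * n) {u : G}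
    (h : Nat.Coprime (orderOf u) n) : u ^ m = 1 := by
  have h1 : orderOf u ∣ m * n := hmn ▸ orderOf_dvd_natCard u
  exact orderOf_dvd_iff_pow_eq_one.1 (h.dvd_of_dvd_mul_right h1)

theorem pow_n_of_coprime {G : Type*} [Group G] [Finite G] {m n : ℕ} (hmn : Nat.card G = m * n) {u : G}
    (h : Nat.Coprime (orderOf u) m) : u ^ n = 1 := by
  have h1 : orderOf u ∣ m * n := hmn ▸ orderOf_dvd_natCard u
  exact orderOf_dvd_iff_pow_eq_one.1 (h.dvd_of_dvd_mul_left h1)

theorem coprime_of_pow {G : Type*} [Group G] {m n : ℕ} (hcop : Nat.Coprime m n) {u : G}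
    (h : u ^ m = 1) : Nat.Coprime (orderOf u) n :=
  Nat.Coprime.coprime_dvd_left (orderOf_dvd_of_pow_eq_one h) hcop


/-- Let G be a finite group of order m * n with m and n coprime, and g an element whose order is coprime to m. Every x in G factors uniquely as x = u * v with u, v commuting, the order of u coprime to n and the order of v coprime to m; let ϑ be the function on G equal to n at those x whose factor v is conjugate to g and equal to 0 elsewhere. Then ϑ is a linear combination of the irreducible characters of G with algebraic-integer coefficients. -/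
theorem result {G : Type*} [Group G] [Fintype G] (m n : ℕ) (hmn : Nat.card G = m * n) (hcop : Nat.Coprime m n) (g : G) (hg : Nat.Coprime (orderOf g) m) (ϑ : G → ℂ) (hϑ1 : ∀ x : G, (∃ v : G, IsConj v g ∧ (∃ u : G, x = u * v ∧ Commute u v ∧ Nat.Coprime (orderOf u) n ∧ Nat.Coprime (orderOf v) m)) → ϑ x = n) (hϑ0 : ∀ x : G, (¬ ∃ v : G, IsConj v g ∧ (∃ u : G, x = u * v ∧ Commute u v ∧ Nat.Coprime (orderOf u) n ∧ Nat.Coprime (orderOf v) m)) → ϑ x = 0) : ∃ c : Cfsg.IrrCharacter G → ℂ, (∀ χ, c χ ∈ Cfsg.AlgInt) ∧ ϑ = ∑ᶠ χ : Cfsg.IrrCharacter G, c χ • (χ : G → ℂ) := by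
  classical
  haveI : Fintype (IrrCharacter G) := Fintype.ofFinite _
  -- the predicate
  let D : G → Prop := fun x => ∃ v : G, IsConj v g ∧ (∃ u : G, x = u * v ∧ Commute u v ∧
    Nat.Coprime (orderOf u) n ∧ Nat.Coprime (orderOf v) m)
  have hDconj : ∀ x h : G, D x → D (h * x * h⁻¹) := by
    rintro x h ⟨v, hv, u, rfl, huv, hu, hv'⟩
    refine ⟨h * v * h⁻¹, ?_, h * u * h⁻¹, by group, ?_, ?_, ?_⟩
    · exact (isConj_iff.2 ⟨h⁻¹, by group⟩).trans hv
    · show (h * u * h⁻¹) * (h * v * h⁻¹) = (h * v * h⁻¹) * (h * u * h⁻¹)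
      have : u * v = v * u := huv
      calc (h * u * h⁻¹) * (h * v * h⁻¹) = h * (u * v) * h⁻¹ := by group
        _ = h * (v * u) * h⁻¹ := by rw [this]
        _ = _ := by group
    · rw [Cfsg.Agent.H09.orderOf_conj']; exact hu
    · rw [Cfsg.Agent.H09.orderOf_conj']; exact hv'
  have hcl : IsClassFunction G ϑ := by
    intro x h
    by_cases hx : D x
    · rw [hϑ1 _ (hDconj x h hx), hϑ1 _ hx]
    · have hx' : ¬ D (h * x * h⁻¹) := fun h' => hx (by
        have := hDconj _ h⁻¹ h'
        simpa [mul_assoc] using this)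
      rw [hϑ0 _ hx', hϑ0 _ hx]
  -- the local statement
  have hloc : ∀ (E : Subgroup G) (p : ℕ), p.Prime → IsElementary p E →
      ∀ ξ : E → ℂ, IsGeneralizedCharacter E ξ →
      IsIntegral ℤ ((Nat.card E : ℂ)⁻¹ * ∑ t : E, ϑ t * ξ t) := by
    intro E p hp hE ξ hξ
    haveI hnil : Group.IsNilpotent E := IsElementary_nilpotent hp hE
    have hcardE : Nat.card E ∣ m * n := hmn ▸ Subgroup.card_subgroup_dvd_card E
    refine elem_inner hcop hcardE {b : E | IsConj (b : G) g} (fun t => ϑ t) ?_ ?_ hξ
    · intro a b ha hb hab hS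
      apply hϑ1
      have ha' : (a : G) ^ m = 1 := by simpa using congrArg Subtype.val ha
      have hb' : (b : G) ^ n = 1 := by simpa using congrArg Subtype.val hb
      refine ⟨b, hS, a, rfl, ?_, coprime_of_pow hcop ha', coprime_of_pow hcop.symm hb'⟩
      exact congrArg Subtype.val hab
    · intro a b ha hb hab hS
      apply hϑ0
      have ha' : (a : G) ^ m = 1 := by simpa using congrArg Subtype.val ha
      have hb' : (b : G) ^ n = 1 := by simpa using congrArg Subtype.val hb
      rintro ⟨v, hv, u, he, huv, hu, hv'⟩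
      apply hS
      have h1 : (b : G) = v := part_unique hcop ha' hb' (pow_m_of_coprime hmn hu)
        (pow_n_of_coprime hmn hv') (congrArg Subtype.val hab) huv he
      show IsConj (b : G) g
      rw [h1]
      exact hv
  have hall : ∀ χ : IrrCharacter G, ∀ f ∈ VZ G, IsIntegral ℤ (classInner (ϑ * f) (χ : G → ℂ)) := by
    intro χ f hf
    induction hf using AddSubgroup.closure_induction with
    | mem f hf =>
      obtain ⟨E, β, ⟨p, hp, hE⟩, hβ, rfl⟩ := hf
      rw [mul_indFun hcl, frobenius_reciprocity E _ _ (isClassFunction_of_isCharacter (isCharacter_of_irr χ.2))]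
      have hξ : IsGeneralizedCharacter E (β * fun e : E => conj ((χ : G → ℂ) e)) :=
        gen_mul_char hβ (Cfsg.Agent.H23.isCharacter_conjFun (isCharacter_restrict E (isCharacter_of_irr χ.2)))
      have := hloc E p hp hE _ hξ
      rw [classInner]
      convert this using 3
      simp only [Pi.mul_apply, mul_assoc]
    | zero => simp [classInner_zero_left, isIntegral_zero]
    | add f₁ f₂ _ _ h1 h2 =>
      rw [mul_add, classInner_add_left]
      exact h1.add h2
    | neg f _ h =>
      rw [mul_neg, classInner_neg_left']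
      exact h.neg
  refine ⟨fun χ => classInner ϑ χ, ?_, ?_⟩
  · intro χ
    have := hall χ _ (one_mem_VZ (G := G))
    have h1 : ϑ * (fun _ => (1 : ℂ)) = ϑ := by funext g; simp
    rw [h1] at this
    exact this
  · rw [finsum_eq_sum_of_fintype]
    exact classFunction_expansion ϑ hcl

end Cfsg.Agent.S0875
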