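import Cfsg.Statements.S0876
import Cfsg.Agent.Lib.H04.Cliff.Sect
import Cfsg.Agent.S0875

set_option autoImplicit false
open Cfsg

namespace Cfsg.Agent.S0876

open Cfsg Cfsg.Agent.H21 Cfsg.Agent.H04.Cliff Module
open scoped ComplexConjugate

set_option linter.style.haveILetI false
set_option linter.unusedVariables false
set_option linter.unusedSectionVars false
set_option linter.unusedSimpArgs false


/-- Let G be a finite group, p a prime and M a maximal ideal of the ring of algebraic integers containing p. Let x, y be elements with p-parts a and b (so a⁻¹ * x and b⁻¹ * y are their p-regular parts). Then a⁻¹ * x and b⁻¹ * y are conjugate in G if and only if, for every irreducible character χ, the difference χ x - χ y lies in the local ideal at M. -/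
theorem result {G : Type*} [Group G] [Finite G] (p : ℕ) (M : Ideal Cfsg.AlgInt) (hM : Cfsg.IsPModular p M) (x y a b : G) (ha : Cfsg.IsPPart p x a) (hb : Cfsg.IsPPart p y b) : IsConj (a⁻¹ * x) (b⁻¹ * y) ↔ ∀ χ : Cfsg.IrrCharacter G, Cfsg.MemLocalIdeal M ((χ : G → ℂ) x - (χ : G → ℂ) y) := by
  classical
  haveI : Fact p.Prime := ⟨hM.1⟩
  haveI : M.IsPrime := pmod_isPrime hM
  haveI := Fintype.ofFinite G
  haveI : Fintype (IrrCharacter G) := Fintype.ofFinite _
  have hbp := hb
  obtain ⟨y₁, hy₁, hc₁, ⟨k₁, hk₁⟩, hr₁⟩ := ha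
  obtain ⟨y₂, hy₂, hc₂, ⟨k₂, hk₂⟩, hr₂⟩ := hb
  have e₁ : a⁻¹ * x = y₁ := by rw [← hy₁]; group
  have e₂ : b⁻¹ * y = y₂ := by rw [← hy₂]; group
  rw [e₁, e₂]
  constructor
  · intro hconj χ
    have h1 := char_section_congr hM (isCharacter_of_irr χ.2) hc₁ hk₁ hr₁
    have h2 := char_section_congr hM (isCharacter_of_irr χ.2) hc₂ hk₂ hr₂
    have h3 : (χ : G → ℂ) y₁ = (χ : G → ℂ) y₂ := by
      obtain ⟨c, hc⟩ := isConj_iff.1 hconj
      rw [← hc]
      exact (isClassFunction_of_isCharacter (isCharacter_of_irr χ.2) y₁ c).symm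
    rw [hy₁] at h1
    rw [hy₂] at h2
    have h4 := Cfsg.Agent.H22.mli_sub h1 h2
    convert h4 using 1
    rw [h3]
    ring
  · intro h
    by_contra hnc
    have hp := hM.1
    set m := p ^ ((Nat.card G).factorization p) with hm
    set n := Nat.card G / m with hn
    have hmn : Nat.card G = m * n := (Nat.ordProj_mul_ordCompl_eq_self _ p).symm
    have hnp : ¬ p ∣ n := Nat.not_dvd_ordCompl hp Nat.card_pos.ne'
    have hcopp : Nat.Coprime p n := (Nat.Prime.coprime_iff_not_dvd hp).2 hnp
    have hcop : Nat.Coprime m n := Nat.Coprime.pow_left _ hcopp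
    have hgm : Nat.Coprime (orderOf y₁) m :=
      Nat.Coprime.pow_right _ ((Nat.Prime.coprime_iff_not_dvd hp).2 hr₁).symm
    let D : G → Prop := fun t => ∃ v : G, IsConj v y₁ ∧ (∃ u : G, t = u * v ∧ Commute u v ∧
      Nat.Coprime (orderOf u) n ∧ Nat.Coprime (orderOf v) m)
    let ϑ : G → ℂ := fun t => if D t then (n : ℂ) else 0
    obtain ⟨c, hc, he⟩ := Cfsg.Agent.S0875.result m n hmn hcop y₁ hgm ϑ (fun t ht => if_pos ht)
      (fun t ht => if_neg ht)
    rw [finsum_eq_sum_of_fintype] at he
    have hDx : D x := by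
      refine ⟨y₁, IsConj.refl _, a, hy₁.symm, hc₁, ?_, hgm⟩
      rw [hk₁]
      exact Nat.Coprime.pow_left _ hcopp
    have hDy : ¬ D y := by
      rintro ⟨v, hv, u, huv, hcuv, hu, hv'⟩
      apply hnc
      have hud : orderOf u ∣ m := by
        have h1 : orderOf u ∣ m * n := hmn ▸ orderOf_dvd_natCard u
        exact hu.dvd_of_dvd_mul_right h1
      obtain ⟨j, -, hj⟩ := (Nat.dvd_prime_pow hp).1 hud
      have hvp : ¬ p ∣ orderOf v := by
        intro hd
        have h1 : p ∣ m := by
          rw [hm]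
          exact dvd_pow_self _ (by
            intro h0
            rw [h0] at hm
            have hm1 : m = 1 := by rw [hm]; simp
            rw [hm1] at hmn
            have h2 : p ∣ Nat.card G := hd.trans (orderOf_dvd_natCard v)
            rw [hmn, one_mul] at h2
            exact hnp h2)
        exact (Nat.Prime.coprime_iff_not_dvd hp).1 (Nat.Coprime.coprime_dvd_right h1 hv').symm hd
      have hpart : IsPPart p y u := ⟨v, huv.symm, hcuv, ⟨j, hj⟩, hvp⟩
      have hub : u = b := Cfsg.Agent.H21.pPart_unique hpart hbp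
      have hvy : v = y₂ := by
        rw [hub] at huv
        rw [← hy₂] at huv
        exact (mul_left_cancel huv).symm
      rw [hvy] at hv
      exact hv.symm
    have hval : (n : ℂ) = ϑ x - ϑ y := by
      simp only [ϑ]
      rw [if_pos hDx, if_neg hDy, sub_zero]
    have hmli : MemLocalIdeal M (n : ℂ) := by
      rw [hval, he]
      simp only [Finset.sum_apply, Pi.smul_apply, smul_eq_mul]
      rw [← Finset.sum_sub_distrib]
      refine Cfsg.Agent.H22.mli_sum _ _ fun χ _ => ?_
      rw [← mul_sub]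
      exact Cfsg.Agent.H22.mli_mul_left (h χ) (Cfsg.Agent.H22.mlr_of_isIntegral (hc χ))
    have h1 : MemLocalIdeal M (((n : ℕ) : AlgInt) : ℂ) := by simpa using hmli
    rw [Cfsg.Agent.H22.mli_algInt_iff, natCast_mem_iff hM] at h1
    exact hnp h1

end Cfsg.Agent.S0876
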