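import Cfsg.Statements.S0878
import Cfsg.Agent.Lib.H04.Zassenhaus

set_option autoImplicit false
set_option linter.style.haveILetI false
open Cfsg

namespace Cfsg.Agent.S0878

open Cfsg.Agent.H04

theorem result {G Ω : Type*} [Group G] [Finite G] [MulAction G Ω] [Fintype Ω] (hZ : Cfsg.IsZassenhausGroup G Ω) (a : Ω) (H : Subgroup G) (hHa : H ≤ MulAction.stabilizer G a) (hHcard : Nat.card H + 1 = Fintype.card Ω) (hHfix : ∀ u ∈ H, u ≠ 1 → ∀ c : Ω, u • c = c → c = a) : (∀ g : G, g ∉ MulAction.stabilizer G a → ∀ u ∈ H, g * u * g⁻¹ ∈ H → u = 1) ∧ Subgroup.normalizer (H : Set G) = MulAction.stabilizer G a := by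
  classical
  have part1 : ∀ g : G, g ∉ MulAction.stabilizer G a → ∀ u ∈ H, g * u * g⁻¹ ∈ H → u = 1 := by
    intro g hg u hu hv
    by_contra hu1
    have hv1 : g * u * g⁻¹ ≠ 1 := by
      intro h
      apply hu1
      have : u = g⁻¹ * (g * u * g⁻¹) * g := by group
      rw [this, h]; group
    have hfix : (g * u * g⁻¹) • (g • a) = g • a := by
      have h1 : u • a = a := hHa hu
      rw [mul_smul, mul_smul, inv_smul_smul, h1]
    have := hHfix _ hv hv1 _ hfix
    exact hg this
  refine ⟨part1, le_antisymm ?_ ?_⟩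
  · intro g hg
    by_contra hgn
    -- need a nontrivial element of H
    have h1 : 1 < Nat.card H := by
      -- three points
      have h3 : 2 < Fintype.card Ω := by
        obtain ⟨g0, _, c, d, hcd, _, _⟩ := hZ.2.2.2.1
        obtain ⟨e, he1, he2⟩ := zass_exists_third hZ c d hcd
        rw [Fintype.two_lt_card_iff]
        exact ⟨c, d, e, hcd, he1.symm, he2.symm⟩
      omega
    haveI := Finite.one_lt_card_iff_nontrivial.mp h1
    obtain ⟨u, hu⟩ := exists_ne (1 : H)
    have hu' : (u : G) ≠ 1 := fun h => hu (Subtype.ext h)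
    have h2 := (Subgroup.mem_normalizer_iff.mp hg (u : G)).mp u.2
    exact hu' (part1 g hgn u u.2 h2)
  · intro g hg
    have hg' : g • a = a := hg
    rw [Subgroup.mem_normalizer_iff]
    intro u
    constructor
    · intro hu
      exact zass_kernel_normal hZ a H hHa hHcard hHfix g hg' u hu
    · intro hv
      have hg2 : g⁻¹ • a = a := by rw [inv_smul_eq_iff, hg']
      have := zass_kernel_normal hZ a H hHa hHcard hHfix g⁻¹ hg2 _ hv
      have h3 : g⁻¹ * (g * u * g⁻¹) * g⁻¹⁻¹ = u := by group
      rwa [h3] at this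

end Cfsg.Agent.S0878
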