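import Cfsg.Statements.S0879
import Cfsg.Agent.Lib.H04.Zassenhaus

set_option autoImplicit false
set_option linter.style.haveILetI false
open Cfsg

namespace Cfsg.Agent.S0879

open Cfsg.Agent.H04

theorem result {G Ω : Type*} [Group G] [Finite G] [MulAction G Ω] [Fintype Ω] (hZ : Cfsg.IsZassenhausGroup G Ω) {a b : Ω} (hab : a ≠ b) : (∀ g : G, g ∉ Subgroup.normalizer ((MulAction.stabilizer G a ⊓ MulAction.stabilizer G b : Subgroup G) : Set G) → ∀ x ∈ (MulAction.stabilizer G a ⊓ MulAction.stabilizer G b : Subgroup G), g * x * g⁻¹ ∈ (MulAction.stabilizer G a ⊓ MulAction.stabilizer G b : Subgroup G) → x = 1) ∧ ((MulAction.stabilizer G a ⊓ MulAction.stabilizer G b : Subgroup G).subgroupOf (Subgroup.normalizer ((MulAction.stabilizer G a ⊓ MulAction.stabilizer G b : Subgroup G) : Set G))).index = 2 := by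
  classical
  set E : Subgroup G := MulAction.stabilizer G a ⊓ MulAction.stabilizer G b with hE
  set N := Subgroup.normalizer (E : Set G) with hN
  have hmemE : ∀ x : G, x ∈ E ↔ x • a = a ∧ x • b = b := fun x => Iff.rfl
  -- preserving the pair gives normalizing
  have hpair : ∀ g : G, ((g • a = a ∧ g • b = b) ∨ (g • a = b ∧ g • b = a)) → g ∈ N := by
    intro g hg
    have hg' : ((g⁻¹ • a = a ∧ g⁻¹ • b = b) ∨ (g⁻¹ • a = b ∧ g⁻¹ • b = a)) := by
      rcases hg with ⟨h1, h2⟩ | ⟨h1, h2⟩
      · left; exact ⟨by rw [inv_smul_eq_iff, h1], by rw [inv_smul_eq_iff, h2]⟩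
      · right; exact ⟨by rw [inv_smul_eq_iff, h2], by rw [inv_smul_eq_iff, h1]⟩
    rw [hN, Subgroup.mem_normalizer_iff]
    intro x
    constructor
    · intro hx
      obtain ⟨hxa, hxb⟩ := (hmemE x).mp hx
      rw [hmemE]
      rcases hg' with ⟨h1, h2⟩ | ⟨h1, h2⟩
      · simp only [mul_smul, h1, h2, hxa, hxb]
        rcases hg with ⟨h3, h4⟩ | ⟨h3, h4⟩
        · exact ⟨h3, h4⟩
        · exact ⟨h3.trans (by
            have : g⁻¹ • a = b := by rw [inv_smul_eq_iff, h4]
            exact absurd (h1.symm.trans this) hab), h4.trans (by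
            have : g⁻¹ • a = b := by rw [inv_smul_eq_iff, h4]
            exact absurd (h1.symm.trans this) hab)⟩
      · simp only [mul_smul, h1, h2, hxa, hxb]
        rcases hg with ⟨h3, h4⟩ | ⟨h3, h4⟩
        · exact absurd (by rw [← h1, smul_inv_smul] : g • b = a) (by rw [h4]; exact hab.symm)
        · exact ⟨h4, h3⟩
    · intro hx
      obtain ⟨hxa, hxb⟩ := (hmemE _).mp hx
      rw [hmemE]
      rcases hg with ⟨h1, h2⟩ | ⟨h1, h2⟩
      · rw [mul_smul, mul_smul] at hxa hxb
        have ha' : g⁻¹ • a = a := by rw [inv_smul_eq_iff, h1]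
        have hb' : g⁻¹ • b = b := by rw [inv_smul_eq_iff, h2]
        rw [ha', smul_eq_iff_eq_inv_smul, ha'] at hxa
        rw [hb', smul_eq_iff_eq_inv_smul, hb'] at hxb
        exact ⟨hxa, hxb⟩
      · rw [mul_smul, mul_smul] at hxa hxb
        have ha' : g⁻¹ • a = b := by rw [inv_smul_eq_iff, h2]
        have hb' : g⁻¹ • b = a := by rw [inv_smul_eq_iff, h1]
        rw [ha', smul_eq_iff_eq_inv_smul, ha'] at hxa
        rw [hb', smul_eq_iff_eq_inv_smul, hb'] at hxb
        exact ⟨hxb, hxa⟩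
  -- key: a non-identity element of E conjugated by g into E forces g to preserve the pair
  have hkey : ∀ g x : G, x ∈ E → x ≠ 1 → g * x * g⁻¹ ∈ E →
      ((g • a = a ∧ g • b = b) ∨ (g • a = b ∧ g • b = a)) := by
    intro g x hx hx1 hgx
    obtain ⟨hxa, hxb⟩ := (hmemE x).mp hx
    obtain ⟨hya, hyb⟩ := (hmemE _).mp hgx
    have hy1 : g * x * g⁻¹ ≠ 1 := by
      intro h
      apply hx1
      have : x = g⁻¹ * (g * x * g⁻¹) * g := by group
      rw [this, h]; group
    have hfa : (g * x * g⁻¹) • (g • a) = g • a := by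
      rw [mul_smul, mul_smul, inv_smul_smul, hxa]
    have hfb : (g * x * g⁻¹) • (g • b) = g • b := by
      rw [mul_smul, mul_smul, inv_smul_smul, hxb]
    have hne : g • a ≠ g • b := fun h => hab (MulAction.injective g h)
    -- g • a ∈ {a,b}
    have hga : g • a = a ∨ g • a = b := by
      by_contra hcon
      push Not at hcon
      exact hy1 (zass_no_three hZ _ hab (Ne.symm hcon.2) (Ne.symm hcon.1) hya hyb hfa)
    have hgb : g • b = a ∨ g • b = b := by
      by_contra hcon
      push Not at hcon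
      exact hy1 (zass_no_three hZ _ hab (Ne.symm hcon.2) (Ne.symm hcon.1) hya hyb hfb)
    rcases hga with h1 | h1 <;> rcases hgb with h2 | h2
    · exact absurd (h1.trans h2.symm) hne
    · exact Or.inl ⟨h1, h2⟩
    · exact Or.inr ⟨h1, h2⟩
    · exact absurd (h1.trans h2.symm) hne
  refine ⟨?_, ?_⟩
  · intro g hg x hx hgx
    by_contra hx1
    exact hg (hpair g (hkey g x hx hx1 hgx))
  · -- index two
    rw [Subgroup.index_eq_two_iff]
    obtain ⟨t, ht1, ht2⟩ := zass_two_trans hZ a b b a hab hab.symm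
    have htN : t ∈ N := hpair t (Or.inr ⟨ht1, ht2⟩)
    refine ⟨⟨t, htN⟩, ?_⟩
    rintro ⟨n, hn⟩
    -- n preserves the pair
    obtain ⟨x, hx1, hxa, hxb⟩ := zass_exists_fixing hZ hab
    have hxE : x ∈ E := ⟨hxa, hxb⟩
    have hnx : n * x * n⁻¹ ∈ E := (Subgroup.mem_normalizer_iff.mp hn x).mp hxE
    rcases hkey n x hxE hx1 hnx with ⟨h1, h2⟩ | ⟨h1, h2⟩
    · -- n ∈ E
      right
      constructor
      · show n ∈ E
        exact ⟨h1, h2⟩
      · intro h
        have h3 : (n * t) ∈ E := h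
        obtain ⟨h4, _⟩ := (hmemE _).mp h3
        rw [mul_smul, ht1, h2] at h4
        exact hab.symm h4
    · left
      constructor
      · show n * t ∈ E
        rw [hmemE, mul_smul, mul_smul, ht1, ht2]
        exact ⟨h2, h1⟩
      · intro h
        have h3 : n ∈ E := h
        obtain ⟨h4, _⟩ := (hmemE _).mp h3
        rw [h1] at h4
        exact hab h4.symm

end Cfsg.Agent.S0879
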