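import Cfsg.Statements.S0880
import Cfsg.Agent.Lib.H04.ZassCount
import Cfsg.Agent.Lib.H04.Small.Tools

set_option autoImplicit false
open Cfsg

namespace Cfsg.Agent.S0880

open Cfsg Cfsg.Agent.H04.ZC Cfsg.Agent.H04 Cfsg.Agent.H04.Small

set_option linter.style.haveILetI false
set_option linter.unusedVariables false
set_option linter.unusedSectionVars false
set_option linter.unusedSimpArgs false


/-- Let G be a finite simple Zassenhaus group on Ω with n points whose two-point stabilizer E has odd order less than n - 2. Then there are two elements of G, each fixing no point of Ω, that are not conjugate. -/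
theorem result {G Ω : Type*} [Group G] [Finite G] [MulAction G Ω] [Fintype Ω] (hZ : Cfsg.IsZassenhausGroup G Ω) {a b : Ω} (hab : a ≠ b) [IsSimpleGroup G] (hodd : Odd (Nat.card ↥(MulAction.stabilizer G a ⊓ MulAction.stabilizer G b : Subgroup G))) (hlt : Nat.card ↥(MulAction.stabilizer G a ⊓ MulAction.stabilizer G b : Subgroup G) < Fintype.card Ω - 2) : ∃ x y : G, (∀ c : Ω, x • c ≠ c) ∧ (∀ c : Ω, y • c ≠ c) ∧ ¬ IsConj x y := by
  classical
  haveI := Fintype.ofFinite G
  set e := Nat.card ↥(MulAction.stabilizer G a ⊓ MulAction.stabilizer G b : Subgroup G) with he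
  set N := Fintype.card Ω with hN
  have hne1 : e ≠ 1 := by
    intro h1
    obtain ⟨g, hg1, hga, hgb⟩ := zass_exists_fixing hZ hab
    have := (Nat.card_eq_one_iff_unique.mp h1).1
    have h2 : (⟨g, hga, hgb⟩ : ↥(MulAction.stabilizer G a ⊓ MulAction.stabilizer G b : Subgroup G)) = 1 :=
      Subsingleton.elim _ _
    exact hg1 (congrArg Subtype.val h2)
  have he3 : 3 ≤ e := by
    obtain ⟨k, hk⟩ := hodd
    omega
  have hN5 : e + 3 ≤ N := by omega
  have hfpf := card_fpf hZ hab
  have hG := card_G hZ hab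
  rw [← he, ← hN] at hG
  rw [← hN] at hfpf
  set f0 := (Finset.univ.filter (fun g : G => fx (Ω := Ω) g = 0)).card with hf0
  have hfx0 : ∀ x : G, fx (Ω := Ω) x = 0 ↔ ∀ c : Ω, x • c ≠ c := by
    intro x
    rw [fx, Finset.card_eq_zero, Finset.filter_eq_empty_iff]
    simp
  obtain ⟨m, hm⟩ : ∃ m, N = m + 3 := ⟨N - 3, by omega⟩
  obtain ⟨d, hd⟩ : ∃ d, e = d + 3 := ⟨e - 3, by omega⟩
  have hm1 : N - 1 = m + 2 := by omega
  have hm2 : N - 2 = m + 1 := by omega
  rw [hm1, hm2] at hfpf
  rw [hm1] at hG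
  have hf0pos : 0 < f0 := by
    by_contra h0
    have h00 : f0 = 0 := by omega
    rw [h00] at hfpf
    rw [← hfpf, hm, hd] at hG
    nlinarith [hG]
  obtain ⟨x, hx⟩ := Finset.card_pos.mp hf0pos
  simp only [Finset.mem_filter, Finset.mem_univ, true_and] at hx
  by_contra hcon
  push Not at hcon
  have hall : ∀ y : G, fx (Ω := Ω) y = 0 ↔ IsConj x y := by
    intro y
    constructor
    · intro hy
      exact hcon x y ((hfx0 x).mp hx) ((hfx0 y).mp hy)
    · intro hy
      rw [hfx0]
      intro c hc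
      obtain ⟨u, hu⟩ := isConj_iff.mp hy
      apply (hfx0 x).mp hx (u⁻¹ • c)
      rw [← hu] at hc
      have h5 : x • (u⁻¹ • c) = u⁻¹ • ((u * x * u⁻¹) • c) := by
        simp only [mul_smul, inv_smul_smul]
      rw [h5, hc]
  have hk := card_carrier_mul_centralizer' x
  have hf0' : Nat.card (ConjClasses.mk x).carrier = f0 := by
    rw [hf0, ← Nat.card_eq_finsetCard]
    apply Nat.card_congr
    apply Equiv.subtypeEquivRight
    intro y
    rw [ConjClasses.mem_carrier_iff_mk_eq, ConjClasses.mk_eq_mk_iff_isConj]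
    simp only [Finset.mem_filter, Finset.mem_univ, true_and]
    rw [hall y]
    exact isConj_comm
  rw [hf0', Nat.card_eq_fintype_card (α := G), hG] at hk
  set k := Nat.card (Subgroup.centralizer ({x} : Set G))
  rw [hm, hd] at hk
  have h3 : k * ((m + 3) * (d + 2) + 2) = 2 * ((m + 3) * (d + 3)) := by
    have h4 : (m + 2) * (k * ((m + 3) * (d + 2) + 2)) = (m + 2) * (2 * ((m + 3) * (d + 3))) := by
      rw [hG, hm, hd] at hfpf
      have h5 : 2 * f0 = (m + 2) * ((m + 3) * (d + 2) + 2) := by nlinarith [hfpf]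
      calc (m + 2) * (k * ((m + 3) * (d + 2) + 2)) = k * (2 * f0) := by rw [h5]; ring
        _ = 2 * (f0 * k) := by ring
        _ = _ := by rw [hk]; ring
    exact Nat.eq_of_mul_eq_mul_left (by omega) h4
  by_cases hk3 : 3 ≤ k
  · nlinarith [Nat.mul_le_mul_right ((m + 3) * (d + 2) + 2) hk3]
  · have hk2 : k ≤ 2 := by omega
    nlinarith [Nat.mul_le_mul_right ((m + 3) * (d + 2) + 2) hk2]

end Cfsg.Agent.S0880
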