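import Cfsg.Statements.S0881
import Cfsg.Agent.Lib.H04.ZassInd
import Cfsg.Agent.Lib.H21.CharLinear

set_option autoImplicit false
open Cfsg

namespace Cfsg.Agent.S0881

open Cfsg Cfsg.Agent.H04.ZC Cfsg.Agent.H04 Cfsg.Agent.H21

set_option linter.style.haveILetI false
set_option linter.unusedVariables false
set_option linter.unusedSectionVars false
set_option linter.unusedSimpArgs false


/-- Let G be a finite simple Zassenhaus group on Ω with n points, a ≠ b points with two-point stabilizer E of odd order less than n - 2, and let H be the subgroup of the stabilizer of a consisting of the identity and the elements fixing no point other than a (given here as a subgroup of the stabilizer of order one less than the number of points whose non-identity elements fix only a; it is the Frobenius kernel of the stabilizer). Let μ be a character of degree 1 of the stabilizer of a that is identically 1 on H but not identically 1. Then the function induced from μ to G is an irreducible character of G, and it takes the value 1 at every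 non-identity element of H. -/
theorem result {G Ω : Type*} [Group G] [Fintype G] [MulAction G Ω] [Fintype Ω] (hZ : Cfsg.IsZassenhausGroup G Ω) {a b : Ω} (hab : a ≠ b) [IsSimpleGroup G] (hodd : Odd (Nat.card ↥(MulAction.stabilizer G a ⊓ MulAction.stabilizer G b : Subgroup G))) (hlt : Nat.card ↥(MulAction.stabilizer G a ⊓ MulAction.stabilizer G b : Subgroup G) < Fintype.card Ω - 2) (H : Subgroup G) (hHa : H ≤ MulAction.stabilizer G a) (hHcard : Nat.card H + 1 = Fintype.card Ω) (hHfix : ∀ u ∈ H, u ≠ 1 → ∀ c : Ω, u • c = c → c = a) (μ : MulAction.stabilizer G a → ℂ) (hμ : Cfsg.IsCharacter (MulAction.stabilizer G a) μ ∧ μ 1 = 1) (hμH : ∀ u : MulAction.stabilizer G a, (u : G) ∈ H → μ u = 1) (hμne : μ ≠ fun _ => 1) : Cfsg.IsIrrCharacter G (Cfsg.indFun (MulAction.stabilizer G a) μ) ∧ ∀ u ∈ H, u ≠ 1 → Cfsg.indFun (MulAction.stabilizer G a) μ u = 1 := by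
  classical
  haveI : Fintype (IrrCharacter G) := Fintype.ofFinite _
  obtain ⟨hμc, hμ1⟩ := hμ
  have hdeg : charDegree μ = 1 := by
    have := one_eq_charDegree hμc
    rw [hμ1] at this
    exact_mod_cast this.symm
  have hmul := linear_mul hμc hdeg
  have hnorm := linear_norm hμc hdeg
  set f : G → ℂ := extendByZero (MulAction.stabilizer G a) μ with hf
  have hfA : ∀ x : MulAction.stabilizer G a, f x = μ x := fun x => extendByZero_coe _ μ x
  have hfn : ∀ x : G, x • a ≠ a → f x = 0 := fun x hx => extendByZero_of_not_mem _ μ hx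
  have hfmul : ∀ x y : G, x • a = a → y • a = a → f (x * y) = f x * f y := by
    intro x y hx hy
    have h1 := hfA ⟨x, hx⟩
    have h2 := hfA ⟨y, hy⟩
    have h3 := hfA (⟨x, hx⟩ * ⟨y, hy⟩)
    simp only [Subgroup.coe_mul] at h1 h2 h3
    rw [h3, h1, h2, hmul]
  have hf1 : f 1 = 1 := by
    have := hfA 1
    rw [hμ1] at this
    simpa using this
  have hfnorm : ∀ x : G, x • a = a → ‖f x‖ = 1 := by
    intro x hx
    rw [hfA ⟨x, hx⟩]
    exact hnorm _
  have hinvA : ∀ x : G, x • a = a → x⁻¹ • a = a := fun x hx => by rw [inv_smul_eq_iff, hx]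
  have hfinv : ∀ x : G, x • a = a → f x⁻¹ * f x = 1 := by
    intro x hx
    rw [← hfmul _ _ (hinvA x hx) hx, inv_mul_cancel, hf1]
  -- conjugation invariance of `f` inside `A`
  have hfconj : ∀ w r : G, w • a = a → r • a = a → f (w⁻¹ * r * w) = f r := by
    intro w r hw hr
    have h1 := hfmul w⁻¹ r (hinvA w hw) hr
    have h2 := hfmul (w⁻¹ * r) w (by rw [mul_smul, hr, hinvA w hw]) hw
    rw [h2, h1, mul_comm (f w⁻¹), mul_assoc, hfinv w hw, mul_one]
  have hconjA : ∀ (x r : G), (x⁻¹ * r * x) • a = a ↔ r • (x • a) = x • a := by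
    intro x r
    rw [mul_smul, mul_smul, inv_smul_eq_iff]
  have hcardA : (Nat.card (MulAction.stabilizer G a) : ℂ) ≠ 0 := by
    exact Nat.cast_ne_zero.mpr Nat.card_pos.ne'
  -- the key nonvanishing
  have hkey : ∀ x : G, x • a ≠ a → ∃ v : G, v • a = a ∧ v • (x • a) = x • a ∧
      f v * (starRingEnd ℂ) (f (x⁻¹ * v * x)) ≠ 1 := by
    intro x hx
    by_contra hcon
    push Not at hcon
    set c := x • a with hc
    have hac : a ≠ c := Ne.symm hx
    have heq : ∀ v : G, v • a = a → v • c = c → f v = f (x⁻¹ * v * x) := by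
      intro v hva hvc
      have h1 := hcon v hva hvc
      have h2 : (x⁻¹ * v * x) • a = a := (hconjA x v).mpr hvc
      have h3 := hfnorm _ h2
      have h4 : (starRingEnd ℂ) (f (x⁻¹ * v * x)) * f (x⁻¹ * v * x) = 1 := by
        rw [Complex.conj_mul', h3]; simp
      calc f v = f v * ((starRingEnd ℂ) (f (x⁻¹ * v * x)) * f (x⁻¹ * v * x)) := by rw [h4, mul_one]
        _ = _ := by rw [← mul_assoc, h1, one_mul]
    have hoddc : Odd (Nat.card ↥(MulAction.stabilizer G a ⊓ MulAction.stabilizer G c : Subgroup G)) := by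
      rw [stab_card_eq hZ hab hac]
      exact hodd
    have hone := zass_crux hZ hac hoddc f hf1 hfmul (by
      intro r z hra hrc hza hzc
      set u := z * r * z⁻¹ with hu
      have hzi : z⁻¹ • a = c := by rw [inv_smul_eq_iff, hzc]
      have hzi' : z⁻¹ • c = a := by rw [inv_smul_eq_iff, hza]
      have hua : u • a = a := by
        rw [hu, mul_smul, mul_smul, hzi, hrc, hzc]
      have huc : u • c = c := by
        rw [hu, mul_smul, mul_smul, hzi', hra, hza]
      rw [heq u hua huc]
      set w := z⁻¹ * x with hw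
      have hwa : w • a = a := by
        rw [hw, mul_smul, ← hc, hzi']
      have h5 : x⁻¹ * u * x = w⁻¹ * r * w := by
        rw [hu, hw]; group
      rw [h5]
      exact hfconj w r hwa hra)
    apply hμne
    funext y
    have hy : (y : G) • a = a := y.2
    have hyc : (y : G) • c ≠ a := by
      intro h
      apply hac
      apply MulAction.injective (y : G)
      show (y : G) • a = (y : G) • c
      rw [hy, h]
    obtain ⟨h, hhH, hh⟩ := kernel_trans a H hHa hHcard hHfix (Ne.symm hac) hyc
    have hha : h • a = a := hHa hhH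
    have h6 : (h⁻¹ * (y : G)) • a = a := by rw [mul_smul, hy, inv_smul_eq_iff, hha]
    have h7 : (h⁻¹ * (y : G)) • c = c := by rw [mul_smul, ← hh, inv_smul_smul]
    have h8 := hone _ h6 h7
    have h9 : f h = 1 := by
      rw [hfA ⟨h, hha⟩]
      exact hμH _ hhH
    have h10 : f (y : G) = 1 := by
      have : (y : G) = h * (h⁻¹ * (y : G)) := by group
      rw [this, hfmul _ _ hha h6, h9, h8, one_mul]
    rw [← hfA y]
    exact h10
  -- the zero sum
  have hzero : ∀ x : G, x • a ≠ a → ∑ u : MulAction.stabilizer G a, μ u * (starRingEnd ℂ) (f (x⁻¹ * (u : G) * x)) = 0 := by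
    intro x hx
    obtain ⟨v, hva, hvc, hv⟩ := hkey x hx
    set ν := f v * (starRingEnd ℂ) (f (x⁻¹ * v * x)) with hν
    have htrans : ∀ u : MulAction.stabilizer G a, μ (⟨v, hva⟩ * u) * (starRingEnd ℂ) (f (x⁻¹ * ((⟨v, hva⟩ * u : MulAction.stabilizer G a) : G) * x))
        = ν * (μ u * (starRingEnd ℂ) (f (x⁻¹ * (u : G) * x))) := by
      intro u
      have hm : μ (⟨v, hva⟩ * u) = f v * μ u := by
        rw [hmul, ← hfA ⟨v, hva⟩]
      rw [hm]
      simp only [Subgroup.coe_mul]
      have hsplit : x⁻¹ * (v * (u : G)) * x = (x⁻¹ * v * x) * (x⁻¹ * (u : G) * x) := by group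
      rw [hsplit]
      have hw : (x⁻¹ * v * x) • a = a := (hconjA x v).mpr hvc
      by_cases huc : (x⁻¹ * (u : G) * x) • a = a
      · rw [hfmul _ _ hw huc, map_mul, hν]
        ring
      · have h1 : ((x⁻¹ * v * x) * (x⁻¹ * (u : G) * x)) • a ≠ a := by
          intro h
          apply huc
          rw [mul_smul] at h
          have h' := congrArg (fun z => (x⁻¹ * v * x)⁻¹ • z) h
          simp only [inv_smul_smul] at h'
          exact h'.trans (hinvA _ hw)
        rw [hfn _ h1, hfn _ huc]
        simp
    have hsum : ∑ u : MulAction.stabilizer G a, μ u * (starRingEnd ℂ) (f (x⁻¹ * (u : G) * x))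
        = ν * ∑ u : MulAction.stabilizer G a, μ u * (starRingEnd ℂ) (f (x⁻¹ * (u : G) * x)) := by
      rw [Finset.mul_sum]
      rw [← Equiv.sum_comp (Equiv.mulLeft (⟨v, hva⟩ : MulAction.stabilizer G a))]
      apply Finset.sum_congr rfl
      intro u _
      exact htrans u
    have h1 : (1 - ν) * ∑ u : MulAction.stabilizer G a, μ u * (starRingEnd ℂ) (f (x⁻¹ * (u : G) * x)) = 0 := by
      rw [sub_mul, one_mul, ← hsum, sub_self]
    rcases mul_eq_zero.mp h1 with h2 | h2
    · exact absurd (sub_eq_zero.mp h2).symm hv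
    · exact h2
  have hFA : ∀ x : G, x • a = a → ∑ u : MulAction.stabilizer G a, μ u * (starRingEnd ℂ) (f (x⁻¹ * (u : G) * x)) = (Nat.card (MulAction.stabilizer G a) : ℂ) := by
    intro x hx
    have h1 : ∀ u : MulAction.stabilizer G a, μ u * (starRingEnd ℂ) (f (x⁻¹ * (u : G) * x)) = 1 := by
      intro u
      rw [hfconj x u hx u.2, hfA u, Complex.mul_conj', hnorm u]
      simp
    rw [Finset.sum_congr rfl (fun u _ => h1 u)]
    simp [Nat.card_eq_fintype_card]
  have hnormone : classInner (indFun (MulAction.stabilizer G a) μ) (indFun (MulAction.stabilizer G a) μ) = 1 := by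
    rw [frobenius_reciprocity _ μ _ (isClassFunction_of_isCharacter (isCharacter_indFun _ hμc))]
    rw [classInner]
    have h1 : ∀ u : MulAction.stabilizer G a, μ u * (starRingEnd ℂ) (indFun (MulAction.stabilizer G a) μ (u : G))
        = (Nat.card (MulAction.stabilizer G a) : ℂ)⁻¹ * ∑ x : G, μ u * (starRingEnd ℂ) (f (x⁻¹ * (u : G) * x)) := by
      intro u
      rw [indFun, map_mul, map_sum, map_inv₀, Complex.conj_natCast, Finset.mul_sum, Finset.mul_sum, Finset.mul_sum]
      apply Finset.sum_congr rfl
      intro x _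
      ring
    rw [Finset.sum_congr rfl (fun u _ => h1 u), ← Finset.mul_sum, Finset.sum_comm]
    have h2 : ∀ x : G, ∑ u : MulAction.stabilizer G a, μ u * (starRingEnd ℂ) (f (x⁻¹ * (u : G) * x)) =
        if x • a = a then (Nat.card (MulAction.stabilizer G a) : ℂ) else 0 := by
      intro x
      split_ifs with hx
      · exact hFA x hx
      · exact hzero x hx
    rw [Finset.sum_congr rfl (fun x _ => h2 x), Finset.sum_ite, Finset.sum_const_zero, add_zero, Finset.sum_const]
    have h3 : (Finset.univ.filter (fun x : G => x • a = a)).card = Nat.card (MulAction.stabilizer G a) := by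
      rw [Nat.card_eq_fintype_card, Fintype.card_subtype]
      rfl
    rw [h3, nsmul_eq_mul]
    field_simp
  refine ⟨isIrrCharacter_of_inner_self_eq_one (isCharacter_indFun _ hμc) hnormone, ?_⟩
  intro u hu hu1
  rw [indFun]
  have h2 : ∀ x : G, extendByZero (MulAction.stabilizer G a) μ (x⁻¹ * u * x) = if x • a = a then 1 else 0 := by
    intro x
    split_ifs with hx
    · have h3 := zass_kernel_normal hZ a H hHa hHcard hHfix x⁻¹ (hinvA x hx) u hu
      rw [inv_inv] at h3
      have h4 : (x⁻¹ * u * x) • a = a := hHa h3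
      have h5 := hfA ⟨_, h4⟩
      simp only at h5
      rw [← hf, h5]
      exact hμH _ h3
    · apply hfn
      intro h
      rw [hconjA] at h
      exact hx (hHfix u hu hu1 _ h)
  rw [Finset.sum_congr rfl (fun x _ => h2 x), Finset.sum_ite, Finset.sum_const_zero, add_zero, Finset.sum_const]
  have h3 : (Finset.univ.filter (fun x : G => x • a = a)).card = Nat.card (MulAction.stabilizer G a) := by
    rw [Nat.card_eq_fintype_card, Fintype.card_subtype]
    rfl
  rw [h3, nsmul_eq_mul, mul_one]
  exact inv_mul_cancel₀ hcardA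

end Cfsg.Agent.S0881
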