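import Cfsg.Statements.S0882
import Cfsg.Agent.Lib.H04.ZassOdd

set_option autoImplicit false
open Cfsg

namespace Cfsg.Agent.S0882

open Cfsg Cfsg.Agent.H04.ZC Cfsg.Agent.H04

set_option linter.style.haveILetI false
set_option linter.unusedVariables false
set_option linter.unusedSectionVars false
set_option linter.unusedSimpArgs false


/-- Let G be a finite simple Zassenhaus group on Ω with n = h + 1 points whose two-point stabilizer E has odd order e with 2e < h - 1. Then any two involutions of G are conjugate, and the number of involutions is e * (h + 1) if h is even and e * h if h is odd. -/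
theorem result {G Ω : Type*} [Group G] [Finite G] [MulAction G Ω] [Fintype Ω] (hZ : Cfsg.IsZassenhausGroup G Ω) {a b : Ω} (hab : a ≠ b) [IsSimpleGroup G] (h e : ℕ) (hh : Fintype.card Ω = h + 1) (he : Nat.card ↥(MulAction.stabilizer G a ⊓ MulAction.stabilizer G b : Subgroup G) = e) (hodd : Odd e) (hlt : 2 * e < h - 1) : (∀ x y : G, orderOf x = 2 → orderOf y = 2 → IsConj x y) ∧ Nat.card {x : G // orderOf x = 2} = (if Even h then e * (h + 1) else e * h) := by
  classical
  haveI := Fintype.ofFinite G
  have hodd' : Odd (Nat.card ↥(MulAction.stabilizer G a ⊓ MulAction.stabilizer G b : Subgroup G)) := by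
    rw [he]; exact hodd
  refine ⟨fun x y hx hy => all_inv_conj hZ hab hodd' hx hy, ?_⟩
  split_ifs with heven
  · have hN : Odd (Fintype.card Ω) := by
      rw [hh]
      exact heven.add_one
    rw [count_inv_odd_N hZ hab hodd' hN, he, hh]
    ring
  · have hN : Even (Fintype.card Ω) := by
      rw [hh]
      have : Odd h := Nat.not_even_iff_odd.mp heven
      exact this.add_one
    obtain ⟨t₀, ht₀, hta, htb⟩ := exists_inv_swap hZ hab hodd'
    have h1 := count_inv hZ hab hodd' ht₀ hta
      (fun u hua hub hcomm => cent_trivial hZ hab hodd' ht₀ hta htb hua hub hcomm) 0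
      (fun x hx => inv_fx_of_even hZ hab hodd' hx hN)
    rw [he, hh] at h1
    simp only [Nat.sub_zero, Nat.add_sub_cancel] at h1
    have hpos : 0 < h + 1 := by omega
    apply Nat.eq_of_mul_eq_mul_right hpos
    rw [h1]
    ring

end Cfsg.Agent.S0882
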