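import Cfsg.Statements.S0883
import Cfsg.Agent.Lib.H04.ZassInv
import Cfsg.Agent.Lib.H04.Small.Tools

set_option autoImplicit false
open Cfsg

namespace Cfsg.Agent.S0883

open Cfsg Cfsg.Agent.H04.ZC Cfsg.Agent.H04 Cfsg.Agent.H04.Small

set_option linter.style.haveILetI false
set_option linter.unusedVariables false
set_option linter.unusedSectionVars false
set_option linter.unusedSimpArgs false


/-- Let G be a finite simple Zassenhaus group on Ω with h + 1 points whose two-point stabilizer E has odd order e with 2e < h - 1, and let H be the subgroup of the stabilizer of a consisting of the identity and the elements fixing no point other than a (given here as a subgroup of the stabilizer of order one less than the number of points whose non-identity elements fix only a; it is the Frobenius kernel of the stabilizer). If a non-identity element u of H is a product of two involutions of G, then u is an involution. -/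
theorem result {G Ω : Type*} [Group G] [Finite G] [MulAction G Ω] [Fintype Ω] (hZ : Cfsg.IsZassenhausGroup G Ω) {a b : Ω} (hab : a ≠ b) [IsSimpleGroup G] (h e : ℕ) (hh : Fintype.card Ω = h + 1) (he : Nat.card ↥(MulAction.stabilizer G a ⊓ MulAction.stabilizer G b : Subgroup G) = e) (hodd : Odd e) (hlt : 2 * e < h - 1) (H : Subgroup G) (hHa : H ≤ MulAction.stabilizer G a) (hHcard : Nat.card H + 1 = Fintype.card Ω) (hHfix : ∀ u ∈ H, u ≠ 1 → ∀ c : Ω, u • c = c → c = a) (u : G) (hu : u ∈ H) (hu1 : u ≠ 1) (x y : G) (hx : orderOf x = 2) (hy : orderOf y = 2) (hxy : x * y = u) : orderOf u = 2 := by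
  classical
  haveI := Fintype.ofFinite G
  have hodd' : Odd (Nat.card ↥(MulAction.stabilizer G a ⊓ MulAction.stabilizer G b : Subgroup G)) := by
    rw [he]; exact hodd
  have hxi := inv_eq_self_of_two hx
  have hyi := inv_eq_self_of_two hy
  have hx2 : x * x = 1 := by rw [← sq, ← hx]; exact pow_orderOf_eq_one x
  have hy2 : y * y = 1 := by rw [← sq, ← hy]; exact pow_orderOf_eq_one y
  have hua : u • a = a := hHa hu
  have hui : u⁻¹ = y * x := by
    rw [← hxy, mul_inv_rev, hxi, hyi]
  have hinvfix : ∀ c : Ω, u⁻¹ • c = c → c = a := by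
    intro c hc
    apply hHfix u hu hu1 c
    rw [inv_smul_eq_iff] at hc
    exact hc.symm
  have hxa : x • a = a := by
    apply hinvfix
    have h1 : u⁻¹ * x = x * u := by
      rw [hui, ← hxy, mul_assoc, hx2, mul_one, ← mul_assoc, hx2, one_mul]
    rw [← mul_smul, h1, mul_smul, hua]
  have hya : y • a = a := by
    apply hinvfix
    have h1 : u⁻¹ * y = y * u := by
      rw [hui, ← hxy, mul_assoc]
    rw [← mul_smul, h1, mul_smul, hua]
  have hAcard : Nat.card (MulAction.stabilizer G a) = (Fintype.card Ω - 1) * e := by
    rw [← he, ← T1_eq hZ hab a (G := G), T1, Nat.card_eq_fintype_card, Fintype.card_subtype]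
    rfl
  have hNodd : Odd (Fintype.card Ω) := by
    have h1 : 2 ∣ (Fintype.card Ω - 1) * e := by
      rw [← hAcard, ← hx]
      exact Subgroup.orderOf_dvd_natCard _ hxa
    have h2 : 2 ∣ Fintype.card Ω - 1 := by
      rcases (Nat.Prime.dvd_mul Nat.prime_two).mp h1 with h3 | h3
      · exact h3
      · exact absurd (even_iff_two_dvd.mpr h3) (Nat.not_even_iff_odd.mpr hodd)
    have h3 : 2 ≤ Fintype.card Ω := by
      have : Nontrivial Ω := ⟨a, b, hab⟩
      exact Fintype.one_lt_card
    rw [Nat.odd_iff]
    omega
  have hcount := count_inv_odd_N hZ hab hodd' hNodd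
  have hfixunique : ∀ z : G, orderOf z = 2 → z • a = a → ∀ c : Ω, z • c = c → c = a := by
    intro z hz hza c hc
    have h1 := inv_fx_of_odd hZ hab hz hNodd
    obtain ⟨d, hd⟩ := Finset.card_eq_one.mp h1
    have h2 : a ∈ Finset.univ.filter (fun c : Ω => z • c = c) := by simp [hza]
    have h3 : c ∈ Finset.univ.filter (fun c : Ω => z • c = c) := by simp [hc]
    rw [hd, Finset.mem_singleton] at h2 h3
    rw [h2, h3]
  have hfx := hfixunique x hx hxa
  have hcar : Nat.card (ConjClasses.mk x).carrier = Nat.card {z : G // orderOf z = 2} := by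
    apply Nat.card_congr
    apply Equiv.subtypeEquivRight
    intro z
    rw [ConjClasses.mem_carrier_iff_mk_eq, ConjClasses.mk_eq_mk_iff_isConj]
    constructor
    · intro hz
      obtain ⟨c, hc⟩ := isConj_iff.mp hz
      rw [← hx, ← hc, ← MulAut.conj_apply, MulEquiv.orderOf_eq]
    · intro hz
      exact all_inv_conj hZ hab hodd' hz hx
  have hcent := card_carrier_mul_centralizer' x
  rw [hcar, hcount, he, Nat.card_eq_fintype_card (α := G), card_G hZ hab, he] at hcent
  have hCcard : Nat.card (Subgroup.centralizer ({x} : Set G)) = Fintype.card Ω - 1 := by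
    have hpos : 0 < Fintype.card Ω * e := by
      have h3 : 0 < Fintype.card Ω := Fintype.card_pos_iff.mpr ⟨a⟩
      have h4 : 0 < e := hodd.pos
      positivity
    apply Nat.eq_of_mul_eq_mul_left hpos
    rw [hcent]
    ring
  have hCH : Subgroup.centralizer ({x} : Set G) ≤ H := by
    intro w hw
    have hwc : w * x = x * w := by
      have := Subgroup.mem_centralizer_iff.mp hw x (by simp)
      exact this.symm
    by_cases hw1 : w = 1
    · rw [hw1]; exact H.one_mem
    have hwa : w • a = a := by
      apply hfx
      rw [← mul_smul, ← hwc, mul_smul, hxa]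
    apply mem_kernel_of_fx hZ hab H hHa hHcard hHfix hwa
    intro c hc
    by_contra hca
    have h1 : w • (x • c) = x • c := by
      rw [← mul_smul, hwc, mul_smul, hc]
    by_cases h2 : x • c = a
    · apply hca
      apply MulAction.injective x
      show x • c = x • a
      rw [h2, hxa]
    · by_cases h3 : x • c = c
      · exact hca (hfx c h3)
      · exact hw1 (zass_no_three hZ w (Ne.symm hca) (Ne.symm h3) (Ne.symm h2) hwa hc h1)
  have hCeq : Subgroup.centralizer ({x} : Set G) = H := by
    apply Subgroup.eq_of_le_of_card_ge hCH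
    rw [hCcard]
    omega
  have hyH : y ∈ H := by
    apply mem_kernel_of_fx hZ hab H hHa hHcard hHfix hya
    exact hfixunique y hy hya
  rw [← hCeq] at hyH
  have hcomm : y * x = x * y := by
    have := Subgroup.mem_centralizer_iff.mp hyH x (by simp)
    exact this.symm
  apply orderOf_eq_prime
  · rw [← hxy, sq, mul_assoc, ← mul_assoc y x y, hcomm, mul_assoc, hy2, mul_one, hx2]
  · exact hu1

end Cfsg.Agent.S0883
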