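import Cfsg.Statements.S0884
import Cfsg.Agent.Lib.H04.ZassClass
import Cfsg.Agent.S0882

set_option autoImplicit false
open Cfsg

namespace Cfsg.Agent.S0884

open Cfsg Cfsg.Agent.H04.ZC Cfsg.Agent.H04

set_option linter.style.haveILetI false
set_option linter.unusedVariables false
set_option linter.unusedSectionVars false
set_option linter.unusedSimpArgs false


/-- Let G be a finite simple Zassenhaus group on Ω with h + 1 points whose two-point stabilizer E has odd order e with 2e < h - 1, and let H be the subgroup of the stabilizer of a consisting of the identity and the elements fixing no point other than a (given here as a subgroup of the stabilizer of order one less than the number of points whose non-identity elements fix only a; it is the Frobenius kernel of the stabilizer). Then at least e conjugacy classes of G contain no element of H. -/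
theorem result {G Ω : Type*} [Group G] [Finite G] [MulAction G Ω] [Fintype Ω] (hZ : Cfsg.IsZassenhausGroup G Ω) {a b : Ω} (hab : a ≠ b) [IsSimpleGroup G] (h e : ℕ) (hh : Fintype.card Ω = h + 1) (he : Nat.card ↥(MulAction.stabilizer G a ⊓ MulAction.stabilizer G b : Subgroup G) = e) (hodd : Odd e) (hlt : 2 * e < h - 1) (H : Subgroup G) (hHa : H ≤ MulAction.stabilizer G a) (hHcard : Nat.card H + 1 = Fintype.card Ω) (hHfix : ∀ u ∈ H, u ≠ 1 → ∀ c : Ω, u • c = c → c = a) : e ≤ Nat.card {C : ConjClasses G // ∀ g : G, ConjClasses.mk g = C → g ∉ H} := by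
  classical
  haveI := Fintype.ofFinite G
  have hodd' : Odd (Nat.card ↥(MulAction.stabilizer G a ⊓ MulAction.stabilizer G b : Subgroup G)) := by
    rw [he]; exact hodd
  have hcount := (Cfsg.Agent.S0882.result hZ hab h e hh he hodd hlt).2
  have hIc : Nat.card {x : G // orderOf x = 2} = (InvS G).card := by
    rw [Nat.card_eq_fintype_card, Fintype.card_subtype, InvS]
  rw [hIc] at hcount
  have hsplit := pair_split (G := G) (Ω := Ω)
  have hbound := sum_bound (Ω := Ω) H hHfix hHa
  set k := Nat.card {C : ConjClasses G // ∀ g : G, ConjClasses.mk g = C → g ∉ H} with hk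
  have hG := card_G hZ hab
  rw [he, hh] at hG
  simp only [Nat.add_sub_cancel] at hG
  have hepos : 0 < e := hodd.pos
  have hhpos : 0 < h := by omega
  split_ifs at hcount with heven
  · have hN : Odd (Fintype.card Ω) := by
      rw [hh]; exact heven.add_one
    have hI : (InvS G).card = Fintype.card Ω * e := by rw [hcount, hh]; ring
    have hP2 := P2_card_odd hZ hab hN e hI
    rw [hcount] at hsplit
    rw [hh] at hP2
    have h1 : e * e - e + e = e * e := Nat.sub_add_cancel (Nat.le_mul_of_pos_left e hepos)
    have h2 : (h + 1) * (h * e) * e ≤ k * ((h + 1) * (h * e)) := by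
      have h3 : (e * (h + 1)) ^ 2 + 0 ≤ e * (h + 1) + (h + 1) * (e * e - e) + k * ((h + 1) * (h * e)) := by
        rw [hG] at hbound
        omega
      generalize hd : e * e - e = d at *
      zify at *
      nlinarith
    have hpos : 0 < (h + 1) * (h * e) := by positivity
    rw [mul_comm k] at h2
    exact Nat.le_of_mul_le_mul_left h2 hpos
  · have hN : Even (Fintype.card Ω) := by
      rw [hh]
      have : Odd h := Nat.not_even_iff_odd.mp heven
      exact this.add_one
    have hP2 := P2_card_even hZ hab hodd' hN
    rw [hP2, hcount] at hsplit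
    rw [hG] at hbound
    by_contra hcon
    push Not at hcon
    have hke : k + 1 ≤ e := hcon
    have h3 : (e * h) ^ 2 ≤ e * h + k * ((h + 1) * (h * e)) := by omega
    have h4 : k * ((h + 1) * (h * e)) ≤ (e - 1) * ((h + 1) * (h * e)) :=
      Nat.mul_le_mul_right _ (by omega)
    obtain ⟨f, hf⟩ : ∃ f, e = f + 1 := ⟨e - 1, by omega⟩
    subst hf
    simp only [Nat.add_sub_cancel] at h4
    have h5 : (f + 1) * h * ((f + 1) * h) ≤ (f + 1) * h * (1 + f * (h + 1)) := by
      nlinarith
    have h6 : (f + 1) * h ≤ 1 + f * (h + 1) := Nat.le_of_mul_le_mul_left h5 (by positivity)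
    have h7 : 2 * (f + 1) < h - 1 := hlt
    have h8 : h ≤ 1 + f := by nlinarith
    omega

end Cfsg.Agent.S0884
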