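import Cfsg.Statements.S0887
import Cfsg.Agent.Lib.H04.Cliff.Degree

set_option autoImplicit false
open Cfsg

namespace Cfsg.Agent.S0887

open Cfsg Cfsg.Agent.H21 Cfsg.Agent.H04.Cliff Module
open scoped ComplexConjugate

set_option linter.style.haveILetI false
set_option linter.unusedVariables false
set_option linter.unusedSectionVars false
set_option linter.unusedSimpArgs false


/-- Let N be a normal subgroup of the finite group G, χ an irreducible character of G and ϑ an irreducible character of N having nonzero inner product with the restriction of χ. If χ 1 = c and ϑ 1 = d as natural numbers, then d divides c and c / d divides the index of N. -/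
theorem result {G : Type*} [Group G] [Fintype G] (N : Subgroup G) [N.Normal] [Fintype N] (χ : G → ℂ) (hχ : Cfsg.IsIrrCharacter G χ) (ϑ : N → ℂ) (hϑ : Cfsg.IsIrrCharacter N ϑ) (hcon : Cfsg.classInner (fun n : N => χ n) ϑ ≠ 0) (c d : ℕ) (hc : χ 1 = c) (hd : ϑ 1 = d) : d ∣ c ∧ c / d ∣ N.index := by
  classical
  have hNT : N ≤ inertG N ϑ := by
    intro n hn
    rw [mem_inertG]
    intro h
    have := isCharacter_conj (isCharacter_of_irr hϑ) h ⟨n, hn⟩
    exact this
  haveI : Fintype (inertG N ϑ) := Fintype.ofFinite _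
  obtain ⟨ψ, e, hψ, he, hχe, hres, -⟩ := clifford_ext N (inertG N ϑ) hNT hϑ
    (fun g => mem_inertG N) hχ hcon
  -- the invariant case inside the inertia group
  have hdvd : e ∣ (N.subgroupOf (inertG N ϑ)).index := by
    refine multiplicity_dvd_index (N.subgroupOf (inertG N ϑ))
      (ϑ := H06.subTheta N _ ϑ) (H06.subTheta_irr N _ hNT hϑ) ?_ hψ ?_
    · intro t
      funext x
      exact ((mem_inertG N).mp t.2) ⟨(x : inertG N ϑ), Subgroup.mem_subgroupOf.mp x.2⟩
    · intro x
      exact hres ⟨(x : inertG N ϑ), Subgroup.mem_subgroupOf.mp x.2⟩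
  have hψ1 : ψ 1 = e * ϑ 1 := hres 1
  have hχ1 : χ 1 = ((inertG N ϑ).index : ℂ) * ψ 1 := by
    rw [hχe, indFun_one]
  rw [hψ1, hc, hd] at hχ1
  have hc' : c = (inertG N ϑ).index * e * d := by
    have : (c : ℂ) = (((inertG N ϑ).index * e * d : ℕ) : ℂ) := by
      rw [hχ1]
      push_cast
      ring
    exact_mod_cast this
  have hd0 : 0 < d := by
    have h1 := H06.irr_one_ne_zero' hϑ
    rw [hd] at h1
    exact Nat.pos_of_ne_zero (by exact_mod_cast h1)
  refine ⟨⟨_, by rw [hc', mul_comm]⟩, ?_⟩
  have hq : c / d = (inertG N ϑ).index * e := by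
    rw [hc']
    exact Nat.mul_div_cancel _ hd0
  rw [hq]
  have hidx : N.index = (N.subgroupOf (inertG N ϑ)).index * (inertG N ϑ).index :=
    (Subgroup.relIndex_mul_index hNT).symm
  rw [hidx, mul_comm]
  exact Nat.mul_dvd_mul_right hdvd _

end Cfsg.Agent.S0887
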