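import Cfsg.Statements.S0895
import Cfsg.Agent.Lib.H23.FS

set_option autoImplicit false
set_option linter.style.haveILetI false
set_option linter.unusedVariables false

namespace Cfsg.Agent.S0895

open Cfsg Cfsg.Agent.H21 Cfsg.Agent.H23
open scoped ComplexConjugate

universe u

section
variable {G : Type*} [Group G] [Fintype G] {n : ℕ} (ρ : Representation ℂ G (Fin n → ℂ))

theorem sandwich_avgL (g : G) :
    (sandwichL (repMat ρ g) : Module.End ℂ _) * avgL ρ = avgL ρ := by
  unfold avgL
  rw [mul_smul_comm, Finset.mul_sum]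
  simp only [Module.End.mul_eq_comp, sandwich_mul, ← repMat_mul]
  congr 1
  exact Fintype.sum_equiv (Equiv.mulLeft g) _ _ fun x => rfl

theorem skew_exists
    (h : (Nat.card G : ℂ)⁻¹ * ∑ g : G, (ρ.character g) ^ 2 = 1)
    (h' : (Nat.card G : ℂ)⁻¹ * ∑ g : G, ρ.character (g * g) = -1) :
    ∃ A : Matrix (Fin n) (Fin n) ℂ, A ≠ 0 ∧ A.transpose = -A ∧
      ∀ g : G, repMat ρ g * A * (repMat ρ g).transpose = A := by
  classical
  set P : Module.End ℂ (Matrix (Fin n) (Fin n) ℂ) := avgL ρ with hP
  set τ : Module.End ℂ (Matrix (Fin n) (Fin n) ℂ) := transposeL with hτ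
  have h1 : τ * τ = 1 := transpose_transpose_L
  have h2 : τ * P = P * τ := avgL_comm ρ
  have h3 : P * P = P := avgL_idem ρ
  let Q : Module.End ℂ (Matrix (Fin n) (Fin n) ℂ) := (1/2 : ℂ) • (P + (-1 : ℂ) • (τ * P))
  have tQ : LinearMap.trace ℂ _ Q = 1 := by
    have e1 : LinearMap.trace ℂ _ P = (Nat.card G : ℂ)⁻¹ * ∑ g : G, (ρ.character g) ^ 2 :=
      trace_avgL ρ
    have e2 : LinearMap.trace ℂ _ (τ * P) = (Nat.card G : ℂ)⁻¹ * ∑ g : G, ρ.character (g * g) :=
      trace_transpose_avgL ρ
    simp only [Q, map_smul, map_add, e1, e2, h, h', smul_eq_mul]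
    norm_num
  have hQ0 : Q ≠ 0 := by
    intro h0
    rw [h0, map_zero] at tQ
    exact zero_ne_one tQ
  obtain ⟨X, hX⟩ : ∃ X, Q X ≠ 0 := by
    by_contra hc
    push Not at hc
    exact hQ0 (LinearMap.ext hc)
  refine ⟨Q X, hX, ?_, ?_⟩
  · have e : τ * Q = (-1 : ℂ) • Q := by
      simp only [Q, mul_smul_comm, mul_add, smul_add, smul_smul]
      rw [← mul_assoc, h1, one_mul]
      norm_num
      rw [add_comm]
    have := congrArg (fun L : Module.End ℂ _ => L X) e
    have h9 : (τ * Q) X = (Q X).transpose := rfl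
    simp only [h9] at this
    rw [this]
    simp
  · intro g
    have e : (sandwichL (repMat ρ g) : Module.End ℂ _) * Q = Q := by
      have h4 : (sandwichL (repMat ρ g) : Module.End ℂ _) * τ = τ * sandwichL (repMat ρ g) :=
        (transpose_sandwich_comm (repMat ρ g)).symm
      have h5 := sandwich_avgL ρ g
      simp only [Q, mul_smul_comm, mul_add, ← mul_assoc, h4]
      rw [mul_assoc τ, h5]
    exact congrArg (fun L : Module.End ℂ _ => L X) e

theorem even_of_skew (hρ : ρ.IsIrreducible) {A : Matrix (Fin n) (Fin n) ℂ} (hA : A ≠ 0)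
    (hs : A.transpose = -A) (hinv : ∀ g : G, repMat ρ g * A * (repMat ρ g).transpose = A) :
    Even n := by
  classical
  -- the range of `A` is invariant
  let W : Submodule ℂ (Fin n → ℂ) := LinearMap.range (Matrix.toLin' A)
  have hW : ∀ g : G, W ≤ W.comap (ρ g) := by
    intro g v hv
    obtain ⟨w, rfl⟩ := hv
    refine ⟨Matrix.toLin' ((repMat ρ g⁻¹).transpose) w, ?_⟩
    have e := hinv g
    have hone : (repMat ρ g).transpose * (repMat ρ g⁻¹).transpose = 1 := by
      rw [← Matrix.transpose_mul, ← repMat_mul]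
      simp [repMat]
    have e2 : A * (repMat ρ g⁻¹).transpose = repMat ρ g * A := by
      calc A * (repMat ρ g⁻¹).transpose
          = (repMat ρ g * A * (repMat ρ g).transpose) * (repMat ρ g⁻¹).transpose := by rw [e]
        _ = repMat ρ g * A := by rw [mul_assoc (repMat ρ g * A), hone, mul_one]
    have e3 := congrArg (fun M => Matrix.toLin' M w) e2
    simp only [Matrix.toLin'_mul, LinearMap.comp_apply] at e3
    rw [e3]
    simp [repMat]
  let S : Subrepresentation ρ := ⟨W, fun g v hv => hW g hv⟩
  have hSne : S ≠ ⊥ := by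
    intro h0
    apply hA
    have : W = ⊥ := congrArg Subrepresentation.toSubmodule h0
    have h1 : Matrix.toLin' A = 0 := LinearMap.range_eq_bot.1 this
    exact (LinearEquiv.map_eq_zero_iff Matrix.toLin').1 h1
  have hStop : S = ⊤ := (hρ.eq_bot_or_eq_top S).resolve_left hSne
  have hWtop : W = ⊤ := congrArg Subrepresentation.toSubmodule hStop
  have hsurj : Function.Surjective (Matrix.toLin' A) := LinearMap.range_eq_top.1 hWtop
  have hunit : IsUnit A.det := by
    have : IsUnit A := by
      obtain ⟨f, hf⟩ := (Matrix.toLin' A).exists_rightInverse_of_surjective (LinearMap.range_eq_top.2 hsurj)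
      have h2 : A * LinearMap.toMatrix' f = 1 := by
        apply (LinearEquiv.injective Matrix.toLin')
        rw [Matrix.toLin'_mul, Matrix.toLin'_toMatrix', hf, Matrix.toLin'_one]
      exact IsUnit.of_mul_eq_one _ h2
    exact (Matrix.isUnit_iff_isUnit_det A).1 this
  have hdet : A.det = (-1) ^ n * A.det := by
    have := congrArg Matrix.det hs
    rw [Matrix.det_transpose, Matrix.det_neg, Fintype.card_fin] at this
    exact this
  by_contra hodd
  rw [Nat.not_even_iff_odd] at hodd
  rw [hodd.neg_one_pow] at hdet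
  have : A.det = 0 := by
    have h2 : (2 : ℂ) * A.det = 0 := by linear_combination hdet
    simpa using h2
  exact hunit.ne_zero this
end

/-- Let χ be a real-valued irreducible character of a finite group G whose degree is an odd natural number. Then the average over s in G of χ (s * s) equals 1. -/
theorem result {G : Type*} [Group G] [Fintype G] (χ : G → ℂ) (hχ : Cfsg.IsIrrCharacter G χ) (hreal : ∀ g : G, (χ g).im = 0) (d : ℕ) (hd : χ 1 = d) (hodd : Odd d) : (Nat.card G : ℂ)⁻¹ * ∑ s : G, χ (s * s) = 1 := by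
  classical
  haveI : Fintype (IrrCharacter G) := Fintype.ofFinite _
  have hr : ∀ g, conj (χ g) = χ g := fun g => Complex.conj_eq_iff_im.2 (hreal g)
  rcases fsInd_of_real ⟨χ, hχ⟩ hr with h | h
  · exact h
  · exfalso
    obtain ⟨n, ρ, hρ, rfl⟩ := hχ
    have hn : n = d := by
      have h1 : ρ.character 1 = n := by
        simp [Representation.character]
      rw [h1] at hd
      exact_mod_cast hd
    have h1 : classInner ρ.character ρ.character = 1 := by
      simpa using classInner_irr (⟨ρ.character, n, ρ, hρ, rfl⟩ : IrrCharacter G) ⟨ρ.character, n, ρ, hρ, rfl⟩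
    have h2 : (Nat.card G : ℂ)⁻¹ * ∑ g : G, (ρ.character g) ^ 2 = 1 := by
      rw [← h1]
      simp only [classInner, sq]
      congr 1
      exact Finset.sum_congr rfl fun g _ => by rw [hr g]
    obtain ⟨A, hA, hs, hinv⟩ := skew_exists ρ h2 h
    have := even_of_skew ρ hρ hA hs hinv
    rw [hn] at this
    exact (Nat.not_even_iff_odd.2 hodd) this

end Cfsg.Agent.S0895
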