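import Cfsg.Statements.S0899
import Cfsg.Agent.Lib.H04.Cliff.FT3

set_option autoImplicit false
open Cfsg

namespace Cfsg.Agent.S0899

open Cfsg Cfsg.Agent.H04.Cliff.FT

set_option linter.style.haveILetI false
set_option linter.unusedVariables false
set_option linter.unusedSectionVars false
set_option linter.unusedSimpArgs false


/-- Let G be a finite group with a faithful complex representation of degree n (on Fin n → ℂ) and p a prime. Suppose either that (n + 1) ^ 2 ≤ p, or that n + 1 < p and every subgroup of G whose order is not divisible by p ^ 2 has a normal Sylow p-subgroup. Then every Sylow p-subgroup of G is normal. -/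
theorem result {G : Type*} [Group G] [Finite G] (n : ℕ) (ρ : Representation ℂ G (Fin n → ℂ)) (hρ : Function.Injective ρ) (p : ℕ) [Fact p.Prime] (h : (n + 1) ^ 2 ≤ p ∨ (n + 1 < p ∧ ∀ K : Subgroup G, ¬ p ^ 2 ∣ Nat.card K → ∀ Q : Sylow p K, (Q : Subgroup K).Normal)) (P : Sylow p G) : (P : Subgroup G).Normal := by
  have hpp : p.Prime := Fact.out
  have hnp : n + 1 < p := by
    rcases h with h | h
    · rcases n with _ | n
      · simpa using hpp.one_lt
      · nlinarith
    · exact h.1
  refine normal_of_good_top (good_top n p hnp (Nat.card G) G ρ hρ ?_ le_rfl) P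
  rcases h with h | h
  · exact Or.inl h
  · exact Or.inr fun K hK => good_of_normal K (h.2 K hK)

end Cfsg.Agent.S0899
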