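import Cfsg.Statements.S0900
import Cfsg.Agent.Lib.H04.Cliff.Degree

set_option autoImplicit false
open Cfsg

namespace Cfsg.Agent.S0900

open Cfsg Cfsg.Agent.H21 Cfsg.Agent.H04.Cliff Module
open scoped ComplexConjugate

set_option linter.style.haveILetI false
set_option linter.unusedVariables false
set_option linter.unusedSectionVars false
set_option linter.unusedSimpArgs false


/-- Let N be a normal subgroup of the finite group G, χ an irreducible character of G and ϑ an irreducible character of N having nonzero inner product with the restriction of χ. Consider: (a) the restriction of χ to N is e • ϑ for a natural number e with e ^ 2 equal to the index of N; (b) χ vanishes outside N and ϑ is invariant under conjugation by G; (c) ϑ is invariant and every irreducible character of G having nonzero inner product with the function induced from ϑ equals χ. Then (a) ↔ (b) and (a) ↔ (c). -/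
theorem result {G : Type*} [Group G] [Fintype G] (N : Subgroup G) [hN : N.Normal] [Fintype N] (χ : G → ℂ) (hχ : Cfsg.IsIrrCharacter G χ) (ϑ : N → ℂ) (hϑ : Cfsg.IsIrrCharacter N ϑ) (hcon : Cfsg.classInner (fun n : N => χ n) ϑ ≠ 0) : ((∃ e : ℕ, (fun n : N => χ n) = (e : ℂ) • ϑ ∧ e ^ 2 = N.index) ↔ ((∀ g : G, g ∉ N → χ g = 0) ∧ ∀ (g : G) (n : N), ϑ ⟨g * n * g⁻¹, hN.conj_mem (n : G) n.2 g⟩ = ϑ n)) ∧ ((∃ e : ℕ, (fun n : N => χ n) = (e : ℂ) • ϑ ∧ e ^ 2 = N.index) ↔ (∀ (g : G) (n : N), ϑ ⟨g * n * g⁻¹, hN.conj_mem (n : G) n.2 g⟩ = ϑ n ∧ ∀ ψ : G → ℂ, Cfsg.IsIrrCharacter G ψ → Cfsg.classInner (Cfsg.indFun N ϑ) ψ ≠ 0 → ψ = χ)) := by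
  classical
  haveI : Fintype (IrrCharacter G) := Fintype.ofFinite _
  have hχc := isCharacter_of_irr hχ
  have hcl := isClassFunction_of_isCharacter hχc
  have hG : (Nat.card G : ℂ) ≠ 0 := Nat.cast_ne_zero.mpr Nat.card_pos.ne'
  have hNc : (Nat.card N : ℂ) ≠ 0 := Nat.cast_ne_zero.mpr Nat.card_pos.ne'
  have hidx : (N.index : ℂ) * (Nat.card N : ℂ) = (Nat.card G : ℂ) := by
    exact_mod_cast Subgroup.index_mul_card N
  -- Frobenius
  have hfr : classInner (indFun N ϑ) χ ≠ 0 := by
    rw [frobenius_reciprocity N ϑ χ hcl]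
    intro h
    apply hcon
    rw [← classInner_comm_conj, h, map_zero]
  -- sums of squares
  have hsumG : ∑ g : G, χ g * conj (χ g) = (Nat.card G : ℂ) := by
    have h := H06.classInner_irr_self hχ
    unfold classInner at h
    field_simp at h
    exact h
  have hsumN : ∑ n : N, ϑ n * conj (ϑ n) = (Nat.card N : ℂ) := by
    have h := H06.classInner_irr_self hϑ
    unfold classInner at h
    field_simp at h
    exact h
  -- the function on `G` splits over `N`
  have hsplit : ∑ g : G, χ g * conj (χ g) =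
      ∑ n : N, χ n * conj (χ n) + ∑ g ∈ Finset.univ.filter (fun g : G => g ∉ N), χ g * conj (χ g) := by
    rw [← Finset.sum_filter_add_sum_filter_not Finset.univ (fun g : G => g ∈ N)]
    congr 1
    exact Finset.sum_subtype _ (fun g => by simp) _
  have hinvAB : ∀ {e : ℕ}, (fun n : N => χ n) = (e : ℂ) • ϑ → e ≠ 0 →
      ∀ (g : G) (n : N), ϑ ⟨g * n * g⁻¹, hN.conj_mem (n : G) n.2 g⟩ = ϑ n := by
    intro e he he0 g n
    have h1 := congrFun he ⟨g * n * g⁻¹, hN.conj_mem (n : G) n.2 g⟩
    have h2 := congrFun he n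
    simp only [Pi.smul_apply, smul_eq_mul] at h1 h2
    have h3 : χ (g * n * g⁻¹) = χ n := hcl n g
    rw [h3, h2] at h1
    have he' : (e : ℂ) ≠ 0 := by exact_mod_cast he0
    exact (mul_left_cancel₀ he' h1).symm
  have he0 : ∀ {e : ℕ}, (fun n : N => χ n) = (e : ℂ) • ϑ → e ≠ 0 := by
    rintro e he rfl
    apply hcon
    rw [he]
    simp [classInner_smul_left, classInner_zero_left]
  -- sum over `N` when `χ_N = e ϑ`
  have hsumN2 : ∀ {e : ℕ}, (fun n : N => χ n) = (e : ℂ) • ϑ →
      ∑ n : N, χ n * conj (χ n) = (e : ℂ) ^ 2 * (Nat.card N : ℂ) := by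
    intro e he
    have h1 : ∀ n : N, χ n * conj (χ n) = (e : ℂ) ^ 2 * (ϑ n * conj (ϑ n)) := by
      intro n
      have h2 := congrFun he n
      simp only [Pi.smul_apply, smul_eq_mul] at h2
      rw [h2, map_mul, Complex.conj_natCast]
      ring
    simp only [h1]
    rw [← Finset.mul_sum, hsumN]
  -- Clifford for invariant `ϑ`
  have hcliff : (∀ (g : G) (n : N), ϑ ⟨g * n * g⁻¹, hN.conj_mem (n : G) n.2 g⟩ = ϑ n) →
      ∃ e : ℕ, e ≠ 0 ∧ classInner (indFun N ϑ) χ = e ∧ (fun n : N => χ n) = (e : ℂ) • ϑ := by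
    intro hinv
    obtain ⟨e, he, h1, h2⟩ := H06.clifford_restrict N hϑ hχ (twist_of_inv N hinv) hfr
    exact ⟨e, he, h1, funext h2⟩
  -- (a) gives (b)
  have hab : ∀ {e : ℕ}, (fun n : N => χ n) = (e : ℂ) • ϑ → e ^ 2 = N.index → ∀ g : G, g ∉ N → χ g = 0 := by
    intro e he he2 g hg
    have h1 := hsumN2 he
    have h2 : (e : ℂ) ^ 2 = (N.index : ℂ) := by exact_mod_cast he2
    rw [h2, hidx] at h1
    rw [hsplit, h1] at hsumG
    have h3 : ∑ g ∈ Finset.univ.filter (fun g : G => g ∉ N), χ g * conj (χ g) = 0 := by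
      simpa using hsumG
    have h4 : ∑ g ∈ Finset.univ.filter (fun g : G => g ∉ N), ‖χ g‖ ^ 2 = 0 := by
      have h5 : ((∑ g ∈ Finset.univ.filter (fun g : G => g ∉ N), ‖χ g‖ ^ 2 : ℝ) : ℂ) = 0 := by
        rw [← h3]
        push_cast
        refine Finset.sum_congr rfl fun x _ => ?_
        rw [Complex.mul_conj, Complex.normSq_eq_norm_sq]
        push_cast
        rfl
      exact_mod_cast h5
    have h6 := (Finset.sum_eq_zero_iff_of_nonneg (fun x _ => by positivity)).1 h4 g (by simpa using hg)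
    have h7 : ‖χ g‖ = 0 := by simpa using h6
    exact norm_eq_zero.mp h7
  constructor
  · constructor
    · rintro ⟨e, he, he2⟩
      exact ⟨hab he he2, hinvAB he (he0 he)⟩
    · rintro ⟨hvan, hinv⟩
      obtain ⟨e, he, -, hres⟩ := hcliff hinv
      refine ⟨e, hres, ?_⟩
      have h1 := hsumN2 hres
      have h2 : ∑ g ∈ Finset.univ.filter (fun g : G => g ∉ N), χ g * conj (χ g) = 0 := by
        refine Finset.sum_eq_zero fun g hg => ?_
        rw [hvan g (by simpa using hg)]
        simp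
      rw [hsplit, h1, h2, add_zero, ← hidx] at hsumG
      have h3 := mul_right_cancel₀ hNc hsumG
      exact_mod_cast h3
  · constructor
    · rintro ⟨e, he, he2⟩ g n
      have hinv := hinvAB he (he0 he)
      refine ⟨hinv g n, fun ψ hψ hψc => ?_⟩
      by_contra hne
      -- norm count
      have htw := twist_of_inv N hinv
      have hX := norm_ind_inv N hϑ htw
      have hXc : IsCharacter G (indFun N ϑ) := isCharacter_indFun N (isCharacter_of_irr hϑ)
      obtain ⟨a, ha, hXX⟩ := H06.classInner_self_char_eq_sum hXc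
      rw [hX] at hXX
      have hXX' : ∑ γ : IrrCharacter G, a γ * a γ = N.index := by exact_mod_cast hXX.symm
      have haχ : a ⟨χ, hχ⟩ = e := by
        have h1 := ha ⟨χ, hχ⟩
        simp only at h1
        rw [frobenius_reciprocity N ϑ χ hcl] at h1
        have h2 : (fun h : N => χ h) = (e : ℂ) • ϑ := he
        rw [h2, classInner_smul_right, H06.classInner_irr_self hϑ] at h1
        have h3 : (a ⟨χ, hχ⟩ : ℂ) = (e : ℂ) := by
          rw [← h1]
          simp
        exact_mod_cast h3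
      have haψ : a ⟨ψ, hψ⟩ ≠ 0 := by
        intro h0
        apply hψc
        have := ha ⟨ψ, hψ⟩
        rw [h0] at this
        simpa using this
      have hne' : (⟨ψ, hψ⟩ : IrrCharacter G) ≠ ⟨χ, hχ⟩ := fun h => hne (congrArg Subtype.val h)
      have h1 : a ⟨χ, hχ⟩ * a ⟨χ, hχ⟩ + a ⟨ψ, hψ⟩ * a ⟨ψ, hψ⟩ ≤
          ∑ γ : IrrCharacter G, a γ * a γ := by
        have h2 : ({⟨χ, hχ⟩, ⟨ψ, hψ⟩} : Finset (IrrCharacter G)) ⊆ Finset.univ := Finset.subset_univ _
        have h3 := Finset.sum_le_sum_of_subset (f := fun γ : IrrCharacter G => a γ * a γ) h2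
        rwa [Finset.sum_pair hne'.symm] at h3
      rw [hXX', haχ, ← he2] at h1
      have h4 : 0 < a ⟨ψ, hψ⟩ * a ⟨ψ, hψ⟩ := Nat.mul_pos (Nat.pos_of_ne_zero haψ) (Nat.pos_of_ne_zero haψ)
      nlinarith
    · intro h
      have hinv : ∀ (g : G) (n : N), ϑ ⟨g * n * g⁻¹, hN.conj_mem (n : G) n.2 g⟩ = ϑ n :=
        fun g n => (h g n).1
      have huniq : ∀ ψ : G → ℂ, IsIrrCharacter G ψ → classInner (indFun N ϑ) ψ ≠ 0 → ψ = χ :=
        (h 1 1).2
      obtain ⟨e, he, hin, hres⟩ := hcliff hinv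
      refine ⟨e, hres, ?_⟩
      have htw := twist_of_inv N hinv
      have hX := norm_ind_inv N hϑ htw
      have hXc : IsCharacter G (indFun N ϑ) := isCharacter_indFun N (isCharacter_of_irr hϑ)
      obtain ⟨a, ha, hXX⟩ := H06.classInner_self_char_eq_sum hXc
      rw [hX] at hXX
      have hXX' : ∑ γ : IrrCharacter G, a γ * a γ = N.index := by exact_mod_cast hXX.symm
      rw [Finset.sum_eq_single (⟨χ, hχ⟩ : IrrCharacter G)] at hXX'
      · have h1 : a ⟨χ, hχ⟩ = e := by
          have h2 := ha ⟨χ, hχ⟩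
          simp only at h2
          rw [hin] at h2
          exact_mod_cast h2.symm
        rw [h1] at hXX'
        rw [← hXX']
        ring
      · intro γ _ hγ
        by_contra hne
        have h2 : a γ ≠ 0 := fun h0 => hne (by simp [h0])
        have h3 : classInner (indFun N ϑ) (γ : G → ℂ) ≠ 0 := by
          rw [ha γ]
          exact_mod_cast h2
        exact hγ (Subtype.ext (huniq γ γ.2 h3))
      · intro h0
        exact absurd (Finset.mem_univ _) h0

end Cfsg.Agent.S0900
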