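import Cfsg.Statements.S0901
import Cfsg.Agent.Lib.H21.ModP

set_option autoImplicit false
open Cfsg

namespace Cfsg.Agent.S0901

open Cfsg Cfsg.Agent.H21  Module
open scoped ComplexConjugate

set_option linter.style.haveILetI false
set_option linter.unusedVariables false
set_option linter.unusedSectionVars false
set_option linter.unusedSimpArgs false


/-- Let M be a maximal ideal of the ring of algebraic integers containing the prime p, and let U be the set of complex roots of unity of order prime to p. Then reduction modulo M is injective on U, and every algebraic integer not in M is congruent modulo M to an element of U (so U maps bijectively onto the nonzero residues). -/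
theorem result (p : ℕ) [Fact p.Prime] (M : Ideal Cfsg.AlgInt) (hM : Cfsg.IsPModular p M) : (∀ ε₁ ε₂ : Cfsg.AlgInt, (∃ m : ℕ, ¬ p ∣ m ∧ (ε₁ : ℂ) ^ m = 1) → (∃ m : ℕ, ¬ p ∣ m ∧ (ε₂ : ℂ) ^ m = 1) → ε₁ - ε₂ ∈ M → ε₁ = ε₂) ∧ (∀ a : Cfsg.AlgInt, a ∉ M → ∃ ε : Cfsg.AlgInt, (∃ m : ℕ, ¬ p ∣ m ∧ (ε : ℂ) ^ m = 1) ∧ a - ε ∈ M) := by
  classical
  have hp := hM.1
  haveI : M.IsMaximal := hM.2.1
  haveI : M.IsPrime := pmod_isPrime hM
  have hinj : ∀ ε₁ ε₂ : AlgInt, (∃ m : ℕ, ¬ p ∣ m ∧ (ε₁ : ℂ) ^ m = 1) → (∃ m : ℕ, ¬ p ∣ m ∧ (ε₂ : ℂ) ^ m = 1) →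
      ε₁ - ε₂ ∈ M → ε₁ = ε₂ := by
    rintro ε₁ ε₂ ⟨m₁, hm₁, h₁⟩ ⟨m₂, hm₂, h₂⟩ hM12
    set m := m₁ * m₂ with hm
    have hpm : ¬ p ∣ m := fun h => (hp.dvd_mul.1 h).elim hm₁ hm₂
    have hm0 : m ≠ 0 := fun h => hpm (by rw [h]; exact dvd_zero p)
    have h1 : ε₁ ^ m = 1 := by
      apply Subtype.ext
      push_cast
      rw [hm, pow_mul, h₁, one_pow]
    have h2 : ε₂ ^ m = 1 := by
      apply Subtype.ext
      push_cast
      rw [hm, mul_comm, pow_mul, h₂, one_pow]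
    set ζ : AlgInt := ε₁ * ε₂ ^ (m - 1) with hζ
    have hε₂ : ε₂ ^ (m - 1) * ε₂ = 1 := by
      rw [← pow_succ, Nat.sub_add_cancel (Nat.pos_of_ne_zero hm0), h2]
    have hζm : ζ ^ m = 1 := by
      rw [hζ, mul_pow, h1, one_mul, ← pow_mul, mul_comm, pow_mul, h2, one_pow]
    have hζ1 : ζ - 1 ∈ M := by
      have : ζ - 1 = (ε₁ - ε₂) * ε₂ ^ (m - 1) := by
        rw [hζ, sub_mul, mul_comm ε₂, hε₂]
      rw [this]
      exact M.mul_mem_right _ hM12
    by_cases hζe : ζ = 1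
    · have : ε₁ = ζ * ε₂ := by
        rw [hζ, mul_assoc, hε₂, mul_one]
      rw [this, hζe, one_mul]
    · exfalso
      have hsum : ∑ i ∈ Finset.range m, ζ ^ i = 0 := by
        have h3 := mul_geom_sum ζ m
        rw [hζm, sub_self] at h3
        exact (mul_eq_zero.1 h3).resolve_left (sub_ne_zero.2 hζe)
      have hsumM : ∑ i ∈ Finset.range m, (ζ ^ i - 1) ∈ M := by
        refine M.sum_mem fun i _ => ?_
        obtain ⟨c, hc⟩ := sub_dvd_pow_sub_pow ζ 1 i
        rw [one_pow] at hc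
        rw [hc]
        exact M.mul_mem_right _ hζ1
      rw [Finset.sum_sub_distrib, hsum, zero_sub, Finset.sum_const, Finset.card_range, nsmul_one] at hsumM
      have h4 : ((m : ℕ) : AlgInt) ∈ M := by simpa using M.neg_mem hsumM
      exact hpm ((natCast_mem_iff hM m).1 h4)
  refine ⟨hinj, ?_⟩
  intro a ha
  letI : Field (AlgInt ⧸ M) := Ideal.Quotient.field M
  haveI hchar : CharP (AlgInt ⧸ M) p := charP_quotient hM
  letI : Algebra (ZMod p) (AlgInt ⧸ M) := ZMod.algebra _ p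
  let π : AlgInt →+* (AlgInt ⧸ M) := Ideal.Quotient.mk M
  have hπ : ∀ x, π x = 0 ↔ x ∈ M := fun x => Ideal.Quotient.eq_zero_iff_mem
  have ha0 : π a ≠ 0 := fun h => ha ((hπ a).1 h)
  -- finite order
  have hint : IsIntegral (ZMod p) (π a) := by
    obtain ⟨f, hf, hfa⟩ := a.2
    refine ⟨f.map (Int.castRingHom (ZMod p)), hf.map _, ?_⟩
    have h2 : Polynomial.aeval a f = 0 := by
      apply Subtype.ext
      have h5 := Polynomial.aeval_algebraMap_apply ℂ a f
      have h6 : Polynomial.aeval (a : ℂ) f = 0 := hfa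
      exact h5.symm.trans h6
    have h3 : π (Polynomial.aeval a f) = 0 := by rw [h2, map_zero]
    rw [Polynomial.eval₂_map]
    have h4 : (algebraMap (ZMod p) (AlgInt ⧸ M)).comp (Int.castRingHom (ZMod p)) = π.comp (algebraMap ℤ AlgInt) :=
      RingHom.ext_int _ _
    rw [h4]
    rw [← h3, Polynomial.aeval_def, Polynomial.hom_eval₂]
  have hfin : Module.Finite (ZMod p) (Algebra.adjoin (ZMod p) {π a}) := by
    exact Module.Finite.iff_fg.2 hint.fg_adjoin_singleton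
  haveI hfinA : Finite (Algebra.adjoin (ZMod p) {π a}) := Module.finite_of_finite (ZMod p)
  let b : Algebra.adjoin (ZMod p) {π a} := ⟨π a, Algebra.subset_adjoin rfl⟩
  obtain ⟨i, j, hij, hpow⟩ : ∃ i j : ℕ, i < j ∧ b ^ i = b ^ j := by
    obtain ⟨i, j, hne, h⟩ := Finite.exists_ne_map_eq_of_infinite (fun n : ℕ => b ^ n)
    rcases lt_or_gt_of_ne hne with hl | hl
    · exact ⟨i, j, hl, h⟩
    · exact ⟨j, i, hl, h.symm⟩
  have hpow' : π a ^ i = π a ^ j := congrArg Subtype.val hpow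
  have hN₀ : π a ^ (j - i) = 1 := by
    have h1 : π a ^ j = π a ^ i * π a ^ (j - i) := by
      rw [← pow_add]; congr 1; omega
    rw [h1] at hpow'
    have h2 : π a ^ i ≠ 0 := pow_ne_zero _ ha0
    exact (mul_left_cancel₀ h2 (by rw [mul_one]; exact hpow'.symm))
  have hN₀0 : j - i ≠ 0 := by omega
  obtain ⟨s, N, hN, hsN⟩ := Nat.exists_eq_pow_mul_and_not_dvd hN₀0 p hp.ne_one
  have hN1 : π a ^ N = 1 := by
    have h1 : (π a ^ N) ^ (p ^ s) = 1 := by
      rw [← pow_mul, mul_comm, ← hsN, hN₀]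
    have h2 : (π a ^ N - 1) ^ (p ^ s) = 0 := by
      rw [sub_pow_char_pow, h1, one_pow, sub_self]
    exact sub_eq_zero.1 (pow_eq_zero_iff (pow_ne_zero _ hp.ne_zero) |>.1 h2)
  have hN0 : 0 < N := Nat.pos_of_ne_zero (fun h => hN (by rw [h]; exact dvd_zero p))
  -- the roots of unity
  let ζc : ℂ := Complex.exp (2 * Real.pi * Complex.I / (N : ℕ))
  have hζc : IsPrimitiveRoot ζc N := Complex.isPrimitiveRoot_exp N hN0.ne'
  have hζint : IsIntegral ℤ ζc := IsIntegral.of_pow hN0 (by rw [hζc.pow_eq_one]; exact isIntegral_one)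
  let ζ : AlgInt := ⟨ζc, hζint⟩
  let T : Finset (AlgInt ⧸ M) := (Finset.range N).image fun j => π (ζ ^ j)
  have hζN : ζ ^ N = 1 := Subtype.ext (by push_cast; exact hζc.pow_eq_one)
  have hTcard : T.card = N := by
    rw [Finset.card_image_of_injOn, Finset.card_range]
    intro i hi j hj h
    have hmem : ζ ^ i - ζ ^ j ∈ M := by
      rw [← hπ, map_sub]
      exact sub_eq_zero.2 h
    have h5 : ∀ l : ℕ, ∃ m : ℕ, ¬ p ∣ m ∧ (((ζ ^ l : AlgInt) : AlgInt) : ℂ) ^ m = 1 := by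
      intro l
      refine ⟨N, hN, ?_⟩
      have : ((ζ ^ l : AlgInt) : ℂ) = ζc ^ l := by push_cast; rfl
      rw [this, ← pow_mul, mul_comm, pow_mul, hζc.pow_eq_one, one_pow]
    have h6 := hinj _ _ (h5 i) (h5 j) hmem
    have h7 : ζc ^ i = ζc ^ j := by
      have := congrArg (fun x : AlgInt => (x : ℂ)) h6
      simpa using this
    exact hζc.pow_inj (Finset.mem_range.1 hi) (Finset.mem_range.1 hj) h7
  haveI : NeZero N := ⟨hN0.ne'⟩
  have hTsub : T ⊆ Polynomial.nthRootsFinset N (1 : AlgInt ⧸ M) := by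
    intro x hx
    obtain ⟨j, -, rfl⟩ := Finset.mem_image.1 hx
    rw [Polynomial.mem_nthRootsFinset hN0]
    rw [← map_pow, ← pow_mul, mul_comm, pow_mul, hζN, one_pow, map_one]
  have hTeq : T = Polynomial.nthRootsFinset N (1 : AlgInt ⧸ M) := by
    apply Finset.eq_of_subset_of_card_le hTsub
    rw [hTcard]
    refine (Multiset.toFinset_card_le _).trans (Polynomial.card_nthRoots _ _)
  have haT : π a ∈ T := by
    rw [hTeq, Polynomial.mem_nthRootsFinset hN0]
    exact hN1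
  obtain ⟨j, -, hj⟩ := Finset.mem_image.1 haT
  refine ⟨ζ ^ j, ⟨N, hN, ?_⟩, ?_⟩
  · have : ((ζ ^ j : AlgInt) : ℂ) = ζc ^ j := by push_cast; rfl
    rw [this, ← pow_mul, mul_comm, pow_mul, hζc.pow_eq_one, one_pow]
  · rw [← hπ, map_sub, ← hj, sub_self]

end Cfsg.Agent.S0901
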