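import Cfsg.Statements.S0903
import Mathlib

set_option autoImplicit false
set_option linter.style.haveILetI false
open Cfsg

namespace Cfsg.Agent.S0903

theorem result {G : Type*} [Group G] [Finite G] (p : ℕ) [Fact p.Prime] (P : Subgroup G) (hP : IsPGroup p P) (c : G) (hc : c ∈ Subgroup.centralizer (P : Set G)) (g h : G) : Nat.card {xy : G × G // IsConj g xy.1 ∧ IsConj h xy.2 ∧ xy.1 * xy.2 = c} ≡ Nat.card {xy : G × G // IsConj g xy.1 ∧ IsConj h xy.2 ∧ xy.1 * xy.2 = c ∧ xy.1 ∈ Subgroup.centralizer (P : Set G) ∧ xy.2 ∈ Subgroup.centralizer (P : Set G)} [MOD p] := by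
  classical
  let X := {xy : G × G // IsConj g xy.1 ∧ IsConj h xy.2 ∧ xy.1 * xy.2 = c}
  have hcomm : ∀ q : P, (q : G) * c * (q : G)⁻¹ = c := by
    intro q
    have := (Subgroup.mem_centralizer_iff.mp hc) (q : G) q.2
    rw [this]; group
  letI act : MulAction P X :=
    { smul := fun q z => ⟨((q : G) * z.1.1 * (q : G)⁻¹, (q : G) * z.1.2 * (q : G)⁻¹), by
        obtain ⟨⟨x, y⟩, hx, hy, hxy⟩ := z
        refine ⟨hx.trans (isConj_iff.mpr ⟨(q : G), rfl⟩), hy.trans (isConj_iff.mpr ⟨(q : G), rfl⟩), ?_⟩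
        calc (q : G) * x * (q : G)⁻¹ * ((q : G) * y * (q : G)⁻¹) = (q : G) * (x * y) * (q : G)⁻¹ := by group
          _ = c := by rw [show x * y = c from hxy]; exact hcomm q⟩
      one_smul := fun z => by
        apply Subtype.ext
        show ((((1 : P) : G) * z.1.1 * ((1 : P) : G)⁻¹, ((1 : P) : G) * z.1.2 * ((1 : P) : G)⁻¹) : G × G) = z.1
        simp
      mul_smul := fun a b z => by
        apply Subtype.ext
        show ((((a * b : P) : G) * z.1.1 * ((a * b : P) : G)⁻¹, ((a * b : P) : G) * z.1.2 * ((a * b : P) : G)⁻¹) : G × G) = ((a : G) * ((b : G) * z.1.1 * (b : G)⁻¹) * (a : G)⁻¹, (a : G) * ((b : G) * z.1.2 * (b : G)⁻¹) * (a : G)⁻¹)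
        simp only [Subgroup.coe_mul, mul_inv_rev]
        ext <;> simp [mul_assoc] }
  have hsmul : ∀ (q : P) (z : X), ((q • z : X) : G × G) = ((q : G) * z.1.1 * (q : G)⁻¹, (q : G) * z.1.2 * (q : G)⁻¹) := fun _ _ => rfl
  have key := hP.card_modEq_card_fixedPoints X
  suffices hcc : Nat.card (MulAction.fixedPoints P X) = Nat.card {xy : G × G // IsConj g xy.1 ∧ IsConj h xy.2 ∧ xy.1 * xy.2 = c ∧ xy.1 ∈ Subgroup.centralizer (P : Set G) ∧ xy.2 ∈ Subgroup.centralizer (P : Set G)} by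
    rw [hcc] at key; exact key
  apply Nat.card_congr
  refine
    { toFun := fun z => ⟨z.1.1, z.1.2.1, z.1.2.2.1, z.1.2.2.2, ?_, ?_⟩
      invFun := fun z => ⟨⟨z.1, z.2.1, z.2.2.1, z.2.2.2.1⟩, ?_⟩
      left_inv := fun z => rfl
      right_inv := fun z => rfl }
  · rw [Subgroup.mem_centralizer_iff]
    intro q hq
    have := congrArg Subtype.val (z.2 ⟨q, hq⟩)
    have h1 := congrArg Prod.fst this
    rw [hsmul] at h1
    simp only at h1
    exact (mul_inv_eq_iff_eq_mul.mp h1)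
  · rw [Subgroup.mem_centralizer_iff]
    intro q hq
    have := congrArg Subtype.val (z.2 ⟨q, hq⟩)
    have h1 := congrArg Prod.snd this
    rw [hsmul] at h1
    simp only at h1
    exact (mul_inv_eq_iff_eq_mul.mp h1)
  · intro q
    apply Subtype.ext
    rw [hsmul]
    ext
    · simp only
      have := Subgroup.mem_centralizer_iff.mp z.2.2.2.2.1 (q : G) q.2
      rw [this]; group
    · simp only
      have := Subgroup.mem_centralizer_iff.mp z.2.2.2.2.2 (q : G) q.2
      rw [this]; group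

end Cfsg.Agent.S0903
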