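import Cfsg.Statements.S0905
import Cfsg.Agent.Lib.H04.Cliff.ClassNil
import Cfsg.Agent.Lib.H01.Fitting

set_option autoImplicit false
open Cfsg

namespace Cfsg.Agent.S0905

open Cfsg Cfsg.Agent.H21 Cfsg.Agent.H04.Cliff Module
open scoped ComplexConjugate

set_option linter.style.haveILetI false
set_option linter.unusedVariables false
set_option linter.unusedSectionVars false
set_option linter.unusedSimpArgs false


/-- Let F be a field of characteristic p and let g be an element of the finite group G no conjugate of which centralizes O_p(G). Then the class sum of g is a nilpotent element of the group algebra F[G]. -/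
theorem result {G : Type*} [Group G] [Finite G] (p : ℕ) [Fact p.Prime] (F : Type*) [Field F] [CharP F p] (g : G) (hg : ∀ x : G, IsConj g x → x ∉ Subgroup.centralizer (Cfsg.pCore p G : Set G)) : IsNilpotent (∑ᶠ x ∈ ConjClasses.carrier (ConjClasses.mk g), MonoidAlgebra.single x (1 : F) : MonoidAlgebra F G) := by
  classical
  haveI := Fintype.ofFinite G
  haveI hn : (pCore p G).Normal := Cfsg.Agent.H01.pCore_normal p
  have hPp : IsPGroup p (pCore p G) := Cfsg.Agent.H01.pCore_isPGroup p
  let T : Finset G := Finset.univ.filter fun x => IsConj g x
  have hS : ConjClasses.carrier (ConjClasses.mk g) = (T : Set G) := by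
    ext x
    rw [ConjClasses.mem_carrier_iff_mk_eq, ConjClasses.mk_eq_mk_iff_isConj]
    simp only [T, Finset.coe_filter, Finset.mem_univ, true_and, Set.mem_setOf_eq]
    exact isConj_comm
  rw [hS, finsum_mem_coe_finset]
  refine class_sum_nilpotent hPp T ?_ ?_
  · intro x y hx _
    simp only [T, Finset.mem_filter, Finset.mem_univ, true_and] at hx ⊢
    exact hx.trans (isConj_iff.2 ⟨y, rfl⟩)
  · intro x hx hfix
    simp only [T, Finset.mem_filter, Finset.mem_univ, true_and] at hx
    apply hg x hx
    rw [Subgroup.mem_centralizer_iff]
    intro y hy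
    have h1 := hfix y hy
    have h2 : y * x = x * y := by
      calc y * x = y * x * y⁻¹ * y := by group
        _ = x * y := by rw [h1]
    exact h2

end Cfsg.Agent.S0905
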