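import Cfsg.Statements.S0910
import Cfsg.Agent.Lib.H04.Cliff.BurnsideV
import Cfsg.Agent.Lib.H21.CharLinear
import Cfsg.Agent.Lib.H22.Degree
import Cfsg.Agent.Lib.H22.Local

set_option autoImplicit false
open Cfsg

namespace Cfsg.Agent.S0910

open Cfsg Cfsg.Agent.H21 Cfsg.Agent.H04.Cliff Module
open scoped ComplexConjugate

set_option linter.style.haveILetI false
set_option linter.unusedVariables false
set_option linter.unusedSectionVars false
set_option linter.unusedSimpArgs false


/-- Let G be a non-abelian finite simple group and p a prime. If an irreducible character χ lies in the principal block (relative to a maximal ideal of the algebraic integers containing p) and χ 1 is a power of p, then χ is the principal character. -/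
theorem result {G : Type*} [Group G] [Finite G] (p : ℕ) [Fact p.Prime] (M : Ideal Cfsg.AlgInt) (hM : Cfsg.IsPModular p M) [IsSimpleGroup G] (hna : ∃ a b : G, a * b ≠ b * a) (χ : Cfsg.IrrCharacter G) (hχ : χ ∈ Cfsg.principalBlock M G) (k : ℕ) (hdeg : (χ : G → ℂ) 1 = (p : ℂ) ^ k) : (χ : G → ℂ) = fun _ => 1 := by
  classical
  haveI := Fintype.ofFinite G
  haveI : Fintype (IrrCharacter G) := Fintype.ofFinite _
  have hp := hM.1
  haveI : M.IsPrime := pmod_isPrime hM
  by_contra hne
  have hne' : χ ≠ H22.oneIrr G := fun h => hne (by rw [h]; rfl)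
  have hker := H22.ker_eq_bot_of_simple ‹IsSimpleGroup G› χ hne'
  have hχc := isCharacter_of_irr χ.2
  have hone := one_eq_charDegree hχc
  have hdeg : charDegree (χ : G → ℂ) = p ^ k := by
    rw [hdeg] at hone
    exact_mod_cast hone.symm
  have hmemker : ∀ x, (χ : G → ℂ) x = (χ : G → ℂ) 1 → x = 1 := by
    intro x hx
    have : x ∈ charKer (χ : G → ℂ) hχc := hx
    rw [hker] at this
    exact this
  -- trivial center
  have hZ : Subgroup.center G = ⊥ := by
    rcases (‹IsSimpleGroup G›).eq_bot_or_eq_top_of_normal (Subgroup.center G) inferInstance with h | h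
    · exact h
    · exfalso
      obtain ⟨a, b, hab⟩ := hna
      apply hab
      have : a ∈ Subgroup.center G := by rw [h]; trivial
      exact (Subgroup.mem_center_iff.1 this b).symm
  by_cases hk : k = 0
  · -- linear
    have hd1 : charDegree (χ : G → ℂ) = 1 := by rw [hdeg, hk, pow_zero]
    obtain ⟨a, b, hab⟩ := hna
    apply hab
    have hmul := linear_mul hχc hd1
    have h10 : (χ : G → ℂ) 1 = 1 := linear_one hχc hd1
    have hinv : ∀ x, (χ : G → ℂ) x * (χ : G → ℂ) x⁻¹ = 1 := by
      intro x
      rw [← hmul, mul_inv_cancel, h10]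
    have h1 : a * b * (b * a)⁻¹ = 1 := by
      apply hmemker
      rw [h10, hmul, hmul]
      have h2 : (χ : G → ℂ) (b * a) * (χ : G → ℂ) (b * a)⁻¹ = 1 := hinv _
      rw [hmul] at h2
      rw [mul_comm ((χ : G → ℂ) a)]
      exact h2
    exact mul_inv_eq_one.1 h1
  · -- `p` divides the group order
    have hdvd : p ∣ Nat.card G := by
      have h1 := H22.charDegree_dvd_card χ
      rw [hdeg] at h1
      exact (dvd_pow_self p hk).trans h1
    let P : Sylow p G := default
    have hPnt : Nontrivial (P : Subgroup G) := by
      have h1 : p ^ (Nat.card G).factorization p = Nat.card (P : Subgroup G) := (P.card_eq_multiplicity).symm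
      have h2 : 1 < Nat.card (P : Subgroup G) := by
        rw [← h1]
        have : (Nat.card G).factorization p ≠ 0 :=
          (hp.factorization_pos_of_dvd Nat.card_pos.ne' hdvd).ne'
        exact Nat.one_lt_pow this hp.one_lt
      exact (Finite.one_lt_card_iff_nontrivial).1 h2
    obtain ⟨⟨z, hz⟩, hz1⟩ : ∃ z : Subgroup.center (P : Subgroup G), z ≠ 1 := by
      haveI := (P.isPGroup').center_nontrivial
      exact exists_ne 1
    let g : G := ((z : P) : G)
    have hg1 : g ≠ 1 := by
      intro h
      apply hz1
      apply Subtype.ext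
      apply Subtype.ext
      exact h
    have hPC : (P : Subgroup G) ≤ Subgroup.centralizer ({g} : Set G) := by
      intro u hu
      rw [Subgroup.mem_centralizer_iff]
      rintro _ rfl
      have := Subgroup.mem_center_iff.1 hz ⟨u, hu⟩
      exact (congrArg Subtype.val this).symm
    have hidx : ¬ p ∣ (Subgroup.centralizer ({g} : Set G)).index := fun h =>
      P.not_dvd_index (h.trans (Subgroup.index_dvd_of_le hPC))
    have hcop : Nat.Coprime (Subgroup.centralizer ({g} : Set G)).index (charDegree (χ : G → ℂ)) := by
      rw [hdeg]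
      exact Nat.Coprime.pow_right k (((Nat.Prime.coprime_iff_not_dvd hp).2 hidx).symm)
    rcases burnside_vanish χ g hcop with h0 | h1
    · -- vanishing contradicts the block condition
      have h2 := hχ g
      have h3 : centralChar (χ : G → ℂ) g = 0 := by
        rw [centralChar, h0]
        simp
      have h4 : centralChar (fun _ : G => (1 : ℂ)) g = ((Subgroup.centralizer ({g} : Set G)).index : ℂ) := by
        simp [centralChar]
      rw [h3, h4, sub_zero] at h2
      have h5 : MemLocalIdeal M (((Subgroup.centralizer ({g} : Set G)).index : AlgInt) : ℂ) := by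
        simpa using h2
      rw [H22.mli_algInt_iff, natCast_mem_iff hM] at h5
      exact hidx h5
    · exact hg1 (norm_eq_degree_one χ hker hZ h1)

end Cfsg.Agent.S0910
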