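import Cfsg.Statements.S0911
import Cfsg.Agent.Lib.H21.BlockMisc

set_option autoImplicit false
open Cfsg

namespace Cfsg.Agent.S0911

/-- The min–max Theorem for defect classes. Let B be a block of the finite group G relative to a maximal ideal M of the algebraic integers containing the prime p, let g represent a defect class of B and let D be a Sylow p-subgroup of the centralizer of g (viewed in G). For any h: (a) if the idempotent coefficient of B at h is a local integer outside the local ideal, then some conjugate of D contains a Sylow p-subgroup of the centralizer of h; (b) if the central character of some member of B at h is outside the local ideal, then some conjugate of D is contained in a Sylow p-subgroup of the centralizer of h. -/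
theorem result {G : Type*} [Group G] [Finite G] (p : ℕ) [Fact p.Prime] (M : Ideal Cfsg.AlgInt) (hM : Cfsg.IsPModular p M) (B : Set (Cfsg.IrrCharacter G)) (hB : Cfsg.IsPBlock M B) (g : G) (hg : Cfsg.IsDefectClass M B g) (D : Sylow p (Subgroup.centralizer ({g} : Set G))) (h : G) : (Cfsg.MemLocalRing M (Cfsg.blockCoeff B h) → ¬ Cfsg.MemLocalIdeal M (Cfsg.blockCoeff B h) → ∃ (x : G) (Q : Sylow p (Subgroup.centralizer ({h} : Set G))), (Q : Subgroup (Subgroup.centralizer ({h} : Set G))).map (Subgroup.centralizer ({h} : Set G)).subtype ≤ ((D : Subgroup (Subgroup.centralizer ({g} : Set G))).map (Subgroup.centralizer ({g} : Set G)).subtype).map (MulAut.conj x).toMonoidHom) ∧ ((∃ χ ∈ B, ¬ Cfsg.MemLocalIdeal M (Cfsg.centralChar (χ : G → ℂ) h)) → ∃ (x : G) (Q : Sylow p (Subgroup.centralizer ({h} : Set G))), ((D : Subgroup (Subgroup.centralizer ({g} : Set G))).map (Subgroup.centralizer ({g} : Set G)).subtype).map (MulAut.conj x).toMonoidHom ≤ (Q : Subgroup (Subgroup.centralizer ({h} : Set G))).map (Subgroup.centralizer ({h} : Set G)).subtype) := by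
  haveI : M.IsPrime := hM.2.1.isPrime
  have hD : Cfsg.IsDefectGroup p M B ((D : Subgroup (Subgroup.centralizer ({g} : Set G))).map (Subgroup.centralizer ({g} : Set G)).subtype) := ⟨g, hg, D, rfl⟩
  obtain ⟨Q⟩ : Nonempty (Sylow p (Subgroup.centralizer ({h} : Set G))) := inferInstance
  have hQp : IsPGroup p ((Q : Subgroup (Subgroup.centralizer ({h} : Set G))).map (Subgroup.centralizer ({h} : Set G)).subtype) := Q.2.map _
  have hQC : (Q : Subgroup (Subgroup.centralizer ({h} : Set G))).map (Subgroup.centralizer ({h} : Set G)).subtype ≤ Subgroup.centralizer ({h} : Set G) := by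
    rintro _ ⟨u, _, rfl⟩
    exact u.2
  constructor
  · intro _ hh
    obtain ⟨x, hx⟩ := H22.subConj_defect_of_coeff hM hB hD hh hQp hQC
    refine ⟨x⁻¹, Q, ?_⟩
    intro s hs
    refine ⟨x * s * x⁻¹, hx s hs, ?_⟩
    simp [MulAut.conj_apply]
    group
  · rintro ⟨χ, hχ, hh⟩
    obtain ⟨x, hx⟩ := H22.subConj_of_cc hM hB hD hχ hh hQp hQC
      (fun U hU hle hUC => H21.map_sylow_maximal _ Q U hU hle hUC)
    refine ⟨x, Q, ?_⟩
    rintro _ ⟨s, hs, rfl⟩
    exact hx s hs

end Cfsg.Agent.S0911
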