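import Cfsg.Statements.S4491
import Cfsg.Agent.Lib.H21.MinMax2

set_option autoImplicit false
open Cfsg

namespace Cfsg.Agent.S4491

/-- Let B be a p-block of defect d of the finite group G (relative to a maximal ideal M of the algebraic integers containing p), and let p^a be the p-part of the order of G. Then the exact power of p dividing the sum of the squares of the degrees of the irreducible characters in B is p^(2a − d). -/
theorem result {G : Type*} [Group G] [Finite G] (p : ℕ) [Fact p.Prime] (M : Ideal Cfsg.AlgInt) (hM : Cfsg.IsPModular p M) (B : Set (Cfsg.IrrCharacter G)) (hB : Cfsg.IsPBlock M B) : (∑ᶠ χ ∈ B, Cfsg.charDegree (χ : G → ℂ) ^ 2).factorization p = 2 * (Nat.card G).factorization p - Cfsg.blockDefect p B := by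
  classical
  haveI := Fintype.ofFinite G
  haveI := Fintype.ofFinite (Cfsg.IrrCharacter G)
  haveI : M.IsPrime := hM.2.1.isPrime
  have hpp : p.Prime := Fact.out
  obtain ⟨P⟩ : Nonempty (Sylow p G) := inferInstance
  set s := H21.minExp p B with hsdef
  obtain ⟨χ₁, hχ₁B, hχ₁⟩ := H21.exists_min_height (p := p) hB
  have hsa := H21.minExp_le_card (p := p) hB
  obtain ⟨w, avg, havg, hw, -, hf⟩ := H21.minmax_formula hM hB P s
    (fun χ hχ => H21.pow_minExp_dvd hpp hχ) (1 : G) (by simpa using hpp.ne_one)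
  let R : G → ℂ := fun x => ∑ χ : Cfsg.IrrCharacter G, H22.eB B χ * ((w χ : ℂ) * H22.cc x⁻¹ χ * avg χ)
  have heR : ∀ χ, Cfsg.MemLocalRing M (H22.eB B χ) := fun χ => H22.ZR_values (H22.eB_mem_ZR hB) χ
  have hRR : ∀ x, Cfsg.MemLocalRing M (R x) := by
    intro x
    refine H22.mlr_sum _ _ fun χ _ => H22.mlr_mul (heR χ) ?_
    exact H22.mlr_mul (H22.mlr_mul (H22.mlr_natCast _) (H22.cc_mlr _ _))
        (H22.mlr_of_isIntegral (havg χ))
  have hcc1 : ∀ χ : Cfsg.IrrCharacter G, H22.cc (1 : G)⁻¹ χ = 1 := by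
    intro χ
    rw [inv_one]
    show Cfsg.centralChar χ.1 1 = 1
    unfold Cfsg.centralChar
    have h3 : (Subgroup.centralizer ({(1 : G)} : Set G)).index = 1 := by
      rw [Subgroup.index_eq_one]
      ext x
      simp [Subgroup.mem_centralizer_iff]
    rw [h3]
    have := H22.irr_one_ne_zero' χ
    field_simp
    simp
  have hm : ¬ p ∣ (P : Subgroup G).index := P.not_dvd_index
  -- R 1 is a unit
  have hR1 : ¬ Cfsg.MemLocalIdeal M (R 1) := by
    intro hR1
    obtain ⟨x, hx⟩ := H22.exists_defectClass hB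
    obtain ⟨-, hxu, hxc⟩ := hx
    have hxreg : ¬ p ∣ orderOf x := by
      intro hd
      apply hxu
      rw [H22.blockCoeff_eq_zero_of_singular hM hB hd]
      exact H22.mli_zero
    have hdvd := H21.dvd_index_of_blockCoeff hM hB s
      (fun χ hχ => H21.pow_minExp_dvd hpp hχ) x hxu
    have hnd : ¬ p ^ (s + 1) ∣ (Subgroup.centralizer ({x} : Set G)).index := by
      intro hcon
      exact hxc χ₁ hχ₁B (H21.cc_mli_of_exp hM χ₁ x s hχ₁ hcon)
    obtain ⟨k, hk⟩ := hdvd
    have hkp : ¬ p ∣ k := by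
      intro hd
      apply hnd
      rw [hk, pow_succ]
      exact Nat.mul_dvd_mul_left _ hd
    have hfx := hf x hxreg
    have hpne : ((p : ℕ) : ℂ) ≠ 0 := by exact_mod_cast hpp.ne_zero
    have hps : (p ^ s : ℂ) ≠ 0 := pow_ne_zero _ hpne
    have h1 : ((k * (P : Subgroup G).index : ℕ) : ℂ) * Cfsg.blockCoeff B x = R x := by
      rw [hk] at hfx
      push_cast at hfx ⊢
      apply mul_left_cancel₀ hps
      calc (p ^ s : ℂ) * ((k : ℂ) * ((P : Subgroup G).index : ℂ) * Cfsg.blockCoeff B x)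
          = (p ^ s : ℂ) * (k : ℂ) * ((P : Subgroup G).index : ℂ) * Cfsg.blockCoeff B x := by ring
        _ = _ := hfx
    have h2 : Cfsg.MemLocalIdeal M (R x) := by
      have h3 : R x = H22.cc x⁻¹ χ₁ * R 1 +
          ∑ χ : Cfsg.IrrCharacter G, H22.eB B χ * ((w χ : ℂ) * (H22.cc x⁻¹ χ - H22.cc x⁻¹ χ₁) * avg χ) := by
        simp only [R, hcc1, Finset.mul_sum]
        rw [← Finset.sum_add_distrib]
        refine Finset.sum_congr rfl fun χ _ => ?_
        ring
      rw [h3]
      refine H22.mli_add (H22.mli_mul_left hR1 (H22.cc_mlr _ _)) (H22.mli_sum _ _ fun χ _ => ?_)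
      by_cases hχ : χ ∈ B
      · refine H22.mli_mul_left ?_ (heR χ)
        have h4 : Cfsg.MemLocalIdeal M (H22.cc x⁻¹ χ - H22.cc x⁻¹ χ₁) :=
          H22.block_sameBlock hB hχ hχ₁B x⁻¹
        refine H22.mli_mul_right (H22.mli_mul_left h4 (H22.mlr_natCast _)) (H22.mlr_of_isIntegral (havg χ))
      · rw [H22.eB_apply_not_mem hχ, zero_mul]
        exact H22.mli_zero
    rw [← h1] at h2
    rw [H22.mli_mul_iff (H22.mlr_natCast _) (H22.blockCoeff_mlr hB x)] at h2
    rcases h2 with h2 | h2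
    · refine H21.not_mli_natCast_of_odd hM ?_ h2
      intro hd
      rcases (Nat.Prime.dvd_mul hpp).1 hd with h4 | h4
      · exact hkp h4
      · exact hm h4
    · exact hxu h2
  -- the sum of squares
  set N : ℕ := ∑ᶠ χ ∈ B, Cfsg.charDegree (χ : G → ℂ) ^ 2 with hNdef
  have hNC : (N : ℂ) = ∑ χ : Cfsg.IrrCharacter G, H22.eB B χ * (χ.1 1 * (starRingEnd ℂ) (χ.1 1)) := by
    rw [hNdef, finsum_mem_eq_finite_toFinset_sum _ (Set.toFinite B)]
    push_cast
    have h1 := H22.finsum_mem_irr B (fun χ => χ.1 1 * (starRingEnd ℂ) (χ.1 1))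
    rw [← h1, finsum_mem_eq_finite_toFinset_sum _ (Set.toFinite B)]
    refine Finset.sum_congr rfl fun χ _ => ?_
    rw [H22.irr_one_conj χ, H21.one_eq_charDegree (H21.isCharacter_of_irr χ.2)]
    ring
  have hb1 : Cfsg.blockCoeff B 1 = (Nat.card G : ℂ)⁻¹ * N := by
    rw [H22.blockCoeff_eq_ofOm, hNC]
    rfl
  have hf1 := hf 1 (by simpa using hpp.ne_one)
  have hi1 : (Subgroup.centralizer ({(1 : G)} : Set G)).index = 1 := by
    rw [Subgroup.index_eq_one]
    ext x
    simp [Subgroup.mem_centralizer_iff]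
  rw [hi1] at hf1
  have hGne : (Nat.card G : ℂ) ≠ 0 := by simp [Nat.card_pos.ne']
  have hcard : Nat.card G = p ^ (Nat.card G).factorization p * (P : Subgroup G).index := by
    have h1 := (P : Subgroup G).card_mul_index
    rw [P.card_eq_multiplicity] at h1
    exact h1.symm
  have hmne : (((P : Subgroup G).index : ℕ) : ℂ) ≠ 0 := by
    have : (P : Subgroup G).index ≠ 0 := Subgroup.index_ne_zero_of_finite
    exact_mod_cast this
  set a := (Nat.card G).factorization p with ha
  have hNR : (N : ℂ) = (p ^ (a + s) : ℂ) * R 1 := by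
    have h2 : (N : ℂ) = (Nat.card G : ℂ) * Cfsg.blockCoeff B 1 := by
      rw [hb1]; field_simp
    rw [h2]
    have h3 : (Nat.card G : ℂ) = (p ^ a : ℂ) * (((P : Subgroup G).index : ℕ) : ℂ) := by
      conv_lhs => rw [hcard]
      push_cast
      rfl
    rw [h3, pow_add]
    have h4 : (((P : Subgroup G).index : ℕ) : ℂ) * Cfsg.blockCoeff B 1 = (p ^ s : ℂ) * R 1 := by
      have := hf1
      simp only [Nat.cast_one, one_mul] at this
      exact this
    calc (p ^ a : ℂ) * (((P : Subgroup G).index : ℕ) : ℂ) * Cfsg.blockCoeff B 1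
        = (p ^ a : ℂ) * ((((P : Subgroup G).index : ℕ) : ℂ) * Cfsg.blockCoeff B 1) := by ring
      _ = _ := by rw [h4]; ring
  have hR1R := hRR 1
  have hN0 : N ≠ 0 := by
    intro h0
    rw [h0] at hNR
    have h5 : R 1 = 0 := by
      have hpne : ((p : ℕ) : ℂ) ≠ 0 := by exact_mod_cast hpp.ne_zero
      have := hNR.symm
      simp only [Nat.cast_zero] at this
      exact (mul_eq_zero.1 this).resolve_left (pow_ne_zero _ hpne)
    apply hR1
    rw [h5]
    exact H22.mli_zero
  have hgoal : N.factorization p = a + s := by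
    obtain ⟨u, k, hpk, hNk⟩ := Nat.exists_eq_pow_mul_and_not_dvd hN0 p hpp.ne_one
    have hk0 : k ≠ 0 := by
      rintro rfl
      exact hpk (dvd_zero _)
    have hfac : N.factorization p = u := by
      rw [hNk, Nat.factorization_mul (pow_ne_zero _ hpp.ne_zero) hk0, Nat.factorization_pow]
      simp [Nat.Prime.factorization_self hpp, Nat.factorization_eq_zero_of_not_dvd hpk]
    rw [hfac]
    have hpne : ((p : ℕ) : ℂ) ≠ 0 := by exact_mod_cast hpp.ne_zero
    have hNC2 : (p ^ u : ℂ) * (k : ℂ) = (p ^ (a + s) : ℂ) * R 1 := by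
      rw [← hNR, hNk]
      push_cast
      rfl
    rcases lt_trichotomy u (a + s) with hlt | heq | hgt
    · exfalso
      have h6 : (k : ℂ) = ((p ^ (a + s - u) : ℕ) : ℂ) * R 1 := by
        have h7 : (p ^ (a + s) : ℂ) = (p ^ u : ℂ) * (p ^ (a + s - u) : ℂ) := by
          rw [← pow_add, Nat.add_sub_cancel' hlt.le]
        rw [h7] at hNC2
        apply mul_left_cancel₀ (pow_ne_zero u hpne)
        rw [hNC2]
        push_cast
        ring
      have h8 : Cfsg.MemLocalIdeal M (k : ℂ) := by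
        rw [h6]
        refine H22.mli_mul_right (H21.mli_natCast_of_dvd hM ?_) hR1R
        exact dvd_pow_self p (Nat.sub_pos_of_lt hlt).ne'
      exact H21.not_mli_natCast_of_odd hM hpk h8
    · exact heq
    · exfalso
      have h6 : R 1 = ((p ^ (u - (a + s)) * k : ℕ) : ℂ) := by
        have h7 : (p ^ u : ℂ) = (p ^ (a + s) : ℂ) * (p ^ (u - (a + s)) : ℂ) := by
          rw [← pow_add, Nat.add_sub_cancel' hgt.le]
        rw [h7] at hNC2
        apply mul_left_cancel₀ (pow_ne_zero (a + s) hpne)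
        rw [← hNC2]
        push_cast
        ring
      apply hR1
      rw [h6]
      refine H21.mli_natCast_of_dvd hM (Dvd.dvd.mul_right ?_ _)
      exact dvd_pow_self p (Nat.sub_pos_of_lt hgt).ne'
  rw [hgoal]
  have hd : Cfsg.blockDefect p B = a - s := rfl
  rw [hd]
  omega

end Cfsg.Agent.S4491
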