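import Cfsg.Statements.S0914
import Cfsg.Agent.S4491
import Cfsg.Agent.Lib.H22.DefectZero
import Cfsg.Agent.Lib.H21.RegProj

set_option autoImplicit false
open Cfsg

namespace Cfsg.Agent.S0914

/-- Let χ be an irreducible character of the finite group G, p a prime and M a maximal ideal of the algebraic integers containing p. Then p does not divide the integer (Nat.card G) / χ(1) if and only if the block of χ relative to M consists of χ alone. -/
theorem result {G : Type*} [Group G] [Finite G] (p : ℕ) [Fact p.Prime] (M : Ideal Cfsg.AlgInt) (hM : Cfsg.IsPModular p M) (χ : Cfsg.IrrCharacter G) : ¬ p ∣ Nat.card G / Cfsg.charDegree (χ : G → ℂ) ↔ Cfsg.blockOf M (χ : G → ℂ) = {χ} := by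
  classical
  haveI : M.IsPrime := hM.2.1.isPrime
  letI : Fintype G := Fintype.ofFinite G
  letI : Fintype (Cfsg.IrrCharacter G) := Fintype.ofFinite _
  constructor
  · intro h
    ext ψ
    constructor
    · intro hψ
      exact H22.eq_of_mem_block_of_defect_zero hM χ h hψ
    · rintro rfl
      exact H22.self_mem_blockOf ψ
  · intro h
    rw [H22.not_dvd_codegree_iff]
    have hB : Cfsg.IsPBlock M (Cfsg.blockOf M χ.1) := H22.isBlock_blockOf χ
    have h1 := Cfsg.Agent.S4491.result p M hM _ hB
    rw [h, finsum_mem_singleton] at h1
    have hm : H21.minExp p ({χ} : Set (Cfsg.IrrCharacter G)) = (Cfsg.charDegree χ.1).factorization p := by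
      unfold H21.minExp
      simp
    have h2 : Cfsg.blockDefect p ({χ} : Set (Cfsg.IrrCharacter G)) = (Nat.card G).factorization p - (Cfsg.charDegree χ.1).factorization p := by
      rw [H21.blockDefect_eq, hm]
    rw [h2, Nat.factorization_pow] at h1
    simp only [Finsupp.smul_apply, smul_eq_mul] at h1
    have h3 := H21.factorization_degree_le (p := p) χ
    omega

end Cfsg.Agent.S0914
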