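import Cfsg.Statements.S0916
import Mathlib.GroupTheory.Nilpotent
import Mathlib.GroupTheory.Sylow

set_option autoImplicit false
open Cfsg

namespace Cfsg.Agent.S0916

variable {G : Type*} [Group G] [Finite G] {p : ℕ} [Fact p.Prime]

omit [Finite G] in
lemma centralizer_conj_card {g c : G} (h : IsConj g c) :
    Nat.card (Subgroup.centralizer ({c} : Set G)) = Nat.card (Subgroup.centralizer ({g} : Set G)) := by
  obtain ⟨k, rfl⟩ := isConj_iff.1 h
  have : Subgroup.centralizer ({k * g * k⁻¹} : Set G)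
      = (Subgroup.centralizer ({g} : Set G)).map (MulAut.conj k).toMonoidHom := by
    ext x
    simp only [Subgroup.mem_centralizer_singleton_iff, Subgroup.mem_map]
    constructor
    · intro hx
      refine ⟨k⁻¹ * x * k, ?_, ?_⟩
      · have := congrArg (fun t => k⁻¹ * t * k) hx
        simp only [mul_assoc] at this ⊢
        simpa [mul_assoc] using this
      · simp [MulAut.conj_apply, mul_assoc]
    · rintro ⟨y, hy, rfl⟩
      simp only [MulEquiv.coe_toMonoidHom, MulAut.conj_apply]
      have hy' : y * g = g * y := hy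
      calc k * y * k⁻¹ * (k * g * k⁻¹) = k * (y * g) * k⁻¹ := by group
        _ = k * (g * y) * k⁻¹ := by rw [hy']
        _ = k * g * k⁻¹ * (k * y * k⁻¹) := by group
  rw [this]
  exact Subgroup.card_map_of_injective (MulEquiv.injective _)

lemma exists_sylow_of_card {K Q : Subgroup G} (hQK : Q ≤ K)
    (hc : Nat.card Q = p ^ (Nat.card K).factorization p) :
    ∃ S : Sylow p K, (S : Subgroup K).map K.subtype = Q := by
  have hc' : Nat.card (Q.subgroupOf K) = p ^ (Nat.card K).factorization p := by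
    rw [← hc]
    exact Nat.card_congr (Subgroup.subgroupOfEquivOfLe hQK).toEquiv
  refine ⟨Sylow.ofCard _ hc', ?_⟩
  simp only [Sylow.coe_ofCard]
  rw [Subgroup.map_subgroupOf_eq_of_le hQK]

lemma card_of_sylow {K Q : Subgroup G} (S : Sylow p K) (hS : (S : Subgroup K).map K.subtype = Q) :
    Nat.card Q = p ^ (Nat.card K).factorization p := by
  rw [← hS, Subgroup.card_map_of_injective K.subtype_injective]
  exact Sylow.card_eq_multiplicity S

lemma normalizer_of_sub {P : Subgroup G} {n : G} (h : ∀ x ∈ P, n * x * n⁻¹ ∈ P) :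
    n ∈ Subgroup.normalizer (P : Set G) := by
  have hle : P.map (MulAut.conj n).toMonoidHom ≤ P := by
    rintro _ ⟨x, hx, rfl⟩
    exact h x hx
  have heq : P.map (MulAut.conj n).toMonoidHom = P :=
    Subgroup.eq_of_le_of_card_ge hle
      (le_of_eq (Subgroup.card_map_of_injective (MulEquiv.injective _)).symm)
  rw [Subgroup.mem_normalizer_iff]
  intro x
  constructor
  · exact h x
  · intro hx
    rw [← heq] at hx
    obtain ⟨y, hy, hyx⟩ := hx
    have : y = x := by
      have : n * y * n⁻¹ = n * x * n⁻¹ := hyx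
      simpa using this
    exact this ▸ hy

lemma second_part {P K : Subgroup G} (hP : IsPGroup p P) (hPK : P ≤ K)
    (S : Sylow p (K ⊓ Subgroup.normalizer (P : Set G) : Subgroup G))
    (hS : (S : Subgroup ↥(K ⊓ Subgroup.normalizer (P : Set G))).map
      (K ⊓ Subgroup.normalizer (P : Set G)).subtype = P) :
    ∃ Q : Sylow p K, (Q : Subgroup K).map K.subtype = P := by
    have hP' : IsPGroup p (P.subgroupOf K) :=
      IsPGroup.of_equiv hP (Subgroup.subgroupOfEquivOfLe hPK).symm
    obtain ⟨Q, hQ⟩ := hP'.exists_le_sylow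
    refine ⟨Q, ?_⟩
    set Q' : Subgroup G := (Q : Subgroup K).map K.subtype with hQ'def
    have hPQ' : P ≤ Q' := by
      intro x hx
      exact ⟨⟨x, hPK hx⟩, hQ (Subgroup.mem_subgroupOf.2 hx), rfl⟩
    have hQ'K : Q' ≤ K := Subgroup.map_subtype_le _
    have hQ'p : IsPGroup p Q' := IsPGroup.map Q.isPGroup' K.subtype
    by_contra hne
    have hPne : P.subgroupOf Q' ≠ ⊤ := by
      intro htop
      apply hne
      refine le_antisymm ?_ hPQ'
      intro x hx
      have : (⟨x, hx⟩ : Q') ∈ P.subgroupOf Q' := by rw [htop]; trivial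
      exact Subgroup.mem_subgroupOf.1 this
    have : Group.IsNilpotent Q' := hQ'p.isNilpotent
    have hnorm := Group.normalizerCondition_of_isNilpotent (G := Q') (P.subgroupOf Q') (lt_top_iff_ne_top.2 hPne)
    obtain ⟨y, hy, hyP⟩ := SetLike.exists_of_lt hnorm
    have hyP' : (y : G) ∉ P := fun h => hyP (Subgroup.mem_subgroupOf.2 h)
    have hyN : (y : G) ∈ Subgroup.normalizer (P : Set G) := by
      apply normalizer_of_sub
      intro x hx
      have h1 : (⟨x, hPQ' hx⟩ : Q') ∈ P.subgroupOf Q' := Subgroup.mem_subgroupOf.2 hx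
      have h2 := (Subgroup.mem_normalizer_iff.1 hy _).1 h1
      exact Subgroup.mem_subgroupOf.1 h2
    have hyL : (y : G) ∈ K ⊓ Subgroup.normalizer (P : Set G) := ⟨hQ'K y.2, hyN⟩
    -- the `p`-subgroup `Q' ∩ N(P)` of `L` contains `S`
    have hRp : IsPGroup p ((Q' ⊓ Subgroup.normalizer (P : Set G)).subgroupOf (K ⊓ Subgroup.normalizer (P : Set G))) := by
      have h1 : IsPGroup p (Q' ⊓ Subgroup.normalizer (P : Set G) : Subgroup G) :=
        hQ'p.to_le inf_le_left
      have hle' : Q' ⊓ Subgroup.normalizer (P : Set G) ≤ K ⊓ Subgroup.normalizer (P : Set G) :=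
        le_inf (inf_le_left.trans hQ'K) inf_le_right
      exact IsPGroup.of_equiv h1 (Subgroup.subgroupOfEquivOfLe hle').symm
    have hSR : (S : Subgroup ↥(K ⊓ Subgroup.normalizer (P : Set G))) ≤ (Q' ⊓ Subgroup.normalizer (P : Set G)).subgroupOf (K ⊓ Subgroup.normalizer (P : Set G)) := by
      intro s hs
      have hsP : (s : G) ∈ (S : Subgroup ↥(K ⊓ Subgroup.normalizer (P : Set G))).map
        (K ⊓ Subgroup.normalizer (P : Set G)).subtype := ⟨s, hs, rfl⟩
      rw [hS] at hsP
      exact Subgroup.mem_subgroupOf.2 ⟨hPQ' hsP, s.2.2⟩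
    have heqR := S.is_maximal' hRp hSR
    have : (⟨y, hyL⟩ : ↥(K ⊓ Subgroup.normalizer (P : Set G))) ∈ (S : Subgroup ↥(K ⊓ Subgroup.normalizer (P : Set G))) := by
      rw [← heqR]
      exact Subgroup.mem_subgroupOf.2 ⟨y.2, hyN⟩
    apply hyP'
    have h5 : (y : G) ∈ (S : Subgroup ↥(K ⊓ Subgroup.normalizer (P : Set G))).map
        (K ⊓ Subgroup.normalizer (P : Set G)).subtype := ⟨_, this, rfl⟩
    rwa [hS] at h5


theorem result {G : Type*} [Group G] [Finite G] (p : ℕ) [Fact p.Prime] (P : Subgroup G) (hP : IsPGroup p P) : (∀ g : G, (∃ S : Sylow p (Subgroup.centralizer ({g} : Set G)), (S : Subgroup (Subgroup.centralizer ({g} : Set G))).map (Subgroup.centralizer ({g} : Set G)).subtype = P) → (∃ c : G, IsConj g c ∧ c ∈ Subgroup.centralizer (P : Set G)) ∧ (∀ c₁ c₂ : G, IsConj g c₁ → IsConj g c₂ → c₁ ∈ Subgroup.centralizer (P : Set G) → c₂ ∈ Subgroup.centralizer (P : Set G) → ∃ n ∈ Subgroup.normalizer (P : Set G), n * c₁ * n⁻¹ = c₂)) ∧ (∀ c : G, c ∈ Subgroup.centralizer (P : Set G) → (∃ S : Sylow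 p (Subgroup.centralizer ({c} : Set G) ⊓ Subgroup.normalizer (P : Set G) : Subgroup G), (S : Subgroup ↥(Subgroup.centralizer ({c} : Set G) ⊓ Subgroup.normalizer (P : Set G))).map (Subgroup.centralizer ({c} : Set G) ⊓ Subgroup.normalizer (P : Set G)).subtype = P) → ∃ S : Sylow p (Subgroup.centralizer ({c} : Set G)), (S : Subgroup (Subgroup.centralizer ({c} : Set G))).map (Subgroup.centralizer ({c} : Set G)).subtype = P) := by
  classical
  have hle : ∀ c : G, c ∈ Subgroup.centralizer (P : Set G) →
      P ≤ Subgroup.centralizer ({c} : Set G) := by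
    intro c hc x hx
    rw [Subgroup.mem_centralizer_singleton_iff]
    exact Subgroup.mem_centralizer_iff.1 hc x hx
  constructor
  · rintro g ⟨S, hS⟩
    have hcard := card_of_sylow S hS
    have hPg : P ≤ Subgroup.centralizer ({g} : Set G) := by
      rw [← hS]; exact Subgroup.map_subtype_le _
    constructor
    · refine ⟨g, IsConj.refl g, ?_⟩
      rw [Subgroup.mem_centralizer_iff]
      intro x hx
      exact Subgroup.mem_centralizer_singleton_iff.1 (hPg hx)
    · intro c₁ c₂ h₁ h₂ hc₁ hc₂
      obtain ⟨k, hk⟩ := isConj_iff.1 (h₁.symm.trans h₂)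
      -- `P` and `kPk⁻¹` are Sylow subgroups of `C(c₂)`.
      have hc2 : Nat.card P = p ^ (Nat.card (Subgroup.centralizer ({c₂} : Set G))).factorization p := by
        rw [hcard, centralizer_conj_card h₂]
      obtain ⟨T, hT⟩ := exists_sylow_of_card (hle c₂ hc₂) hc2
      have hkP : P.map (MulAut.conj k).toMonoidHom ≤ Subgroup.centralizer ({c₂} : Set G) := by
        rintro _ ⟨x, hx, rfl⟩
        rw [Subgroup.mem_centralizer_singleton_iff]
        have hx' := Subgroup.mem_centralizer_singleton_iff.1 (hle c₁ hc₁ hx)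
        simp only [MulEquiv.coe_toMonoidHom, MulAut.conj_apply]
        rw [← hk]
        calc k * x * k⁻¹ * (k * c₁ * k⁻¹) = k * (x * c₁) * k⁻¹ := by group
          _ = k * (c₁ * x) * k⁻¹ := by rw [hx']
          _ = k * c₁ * k⁻¹ * (k * x * k⁻¹) := by group
      have hc2' : Nat.card (P.map (MulAut.conj k).toMonoidHom) =
          p ^ (Nat.card (Subgroup.centralizer ({c₂} : Set G))).factorization p := by
        rw [Subgroup.card_map_of_injective (MulEquiv.injective _), hc2]
      obtain ⟨T', hT'⟩ := exists_sylow_of_card hkP hc2'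
      obtain ⟨t, ht⟩ := MulAction.exists_smul_eq (Subgroup.centralizer ({c₂} : Set G)) T' T
      refine ⟨t * k, ?_, ?_⟩
      · have hsub : ∀ x ∈ P, ((t : G) * k) * x * ((t : G) * k)⁻¹ ∈ P := by
          intro x hx
          have h1 : k * x * k⁻¹ ∈ (T' : Subgroup _).map (Subgroup.centralizer ({c₂} : Set G)).subtype := by
            rw [hT']; exact ⟨x, hx, rfl⟩
          obtain ⟨y, hy, hyx⟩ := h1
          have h2 : t * y * t⁻¹ ∈ (T : Subgroup _) := by
            rw [← ht, Sylow.smul_def, Sylow.pointwise_smul_def]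
            exact ⟨y, hy, rfl⟩
          have h3 : ((t * y * t⁻¹ : Subgroup.centralizer ({c₂} : Set G)) : G) ∈ P := by
            rw [← hT]; exact ⟨_, h2, rfl⟩
          have h4 : ((t * y * t⁻¹ : Subgroup.centralizer ({c₂} : Set G)) : G)
              = ((t : G) * k) * x * ((t : G) * k)⁻¹ := by
            have hyx' : (y : G) = k * x * k⁻¹ := hyx
            simp only [Subgroup.coe_mul, Subgroup.coe_inv, hyx']
            group
          rwa [h4] at h3
        exact normalizer_of_sub hsub
      · have ht2 : (t : G) * c₂ * (t : G)⁻¹ = c₂ := by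
          have := Subgroup.mem_centralizer_singleton_iff.1 t.2
          rw [this]; group
        calc (t : G) * k * c₁ * ((t : G) * k)⁻¹ = (t : G) * (k * c₁ * k⁻¹) * (t : G)⁻¹ := by group
          _ = c₂ := by rw [hk, ht2]
  · rintro c hc ⟨S, hS⟩
    exact second_part hP (hle c hc) S hS

end Cfsg.Agent.S0916
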