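import Cfsg.Statements.S0926
import Cfsg.Agent.Lib.H21.Second5

set_option autoImplicit false
open Cfsg

namespace Cfsg.Agent.S0926

/-- Let B be a block of the finite group G with defect group D (relative to a maximal ideal M of the algebraic integers containing p), let χ ∈ B have height zero, and let x be a p-element. Then some conjugate of x lies in D if and only if χ does not vanish on the whole p-section of x (the elements whose p-part is conjugate to x). -/
theorem result {G : Type*} [Group G] [Finite G] (p : ℕ) [Fact p.Prime] (M : Ideal Cfsg.AlgInt) (hM : Cfsg.IsPModular p M) (B : Set (Cfsg.IrrCharacter G)) (hB : Cfsg.IsPBlock M B) (D : Subgroup G) (hD : Cfsg.IsDefectGroup p M B D) (χ : Cfsg.IrrCharacter G) (hχ : χ ∈ B) (h0 : Cfsg.blockHeight p B (χ : G → ℂ) = 0) (x : G) (hx : ∃ k : ℕ, orderOf x = p ^ k) : (∃ g : G, g * x * g⁻¹ ∈ D) ↔ ∃ u : G, (∃ z : G, Cfsg.IsPPart p u z ∧ IsConj x z) ∧ (χ : G → ℂ) u ≠ 0 := by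
  haveI : M.IsPrime := hM.2.1.isPrime
  letI : Fintype G := Fintype.ofFinite G
  letI : Fintype (IrrCharacter G) := Fintype.ofFinite _
  have hBχ : blockOf M χ.1 = B := (H22.block_eq_of_mem hB hχ).symm
  constructor
  · rintro ⟨g, hg⟩
    obtain ⟨y, hy, T, rfl⟩ := hD
    obtain ⟨w, hwT, hw⟩ := hg
    obtain ⟨k, hk⟩ := hx
    have hord : orderOf (g * x * g⁻¹) = p ^ k := by
      rw [← hk]
      exact orderOf_injective (MulAut.conj g).toMonoidHom (MulEquiv.injective _) x
    have hw' : (w : G) = g * x * g⁻¹ := hw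
    have hcomm : Commute (g * x * g⁻¹) y := by
      have := Subgroup.mem_centralizer_singleton_iff.mp w.2
      rw [hw'] at this
      exact this
    have hyr := H21.defect_class_regular hM hB hy
    refine ⟨g * x * g⁻¹ * y, ⟨g * x * g⁻¹, ⟨y, rfl, hcomm, ⟨k, hord⟩, hyr⟩, ?_⟩, ?_⟩
    · exact isConj_iff.mpr ⟨g, rfl⟩
    · intro h1
      apply H21.height_zero_not_mli hM hB hy hχ (H21.height_zero_iff hχ h0) hcomm hord
      rw [h1]
      exact H22.mli_zero
  · rintro ⟨u, ⟨z, hz, hxz⟩, hu⟩
    by_contra hcon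
    apply hu
    refine H21.vanish_off_defect hM χ hz fun D' hD' hzD => hcon ?_
    rw [hBχ] at hD'
    obtain ⟨w, hw⟩ := H22.subConj_of_defects hM hB hD' hD
    obtain ⟨c, hc⟩ := isConj_iff.mp hxz
    refine ⟨w * c, ?_⟩
    have := hw z hzD
    rw [← hc] at this
    convert this using 1
    group

end Cfsg.Agent.S0926
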