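import Cfsg.Statements.S0932
import Cfsg.Agent.Lib.H04.Induced

set_option autoImplicit false
set_option linter.style.haveILetI false
open Cfsg

namespace Cfsg.Agent.S0932

open Cfsg.Agent.H04

theorem result {G : Type*} [Group G] [Fintype G] (H : Subgroup G) (ξ : H → ℂ) (hξ : Cfsg.IsCharacter H ξ) (g : G) : Cfsg.inducedCentralChar H ξ g = Cfsg.centralChar (Cfsg.indFun H ξ) g := by
  classical
  haveI : Fintype H := Fintype.ofFinite H
  have hG0 : (Nat.card G : ℂ) ≠ 0 := by exact_mod_cast Nat.card_pos.ne'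
  have hH0 : (Nat.card H : ℂ) ≠ 0 := by exact_mod_cast Nat.card_pos.ne'
  -- value at 1
  have h1 : Cfsg.indFun H ξ 1 = (Nat.card H : ℂ)⁻¹ * ((Nat.card G : ℂ) * ξ 1) := by
    unfold Cfsg.indFun
    congr 1
    have : ∀ x : G, x⁻¹ * 1 * x = 1 := fun x => by group
    simp_rw [this]
    have h2 : extendByZero H ξ 1 = ξ 1 := by
      have : (1 : G) = ((1 : H) : G) := rfl
      unfold extendByZero
      rw [this, Function.Injective.extend_apply Subtype.val_injective]
    rw [h2, Finset.sum_const, Finset.card_univ, nsmul_eq_mul, Nat.card_eq_fintype_card]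
  -- value at g
  have h2 : Cfsg.indFun H ξ g = (Nat.card H : ℂ)⁻¹ * (Nat.card (Subgroup.centralizer ({g} : Set G)) * ∑ h : H, if IsConj g (h : G) then ξ h else 0) := by
    unfold Cfsg.indFun
    congr 1
    rw [sum_extendByZero_conj, Finset.mul_sum]
    apply Finset.sum_congr rfl
    intro h _
    split_ifs <;> simp
  have hfin : Cfsg.inducedCentralChar H ξ g = ∑ h : H, if IsConj g (h : G) then ξ h / ξ 1 else 0 := by
    unfold Cfsg.inducedCentralChar
    rw [finsum_eq_sum_of_fintype]
    apply Finset.sum_congr rfl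
    intro h _
    simp only [Set.mem_setOf_eq]
    rw [finsum_eq_if]
  rw [hfin]
  unfold Cfsg.centralChar
  rw [h1, h2]
  have hidx : ((Subgroup.centralizer ({g} : Set G)).index : ℂ) * (Nat.card (Subgroup.centralizer ({g} : Set G)) : ℂ) = (Nat.card G : ℂ) := by
    exact_mod_cast Subgroup.index_mul_card _
  have hsum : (∑ h : H, if IsConj g (h : G) then ξ h / ξ 1 else 0) = (∑ h : H, if IsConj g (h : G) then ξ h else 0) / ξ 1 := by
    rw [Finset.sum_div]
    apply Finset.sum_congr rfl
    intro h _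
    split_ifs <;> simp
  rw [hsum]
  by_cases hξ1 : ξ 1 = 0
  · simp [hξ1]
  · field_simp
    rw [← hidx]
    ring

end Cfsg.Agent.S0932
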