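import Cfsg.Statements.S0943
import Cfsg.Agent.Lib.H21.CentralDefect

set_option autoImplicit false
open Cfsg

namespace Cfsg.Agent.S0943

/-- Let χ be an irreducible character of the finite group G and u, v ∈ G. If χ (x * y) = χ (u * v) whenever x is conjugate to u and y is conjugate to v, then χ u * χ v = χ 1 * χ (u * v). (Multiply the class sums of u and v and apply the central character of χ.) -/
theorem result {G : Type*} [Group G] [Finite G] (χ : Cfsg.IrrCharacter G) (u v : G) (hc : ∀ x y : G, IsConj u x → IsConj v y → (χ : G → ℂ) (x * y) = (χ : G → ℂ) (u * v)) : (χ : G → ℂ) u * (χ : G → ℂ) v = (χ : G → ℂ) 1 * (χ : G → ℂ) (u * v) := by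
  classical
  letI : Fintype G := Fintype.ofFinite G
  letI : Fintype (Cfsg.IrrCharacter G) := Fintype.ofFinite _
  have h1 := H22.sum_conj_mul_char χ v u
  have h2 : ∀ b : G, (χ : G → ℂ) (b * v * b⁻¹ * u) = (χ : G → ℂ) (u * v) := by
    intro b
    have hcl := H21.isClassFunction_of_isCharacter (H21.isCharacter_of_irr χ.2)
    have h3 : (χ : G → ℂ) (b * v * b⁻¹ * u) = (χ : G → ℂ) (u * (b * v * b⁻¹)) := by
      rw [← hcl (b * v * b⁻¹ * u) u]
      congr 1
      group
    rw [h3]
    exact hc u (b * v * b⁻¹) (IsConj.refl u) (isConj_iff.mpr ⟨b, rfl⟩)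
  simp only [h2, Finset.sum_const, Finset.card_univ, nsmul_eq_mul] at h1
  have hG : (Nat.card G : ℂ) ≠ 0 := by exact_mod_cast Nat.card_pos.ne'
  have h0 := H22.irr_one_ne_zero' χ
  rw [← Nat.card_eq_fintype_card] at h1
  field_simp at h1
  linear_combination (-1 : ℂ) * h1

end Cfsg.Agent.S0943
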