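import Cfsg.Statements.S0944
import Cfsg.Agent.Lib.H21.CentralDefect

set_option autoImplicit false
open Cfsg

namespace Cfsg.Agent.S0944

/-- Let χ be an irreducible character of the finite group G and u an involution. Then χ u is a rational integer n with n ≡ χ 1 (mod 2). -/
theorem result {G : Type*} [Group G] [Finite G] (χ : Cfsg.IrrCharacter G) (u : G) (hu : orderOf u = 2) : ∃ n : ℤ, (χ : G → ℂ) u = (n : ℂ) ∧ (2 : ℤ) ∣ (Cfsg.charDegree (χ : G → ℂ) : ℤ) - n := by
  classical
  letI : Fintype G := Fintype.ofFinite G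
  let H : Subgroup G := Subgroup.zpowers u
  letI : Fintype H := Fintype.ofFinite H
  letI : Fintype (Cfsg.IrrCharacter H) := Fintype.ofFinite _
  have hch : Cfsg.IsCharacter H (fun x : H => (χ : G → ℂ) x) :=
    H21.isCharacter_restrict H (H21.isCharacter_of_irr χ.2)
  obtain ⟨m, hm⟩ := H21.classInner_isNat hch (H22.oneIrr H)
  have hcard : Nat.card H = 2 := by
    rw [Nat.card_zpowers, hu]
  let u' : H := ⟨u, Subgroup.mem_zpowers u⟩
  have hu1 : u' ≠ 1 := by
    intro h
    have : u = 1 := congrArg Subtype.val h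
    rw [this, orderOf_one] at hu
    omega
  have huniv : (Finset.univ : Finset H) = {1, u'} := by
    symm
    apply Finset.eq_of_subset_of_card_le (Finset.subset_univ _)
    rw [Finset.card_univ, ← Nat.card_eq_fintype_card, hcard, Finset.card_pair hu1.symm]
  have hval : Cfsg.classInner (fun x : H => (χ : G → ℂ) x) (H22.oneIrr H).1 = ((χ : G → ℂ) 1 + (χ : G → ℂ) u) / 2 := by
    unfold Cfsg.classInner
    rw [huniv, Finset.sum_pair hu1.symm, hcard]
    simp [H22.oneIrr]
    ring
  rw [hval] at hm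
  have hdeg : (χ : G → ℂ) 1 = (Cfsg.charDegree (χ : G → ℂ) : ℂ) := H22.irr_one_eq χ
  refine ⟨2 * (m : ℤ) - Cfsg.charDegree (χ : G → ℂ), ?_, ?_⟩
  · push_cast
    rw [← hdeg]
    linear_combination (2 : ℂ) * hm
  · exact ⟨(Cfsg.charDegree (χ : G → ℂ) : ℤ) - m, by ring⟩

end Cfsg.Agent.S0944
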