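import Cfsg.Statements.S0950
import Cfsg.Agent.Lib.H15.Q8Group

set_option autoImplicit false
open Cfsg

namespace Cfsg.Agent.S0950

/-- Let S be a Sylow 2-subgroup of the finite group G that is isomorphic to the quaternion group of order 8, and suppose S has no normal complement in G. Then any two subgroups of order 4 of S are conjugate by an element of the normalizer of S. -/
theorem result {G : Type*} [Group G] [Finite G] (S : Sylow 2 G) (e : (S : Subgroup G) ≃* QuaternionGroup 2) (hnc : ∀ N : Subgroup G, N.Normal → ¬ Subgroup.IsComplement' N (S : Subgroup G)) (A B : Subgroup G) (hA : A ≤ S) (hB : B ≤ S) (hA4 : Nat.card A = 4) (hB4 : Nat.card B = 4) : ∃ n ∈ Subgroup.normalizer ((S : Subgroup G) : Set G), B = A.map (MulAut.conj n).toMonoidHom := by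
  classical
  have hnpc : ¬ HasNormalPComplement 2 G := by
    rintro ⟨P, N, hN, hc⟩
    have hNcard : ¬ 2 ∣ Nat.card N := Cfsg.Agent.H01.not_dvd_card_of_complement P hc
    apply hnc N hN
    have h1 := hc.card_mul_card
    rw [Sylow.card_eq_multiplicity P, ← Sylow.card_eq_multiplicity S] at h1
    apply Subgroup.isComplement'_of_coprime h1
    have h2 : Nat.card (S : Subgroup G) = 2 ^ 3 := by
      rw [Nat.card_congr e.toEquiv, Nat.card_eq_fintype_card, QuaternionGroup.card]
      norm_num
    rw [h2]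
    have h3 : Nat.Coprime (Nat.card N) 2 :=
      ((Nat.Prime.coprime_iff_not_dvd Nat.prime_two).mpr hNcard).symm
    exact Nat.Coprime.pow_right 3 h3
  obtain ⟨g, hg, hodd, hncg⟩ := Cfsg.Agent.H15.q8_exists_g S e hnpc
  set z := Cfsg.Agent.H15.q8Emb (S : Subgroup G) e (QuaternionGroup.a 2) with hz
  have hz2 : z ^ 2 = 1 := by rw [hz, ← map_pow, Cfsg.Agent.H15.q8_a2, map_one]
  have hzcard : Nat.card (Subgroup.zpowers z) ∣ 2 := by
    rw [Nat.card_zpowers]
    exact orderOf_dvd_of_pow_eq_one hz2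
  -- a generator of a subgroup of order four
  have hgen : ∀ A : Subgroup G, A ≤ (S : Subgroup G) → Nat.card A = 4 →
      ∃ x ∈ A, x ^ 2 ≠ 1 ∧ A = Subgroup.zpowers x := by
    intro A hA hA4
    have hex : ∃ x ∈ A, x ^ 2 ≠ 1 := by
      by_contra hcon
      push Not at hcon
      have hsub : A ≤ Subgroup.zpowers z := by
        intro x hx
        obtain ⟨t, rfl⟩ := Cfsg.Agent.H15.exists_q8Emb (S : Subgroup G) e (hA hx)
        have ht : t ^ 2 = 1 := by
          apply Cfsg.Agent.H15.q8Emb_inj (S : Subgroup G) e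
          rw [map_pow, hcon _ hx, map_one]
        rcases Cfsg.Agent.H15.q8_inv t ht with h | h
        · rw [h, map_one]
          exact Subgroup.one_mem _
        · rw [h]
          exact Subgroup.mem_zpowers _
      have h1 := Subgroup.card_dvd_of_le hsub
      rw [hA4] at h1
      have h2 := h1.trans hzcard
      omega
    obtain ⟨x, hx, hx2⟩ := hex
    refine ⟨x, hx, hx2, ?_⟩
    have hle : Subgroup.zpowers x ≤ A := by
      rw [Subgroup.zpowers_le]
      exact hx
    have hord : Nat.card (Subgroup.zpowers x) = 4 := by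
      rw [Nat.card_zpowers]
      have hx4 : x ^ 2 ^ (1 + 1) = 1 := by
        obtain ⟨t, rfl⟩ := Cfsg.Agent.H15.exists_q8Emb (S : Subgroup G) e (hA hx)
        rw [← map_pow]
        have h2 : t ^ 2 ^ (1 + 1) = 1 := by
          have h3 : t ^ 2 ^ (1 + 1) = (t ^ 2) ^ 2 := by rw [← pow_mul]; norm_num
          rw [h3]
          rcases Cfsg.Agent.H15.q8_sq t with h | h
          · rw [h, one_pow]
          · rw [h, Cfsg.Agent.H15.q8_a2]
        rw [h2, map_one]
      have hx3 : ¬ x ^ 2 ^ 1 = 1 := by simpa using hx2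
      have := orderOf_eq_prime_pow hx3 hx4
      simpa using this
    exact (Subgroup.eq_of_le_of_card_ge hle (hA4.trans hord.symm).le).symm
  obtain ⟨x, hxA, hx2, rfl⟩ := hgen A hA hA4
  obtain ⟨y, hyB, hy2, rfl⟩ := hgen B hB hB4
  obtain ⟨k, hk⟩ := Cfsg.Agent.H15.q8_key (S : Subgroup G) e hg hodd hncg (hA hxA) (hB hyB) hx2 hy2
  refine ⟨g ^ k, Subgroup.pow_mem _ hg k, ?_⟩
  rw [MonoidHom.map_zpowers]
  show _ = Subgroup.zpowers (g ^ k * x * (g ^ k)⁻¹)
  rcases hk with h | h
  · rw [h]
  · rw [h, Subgroup.zpowers_inv]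

end Cfsg.Agent.S0950
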