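import Cfsg.Statements.S0953
import Cfsg.Agent.Lib.H21.BlockRankG

set_option autoImplicit false
open Cfsg

namespace Cfsg.Agent.S0953

/-- Let P be a Sylow p-subgroup of the finite group G with normalizer N, and fix a maximal ideal M of the algebraic integers containing p. The number of blocks of G having P as a defect group equals the number of conjugacy classes of N consisting of elements of order prime to p that centralize P. -/
theorem result {G : Type*} [Group G] [Finite G] (p : ℕ) [Fact p.Prime] (M : Ideal Cfsg.AlgInt) (hM : Cfsg.IsPModular p M) (P : Sylow p G) : Nat.card {B : Set (Cfsg.IrrCharacter G) // Cfsg.IsPBlock M B ∧ Cfsg.IsDefectGroup p M B (P : Subgroup G)} = Nat.card {C : ConjClasses (Subgroup.normalizer ((P : Subgroup G) : Set G)) // ∀ n : Subgroup.normalizer ((P : Subgroup G) : Set G), ConjClasses.mk n = C → ¬ p ∣ orderOf n ∧ (n : G) ∈ Subgroup.centralizer ((P : Subgroup G) : Set G)} := by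
  haveI : M.IsPrime := hM.2.1.isPrime
  rw [H21.card_blocks_first_main hM P.isPGroup']
  set N := Subgroup.normalizer ((P : Subgroup G) : Set G) with hN
  set D : Subgroup N := (P : Subgroup G).subgroupOf N with hDdef
  haveI hDn : D.Normal := Subgroup.normal_in_normalizer
  have hle : (P : Subgroup G) ≤ N := Subgroup.le_normalizer
  have hDcard : Nat.card D = Nat.card (P : Subgroup G) :=
    Nat.card_congr (Subgroup.subgroupOfEquivOfLe hle).toEquiv
  have hDp : IsPGroup p D := P.isPGroup'.comap_of_injective _ (Subgroup.subtype_injective _)
  have hcard : Nat.card D = p ^ (Nat.card N).factorization p := by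
    have h1 : Nat.card (P : Subgroup G) = p ^ (Nat.card G).factorization p :=
      Sylow.card_eq_multiplicity P
    have h2 : Nat.card N ∣ Nat.card G := Subgroup.card_subgroup_dvd_card _
    have h3 : Nat.card D ∣ Nat.card N := Subgroup.card_subgroup_dvd_card _
    rw [hDcard, h1] at *
    have h4 : (Nat.card G).factorization p ≤ (Nat.card N).factorization p :=
      (Nat.Prime.pow_dvd_iff_le_factorization (Fact.out) Nat.card_pos.ne').mp h3
    have h5 : (Nat.card N).factorization p ≤ (Nat.card G).factorization p :=
      (Nat.factorization_le_iff_dvd Nat.card_pos.ne' Nat.card_pos.ne').mpr h2 p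
    rw [le_antisymm h4 h5]
  rw [H21.count_normal_sylow hM D hDp hcard]
  refine Nat.card_congr (Equiv.subtypeEquivRight fun C => ?_)
  refine forall_congr' fun n => imp_congr_right fun _ => and_congr_right fun _ => ?_
  constructor
  · intro h
    rw [Subgroup.mem_centralizer_iff]
    intro s hs
    have h1 : (⟨s, hle hs⟩ : N) ∈ D := Subgroup.mem_subgroupOf.mpr hs
    have h2 := H22.mem_centralizer_singleton_iff.mp (h h1)
    have h3 := congrArg Subtype.val h2
    exact h3.symm
  · intro h d hd
    rw [H22.mem_centralizer_singleton_iff]
    apply Subtype.ext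
    have h1 : (d : G) ∈ (P : Subgroup G) := Subgroup.mem_subgroupOf.mp hd
    have h2 := (Subgroup.mem_centralizer_iff.mp h) _ h1
    exact h2.symm

end Cfsg.Agent.S0953
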