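import Cfsg.Statements.S0955
import Cfsg.Agent.Lib.H21.FirstMain

set_option autoImplicit false
open Cfsg

namespace Cfsg.Agent.S0955

/-- Let D be a defect group of a block of the finite group G relative to a maximal ideal M of the algebraic integers containing the prime p. Then D is the largest normal p-subgroup of its own normalizer: O_p(N_G(D)) = D. -/
theorem result {G : Type*} [Group G] [Finite G] (p : ℕ) [Fact p.Prime] (M : Ideal Cfsg.AlgInt) (hM : Cfsg.IsPModular p M) (B : Set (Cfsg.IrrCharacter G)) (hB : Cfsg.IsPBlock M B) (D : Subgroup G) (hD : Cfsg.IsDefectGroup p M B D) : (Cfsg.pCore p (Subgroup.normalizer (D : Set G))).map (Subgroup.normalizer (D : Set G)).subtype = D := by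
  haveI : M.IsPrime := hM.2.1.isPrime
  have hDp : IsPGroup p D := H22.defect_isPGroup hD
  have hDN : D ≤ Subgroup.normalizer (D : Set G) := Subgroup.le_normalizer
  haveI hn := H21.normal_subgroupOf_of_le_normalizer (P := D) (H := Subgroup.normalizer (D : Set G)) le_rfl
  apply le_antisymm
  · obtain ⟨b, ⟨hb, hdb, -⟩, -⟩ := H21.first_main_two hM hB hD
    have h1 := H21.pCore_le_defect hM hb hdb
    rintro _ ⟨x, hx, rfl⟩
    have := h1 hx
    rw [Subgroup.mem_subgroupOf] at this
    exact this
  · intro d hd
    refine ⟨⟨d, hDN hd⟩, ?_, rfl⟩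
    apply Cfsg.Agent.H01.le_pCore hn hDp.comap_subtype
    rw [Subgroup.mem_subgroupOf]
    exact hd

end Cfsg.Agent.S0955
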