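import Cfsg.Statements.S0957
import Cfsg.Agent.Lib.H04.Basic
import Mathlib

set_option autoImplicit false
set_option linter.style.haveILetI false
open Cfsg

namespace Cfsg.Agent.S0957

theorem result {G : Type*} [Group G] [Finite G] (p : ℕ) [Fact p.Prime] (P : Sylow p G) (g h : G) (S : Sylow p (Subgroup.centralizer ({g} : Set G))) : Nat.card P / Nat.card S ∣ Nat.card {yz : G × G // IsConj g yz.1 ∧ IsConj h yz.2 ∧ yz.2 * yz.1⁻¹ ∈ (P : Subgroup G)} := by
  classical
  have := Fintype.ofFinite G
  let X := {yz : G × G // IsConj g yz.1 ∧ IsConj h yz.2 ∧ yz.2 * yz.1⁻¹ ∈ (P : Subgroup G)}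
  letI act : MulAction P X :=
    { smul := fun q z => ⟨((q : G) * z.1.1 * (q : G)⁻¹, (q : G) * z.1.2 * (q : G)⁻¹), by
        obtain ⟨⟨y, w⟩, hy, hw, hyw⟩ := z
        refine ⟨hy.trans (isConj_iff.mpr ⟨(q : G), rfl⟩), hw.trans (isConj_iff.mpr ⟨(q : G), rfl⟩), ?_⟩
        have : (q : G) * w * (q : G)⁻¹ * ((q : G) * y * (q : G)⁻¹)⁻¹ = (q : G) * (w * y⁻¹) * (q : G)⁻¹ := by group
        show (q : G) * w * (q : G)⁻¹ * ((q : G) * y * (q : G)⁻¹)⁻¹ ∈ (P : Subgroup G)
        rw [this]
        exact (P : Subgroup G).mul_mem ((P : Subgroup G).mul_mem q.2 hyw) ((P : Subgroup G).inv_mem q.2)⟩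
      one_smul := fun z => by
        apply Subtype.ext
        show ((((1 : P) : G) * z.1.1 * ((1 : P) : G)⁻¹, ((1 : P) : G) * z.1.2 * ((1 : P) : G)⁻¹) : G × G) = z.1
        simp
      mul_smul := fun a b z => by
        apply Subtype.ext
        show ((((a * b : P) : G) * z.1.1 * ((a * b : P) : G)⁻¹, ((a * b : P) : G) * z.1.2 * ((a * b : P) : G)⁻¹) : G × G) = ((a : G) * ((b : G) * z.1.1 * (b : G)⁻¹) * (a : G)⁻¹, (a : G) * ((b : G) * z.1.2 * (b : G)⁻¹) * (a : G)⁻¹)
        simp only [Subgroup.coe_mul, mul_inv_rev]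
        ext <;> simp [mul_assoc] }
  have hsmul : ∀ (q : P) (z : X), ((q • z : X) : G × G) = ((q : G) * z.1.1 * (q : G)⁻¹, (q : G) * z.1.2 * (q : G)⁻¹) := fun _ _ => rfl
  have hp : p.Prime := Fact.out
  have hPcard : ∃ a, Nat.card P = p ^ a := IsPGroup.iff_card.mp P.isPGroup'
  have hScard : ∃ b, Nat.card S = p ^ b := IsPGroup.iff_card.mp S.isPGroup'
  obtain ⟨a, ha⟩ := hPcard
  obtain ⟨b, hb⟩ := hScard
  have hlift : IsPGroup p ((S : Subgroup (Subgroup.centralizer ({g} : Set G))).map (Subgroup.centralizer ({g} : Set G)).subtype) :=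
    S.isPGroup'.map _
  obtain ⟨T, hT⟩ := hlift.exists_le_sylow
  have hTcard : Nat.card T = Nat.card P := by
    rw [Sylow.card_eq_multiplicity, Sylow.card_eq_multiplicity]
  have hba : b ≤ a := by
    have h1 : Nat.card S ∣ Nat.card T := by
      have h2 := Subgroup.card_dvd_of_le hT
      have h3 : Nat.card ((S : Subgroup (Subgroup.centralizer ({g} : Set G))).map (Subgroup.centralizer ({g} : Set G)).subtype) = Nat.card S :=
        Subgroup.card_map_of_injective (Subgroup.subtype_injective _)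
      rwa [h3] at h2
    rw [hTcard, ha, hb] at h1
    exact (Nat.pow_dvd_pow_iff_le_right hp.one_lt).mp h1
  rw [ha, hb, Nat.pow_div hba hp.pos]
  apply Cfsg.Agent.H04.dvd_card_of_dvd_orbits (P := P)
  intro z
  -- stabilizer maps injectively into centralizer of g via conjugation by a⁻¹
  obtain ⟨c, hc⟩ := isConj_iff.mp z.2.1
  let φ : MulAction.stabilizer P z →* Subgroup.centralizer ({g} : Set G) :=
    { toFun := fun q => ⟨c⁻¹ * (q.1 : G) * c, by
        rw [Subgroup.mem_centralizer_iff]
        intro x hx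
        rw [Set.mem_singleton_iff] at hx
        subst hx
        have h1 := congrArg Subtype.val (q.2 : q.1 • z = z)
        have h2 := congrArg Prod.fst h1
        rw [hsmul] at h2
        simp only at h2
        have h3 : (q.1 : G) * z.1.1 = z.1.1 * (q.1 : G) := mul_inv_eq_iff_eq_mul.mp h2
        rw [← hc] at h3
        have h4 : (q.1 : G) * (c * x * c⁻¹) * c = (c * x * c⁻¹) * (q.1 : G) * c := by rw [h3]
        calc x * (c⁻¹ * (q.1 : G) * c) = c⁻¹ * ((c * x * c⁻¹) * (q.1 : G) * c) := by group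
          _ = c⁻¹ * ((q.1 : G) * (c * x * c⁻¹) * c) := by rw [h4]
          _ = c⁻¹ * (q.1 : G) * c * x := by group⟩
      map_one' := by apply Subtype.ext; simp
      map_mul' := fun u v => by
        apply Subtype.ext
        simp only [MulMemClass.coe_mul]
        group }
  have hinj : Function.Injective φ := by
    intro u v huv
    have := congrArg Subtype.val huv
    simp only [φ, MonoidHom.coe_mk, OneHom.coe_mk] at this
    apply Subtype.ext
    apply Subtype.ext
    exact mul_left_cancel (mul_right_cancel this)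
  have hpg : IsPGroup p (MulAction.stabilizer P z) :=
    (P.isPGroup').to_subgroup (MulAction.stabilizer P z)
  have hpgr : IsPGroup p φ.range := hpg.of_surjective φ.rangeRestrict φ.rangeRestrict_surjective
  obtain ⟨R, hR⟩ := hpgr.exists_le_sylow
  have hst : Nat.card (MulAction.stabilizer P z) ∣ Nat.card S := by
    have hcardeq : Nat.card (MulAction.stabilizer P z) = Nat.card φ.range :=
      Nat.card_congr (MonoidHom.ofInjective hinj).toEquiv
    rw [hcardeq]
    have h1 : Nat.card φ.range ∣ Nat.card R := Subgroup.card_dvd_of_le hR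
    have h2 : Nat.card R = Nat.card S := by
      rw [Sylow.card_eq_multiplicity, Sylow.card_eq_multiplicity]
    rwa [h2] at h1
  obtain ⟨m, hm⟩ := IsPGroup.iff_card.mp hpg
  have horb := Cfsg.Agent.H04.card_orbit_mul_card_stabilizer (P := P) z
  rw [ha, hm] at horb
  rw [hm, hb] at hst
  have hmb : m ≤ b := (Nat.pow_dvd_pow_iff_le_right hp.one_lt).mp hst
  have hma : m ≤ a := hmb.trans hba
  have hlast : Nat.card (MulAction.orbit P z) = p ^ (a - m) := by
    have hp0 : 0 < p ^ m := Nat.pow_pos hp.pos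
    apply Nat.eq_of_mul_eq_mul_right hp0
    rw [horb, ← pow_add, Nat.sub_add_cancel hma]
  rw [hlast]
  exact pow_dvd_pow p (by omega)

end Cfsg.Agent.S0957
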