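import Cfsg.Statements.S0959
import Cfsg.Agent.Lib.H21.BlockMisc

set_option autoImplicit false
open Cfsg

namespace Cfsg.Agent.S0959

/-- Let B be a block of the finite group G with defect group D (relative to a maximal ideal M of the algebraic integers containing the prime p), and let P be a p-subgroup. Then there is an element g whose idempotent coefficient for B is a local integer outside the local ideal at M and which has a conjugate centralizing P, if and only if some conjugate of P is contained in D. -/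
theorem result {G : Type*} [Group G] [Finite G] (p : ℕ) [Fact p.Prime] (M : Ideal Cfsg.AlgInt) (hM : Cfsg.IsPModular p M) (B : Set (Cfsg.IrrCharacter G)) (hB : Cfsg.IsPBlock M B) (D : Subgroup G) (hD : Cfsg.IsDefectGroup p M B D) (P : Subgroup G) (hP : IsPGroup p P) : (∃ g : G, Cfsg.MemLocalRing M (Cfsg.blockCoeff B g) ∧ ¬ Cfsg.MemLocalIdeal M (Cfsg.blockCoeff B g) ∧ ∃ c : G, IsConj g c ∧ c ∈ Subgroup.centralizer (P : Set G)) ↔ ∃ x : G, P.map (MulAut.conj x).toMonoidHom ≤ D := by
  haveI : M.IsPrime := hM.2.1.isPrime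
  letI : Fintype G := Fintype.ofFinite G
  letI : Fintype (Cfsg.IrrCharacter G) := Fintype.ofFinite _
  constructor
  · rintro ⟨g, -, hg, c, hc, hcP⟩
    have h1 : ¬ Cfsg.MemLocalIdeal M (Cfsg.blockCoeff B c) := by
      obtain ⟨t, rfl⟩ := isConj_iff.mp hc
      have := H22.blockCoeff_isClass B g t
      rwa [this]
    have h2 : P ≤ Subgroup.centralizer ({c} : Set G) := by
      intro s hs
      rw [Subgroup.mem_centralizer_singleton_iff]
      exact (Subgroup.mem_centralizer_iff.mp hcP s hs)
    obtain ⟨x, hx⟩ := H22.subConj_defect_of_coeff hM hB hD h1 hP h2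
    refine ⟨x, ?_⟩
    rintro _ ⟨s, hs, rfl⟩
    exact hx s hs
  · rintro ⟨x, hx⟩
    obtain ⟨g, hg, T, rfl⟩ := hD
    refine ⟨g, hg.1, hg.2.1, x⁻¹ * g * x, ?_, ?_⟩
    · rw [isConj_iff]
      exact ⟨x⁻¹, by simp⟩
    · rw [Subgroup.mem_centralizer_iff]
      intro s hs
      have h1 : x * s * x⁻¹ ∈ (T : Subgroup (Subgroup.centralizer ({g} : Set G))).map (Subgroup.centralizer ({g} : Set G)).subtype := hx ⟨s, hs, rfl⟩
      obtain ⟨u, -, hu⟩ := h1
      have h2 := Subgroup.mem_centralizer_singleton_iff.mp u.2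
      have h3 : (u : G) = x * s * x⁻¹ := hu
      rw [h3] at h2
      have h4 : x * s * x⁻¹ * g = g * (x * s * x⁻¹) := h2
      calc s * (x⁻¹ * g * x) = x⁻¹ * (x * s * x⁻¹ * g) * x := by group
        _ = x⁻¹ * (g * (x * s * x⁻¹)) * x := by rw [h4]
        _ = x⁻¹ * g * x * s := by group

end Cfsg.Agent.S0959
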