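import Cfsg.Statements.S4505
import Cfsg.Agent.Lib.H21.MinMax2

set_option autoImplicit false
open Cfsg

namespace Cfsg.Agent.S4505

/-- Let G be a finite group, p a prime and M a maximal ideal of the algebraic integers containing p. For every σ, the number of p-blocks of defect exactly σ is at most the number of conjugacy classes of p-regular elements whose centralizer has order divisible by p^σ but not by p^(σ+1). -/
theorem result {G : Type*} [Group G] [Finite G] (p : ℕ) [Fact p.Prime] (M : Ideal Cfsg.AlgInt) (hM : Cfsg.IsPModular p M) (σ : ℕ) : Nat.card {B : Set (Cfsg.IrrCharacter G) // Cfsg.IsPBlock M B ∧ Cfsg.blockDefect p B = σ} ≤ Nat.card {C : ConjClasses G // ∃ g : G, ConjClasses.mk g = C ∧ ¬ p ∣ orderOf g ∧ (Nat.card (Subgroup.centralizer ({g} : Set G))).factorization p = σ} := by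
  classical
  haveI := Fintype.ofFinite G
  haveI := Fintype.ofFinite (Cfsg.IrrCharacter G)
  haveI : Fintype (ConjClasses G) := Fintype.ofFinite _
  haveI : M.IsPrime := hM.2.1.isPrime
  have hpp : p.Prime := Fact.out
  let BB := {B : Set (Cfsg.IrrCharacter G) // Cfsg.IsPBlock M B ∧ Cfsg.blockDefect p B = σ}
  let CC := {C : ConjClasses G // ∃ g : G, ConjClasses.mk g = C ∧ ¬ p ∣ orderOf g ∧
    (Nat.card (Subgroup.centralizer ({g} : Set G))).factorization p = σ}
  haveI : Fintype BB := Fintype.ofFinite _
  letI : Fintype CC := Subtype.fintype _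
  let A : BB → ConjClasses G → H22.locR M := fun B C =>
    ⟨Cfsg.blockCoeff B.1 C.out, H22.blockCoeff_mlr B.2.1 _⟩
  let α : BB → CC → IsLocalRing.ResidueField (H22.locR M) := fun B C => H22.piK M (A B C.1)
  have hli : LinearIndependent (IsLocalRing.ResidueField (H22.locR M)) α := by
    rw [Fintype.linearIndependent_iff]
    intro lam hlam B₀
    obtain ⟨θ, hθB, hθexp⟩ := H21.exists_min_height (p := p) B₀.2.1
    have hs₀ := H21.minExp_eq_of_defect (p := p) B₀.2.1 B₀.2.2
    let W : ConjClasses G → H22.locR M := fun C => ⟨H22.cc C.out θ, H22.cc_mlr _ _⟩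
    have hE : ∀ B : BB, ∑ C : CC, α B C * H22.piK M (W C.1) = if B = B₀ then 1 else 0 := by
      intro B
      have h1 := H22.om_ofOm (H22.eB B.1) θ
      rw [H22.om_eq_sum_classes _ (H22.ofOm_isClass _)] at h1
      have h2 : ∑ C : ConjClasses G, A B C * W C =
          ⟨H22.eB B.1 θ, H22.ZR_values (H22.eB_mem_ZR B.2.1) θ⟩ := by
        apply Subtype.ext
        show ((∑ C : ConjClasses G, A B C * W C : H22.locR M) : ℂ) = H22.eB B.1 θ
        rw [← h1]
        push_cast
        refine Finset.sum_congr rfl fun C _ => ?_
        show Cfsg.blockCoeff B.1 C.out * H22.cc C.out θ = _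
        rw [H22.blockCoeff_eq_ofOm]
      have h3 := congrArg (H22.piK M) h2
      rw [map_sum] at h3
      simp only [map_mul] at h3
      have h4 : ∑ C : ConjClasses G, H22.piK M (A B C) * H22.piK M (W C) =
          ∑ C : CC, α B C * H22.piK M (W C.1) := by
        rw [← Fintype.sum_subtype_add_sum_subtype (fun C : ConjClasses G => ∃ g : G, ConjClasses.mk g = C ∧ ¬ p ∣ orderOf g ∧
    (Nat.card (Subgroup.centralizer ({g} : Set G))).factorization p = σ)]
        have h5 : ∑ C : {C : ConjClasses G // ¬ ∃ g : G, ConjClasses.mk g = C ∧ ¬ p ∣ orderOf g ∧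
            (Nat.card (Subgroup.centralizer ({g} : Set G))).factorization p = σ},
            H22.piK M (A B C.1) * H22.piK M (W C.1) = 0 := by
          refine Finset.sum_eq_zero fun C _ => ?_
          by_contra hne
          have hA : H22.piK M (A B C.1) ≠ 0 := left_ne_zero_of_mul hne
          have hW : H22.piK M (W C.1) ≠ 0 := right_ne_zero_of_mul hne
          rw [Ne, H22.piK_eq_zero_iff] at hA hW
          apply C.2
          refine ⟨C.1.out, Quotient.out_eq _, ?_, ?_⟩
          · intro hd
            apply hA
            show Cfsg.MemLocalIdeal M (Cfsg.blockCoeff B.1 C.1.out)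
            rw [H22.blockCoeff_eq_zero_of_singular hM B.2.1 hd]
            exact H22.mli_zero
          · have hdvd := H21.dvd_index_of_blockCoeff hM B.2.1 (H21.minExp p B.1)
              (fun θ' hθ' => H21.pow_minExp_dvd hpp hθ') C.1.out hA
            have hi0 : (Subgroup.centralizer ({C.1.out} : Set G)).index ≠ 0 :=
              Subgroup.index_ne_zero_of_finite
            have hle := (Nat.Prime.pow_dvd_iff_le_factorization hpp hi0).1 hdvd
            have hs₁ := H21.minExp_eq_of_defect (p := p) B.2.1 B.2.2
            have hadd := H21.factorization_index_add (p := p) C.1.out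
            have hle2 : ¬ H21.minExp p B₀.1 + 1 ≤ (Subgroup.centralizer ({C.1.out} : Set G)).index.factorization p := by
              intro hcon
              apply hW
              exact H21.cc_mli_of_exp hM θ _ _ hθexp
                ((Nat.Prime.pow_dvd_iff_le_factorization hpp hi0).2 hcon)
            have h6 := H21.minExp_le_card (p := p) B₀.2.1
            have h7 := H21.minExp_le_card (p := p) B.2.1
            by_contra hne2
            have hd1 := B.2.2
            rw [H21.blockDefect_eq] at hd1
            have hd2 := B₀.2.2
            rw [H21.blockDefect_eq] at hd2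
            omega
        rw [h5, add_zero]
      rw [← h4, h3]
      split_ifs with hB
      · rw [← map_one (H22.piK M)]
        congr 1
        apply Subtype.ext
        show H22.eB B.1 θ = 1
        rw [hB]
        exact H22.eB_apply_mem hθB
      · rw [← map_zero (H22.piK M)]
        congr 1
        apply Subtype.ext
        show H22.eB B.1 θ = 0
        apply H22.eB_apply_not_mem
        intro hθ
        exact hB (Subtype.ext (H22.block_eq_of_inter B.2.1 B₀.2.1 hθ hθB))
    have h8 : ∑ C : CC, (∑ B : BB, lam B • α B) C * H22.piK M (W C.1) = lam B₀ := by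
      simp only [Finset.sum_apply, Pi.smul_apply, smul_eq_mul, Finset.sum_mul]
      rw [Finset.sum_comm]
      have h9 : ∀ B : BB, ∑ C : CC, lam B * α B C * H22.piK M (W C.1) = lam B * (if B = B₀ then 1 else 0) := by
        intro B
        rw [← hE B, Finset.mul_sum]
        refine Finset.sum_congr rfl fun C _ => ?_
        ring
      simp only [h9]
      rw [Finset.sum_eq_single B₀]
      · simp
      · intro B _ hB
        rw [if_neg hB, mul_zero]
      · simp
    rw [hlam] at h8
    simp only [Pi.zero_apply, zero_mul, Finset.sum_const_zero] at h8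
    exact h8.symm
  have h10 := hli.fintype_card_le_finrank
  rw [Module.finrank_fintype_fun_eq_card] at h10
  rw [Nat.card_eq_fintype_card, Nat.card_eq_fintype_card]
  exact h10

end Cfsg.Agent.S4505
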