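import Cfsg.Statements.S0962
import Cfsg.Agent.S4505
import Cfsg.Agent.Lib.H22.MaxPair2

set_option autoImplicit false
open Cfsg

namespace Cfsg.Agent.S0962

/-- Fix a maximal ideal M of the algebraic integers containing the prime p and a natural number d. The number of blocks of the finite group G of defect at least d is at most the number of conjugacy classes of p-regular elements of G of defect at least d, where the defect of a class is the exponent of p in the order of the centralizer of any of its elements. -/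
theorem result {G : Type*} [Group G] [Finite G] (p : ℕ) [Fact p.Prime] (M : Ideal Cfsg.AlgInt) (hM : Cfsg.IsPModular p M) (d : ℕ) : Nat.card {B : Set (Cfsg.IrrCharacter G) // Cfsg.IsPBlock M B ∧ d ≤ Cfsg.blockDefect p B} ≤ Nat.card {C : ConjClasses G // ∃ g : G, ConjClasses.mk g = C ∧ Cfsg.IsPRegular p g ∧ d ≤ (Nat.card (Subgroup.centralizer ({g} : Set G))).factorization p} := by
  classical
  have hmain := fun σ => Cfsg.Agent.S4505.result (G := G) p M hM σ
  letI : Fintype G := Fintype.ofFinite G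
  letI : Fintype (Cfsg.IrrCharacter G) := Fintype.ofFinite _
  haveI : Finite (ConjClasses G) := inferInstance
  have hemb : ∀ σ : ℕ, Nonempty ({B : Set (Cfsg.IrrCharacter G) // Cfsg.IsPBlock M B ∧ Cfsg.blockDefect p B = σ} ↪
      {C : ConjClasses G // ∃ g : G, ConjClasses.mk g = C ∧ ¬ p ∣ orderOf g ∧
        (Nat.card (Subgroup.centralizer ({g} : Set G))).factorization p = σ}) := by
    intro σ
    letI : Fintype {B : Set (Cfsg.IrrCharacter G) // Cfsg.IsPBlock M B ∧ Cfsg.blockDefect p B = σ} := Fintype.ofFinite _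
    letI : Fintype {C : ConjClasses G // ∃ g : G, ConjClasses.mk g = C ∧ ¬ p ∣ orderOf g ∧
        (Nat.card (Subgroup.centralizer ({g} : Set G))).factorization p = σ} := Fintype.ofFinite _
    apply Function.Embedding.nonempty_of_card_le
    have := hmain σ
    rwa [Nat.card_eq_fintype_card, Nat.card_eq_fintype_card] at this
  let e := fun σ => (hemb σ).some
  have hval : ∀ (σ σ' : ℕ) (B : {B : Set (Cfsg.IrrCharacter G) // Cfsg.IsPBlock M B ∧ Cfsg.blockDefect p B = σ})
      (B' : {B : Set (Cfsg.IrrCharacter G) // Cfsg.IsPBlock M B ∧ Cfsg.blockDefect p B = σ'}),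
      (e σ B).1 = (e σ' B').1 → σ = σ' := by
    intro σ σ' B B' h
    obtain ⟨g, hg, -, hgσ⟩ := (e σ B).2
    obtain ⟨g', hg', -, hgσ'⟩ := (e σ' B').2
    rw [← hg, ← hg'] at h
    have hc : IsConj g g' := ConjClasses.mk_eq_mk_iff_isConj.mp h
    obtain ⟨c, hc⟩ := isConj_iff.mp hc
    rw [← hgσ, ← hgσ']
    have : Nat.card (Subgroup.centralizer ({g} : Set G)) = Nat.card (Subgroup.centralizer ({g'} : Set G)) := by
      have h2 : Subgroup.centralizer ({g'} : Set G) = (Subgroup.centralizer ({g} : Set G)).map (MulAut.conj c).toMonoidHom := by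
        ext x
        have h3 := H22.mem_centralizer_conj_singleton c g (c⁻¹ * x * c)
        have h4 : c * (c⁻¹ * x * c) * c⁻¹ = x := by group
        rw [h4, hc] at h3
        simp only [Subgroup.mem_map, MulEquiv.toMonoidHom_eq_coe, MonoidHom.coe_coe, MulAut.conj_apply]
        constructor
        · intro hx
          exact ⟨c⁻¹ * x * c, h3.mpr hx, by group⟩
        · rintro ⟨y, hy, rfl⟩
          have h5 := H22.mem_centralizer_conj_singleton c g y
          rw [hc] at h5
          exact h5.mp hy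
      rw [h2]
      exact (Nat.card_congr (Subgroup.equivMapOfInjective _ _ (MulAut.conj c).injective).toEquiv)
    rw [this]
  let F : {B : Set (Cfsg.IrrCharacter G) // Cfsg.IsPBlock M B ∧ d ≤ Cfsg.blockDefect p B} →
      {C : ConjClasses G // ∃ g : G, ConjClasses.mk g = C ∧ Cfsg.IsPRegular p g ∧ d ≤ (Nat.card (Subgroup.centralizer ({g} : Set G))).factorization p} :=
    fun B => ⟨(e (Cfsg.blockDefect p B.1) ⟨B.1, B.2.1, rfl⟩).1, by
      obtain ⟨g, hg, h1, h2⟩ := (e (Cfsg.blockDefect p B.1) ⟨B.1, B.2.1, rfl⟩).2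
      exact ⟨g, hg, h1, h2 ▸ B.2.2⟩⟩
  refine Nat.card_le_card_of_injective F ?_
  intro B B' h
  have h1 : (e (Cfsg.blockDefect p B.1) ⟨B.1, B.2.1, rfl⟩).1 = (e (Cfsg.blockDefect p B'.1) ⟨B'.1, B'.2.1, rfl⟩).1 :=
    congrArg Subtype.val h
  have h2 := hval _ _ _ _ h1
  have h3 : ∀ (σ σ' : ℕ) (hσ : σ = σ') (X : {B : Set (Cfsg.IrrCharacter G) // Cfsg.IsPBlock M B ∧ Cfsg.blockDefect p B = σ})
      (Y : {B : Set (Cfsg.IrrCharacter G) // Cfsg.IsPBlock M B ∧ Cfsg.blockDefect p B = σ'}),
      (e σ X).1 = (e σ' Y).1 → X.1 = Y.1 := by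
    rintro σ σ' rfl X Y h
    have := (e σ).injective (Subtype.ext h)
    exact congrArg Subtype.val this
  exact Subtype.ext (h3 _ _ h2 _ _ h1)

end Cfsg.Agent.S0962
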