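import Cfsg.Statements.S0973
import Cfsg.Agent.Lib.H21.FirstMain

set_option autoImplicit false
open Cfsg

namespace Cfsg.Agent.S0973

/-- Let B be a block of the finite group G with defect group P (relative to a maximal ideal M of the algebraic integers containing p), and let L = P ⊔ C_G(P). Then (i) some block b of L with defect group P (viewed in L) induces B, and (ii) if b and b' are blocks of L both inducing B, there is n ∈ N_G(P) carrying b to b': for every θ ∈ b there is θ' ∈ b' with θ' x = θ (n x n⁻¹) for all x ∈ L. -/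
theorem result {G : Type*} [Group G] [Finite G] (p : ℕ) [Fact p.Prime] (M : Ideal Cfsg.AlgInt) (hM : Cfsg.IsPModular p M) (B : Set (Cfsg.IrrCharacter G)) (hB : Cfsg.IsPBlock M B) (P : Subgroup G) (hP : Cfsg.IsDefectGroup p M B P) : (∃ b : Set (Cfsg.IrrCharacter ↥(P ⊔ Subgroup.centralizer (P : Set G))), Cfsg.IsDefectGroup p M b (P.subgroupOf (P ⊔ Subgroup.centralizer (P : Set G))) ∧ Cfsg.IsInducedBlock M (P ⊔ Subgroup.centralizer (P : Set G)) b B) ∧ ∀ b b' : Set (Cfsg.IrrCharacter ↥(P ⊔ Subgroup.centralizer (P : Set G))), Cfsg.IsInducedBlock M (P ⊔ Subgroup.centralizer (P : Set G)) b B → Cfsg.IsInducedBlock M (P ⊔ Subgroup.centralizer (P : Set G)) b' B → ∃ n ∈ Subgroup.normalizer (P : Set G), ∀ θ ∈ b, ∃ θ' ∈ b', ∀ x : ↥(P ⊔ Subgroup.centralizer (P : Set G)), ∀ hx : n * (x : G) * n⁻¹ ∈ P ⊔ Subgroup.centralizer (P : Set G), (θ' : ↥(P ⊔ Subgroup.centralizer (P : Set G)) → ℂ) x = (θ : ↥(P ⊔ Subgroup.centralizer (P : Set G)) → ℂ) ⟨n * (x : G) * n⁻¹, hx⟩ := by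
  haveI : M.IsPrime := hM.2.1.isPrime
  have hPp : IsPGroup p P := H22.defect_isPGroup hP
  have hHN : P ⊔ Subgroup.centralizer (P : Set G) ≤ Subgroup.normalizer (P : Set G) :=
    sup_le Subgroup.le_normalizer (Subgroup.centralizer_le_normalizer _)
  have hstep : ∀ n ∈ Subgroup.normalizer (P : Set G), ∀ x ∈ P ⊔ Subgroup.centralizer (P : Set G),
      n * x * n⁻¹ ∈ P ⊔ Subgroup.centralizer (P : Set G) := by
    intro n hn x hx
    have h1 : (P ⊔ Subgroup.centralizer (P : Set G)).map (MulAut.conj n).toMonoidHom ≤ P ⊔ Subgroup.centralizer (P : Set G) := by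
      rw [Subgroup.map_sup]
      apply sup_le
      · rintro _ ⟨s, hs, rfl⟩
        exact Subgroup.mem_sup_left ((Subgroup.mem_normalizer_iff.mp hn s).mp hs)
      · rintro _ ⟨s, hs, rfl⟩
        exact Subgroup.mem_sup_right ((Subgroup.mem_normalizer_iff.mp (H22.normalizer_le_normalizer_centralizer P hn) s).mp hs)
    exact h1 ⟨x, hx, rfl⟩
  have hNH : Subgroup.normalizer (P : Set G) ≤ Subgroup.normalizer ((P ⊔ Subgroup.centralizer (P : Set G) : Subgroup G) : Set G) := by
    intro n hn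
    rw [Subgroup.mem_normalizer_iff]
    intro x
    refine ⟨hstep n hn x, fun h => ?_⟩
    have := hstep n⁻¹ (inv_mem hn) _ h
    simpa [mul_assoc] using this
  refine ⟨H21.exists_block_between le_sup_right hM hPp le_sup_left hHN hB hP, fun b b' h h' => ?_⟩
  exact H21.blocks_between_conj le_sup_right hM hPp le_sup_left hHN hNH hP h h'

end Cfsg.Agent.S0973
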