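import Cfsg.Statements.S0985
import Cfsg.Agent.Lib.H04.SylowBasic

set_option autoImplicit false
set_option linter.style.haveILetI false
open Cfsg

namespace Cfsg.Agent.S0985

open MulAction

theorem result {G : Type*} [Group G] [Finite G] (p k : ℕ) [Fact p.Prime] (h : ¬ Nat.card (Sylow p G) ≡ 1 [MOD p ^ k]) : ∃ P R : Sylow p G, P ≠ R ∧ ((R : Subgroup G).subgroupOf (P : Subgroup G)).index ≤ p ^ (k - 1) := by
  classical
  have hp : p.Prime := Fact.out
  by_contra hcon
  push Not at hcon
  apply h
  have hk : k ≠ 0 := by
    rintro rfl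
    exact h (by simp [Nat.ModEq, Nat.mod_one])
  obtain ⟨P⟩ : Nonempty (Sylow p G) := inferInstance
  -- X: the Sylow subgroups other than P
  let A : SubMulAction (P : Subgroup G) (Sylow p G) :=
    { carrier := {R | R ≠ P}
      smul_mem' := by
        intro q R hR hq
        apply hR
        have hq' : (q : G) ∈ Subgroup.normalizer ((P : Subgroup G) : Set G) :=
          Subgroup.le_normalizer q.2
        have h2 : (q : G)⁻¹ • P = P := by
          rw [Sylow.smul_eq_iff_mem_normalizer]
          exact Subgroup.inv_mem _ hq'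
        have h3 : (q : G)⁻¹ • ((q : G) • R) = (q : G)⁻¹ • P := by
          exact congrArg (fun T => (q : G)⁻¹ • T) hq
        rw [inv_smul_smul, h2] at h3
        exact h3 }
  have hdvd : p ^ k ∣ Nat.card A := by
    apply Cfsg.Agent.H04.dvd_card_of_dvd_orbits (P := (P : Subgroup G))
    intro z
    have hne : P ≠ (z : Sylow p G) := fun h => z.2 h.symm
    have hlt := hcon P z hne
    -- orbit size = index of stabilizer
    have hst : stabilizer (P : Subgroup G) z = ((z : Sylow p G) : Subgroup G).subgroupOf (P : Subgroup G) := by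
      rw [← Cfsg.Agent.H04.stabilizer_sylow]
      ext q
      simp only [mem_stabilizer_iff]
      exact Subtype.ext_iff
    have horb : Nat.card (orbit (P : Subgroup G) z) = (((z : Sylow p G) : Subgroup G).subgroupOf (P : Subgroup G)).index := by
      rw [← hst, MulAction.index_stabilizer, Nat.card_coe_set_eq]
    rw [horb]
    -- the index is a power of p
    have hpgP : IsPGroup p (P : Subgroup G) := P.isPGroup'
    have hdv : (((z : Sylow p G) : Subgroup G).subgroupOf (P : Subgroup G)).index ∣ Nat.card (P : Subgroup G) :=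
      Subgroup.index_dvd_card _
    obtain ⟨a, ha⟩ := IsPGroup.iff_card.mp hpgP
    rw [ha] at hdv
    obtain ⟨j, -, hj⟩ := (Nat.dvd_prime_pow hp).mp hdv
    rw [hj] at hlt ⊢
    have : k - 1 < j := (Nat.pow_lt_pow_iff_right hp.one_lt).mp hlt
    exact pow_dvd_pow p (by omega)
  -- card of Sylow = card A + 1
  have hcard : Nat.card (Sylow p G) = Nat.card A + 1 := by
    haveI : Fintype (Sylow p G) := Fintype.ofFinite _
    have h1 : Nat.card A = Nat.card {R : Sylow p G // R ≠ P} := rfl
    rw [h1, Nat.card_eq_fintype_card, Nat.card_eq_fintype_card, Fintype.card_subtype_compl]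
    simp only [Fintype.card_unique]
    have : 0 < Fintype.card (Sylow p G) := Fintype.card_pos
    omega
  rw [hcard]
  obtain ⟨c, hc⟩ := hdvd
  rw [hc]
  simp [Nat.ModEq]

end Cfsg.Agent.S0985
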