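import Cfsg.Statements.S0986
import Cfsg.Agent.Lib.H04.Sylow2

set_option autoImplicit false
set_option linter.style.haveILetI false
open Cfsg

namespace Cfsg.Agent.S0986

open Cfsg.Agent.H04

theorem exists_mem_normalizer_of_lt {G : Type*} [Group G] [Finite G] {p : ℕ} [Fact p.Prime] {P D : Subgroup G}
    (hP : IsPGroup p P) (hDP : D < P) : ∃ x ∈ P, x ∉ D ∧ x ∈ Subgroup.normalizer (D : Set G) := by
  haveI : Group.IsNilpotent P := hP.isNilpotent
  have hnc := Group.normalizerCondition_of_isNilpotent (G := P)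
  have hlt : D.subgroupOf P < ⊤ := by
    rw [lt_top_iff_ne_top]
    intro h
    rw [Subgroup.subgroupOf_eq_top] at h
    exact absurd h (not_le_of_gt hDP)
  have h2 := hnc _ hlt
  obtain ⟨x, hx1, hx2⟩ := SetLike.exists_of_lt h2
  refine ⟨x.1, x.2, hx2, ?_⟩
  rw [Subgroup.mem_normalizer_iff]
  intro d
  constructor
  · intro hd
    have h3 := (Subgroup.mem_normalizer_iff.mp hx1 ⟨d, hDP.le hd⟩).mp hd
    exact h3
  · intro hd
    have hdP : d ∈ P := by
      have h4 : (x.1 * d * x.1⁻¹) ∈ P := hDP.le hd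
      have h5 : d = x.1⁻¹ * (x.1 * d * x.1⁻¹) * x.1 := by group
      rw [h5]
      exact P.mul_mem (P.mul_mem (P.inv_mem x.2) h4) x.2
    exact (Subgroup.mem_normalizer_iff.mp hx1 ⟨d, hdP⟩).mpr hd

theorem card_lt_of_lt {G : Type*} [Group G] [Finite G] {H K : Subgroup G} (h : H < K) : Nat.card H < Nat.card K := by
  refine lt_of_le_of_ne (Subgroup.card_le_of_le h.le) ?_
  intro he
  exact (ne_of_lt h) (Subgroup.eq_of_le_of_card_ge h.le he.ge)

theorem result {G : Type*} [Group G] [Finite G] (p : ℕ) [Fact p.Prime] (P Q : Sylow p G) (hPQ : P ≠ Q) (hmax : ∀ P' Q' : Sylow p G, P' ≠ Q' → Nat.card ↥((P' : Subgroup G) ⊓ (Q' : Subgroup G)) ≤ Nat.card ↥((P : Subgroup G) ⊓ (Q : Subgroup G))) : 1 < Nat.card (Sylow p ↥(Subgroup.normalizer (((P : Subgroup G) ⊓ (Q : Subgroup G) : Subgroup G) : Set G))) ∧ (∀ S T : Sylow p ↥(Subgroup.normalizer (((P : Subgroup G) ⊓ (Q : Subgroup G) : Subgroup G) : Set G)), S ≠ T → (S : Subgroup _) ⊓ (T : Subgroup _) = ((P : Subgroup G) ⊓ (Q : Subgroup G)).subgroupOf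 (Subgroup.normalizer (((P : Subgroup G) ⊓ (Q : Subgroup G) : Subgroup G) : Set G))) ∧ ∀ S : Sylow p ↥(Subgroup.normalizer (((P : Subgroup G) ⊓ (Q : Subgroup G) : Subgroup G) : Set G)), ∃! T : Sylow p G, (S : Subgroup _).map (Subgroup.normalizer (((P : Subgroup G) ⊓ (Q : Subgroup G) : Subgroup G) : Set G)).subtype ≤ (T : Subgroup G) := by
  classical
  set D : Subgroup G := (P : Subgroup G) ⊓ (Q : Subgroup G) with hD
  set N := Subgroup.normalizer (D : Set G) with hN
  have hDN : D ≤ N := Subgroup.le_normalizer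
  have hDP : D < (P : Subgroup G) := by
    refine lt_of_le_of_ne inf_le_left ?_
    intro h
    have h1 : (P : Subgroup G) ≤ Q := by
      rw [← h]; exact inf_le_right
    exact hPQ (Sylow.ext (P.is_maximal' Q.isPGroup' h1).symm)
  have hDQ : D < (Q : Subgroup G) := by
    refine lt_of_le_of_ne inf_le_right ?_
    intro h
    have h1 : (Q : Subgroup G) ≤ P := by
      rw [← h]; exact inf_le_left
    exact hPQ (Sylow.ext (Q.is_maximal' P.isPGroup' h1))
  -- D is contained in every Sylow of N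
  have hDpg : IsPGroup p ↥D := P.isPGroup'.to_le inf_le_left
  haveI hDnormal : (D.subgroupOf N).Normal := Subgroup.normal_in_normalizer
  have hDpg' : IsPGroup p ↥(D.subgroupOf N) := IsPGroup.comap_subtype hDpg
  have hDS : ∀ S : Sylow p N, D.subgroupOf N ≤ (S : Subgroup N) := fun S =>
    hDpg'.le_sylow_of_normal S
  -- image of a Sylow of N
  let img : Sylow p N → Subgroup G := fun S => (S : Subgroup N).map N.subtype
  have himgcard : ∀ S : Sylow p N, Nat.card (img S) = Nat.card S := fun S =>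
    Subgroup.card_map_of_injective (Subgroup.subtype_injective _)
  have himgpg : ∀ S : Sylow p N, IsPGroup p (img S) := fun S => S.isPGroup'.map _
  have hDimg : ∀ S : Sylow p N, D ≤ img S := by
    intro S x hx
    exact ⟨⟨x, hDN hx⟩, hDS S hx, rfl⟩
  -- L = P ∩ N strictly contains D
  have hLbig : ∀ (A : Sylow p G), D < (A : Subgroup G) → D < (A : Subgroup G) ⊓ N := by
    intro A hA
    obtain ⟨x, hxA, hxD, hxN⟩ := exists_mem_normalizer_of_lt A.isPGroup' hA
    refine lt_of_le_of_ne (le_inf hA.le hDN) ?_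
    intro h
    exact hxD (h ▸ (⟨hxA, hxN⟩ : x ∈ (A : Subgroup G) ⊓ N))
  have hcontainsL : ∀ (A : Sylow p G), ∃ S : Sylow p N, (A : Subgroup G) ⊓ N ≤ img S := by
    intro A
    have h1 : IsPGroup p ↥((A : Subgroup G).subgroupOf N) := IsPGroup.comap_subtype A.isPGroup'
    obtain ⟨S, hS⟩ := h1.exists_le_sylow
    refine ⟨S, ?_⟩
    intro x hx
    exact ⟨⟨x, hx.2⟩, hS hx.1, rfl⟩
  have hbig : ∀ S : Sylow p N, Nat.card D < Nat.card (img S) := by
    intro S
    obtain ⟨S', hS'⟩ := hcontainsL P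
    have h1 := card_lt_of_lt (hLbig P hDP)
    have h2 := Subgroup.card_le_of_le hS'
    rw [himgcard] at h2
    rw [himgcard, card_sylow_eq S S']
    omega
  -- pairs of distinct Sylow subgroups of G have small intersection
  have hsmall : ∀ A B : Sylow p G, A ≠ B → Nat.card ↥((A : Subgroup G) ⊓ (B : Subgroup G)) ≤ Nat.card D := hmax
  have hex : ∀ S : Sylow p N, ∃ T : Sylow p G, img S ≤ T := fun S => (himgpg S).exists_le_sylow
  have huniq : ∀ (S : Sylow p N) (A B : Sylow p G), img S ≤ A → img S ≤ B → A = B := by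
    intro S A B hA hB
    by_contra hne
    have h1 := hsmall A B hne
    have h2 := Subgroup.card_le_of_le (le_inf hA hB)
    have h3 := hbig S
    omega
  refine ⟨?_, ?_, ?_⟩
  · -- two Sylow subgroups
    obtain ⟨S1, hS1⟩ := hcontainsL P
    obtain ⟨S2, hS2⟩ := hcontainsL Q
    have hne : S1 ≠ S2 := by
      rintro rfl
      obtain ⟨T, hT⟩ := hex S1
      have hPT : P = T := by
        by_contra hne
        have h1 := hsmall P T hne
        have h2 : (P : Subgroup G) ⊓ N ≤ (P : Subgroup G) ⊓ (T : Subgroup G) := le_inf inf_le_left (hS1.trans hT)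
        have h3 := Subgroup.card_le_of_le h2
        have h4 := card_lt_of_lt (hLbig P hDP)
        omega
      have hQT : Q = T := by
        by_contra hne
        have h1 := hsmall Q T hne
        have h2 : (Q : Subgroup G) ⊓ N ≤ (Q : Subgroup G) ⊓ (T : Subgroup G) := le_inf inf_le_left (hS2.trans hT)
        have h3 := Subgroup.card_le_of_le h2
        have h4 := card_lt_of_lt (hLbig Q hDQ)
        omega
      exact hPQ (hPT.trans hQT.symm)
    haveI : Nontrivial (Sylow p N) := ⟨⟨S1, S2, hne⟩⟩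
    exact Finite.one_lt_card
  · intro S T hST
    apply le_antisymm
    · intro x hx
      by_contra hxD
      obtain ⟨A, hA⟩ := hex S
      obtain ⟨B, hB⟩ := hex T
      have hxA : (x : G) ∈ (A : Subgroup G) := hA ⟨x, hx.1, rfl⟩
      have hxB : (x : G) ∈ (B : Subgroup G) := hB ⟨x, hx.2, rfl⟩
      by_cases hAB : A = B
      · subst hAB
        apply hST
        have h1 : IsPGroup p ↥((A : Subgroup G).subgroupOf N) := IsPGroup.comap_subtype A.isPGroup'
        have hSA : (S : Subgroup N) ≤ (A : Subgroup G).subgroupOf N := fun y hy => hA ⟨y, hy, rfl⟩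
        have hTA : (T : Subgroup N) ≤ (A : Subgroup G).subgroupOf N := fun y hy => hB ⟨y, hy, rfl⟩
        exact Sylow.ext ((S.is_maximal' h1 hSA).symm.trans (T.is_maximal' h1 hTA))
      · have h1 := hsmall A B hAB
        have hDAB : D ≤ (A : Subgroup G) ⊓ (B : Subgroup G) :=
          le_inf ((hDimg S).trans hA) ((hDimg T).trans hB)
        have hlt : D < (A : Subgroup G) ⊓ (B : Subgroup G) := by
          refine lt_of_le_of_ne hDAB ?_
          intro h
          exact hxD (h ▸ (⟨hxA, hxB⟩ : (x : G) ∈ (A : Subgroup G) ⊓ (B : Subgroup G)))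
        have h2 := card_lt_of_lt hlt
        omega
    · exact le_inf (hDS S) (hDS T)
  · intro S
    obtain ⟨T, hT⟩ := hex S
    exact ⟨T, hT, fun T' hT' => huniq S T' T hT' hT⟩

end Cfsg.Agent.S0986
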