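import Cfsg.Statements.S0987
import Cfsg.Agent.Lib.H04.PrimeSylow

set_option autoImplicit false
set_option linter.style.haveILetI false
open Cfsg

namespace Cfsg.Agent.S0987

open Cfsg.Agent.H04

theorem result {G : Type*} [Group G] [Finite G] (p q r : ℕ) (hp : p.Prime) (hq : q.Prime) [Fact r.Prime] (hpq : p < q) (hqr : q < r) (hG : Nat.card G = p * q * r) (R : Sylow r G) : (R : Subgroup G).Normal := by
  classical
  have hr : r.Prime := Fact.out
  haveI : Fact p.Prime := ⟨hp⟩
  haveI : Fact q.Prime := ⟨hq⟩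
  have hp2 := hp.two_le
  have hq2 := hq.two_le
  have hr2 := hr.two_le
  by_contra hnot
  -- Sylow orders
  have hrnd : ¬ r ∣ p * q := by
    intro h
    rcases (Nat.Prime.dvd_mul hr).mp h with h | h
    · have := Nat.le_of_dvd hp.pos h; omega
    · have := Nat.le_of_dvd hq.pos h; omega
  have hqnd : ¬ q ∣ p * r := by
    intro h
    rcases (Nat.Prime.dvd_mul hq).mp h with h | h
    · have := Nat.le_of_dvd hp.pos h; omega
    · have := (Nat.prime_dvd_prime_iff_eq hq hr).mp h; omega
  have hpnd : ¬ p ∣ q * r := by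
    intro h
    rcases (Nat.Prime.dvd_mul hp).mp h with h | h
    · have := (Nat.prime_dvd_prime_iff_eq hp hq).mp h; omega
    · have := (Nat.prime_dvd_prime_iff_eq hp hr).mp h; omega
  have cr : ∀ S : Sylow r G, Nat.card S = r :=
    card_sylow_eq_prime (p * q) (by rw [hG]; ring) hrnd
  have cq : ∀ S : Sylow q G, Nat.card S = q :=
    card_sylow_eq_prime (p * r) (by rw [hG]; ring) hqnd
  have cp : ∀ S : Sylow p G, Nat.card S = p :=
    card_sylow_eq_prime (q * r) (by rw [hG]; ring) hpnd
  -- number of Sylow r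
  have hnrmod : Nat.card (Sylow r G) ≡ 1 [MOD r] := card_sylow_modEq_one r G
  have hnrdvd : Nat.card (Sylow r G) ∣ p * q :=
    card_sylow_dvd_of_card_eq R _ (by rw [cr R, hG]; ring)
  have hnrne1 : Nat.card (Sylow r G) ≠ 1 := by
    intro h
    haveI : Subsingleton (Sylow r G) := (Nat.card_eq_one_iff_unique.mp h).1
    exact hnot (Sylow.normal_of_subsingleton R)
  have hnr : Nat.card (Sylow r G) = p * q := by
    rcases dvd_prime_mul_prime hp hq hnrdvd with h | h | h | h
    · exact absurd h hnrne1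
    · exact absurd (eq_one_of_modEq_of_lt hr.one_lt hnrmod (by omega)) hnrne1
    · exact absurd (eq_one_of_modEq_of_lt hr.one_lt hnrmod (by omega)) hnrne1
    · exact h
  -- normalizer of R
  have hN : Nat.card (Subgroup.normalizer ((R : Subgroup G) : Set G)) = r := by
    have h1 : Nat.card (Sylow r G) = (Subgroup.normalizer ((R : Subgroup G) : Set G)).index :=
      Sylow.card_eq_index_normalizer R
    have h2 := Subgroup.index_mul_card (Subgroup.normalizer ((R : Subgroup G) : Set G))
    rw [← h1, hnr, hG] at h2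
    exact Nat.eq_of_mul_eq_mul_left (Nat.mul_pos hp.pos hq.pos) (by rw [h2])
  -- general: a normal ℓ-Sylow with ℓ<r, ℓ≠r is impossible
  have hnosmall : ∀ (ℓ : ℕ) [Fact ℓ.Prime] (S : Sylow ℓ G), Nat.card S = ℓ → ℓ < r → Nat.card (Sylow ℓ G) ≠ 1 := by
    intro ℓ _ S hS hlt h
    haveI : Subsingleton (Sylow ℓ G) := (Nat.card_eq_one_iff_unique.mp h).1
    haveI : (S : Subgroup G).Normal := Sylow.normal_of_subsingleton S
    have hle := le_normalizer_of_small_normal r (R : Subgroup G) (S : Subgroup G) (cr R) (by rw [hS]; exact hlt)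
    have hd := Subgroup.card_dvd_of_le hle
    rw [hN, hS] at hd
    have hℓ : ℓ.Prime := Fact.out
    have := (Nat.prime_dvd_prime_iff_eq hℓ hr).mp hd
    omega
  obtain ⟨Q⟩ : Nonempty (Sylow q G) := inferInstance
  obtain ⟨P⟩ : Nonempty (Sylow p G) := inferInstance
  have hnqne := hnosmall q Q (cq Q) hqr
  have hnpne := hnosmall p P (cp P) (by omega)
  -- n_q ≥ r
  have hnq : r ≤ Nat.card (Sylow q G) := by
    have hmod : Nat.card (Sylow q G) ≡ 1 [MOD q] := card_sylow_modEq_one q G
    have hdvd : Nat.card (Sylow q G) ∣ p * r :=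
      card_sylow_dvd_of_card_eq Q _ (by rw [cq Q, hG]; ring)
    rcases dvd_prime_mul_prime hp hr hdvd with h | h | h | h
    · exact absurd h hnqne
    · exact absurd (eq_one_of_modEq_of_lt hq.one_lt hmod (by omega)) hnqne
    · omega
    · rw [h]; nlinarith
  have hnp : q ≤ Nat.card (Sylow p G) := by
    have hmod : Nat.card (Sylow p G) ≡ 1 [MOD p] := card_sylow_modEq_one p G
    have hdvd : Nat.card (Sylow p G) ∣ q * r :=
      card_sylow_dvd_of_card_eq P _ (by rw [cp P, hG]; ring)
    rcases dvd_prime_mul_prime hq hr hdvd with h | h | h | h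
    · exact absurd h hnpne
    · omega
    · omega
    · rw [h]; nlinarith
  -- count
  have hcount := card_three_orders_add_le (G := G) (a := r) (b := q) (c := p) (by omega) (by omega) (by omega) (by omega) (by omega) (by omega)
  rw [card_orderOf_eq_prime cr, card_orderOf_eq_prime cq, card_orderOf_eq_prime cp, hnr, hG] at hcount
  obtain ⟨r', hr'⟩ : ∃ r', r = r' + 1 := ⟨r - 1, by omega⟩
  obtain ⟨q', hq'⟩ : ∃ q', q = q' + 1 := ⟨q - 1, by omega⟩
  obtain ⟨p', hp'⟩ : ∃ p', p = p' + 1 := ⟨p - 1, by omega⟩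
  have e1 : r - 1 = r' := by omega
  have e2 : q - 1 = q' := by omega
  have e3 : p - 1 = p' := by omega
  rw [e1, e2, e3] at hcount
  have h1 : r * q' ≤ Nat.card (Sylow q G) * q' := Nat.mul_le_mul_right _ hnq
  have h2 : q * p' ≤ Nat.card (Sylow p G) * p' := Nat.mul_le_mul_right _ hnp
  have h3 : 1 ≤ q' := by omega
  have h4 : 1 ≤ r' := by omega
  subst hr' hq' hp'
  nlinarith [Nat.mul_le_mul h3 h4]

end Cfsg.Agent.S0987
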