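import Cfsg.Statements.S0992
import Cfsg.Agent.Lib.H04.NC

set_option autoImplicit false
set_option linter.style.haveILetI false
open Cfsg

namespace Cfsg.Agent.S0992

open Cfsg.Agent.H04 Subgroup

theorem result {G : Type*} [Group G] [Finite G] [IsSimpleGroup G] (hG : ¬ IsMulCommutative G) (h2 : Even (Nat.card G)) (h8 : ¬ 8 ∣ Nat.card G) (T : Sylow 2 G) : IsKleinFour ↥(T : Subgroup G) ∧ (Subgroup.centralizer ((T : Subgroup G) : Set G)).relIndex (Subgroup.normalizer ((T : Subgroup G) : Set G)) = 3 := by
  classical
  haveI : Fact (Nat.Prime 2) := ⟨Nat.prime_two⟩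
  have h2d : 2 ∣ Nat.card G := h2.two_dvd
  have hne : (T : Subgroup G) ≠ ⊥ := T.ne_bot_of_dvd_card h2d
  obtain ⟨a, ha⟩ := IsPGroup.iff_card.mp T.isPGroup'
  have ha3 : a < 3 := by
    by_contra hge
    apply h8
    have h3 : (8 : ℕ) ∣ 2 ^ a := by
      have : (2 : ℕ) ^ 3 ∣ 2 ^ a := pow_dvd_pow 2 (by omega)
      simpa using this
    exact h3.trans (ha ▸ card_subgroup_dvd_card (T : Subgroup G))
  have ha0 : a ≠ 0 := by
    rintro rfl
    apply hne
    rw [pow_zero] at ha
    exact (Subgroup.card_eq_one).mp ha
  have hcases : a = 1 ∨ a = 2 := by omega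
  rcases hcases with rfl | rfl
  · exfalso
    have h1 : Nat.card (T : Subgroup G) = 2 := by simpa using ha
    have := relIndex_dvd_pred_of_card_prime (P := (T : Subgroup G)) Nat.prime_two h1
    have h3 : (centralizer ((T : Subgroup G) : Set G)).relIndex (normalizer ((T : Subgroup G) : Set G)) = 1 :=
      Nat.dvd_one.mp (by simpa using this)
    exact relIndex_ne_one hG T hne h3
  · have h4 : Nat.card (T : Subgroup G) = 4 := by simpa using ha
    have hcomm : IsMulCommutative (T : Subgroup G) :=
      IsPGroup.isMulCommutative_of_card_eq_prime_sq (p := 2) ha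
    have hle : (T : Subgroup G) ≤ centralizer ((T : Subgroup G) : Set G) := by
      intro x hx
      rw [mem_centralizer_iff]
      intro y hy
      have := hcomm.is_comm.comm (⟨y, hy⟩ : (T : Subgroup G)) ⟨x, hx⟩
      exact congrArg Subtype.val this
    have hodd := relIndex_not_dvd T hle
    have hr1 := relIndex_ne_one hG T hne
    set r := (centralizer ((T : Subgroup G) : Set G)).relIndex (normalizer ((T : Subgroup G) : Set G)) with hr
    have hnotcyc : ¬ IsCyclic (T : Subgroup G) := by
      intro hc
      have h5 := relIndex_dvd_card_mulAut (T : Subgroup G)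
      rw [IsCyclic.card_mulAut, h4] at h5
      have h6 : Nat.totient 4 = 2 := by decide
      rw [h6] at h5
      have h7 : r = 1 ∨ r = 2 := (Nat.dvd_prime Nat.prime_two).mp h5
      rcases h7 with h7 | h7
      · exact hr1 h7
      · exact hodd (by rw [h7])
    have hexp : Monoid.exponent (T : Subgroup G) = 2 := by
      have h1 : Monoid.exponent (T : Subgroup G) ∣ 4 := by
        rw [← h4]; exact Monoid.exponent_dvd_of_forall_pow_eq_one (fun x => pow_card_eq_one')
      have h3 : Monoid.exponent (T : Subgroup G) ∣ 2 ^ 2 := by simpa using h1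
      obtain ⟨k, hk, hk2⟩ := (Nat.dvd_prime_pow Nat.prime_two).mp h3
      interval_cases k
      · exfalso
        simp only [pow_zero] at hk2
        rw [Monoid.exp_eq_one_iff] at hk2
        have : Nat.card (T : Subgroup G) = 1 := Nat.card_unique
        omega
      · simpa using hk2
      · exfalso
        apply hnotcyc
        letI : CommGroup (T : Subgroup G) := { (inferInstance : Group (T : Subgroup G)) with mul_comm := hcomm.is_comm.comm }
        apply IsCyclic.of_exponent_eq_card
        rw [h4, hk2]
        rfl
    refine ⟨⟨h4, hexp⟩, ?_⟩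
    have h5 := relIndex_dvd_card_mulAut (T : Subgroup G)
    have h6 := card_mulAut_dvd_factorial (T : Subgroup G)
    rw [h4] at h6
    have h7 : r ∣ 6 := h5.trans (by simpa [Nat.factorial] using h6)
    have h8' : r ∈ Nat.divisors 6 := Nat.mem_divisors.mpr ⟨h7, by norm_num⟩
    have h9 : Nat.divisors 6 = {1, 2, 3, 6} := by decide
    rw [h9] at h8'
    simp only [Finset.mem_insert, Finset.mem_singleton] at h8'
    rcases h8' with h | h | h | h
    · exact absurd h hr1
    · exact absurd (by rw [h]) hodd
    · exact h
    · exact absurd (by rw [h]; norm_num) hodd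

end Cfsg.Agent.S0992
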