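import Cfsg.Statements.S0988
import Cfsg.Agent.Lib.H04.Small.Tools
import Cfsg.Agent.S0992

set_option autoImplicit false
open Cfsg

namespace Cfsg.Agent.S0988

open Cfsg Cfsg.Agent.H04 Cfsg.Agent.H04.Small Subgroup

set_option linter.style.haveILetI false
set_option linter.unusedVariables false
set_option linter.unusedSectionVars false
set_option linter.unusedSimpArgs false

theorem core {G : Type*} [Group G] [Finite G] [IsSimpleGroup G] (p q r : ℕ) (hp : p.Prime) (hq : q.Prime)
    (hr : r.Prime) (hG : Nat.card G = p ^ 2 * q * r) (hpq : p ≠ q) (hpr : p ≠ r) (hqr : q < r) :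
    p = 2 ∧ q = 3 ∧ r = 5 := by
  classical
  haveI : Fact p.Prime := ⟨hp⟩
  haveI : Fact q.Prime := ⟨hq⟩
  haveI : Fact r.Prime := ⟨hr⟩
  have hnp : ¬ (Nat.card G).Prime := by
    rw [hG]
    exact Nat.not_prime_mul (by
      have : 0 < p ^ 2 * q := by have := hp.pos; have := hq.pos; positivity
      have h1 : 1 < p ^ 2 * q := by
        have h2 := hq.one_lt
        have h3 : 1 ≤ p ^ 2 := Nat.one_le_pow _ _ hp.pos
        nlinarith
      omega) hr.ne_one
  have hnc : ¬ IsMulCommutative G := not_isMulCommutative_of_not_prime hnp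
  have hdiv : ∀ l : ℕ, l.Prime → l ∣ Nat.card G → l = p ∨ l = q ∨ l = r := by
    intro l hl hd
    rw [hG] at hd
    rcases (Nat.Prime.dvd_mul hl).1 hd with h1 | h1
    · rcases (Nat.Prime.dvd_mul hl).1 h1 with h2 | h2
      · left
        exact (Nat.prime_dvd_prime_iff_eq hl hp).1 (hl.dvd_of_dvd_pow h2)
      · right; left
        exact (Nat.prime_dvd_prime_iff_eq hl hq).1 h2
    · right; right
      exact (Nat.prime_dvd_prime_iff_eq hl hr).1 h1
  have hqnd : ¬ q ∣ p ^ 2 * r := by
    intro h
    rcases (Nat.Prime.dvd_mul hq).1 h with h1 | h1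
    · exact hpq ((Nat.prime_dvd_prime_iff_eq hq hp).1 (hq.dvd_of_dvd_pow h1)).symm
    · exact hqr.ne ((Nat.prime_dvd_prime_iff_eq hq hr).1 h1)
  have hrnd : ¬ r ∣ p ^ 2 * q := by
    intro h
    rcases (Nat.Prime.dvd_mul hr).1 h with h1 | h1
    · exact hpr ((Nat.prime_dvd_prime_iff_eq hr hp).1 (hr.dvd_of_dvd_pow h1)).symm
    · exact hqr.ne' ((Nat.prime_dvd_prime_iff_eq hr hq).1 h1)
  have hpnd : ¬ p ∣ q * r := by
    intro h
    rcases (Nat.Prime.dvd_mul hp).1 h with h1 | h1
    · exact hpq ((Nat.prime_dvd_prime_iff_eq hp hq).1 h1)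
    · exact hpr ((Nat.prime_dvd_prime_iff_eq hp hr).1 h1)
  have hQc : ∀ Q : Sylow q G, Nat.card Q = q := fun Q =>
    card_sylow_eq_prime (p ^ 2 * r) (by rw [hG]; ring) hqnd Q
  have hRc : ∀ R : Sylow r G, Nat.card R = r := fun R =>
    card_sylow_eq_prime (p ^ 2 * q) (by rw [hG]; ring) hrnd R
  have hPc : ∀ P : Sylow p G, Nat.card P = p ^ 2 := fun P =>
    card_sylow_eq_pow 2 (q * r) (by rw [hG]; ring) hpnd P
  have hNdvd : ∀ H : Subgroup G, ∀ l, l ∣ (centralizer (H : Set G)).relIndex (normalizer (H : Set G)) →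
      l ∣ Nat.card G := by
    intro H l hl
    exact (hl.trans (relIndex_dvd_card_normalizer H)).trans (Subgroup.card_subgroup_dvd_card _)
  -- `p < q`
  have hpltq : p < q := by
    obtain Q : Sylow q G := default
    obtain ⟨h1, h2, h3⟩ := nc_facts hnc Q (hQc Q)
    set e := (centralizer ((Q : Subgroup G) : Set G)).relIndex (normalizer ((Q : Subgroup G) : Set G)) with he
    have hl : e.minFac.Prime := Nat.minFac_prime h1
    have hld : e.minFac ∣ e := Nat.minFac_dvd e
    have hq1 := hq.one_lt
    have h4 : e.minFac ≤ q - 1 := Nat.le_of_dvd (by omega) (hld.trans h2)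
    rcases hdiv _ hl (hNdvd _ _ hld) with h5 | h5 | h5
    · omega
    · omega
    · omega
  -- `p = 2`
  have hp2 : p = 2 := by
    by_contra hodd
    obtain P : Sylow p G := default
    have hPc' : Nat.card (P : Subgroup G) = p ^ 2 := hPc P
    have hPne : (P : Subgroup G) ≠ ⊥ := by
      intro hb
      rw [hb] at hPc'
      have : Nat.card (⊥ : Subgroup G) = 1 := Subgroup.card_bot
      rw [this] at hPc'
      have h3 : 1 < p ^ 2 := Nat.one_lt_pow (by norm_num) hp.one_lt
      omega
    have h0 := relIndex_ne_one hnc P hPne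
    have hcomm : (P : Subgroup G) ≤ centralizer ((P : Subgroup G) : Set G) := by
      intro a ha
      rw [Subgroup.mem_centralizer_iff]
      intro b hb
      exact comm_of_card_sq hPc' b hb a ha
    have hnot := relIndex_not_dvd P hcomm
    set e := (centralizer ((P : Subgroup G) : Set G)).relIndex (normalizer ((P : Subgroup G) : Set G)) with he
    have hl : e.minFac.Prime := Nat.minFac_prime h0
    have hld : e.minFac ∣ e := Nat.minFac_dvd e
    have hlne : e.minFac ≠ p := fun h => hnot (h ▸ hld)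
    have hlcases : e.minFac = q ∨ e.minFac = r := by
      rcases hdiv _ hl (hNdvd _ _ hld) with h5 | h5 | h5
      · exact absurd h5 hlne
      · exact Or.inl h5
      · exact Or.inr h5
    have hpl : p < e.minFac := by rcases hlcases with h | h <;> omega
    have hlN : e.minFac ∣ Nat.card (normalizer ((P : Subgroup G) : Set G)) := hld.trans (relIndex_dvd_card_normalizer _)
    haveI : Fact e.minFac.Prime := ⟨hl⟩
    obtain ⟨y, hy⟩ := exists_prime_orderOf_dvd_card' (G := normalizer ((P : Subgroup G) : Set G)) e.minFac hlN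
    have hyo : orderOf (y : G) = e.minFac := by rwa [Subgroup.orderOf_coe]
    have hyC := mem_centralizer_of_large hp hl hPc' hpl hodd y.2 hyo
    have hlC : e.minFac ∣ Nat.card (centralizer ((P : Subgroup G) : Set G)) := by
      rw [← hyo]
      exact Subgroup.orderOf_dvd_natCard _ hyC
    have hcm := card_eq_relIndex_mul (centralizer_le_normalizer_of (P : Subgroup G))
    have hsq : e.minFac * e.minFac ∣ Nat.card G := by
      refine Dvd.dvd.trans ?_ (Subgroup.card_subgroup_dvd_card (normalizer ((P : Subgroup G) : Set G)))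
      rw [hcm]
      exact Nat.mul_dvd_mul hld hlC
    rw [hG] at hsq
    rcases hlcases with h | h
    · rw [h] at hsq
      have h1 : p ^ 2 * q * r = q * (p ^ 2 * r) := by ring
      rw [h1] at hsq
      exact hqnd (Nat.dvd_of_mul_dvd_mul_left hq.pos hsq)
    · rw [h] at hsq
      have h1 : p ^ 2 * q * r = r * (p ^ 2 * q) := by ring
      rw [h1] at hsq
      exact hrnd (Nat.dvd_of_mul_dvd_mul_left hr.pos hsq)
  subst hp2
  have hq2 : q % 2 = 1 := (Nat.Prime.eq_two_or_odd hq).resolve_left (by omega)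
  have hr2 : r % 2 = 1 := (Nat.Prime.eq_two_or_odd hr).resolve_left (by omega)
  -- `q = 3`
  obtain T : Sylow 2 G := default
  have hT := (Cfsg.Agent.S0992.result (G := G) hnc
    (by rw [hG]; exact ⟨2 * q * r, by ring⟩)
    (by
      rw [hG]
      intro h
      have h1 : 2 ^ 2 * q * r = 4 * (q * r) := by ring
      rw [h1] at h
      have h2 : 2 ∣ q * r := by
        have h3 : (8 : ℕ) = 4 * 2 := by norm_num
        rw [h3] at h
        exact Nat.dvd_of_mul_dvd_mul_left (by norm_num) h
      rcases (Nat.Prime.dvd_mul Nat.prime_two).1 h2 with h3 | h3 <;> omega) T).2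
  have h3d : 3 ∣ Nat.card G := hNdvd (T : Subgroup G) 3 (by rw [hT])
  have hq3 : q = 3 := by
    rcases hdiv 3 (by norm_num) h3d with h | h | h
    · omega
    · exact h.symm
    · have h1 := hq.two_le
      omega
  subst hq3
  refine ⟨rfl, rfl, ?_⟩
  -- `r = 5`
  obtain R : Sylow r G := default
  have hRR := hRc R
  have hd : Nat.card (Sylow r G) ∣ 12 := card_sylow_dvd_of_card_eq R 12 (by rw [hRR, hG]; ring)
  have hm : Nat.card (Sylow r G) ≡ 1 [MOD r] := card_sylow_modEq_one r G
  have hne : Nat.card (Sylow r G) ≠ 1 := sylow_ne_normal hnp R (by rw [hRR]; exact hr.one_lt)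
  have hdvd : r ∣ Nat.card (Sylow r G) - 1 := (Nat.modEq_iff_dvd' Nat.card_pos).1 hm.symm
  have hn := card_normalizer_mul R
  obtain ⟨h1, h2, h3⟩ := nc_facts hnc R hRR
  generalize Nat.card (Sylow r G) = n at *
  have hn12 := Nat.le_of_dvd (by norm_num) hd
  have hn0 : n ≠ 0 := by
    rintro rfl
    simp at hd
  have hcases : r = 5 ∨ (r = 11 ∧ n = 12) := by
    interval_cases n <;> first | omega | skip
    · exact absurd (Nat.le_of_dvd (by norm_num) hdvd) (by omega)
    · exact absurd (Nat.le_of_dvd (by norm_num) hdvd) (by omega)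
    · exact absurd ((Nat.prime_dvd_prime_iff_eq hr (by norm_num)).1 hdvd) (by omega)
    · left
      exact (Nat.prime_dvd_prime_iff_eq hr (by norm_num)).1 hdvd
    · right
      exact ⟨(Nat.prime_dvd_prime_iff_eq hr (by norm_num)).1 hdvd, rfl⟩
  rcases hcases with h5 | ⟨rfl, rfl⟩
  · exact h5
  · exfalso
    rw [hG] at hn
    have hN : Nat.card (normalizer ((R : Subgroup G) : Set G)) = 11 := by omega
    rw [hN] at h3
    have h4 : (centralizer ((R : Subgroup G) : Set G)).relIndex (normalizer ((R : Subgroup G) : Set G)) ∣ Nat.gcd 10 11 :=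
      Nat.dvd_gcd h2 h3
    have h5 : Nat.gcd 10 11 = 1 := by norm_num
    rw [h5] at h4
    exact h1 (Nat.dvd_one.1 h4)


/-- If a finite simple group has order p^2 * q * r with p, q and r prime, then its order is 60. -/
theorem result {G : Type*} [Group G] [Finite G] [IsSimpleGroup G] (p q r : ℕ) (hp : p.Prime) (hq : q.Prime) (hr : r.Prime) (hG : Nat.card G = p ^ 2 * q * r) : Nat.card G = 60 := by
  classical
  have hnp : ¬ (Nat.card G).Prime := by
    rw [hG]
    exact Nat.not_prime_mul (by
      have h1 : 1 < p ^ 2 * q := by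
        have h2 := hq.one_lt
        have h3 : 1 ≤ p ^ 2 := Nat.one_le_pow _ _ hp.pos
        nlinarith
      omega) hr.ne_one
  have hnc : ¬ IsMulCommutative G := not_isMulCommutative_of_not_prime hnp
  have hnsolv : ¬ Group.IsSolvable G := by
    intro hs
    apply hnc
    exact ⟨⟨IsSimpleGroup.comm_iff_isSolvable.2 hs⟩⟩
  by_cases hpq : p = q
  · exfalso
    subst hpq
    exact hnsolv (Cfsg.Agent.Lead.burnside_two_prime p r 3 1 hp hr (by rw [hG]; ring))
  by_cases hpr : p = r
  · exfalso
    subst hpr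
    exact hnsolv (Cfsg.Agent.Lead.burnside_two_prime p q 3 1 hp hq (by rw [hG]; ring))
  rcases lt_trichotomy q r with hqr | hqr | hqr
  · obtain ⟨rfl, rfl, rfl⟩ := core p q r hp hq hr hG hpq hpr hqr
    rw [hG]
    norm_num
  · exfalso
    subst hqr
    exact hnsolv (Cfsg.Agent.Lead.burnside_two_prime p q 2 2 hp hq (by rw [hG]; ring))
  · obtain ⟨rfl, rfl, rfl⟩ := core p r q hp hr hq (by rw [hG]; ring) hpr hpq hqr
    rw [hG]
    norm_num

end Cfsg.Agent.S0988
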