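import Cfsg.Statements.S0989
import Cfsg.Agent.Lib.H04.Sylow2

set_option autoImplicit false
set_option linter.style.haveILetI false
open Cfsg

namespace Cfsg.Agent.S0989

open Cfsg.Agent.H04

theorem result {α : Type*} [Fintype α] [DecidableEq α] (p : ℕ) [Fact p.Prime] (hα : Fintype.card α = p ∨ Fintype.card α = p + 1) (P : Sylow p (Equiv.Perm α)) : Nat.card ↥(Subgroup.normalizer ((P : Subgroup (Equiv.Perm α)) : Set (Equiv.Perm α))) = p * (p - 1) := by
  classical
  have hp : p.Prime := Fact.out
  have hp2 := hp.two_le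
  set c := Fintype.card α with hc
  have hGcard : Nat.card (Equiv.Perm α) = c.factorial := by
    rw [Nat.card_eq_fintype_card, Fintype.card_perm]
  have hpc : p ≤ c := by omega
  have hcp : c - p ≤ 1 := by omega
  -- factorial splitting
  have hfac : ∃ m, c.factorial = p * m ∧ ¬ p ∣ m := by
    rcases hα with h | h
    · refine ⟨(p - 1).factorial, ?_, ?_⟩
      · rw [h]; exact (Nat.mul_factorial_pred hp.ne_zero).symm
      · rw [hp.dvd_factorial]; omega
    · refine ⟨(p + 1) * (p - 1).factorial, ?_, ?_⟩
      · rw [h, Nat.factorial_succ, ← Nat.mul_factorial_pred hp.ne_zero]; ring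
      · rw [hp.dvd_mul, hp.dvd_factorial]
        rintro (h1 | h1)
        · have h2 : p ∣ 1 := (Nat.dvd_add_right (dvd_refl p)).mp h1
          exact hp.one_lt.ne' (Nat.dvd_one.mp h2)
        · omega
  obtain ⟨m, hm, hnd⟩ := hfac
  have cP : ∀ S : Sylow p (Equiv.Perm α), Nat.card S = p :=
    card_sylow_eq_prime m (by rw [hGcard, hm]) hnd
  have hcount := card_orderOf_eq_prime cP
  -- elements of order p are exactly those of cycle type {p}
  have hset : ∀ g : Equiv.Perm α, orderOf g = p ↔ g.cycleType = {p} := by
    intro g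
    constructor
    · intro hg
      have h1 : (orderOf g).Prime := hg ▸ hp
      obtain ⟨n, hn⟩ := Equiv.Perm.cycleType_prime_order h1
      rw [hg] at hn
      have hs := Equiv.Perm.sum_cycleType g
      have hle := Finset.card_le_univ g.support
      rw [← hs, hn, Multiset.sum_replicate, smul_eq_mul] at hle
      have hn0 : n = 0 := by
        by_contra hne
        have : 2 ≤ n + 1 := by omega
        have h3 : 2 * p ≤ (n + 1) * p := Nat.mul_le_mul_right p this
        omega
      rw [hn, hn0]
      rfl
    · intro hg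
      rw [← Equiv.Perm.lcm_cycleType, hg]
      simp
  have hcard1 : Nat.card {g : Equiv.Perm α // orderOf g = p} = (Finset.univ.filter fun g : Equiv.Perm α => g.cycleType = {p}).card := by
    rw [Nat.card_eq_fintype_card, Fintype.card_subtype]
    congr 1
    ext g
    simp [hset g]
  have hmul := Equiv.Perm.card_of_cycleType_mul_eq α ({p} : Multiset ℕ)
  have hs1 : ({p} : Multiset ℕ).sum = p := by simp
  have hp1 : ({p} : Multiset ℕ).prod = p := by simp
  have htf : ∏ n ∈ ({p} : Multiset ℕ).toFinset, (Multiset.count n ({p} : Multiset ℕ)).factorial = 1 := by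
    simp
  have hfact1 : (c - p).factorial = 1 := by
    interval_cases (c - p) <;> rfl
  rw [hs1, hp1, htf, hfact1, if_pos ⟨hpc, by simpa using hp2⟩, one_mul, mul_one, ← hc] at hmul
  rw [← hcard1, hcount] at hmul
  -- the normalizer
  have hN := Subgroup.index_mul_card (Subgroup.normalizer ((P : Subgroup (Equiv.Perm α)) : Set (Equiv.Perm α)))
  have hI : Nat.card (Sylow p (Equiv.Perm α)) = (Subgroup.normalizer ((P : Subgroup (Equiv.Perm α)) : Set (Equiv.Perm α))).index := Sylow.card_eq_index_normalizer P
  rw [← hI, hGcard, ← hmul] at hN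
  have hpos : 0 < Nat.card (Sylow p (Equiv.Perm α)) := Nat.card_pos
  have := Nat.eq_of_mul_eq_mul_left hpos (by rw [hN]; ring : Nat.card (Sylow p (Equiv.Perm α)) * Nat.card ↥(Subgroup.normalizer ((P : Subgroup (Equiv.Perm α)) : Set (Equiv.Perm α))) = Nat.card (Sylow p (Equiv.Perm α)) * (p * (p - 1)))
  exact this

end Cfsg.Agent.S0989
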