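import Cfsg.Statements.S0990
import Mathlib

set_option autoImplicit false
set_option linter.style.haveILetI false
open Cfsg

namespace Cfsg.Agent.S0990

theorem result {α : Type*} [Fintype α] [DecidableEq α] (hα : 2 ≤ Fintype.card α) (p : ℕ) [Fact p.Prime] (hp : p ≠ 2) (P : Sylow p (Equiv.Perm α)) : (P : Subgroup (Equiv.Perm α)) ≤ alternatingGroup α ∧ 2 * Nat.card ↥(Subgroup.normalizer ((((P : Subgroup (Equiv.Perm α)).subgroupOf (alternatingGroup α) : Subgroup ↥(alternatingGroup α)) : Set ↥(alternatingGroup α)))) = Nat.card ↥(Subgroup.normalizer ((P : Subgroup (Equiv.Perm α)) : Set (Equiv.Perm α))) := by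
  classical
  have hpp : p.Prime := Fact.out
  have hle : (P : Subgroup (Equiv.Perm α)) ≤ alternatingGroup α := by
    intro x hx
    rw [Equiv.Perm.mem_alternatingGroup]
    obtain ⟨k, hk⟩ := P.isPGroup' ⟨x, hx⟩
    have hx1 : x ^ p ^ k = 1 := by simpa [Subtype.ext_iff] using hk
    rcases Int.units_eq_one_or (Equiv.Perm.sign x) with h | h
    · exact h
    · exfalso
      have h2 := congrArg Equiv.Perm.sign hx1
      rw [map_pow, h, map_one] at h2
      have hodd : Odd (p ^ k) := (hpp.odd_of_ne_two hp).pow
      rw [hodd.neg_one_pow] at h2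
      exact absurd h2 (by decide)
  refine ⟨hle, ?_⟩
  set N := Subgroup.normalizer ((P : Subgroup (Equiv.Perm α)) : Set (Equiv.Perm α)) with hN
  have hsup : N ⊔ alternatingGroup α = ⊤ := Sylow.normalizer_sup_eq_top' P hle
  -- an odd permutation in N
  have hodd : ∃ n ∈ N, Equiv.Perm.sign n = -1 := by
    by_contra hcon
    push Not at hcon
    have hNle : N ≤ alternatingGroup α := by
      intro n hn
      rw [Equiv.Perm.mem_alternatingGroup]
      rcases Int.units_eq_one_or (Equiv.Perm.sign n) with h | h
      · exact h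
      · exact absurd h (hcon n hn)
    rw [sup_eq_right.mpr hNle] at hsup
    haveI : Nontrivial α := Fintype.one_lt_card_iff_nontrivial.mp (by omega)
    obtain ⟨a, b, hab⟩ := exists_pair_ne α
    have hs : Equiv.swap a b ∈ alternatingGroup α := by rw [hsup]; trivial
    rw [Equiv.Perm.mem_alternatingGroup, Equiv.Perm.sign_swap hab] at hs
    exact absurd hs (by decide)
  let f : N →* ℤˣ := Equiv.Perm.sign.comp N.subtype
  have hsurj : Function.Surjective f := by
    intro u
    obtain ⟨n, hn, hn1⟩ := hodd
    rcases Int.units_eq_one_or u with rfl | rfl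
    · exact ⟨1, by simp⟩
    · exact ⟨⟨n, hn⟩, hn1⟩
  have hidx : f.ker.index = 2 := by
    rw [Subgroup.index_ker, MonoidHom.range_eq_top.mpr hsurj, Subgroup.card_top]
    simp [Nat.card_eq_fintype_card]
  have hcard := Subgroup.card_mul_index f.ker
  rw [hidx] at hcard
  have heq : Subgroup.normalizer (((P : Subgroup (Equiv.Perm α)).subgroupOf (alternatingGroup α) : Subgroup ↥(alternatingGroup α)) : Set ↥(alternatingGroup α))
      = N.subgroupOf (alternatingGroup α) := (Subgroup.subgroupOf_normalizer_eq hle).symm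
  have hcard2 : Nat.card ↥(Subgroup.normalizer ((((P : Subgroup (Equiv.Perm α)).subgroupOf (alternatingGroup α) : Subgroup ↥(alternatingGroup α)) : Set ↥(alternatingGroup α)))) = Nat.card f.ker := by
    have h1 : Subgroup.normalizer ((((P : Subgroup (Equiv.Perm α)).subgroupOf (alternatingGroup α) : Subgroup ↥(alternatingGroup α)) : Set ↥(alternatingGroup α))) = N.subgroupOf (alternatingGroup α) := heq
    rw [h1]
    apply Nat.card_congr
    refine
      { toFun := fun x => ⟨⟨x.1.1, x.2⟩, ?_⟩
        invFun := fun y => ⟨⟨y.1.1, ?_⟩, ?_⟩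
        left_inv := fun x => rfl
        right_inv := fun y => rfl }
    · show Equiv.Perm.sign x.1.1 = 1
      exact x.1.2
    · exact y.2
    · exact y.1.2
  rw [hcard2, ← hcard]
  ring

end Cfsg.Agent.S0990
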