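import Cfsg.Statements.S0995
import Cfsg.Agent.Lib.H04.Small.Tools

set_option autoImplicit false
open Cfsg

namespace Cfsg.Agent.S0995

open Cfsg Cfsg.Agent.H04 Cfsg.Agent.H04.Small Subgroup

set_option linter.style.haveILetI false
set_option linter.unusedVariables false
set_option linter.unusedSectionVars false
set_option linter.unusedSimpArgs false


/-- Let G be a finite perfect group containing an element z of prime order p whose centralizer is the cyclic group it generates. Let t be the number of conjugacy classes of elements of order p. Then t divides p - 1, the number of Sylow p-subgroups has the form 1 + n * p, and |G| * t = (p - 1) * p * (1 + n * p). -/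
theorem result {G : Type*} [Group G] [Finite G] (hperf : commutator G = ⊤) (p : ℕ) [Fact p.Prime] (z : G) (hz : orderOf z = p) (hC : Subgroup.centralizer ({z} : Set G) = Subgroup.zpowers z) : ∃ n t : ℕ, t = Nat.card {c : ConjClasses G // ∃ g : G, ConjClasses.mk g = c ∧ orderOf g = p} ∧ t ∣ p - 1 ∧ Nat.card (Sylow p G) = 1 + n * p ∧ Nat.card G * t = (p - 1) * p * (1 + n * p) := by
  classical
  have hp : p.Prime := Fact.out
  set S := zpowers z with hS
  have hScard : Nat.card S = p := by rw [hS, Nat.card_zpowers, hz]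
  have hCy : ∀ y ∈ S, y ≠ 1 → centralizer ({y} : Set G) = S := by
    intro y hy hy1
    have hzy : zpowers y = S := zpowers_eq_of_card_prime hp hScard hy hy1
    rw [← hC]
    ext c
    rw [mem_centralizer_iff, mem_centralizer_iff]
    constructor
    · intro h w hw
      have hw' : w = z := hw
      have hzz : z ∈ zpowers y := by rw [hzy, hS]; exact mem_zpowers z
      obtain ⟨k, hk⟩ := hzz
      have hcy : Commute y c := h y rfl
      rw [hw', ← hk]
      exact (hcy.zpow_left k).eq
    · intro h w hw
      have hw' : w = y := hw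
      obtain ⟨k, hk⟩ := hy
      have hcz : Commute z c := h z rfl
      rw [hw', ← hk]
      exact (hcz.zpow_left k).eq
  have hzS : z ∈ S := mem_zpowers z
  have hz1 : z ≠ 1 := by
    rintro rfl
    rw [orderOf_one] at hz
    exact hp.one_lt.ne hz
  -- `S` is a Sylow subgroup
  have hpg : IsPGroup p S := by
    rw [IsPGroup.iff_card, hScard]
    exact ⟨1, by simp⟩
  obtain ⟨Q, hQ⟩ := hpg.exists_le_sylow
  have hQS : (Q : Subgroup G) = S := by
    apply le_antisymm _ hQ
    haveI : Nontrivial (Q : Subgroup G) := by
      refine ⟨⟨⟨z, hQ hzS⟩, 1, fun h => hz1 (congrArg Subtype.val h)⟩⟩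
    have hct := Q.isPGroup'.center_nontrivial
    obtain ⟨a, ha⟩ := exists_ne (1 : Subgroup.center (Q : Subgroup G))
    have ha1 : ((a : (Q : Subgroup G)) : G) ≠ 1 := fun h => ha (Subtype.ext (Subtype.ext h))
    have haz : ((a : (Q : Subgroup G)) : G) ∈ centralizer ({z} : Set G) := by
      rw [mem_centralizer_iff]
      intro w hw
      have hw' : w = z := hw
      rw [hw']
      have := (Subgroup.mem_center_iff.1 a.2) ⟨z, hQ hzS⟩
      exact congrArg Subtype.val this
    rw [hC] at haz
    have hCa := hCy _ haz ha1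
    intro w hw
    rw [← hCa, mem_centralizer_iff]
    intro v hv
    have hv' : v = ((a : (Q : Subgroup G)) : G) := hv
    rw [hv']
    have := (Subgroup.mem_center_iff.1 a.2) ⟨w, hw⟩
    exact (congrArg Subtype.val this).symm
  have hQcard : Nat.card (Q : Subgroup G) = p := by rw [hQS]; exact hScard
  have hcardSyl : ∀ R : Sylow p G, Nat.card R = p := fun R => by
    rw [card_sylow_eq R Q]
    exact hQcard
  -- centralizers of elements of order `p`
  have hCx : ∀ x : G, orderOf x = p → Nat.card (centralizer ({x} : Set G)) = p := by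
    intro x hx
    have hpgx : IsPGroup p (zpowers x) := by
      rw [IsPGroup.iff_card, Nat.card_zpowers, hx]
      exact ⟨1, by simp⟩
    obtain ⟨R, hR⟩ := hpgx.exists_le_sylow
    obtain ⟨g, hg⟩ := MulAction.exists_smul_eq G R Q
    have hxR : x ∈ (R : Subgroup G) := hR (mem_zpowers x)
    have hmem : g * x * g⁻¹ ∈ (Q : Subgroup G) := by
      rw [← hg, Sylow.coe_subgroup_smul]
      exact Subgroup.mem_map.2 ⟨x, hxR, rfl⟩
    rw [hQS] at hmem
    have hne : g * x * g⁻¹ ≠ 1 := by
      intro h
      have hx1 : x = 1 := by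
        have h2 : g * x = g := by
          have := congrArg (· * g) h
          simpa using this
        simpa using h2
      rw [hx1, orderOf_one] at hx
      exact hp.one_lt.ne hx
    have h1 := hCy _ hmem hne
    have h2 : Nat.card (centralizer ({x} : Set G)) = Nat.card (centralizer ({g * x * g⁻¹} : Set G)) := by
      refine Nat.card_congr
        { toFun := fun c => ⟨g * c.1 * g⁻¹, ?_⟩
          invFun := fun c => ⟨g⁻¹ * c.1 * g, ?_⟩
          left_inv := fun c => Subtype.ext (by simp [mul_assoc])
          right_inv := fun c => Subtype.ext (by simp [mul_assoc]) }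
      · rw [mem_centralizer_iff]
        intro w hw
        have hw' : w = g * x * g⁻¹ := hw
        have hc : x * c.1 = c.1 * x := (mem_centralizer_iff.1 c.2) x rfl
        rw [hw']
        calc g * x * g⁻¹ * (g * c.1 * g⁻¹) = g * (x * c.1) * g⁻¹ := by group
          _ = g * (c.1 * x) * g⁻¹ := by rw [hc]
          _ = g * c.1 * g⁻¹ * (g * x * g⁻¹) := by group
      · rw [mem_centralizer_iff]
        intro w hw
        have hw' : w = x := hw
        have hc : (g * x * g⁻¹) * c.1 = c.1 * (g * x * g⁻¹) := (mem_centralizer_iff.1 c.2) _ rfl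
        rw [hw']
        calc x * (g⁻¹ * c.1 * g) = g⁻¹ * ((g * x * g⁻¹) * c.1) * g := by group
          _ = g⁻¹ * (c.1 * (g * x * g⁻¹)) * g := by rw [hc]
          _ = g⁻¹ * c.1 * g * x := by group
    rw [h2, h1]
    exact hScard
  -- class count
  obtain ⟨m, hm⟩ : ∃ m, Nat.card G = m * p := by
    have := Subgroup.card_subgroup_dvd_card S
    rw [hScard] at this
    obtain ⟨m, hm⟩ := this
    exact ⟨m, by rw [hm, mul_comm]⟩
  have hmpos : 0 < m := by
    have : 0 < Nat.card G := Nat.card_pos
    rw [hm] at this
    exact Nat.pos_of_ne_zero (fun h0 => by simp [h0] at this)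
  let A := {g : G // orderOf g = p}
  let C := {c : ConjClasses G // ∃ g : G, ConjClasses.mk g = c ∧ orderOf g = p}
  let f : A → C := fun a => ⟨ConjClasses.mk a.1, a.1, rfl, a.2⟩
  have hfib : ∀ c : C, Nat.card {a : A // f a = c} = m := by
    rintro ⟨c, x, rfl, hx⟩
    have h1 : Nat.card (ConjClasses.mk x).carrier * Nat.card (centralizer ({x} : Set G)) = Nat.card G :=
      card_carrier_mul_centralizer' x
    rw [hCx x hx, hm] at h1
    have h2 : Nat.card (ConjClasses.mk x).carrier = m := Nat.eq_of_mul_eq_mul_right hp.pos h1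
    rw [← h2]
    refine Nat.card_congr
      { toFun := fun a => ⟨a.1.1, ?_⟩
        invFun := fun y => ⟨⟨y.1, ?_⟩, ?_⟩
        left_inv := fun a => rfl
        right_inv := fun y => rfl }
    · rw [ConjClasses.mem_carrier_iff_mk_eq]
      exact congrArg Subtype.val a.2
    · have h3 := y.2
      rw [ConjClasses.mem_carrier_iff_mk_eq, ConjClasses.mk_eq_mk_iff_isConj] at h3
      obtain ⟨c, hc⟩ := isConj_iff.1 h3
      have h4 : orderOf (c * y.1 * c⁻¹) = orderOf y.1 := orderOf_conj' c y.1
      have h5 : orderOf (c * y.1 * c⁻¹) = p := by rw [hc]; exact hx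
      rw [← h4, h5]
    · apply Subtype.ext
      have h3 := y.2
      rw [ConjClasses.mem_carrier_iff_mk_eq] at h3
      exact h3
  haveI : Fintype C := Fintype.ofFinite C
  have hAcard : Nat.card A = Nat.card C * m := by
    rw [Nat.card_congr (Equiv.sigmaFiberEquiv f).symm, Nat.card_sigma]
    simp only [hfib]
    rw [Finset.sum_const, Finset.card_univ, smul_eq_mul, Nat.card_eq_fintype_card]
  have hA2 : Nat.card A = Nat.card (Sylow p G) * (p - 1) := card_orderOf_eq_prime hcardSyl
  have hmod : Nat.card (Sylow p G) ≡ 1 [MOD p] := card_sylow_modEq_one p G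
  obtain ⟨n, hn⟩ : ∃ n, Nat.card (Sylow p G) = 1 + n * p := by
    have h1 : p ∣ Nat.card (Sylow p G) - 1 := (Nat.modEq_iff_dvd' Nat.card_pos).1 hmod.symm
    obtain ⟨n, hn⟩ := h1
    have := (Nat.card_pos (α := Sylow p G))
    exact ⟨n, by rw [mul_comm]; omega⟩
  refine ⟨n, Nat.card C, rfl, ?_, hn, ?_⟩
  · -- divisibility
    have hQn := card_normalizer_mul Q
    obtain ⟨d, hd⟩ : p ∣ Nat.card (normalizer ((Q : Subgroup G) : Set G)) := by
      have := Subgroup.card_dvd_of_le (Subgroup.le_normalizer (H := (Q : Subgroup G)))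
      rwa [hQcard] at this
    rw [hd] at hQn
    have hkey : Nat.card C * (m * p) = (p - 1) * p * Nat.card (Sylow p G) := by
      rw [← mul_assoc, ← hAcard, hA2]
      ring
    rw [← hm, ← hQn] at hkey
    have hnpos : 0 < Nat.card (Sylow p G) := Nat.card_pos
    have h5 : (Nat.card C * d) * (p * Nat.card (Sylow p G)) = (p - 1) * (p * Nat.card (Sylow p G)) := by
      calc _ = Nat.card C * (p * d * Nat.card (Sylow p G)) := by ring
        _ = _ := by rw [hkey]; ring
    have h6 := Nat.eq_of_mul_eq_mul_right (Nat.mul_pos hp.pos hnpos) h5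
    exact ⟨d, h6.symm⟩
  · rw [hm, ← hn]
    calc m * p * Nat.card C = (Nat.card C * m) * p := by ring
      _ = _ := by
        rw [← hAcard, hA2]
        ring

end Cfsg.Agent.S0995
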