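import Mathlib
import Cfsg.Statements.S1002
import Cfsg.Agent.Lib.H17.Brd6

set_option autoImplicit false
set_option maxRecDepth 100000
set_option linter.style.haveILetI false
open Cfsg

namespace Cfsg.Agent.S1002

open Cfsg.Agent.H17 Cfsg.Agent.H17.Brd

theorem numeric : check3 409 2457 := by
  unfold check3
  decide +kernel

/-- No finite simple group has order 1004913. -/
theorem result {G : Type*} [Group G] [Finite G] [IsSimpleGroup G] : Nat.card G ≠ 1004913 := by
  intro h
  haveI : Fact (Nat.Prime 409) := ⟨by norm_num⟩
  have hq : Nat.card G = 409 * 2457 := by omega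
  obtain ⟨h1, h2, h3⟩ := Mob.sylow_number (p := 409) (X := G) 2457 (by norm_num) hq (by norm_num)
  have hn : Nat.card (Sylow 409 G) = 819 := by
    have hle := Nat.le_of_dvd (by norm_num) h1
    generalize Nat.card (Sylow 409 G) = k at *
    clear hq h
    interval_cases k <;> omega
  obtain ⟨P⟩ : Nonempty (Sylow 409 G) := inferInstance
  have hP := Mob.card_sylow_eq 2457 hq (by norm_num) P
  have hN := card_normalizer_of_sylow_number (m := 409 * 3) P hn (by omega) (by norm_num)
  exact no_simple_e3 hq (by rw [h]; norm_num) (by norm_num) P hP hN (by norm_num) numeric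

end Cfsg.Agent.S1002
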