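import Cfsg.Statements.S1006
import Cfsg.Agent.Lib.H04.Small.O168

set_option autoImplicit false
open Cfsg

namespace Cfsg.Agent.S1006

open Cfsg Cfsg.Agent.H04 Cfsg.Agent.H04.Small

set_option linter.style.haveILetI false
set_option linter.unusedVariables false
set_option linter.unusedSectionVars false
set_option linter.unusedSimpArgs false


/-- In a simple group of order 168 there are 56 elements of order 3, all conjugate; 42 elements of order 4, all conjugate; and 48 elements of order 7 falling into two conjugacy classes of size 24, an element of order 7 not being conjugate to its inverse. -/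
theorem result {G : Type*} [Group G] [Finite G] [IsSimpleGroup G] (h : Nat.card G = 168) : Nat.card {g : G // orderOf g = 3} = 56 ∧ (∀ s t : G, orderOf s = 3 → orderOf t = 3 → IsConj s t) ∧ Nat.card {g : G // orderOf g = 4} = 42 ∧ (∀ s t : G, orderOf s = 4 → orderOf t = 4 → IsConj s t) ∧ Nat.card {g : G // orderOf g = 7} = 48 ∧ ∀ x : G, orderOf x = 7 → Nat.card {g : G // IsConj x g} = 24 ∧ ¬ IsConj x x⁻¹ := by
  refine ⟨o_count3 h, o_conj3 h, o_count4 h, o_conj4 h, o_count7 h, ?_⟩
  intro x hx
  refine ⟨?_, o_not_conj7 h x hx⟩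
  have h1 : Nat.card (ConjClasses.mk x).carrier = 24 := by
    apply o_card_carrier _ 24 7
    · rw [o_cent7 h x hx, Nat.card_zpowers, hx]
    · norm_num
    · rw [h]
  rw [← h1]
  refine Nat.card_congr (Equiv.subtypeEquivRight fun y => ?_)
  rw [ConjClasses.mem_carrier_iff_mk_eq, ConjClasses.mk_eq_mk_iff_isConj]
  exact ⟨fun h => h.symm, fun h => h.symm⟩

end Cfsg.Agent.S1006
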