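import Cfsg.Statements.S1007
import Cfsg.Agent.Lib.H04.Small.O168b
import Cfsg.Agent.S1012

set_option autoImplicit false
open Cfsg

namespace Cfsg.Agent.S1007

open Cfsg Cfsg.Agent.H04 Cfsg.Agent.H04.Small

set_option linter.style.haveILetI false
set_option linter.unusedVariables false
set_option linter.unusedSectionVars false
set_option linter.unusedSimpArgs false


/-- Let G be a simple group of order 168 and T a Sylow 2-subgroup. Then T contains exactly two subgroups that are Klein four-groups; they are not conjugate in G; and the normalizer of every Klein four-subgroup of G is isomorphic to the symmetric group of degree 4. -/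
theorem result {G : Type*} [Group G] [Finite G] [IsSimpleGroup G] (h : Nat.card G = 168) (T : Sylow 2 G) : Nat.card {U : Subgroup G // U ≤ (T : Subgroup G) ∧ IsKleinFour ↥U} = 2 ∧ (∀ U W : Subgroup G, U ≤ (T : Subgroup G) → W ≤ (T : Subgroup G) → IsKleinFour ↥U → IsKleinFour ↥W → U ≠ W → ∀ g : G, U.map (MulAut.conj g).toMonoidHom ≠ W) ∧ ∀ U : Subgroup G, IsKleinFour ↥U → Nonempty (↥(Subgroup.normalizer (U : Set G)) ≃* Equiv.Perm (Fin 4)) := by
  refine ⟨o_klein_count h T, ?_, ?_⟩
  · intro U W hU hW hUk hWk hne g
    exact o_klein_not_conj h T U W hU hW hUk hWk hne g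
  · intro U hU
    apply Cfsg.Agent.S1012.result (o_klein_normalizer h hU)
    intro g hg
    have h1 := o_orders h (g : G)
    rw [Subgroup.orderOf_coe, hg] at h1
    omega

end Cfsg.Agent.S1007
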