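import Cfsg.Statements.S1008
import Cfsg.Agent.Lib.H04.Small.O168c
import Cfsg.Agent.S1012

set_option autoImplicit false
open Cfsg

namespace Cfsg.Agent.S1008

open Cfsg Cfsg.Agent.H04 Cfsg.Agent.H04.Small

set_option linter.style.haveILetI false
set_option linter.unusedVariables false
set_option linter.unusedSectionVars false
set_option linter.unusedSimpArgs false


/-- In a simple group of order 168 every maximal subgroup is either isomorphic to the symmetric group of degree 4 or non-abelian of order 21; the maximal subgroups of order 21 form one conjugacy class and those isomorphic to the symmetric group of degree 4 form exactly two conjugacy classes. -/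
theorem result {G : Type*} [Group G] [Finite G] [IsSimpleGroup G] (h : Nat.card G = 168) : (∀ M : Subgroup G, IsCoatom M → Nonempty (↥M ≃* Equiv.Perm (Fin 4)) ∨ (Nat.card ↥M = 21 ∧ ¬ IsMulCommutative ↥M)) ∧ (∀ M M' : Subgroup G, IsCoatom M → IsCoatom M' → Nat.card ↥M = 21 → Nat.card ↥M' = 21 → ∃ g : G, M' = M.map (MulAut.conj g).toMonoidHom) ∧ ∃ M₁ M₂ : Subgroup G, IsCoatom M₁ ∧ IsCoatom M₂ ∧ Nonempty (↥M₁ ≃* Equiv.Perm (Fin 4)) ∧ Nonempty (↥M₂ ≃* Equiv.Perm (Fin 4)) ∧ (∀ g : G, M₂ ≠ M₁.map (MulAut.conj g).toMonoidHom) ∧ ∀ M : Subgroup G, IsCoatom M → Nonempty (↥M ≃* Equiv.Perm (Fin 4)) → ∃ g : G, M = M₁.map (MulAut.conj g).toMonoidHom ∨ M = M₂.map (MulAut.conj g).toMonoidHom := by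
  have h24 : ∀ M : Subgroup G, Nat.card M = 24 → Nonempty (M ≃* Equiv.Perm (Fin 4)) := by
    intro M hM
    apply Cfsg.Agent.S1012.result hM
    intro g hg
    have h1 := o_orders h (g : G)
    rw [Subgroup.orderOf_coe, hg] at h1
    omega
  refine ⟨?_, ?_, ?_⟩
  · intro M hM
    rcases o_coatom_cases h hM with h1 | h1
    · exact Or.inl (h24 M h1)
    · exact Or.inr h1
  · intro M M' _ _ h1 h2
    exact o_conj21 h h1 h2
  · obtain T : Sylow 2 G := default
    obtain ⟨a, b, d⟩ := exists_TData h T
    have hV0 := o_klein_normalizer h d.V0_klein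
    have hV1 := o_klein_normalizer h d.V1_klein
    refine ⟨Subgroup.normalizer (d.V0 : Set G), Subgroup.normalizer (d.V1 : Set G),
      o_coatom_of_card h (Or.inl hV0), o_coatom_of_card h (Or.inl hV1), h24 _ hV0, h24 _ hV1,
      fun g => o_normalizers_not_conj h T d g, ?_⟩
    intro M hM hiso
    have hc : Nat.card M = 24 := by
      obtain ⟨e⟩ := hiso
      rw [Nat.card_congr e.toEquiv]
      simp [Nat.card_eq_fintype_card, Fintype.card_perm, Nat.factorial]
    exact o_coverage h T d hc

end Cfsg.Agent.S1008
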