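import Cfsg.Statements.S1009
import Cfsg.Agent.Lib.H04.Sylow2

set_option autoImplicit false
set_option linter.style.haveILetI false
open Cfsg

namespace Cfsg.Agent.S1009

open Cfsg.Agent.H04
open scoped Pointwise

theorem mem_smul_iff {G : Type*} [Group G] {p : ℕ} (g x : G) (P : Sylow p G) :
    x ∈ ((g • P : Sylow p G) : Subgroup G) ↔ g⁻¹ * x * g ∈ (P : Subgroup G) := by
  rw [Sylow.coe_subgroup_smul, Subgroup.mem_smul_pointwise_iff_exists]
  constructor
  · rintro ⟨y, hy, rfl⟩
    simp only [MulAut.smul_def, MulAut.conj_apply]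
    have : g⁻¹ * (g * y * g⁻¹) * g = y := by group
    rwa [this]
  · intro h
    refine ⟨_, h, ?_⟩
    simp only [MulAut.smul_def, MulAut.conj_apply]
    group

/-- Brodkey's theorem. -/
theorem result {G : Type*} [Group G] [Finite G] (p : ℕ) [Fact p.Prime] (hab : ∀ P : Sylow p G, IsMulCommutative ↥(P : Subgroup G)) : ∃ P Q : Sylow p G, (P : Subgroup G) ⊓ (Q : Subgroup G) = ⨅ R : Sylow p G, (R : Subgroup G) := by
  classical
  obtain ⟨⟨P, Q⟩, hmin⟩ := Finite.exists_min (fun x : Sylow p G × Sylow p G => Nat.card ↥((x.1 : Subgroup G) ⊓ (x.2 : Subgroup G)))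
  simp only at hmin
  refine ⟨P, Q, le_antisymm ?_ (le_inf (iInf_le _ P) (iInf_le _ Q))⟩
  set D := (P : Subgroup G) ⊓ (Q : Subgroup G) with hD
  set N := Subgroup.normalizer (D : Set G) with hN
  have hcomm : ∀ (S : Sylow p G), D ≤ S → (S : Subgroup G) ≤ N := by
    intro S hS x hx
    rw [hN, Subgroup.mem_normalizer_iff]
    intro d
    have hcomm : ∀ a ∈ (S : Subgroup G), ∀ b ∈ (S : Subgroup G), a * b = b * a := fun a ha b hb => by
      have := (hab S).is_comm.comm (⟨a, ha⟩ : (S : Subgroup G)) ⟨b, hb⟩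
      exact congrArg Subtype.val this
    constructor
    · intro hd
      have : x * d * x⁻¹ = d := by
        rw [hcomm x hx d (hS hd)]; group
      rwa [this]
    · intro hd
      have hd' : x * d * x⁻¹ ∈ (S : Subgroup G) := hS hd
      have hdS : d ∈ (S : Subgroup G) := by
        have : d = x⁻¹ * (x * d * x⁻¹) * x := by group
        rw [this]
        exact Subgroup.mul_mem _ (Subgroup.mul_mem _ (Subgroup.inv_mem _ hx) hd') hx
      have : x * d * x⁻¹ = d := by
        rw [hcomm x hx d hdS]; group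
      rwa [this] at hd
  have hPN : (P : Subgroup G) ≤ N := hcomm P inf_le_left
  have hQN : (Q : Subgroup G) ≤ N := hcomm Q inf_le_right
  rw [le_iInf_iff]
  intro R
  -- W = R ∩ N lies in a Sylow of N
  have hW : IsPGroup p ↥((R : Subgroup G).subgroupOf N) := R.isPGroup'.comap_subtype
  obtain ⟨S', hS'⟩ := hW.exists_le_sylow
  obtain ⟨n, hn⟩ := MulAction.exists_smul_eq N (P.subtype hPN) S'
  rw [Sylow.smul_subtype] at hn
  -- new pair
  set P' : Sylow p G := (n : G) • P with hP'
  set Q' : Sylow p G := (n : G) • Q with hQ'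
  have hmem : ∀ x, x ∈ (R : Subgroup G) → x ∈ N → x ∈ (P' : Subgroup G) := by
    intro x hxR hxN
    have h1 : (⟨x, hxN⟩ : N) ∈ (S' : Subgroup N) := hS' hxR
    rw [← hn, Sylow.coe_subtype] at h1
    exact h1
  have hQ'N : (Q' : Subgroup G) ≤ N := by
    intro x hx
    rw [hQ', mem_smul_iff] at hx
    have h1 := hQN hx
    have h2 : x = (n : G) * ((n : G)⁻¹ * x * (n : G)) * (n : G)⁻¹ := by group
    rw [h2]
    exact N.mul_mem (N.mul_mem n.2 h1) (N.inv_mem n.2)
  have hDle : (R : Subgroup G) ⊓ (Q' : Subgroup G) ≤ D := by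
    intro x hx
    have hxR : x ∈ (R : Subgroup G) := hx.1
    have hxQ : x ∈ (Q' : Subgroup G) := hx.2
    have hxN := hQ'N hxQ
    have hxP' := hmem x hxR hxN
    rw [hP', mem_smul_iff] at hxP'
    rw [hQ', mem_smul_iff] at hxQ
    have h1 : (n : G)⁻¹ * x * (n : G) ∈ D := ⟨hxP', hxQ⟩
    have h2 := (Subgroup.mem_normalizer_iff.mp n.2 _).mp h1
    have h3 : (n : G) * ((n : G)⁻¹ * x * (n : G)) * (n : G)⁻¹ = x := by group
    rwa [h3] at h2
  have hcard := hmin (R, Q')
  simp only at hcard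
  have heq : (R : Subgroup G) ⊓ (Q' : Subgroup G) = D :=
    Subgroup.eq_of_le_of_card_ge hDle hcard
  intro x hx
  have : x ∈ (R : Subgroup G) ⊓ (Q' : Subgroup G) := by rw [heq]; exact hx
  exact this.1

end Cfsg.Agent.S1009
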