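import Cfsg.Statements.S1013
import Cfsg.Agent.Lib.H04.Small.Tools
import Cfsg.Agent.Lib.H19.CyclicSylow

set_option autoImplicit false
open Cfsg

namespace Cfsg.Agent.S1013

open Cfsg Cfsg.Agent.H04 Cfsg.Agent.H04.Small Subgroup MulAction

set_option linter.style.haveILetI false
set_option linter.unusedVariables false
set_option linter.unusedSectionVars false
set_option linter.unusedSimpArgs false

theorem simple_of_prime_degree {H X : Type*} [Group H] [Finite H] [MulAction H X] [FaithfulSMul H X]
    [IsPretransitive H X] {p : ℕ} [Fact p.Prime] (hX : Nat.card X = p) (hdvd : Nat.card H ∣ p.factorial)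
    (P : Sylow p H) (hn : 1 < Nat.card (Sylow p H))
    (ht : (((P : Subgroup H).subgroupOf (normalizer ((P : Subgroup H) : Set H))).index).Prime) :
    IsSimpleGroup H := by
  classical
  have hp : p.Prime := Fact.out
  haveI : Finite X := Nat.finite_of_card_ne_zero (by rw [hX]; exact hp.ne_zero)
  haveI : Nonempty X := (Nat.card_pos_iff.1 (by rw [hX]; exact hp.pos)).1
  obtain a : X := Classical.arbitrary X
  -- nontrivial normal subgroups have order divisible by `p`
  have key : ∀ M : Subgroup H, M.Normal → M ≠ ⊥ → p ∣ Nat.card M := by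
    intro M hM hne
    have hB : IsBlock H (orbit M a) := IsBlock.orbit_of_normal a
    have hd : (orbit M a).ncard ∣ Nat.card X := hB.ncard_dvd_card ⟨a, mem_orbit_self a⟩
    rw [hX] at hd
    rcases (Nat.dvd_prime hp).1 hd with h1 | h1
    · exfalso
      apply hne
      rw [eq_bot_iff]
      intro m hm
      have hfix : ∀ u : M, (u : H) • a = a := by
        intro u
        rw [Set.ncard_eq_one] at h1
        obtain ⟨b, hb⟩ := h1
        have h2 : u • a ∈ orbit M a := mem_orbit a u
        have h3 : a ∈ orbit M a := mem_orbit_self a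
        rw [hb] at h2 h3
        have h4 : u • a = b := h2
        have h5 : a = b := h3
        rw [← h5] at h4
        exact h4
      rw [Subgroup.mem_bot]
      apply (FaithfulSMul.eq_of_smul_eq_smul (M := H) (α := X))
      intro x
      obtain ⟨g, rfl⟩ := exists_smul_eq H a x
      rw [one_smul]
      have h6 := hfix ⟨g⁻¹ * m * g, by
        have := hM.conj_mem m hm g⁻¹
        simpa using this⟩
      have h7 : (g⁻¹ * m * g) • a = a := h6
      calc m • g • a = g • (g⁻¹ * m * g) • a := by simp [mul_smul]
        _ = g • a := by rw [h7]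
    · rw [← h1, ← Nat.card_coe_set_eq]
      exact ⟨_, (Cfsg.Agent.H04.card_orbit_mul_card_stabilizer a).symm⟩
  have hpH : p ∣ Nat.card H := by
    have h1 : Nat.card (orbit H a) * Nat.card (stabilizer H a) = Nat.card H :=
      Cfsg.Agent.H04.card_orbit_mul_card_stabilizer a
    have h2 : orbit H a = Set.univ := MulAction.orbit_eq_univ H a
    rw [h2, Nat.card_congr (Equiv.Set.univ X), hX] at h1
    exact ⟨_, h1.symm⟩
  have hp2 : ¬ p ^ 2 ∣ Nat.card H := by
    intro h
    have h1 := h.trans hdvd
    obtain ⟨q, rfl⟩ : ∃ q, p = q + 1 := ⟨p - 1, by have := hp.pos; omega⟩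
    rw [Nat.factorial_succ, sq] at h1
    have h2 : q + 1 ∣ q.factorial := Nat.dvd_of_mul_dvd_mul_left (Nat.succ_pos q) h1
    exact absurd ((Nat.Prime.dvd_factorial hp).1 h2) (by omega)
  have hcard : ∀ Q : Sylow p H, Nat.card (Q : Subgroup H) = p := by
    intro Q
    obtain ⟨k, hk⟩ := IsPGroup.iff_card.1 Q.isPGroup'
    have h1 : Nat.card (Q : Subgroup H) ∣ Nat.card H := Subgroup.card_subgroup_dvd_card _
    have h2 : k < 2 := by
      by_contra h3
      apply hp2
      have h4 : p ^ 2 ∣ p ^ k := pow_dvd_pow p (by omega)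
      exact h4.trans (hk ▸ h1)
    have h3 : k ≠ 0 := by
      rintro rfl
      have h4 : Nat.card (Q : Subgroup H) = 1 := by simpa using hk
      have h5 := Q.dvd_card_of_dvd_card hpH
      rw [h4] at h5
      exact hp.one_lt.ne' (Nat.dvd_one.1 h5)
    have h4 : k = 1 := by omega
    rw [hk, h4, pow_one]
  haveI : Nontrivial H := (Finite.one_lt_card_iff_nontrivial).1 (lt_of_lt_of_le hp.one_lt (Nat.le_of_dvd Nat.card_pos hpH))
  refine ⟨fun M hM => ?_⟩
  by_contra hcon
  push Not at hcon
  obtain ⟨hbot, htop⟩ := hcon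
  have hpM := key M hM hbot
  -- `P ≤ M`
  have hPM : (P : Subgroup H) ≤ M := by
    obtain ⟨x, hx⟩ := exists_prime_orderOf_dvd_card' (G := M) p hpM
    have hxo : orderOf (x : H) = p := by rwa [Subgroup.orderOf_coe]
    have hpg : IsPGroup p (zpowers (x : H)) := by
      rw [IsPGroup.iff_card, Nat.card_zpowers, hxo]
      exact ⟨1, by simp⟩
    obtain ⟨Q, hQ⟩ := hpg.exists_le_sylow
    have hQeq : zpowers (x : H) = (Q : Subgroup H) := by
      apply Subgroup.eq_of_le_of_card_ge hQ
      rw [hcard Q, Nat.card_zpowers, hxo]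
    have hQM : (Q : Subgroup H) ≤ M := by
      rw [← hQeq, Subgroup.zpowers_le]
      exact x.2
    obtain ⟨g, hg⟩ := MulAction.exists_smul_eq H Q P
    intro y hy
    rw [← hg] at hy
    rw [Sylow.coe_subgroup_smul] at hy
    obtain ⟨w, hw, rfl⟩ := Subgroup.mem_map.1 hy
    exact hM.conj_mem w (hQM hw) g
  have hF : normalizer ((P : Subgroup H) : Set H) ⊔ M = ⊤ := Sylow.normalizer_sup_eq_top' P hPM
  set N := normalizer ((P : Subgroup H) : Set H) with hN
  have hPN : (P : Subgroup H) ≤ N := Subgroup.le_normalizer
  have hmul := Subgroup.relIndex_mul_relIndex (P : Subgroup H) (N ⊓ M) N (le_inf hPN hPM) inf_le_left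
  have ht' : ((P : Subgroup H).relIndex N).Prime := ht
  rw [← hmul] at ht'
  rcases Nat.prime_mul_iff.1 ht' with ⟨_, h2⟩ | ⟨_, h2⟩
  · -- `N ≤ M`
    have h3 : N ≤ N ⊓ M := Subgroup.relIndex_eq_one.1 h2
    have h4 : N ≤ M := h3.trans inf_le_right
    rw [sup_eq_right.2 h4] at hF
    exact htop hF
  · -- `N ⊓ M ≤ P`
    have h3 : N ⊓ M ≤ (P : Subgroup H) := Subgroup.relIndex_eq_one.1 h2
    let P' : Sylow p M := P.subtype hPM
    have hP'card : Nat.card (P' : Subgroup M) = p := by
      rw [Sylow.coe_subtype]
      rw [Nat.card_congr (Subgroup.subgroupOfEquivOfLe hPM).toEquiv]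
      exact hcard P
    have hNC : normalizer ((P' : Subgroup M) : Set M) ≤ centralizer ((P' : Subgroup M) : Set M) := by
      intro y hy
      have hy1 : (y : H) ∈ N := by
        rw [hN, Subgroup.mem_normalizer_iff]
        intro h
        constructor
        · intro hh
          have hh' : (⟨h, hPM hh⟩ : M) ∈ (P' : Subgroup M) := by
            rw [Sylow.coe_subtype]; exact hh
          have := (Subgroup.mem_normalizer_iff.1 hy _).1 hh'
          rw [Sylow.coe_subtype] at this
          exact this
        · intro hh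
          have hh1 : h ∈ M := by
            have := hM.conj_mem _ (hPM hh) (y : H)⁻¹
            have h5 : (y : H)⁻¹ * ((y : H) * h * (y : H)⁻¹) * ((y : H)⁻¹)⁻¹ = h := by group
            rwa [h5] at this
          have hh2 : (y * ⟨h, hh1⟩ * y⁻¹ : M) ∈ (P' : Subgroup M) := by
            rw [Sylow.coe_subtype]; exact hh
          have := (Subgroup.mem_normalizer_iff.1 hy _).2 hh2
          rw [Sylow.coe_subtype] at this
          exact this
      have hy2 : (y : H) ∈ (P : Subgroup H) := h3 ⟨hy1, y.2⟩
      have hyP' : y ∈ (P' : Subgroup M) := by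
        rw [Sylow.coe_subtype]; exact hy2
      have hcomm := le_centralizer_of_card_prime (P := (P' : Subgroup M)) (by rw [hP'card]; exact hp)
      exact hcomm hyP'
    obtain ⟨R, hRn, hRc⟩ := Cfsg.Agent.H19.burnside_complement P' hNC
    haveI := hM
    haveI := hRn
    obtain ⟨hR1, hR2, _⟩ := Cfsg.Agent.H19.normal_complement_facts M P' R hRc
    by_cases hRb : R = ⊥
    · -- `M = P`
      have hRP : (P' : Subgroup M) = ⊤ := by
        have h5 := hRc.card_mul_card
        rw [hRb] at h5
        have h6 : Nat.card (⊥ : Subgroup M) = 1 := Subgroup.card_bot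
        rw [h6, one_mul] at h5
        exact Subgroup.eq_top_of_card_eq _ h5
      have hMP : M ≤ (P : Subgroup H) := by
        intro m hm
        have : (⟨m, hm⟩ : M) ∈ (P' : Subgroup M) := by rw [hRP]; trivial
        rw [Sylow.coe_subtype] at this
        exact this
      have hMeq : (P : Subgroup H) = M := le_antisymm hPM hMP
      have hPn : (P : Subgroup H).Normal := hMeq ▸ hM
      haveI := hPn
      have : Nat.card (Sylow p H) = 1 := by
        rw [Nat.card_eq_one_iff_unique]
        let u := Sylow.unique_of_normal P hPn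
        exact ⟨u.instSubsingleton, ⟨P⟩⟩
      omega
    · have hRmap : R.map M.subtype ≠ ⊥ := by
        intro h
        exact hRb ((Subgroup.map_eq_bot_iff_of_injective _ M.subtype_injective).1 h)
      have h5 := key _ hR1 hRmap
      rw [Nat.card_congr (Subgroup.equivMapOfInjective R M.subtype M.subtype_injective).symm.toEquiv] at h5
      have h6 := Nat.Coprime.eq_one_of_dvd (Nat.Coprime.symm hR2) h5
      exact hp.one_lt.ne' h6


/-- Let G be a transitive permutation group of prime degree p having more than one Sylow p-subgroup, and suppose a Sylow p-subgroup P has prime index in its normalizer. Then G is simple. -/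
theorem result {α : Type*} [Fintype α] [DecidableEq α] {p : ℕ} [Fact p.Prime] (hα : Fintype.card α = p) (G : Subgroup (Equiv.Perm α)) [MulAction.IsPretransitive ↥G α] (P : Sylow p ↥G) (hn : 1 < Nat.card (Sylow p ↥G)) (ht : (((P : Subgroup ↥G).subgroupOf (Subgroup.normalizer ((P : Subgroup ↥G) : Set ↥G))).index).Prime) : IsSimpleGroup ↥G := by
  exact simple_of_prime_degree (X := α) (by rw [Nat.card_eq_fintype_card, hα])
    (by
      have h1 := Subgroup.card_subgroup_dvd_card G
      rwa [Nat.card_eq_fintype_card (α := Equiv.Perm α), Fintype.card_perm, hα] at h1) P hn ht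

end Cfsg.Agent.S1013
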