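import Cfsg.Statements.S1014
import Cfsg.Agent.Lib.H04.NC
import Cfsg.Agent.Lib.H04.PrimeSylow
-- import your own Cfsg.Agent.* helpers here

set_option autoImplicit false
open Cfsg

namespace Cfsg.Agent.S1014



/-- No finite simple group has order 1104 = 2^4 * 3 * 23. -/
theorem result {G : Type*} [Group G] [Finite G] [IsSimpleGroup G] : Nat.card G ≠ 1104 := by
  intro h
  classical
  haveI : Fact (Nat.Prime 23) := ⟨by norm_num⟩
  haveI : Fintype (Sylow 23 G) := Fintype.ofFinite _
  have hnp : ¬ (Nat.card G).Prime := by rw [h]; norm_num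
  have hG := H04.not_isMulCommutative_of_not_prime hnp
  obtain ⟨P⟩ : Nonempty (Sylow 23 G) := inferInstance
  have hcardS : ∀ R : Sylow 23 G, Nat.card (R : Subgroup G) = 23 := by
    intro R
    have := H04.card_sylow_eq_pow (G := G) (p := 23) 1 48 (by rw [h]; norm_num) (by norm_num) R
    simpa using this
  have hP : Nat.card (P : Subgroup G) = 23 := hcardS P
  have hd : Nat.card (Sylow 23 G) ∣ 48 := H04.card_sylow_dvd_of_card_eq P 48 (by
    rw [show Nat.card P = 23 from hP, h])
  have hm : Nat.card (Sylow 23 G) ≡ 1 [MOD 23] := card_sylow_modEq_one 23 G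
  have hne := H04.sylow_ne_normal hnp P (by rw [show Nat.card P = 23 from hP]; norm_num)
  have hn : Nat.card (Sylow 23 G) = 24 := by
    have hle := Nat.le_of_dvd (by norm_num) hd
    have hd' := Nat.mod_eq_zero_of_dvd hd
    have hm' : Nat.card (Sylow 23 G) % 23 = 1 := hm
    generalize Nat.card (Sylow 23 G) = n at hle hd' hm' hne ⊢
    interval_cases n <;> omega
  have hi : (Subgroup.normalizer ((P : Subgroup G) : Set G)).index = 24 := by
    rw [← hn]
    exact (Sylow.card_eq_index_normalizer P).symm
  have hcn : Nat.card (Subgroup.normalizer ((P : Subgroup G) : Set G)) = 46 := by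
    have := (Subgroup.normalizer ((P : Subgroup G) : Set G)).card_mul_index
    rw [hi, h] at this
    omega
  have hPne : (P : Subgroup G) ≠ ⊥ := by
    intro hb
    rw [hb, Subgroup.card_bot] at hP
    omega
  -- an involution in the normalizer
  obtain ⟨t₀, ht₀⟩ := exists_prime_orderOf_dvd_card' (G := Subgroup.normalizer ((P : Subgroup G) : Set G)) 2 (by
    rw [hcn]; norm_num)
  set t : G := (t₀ : G) with ht
  have hto : orderOf t = 2 := by
    rw [ht, Subgroup.orderOf_coe]; exact ht₀
  have htN : t ∈ Subgroup.normalizer ((P : Subgroup G) : Set G) := t₀.2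
  have htt : t * t = 1 := by
    rw [← pow_two, ← hto]; exact pow_orderOf_eq_one t
  have htinv : t⁻¹ = t := by
    rw [inv_eq_iff_mul_eq_one]; exact htt
  have hPab : ∀ a ∈ (P : Subgroup G), ∀ b ∈ (P : Subgroup G), a * b = b * a := by
    intro a ha b hb
    have h1 := H04.le_centralizer_of_card_prime (P := (P : Subgroup G)) (by rw [hP]; norm_num) ha
    exact (Subgroup.mem_centralizer_iff.mp h1 b hb).symm
  -- `t` does not centralize `P`
  have htC : t ∉ Subgroup.centralizer ((P : Subgroup G) : Set G) := by
    intro hc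
    have hr1 := H04.relIndex_dvd_pred_of_card_prime (P := (P : Subgroup G)) (q := 23) (by norm_num) hP
    have hr2 : (Subgroup.centralizer ((P : Subgroup G) : Set G)).relIndex
        (Subgroup.normalizer ((P : Subgroup G) : Set G)) ∣ 46 := by
      rw [← hcn]
      exact Subgroup.relIndex_dvd_card _ _
    have hr3 := H04.relIndex_ne_one hG P hPne
    -- the centralizer contains `P` and `t`, so has order at least `46`
    have hle : Subgroup.normalizer ((P : Subgroup G) : Set G) ≤ Subgroup.centralizer ((P : Subgroup G) : Set G) := by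
      have hr4 : (Subgroup.centralizer ((P : Subgroup G) : Set G)).relIndex
          (Subgroup.normalizer ((P : Subgroup G) : Set G)) ∣ 2 := by
        have : Nat.gcd (23 - 1) 46 = 2 := by norm_num
        rw [← this]
        exact Nat.dvd_gcd hr1 hr2
      -- the index is odd: `N ∩ C` has even order and contains the Sylow subgroup
      have h23 : 23 ∣ Nat.card ((Subgroup.centralizer ((P : Subgroup G) : Set G)).subgroupOf
          (Subgroup.normalizer ((P : Subgroup G) : Set G))) := by
        have hPle : (P : Subgroup G).subgroupOf (Subgroup.normalizer ((P : Subgroup G) : Set G)) ≤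
            (Subgroup.centralizer ((P : Subgroup G) : Set G)).subgroupOf (Subgroup.normalizer ((P : Subgroup G) : Set G)) := by
          intro x hx
          exact Subgroup.mem_subgroupOf.mpr
            (H04.le_centralizer_of_card_prime (P := (P : Subgroup G)) (by rw [hP]; norm_num) (Subgroup.mem_subgroupOf.mp hx))
        have h1 := Subgroup.card_dvd_of_le hPle
        rw [Nat.card_congr (Subgroup.subgroupOfEquivOfLe Subgroup.le_normalizer).toEquiv, hP] at h1
        exact h1
      have h2C : 2 ∣ Nat.card ((Subgroup.centralizer ((P : Subgroup G) : Set G)).subgroupOf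
          (Subgroup.normalizer ((P : Subgroup G) : Set G))) := by
        have hmem : t₀ ∈ (Subgroup.centralizer ((P : Subgroup G) : Set G)).subgroupOf
            (Subgroup.normalizer ((P : Subgroup G) : Set G)) := Subgroup.mem_subgroupOf.mpr hc
        have h1 : orderOf (⟨t₀, hmem⟩ : (Subgroup.centralizer ((P : Subgroup G) : Set G)).subgroupOf
            (Subgroup.normalizer ((P : Subgroup G) : Set G))) = 2 := by
          rw [Subgroup.orderOf_mk]
          exact ht₀
        rw [← h1]
        exact orderOf_dvd_natCard _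
      have h46 : 46 ∣ Nat.card ((Subgroup.centralizer ((P : Subgroup G) : Set G)).subgroupOf
          (Subgroup.normalizer ((P : Subgroup G) : Set G))) :=
        Nat.Coprime.mul_dvd_of_dvd_of_dvd (by norm_num : Nat.Coprime 23 2) h23 h2C
      have hidx := ((Subgroup.centralizer ((P : Subgroup G) : Set G)).subgroupOf
          (Subgroup.normalizer ((P : Subgroup G) : Set G))).card_mul_index
      rw [hcn] at hidx
      have hi1 : (Subgroup.centralizer ((P : Subgroup G) : Set G)).relIndex
          (Subgroup.normalizer ((P : Subgroup G) : Set G)) = 1 := by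
        obtain ⟨c, hc'⟩ := h46
        rw [hc'] at hidx
        have : c * ((Subgroup.centralizer ((P : Subgroup G) : Set G)).subgroupOf
          (Subgroup.normalizer ((P : Subgroup G) : Set G))).index = 1 := by
          have h7 : 46 * (c * ((Subgroup.centralizer ((P : Subgroup G) : Set G)).subgroupOf
            (Subgroup.normalizer ((P : Subgroup G) : Set G))).index) = 46 * 1 := by
            rw [← mul_assoc, hidx]
          exact Nat.eq_of_mul_eq_mul_left (by norm_num) h7
        exact Nat.eq_one_of_mul_eq_one_left this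
      exact absurd hi1 hr3
    exact absurd hle (H04.not_normalizer_le_centralizer hG P hPne)
  -- `t` inverts `P`
  have hinvert : ∀ x ∈ (P : Subgroup G), t * x * t⁻¹ = x⁻¹ := by
    intro x hx
    have htx : t * x * t⁻¹ ∈ (P : Subgroup G) := (Subgroup.mem_normalizer_iff.mp htN x).mp hx
    set u := x * (t * x * t⁻¹) with hu
    have huP : u ∈ (P : Subgroup G) := Subgroup.mul_mem _ hx htx
    have hut : t * u * t⁻¹ = u := by
      have h1 : t * (t * x * t⁻¹) * t⁻¹ = x := by
        calc t * (t * x * t⁻¹) * t⁻¹ = (t * t) * x * (t * t)⁻¹ := by group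
          _ = x := by rw [htt]; group
      calc t * u * t⁻¹ = (t * x * t⁻¹) * (t * (t * x * t⁻¹) * t⁻¹) := by rw [hu]; group
        _ = (t * x * t⁻¹) * x := by rw [h1]
        _ = u := by rw [hu, hPab _ htx x hx]
    by_cases hu1 : u = 1
    · rw [hu] at hu1
      exact (eq_inv_of_mul_eq_one_right hu1)
    · exfalso
      apply htC
      have hz : Subgroup.zpowers u = (P : Subgroup G) :=
        H04.zpowers_eq_of_card_prime (by norm_num : Nat.Prime 23) hP huP hu1
      refine Subgroup.mem_centralizer_iff.mpr fun y hy => ?_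
      rw [SetLike.mem_coe, ← hz] at hy
      obtain ⟨k, rfl⟩ := Subgroup.mem_zpowers_iff.mp hy
      have hc : Commute t u := by
        have := mul_inv_eq_iff_eq_mul.mp hut
        exact this
      exact ((hc.zpow_right k).eq).symm
  -- the permutation
  let φ : G →* Equiv.Perm (Sylow 23 G) := MulAction.toPermHom G (Sylow 23 G)
  have hsign : Equiv.Perm.sign (φ t) = 1 := by
    have := H04.hom_to_comm_trivial hG (Equiv.Perm.sign.comp φ) t
    exact this
  have hσ2 : (φ t) ^ 2 = 1 := by
    rw [← map_pow, ← hto, pow_orderOf_eq_one, map_one]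
  have hcard24 : Fintype.card (Sylow 23 G) = 24 := by
    rw [← Nat.card_eq_fintype_card, hn]
  have hφ : ∀ Q : Sylow 23 G, φ t Q = t • Q := fun Q => rfl
  -- uniqueness of a second fixed point
  have hinter : ∀ Q : Sylow 23 G, Q ≠ P → (Q : Subgroup G).subgroupOf (P : Subgroup G) = ⊥ := by
    intro Q hQ
    rw [eq_bot_iff]
    intro x hx
    by_contra hx1
    have hx1' : (x : G) ≠ 1 := fun h2 => hx1 (Subgroup.mem_bot.mpr (Subtype.ext h2))
    have hxQ : (x : G) ∈ (Q : Subgroup G) := Subgroup.mem_subgroupOf.mp hx
    have e1 := H04.zpowers_eq_of_card_prime (by norm_num : Nat.Prime 23) hP x.2 hx1'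
    have e2 := H04.zpowers_eq_of_card_prime (by norm_num : Nat.Prime 23) (hcardS Q) hxQ hx1'
    exact hQ (Sylow.ext (e2.symm.trans e1))
  have htrans : ∀ Q R : Sylow 23 G, Q ≠ P → R ≠ P → ∃ x ∈ (P : Subgroup G), x • Q = R := by
    intro Q R hQ hR
    have h1 := H04.card_orbit_sylow P Q
    rw [hinter Q hQ, Subgroup.index_bot, hP, Nat.card_coe_set_eq] at h1
    have hsub : MulAction.orbit (P : Subgroup G) Q ⊆ {P}ᶜ := by
      rintro _ ⟨x, rfl⟩ hc
      apply hQ
      have hc' : (x : G) • Q = P := hc
      have hxP : (x : G) • P = P := by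
        have : (x : G) ∈ Subgroup.normalizer ((P : Subgroup G) : Set G) := Subgroup.le_normalizer x.2
        exact Sylow.smul_eq_iff_mem_normalizer.mpr this
      exact smul_left_cancel (x : G) (hc'.trans hxP.symm)
    have hcompl : ({P}ᶜ : Set (Sylow 23 G)).ncard = 23 := by
      rw [Set.ncard_compl, Set.ncard_singleton, hn]
    have heq := Set.eq_of_subset_of_ncard_le hsub (by rw [hcompl, h1]) (Set.toFinite _)
    have hRm : R ∈ ({P}ᶜ : Set (Sylow 23 G)) := hR
    rw [← heq] at hRm
    obtain ⟨x, rfl⟩ := hRm
    exact ⟨x, x.2, rfl⟩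
  have huniq : ∀ Q R : Sylow 23 G, Q ≠ P → R ≠ P → t • Q = Q → t • R = R → Q = R := by
    intro Q R hQ hR htQ htR
    obtain ⟨x, hx, rfl⟩ := htrans Q R hQ hR
    have h1 : t • (x • Q) = x⁻¹ • Q := by
      calc t • (x • Q) = (t * x) • Q := (mul_smul _ _ _).symm
        _ = ((t * x * t⁻¹) * t) • Q := by rw [show (t * x * t⁻¹) * t = t * x by group]
        _ = (t * x * t⁻¹) • (t • Q) := mul_smul _ _ _
        _ = x⁻¹ • Q := by rw [htQ, hinvert x hx]
    rw [h1] at htR
    have h2 : (x * x) • Q = Q := by
      rw [mul_smul]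
      have h3 : x • (x⁻¹ • Q) = x • (x • Q) := by rw [htR]
      rw [smul_inv_smul] at h3
      exact h3.symm
    have h3 : x * x ∈ (Q : Subgroup G) :=
      H04.mem_of_mem_sylow_of_smul_eq (P := P) (Subgroup.mul_mem _ hx hx) h2
    have h4 : (⟨x * x, Subgroup.mul_mem _ hx hx⟩ : (P : Subgroup G)) ∈ (Q : Subgroup G).subgroupOf (P : Subgroup G) :=
      Subgroup.mem_subgroupOf.mpr h3
    rw [hinter Q hQ] at h4
    have h5 : x * x = 1 := congrArg Subtype.val (Subgroup.mem_bot.mp h4)
    have h6 : x = 1 := by
      by_contra hx1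
      have h7 := H04.zpowers_eq_of_card_prime (by norm_num : Nat.Prime 23) hP hx hx1
      have h8 : orderOf x ∣ 2 := orderOf_dvd_of_pow_eq_one (by rw [pow_two]; exact h5)
      rw [← orderOf_dvd_iff_pow_eq_one] at *
      have h9 : Nat.card (Subgroup.zpowers x) = 23 := by rw [h7]; exact hP
      rw [Nat.card_zpowers] at h9
      rw [h9] at h8
      omega
    rw [h6, one_smul]
  -- counting
  have hsupp : (φ t).support.card % 2 = 0 := by
    have := Equiv.Perm.two_dvd_card_support hσ2
    omega
  have hPfix : φ t P = P := by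
    rw [hφ]
    exact Sylow.smul_eq_iff_mem_normalizer.mpr htN
  have hPns : P ∉ (φ t).support := by
    rw [Equiv.Perm.notMem_support]
    exact hPfix
  have hcompl := Finset.card_compl (φ t).support
  rw [hcard24] at hcompl
  -- a second fixed point
  obtain ⟨Q₀, hQ₀, hQ₀fix⟩ : ∃ Q₀ : Sylow 23 G, Q₀ ≠ P ∧ φ t Q₀ = Q₀ := by
    have h1 : 1 ≤ (φ t).supportᶜ.card := Finset.card_pos.mpr ⟨P, by simpa using hPns⟩
    have h2 : (φ t).support.card ≤ 24 := by
      rw [← hcard24]
      exact Finset.card_le_univ _
    have h3 : 2 ≤ (φ t).supportᶜ.card := by omega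
    obtain ⟨Q₀, hQ₀, hne⟩ := Finset.exists_mem_ne (by omega : 1 < (φ t).supportᶜ.card) P
    refine ⟨Q₀, hne, ?_⟩
    simpa using hQ₀
  have hcomplEq : (φ t).supportᶜ = {P, Q₀} := by
    ext R
    simp only [Finset.mem_compl, Equiv.Perm.mem_support, not_not, Finset.mem_insert, Finset.mem_singleton]
    constructor
    · intro hR
      by_cases hRP : R = P
      · exact Or.inl hRP
      · exact Or.inr (huniq R Q₀ hRP hQ₀ hR hQ₀fix)
    · rintro (rfl | rfl)
      · exact hPfix
      · exact hQ₀fix
  have hc2 : (φ t).supportᶜ.card = 2 := by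
    rw [hcomplEq, Finset.card_pair hQ₀.symm]
  have hs22 : (φ t).support.card = 22 := by
    have h2 : (φ t).support.card ≤ 24 := by
      rw [← hcard24]
      exact Finset.card_le_univ _
    omega
  -- the sign
  have hall2 : ∀ n ∈ (φ t).cycleType, n = 2 := by
    intro n hn'
    have h1 := Equiv.Perm.dvd_of_mem_cycleType hn'
    have h2 := Equiv.Perm.two_le_of_mem_cycleType hn'
    have h3 : orderOf (φ t) ∣ 2 := orderOf_dvd_of_pow_eq_one hσ2
    have h4 := Nat.le_of_dvd (by norm_num) (h1.trans h3)
    omega
  have hrep : (φ t).cycleType = Multiset.replicate (Multiset.card (φ t).cycleType) 2 :=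
    Multiset.eq_replicate_card.mpr hall2
  have hsum := Equiv.Perm.sum_cycleType (φ t)
  rw [hs22] at hsum
  have hcardC : Multiset.card (φ t).cycleType = 11 := by
    rw [hrep, Multiset.sum_replicate] at hsum
    simp only [Multiset.card_replicate, smul_eq_mul] at hsum ⊢
    omega
  have hs := Equiv.Perm.sign_of_cycleType (φ t)
  rw [hsum, hcardC, hsign] at hs
  have : ((-1 : ℤˣ) ^ (22 + 11)) = -1 := by decide
  rw [this] at hs
  exact absurd hs (by decide)

end Cfsg.Agent.S1014
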