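import Cfsg.Statements.S1015
import Cfsg.Agent.Lib.H04.NC
import Cfsg.Agent.Lib.H04.PrimeSylow
-- import your own Cfsg.Agent.* helpers here

set_option autoImplicit false
open Cfsg

namespace Cfsg.Agent.S1015



/-- No finite simple group has order 1200 = 2^4 * 3 * 5^2. -/
theorem result {G : Type*} [Group G] [Finite G] [IsSimpleGroup G] : Nat.card G ≠ 1200 := by
  intro h
  classical
  haveI : Fact (Nat.Prime 5) := ⟨by norm_num⟩
  have hnp : ¬ (Nat.card G).Prime := by rw [h]; norm_num
  have hG := H04.not_isMulCommutative_of_not_prime hnp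
  obtain ⟨P⟩ : Nonempty (Sylow 5 G) := inferInstance
  have hP : Nat.card P = 25 := by
    have := H04.card_sylow_eq_pow (G := G) (p := 5) 2 48 (by rw [h]; norm_num) (by norm_num) P
    simpa using this
  have hd : Nat.card (Sylow 5 G) ∣ 48 := H04.card_sylow_dvd_of_card_eq P 48 (by rw [hP, h])
  have hm : Nat.card (Sylow 5 G) ≡ 1 [MOD 5] := card_sylow_modEq_one 5 G
  have hne := H04.sylow_ne_normal hnp P (by rw [hP]; norm_num)
  have hbig : ∀ H : Subgroup G, H ≠ ⊤ → 10 ≤ H.index := by
    intro H hH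
    by_contra hlt
    have h1 := H04.two_mul_card_dvd_factorial hG H hH
    have h2 : H.index.factorial ∣ Nat.factorial 9 := Nat.factorial_dvd_factorial (by omega)
    rw [h] at h1
    have h3 := h1.trans h2
    norm_num [Nat.factorial] at h3
  have hi : (Subgroup.normalizer ((P : Subgroup G) : Set G)).index = Nat.card (Sylow 5 G) :=
    (Sylow.card_eq_index_normalizer P).symm
  have hNne : Subgroup.normalizer ((P : Subgroup G) : Set G) ≠ ⊤ := by
    intro h1
    rw [h1, Subgroup.index_top] at hi
    exact hne hi.symm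
  have hn10 := hbig _ hNne
  rw [hi] at hn10
  have hn : Nat.card (Sylow 5 G) = 16 := by
    have hle := Nat.le_of_dvd (by norm_num) hd
    have hd' := Nat.mod_eq_zero_of_dvd hd
    have hm' : Nat.card (Sylow 5 G) % 5 = 1 := hm
    generalize Nat.card (Sylow 5 G) = n at hle hd' hm' hn10 ⊢
    interval_cases n <;> omega
  haveI : Nontrivial (Sylow 5 G) := by
    rw [← Finite.one_lt_card_iff_nontrivial, hn]
    norm_num
  obtain ⟨Q, hQ⟩ := exists_ne P
  set D : Subgroup G := (P : Subgroup G) ⊓ (Q : Subgroup G) with hD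
  have hQc : Nat.card Q = 25 := H04.card_sylow_eq Q P ▸ hP
  have hDne : D ≠ ⊥ := by
    intro hb
    have h1 := H04.card_orbit_sylow P Q
    have h2 : Nat.card (MulAction.orbit (P : Subgroup G) Q) ≤ Nat.card (Sylow 5 G) :=
      Nat.card_le_card_of_injective _ Subtype.val_injective
    have h3 : (Q : Subgroup G).subgroupOf (P : Subgroup G) = ⊥ := by
      rw [eq_bot_iff]
      intro x hx
      have h4 : (x : G) ∈ D := ⟨x.2, Subgroup.mem_subgroupOf.mp hx⟩
      rw [hb] at h4
      exact Subgroup.mem_bot.mpr (Subtype.ext (Subgroup.mem_bot.mp h4))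
    rw [h3, Subgroup.index_bot] at h1
    rw [hn, h1] at h2
    have h5 : Nat.card (P : Subgroup G) = 25 := hP
    rw [h5] at h2
    omega
  have hab : ∀ R : Sylow 5 G, ∀ a ∈ (R : Subgroup G), ∀ b ∈ (R : Subgroup G), a * b = b * a := by
    intro R a ha b hb
    have hR : Nat.card R = 5 ^ 2 := by
      rw [show (5 : ℕ) ^ 2 = 25 by norm_num]
      exact H04.card_sylow_eq R P ▸ hP
    letI := IsPGroup.commGroupOfCardEqPrimeSq hR
    have := mul_comm (⟨a, ha⟩ : (R : Subgroup G)) ⟨b, hb⟩
    exact congrArg Subtype.val this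
  set C : Subgroup G := Subgroup.centralizer (D : Set G) with hC
  have hPC : (P : Subgroup G) ≤ C := fun x hx =>
    Subgroup.mem_centralizer_iff.mpr fun d hd => hab P d hd.1 x hx
  have hQC : (Q : Subgroup G) ≤ C := fun x hx =>
    Subgroup.mem_centralizer_iff.mpr fun d hd => hab Q d hd.2 x hx
  have hCne : C ≠ ⊤ := by
    intro h1
    apply hDne
    rw [eq_bot_iff]
    intro d hd
    have hz : d ∈ Subgroup.center G := by
      rw [Subgroup.mem_center_iff]
      intro g
      have : g ∈ C := by rw [h1]; trivial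
      exact (Subgroup.mem_centralizer_iff.mp this d hd).symm
    rcases IsSimpleGroup.eq_bot_or_eq_top_of_normal (Subgroup.center G) inferInstance with hb | ht
    · rw [hb] at hz
      exact hz
    · exfalso
      apply hG
      exact ⟨⟨fun a b => by
        have : a ∈ Subgroup.center G := by rw [ht]; trivial
        exact (Subgroup.mem_center_iff.mp this b).symm⟩⟩
  have hCi := hbig C hCne
  have hCm := C.card_mul_index
  rw [h] at hCm
  have h25 : 25 ∣ Nat.card C := by
    have := Subgroup.card_dvd_of_le hPC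
    rwa [show Nat.card (P : Subgroup G) = 25 from hP] at this
  obtain ⟨m, hm'⟩ := h25
  have hm4 : m ≤ 4 := by
    by_contra hgt
    have h1 : 25 * 5 * 10 ≤ 25 * m * C.index := Nat.mul_le_mul (Nat.mul_le_mul_left _ (by omega)) hCi
    rw [← hm', hCm] at h1
    omega
  have hm0 : m ≠ 0 := by
    rintro rfl
    rw [mul_zero] at hm'
    exact Nat.card_pos.ne' hm'
  have hcardsub : ∀ R : Sylow 5 G, (R : Subgroup G) ≤ C → Nat.card ((R : Subgroup G).subgroupOf C) = 25 := by
    intro R hR
    have hRc : Nat.card (R : Subgroup G) = 25 := H04.card_sylow_eq R P ▸ hP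
    rw [Nat.card_congr (Subgroup.subgroupOfEquivOfLe hR).toEquiv, hRc]
  have hidx : ∀ R : Sylow 5 G, (R : Subgroup G) ≤ C → ¬ 5 ∣ ((R : Subgroup G).subgroupOf C).index := by
    intro R hR
    have hi := ((R : Subgroup G).subgroupOf C).card_mul_index
    rw [hcardsub R hR, hm'] at hi
    have hi' : ((R : Subgroup G).subgroupOf C).index = m := by omega
    rw [hi']
    intro h5
    have := Nat.le_of_dvd (Nat.pos_of_ne_zero hm0) h5
    omega
  let P₁ : Sylow 5 C := (P.isPGroup'.comap_subtype (K := C)).toSylow (hidx P hPC)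
  let Q₁ : Sylow 5 C := (Q.isPGroup'.comap_subtype (K := C)).toSylow (hidx Q hQC)
  have hd₁ : Nat.card (Sylow 5 C) ∣ m := by
    refine H04.card_sylow_dvd_of_card_eq P₁ m ?_
    have : Nat.card P₁ = 25 := hcardsub P hPC
    rw [this, hm']
  have hm₁ : Nat.card (Sylow 5 C) ≡ 1 [MOD 5] := card_sylow_modEq_one 5 C
  have hn₁ : Nat.card (Sylow 5 C) = 1 := by
    have hle := Nat.le_of_dvd (Nat.pos_of_ne_zero hm0) hd₁
    exact H04.eq_one_of_modEq_of_lt (by norm_num) hm₁ (by omega)
  haveI : Subsingleton (Sylow 5 C) := (Nat.card_eq_one_iff_unique.mp hn₁).1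
  have heq : P₁ = Q₁ := Subsingleton.elim _ _
  apply hQ
  apply Sylow.ext
  have h1 : (P : Subgroup G).subgroupOf C = (Q : Subgroup G).subgroupOf C := congrArg (fun R : Sylow 5 C => (R : Subgroup C)) heq
  have h2 := congrArg (Subgroup.map C.subtype) h1
  rw [Subgroup.subgroupOf_map_subtype, Subgroup.subgroupOf_map_subtype, inf_eq_left.mpr hPC, inf_eq_left.mpr hQC] at h2
  exact h2.symm

end Cfsg.Agent.S1015
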