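import Cfsg.Statements.S1016
import Cfsg.Agent.Lib.H09.Ord12

set_option autoImplicit false
open Cfsg

namespace Cfsg.Agent.S1016

/-- No finite simple group has order 1440 = 2^5 * 3^2 * 5. -/
theorem result {G : Type*} [Group G] [Finite G] [IsSimpleGroup G] : Nat.card G ≠ 1440 := by
  intro h
  refine Cfsg.Agent.H09.Ord.not_1440 (G := G) (fun hc => ?_) h
  haveI := hc
  have hp : (Nat.card G).Prime := by
    letI : CommGroup G := { (inferInstance : Group G) with mul_comm := fun a b => hc.is_comm.comm a b }
    exact (IsSimpleGroup.prime_card)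
  rw [h] at hp
  norm_num at hp

end Cfsg.Agent.S1016
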