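import Mathlib
import Cfsg.Agent.Lib.H17.B7d

set_option autoImplicit false
set_option linter.style.longLine false

open Cfsg

namespace Cfsg.Agent.S1017

open Cfsg.Agent.H17.Brd Cfsg.Agent.H17.Br7 Cfsg.Agent.H21 Cfsg.Agent.H22

/-- No finite simple group has order 2016. -/
theorem result {G : Type*} [Group G] [Finite G] [IsSimpleGroup G] : Nat.card G ≠ 2016 := by
  intro hG
  classical
  haveI : Fact (Nat.Prime 7) := ⟨by norm_num⟩
  haveI : Fact (Nat.Prime 2) := ⟨by norm_num⟩
  haveI := Fintype.ofFinite G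
  haveI := Fintype.ofFinite (IrrCharacter G)
  have hG' : Nat.card G = 7 * 288 := by rw [hG]
  have hnot : ¬ 7 ∣ 288 := by norm_num
  obtain ⟨h1, h2, h3⟩ := Cfsg.Agent.H17.Mob.sylow_number (p := 7) (X := G) 288 (by norm_num) hG' hnot
  have hn := sylow_cases_7 _ (Nat.mem_divisors.2 ⟨h1, by norm_num⟩) h2
  obtain ⟨P⟩ : Nonempty (Sylow 7 G) := inferInstance
  have hpc : ∀ Q : Sylow 7 G, Nat.card Q = 7 := Cfsg.Agent.H17.Mob.card_sylow_eq 288 hG' hnot
  have hPc := hpc P
  have hcyc : ∀ S : Sylow 7 G, IsCyclic (S : Subgroup G) := fun S => by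
    haveI : Fact (Nat.card (S : Subgroup G)).Prime := by
      rw [hpc S]
      infer_instance
    exact isCyclic_of_prime_card rfl
  obtain ⟨x, hx, hzp⟩ := exists_gen_sylow P hPc
  have hNC := card_normalizer_zpowers (G := G) hx
  rw [hzp] at hNC
  have hRd : (Rs (p := 7) x).card ∣ 6 := card_Rs_dvd hx
  rcases hn with hn | hn | hn | hn
  · exact h3 hn
  · -- 8 Sylow subgroups
    have hN := card_normalizer_of_sylow_number P (n := 8) (m := 252) hn (by rw [hG]) (by norm_num)
    rw [hN] at hNC
    have h2C : 2 ∣ Nat.card (Subgroup.centralizer ({x} : Set G)) :=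
      e_cases_7b _ (Nat.mem_divisors.2 ⟨hRd, by norm_num⟩) _ hNC.symm
    obtain ⟨z, hz⟩ := exists_prime_orderOf_dvd_card' (G := Subgroup.centralizer ({x} : Set G)) 2 h2C
    have hz' : orderOf (z : G) = 2 := by rw [Subgroup.orderOf_coe, hz]
    have hc : Commute (z : G) x := Subgroup.mem_centralizer_singleton_iff.1 z.2
    exact no_two_in_centralizer hn hpc P hx hzp hz' hc
  · -- 36 Sylow subgroups
    have hN := card_normalizer_of_sylow_number P (n := 36) (m := 56) hn (by rw [hG]) (by norm_num)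
    rw [hN] at hNC
    have hRd2 : (Rs (p := 7) x).card ∣ 56 := ⟨_, hNC⟩
    rcases e_cases_7 _ (Nat.mem_divisors.2 ⟨hRd, by norm_num⟩) hRd2 with he | he
    · -- `e = 1`
      rw [he] at hNC
      exact cent_ne_norm P hPc (by rw [hG]; norm_num) hzp (by rw [hN]; omega)
    · -- `e = 2`
      have hCc : Nat.card (Subgroup.centralizer ({x} : Set G)) = 28 := by
        rw [he] at hNC
        omega
      have h2C : 2 ∣ Nat.card (Subgroup.centralizer ({x} : Set G)) := by
        rw [hCc]
        norm_num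
      obtain ⟨y, hy⟩ := exists_prime_orderOf_dvd_card' (G := Subgroup.centralizer ({x} : Set G)) 2 h2C
      have hy' : orderOf (y : G) = 2 := by rw [Subgroup.orderOf_coe, hy]
      have hc : Commute x (y : G) := (Subgroup.mem_centralizer_singleton_iff.1 y.2).symm
      obtain ⟨M, hM⟩ := exists_pModular (p := 7) (by norm_num)
      haveI : M.IsPrime := hM.2.1.isPrime
      have hbig := big_centralizer7 hG' hM P hcyc hPc hx he hy' hc
      exact no_big7 hG' P hcyc hPc hx hzp hCc hN hy' hc hbig
  · -- 288 Sylow subgroups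
    have hN := card_normalizer_of_sylow_number P (n := 288) (m := 7) hn (by rw [hG]) (by norm_num)
    rw [hN] at hNC
    have hRd2 : (Rs (p := 7) x).card ∣ 7 := ⟨_, hNC⟩
    have he := e_cases_7a _ (Nat.mem_divisors.2 ⟨hRd, by norm_num⟩) hRd2
    rw [he] at hNC
    exact cent_ne_norm P hPc (by rw [hG]; norm_num) hzp (by rw [hN]; omega)

end Cfsg.Agent.S1017
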