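import Cfsg.Statements.S1018
import Cfsg.Agent.Lib.H04.Sylow2

set_option autoImplicit false
set_option linter.style.haveILetI false
open Cfsg

namespace Cfsg.Agent.S1018

open Cfsg.Agent.H04

theorem result {G : Type*} [Group G] [Finite G] (p : ℕ) [Fact p.Prime] (P : Sylow p G) (hP : Nat.card ↥(P : Subgroup G) = p) : (∀ y : G, orderOf y = p → Nat.card (MulAction.fixedBy (G ⧸ Subgroup.normalizer ((P : Subgroup G) : Set G)) y) = 1) ∧ ∀ x : G, x ∈ Subgroup.normalizer ((P : Subgroup G) : Set G) → x ∉ Subgroup.centralizer ((P : Subgroup G) : Set G) → Nat.card (MulAction.fixedBy (G ⧸ Subgroup.normalizer ((P : Subgroup G) : Set G)) x) ≤ Nat.card (MulAction.orbitRel.Quotient ↥(P : Subgroup G) (G ⧸ Subgroup.normalizer ((P : Subgroup G) : Set G))) := by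
  classical
  have hp : p.Prime := Fact.out
  have hQcard : ∀ Q : Sylow p G, Nat.card Q = p := fun Q => by rw [card_sylow_eq Q P, hP]
  set N := Subgroup.normalizer ((P : Subgroup G) : Set G) with hN
  let e := sylowCosetEquiv P
  constructor
  · intro y hy
    have hpg : IsPGroup p (Subgroup.zpowers y) := by
      rw [IsPGroup.iff_card, Nat.card_zpowers, hy]
      exact ⟨1, (pow_one p).symm⟩
    have hy1 : y ≠ 1 := by
      intro h
      rw [h, orderOf_one] at hy
      exact hp.one_lt.ne hy
    obtain ⟨Q, hQ⟩ := hpg.exists_le_sylow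
    have hyQ : y ∈ (Q : Subgroup G) := hQ (Subgroup.mem_zpowers y)
    rw [Nat.card_eq_one_iff_exists]
    have hfix : y • Q = Q := Sylow.smul_eq_iff_mem_normalizer.mpr (Subgroup.le_normalizer hyQ)
    refine ⟨⟨e.symm Q, ?_⟩, ?_⟩
    · show y • e.symm Q = e.symm Q
      apply e.injective
      rw [sylowCosetEquiv_smul]
      show y • e (e.symm Q) = e (e.symm Q)
      rw [Equiv.apply_symm_apply]
      exact hfix
    · rintro ⟨z, hz⟩
      apply Subtype.ext
      show z = e.symm Q
      rw [Equiv.eq_symm_apply]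
      have h1 : y • e z = e z := by
        rw [← sylowCosetEquiv_smul]
        exact congrArg e hz
      have h2 : y ∈ ((e z : Sylow p G) : Subgroup G) := mem_sylow_of_smul_eq hpg h1
      apply Sylow.ext
      rw [← zpowers_eq_of_card_prime hp (hQcard _) h2 hy1, zpowers_eq_of_card_prime hp (hQcard _) hyQ hy1]
  · intro x hxN hxC
    let F : MulAction.fixedBy (G ⧸ N) x → MulAction.orbitRel.Quotient ↥(P : Subgroup G) (G ⧸ N) :=
      fun z => Quotient.mk _ z.1
    apply Nat.card_le_card_of_injective F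
    rintro ⟨z1, hz1⟩ ⟨z2, hz2⟩ hF
    apply Subtype.ext
    show z1 = z2
    have hrel : z1 ∈ MulAction.orbit (P : Subgroup G) z2 := Quotient.exact hF
    obtain ⟨u, hu⟩ := hrel
    have hu' : (u : G) • z2 = z1 := hu
    -- translate to Sylow subgroups
    set Q1 := e z1 with hQ1
    set Q2 := e z2 with hQ2
    have hfix1 : x • Q1 = Q1 := by
      rw [hQ1, ← sylowCosetEquiv_smul]
      exact congrArg e hz1
    have hfix2 : x • Q2 = Q2 := by
      rw [hQ2, ← sylowCosetEquiv_smul]
      exact congrArg e hz2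
    have hQ12 : (u : G) • Q2 = Q1 := by
      rw [hQ1, hQ2, ← sylowCosetEquiv_smul, hu']
    suffices h : Q1 = Q2 from e.injective h
    by_cases hu1 : (u : G) = 1
    · rw [hu1, one_smul] at hQ12
      exact hQ12.symm
    -- the commutator
    let c := x⁻¹ * (u : G) * x * (u : G)⁻¹
    have hcP : c ∈ (P : Subgroup G) := by
      have h1 : x⁻¹ * (u : G) * x ∈ (P : Subgroup G) := by
        have := (Subgroup.mem_normalizer_iff.mp (Subgroup.inv_mem _ hxN) (u : G)).mp u.2
        simpa using this
      exact Subgroup.mul_mem _ h1 (Subgroup.inv_mem _ u.2)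
    have hcfix : c • Q1 = Q1 := by
      show (x⁻¹ * (u : G) * x * (u : G)⁻¹) • Q1 = Q1
      have h1 : (u : G)⁻¹ • Q1 = Q2 := by rw [← hQ12, inv_smul_smul]
      rw [mul_smul, h1, mul_smul, hfix2, mul_smul, hQ12, inv_smul_eq_iff, hfix1]
    have hPfix : ∀ w ∈ (P : Subgroup G), w • P = P := fun w hw =>
      Sylow.smul_eq_iff_mem_normalizer.mpr (Subgroup.le_normalizer hw)
    by_cases hc1 : c = 1
    · exfalso
      apply hxC
      -- x commutes with u, which generates P
      have hcomm : (u : G) * x = x * (u : G) := by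
        have h1 : x⁻¹ * (u : G) * x = (u : G) := by
          have : x⁻¹ * (u : G) * x * (u : G)⁻¹ = 1 := hc1
          exact mul_inv_eq_one.mp this
        calc (u : G) * x = x * (x⁻¹ * (u : G) * x) := by group
          _ = x * (u : G) := by rw [h1]
      have hz : Subgroup.zpowers (u : G) = (P : Subgroup G) :=
        zpowers_eq_of_card_prime hp hP u.2 hu1
      rw [Subgroup.mem_centralizer_iff]
      intro w hw
      have hw' : w ∈ Subgroup.zpowers (u : G) := by rw [hz]; exact hw
      obtain ⟨k, rfl⟩ := hw'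
      exact (Commute.zpow_left (show Commute (u : G) x from hcomm) k)
    · have hcQ1 : c ∈ (Q1 : Subgroup G) := mem_of_mem_sylow_of_smul_eq hcP hcfix
      have hPQ : (P : Subgroup G) = (Q1 : Subgroup G) := by
        rw [← zpowers_eq_of_card_prime hp hP hcP hc1, zpowers_eq_of_card_prime hp (hQcard _) hcQ1 hc1]
      have hQ1P : Q1 = P := Sylow.ext hPQ.symm
      have : (u : G)⁻¹ • Q1 = Q2 := by rw [← hQ12, inv_smul_smul]
      rw [← this, hQ1P]
      exact (hPfix _ (Subgroup.inv_mem _ u.2)).symm

end Cfsg.Agent.S1018
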