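import Cfsg.Statements.S1019
import Mathlib

set_option autoImplicit false
set_option linter.style.haveILetI false
open Cfsg

namespace Cfsg.Agent.S1019

theorem result {G : Type*} [Group G] [Finite G] (H : Subgroup G) (x : G) (hx : x ∈ H) : Nat.card (MulAction.fixedBy (G ⧸ H) x) * Nat.card {g : G // IsConj x g} = H.index * Nat.card {g : G // IsConj x g ∧ g ∈ H} := by
  classical
  haveI := Fintype.ofFinite G
  let C := {g : G // IsConj x g}
  let Ω := G ⧸ H
  haveI : Fintype C := Fintype.ofFinite _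
  haveI : Fintype Ω := Fintype.ofFinite _
  let T := {p : C × Ω // (p.1 : G) • p.2 = p.2}
  have hcoset : ∀ c a : G, c • ((a : G) : G ⧸ H) = ((a : G) : G ⧸ H) ↔ a⁻¹ * c * a ∈ H := by
    intro c a
    rw [MulAction.Quotient.smul_coe, smul_eq_mul, eq_comm, QuotientGroup.eq, mul_assoc]
  -- first count
  have h1 : Nat.card T = Nat.card C * Nat.card (MulAction.fixedBy Ω x) := by
    have e : T ≃ Σ c : C, {ω : Ω // (c : G) • ω = ω} :=
      Equiv.subtypeProdEquivSigmaSubtype (fun (c : C) (ω : Ω) => (c : G) • ω = ω)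
    rw [Nat.card_congr e, Nat.card_sigma]
    have hc : ∀ c : C, Nat.card {ω : Ω // (c : G) • ω = ω} = Nat.card (MulAction.fixedBy Ω x) := by
      intro c
      obtain ⟨a, ha⟩ := isConj_iff.mp c.2
      apply Nat.card_congr
      refine
        { toFun := fun ω => ⟨a⁻¹ • ω.1, ?_⟩
          invFun := fun ω => ⟨a • ω.1, ?_⟩
          left_inv := fun ω => by apply Subtype.ext; simp
          right_inv := fun ω => by apply Subtype.ext; simp }
      · have h2 : (a * x * a⁻¹) • ω.1 = ω.1 := by rw [ha]; exact ω.2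
        show x • a⁻¹ • ω.1 = a⁻¹ • ω.1
        rw [mul_smul, mul_smul] at h2
        rw [eq_inv_smul_iff]
        exact h2
      · have h2 : x • ω.1 = ω.1 := ω.2
        show (c : G) • a • ω.1 = a • ω.1
        rw [← ha, mul_smul, mul_smul, inv_smul_smul, h2]
    simp only [hc]
    simp [Finset.card_univ, Nat.card_eq_fintype_card]
  -- second count
  have h2 : Nat.card T = Nat.card Ω * Nat.card {g : G // IsConj x g ∧ g ∈ H} := by
    have e : T ≃ Σ ω : Ω, {c : C // (c : G) • ω = ω} :=
      (Equiv.subtypeEquivRight (fun p => Iff.rfl) : T ≃ {p : C × Ω // (p.1 : G) • p.2 = p.2}).trans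
      (((Equiv.prodComm C Ω).subtypeEquiv (fun p => Iff.rfl) : {p : C × Ω // (p.1 : G) • p.2 = p.2} ≃ {q : Ω × C // (q.2 : G) • q.1 = q.1}).trans
        (Equiv.subtypeProdEquivSigmaSubtype (fun (ω : Ω) (c : C) => (c : G) • ω = ω)))
    rw [Nat.card_congr e, Nat.card_sigma]
    have hc : ∀ ω : Ω, Nat.card {c : C // (c : G) • ω = ω} = Nat.card {g : G // IsConj x g ∧ g ∈ H} := by
      intro ω
      obtain ⟨a, rfl⟩ := QuotientGroup.mk_surjective ω
      apply Nat.card_congr
      refine
        { toFun := fun c => ⟨a⁻¹ * c.1.1 * a, ?_, ?_⟩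
          invFun := fun g => ⟨⟨a * g.1 * a⁻¹, ?_⟩, ?_⟩
          left_inv := fun c => by
            apply Subtype.ext; apply Subtype.ext
            show a * (a⁻¹ * c.1.1 * a) * a⁻¹ = c.1.1
            group
          right_inv := fun g => by
            apply Subtype.ext
            show a⁻¹ * (a * g.1 * a⁻¹) * a = g.1
            group }
      · obtain ⟨b, hb⟩ := isConj_iff.mp c.1.2
        rw [isConj_iff]
        refine ⟨a⁻¹ * b, ?_⟩
        rw [← hb]; group
      · exact (hcoset c.1.1 a).mp c.2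
      · obtain ⟨b, hb⟩ := isConj_iff.mp g.2.1
        rw [isConj_iff]
        refine ⟨a * b, ?_⟩
        rw [← hb]; group
      · apply (hcoset (a * g.1 * a⁻¹) a).mpr
        have : a⁻¹ * (a * g.1 * a⁻¹) * a = g.1 := by group
        rw [this]
        exact g.2.2
    simp only [hc]
    simp [Finset.card_univ, Nat.card_eq_fintype_card]
  have hΩ : Nat.card Ω = H.index := rfl
  rw [h1, hΩ] at h2
  rw [mul_comm] at h2
  exact h2

end Cfsg.Agent.S1019
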