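import Mathlib
import Cfsg.Agent.Lib.H17.BrK8

set_option autoImplicit false
set_option linter.style.longLine false

open Cfsg

namespace Cfsg.Agent.S1022

open Cfsg.Agent.H17.Brd Cfsg.Agent.H21 Cfsg.Agent.H22

/-- No finite simple group has order 459648 = 2^7 * 3^3 * 7 * 19. -/
theorem result {G : Type*} [Group G] [Finite G] [IsSimpleGroup G] : Nat.card G ≠ 459648 := by
  intro hG
  classical
  haveI : Fact (Nat.Prime 19) := ⟨by norm_num⟩
  haveI : Fact (Nat.Prime 7) := ⟨by norm_num⟩
  haveI := Fintype.ofFinite G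
  haveI := Fintype.ofFinite (IrrCharacter G)
  have hG' : Nat.card G = 19 * 24192 := by rw [hG]
  have hnot : ¬ 19 ∣ 24192 := by norm_num
  obtain ⟨h1, h2, h3⟩ := Cfsg.Agent.H17.Mob.sylow_number (p := 19) (X := G) 24192 (by norm_num) hG' hnot
  have hn := sylow_cases_19 _ (Nat.mem_divisors.2 ⟨h1, by norm_num⟩) h2
  obtain ⟨P⟩ : Nonempty (Sylow 19 G) := inferInstance
  have hpc : ∀ Q : Sylow 19 G, Nat.card Q = 19 := Cfsg.Agent.H17.Mob.card_sylow_eq 24192 hG' hnot
  have hPc := hpc P
  have hcyc : ∀ S : Sylow 19 G, IsCyclic (S : Subgroup G) := fun S => by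
    haveI : Fact (Nat.card (S : Subgroup G)).Prime := by
      rw [hpc S]
      infer_instance
    exact isCyclic_of_prime_card rfl
  obtain ⟨x, hx, hzp⟩ := exists_gen_sylow P hPc
  have hNC := card_normalizer_zpowers (G := G) hx
  rw [hzp] at hNC
  have hRd : (Rs (p := 19) x).card ∣ 18 := card_Rs_dvd hx
  rcases hn with hn | hn | hn
  · exact h3 hn
  · -- 96 Sylow subgroups
    have hN := card_normalizer_of_sylow_number P (n := 96) (m := 4788) hn (by rw [hG]) (by norm_num)
    rw [hN] at hNC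
    have h7 : 7 ∣ Nat.card (Subgroup.centralizer ({x} : Set G)) := by
      have h4 : 7 ∣ (Rs (p := 19) x).card * Nat.card (Subgroup.centralizer ({x} : Set G)) := by
        rw [← hNC]
        norm_num
      rcases (Nat.Prime.dvd_mul (by norm_num)).1 h4 with h5 | h5
      · have h6 := h5.trans hRd
        omega
      · exact h5
    obtain ⟨z, hz⟩ := exists_prime_orderOf_dvd_card' (G := Subgroup.centralizer ({x} : Set G)) 7 h7
    have hz' : orderOf (z : G) = 7 := by rw [Subgroup.orderOf_coe, hz]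
    have hc : Commute (z : G) x := Subgroup.mem_centralizer_singleton_iff.1 z.2
    exact no_seven_in_centralizer hn hpc P hx hzp hz' hc
  · -- 1008 Sylow subgroups
    have hN := card_normalizer_of_sylow_number P (n := 1008) (m := 456) hn (by rw [hG]) (by norm_num)
    rw [hN] at hNC
    have hnp : ¬ (Nat.card G).Prime := by
      rw [hG]
      norm_num
    have hnc := not_comm_of_card (G := G) hnp
    obtain ⟨M, hM⟩ := exists_pModular (p := 19) (by norm_num)
    haveI : M.IsPrime := hM.2.1.isPrime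
    have hRd2 : (Rs (p := 19) x).card ∣ 456 := ⟨_, hNC⟩
    rcases e_cases_19 _ (Nat.mem_divisors.2 ⟨hRd, by norm_num⟩) hRd2 with he | he | he | he
    · -- `e = 1`
      rw [he] at hNC
      exact cent_ne_norm P hPc (by rw [hG]; norm_num) hzp (by rw [hN]; omega)
    · -- `e = 2`
      obtain ⟨d₂, d₃, δ, η, hd2, hd3, hd21, hd31, hδ, hη, hrel, hc2, hc3⟩ :=
        rel_blk_e2 hnc hM P hcyc hPc hx he (by norm_num)
      rw [hG'] at hd2 hd3
      have hm2 : d₂ ∣ 24192 := dvd_of_cong (p := 19) (by norm_num) hd2 hc2 (not_dvd_sign (by norm_num) hδ)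
      have hm3 : d₃ ∣ 24192 := dvd_of_cong (p := 19) (by norm_num) hd3 hc3 (by
        have := not_dvd_small (p := 19) (k := 2) (by norm_num) (by norm_num) hη
        simpa using this)
      have hm2' := mem_Dv19 _ (Nat.mem_divisors.2 ⟨hm2, by norm_num⟩)
      have hm3' := mem_Dv19 _ (Nat.mem_divisors.2 ⟨hm3, by norm_num⟩)
      refine chk2_19 _ hm2' δ (by rcases hδ with rfl | rfl <;> simp) ?_ (by exact_mod_cast hd21) _ hm3' η
        (by rcases hη with rfl | rfl <;> simp) ?_ (by exact_mod_cast hd31) hrel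
      · exact Int.emod_eq_zero_of_dvd (Int.modEq_iff_dvd.1 hc2)
      · exact Int.emod_eq_zero_of_dvd (Int.modEq_iff_dvd.1 hc3)
    · -- `e = 3`
      obtain ⟨d₂, d₃, d₄, δ₂, δ₃, η, hd2, hd3, hd4, hd21, hd31, hd41, hδ₂, hδ₃, hη, hrel, hc2, hc3, hc4⟩ :=
        rel_blk_e3 hnc hM P hcyc hPc hx he (by norm_num)
      rw [hG'] at hd2 hd3 hd4
      have hm2 : d₂ ∣ 24192 := dvd_of_cong (p := 19) (by norm_num) hd2 hc2 (not_dvd_sign (by norm_num) hδ₂)
      have hm3 : d₃ ∣ 24192 := dvd_of_cong (p := 19) (by norm_num) hd3 hc3 (not_dvd_sign (by norm_num) hδ₃)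
      have hm4 : d₄ ∣ 24192 := dvd_of_cong (p := 19) (by norm_num) hd4 hc4 (by
        have := not_dvd_small (p := 19) (k := 3) (by norm_num) (by norm_num) hη
        simpa using this)
      have hm2' := mem_Dv19 _ (Nat.mem_divisors.2 ⟨hm2, by norm_num⟩)
      have hm3' := mem_Dv19 _ (Nat.mem_divisors.2 ⟨hm3, by norm_num⟩)
      have hm4' := mem_Dv19 _ (Nat.mem_divisors.2 ⟨hm4, by norm_num⟩)
      refine chk3_19 _ hm2' δ₂ (by rcases hδ₂ with rfl | rfl <;> simp) ?_ (by exact_mod_cast hd21) _ hm3' δ₃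
        (by rcases hδ₃ with rfl | rfl <;> simp) ?_ (by exact_mod_cast hd31) _ hm4' η
        (by rcases hη with rfl | rfl <;> simp) ?_ (by exact_mod_cast hd41) hrel
      · exact Int.emod_eq_zero_of_dvd (Int.modEq_iff_dvd.1 hc2)
      · exact Int.emod_eq_zero_of_dvd (Int.modEq_iff_dvd.1 hc3)
      · exact Int.emod_eq_zero_of_dvd (Int.modEq_iff_dvd.1 hc4)
    · -- `e = 6`
      have hCc : Nat.card (Subgroup.centralizer ({x} : Set G)) = 76 := by
        rw [he] at hNC
        omega
      have h2C : 2 ∣ Nat.card (Subgroup.centralizer ({x} : Set G)) := by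
        rw [hCc]
        norm_num
      obtain ⟨y, hy⟩ := exists_prime_orderOf_dvd_card' (G := Subgroup.centralizer ({x} : Set G)) 2 h2C
      have hy' : orderOf (y : G) = 2 := by rw [Subgroup.orderOf_coe, hy]
      have hc : Commute x (y : G) := (Subgroup.mem_centralizer_singleton_iff.1 y.2).symm
      have hbig := big_centralizer hG' hM P hcyc hPc hx he hy' hc
      exact no_big_centralizer hG' P hcyc hPc hx hzp hCc hN hy' hc hbig

end Cfsg.Agent.S1022
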