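import Cfsg.Statements.S1054
import Cfsg.Agent.Lib.H04.Chev.Exists4
import Cfsg.Agent.Lib.H04.Chev.Simple

set_option autoImplicit false
open Cfsg

namespace Cfsg.Agent.S1054

/-- The Chevalley groups of types D₄, F₄, E₆, E₇, E₈ are simple over every field. -/
theorem result {F : Type*} [Field F] (D : Cfsg.Lie.ChevalleyDatum)
    (hD : D ∈ [Cfsg.Lie.chevD4, Cfsg.Lie.chevF4, Cfsg.Lie.chevE6, Cfsg.Lie.chevE7, Cfsg.Lie.chevE8]) :
    IsSimpleGroup ↥(D.group F) ∧ ¬ IsMulCommutative ↥(D.group F) := by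
  obtain ⟨T, U, C, C2, C3, C4⟩ := Cfsg.Agent.H04.Chev.exists_tabs4 (List.mem_cons_of_mem _ (List.mem_cons_of_mem _ hD))
  exact Cfsg.Agent.H04.Chev.simple_of C C2 C3 C4 (fun h => absurd h (Cfsg.Agent.H04.Chev.not_G2_B2 hD))

end Cfsg.Agent.S1054
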