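import Mathlib
import Cfsg.Agent.Lib.H01.ChevB2Iso
import Cfsg.Statements.S1058
-- import your own Cfsg.Agent.* helpers here

set_option autoImplicit false
open Cfsg

namespace Cfsg.Agent.S1058


/-- B₂(2) ≅ S₆. -/
theorem result {F : Type*} [Field F] [Fintype F] (hF : Fintype.card F = 2) :
    Nonempty (↥(Cfsg.Lie.chevB2.group F) ≃* Equiv.Perm (Fin 6)) := by
  obtain ⟨e⟩ := Cfsg.Agent.H01.ChevT.group_equiv Cfsg.Lie.chevB2 (ZMod.ringEquivOfPrime F Nat.prime_two hF).symm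
  obtain ⟨e₂⟩ := Cfsg.Agent.H01.ChevB2Iso.zmod2_iso
  exact ⟨e.trans e₂⟩


end Cfsg.Agent.S1058
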