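import Cfsg.Statements.S1060
import Cfsg.Agent.Lib.H04.Chev.Exists5

set_option autoImplicit false
open Cfsg

namespace Cfsg.Agent.S1060

/-- `gcd(2, q-1) · |B₂(q)| = q⁴ (q² - 1)(q⁴ - 1)`. -/
theorem result {F : Type*} [Field F] [Fintype F] {q : ℕ} (hq : Fintype.card F = q) : Nat.gcd 2 (q - 1) * Nat.card ↥(Cfsg.Lie.chevB2.group F) = q ^ 4 * (q ^ 2 - 1) * (q ^ 4 - 1) := by
  have h : Nat.gcd 2 (q - 1) * Nat.card ↥(Cfsg.Lie.chevB2.group F) = q ^ (Cfsg.Lie.chevB2.nroots / 2) * ([2, 4].map fun d => q ^ d - 1).prod :=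
    Cfsg.Agent.H04.Chev.order_gen hq (Cfsg.Lie.chevB2, Nat.gcd 2 (q - 1), [2, 4]) (by simp)
  have hn : Cfsg.Lie.chevB2.nroots / 2 = 4 := by decide +kernel
  simp only [hn, List.map_cons, List.map_nil, List.prod_cons, List.prod_nil, mul_one] at h
  rw [h]
  ring

end Cfsg.Agent.S1060
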