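import Cfsg.Statements.S1065
import Cfsg.Agent.Lib.H04.Chev.Exists5

set_option autoImplicit false
open Cfsg

namespace Cfsg.Agent.S1065

/-- `|E₈(q)| = q¹²⁰ ∏_{d ∈ {2,8,12,14,18,20,24,30}} (q^d - 1)`. -/
theorem result {F : Type*} [Field F] [Fintype F] {q : ℕ} (hq : Fintype.card F = q) : Nat.card ↥(Cfsg.Lie.chevE8.group F) = q ^ 120 * (q ^ 2 - 1) * (q ^ 8 - 1) * (q ^ 12 - 1) * (q ^ 14 - 1) * (q ^ 18 - 1) * (q ^ 20 - 1) * (q ^ 24 - 1) * (q ^ 30 - 1) := by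
  have h : 1 * Nat.card ↥(Cfsg.Lie.chevE8.group F) = q ^ (Cfsg.Lie.chevE8.nroots / 2) * ([2, 8, 12, 14, 18, 20, 24, 30].map fun d => q ^ d - 1).prod :=
    Cfsg.Agent.H04.Chev.order_gen hq (Cfsg.Lie.chevE8, 1, [2, 8, 12, 14, 18, 20, 24, 30]) (by simp)
  have hn : Cfsg.Lie.chevE8.nroots / 2 = 120 := by decide +kernel
  simp only [hn, List.map_cons, List.map_nil, List.prod_cons, List.prod_nil, mul_one, one_mul] at h
  rw [h]
  ring

end Cfsg.Agent.S1065
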