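import Mathlib
import Cfsg.Statements.S1069
import Cfsg.Agent.Lib.H10.ReeTw

set_option autoImplicit false

open Cfsg

namespace Cfsg.Agent.S1069

theorem result {K : Type*} [Field K] [Fintype K] {m : ℕ} (hK : Fintype.card K = 3 ^ (2 * m + 1)) :
    Nat.card ↥(Cfsg.Lie.twistedG2 K (3 ^ m)) = (3 ^ (2 * m + 1)) ^ 3 * (3 ^ (2 * m + 1) - 1) * ((3 ^ (2 * m + 1)) ^ 3 + 1) := by
  have := H10.ree_charP hK
  have hf := H10.reeF_tits hK
  rw [Nat.card_congr (H10.reeIso hK).toEquiv, H10.card_reeFix _ hf, hK]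

end Cfsg.Agent.S1069
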