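import Mathlib
import Cfsg.Statements.S1073
import Cfsg.Agent.Lib.H10.ReeSimple

set_option autoImplicit false

open Cfsg

namespace Cfsg.Agent.S1073

theorem result {K : Type*} [Field K] [Fintype K] {m : ℕ} (hm : 1 ≤ m) (hK : Fintype.card K = 3 ^ (2 * m + 1)) :
    IsSimpleGroup ↥(Cfsg.Lie.twistedG2 K (3 ^ m)) ∧ ¬ IsMulCommutative ↥(Cfsg.Lie.twistedG2 K (3 ^ m)) := by
  have := H10.ree_charP hK
  refine ⟨H10.t_simple hK hm, fun hc => ?_⟩
  have h1 := H10.t_perfect hK hm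
  have h2 : commutator ↥(Cfsg.Lie.twistedG2 K (3 ^ m)) = ⊥ := by
    rw [commutator_def, Subgroup.commutator_eq_bot_iff_le_centralizer]
    intro x _ y _
    exact hc.is_comm.comm x y ▸ rfl
  have h3 := H10.t_simple hK hm
  exact bot_ne_top (h2.symm.trans h1)

end Cfsg.Agent.S1073
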