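import Cfsg.Statements.S1081
import Cfsg.Agent.Lib.H04.Tw.GraphAut

set_option autoImplicit false
open Cfsg

namespace Cfsg.Agent.S1081

open Cfsg Cfsg.Lie Cfsg.Agent.H04.Tw

set_option linter.style.haveILetI false
set_option linter.unusedVariables false
set_option linter.unusedSectionVars false
set_option linter.unusedSimpArgs false


/-- Graph automorphisms: for E₆ with ρ = (p₁ p₆)(p₃ p₅) and for D₄ with ρ the 3-cycle on the outer nodes there is a group automorphism sending `x_p(t) ↦ x_{ρ(p)}(t)` and `x_{-p}(t) ↦ x_{-ρ(p)}(t)` for every fundamental root `p`. -/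
theorem result {F : Type*} [Field F] (p : Cfsg.Lie.ChevalleyDatum × List ℕ)
    (hp : p ∈ [(Cfsg.Lie.chevE6, [5, 1, 4, 3, 2, 0]), (Cfsg.Lie.chevD4, [2, 1, 3, 0]), (Cfsg.Lie.chevD4, [3, 1, 0, 2])]) :
    ∃ α : ↥(p.1.group F) ≃* ↥(p.1.group F), ∀ (g : ↥(p.1.group F)) (i : ℕ) (t : F), i < p.1.rank →
      (((g : GL p.1.Idx F) : Matrix p.1.Idx p.1.Idx F) = p.1.x F (p.1.simple i) t →
        ((α g : GL p.1.Idx F) : Matrix p.1.Idx p.1.Idx F) = p.1.x F (p.1.simple (p.2.getD i 0)) t) ∧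
      (((g : GL p.1.Idx F) : Matrix p.1.Idx p.1.Idx F) = p.1.x F (p.1.neg (p.1.simple i)) t →
        ((α g : GL p.1.Idx F) : Matrix p.1.Idx p.1.Idx F) = p.1.x F (p.1.neg (p.1.simple (p.2.getD i 0))) t) := by
  simp only [List.mem_cons, List.not_mem_nil, or_false] at hp
  rcases hp with rfl | rfl | rfl
  · refine ⟨graphAut Cfsg.Agent.H04.Chev.TE6.checks Cfsg.Agent.H04.Tw.TE6.twT, fun g i t hi => ?_⟩
    have h1 : ([5, 1, 4, 3, 2, 0] : List ℕ).getD i 0 = Cfsg.Agent.H04.Tw.TE6.rho i := by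
      have hi' : i < 6 := hi
      interval_cases i <;> rfl
    simp only [h1]
    exact graphAut_apply Cfsg.Agent.H04.Chev.TE6.checks Cfsg.Agent.H04.Tw.TE6.twT Cfsg.Agent.H04.Tw.TE6.jT hi
  · refine ⟨graphAut Cfsg.Agent.H04.Chev.TD4.checks Cfsg.Agent.H04.Tw.TD4.twT, fun g i t hi => ?_⟩
    have h1 : ([2, 1, 3, 0] : List ℕ).getD i 0 = Cfsg.Agent.H04.Tw.TD4.rho i := by
      have hi' : i < 4 := hi
      interval_cases i <;> rfl
    simp only [h1]
    exact graphAut_apply Cfsg.Agent.H04.Chev.TD4.checks Cfsg.Agent.H04.Tw.TD4.twT Cfsg.Agent.H04.Tw.TD4.jT hi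
  · refine ⟨(graphAut Cfsg.Agent.H04.Chev.TD4.checks Cfsg.Agent.H04.Tw.TD4.twT).symm, fun g i t hi => ?_⟩
    have hi' : i < 4 := hi
    have h1 : ([3, 1, 0, 2] : List ℕ).getD i 0 = Cfsg.Agent.H04.Tw.TD4.rhoI i := by
      interval_cases i <;> rfl
    have h2 : Cfsg.Agent.H04.Tw.TD4.rhoI i < 4 := by
      interval_cases i <;> decide
    simp only [h1]
    exact graphAut_symm_apply Cfsg.Agent.H04.Chev.TD4.checks Cfsg.Agent.H04.Tw.TD4.twT Cfsg.Agent.H04.Tw.TD4.jT hi h2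

end Cfsg.Agent.S1081
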