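import Cfsg.Statements.S1085
import Cfsg.Agent.Lib.H04.Tw.E6H

set_option autoImplicit false
open Cfsg

namespace Cfsg.Agent.S1085

open Cfsg Cfsg.Lie Cfsg.Agent.H04.Chev Cfsg.Agent.H04.Tw Cfsg.Agent.H04.Chev.TE6

set_option linter.style.haveILetI false
set_option linter.unusedVariables false
set_option linter.unusedSectionVars false
set_option linter.unusedSimpArgs false


/-- ²E₆(q) has a (B,N)-pair: B¹ = G¹ ∩ B and N¹ = G¹ ∩ N, intersections with the ambient Chevalley group's B = UH and N. -/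
theorem result {K : Type*} [Field K] [Fintype K] {q : ℕ} (hq : IsPrimePow q) (hK : Fintype.card K = q ^ 2) :
    ∃ P : Cfsg.BNPair ↥(Cfsg.Lie.twistedE6 K q),
      P.B = (Cfsg.Lie.chevE6.borelSubgroup K ⊓ Cfsg.Lie.twistedE6 K q).subgroupOf (Cfsg.Lie.twistedE6 K q) ∧
      P.N = (Cfsg.Lie.chevE6.monomialSubgroup K ⊓ Cfsg.Lie.twistedE6 K q).subgroupOf (Cfsg.Lie.twistedE6 K q) := by
  obtain ⟨f, hf⟩ := exists_frob hq (d := 1) hK
  have hff : ∀ t, f (f t) = t := fun t => frob_order hK hf t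
  exact ⟨bnT checks checks2 checks3 Cfsg.Agent.H04.Tw.TE6.twT f Cfsg.Agent.H04.Tw.TE6.jT Cfsg.Agent.H04.Tw.TE6.jT2 Cfsg.Agent.H04.Tw.TE6.clT' (Cfsg.Agent.H04.Tw.TE6.gsh hf hff) (Cfsg.Agent.H04.Tw.TE6.GS_eq' hf hff) (by decide) Cfsg.Agent.H04.Tw.TE6.LJ, rfl, rfl⟩

end Cfsg.Agent.S1085
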