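import Cfsg.Statements.S1087
import Cfsg.Agent.Lib.H04.Tw.D4H

set_option autoImplicit false
open Cfsg

namespace Cfsg.Agent.S1087

open Cfsg Cfsg.Lie Cfsg.Agent.H04.Chev Cfsg.Agent.H04.Tw Cfsg.Agent.H04.Chev.TD4

set_option linter.style.haveILetI false
set_option linter.unusedVariables false
set_option linter.unusedSectionVars false
set_option linter.unusedSimpArgs false


/-- ³D₄(q) has a (B,N)-pair: B¹ = G¹ ∩ B and N¹ = G¹ ∩ N, intersections with the ambient Chevalley group's B = UH and N. -/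
theorem result {K : Type*} [Field K] [Fintype K] {q : ℕ} (hq : IsPrimePow q) (hK : Fintype.card K = q ^ 3) :
    ∃ P : Cfsg.BNPair ↥(Cfsg.Lie.twistedD4 K q),
      P.B = (Cfsg.Lie.chevD4.borelSubgroup K ⊓ Cfsg.Lie.twistedD4 K q).subgroupOf (Cfsg.Lie.twistedD4 K q) ∧
      P.N = (Cfsg.Lie.chevD4.monomialSubgroup K ⊓ Cfsg.Lie.twistedD4 K q).subgroupOf (Cfsg.Lie.twistedD4 K q) := by
  obtain ⟨f, hf⟩ := exists_frob hq (d := 2) hK
  have hff : ∀ t, f (f (f t)) = t := fun t => frob_order hK hf t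
  exact ⟨bnT checks checks2 checks3 Cfsg.Agent.H04.Tw.TD4.twT f Cfsg.Agent.H04.Tw.TD4.jT Cfsg.Agent.H04.Tw.TD4.jT2 Cfsg.Agent.H04.Tw.TD4.clT' (Cfsg.Agent.H04.Tw.TD4.gsh hf hff) (Cfsg.Agent.H04.Tw.TD4.GS_eq' hf hff) (by decide) Cfsg.Agent.H04.Tw.TD4.LJ, rfl, rfl⟩

end Cfsg.Agent.S1087
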