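import Cfsg.Statements.S1088
import Cfsg.Agent.Lib.H04.Tw.D4Inst

set_option autoImplicit false
open Cfsg

namespace Cfsg.Agent.S1088

open Cfsg Cfsg.Lie Cfsg.Agent.H04.Chev Cfsg.Agent.H04.Tw Cfsg.Agent.H04.Chev.TD4

set_option linter.style.haveILetI false
set_option linter.unusedVariables false
set_option linter.unusedSectionVars false
set_option linter.unusedSimpArgs false


/-- |U¹| = |G¹ ∩ U| = q ^ 12 for ³D₄(q). -/
theorem result {K : Type*} [Field K] [Fintype K] {q : ℕ} (hq : IsPrimePow q) (hK : Fintype.card K = q ^ 3) :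
    Nat.card ↥(Cfsg.Lie.chevD4.posUnipotent K ⊓ Cfsg.Lie.twistedD4 K q) = q ^ 12 := by
  have hq1 : 1 ≤ q := hq.one_lt.le
  obtain ⟨f, hf⟩ := exists_frob hq (d := 2) hK
  have hff : ∀ t, f (f (f t)) = t := fun t => frob_order hK hf t
  have := card_U_GS checks checks2 checks3 Cfsg.Agent.H04.Tw.TD4.twT f Cfsg.Agent.H04.Tw.TD4.jT Cfsg.Agent.H04.Tw.TD4.clT' (Cfsg.Agent.H04.Tw.TD4.gsh hf hff) (by decide) Cfsg.Agent.H04.Tw.TD4.LJ Cfsg.Agent.H04.Tw.TD4.upC hq1 hK hf Cfsg.Agent.H04.Tw.TD4.kinds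
  exact this

end Cfsg.Agent.S1088
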