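import Mathlib
import Cfsg.Statements.S1091
import Cfsg.Agent.Lib.H10.ReeBN

set_option autoImplicit false

open Cfsg

namespace Cfsg.Agent.S1091

theorem result {K : Type*} [Field K] [Fintype K] {m : ℕ} (hK : Fintype.card K = 3 ^ (2 * m + 1)) :
    ∃ P : Cfsg.BNPair ↥(Cfsg.Lie.twistedG2 K (3 ^ m)),
      P.B = (Cfsg.Lie.chevG2.borelSubgroup K ⊓ Cfsg.Lie.twistedG2 K (3 ^ m)).subgroupOf (Cfsg.Lie.twistedG2 K (3 ^ m)) ∧
      P.N = (Cfsg.Lie.chevG2.monomialSubgroup K ⊓ Cfsg.Lie.twistedG2 K (3 ^ m)).subgroupOf (Cfsg.Lie.twistedG2 K (3 ^ m)) := by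
  have := H10.ree_charP hK
  exact ⟨H10.tBN hK, rfl, rfl⟩

end Cfsg.Agent.S1091
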