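import Cfsg.Statements.S1093
import Cfsg.Agent.Lib.H04.Chev.Exists5

set_option autoImplicit false
open Cfsg

namespace Cfsg.Agent.S1093

/-- `|W(E₆)| = 51840`, `|W(E₇)| = 2903040`, `|W(E₈)| = 696729600` for Mathlib's presented Coxeter groups. -/
theorem result (p : (Σ n : ℕ, CoxeterMatrix (Fin n)) × ℕ)
    (hp : p ∈ [(⟨6, CoxeterMatrix.E₆⟩, 51840), (⟨7, CoxeterMatrix.E₇⟩, 2903040), (⟨8, CoxeterMatrix.E₈⟩, 696729600)]) :
    Nat.card p.1.2.Group = p.2 := by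
  simp only [List.mem_cons, List.not_mem_nil, or_false] at hp
  rcases hp with rfl | rfl | rfl
  · obtain ⟨T, U, C, C2, C3, hn, H⟩ := Cfsg.Agent.H04.Chev.cox_all (Cfsg.Lie.chevE6, ⟨6, CoxeterMatrix.E₆⟩, 12, 51840) (by simp)
    exact Cfsg.Agent.H04.Chev.card_coxeter C C2 C3 H
  · obtain ⟨T, U, C, C2, C3, hn, H⟩ := Cfsg.Agent.H04.Chev.cox_all (Cfsg.Lie.chevE7, ⟨7, CoxeterMatrix.E₇⟩, 18, 2903040) (by simp)
    exact Cfsg.Agent.H04.Chev.card_coxeter C C2 C3 H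
  · obtain ⟨T, U, C, C2, C3, hn, H⟩ := Cfsg.Agent.H04.Chev.cox_all (Cfsg.Lie.chevE8, ⟨8, CoxeterMatrix.E₈⟩, 30, 696729600) (by simp)
    exact Cfsg.Agent.H04.Chev.card_coxeter C C2 C3 H

end Cfsg.Agent.S1093
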