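import Mathlib
import Cfsg.Statements.S1099
import Cfsg.Agent.Lib.H10.ReeRho

set_option autoImplicit false

open Cfsg

namespace Cfsg.Agent.S1099

theorem result {K : Type*} [Field K] [CharP K 3] (hperf : ∀ x : K, ∃ y : K, y ^ 3 = x) :
    ∃ α : ↥(Cfsg.Lie.chevG2.group K) ≃* ↥(Cfsg.Lie.chevG2.group K), ∀ (g : ↥(Cfsg.Lie.chevG2.group K)) (t : K),
      (((g : GL Cfsg.Lie.chevG2.Idx K) : Matrix _ _ K) = Cfsg.Lie.chevG2.x K Cfsg.Lie.g2a t →
        ((α g : GL Cfsg.Lie.chevG2.Idx K) : Matrix _ _ K) = Cfsg.Lie.chevG2.x K Cfsg.Lie.g2b (t ^ 3)) ∧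
      (((g : GL Cfsg.Lie.chevG2.Idx K) : Matrix _ _ K) = Cfsg.Lie.chevG2.x K Cfsg.Lie.g2b t →
        ((α g : GL Cfsg.Lie.chevG2.Idx K) : Matrix _ _ K) = Cfsg.Lie.chevG2.x K Cfsg.Lie.g2a t) ∧
      (((g : GL Cfsg.Lie.chevG2.Idx K) : Matrix _ _ K) = Cfsg.Lie.chevG2.x K Cfsg.Lie.g2ma t →
        ((α g : GL Cfsg.Lie.chevG2.Idx K) : Matrix _ _ K) = Cfsg.Lie.chevG2.x K Cfsg.Lie.g2mb (t ^ 3)) ∧
      (((g : GL Cfsg.Lie.chevG2.Idx K) : Matrix _ _ K) = Cfsg.Lie.chevG2.x K Cfsg.Lie.g2mb t →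
        ((α g : GL Cfsg.Lie.chevG2.Idx K) : Matrix _ _ K) = Cfsg.Lie.chevG2.x K Cfsg.Lie.g2ma t) := by
  haveI := H10.G2_simple (K := K)
  let f : K →+* K := RingHom.id K
  have hker : (H10.reeSig f).ker = ⊥ := by
    rcases (H10.reeSig f).normal_ker.eq_bot_or_eq_top with h | h
    · exact h
    · exfalso
      have h1 : H10.rG (r := 6) (by decide) (1 : K) ∈ (H10.reeSig f).ker := by rw [h]; trivial
      rw [MonoidHom.mem_ker, H10.reeSig_rG] at h1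
      have h2 := congrArg (fun g => ((H10.ree1 g : GL (Fin 7) K) : Matrix (Fin 7) (Fin 7) K) 3 4) h1
      simp only [H10.ree1_x, map_one, Units.val_one] at h2
      simp [H10.reeM, H10.reeBar, H10.reeLam, H10.m7a, f] at h2
  have hinj : Function.Injective (H10.reeSig f) := (MonoidHom.ker_eq_bot_iff _).mp hker
  have hsurj : Function.Surjective (H10.reeSig f) := by
    rw [← MonoidHom.range_eq_top, eq_top_iff, H10.reeG_closure, Subgroup.closure_le]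
    rintro g ⟨r, hr, t, rfl⟩
    have hb := H10.reeBar_lt hr
    obtain ⟨s, hs⟩ : ∃ s : K, s ^ H10.reeLam (H10.reeBar r) = t := by
      by_cases h3 : H10.reeLam (H10.reeBar r) = 3
      · rw [h3]; exact hperf t
      · have : H10.reeLam (H10.reeBar r) = 1 := by
          interval_cases r <;> first | rfl | exact absurd rfl h3
        rw [this]; exact ⟨t, pow_one t⟩
    refine ⟨H10.rG hb s, ?_⟩
    rw [H10.reeSig_rG]
    have : ∀ (a b : ℕ) (ha : a < 12) (hb : b < 12) (x y : K), a = b → x = y → H10.rG ha x = H10.rG hb y := by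
      rintro a b ha hb x y rfl rfl; rfl
    apply this _ _ _ _ _ _ (H10.reeBar_bar hr)
    simp [f, hs]
  refine ⟨MulEquiv.ofBijective (H10.reeSig f) ⟨hinj, hsurj⟩, ?_⟩
  rintro ⟨g, hg⟩ t
  have key : ∀ (r : ℕ) (hr : r < 12) (s : K) (h : ((⟨g, hg⟩ : ↥(Cfsg.Lie.chevG2.group K)) : GL Cfsg.Lie.chevG2.Idx K).1 = Cfsg.Lie.chevG2.x K r s),
      (⟨g, hg⟩ : ↥(Cfsg.Lie.chevG2.group K)) = H10.rG hr s := by
    intro r hr s h
    apply Subtype.ext
    apply Units.ext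
    exact h
  refine ⟨?_, ?_, ?_, ?_⟩
  · intro h
    rw [key 7 (by decide) t h]
    show ((H10.reeSig f (H10.rG (by decide) t) : ↥(Cfsg.Lie.chevG2.group K)) : GL Cfsg.Lie.chevG2.Idx K).1 = _
    rw [H10.reeSig_rG]
    rfl
  · intro h
    rw [key 6 (by decide) t h]
    show ((H10.reeSig f (H10.rG (by decide) t) : ↥(Cfsg.Lie.chevG2.group K)) : GL Cfsg.Lie.chevG2.Idx K).1 = _
    rw [H10.reeSig_rG]
    show Cfsg.Lie.chevG2.x K 7 (f (t ^ 1)) = _
    simp [f]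
    rfl
  · intro h
    rw [key 4 (by decide) t h]
    show ((H10.reeSig f (H10.rG (by decide) t) : ↥(Cfsg.Lie.chevG2.group K)) : GL Cfsg.Lie.chevG2.Idx K).1 = _
    rw [H10.reeSig_rG]
    rfl
  · intro h
    rw [key 5 (by decide) t h]
    show ((H10.reeSig f (H10.rG (by decide) t) : ↥(Cfsg.Lie.chevG2.group K)) : GL Cfsg.Lie.chevG2.Idx K).1 = _
    rw [H10.reeSig_rG]
    show Cfsg.Lie.chevG2.x K 4 (f (t ^ 1)) = _
    simp [f]
    rfl

end Cfsg.Agent.S1099
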