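import Mathlib
import Cfsg.Statements.S1101
import Cfsg.Agent.Lib.H10.ReeT2

set_option autoImplicit false

open Cfsg

namespace Cfsg.Agent.S1101

theorem result {K : Type*} [Field K] [Fintype K] {m : ℕ} (hK : Fintype.card K = 3 ^ (2 * m + 1)) :
    (∀ g : GL Cfsg.Lie.chevG2.Idx K, g ∈ Cfsg.Lie.chevG2.posUnipotent K ⊓ Cfsg.Lie.twistedG2 K (3 ^ m) ↔
      ∃ t u v : K, (g : Matrix Cfsg.Lie.chevG2.Idx Cfsg.Lie.chevG2.Idx K) = Cfsg.Lie.chevG2.wordMat K (Cfsg.Lie.reeWordU (3 ^ m) t u v)) ∧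
    Nat.card ↥(Cfsg.Lie.chevG2.posUnipotent K ⊓ Cfsg.Lie.twistedG2 K (3 ^ m)) = (3 ^ (2 * m + 1)) ^ 3 := by
  have := H10.ree_charP hK
  refine ⟨fun g => ?_, ?_⟩
  · rw [H10.mem_U1_iff hK]
    constructor
    · rintro ⟨t, u, v, rfl⟩
      exact ⟨t, u, v, (H10.reeWordU_mat t u v).symm⟩
    · rintro ⟨t, u, v, h⟩
      refine ⟨t, u, v, Units.ext ?_⟩
      rw [h, H10.reeWordU_mat]
  · rw [H10.card_U1 hK, hK]

end Cfsg.Agent.S1101
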