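import Mathlib
import Cfsg.Statements.S1114
import Cfsg.Agent.Lib.H10.ReeT2

set_option autoImplicit false

open Cfsg

namespace Cfsg.Agent.S1114

theorem result {K : Type*} [Field K] [Fintype K] {m : ℕ} (hK : Fintype.card K = 3 ^ (2 * m + 1)) :
    Nat.card ↥(Cfsg.Lie.chevG2.diagonalSubgroup K ⊓ Cfsg.Lie.twistedG2 K (3 ^ m)) = 3 ^ (2 * m + 1) - 1 := by
  have := H10.ree_charP hK
  rw [H10.card_H1 hK, hK]

end Cfsg.Agent.S1114
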