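import Mathlib
import Cfsg.Statements.S1115
import Cfsg.Agent.Lib.H10.ReeT3

set_option autoImplicit false

open Cfsg

namespace Cfsg.Agent.S1115

theorem result {K : Type*} [Field K] [Fintype K] {m : ℕ} (hK : Fintype.card K = 3 ^ (2 * m + 1)) :
    ∃ φ : ↥(Cfsg.Lie.chevG2.monomialSubgroup K ⊓ Cfsg.Lie.twistedG2 K (3 ^ m)) →* Multiplicative (ZMod 2), Function.Surjective φ ∧
      φ.ker = (Cfsg.Lie.chevG2.diagonalSubgroup K ⊓ Cfsg.Lie.twistedG2 K (3 ^ m)).subgroupOf (Cfsg.Lie.chevG2.monomialSubgroup K ⊓ Cfsg.Lie.twistedG2 K (3 ^ m)) := by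
  have := H10.ree_charP hK
  exact H10.exists_N_sign hK

end Cfsg.Agent.S1115
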