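import Mathlib
import Cfsg.Statements.S1117
import Cfsg.Agent.Lib.H10.ReeBN

set_option autoImplicit false

open Cfsg

namespace Cfsg.Agent.S1117

theorem result {K : Type*} [Field K] [Fintype K] {m : ℕ} (hK : Fintype.card K = 3 ^ (2 * m + 1)) :
    ((Cfsg.Lie.chevG2.borelSubgroup K ⊓ Cfsg.Lie.twistedG2 K (3 ^ m)).subgroupOf (Cfsg.Lie.twistedG2 K (3 ^ m))).normalCore = ⊥ := by
  have := H10.ree_charP hK
  exact H10.tcore hK

end Cfsg.Agent.S1117
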