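import Mathlib
import Cfsg.Statements.S1151
import Cfsg.Agent.Lib.H10.ReeT3

set_option autoImplicit false

open Cfsg

namespace Cfsg.Agent.S1151

theorem result {K : Type*} [Field K] [Fintype K] {m : ℕ} (hK : Fintype.card K = 3 ^ (2 * m + 1)) :
    2 * Nat.card {h : ↥(Cfsg.Lie.chevG2.diagonalSubgroup K ⊓ Cfsg.Lie.twistedG2 K (3 ^ m)) // Odd (orderOf h)} = 3 ^ (2 * m + 1) - 1 ∧
      ∀ h ∈ (Cfsg.Lie.chevG2.diagonalSubgroup K ⊓ Cfsg.Lie.twistedG2 K (3 ^ m)), h ≠ 1 → Odd (orderOf h) →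
        (Cfsg.Lie.chevG2.posUnipotent K ⊓ Cfsg.Lie.twistedG2 K (3 ^ m)) ⊓ Subgroup.centralizer {h} = ⊥ := by
  have := H10.ree_charP hK
  exact ⟨H10.card_odd_H1 hK, fun h hh h1 h2 => H10.H1_fpf hK h hh h1 h2⟩

end Cfsg.Agent.S1151
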