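import Mathlib
import Cfsg.Statements.S1152
import Cfsg.Agent.Lib.H10.ReeC2

set_option autoImplicit false

open Cfsg

namespace Cfsg.Agent.S1152

theorem result {K : Type*} [Field K] [Fintype K] {m : ℕ} (hK : Fintype.card K = 3 ^ (2 * m + 1))
    (a : ↥(Cfsg.Lie.twistedG2 K (3 ^ m))) (haH : (a : GL Cfsg.Lie.chevG2.Idx K) ∈ Cfsg.Lie.chevG2.diagonalSubgroup K) (ha1 : a ≠ 1) (ha2 : a * a = 1) :
    Nonempty (↥(Subgroup.centralizer {a}) ≃* Multiplicative (ZMod 2) × Matrix.ProjectiveSpecialLinearGroup (Fin 2) K) ∧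
      ∀ S : Sylow 2 ↥(Cfsg.Lie.twistedG2 K (3 ^ m)), Nat.card S = 8 ∧ ∀ x ∈ S, x * x = 1 := by
  have := H10.ree_charP hK
  have h1 : a = H10.tA hK := by
    obtain ⟨β, e⟩ := (H10.mem_H_iff hK a).mp haH
    rw [e] at ha2 ha1
    have h2 : H10.tH hK (β * β) = 1 := by rw [H10.tH_mul]; exact ha2
    rw [← H10.tH_one hK] at h2
    have h3 := H10.tH_inj hK h2
    have h4 : ((β : K) - 1) * ((β : K) + 1) = 0 := by
      have := congrArg Units.val h3
      simp only [Units.val_mul, Units.val_one] at this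
      linear_combination this
    rw [e, H10.tA]
    rcases mul_eq_zero.mp h4 with h5 | h5
    · have : β = 1 := Units.ext (sub_eq_zero.mp h5)
      rw [this, H10.tH_one] at ha1
      exact absurd rfl ha1
    · have : β = -1 := Units.ext (by simpa using eq_neg_of_add_eq_zero_left h5)
      rw [this]
  subst h1
  exact ⟨H10.centralizer_a_equiv hK, H10.sylow2_facts hK⟩

end Cfsg.Agent.S1152
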