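import Cfsg.Statements.S1160
import Cfsg.Agent.Lib.H05.FPF2
-- import your own Cfsg.Agent.* helpers here

set_option autoImplicit false
open Cfsg

namespace Cfsg.Agent.S1160

/-- Let `p ≠ 2` be prime and `P` a finite `p`-group acting faithfully by additive automorphisms on a finite elementary abelian `q`-group `E` (`q` prime), such that `|P_a|` is the same for all `a ≠ 0`. Then `P` is cyclic and every non-identity element of `P` fixes only `0`. -/
theorem result {P E : Type*} [Group P] [Finite P]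
    [AddCommGroup E] [Finite E] [DistribMulAction P E] [FaithfulSMul P E]
    {p q : ℕ} [Fact p.Prime] (hp2 : p ≠ 2) (hP : IsPGroup p P) (hq : q.Prime) (hE : ∀ e : E, q • e = 0)
    (hconst : ∀ a b : E, a ≠ 0 → b ≠ 0 →
      Nat.card (MulAction.stabilizer P a) = Nat.card (MulAction.stabilizer P b)) :
    IsCyclic P ∧ ∀ g : P, g ≠ 1 → ∀ a : E, g • a = a → a = 0 := by
  classical
  have hpp : p.Prime := Fact.out
  by_cases hqp : q = p
  · subst hqp
    haveI := H05.fpf_same (E := E) hP hE hconst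
    refine ⟨inferInstance, fun g hg => absurd (Subsingleton.elim g 1) hg⟩
  have hcop : Nat.Coprime p q := (Nat.coprime_primes hpp hq).mpr (Ne.symm hqp)
  have hcyc : IsCyclic P := H05.fpf_cyclic (E := E) hp2 hP hcop hq hE hconst
  refine ⟨hcyc, ?_⟩
  intro g hg a ha
  obtain ⟨k, hk⟩ := hP g
  obtain ⟨j, -, hj⟩ := (Nat.dvd_prime_pow hpp).mp (orderOf_dvd_of_pow_eq_one hk)
  have hj1 : j ≠ 0 := by
    rintro rfl
    rw [pow_zero] at hj
    exact hg (orderOf_eq_one_iff.mp hj)
  obtain ⟨i, rfl⟩ : ∃ i, j = i + 1 := ⟨j - 1, by omega⟩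
  set y := g ^ (p ^ i) with hy
  have hyp : y ^ p = 1 := by
    rw [hy, ← pow_mul, ← pow_succ, ← hj]
    exact pow_orderOf_eq_one g
  have hy1 : y ≠ 1 := by
    intro h
    have h1 := orderOf_dvd_of_pow_eq_one h
    rw [hj] at h1
    have h2 := (Nat.pow_dvd_pow_iff_le_right hpp.one_lt).mp h1
    omega
  have hyc : ∀ h : P, h * y = y * h := fun h => IsCyclic.commGroup.mul_comm h y
  have hya : y • a = a := H05.fix_of_mem_zpowers (Subgroup.pow_mem _ (Subgroup.mem_zpowers g) _) ha
  exact H05.fpf_central (E := E) hcop hq hE hconst hyc hyp hy1 a hya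


end Cfsg.Agent.S1160
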