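import Cfsg.Statements.S1167
import Mathlib
import Cfsg.Agent.S0731
import Cfsg.Agent.S0738
import Cfsg.Agent.S0740

set_option autoImplicit false
set_option linter.style.haveILetI false
set_option linter.unusedVariables false
set_option linter.unusedSimpArgs false
open Cfsg

namespace Cfsg.Agent.S1167

open MulAction

/-- Let `G` be a finite simple Zassenhaus group on `Ω`, `U` a normal subgroup of `G_a` regular on `Ω` minus `a` which is an abelian 2-group, and `v` an involution with `v • a ≠ a`. Then there is a unique `u₀ ∈ U`, `u₀ ≠ 1`, with `v u₀ v = u₀ v u₀`. -/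
theorem result {G Ω : Type*} [Group G] [Finite G] [MulAction G Ω] [Finite Ω]
    (hZ : Cfsg.IsZassenhausGroup G Ω) [IsSimpleGroup G] {a : Ω}
    (U : Subgroup G) (hUle : U ≤ MulAction.stabilizer G a)
    (hUn : ∀ h ∈ MulAction.stabilizer G a, ∀ u ∈ U, h * u * h⁻¹ ∈ U)
    (hreg : ∀ c d : Ω, c ≠ a → d ≠ a → ∃! u : U, (u : G) • c = d)
    (hU2 : IsPGroup 2 U) (hUab : ∀ u ∈ U, ∀ u' ∈ U, u * u' = u' * u)
    (v : G) (hv1 : v ≠ 1) (hv2 : v * v = 1) (hva : v • a ≠ a) :
    ∃! u₀ : G, u₀ ∈ U ∧ u₀ ≠ 1 ∧ v * u₀ * v = u₀ * v * u₀ := by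
  classical
  letI : Fintype Ω := Fintype.ofFinite Ω
  obtain ⟨hfaith, h2, h3, hne, -⟩ := id hZ
  set b : Ω := v • a with hb
  have hba : b ≠ a := hva
  have hvb : v • b = a := by
    rw [hb, ← mul_smul, hv2, one_smul]
  -- cardinality of `U`
  have hUcard : Nat.card U + 1 = Fintype.card Ω := by
    have hbij : Function.Bijective (fun u : U => (⟨(u : G) • b, by
        intro h
        have h5 : (u : G) • a = a := hUle u.2
        exact hba (MulAction.injective (u : G) (h.trans h5.symm))⟩ : {z : Ω // z ≠ a})) := by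
      constructor
      · intro u u' he
        have h4 : (u : G) • b = (u' : G) • b := congrArg Subtype.val he
        obtain ⟨w, -, hw⟩ := hreg b ((u : G) • b) hba (by
          intro h
          have h5 : (u : G) • a = a := hUle u.2
          exact hba (MulAction.injective (u : G) (h.trans h5.symm)))
        rw [hw u rfl, hw u' h4.symm]
      · intro z
        obtain ⟨w, hw, -⟩ := hreg b z.1 hba z.2
        exact ⟨w, Subtype.ext hw⟩
    have hc := Nat.card_congr (Equiv.ofBijective _ hbij)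
    rw [hc, Nat.card_eq_fintype_card, Fintype.card_subtype_compl]
    simp only [Fintype.card_subtype_eq]
    have : 0 < Fintype.card Ω := Fintype.card_pos_iff.mpr ⟨a⟩
    omega
  have hne3 : 3 ≤ Fintype.card Ω := by
    obtain ⟨-, -, -, hne'⟩ := Cfsg.Agent.H03.ZS.zass_facts hZ
    obtain ⟨h₀, hh₀, hh₀a, hh₀b⟩ := hne' a b hba.symm
    obtain ⟨c, hc⟩ : ∃ c : Ω, h₀ • c ≠ c := by
      by_contra hcon
      push Not at hcon
      exact hh₀ (hfaith.eq_of_smul_eq_smul (fun x => by rw [hcon x, one_smul]))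
    have hca : c ≠ a := by
      rintro rfl
      exact hc hh₀a
    have hcb : c ≠ b := by
      rintro rfl
      exact hc hh₀b
    have h4 : ({a, b, c} : Finset Ω).card = 3 := by
      rw [Finset.card_insert_of_notMem, Finset.card_insert_of_notMem, Finset.card_singleton]
      · simpa using hcb.symm
      · simp [hba.symm, hca.symm]
    rw [← h4]
    exact Finset.card_le_univ _
  obtain ⟨m, hm⟩ := IsPGroup.iff_card.mp hU2
  have hm0 : m ≠ 0 := by
    rintro rfl
    rw [pow_zero] at hm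
    omega
  have hoddΩ : Odd (Fintype.card Ω) := by
    rw [← hUcard, hm]
    exact Even.add_one ((Nat.even_pow.mpr ⟨even_two, hm0⟩))
  have h3' : ∀ (g : G) (x y z : Ω), x ≠ y → y ≠ z → x ≠ z → g • x = x → g • y = y → g • z = z → g = 1 :=
    h3
  have hodd : Odd (Nat.card ↥(stabilizer G a ⊓ stabilizer G b : Subgroup G)) := by
    have hdvd := Cfsg.Agent.H03.ZS.card_dvd_sub_two h3' hba.symm
    have h5 : Odd (Fintype.card Ω - 2) := by
      obtain ⟨k, hk⟩ := hoddΩ
      exact ⟨k - 1, by omega⟩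
    exact Odd.of_dvd_nat h5 hdvd
  have hUnorm : (U.subgroupOf (stabilizer G a)).Normal := by
    refine ⟨fun n hn g => ?_⟩
    rw [Subgroup.mem_subgroupOf] at hn ⊢
    exact hUn g.1 g.2 n.1 hn
  have hFab : IsMulCommutative U := by
    refine ⟨⟨fun x y => Subtype.ext (hUab x.1 x.2 y.1 y.2)⟩⟩
  have hbound := (Cfsg.Agent.H03.ZC.bound_odd hZ hba.symm U hUle hUnorm hFab hreg hodd).2
  obtain ⟨-, p, f, hp, hexp, -⟩ := Cfsg.Agent.S0738.result hZ hba.symm hbound U hUle hUnorm hreg
  have hsq : ∀ u ∈ U, u * u = 1 := by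
    intro u hu
    by_cases h1 : u = 1
    · rw [h1, mul_one]
    haveI : Fact p.Prime := ⟨hp⟩
    have ho := orderOf_eq_prime (hexp u hu) h1
    obtain ⟨k, hk⟩ := hU2 ⟨u, hu⟩
    have hk' : u ^ 2 ^ k = 1 := congrArg Subtype.val hk
    have hd := orderOf_dvd_of_pow_eq_one hk'
    rw [ho] at hd
    have hp2 : p = 2 := (Nat.prime_dvd_prime_iff_eq hp Nat.prime_two).mp (hp.dvd_of_dvd_pow hd)
    have := hexp u hu
    rw [hp2, pow_two] at this
    exact this
  have hvo : orderOf v = 2 := by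
    haveI : Fact (Nat.Prime 2) := ⟨Nat.prime_two⟩
    exact orderOf_eq_prime (by rw [pow_two, hv2]) hv1
  have hfix := ((Cfsg.Agent.S0740.result hZ hba.symm).2.1 v hvo rfl hvb).1 hoddΩ
  obtain ⟨hsub, ⟨⟨c, hc⟩⟩⟩ := Nat.card_eq_one_iff_unique.mp hfix
  have hvc : v • c = c := hc
  have hca : c ≠ a := by
    rintro rfl
    exact hva hvc
  have hcb : c ≠ b := by
    rintro rfl
    rw [hvb] at hvc
    exact hba hvc.symm
  obtain ⟨u₀, hu₀, huq⟩ := hreg b c hba hca
  have hu₀1 : (u₀ : G) ≠ 1 := by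
    intro h
    rw [h, one_smul] at hu₀
    exact hcb hu₀.symm
  have huc : (u₀ : G) • c = b := by
    rw [← hu₀, ← mul_smul, hsq _ u₀.2, one_smul]
  have hua : (u₀ : G) • a = a := hUle u₀.2
  refine ⟨(u₀ : G), ⟨u₀.2, hu₀1, ?_⟩, ?_⟩
  · have hfixa : (v * u₀ * v) • a = (u₀ * v * u₀ : G) • a := by
      simp only [mul_smul]
      rw [hua, ← hb, hu₀, hvc]
    have hfixb : (v * u₀ * v) • b = (u₀ * v * u₀ : G) • b := by
      simp only [mul_smul]
      rw [hvb, hua, ← hb, hu₀, hvc, huc]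
    have hfixc : (v * u₀ * v) • c = (u₀ * v * u₀ : G) • c := by
      simp only [mul_smul]
      rw [hvc, huc, hvb, hua]
    have h1 : (v * u₀ * v : G)⁻¹ * (u₀ * v * u₀) = 1 := by
      refine h3' _ a b c hba.symm hcb.symm hca.symm ?_ ?_ ?_
      · rw [mul_smul, ← hfixa, inv_smul_smul]
      · rw [mul_smul, ← hfixb, inv_smul_smul]
      · rw [mul_smul, ← hfixc, inv_smul_smul]
    exact (inv_mul_eq_one.mp h1)
  · rintro w ⟨hwU, hw1, hwe⟩
    have hwa : w • a = a := hUle hwU
    have h1 : v • (w • b) = w • b := by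
      have := congrArg (fun g : G => g • a) hwe
      simp only [mul_smul] at this
      rw [hwa, ← hb] at this
      exact this
    have hwfix : w • b ∈ MulAction.fixedBy Ω v := h1
    have h2' : (⟨w • b, hwfix⟩ : MulAction.fixedBy Ω v) = ⟨c, hc⟩ := Subsingleton.elim _ _
    have h3'' : w • b = c := congrArg Subtype.val h2'
    exact congrArg Subtype.val (huq ⟨w, hwU⟩ h3'')

end Cfsg.Agent.S1167
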