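import Cfsg.Statements.S1176
import Cfsg.Agent.Lib.H05.SE3
-- import your own Cfsg.Agent.* helpers here

set_option autoImplicit false
open Cfsg

namespace Cfsg.Agent.S1176

open scoped commutatorElement

/-- Let x₀ be an involution of the finite group G and D its conjugacy class. Assume (a) for each x ∈ D the subgroup W(x) generated by the members of D commuting with x is a 2-group of nilpotency class at most 2, and (b) the product of two distinct commuting members of D again lies in D. Then for all x, y ∈ D, if xy has even order greater than 2, its order is 4. -/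
theorem result {G : Type*} [Group G] [Finite G] (x₀ : G) (hx₀ : orderOf x₀ = 2) (ha : ∀ x : G, IsConj x₀ x → IsPGroup 2 ↥(Subgroup.closure {y : G | IsConj x₀ y ∧ Commute y x}) ∧ ⁅⁅Subgroup.closure {y : G | IsConj x₀ y ∧ Commute y x}, Subgroup.closure {y : G | IsConj x₀ y ∧ Commute y x}⁆, Subgroup.closure {y : G | IsConj x₀ y ∧ Commute y x}⁆ = ⊥) (hb : ∀ x y : G, IsConj x₀ x → IsConj x₀ y → x ≠ y → Commute x y → IsConj x₀ (x * y)) (x y : G) (hx : IsConj x₀ x) (hy : IsConj x₀ y) (heven : Even (orderOf (x * y))) (hgt : 2 < orderOf (x * y)) : orderOf (x * y) = 4 := by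
  have hx₀x : x * x = 1 := by
    obtain ⟨c, rfl⟩ := isConj_iff.mp hx
    have := Cfsg.Agent.H05.mul_self_of_ord hx₀
    calc c * x₀ * c⁻¹ * (c * x₀ * c⁻¹) = c * (x₀ * x₀) * c⁻¹ := by group
      _ = 1 := by rw [this]; group
  have hyy : y * y = 1 := by
    obtain ⟨c, rfl⟩ := isConj_iff.mp hy
    have := Cfsg.Agent.H05.mul_self_of_ord hx₀
    calc c * x₀ * c⁻¹ * (c * x₀ * c⁻¹) = c * (x₀ * x₀) * c⁻¹ := by group
      _ = 1 := by rw [this]; group
  have hxi : x⁻¹ = x := inv_eq_of_mul_eq_one_left hx₀x
  have hyi : y⁻¹ = y := inv_eq_of_mul_eq_one_left hyy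
  set d := x * y with hd
  have hxd : x * d * x = d⁻¹ := by
    rw [hd, mul_inv_rev, hxi, hyi]
    calc x * (x * y) * x = (x * x) * y * x := by group
      _ = y * x := by rw [hx₀x, one_mul]
  have hyd : y * d * y = d⁻¹ := by
    rw [hd, mul_inv_rev, hxi, hyi]
    calc y * (x * y) * y = y * x * (y * y) := by group
      _ = y * x := by rw [hyy, mul_one]
  obtain ⟨m, hm⟩ := heven
  have hm2 : 2 ≤ m := by omega
  have hm' : orderOf d = 2 * m := by omega
  have hrefl : ∀ r : G, r * r = 1 → r * d * r = d⁻¹ → ∀ n : ℕ, r * d ^ n * r = (d ^ n)⁻¹ := by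
    intro r hr hrd n
    have hri : r⁻¹ = r := inv_eq_of_mul_eq_one_left hr
    have h1 : r * d ^ n * r⁻¹ = (r * d * r⁻¹) ^ n := (conj_pow).symm
    rw [hri, hrd] at h1
    rw [h1, inv_pow]
  set u := d ^ m with hu
  have huu : u * u = 1 := by
    rw [hu, ← pow_add, show m + m = orderOf d by omega, pow_orderOf_eq_one]
  have hu1 : u ≠ 1 := by
    intro h3
    have := orderOf_dvd_of_pow_eq_one h3
    have h4 : 0 < m := by omega
    have := Nat.le_of_dvd h4 this
    omega
  have hui : u⁻¹ = u := inv_eq_of_mul_eq_one_left huu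
  have hxu : x * u = u * x := by
    have := hrefl x hx₀x hxd m
    rw [← hu, hui] at this
    calc x * u = x * u * x * x := by simp only [mul_assoc, hx₀x, mul_one]
      _ = u * x := by rw [this]
  have hyu : y * u = u * y := by
    have := hrefl y hyy hyd m
    rw [← hu, hui] at this
    calc y * u = y * u * y * y := by simp only [mul_assoc, hyy, mul_one]
      _ = u * y := by rw [this]
  -- `u x` is a conjugate
  have hgen : ∀ r : G, r * r = 1 → r * d * r = d⁻¹ → IsConj x₀ r → ∀ k : ℕ, IsConj x₀ (d ^ (k + k) * r) := by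
    intro r hr hrd hc k
    refine hc.trans (isConj_iff.mpr ⟨d ^ k, ?_⟩)
    have h1 := hrefl r hr hrd k
    have h2 : r * (d ^ k)⁻¹ = d ^ k * r := by
      calc r * (d ^ k)⁻¹ = r * (r * d ^ k * r) := by rw [h1]
        _ = (r * r) * d ^ k * r := by group
        _ = d ^ k * r := by rw [hr, one_mul]
    calc d ^ k * r * (d ^ k)⁻¹ = d ^ k * (r * (d ^ k)⁻¹) := by group
      _ = d ^ k * (d ^ k * r) := by rw [h2]
      _ = d ^ (k + k) * r := by rw [pow_add]; group
  have hux : IsConj x₀ (u * x) := by
    rcases Nat.even_or_odd' m with ⟨k, hk | hk⟩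
    · have := hgen x hx₀x hxd hx k
      rwa [show k + k = m by omega] at this
    · -- `r = d * x = x * y * x`
      set r := d * x with hr
      have hr2 : r = x * y * x := by rw [hr, hd]
      have hrr : r * r = 1 := by
        rw [hr2]
        calc x * y * x * (x * y * x) = x * y * (x * x) * y * x := by group
          _ = x * (y * y) * x := by rw [hx₀x]; group
          _ = 1 := by rw [hyy, mul_one, hx₀x]
      have hrd : r * d * r = d⁻¹ := by
        rw [hr2]
        have : x * y * x * d * (x * y * x) = x * (y * (x * d * x) * y) * x := by group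
        rw [this, hxd]
        have h5 : y * d⁻¹ * y = (y * d * y)⁻¹ := by
          have e : (y * d * y)⁻¹ = y⁻¹ * d⁻¹ * y⁻¹ := by group
          rw [e, hyi]
        rw [h5, hyd, inv_inv, hxd]
      have hrc : IsConj x₀ r := by
        rw [hr2]
        refine hy.trans (isConj_iff.mpr ⟨x, ?_⟩)
        rw [hxi]
      have := hgen r hrr hrd hrc k
      rw [hr] at this
      have h6 : d ^ (k + k) * (d * x) = u * x := by
        rw [hu, hk, ← mul_assoc, ← pow_succ, show 2 * k + 1 = k + k + 1 by omega]
      rwa [h6] at this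
  -- `u` is a conjugate
  have huc : IsConj x₀ u := by
    have hne : x ≠ u * x := by
      intro h3
      apply hu1
      have : u = (u * x) * x⁻¹ := by group
      rw [this, ← h3, mul_inv_cancel]
    have hcm : Commute x (u * x) := by
      show x * (u * x) = (u * x) * x
      rw [← mul_assoc, hxu]
    have := hb x (u * x) hx hux hne hcm
    have h7 : x * (u * x) = u := by
      rw [← mul_assoc, hxu, mul_assoc, hx₀x, mul_one]
    rwa [h7] at this
  -- now the class two hypothesis
  set W := Subgroup.closure {z : G | IsConj x₀ z ∧ Commute z u} with hW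
  have hxW : x ∈ W := Subgroup.subset_closure ⟨hx, hxu⟩
  have hyW : y ∈ W := Subgroup.subset_closure ⟨hy, hyu⟩
  have hcl := (ha u huc).2
  have h8 : ⁅x, y⁆ ∈ ⁅W, W⁆ := Subgroup.commutator_mem_commutator hxW hyW
  have h9 : ⁅⁅x, y⁆, x⁆ ∈ ⁅⁅W, W⁆, W⁆ := Subgroup.commutator_mem_commutator h8 hxW
  rw [hcl, Subgroup.mem_bot] at h9
  have h10 : ⁅x, y⁆ = d * d := by
    rw [commutatorElement_def, hxi, hyi, hd]
    group
  rw [h10, commutatorElement_def, hxi] at h9
  -- `d^4 = 1`
  have h11 : d ^ 4 = 1 := by
    have h12 : x * (d * d)⁻¹ * x = d * d := by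
      rw [mul_inv_rev]
      calc x * (d⁻¹ * d⁻¹) * x = (x * d⁻¹ * x) * (x * d⁻¹ * x) := by
            have : x * d⁻¹ * x * (x * d⁻¹ * x) = x * d⁻¹ * (x * x) * d⁻¹ * x := by group
            rw [this, hx₀x]
            group
        _ = d * d := by
            have h13 : x * d⁻¹ * x = d := by
              have : x * d⁻¹ * x = (x * d * x)⁻¹ := by
                have e : (x * d * x)⁻¹ = x⁻¹ * d⁻¹ * x⁻¹ := by group
                rw [e, hxi]
              rw [this, hxd, inv_inv]
            rw [h13]
    have h14 : d * d * x * (d * d)⁻¹ * x = d * d * (x * (d * d)⁻¹ * x) := by group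
    rw [h14, h12] at h9
    calc d ^ 4 = d * d * (d * d) := by simp only [pow_succ, pow_zero, one_mul, mul_assoc]
      _ = 1 := h9
  have h15 : orderOf d ∣ 4 := orderOf_dvd_of_pow_eq_one h11
  have h16 : orderOf d ≤ 4 := Nat.le_of_dvd (by decide) h15
  interval_cases h17 : orderOf d <;> omega

end Cfsg.Agent.S1176
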