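import Cfsg.Statements.S1177
-- import your own Cfsg.Agent.* helpers here

set_option autoImplicit false
open Cfsg

namespace Cfsg.Agent.S1177

/-- Let A be a nontrivial elementary abelian 2-subgroup of a finite group G which is a T.I. set (each conjugate of A meets A trivially or equals A) and which does not commute elementwise with any conjugate of A other than A itself. Then for every a ∈ A, a ≠ 1, every conjugate of A contained in C_G(a) is equal to A (A is weakly closed in C_G(a)). -/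
theorem result {G : Type*} [Group G] [Finite G] (A : Subgroup G) (hA : Cfsg.IsElementaryAbelian 2 A) (hA1 : A ≠ ⊥) (hTI : ∀ g : G, A.map (MulAut.conj g).toMonoidHom ⊓ A = ⊥ ∨ A.map (MulAut.conj g).toMonoidHom = A) (hb : ∀ g : G, (∀ a ∈ A, ∀ b ∈ A.map (MulAut.conj g).toMonoidHom, a * b = b * a) → A.map (MulAut.conj g).toMonoidHom = A) (a : G) (ha : a ∈ A) (ha1 : a ≠ 1) (g : G) (hg : A.map (MulAut.conj g).toMonoidHom ≤ Subgroup.centralizer ({a} : Set G)) : A.map (MulAut.conj g).toMonoidHom = A := by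
  -- normalizing criterion
  have hN : ∀ (h y : G), y ∈ A → y ≠ 1 → h * y * h⁻¹ ∈ A → ∀ z ∈ A, h * z * h⁻¹ ∈ A := by
    intro h y hy hy1 hhy z hz
    rcases hTI h with h1 | h1
    · exfalso
      have h2 : h * y * h⁻¹ ∈ A.map (MulAut.conj h).toMonoidHom ⊓ A :=
        Subgroup.mem_inf.mpr ⟨⟨y, hy, rfl⟩, hhy⟩
      rw [h1, Subgroup.mem_bot] at h2
      apply hy1
      have : y = h⁻¹ * (h * y * h⁻¹) * h := by group
      rw [this, h2]
      group
    · rw [← h1]
      exact ⟨z, hz, rfl⟩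
  -- elements of `B` normalize `A`
  have hBN : ∀ y ∈ A, ∀ z ∈ A, (g * y * g⁻¹) * z * (g * y * g⁻¹)⁻¹ ∈ A := by
    intro y hy z hz
    have hmem : g * y * g⁻¹ ∈ Subgroup.centralizer ({a} : Set G) := hg ⟨y, hy, rfl⟩
    have hcom : a * (g * y * g⁻¹) = (g * y * g⁻¹) * a := Subgroup.mem_centralizer_iff.mp hmem a rfl
    apply hN (g * y * g⁻¹) a ha ha1 _ z hz
    rw [← hcom]
    have h0 : a * (g * y * g⁻¹) * (g * y * g⁻¹)⁻¹ = a := by group
    rw [h0]
    exact ha
  -- elements of `A` commuting with a nontrivial member of `B` normalize `B`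
  have hAN : ∀ c ∈ A, ∀ y ∈ A, y ≠ 1 → c * (g * y * g⁻¹) = (g * y * g⁻¹) * c →
      ∀ z ∈ A, g⁻¹ * (c * (g * z * g⁻¹) * c⁻¹) * g ∈ A := by
    intro c _ y hy hy1 hcy z hz
    have h1 := hN (g⁻¹ * c * g) y hy hy1 (by
      have : g⁻¹ * c * g * y * (g⁻¹ * c * g)⁻¹ = g⁻¹ * (c * (g * y * g⁻¹) * c⁻¹) * g := by group
      rw [this, hcy]
      have h3 : g⁻¹ * (g * y * g⁻¹ * c * c⁻¹) * g = y := by group
      rw [h3]
      exact hy) z hz
    have : g⁻¹ * c * g * z * (g⁻¹ * c * g)⁻¹ = g⁻¹ * (c * (g * z * g⁻¹) * c⁻¹) * g := by group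
    rwa [this] at h1
  rcases hTI g with hdis | heq
  · -- the generic case
    apply hb
    -- nontrivial element of `A`
    have hnt : ∀ c ∈ A, ∃ y ∈ A, y ≠ 1 ∧ c * (g * y * g⁻¹) = (g * y * g⁻¹) * c := by
      intro c hc
      by_cases hc1 : c = 1
      · refine ⟨a, ha, ha1, ?_⟩
        rw [hc1]
        group
      · -- pigeonhole
        let f : A → {x : A // (x : G) ≠ 1} := fun y => ⟨⟨(g * y * g⁻¹) * c * (g * y * g⁻¹)⁻¹, hBN y y.2 c hc⟩, by
          intro h3
          apply hc1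
          have : c = (g * y * g⁻¹)⁻¹ * ((g * y * g⁻¹) * c * (g * y * g⁻¹)⁻¹) * (g * y * g⁻¹) := by group
          rw [this]
          have h4 : (g * (y : G) * g⁻¹) * c * (g * y * g⁻¹)⁻¹ = 1 := h3
          rw [h4]
          group⟩
        have hcard : Nat.card {x : A // (x : G) ≠ 1} < Nat.card A := by
          have hinj : Function.Injective (Subtype.val : {x : A // (x : G) ≠ 1} → A) := Subtype.val_injective
          have hnotsurj : ¬ Function.Surjective (Subtype.val : {x : A // (x : G) ≠ 1} → A) := by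
            intro hs
            obtain ⟨⟨x, hx⟩, hx2⟩ := hs 1
            apply hx
            have h0 : x = 1 := hx2
            rw [h0]
            rfl
          by_contra hcon
          apply hnotsurj
          have := (Function.Injective.bijective_of_nat_card_le hinj (not_lt.mp hcon)).2
          exact this
        have hni : ¬ Function.Injective f := fun hi => absurd (Nat.card_le_card_of_injective f hi) (not_le.mpr hcard)
        simp only [Function.Injective] at hni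
        push Not at hni
        obtain ⟨y₁, y₂, hf, hne⟩ := hni
        have hf2 : (g * (y₁ : G) * g⁻¹) * c * (g * y₁ * g⁻¹)⁻¹ = (g * (y₂ : G) * g⁻¹) * c * (g * y₂ * g⁻¹)⁻¹ :=
          congrArg (fun z : {x : A // (x : G) ≠ 1} => ((z.1 : A) : G)) hf
        refine ⟨(y₂ : G)⁻¹ * y₁, mul_mem (Subgroup.inv_mem _ y₂.2) y₁.2, ?_, ?_⟩
        · intro h3
          apply hne
          apply Subtype.ext
          have : (y₁ : G) = y₂ * ((y₂ : G)⁻¹ * y₁) := by group
          rw [this, h3, mul_one]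
        · have : c * (g * ((y₂ : G)⁻¹ * y₁) * g⁻¹) = (g * (y₂ : G) * g⁻¹)⁻¹ * ((g * (y₂ : G) * g⁻¹) * c * (g * y₂ * g⁻¹)⁻¹) * (g * (y₁ : G) * g⁻¹) := by group
          rw [this, ← hf2]
          group
    intro c hc b hb'
    obtain ⟨y, hy, rfl⟩ := hb'
    obtain ⟨y', hy', hy'1, hcy'⟩ := hnt c hc
    have h1 : g⁻¹ * (c * (g * y * g⁻¹) * c⁻¹) * g ∈ A := hAN c hc y' hy' hy'1 hcy' y hy
    have h2 : (g * y * g⁻¹) * c⁻¹ * (g * y * g⁻¹)⁻¹ ∈ A := hBN y hy c⁻¹ (Subgroup.inv_mem _ hc)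
    -- the commutator lies in `A ∩ B`
    have h3 : c * (g * y * g⁻¹) * c⁻¹ * (g * y * g⁻¹)⁻¹ ∈ A.map (MulAut.conj g).toMonoidHom ⊓ A := by
      refine Subgroup.mem_inf.mpr ⟨⟨(g⁻¹ * (c * (g * y * g⁻¹) * c⁻¹) * g) * y⁻¹, mul_mem h1 (Subgroup.inv_mem _ hy), ?_⟩, ?_⟩
      · simp [MulAut.conj_apply]
        group
      · have : c * (g * y * g⁻¹) * c⁻¹ * (g * y * g⁻¹)⁻¹ = c * ((g * y * g⁻¹) * c⁻¹ * (g * y * g⁻¹)⁻¹) := by group
        rw [this]
        exact mul_mem hc h2
    rw [hdis, Subgroup.mem_bot] at h3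
    have h4 : (MulAut.conj g).toMonoidHom y = g * y * g⁻¹ := by simp [MulAut.conj_apply]
    rw [h4]
    have h5 : c * (g * y * g⁻¹) * c⁻¹ * (g * y * g⁻¹)⁻¹ = (c * (g * y * g⁻¹)) * ((g * y * g⁻¹) * c)⁻¹ := by group
    rw [h5] at h3
    exact mul_inv_eq_one.mp h3
  · exact heq

end Cfsg.Agent.S1177
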