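import Cfsg.Statements.S1178
import Cfsg.Agent.Lib.H13.Weak
-- import your own Cfsg.Agent.* helpers here

set_option autoImplicit false
open Cfsg

namespace Cfsg.Agent.S1178

/-- Let A be a subgroup of a Sylow 2-subgroup S of the finite group G which is weakly closed in S. If a conjugate g A g⁻¹ commutes elementwise with A, then g A g⁻¹ = A. -/
theorem result {G : Type*} [Group G] [Finite G] (S : Sylow 2 G) (A : Subgroup G) (hW : Cfsg.IsWeaklyClosed A (S : Subgroup G)) (g : G) (hc : ∀ a ∈ A, ∀ b ∈ A.map (MulAut.conj g).toMonoidHom, a * b = b * a) : A.map (MulAut.conj g).toMonoidHom = A := by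
  have hw : Cfsg.IsWeaklyClosedSubgroup 2 A := ⟨S, hW⟩
  have hA : IsPGroup 2 A := S.isPGroup'.to_le hW.1
  have hB : IsPGroup 2 (A.map (MulAut.conj g).toMonoidHom) := Cfsg.Agent.H13.isPGroup_map_conj hA
  have hN : A ≤ Subgroup.normalizer ((A.map (MulAut.conj g).toMonoidHom : Subgroup G) : Set G) := by
    intro a ha
    rw [Subgroup.mem_normalizer_iff]
    intro b
    constructor
    · intro hb
      have h1 := hc a ha b hb
      have : a * b * a⁻¹ = b := by rw [h1]; group
      rwa [this]
    · intro hb
      have h1 := hc a ha _ hb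
      have : b = a * b * a⁻¹ := by
        have h2 := mul_left_cancel (a := a) (b := a⁻¹ * (a * b * a⁻¹) * a) (c := a * b * a⁻¹) (by rw [h1]; group)
        calc b = a⁻¹ * (a * b * a⁻¹) * a := by group
          _ = _ := h2
      rwa [this]
  have hR := IsPGroup.to_sup_of_normal_right' hA hB hN
  exact Cfsg.Agent.H13.wc_conj_eq hw hR le_sup_left le_sup_right

end Cfsg.Agent.S1178
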