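import Cfsg.Statements.S1182
import Cfsg.Agent.Lib.H05.Isolated
-- import your own Cfsg.Agent.* helpers here

set_option autoImplicit false
open Cfsg

namespace Cfsg.Agent.S1182

/-- Let z be an isolated involution of the finite group G and H a subgroup normalized by z. If x, y ∈ H both commute with z and y = h x h⁻¹ for some h ∈ H, then y = c x c⁻¹ for some c ∈ H commuting with z. -/
theorem result {G : Type*} [Group G] [Finite G] (z : G) (hz : Cfsg.IsIsolatedInvolution z) (H : Subgroup G) (hzH : z ∈ Subgroup.normalizer (H : Set G)) (x y : G) (hx : x ∈ H) (hy : y ∈ H) (hxz : Commute x z) (hyz : Commute y z) (h : G) (hh : h ∈ H) (hconj : h * x * h⁻¹ = y) : ∃ c ∈ H, Commute c z ∧ c * x * c⁻¹ = y := by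
  have hzz := Cfsg.Agent.H05.iso_mul_self hz
  have hzi := Cfsg.Agent.H05.iso_inv hz
  -- `z` normalizes `H`
  have hzH' : z * h⁻¹ * z⁻¹ ∈ H := by
    have := (Subgroup.mem_normalizer_iff.1 hzH) h⁻¹
    exact this.1 (H.inv_mem hh)
  obtain ⟨k, hk, -, -, hkz, -⟩ := Cfsg.Agent.H05.exists_midpoint hz h
  have hd : h * z * h⁻¹ * z ∈ H := by
    have e : h * z * h⁻¹ * z = h * (z * h⁻¹ * z⁻¹) := by rw [hzi]; group
    rw [e]
    exact H.mul_mem hh hzH'
  have hkH : k ∈ H := (Subgroup.zpowers_le.2 hd) hk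
  -- `y` commutes with `h z h⁻¹`, so with `k`
  have hy1 : Commute y (h * z * h⁻¹) := by
    have : Commute x z := hxz
    have h2 : Commute (h * x * h⁻¹) (h * z * h⁻¹) := by
      unfold Commute SemiconjBy at this ⊢
      calc h * x * h⁻¹ * (h * z * h⁻¹) = h * (x * z) * h⁻¹ := by group
        _ = h * (z * x) * h⁻¹ := by rw [this]
        _ = h * z * h⁻¹ * (h * x * h⁻¹) := by group
    rwa [hconj] at h2
  have hy2 : Commute y (h * z * h⁻¹ * z) := hy1.mul_right hyz
  have hyk : Commute y k := by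
    obtain ⟨n, rfl⟩ := hk
    exact hy2.zpow_right n
  refine ⟨k⁻¹ * h, H.mul_mem (H.inv_mem hkH) hh, ?_, ?_⟩
  · unfold Commute SemiconjBy
    have e2 : k⁻¹ * h * z = (k⁻¹ * (h * z * h⁻¹)) * h := by group
    have hkz' : h * z * h⁻¹ = k * z * k⁻¹ := hkz.symm
    rw [e2, hkz']
    group
  · calc k⁻¹ * h * x * (k⁻¹ * h)⁻¹ = k⁻¹ * (h * x * h⁻¹) * k := by group
      _ = k⁻¹ * y * k := by rw [hconj]
      _ = y := by
        have : y * k = k * y := hyk
        rw [mul_assoc, this]; group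

end Cfsg.Agent.S1182
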