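import Cfsg.Statements.S1185
import Cfsg.Agent.Lib.H05.Isolated
-- import your own Cfsg.Agent.* helpers here

set_option autoImplicit false
open Cfsg

namespace Cfsg.Agent.S1185

/-- Let z be an isolated involution of the finite group G with centralizer C. Then for every g ∈ G there is exactly one element k in the coset gC that has odd order and is inverted by z. -/
theorem result {G : Type*} [Group G] [Finite G] (z : G) (hz : Cfsg.IsIsolatedInvolution z) (g : G) : ∃! k : G, (Odd (orderOf k) ∧ z * k * z⁻¹ = k⁻¹) ∧ g⁻¹ * k ∈ Subgroup.centralizer ({z} : Set G) := by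
  have hzz := Cfsg.Agent.H05.iso_mul_self hz
  have hzi := Cfsg.Agent.H05.iso_inv hz
  obtain ⟨k, hk, hodd, hinv, hkz, hkk⟩ := Cfsg.Agent.H05.exists_midpoint hz g
  refine ⟨k, ⟨⟨hodd, hinv⟩, ?_⟩, ?_⟩
  · rw [Subgroup.mem_centralizer_singleton_iff]
    have : g⁻¹ * k * z * (g⁻¹ * k)⁻¹ = z := by
      calc g⁻¹ * k * z * (g⁻¹ * k)⁻¹ = g⁻¹ * (k * z * k⁻¹) * g := by group
        _ = z := by rw [hkz]; group
    calc g⁻¹ * k * z = g⁻¹ * k * z * (g⁻¹ * k)⁻¹ * (g⁻¹ * k) := by group
      _ = z * (g⁻¹ * k) := by rw [this]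
  · rintro k' ⟨⟨hodd', hinv'⟩, hc'⟩
    rw [Subgroup.mem_centralizer_singleton_iff] at hc'
    have h1 : k' * z * k'⁻¹ = g * z * g⁻¹ := by
      have : k' * z = g * z * g⁻¹ * k' := by
        calc k' * z = g * (g⁻¹ * k' * z) := by group
          _ = g * (z * (g⁻¹ * k')) := by rw [hc']
          _ = g * z * g⁻¹ * k' := by group
      rw [this]; group
    have h2 : k' * k' * z = g * z * g⁻¹ := by
      rw [← Cfsg.Agent.H05.conj_eq_of_inv hinv']; exact h1
    have h3 : k' * k' = g * z * g⁻¹ * z := by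
      calc k' * k' = k' * k' * z * z := by rw [mul_assoc (k' * k'), hzz, mul_one]
        _ = g * z * g⁻¹ * z := by rw [h2]
    exact Cfsg.Agent.H05.odd_sqrt_unique hodd' hodd (h3.trans hkk.symm)

end Cfsg.Agent.S1185
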