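import Cfsg.Statements.S1242
import Cfsg.Agent.Lib.H05.Residual
import Mathlib
-- import your own Cfsg.Agent.* helpers here

set_option autoImplicit false
open Cfsg

namespace Cfsg.Agent.S1242

/-- Let G be a finite group, p a prime and H a subgroup of index prime to p such that any two elements of H of p-power order that are conjugate in G are conjugate in H. Then (O^p(G)·G') ∩ H = O^p(H)·H', where O^p denotes the subgroup generated by the elements of order prime to p. -/
theorem result {G : Type*} [Group G] [Finite G] {p : ℕ} [Fact p.Prime] (H : Subgroup G) (hidx : Nat.Coprime p H.index) (hfus : ∀ g ∈ H, (∃ k : ℕ, orderOf g = p ^ k) → ∀ a : G, a * g * a⁻¹ ∈ H → ∃ h ∈ H, h * g * h⁻¹ = a * g * a⁻¹) : (Cfsg.pResidual p G ⊔ commutator G) ⊓ H = (Cfsg.pResidual p ↥H ⊔ commutator ↥H).map H.subtype := by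
  classical
  have hp : p.Prime := Fact.out
  set N : Subgroup ↥H := Cfsg.pResidual p ↥H ⊔ commutator ↥H with hN
  haveI hNn : N.Normal := Subgroup.sup_normal _ _
  have hle : commutator ↥H ≤ N := le_sup_right
  haveI hcommQ : IsMulCommutative (↥H ⧸ N) :=
    Subgroup.Normal.quotient_commutative_iff_commutator_le.mpr hle
  letI : CommGroup (↥H ⧸ N) :=
    { (inferInstance : Group (↥H ⧸ N)) with
      mul_comm := fun a b => mul_comm' a b }
  let ϕ : ↥H →* (↥H ⧸ N) := QuotientGroup.mk' N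
  have hϕ1 : ∀ z ∈ Cfsg.pResidual p ↥H, ϕ z = 1 := fun z hz =>
    (QuotientGroup.eq_one_iff z).2 (Subgroup.mem_sup_left hz)
  -- `A = H / N` is a `p`-group
  have hA : ∀ a : ↥H ⧸ N, ∃ k, a ^ (p ^ k) = 1 := by
    intro a
    obtain ⟨h, rfl⟩ := QuotientGroup.mk'_surjective N a
    obtain ⟨y, z, hx, -, ⟨k, hk⟩, hz⟩ := Cfsg.Agent.H05.exists_decomp_pResidual hp h
    refine ⟨k, ?_⟩
    show (ϕ h) ^ (p ^ k) = 1
    rw [hx, map_mul, hϕ1 z hz, mul_one, ← map_pow, hk, map_one]
  let V := MonoidHom.transfer ϕ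
  -- `V` kills elements of order prime to `p`
  have hV1 : ∀ t : G, Nat.Coprime (orderOf t) p → V t = 1 := by
    intro t ht
    obtain ⟨k, hk⟩ := hA (V t)
    have h1 : (V t) ^ orderOf t = 1 := by rw [← map_pow, pow_orderOf_eq_one, map_one]
    have h2 : orderOf (V t) ∣ Nat.gcd (orderOf t) (p ^ k) :=
      Nat.dvd_gcd (orderOf_dvd_of_pow_eq_one h1) (orderOf_dvd_of_pow_eq_one hk)
    rw [Nat.Coprime.pow_right k ht, Nat.dvd_one, orderOf_eq_one_iff] at h2
    exact h2
  have hV2 : ∀ t ∈ Cfsg.pResidual p G ⊔ commutator G, V t = 1 := by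
    intro t ht
    have : Cfsg.pResidual p G ⊔ commutator G ≤ V.ker := by
      apply sup_le
      · unfold Cfsg.pResidual
        rw [Subgroup.closure_le]
        intro g hg
        exact hV1 g hg
      · exact Abelianization.commutator_subset_ker V
    exact this ht
  -- elements of `p`-power order: `V y = ϕ y ^ index`
  have hV3 : ∀ y : ↥H, (∃ k, y ^ (p ^ k) = 1) → V (y : G) = ϕ y ^ H.index := by
    rintro y ⟨k, hk⟩
    apply Cfsg.Agent.H05.transfer_apply_eq_pow ϕ y
    intro j g₀ hj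
    -- order of `y ^ j` is a power of `p`
    have hyj : (y ^ j) ^ (p ^ k) = 1 := by rw [← pow_mul, mul_comm, pow_mul, hk, one_pow]
    have ho : ∃ l, orderOf ((y : G) ^ j) = p ^ l := by
      have h1 : orderOf ((y : G) ^ j) ∣ p ^ k := by
        apply orderOf_dvd_of_pow_eq_one
        have := congrArg (Subtype.val) hyj
        simpa using this
      obtain ⟨l, -, hl⟩ := (Nat.dvd_prime_pow hp).1 h1
      exact ⟨l, hl⟩
    have hmem : (y : G) ^ j ∈ H := H.pow_mem y.2 j
    obtain ⟨h, hh, he⟩ := hfus _ hmem ho g₀⁻¹ (by simpa using hj)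
    have e : (⟨g₀⁻¹ * (y : G) ^ j * g₀, hj⟩ : ↥H) = ⟨h, hh⟩ * (y ^ j) * ⟨h, hh⟩⁻¹ := by
      apply Subtype.ext
      have e2 : g₀⁻¹ * (y : G) ^ j * g₀⁻¹⁻¹ = g₀⁻¹ * (y : G) ^ j * g₀ := by group
      simp only [Subgroup.coe_mul, Subgroup.coe_inv, Subgroup.coe_pow]
      rw [he, e2]
    rw [e, map_mul, map_mul, map_inv, map_pow, mul_comm, inv_mul_cancel_left]
  apply le_antisymm
  · rintro x ⟨hx1, hx2⟩
    obtain ⟨y, z, hxy, hyx, hk, hz⟩ := Cfsg.Agent.H05.exists_decomp_pResidual hp (⟨x, hx2⟩ : ↥H)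
    have hVx : V x = 1 := hV2 x hx1
    have hxe : x = (y : G) * (z : G) := by
      have := congrArg Subtype.val hxy
      simpa using this
    have hVz : V (z : G) = 1 := by
      -- `z` is a product of prime-to-p elements; `O^p(H) ≤ O^p(G)`
      have : (z : G) ∈ Cfsg.pResidual p G :=
        Cfsg.Agent.H05.map_pResidual_le p H ⟨z, hz, rfl⟩
      exact hV2 _ (Subgroup.mem_sup_left this)
    have hVy : V (y : G) = 1 := by
      have := hVx
      rw [hxe, map_mul, hVz, mul_one] at this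
      exact this
    have hϕy : ϕ y = 1 := by
      have h1 := hV3 y hk
      rw [hVy] at h1
      obtain ⟨k, hk⟩ := hk
      have h2 : (ϕ y) ^ (p ^ k) = 1 := by rw [← map_pow, hk, map_one]
      have h3 : orderOf (ϕ y) ∣ Nat.gcd (p ^ k) H.index :=
        Nat.dvd_gcd (orderOf_dvd_of_pow_eq_one h2) (orderOf_dvd_of_pow_eq_one h1.symm)
      rw [Nat.Coprime.pow_left k hidx, Nat.dvd_one, orderOf_eq_one_iff] at h3
      exact h3
    have hϕx : ϕ ⟨x, hx2⟩ = 1 := by
      rw [hxy, map_mul, hϕy, one_mul]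
      exact hϕ1 z hz
    have hmem : (⟨x, hx2⟩ : ↥H) ∈ N := (QuotientGroup.eq_one_iff _).1 hϕx
    exact ⟨⟨x, hx2⟩, hmem, rfl⟩
  · apply le_inf
    · rw [Subgroup.map_le_iff_le_comap]
      apply sup_le
      · rw [← Subgroup.map_le_iff_le_comap]
        exact le_trans (Cfsg.Agent.H05.map_pResidual_le p H) le_sup_left
      · rw [← Subgroup.map_le_iff_le_comap]
        refine le_trans ?_ le_sup_right
        rw [commutator_def, Subgroup.map_commutator]
        exact Subgroup.commutator_mono le_top le_top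
    · exact Subgroup.map_subtype_le _

end Cfsg.Agent.S1242
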