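import Cfsg.Statements.S1183
import Cfsg.Agent.Lib.H05.Isolated2
import Cfsg.Agent.Lib.H05.Residual
import Cfsg.Agent.S1182
import Cfsg.Agent.S1185
import Cfsg.Agent.S1242
import Mathlib
-- import your own Cfsg.Agent.* helpers here

set_option autoImplicit false
open Cfsg

namespace Cfsg.Agent.S1183

/-- Let z be an isolated involution of the finite group G and C = C_G(z). Then the subgroup of G generated by its elements of odd order is all of G if and only if the subgroup of C generated by its elements of odd order is all of C. -/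
theorem result {G : Type*} [Group G] [Finite G] (z : G) (hz : Cfsg.IsIsolatedInvolution z) : Cfsg.pResidual 2 G = ⊤ ↔ Cfsg.pResidual 2 ↥(Subgroup.centralizer ({z} : Set G)) = ⊤ := by
  have hzz := Cfsg.Agent.H05.iso_mul_self hz
  set C := Subgroup.centralizer ({z} : Set G) with hC
  -- index of `C` is odd
  have hidx : Nat.Coprime 2 C.index := by
    have h1 := Cfsg.Agent.H05.card_class_mul z
    have h2 : C.index * Nat.card C = Nat.card G := Subgroup.index_mul_card C
    have hCpos : 0 < Nat.card C := Nat.card_pos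
    have h3 : C.index = Nat.card {y : G // ∃ g : G, g * z * g⁻¹ = y} := by
      apply Nat.eq_of_mul_eq_mul_right hCpos
      rw [h2, h1, mul_comm]
    rw [h3, Nat.coprime_two_left]
    apply Cfsg.Agent.H05.odd_card_of_invol_unique_fixed
      (fun y => ⟨z * y.1 * z⁻¹, by obtain ⟨g, hg⟩ := y.2; exact ⟨z * g, by rw [← hg]; group⟩⟩)
      (a := ⟨z, 1, by group⟩)
    · rintro ⟨y, g, rfl⟩
      constructor
      · intro h
        have h' : z * (g * z * g⁻¹) * z⁻¹ = g * z * g⁻¹ := congrArg Subtype.val h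
        apply Subtype.ext
        apply hz.2
        unfold Commute SemiconjBy
        calc z * (g * z * g⁻¹) = z * (g * z * g⁻¹) * z⁻¹ * z := by group
          _ = g * z * g⁻¹ * z := by rw [h']
      · intro h
        have h' : g * z * g⁻¹ = z := congrArg Subtype.val h
        apply Subtype.ext
        show z * (g * z * g⁻¹) * z⁻¹ = g * z * g⁻¹
        rw [h']; group
    · rintro ⟨y, hy⟩
      apply Subtype.ext
      show z * (z * y * z⁻¹) * z⁻¹ = y
      have : z⁻¹ = z := Cfsg.Agent.H05.iso_inv hz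
      calc z * (z * y * z⁻¹) * z⁻¹ = (z * z) * y * (z⁻¹ * z⁻¹) := by group
        _ = y := by rw [hzz, this, hzz]; group
  have hfus : ∀ g ∈ C, (∃ k : ℕ, orderOf g = 2 ^ k) → ∀ a : G, a * g * a⁻¹ ∈ C →
      ∃ h ∈ C, h * g * h⁻¹ = a * g * a⁻¹ := by
    intro g hg _ a hag
    have hg' : Commute g z := Subgroup.mem_centralizer_singleton_iff.1 hg
    have hag' : Commute (a * g * a⁻¹) z := Subgroup.mem_centralizer_singleton_iff.1 hag
    obtain ⟨c, -, hc, hce⟩ := Cfsg.Agent.S1182.result z hz ⊤ (by
      rw [Subgroup.mem_normalizer_iff]; intro x; simp) g (a * g * a⁻¹) (Subgroup.mem_top _)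
      (Subgroup.mem_top _) hg' hag' a (Subgroup.mem_top _) rfl
    exact ⟨c, Subgroup.mem_centralizer_singleton_iff.2 hc, hce⟩
  have hmain := Cfsg.Agent.S1242.result C hidx hfus
  constructor
  · intro hG
    rw [hG, top_sup_eq, top_inf_eq] at hmain
    apply Cfsg.Agent.H05.pResidual_eq_top_of_sup Nat.prime_two
    apply Subgroup.map_injective C.subtype_injective
    have h7 : Subgroup.map C.subtype ⊤ = C := by
      rw [← MonoidHom.range_eq_map, Subgroup.range_subtype]
    rw [← hmain, h7]
  · intro hC'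
    rw [eq_top_iff]
    intro g _
    obtain ⟨k, ⟨⟨hodd, -⟩, hk⟩, -⟩ := Cfsg.Agent.S1185.result z hz g
    have hk1 : k ∈ Cfsg.pResidual 2 G :=
      Cfsg.Agent.H05.mem_pResidual_of_coprime (Nat.coprime_two_right.2 hodd)
    have hc1 : (g⁻¹ * k)⁻¹ ∈ Cfsg.pResidual 2 G := by
      apply Cfsg.Agent.H05.map_pResidual_le 2 C
      refine ⟨⟨(g⁻¹ * k)⁻¹, C.inv_mem hk⟩, ?_, rfl⟩
      rw [hC']; trivial
    have : g = k * (g⁻¹ * k)⁻¹ := by group
    rw [this]
    exact mul_mem hk1 hc1

end Cfsg.Agent.S1183
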