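import Cfsg.Statements.S1184
import Cfsg.Agent.Lib.H05.Isolated
-- import your own Cfsg.Agent.* helpers here

set_option autoImplicit false
open Cfsg

namespace Cfsg.Agent.S1184

/-- Let z be an isolated involution of the finite group G. If s and t are distinct conjugates of z, then st does not commute with z. -/
theorem result {G : Type*} [Group G] [Finite G] (z : G) (hz : Cfsg.IsIsolatedInvolution z) (g h : G) (hne : g * z * g⁻¹ ≠ h * z * h⁻¹) : ¬ Commute (g * z * g⁻¹ * (h * z * h⁻¹)) z := by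
  intro hc
  have hzz := Cfsg.Agent.H05.iso_mul_self hz
  set s := g * z * g⁻¹ with hs
  set t := h * z * h⁻¹ with ht
  have hss : s * s = 1 := Cfsg.Agent.H05.iso_mul_self (Cfsg.Agent.H05.iso_conj hz g)
  have htt : t * t = 1 := Cfsg.Agent.H05.iso_mul_self (Cfsg.Agent.H05.iso_conj hz h)
  have hsi : s⁻¹ = s := inv_eq_of_mul_eq_one_left hss
  have hti : t⁻¹ = t := inv_eq_of_mul_eq_one_left htt
  -- `x = s t` has odd order, inverted by `s`, centralized by `z`
  have hx_odd : Odd (orderOf (s * t)) := Cfsg.Agent.H05.iso_odd hz g h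
  have hsx : s * (s * t) * s⁻¹ = (s * t)⁻¹ := by
    rw [hsi, mul_inv_rev, hsi, hti]
    calc s * (s * t) * s = (s * s) * t * s := by group
      _ = t * s := by rw [hss, one_mul]
  have hzx : z * (s * t) * z⁻¹ = s * t := by
    have : (s * t) * z = z * (s * t) := hc
    rw [← this]; group
  -- `u = s z` has odd order and inverts `x`
  have hu_odd : Odd (orderOf (s * z)) := Cfsg.Agent.H05.iso_odd_aux hz g
  have hux : (s * z) * (s * t) * (s * z)⁻¹ = (s * t)⁻¹ := by
    calc (s * z) * (s * t) * (s * z)⁻¹ = s * (z * (s * t) * z⁻¹) * s⁻¹ := by group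
      _ = (s * t)⁻¹ := by rw [hzx, hsx]
  obtain ⟨m, hm⟩ := hu_odd
  have h1 := Cfsg.Agent.H05.odd_pow_conj_inv hux m
  rw [← hm, pow_orderOf_eq_one] at h1
  simp only [one_mul, inv_one, mul_one] at h1
  have hxx : (s * t) * (s * t) = 1 := by
    nth_rewrite 1 [h1]; group
  have := Cfsg.Agent.H05.eq_one_of_sq_of_odd hx_odd hxx
  apply hne
  have h3 : s = t⁻¹ := eq_inv_of_mul_eq_one_left this
  rw [h3, hti]

end Cfsg.Agent.S1184
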