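import Cfsg.Statements.S1187
import Cfsg.Agent.Lib.H15.ZStarSyl
import Cfsg.Agent.Lib.H01.Coprime3
import Cfsg.Agent.Lib.H18.Syl
import Mathlib

set_option autoImplicit false
set_option linter.style.haveILetI false
set_option linter.unusedVariables false
open Cfsg

namespace Cfsg.Agent.S1187

/-- Let z be an isolated involution of the finite group G and p a prime. If Q is a p-subgroup normalized by z that is maximal among p-subgroups normalized by z, then Q is a Sylow p-subgroup of G. -/
theorem result {G : Type*} [Group G] [Finite G] (z : G) (hz : Cfsg.IsIsolatedInvolution z) {p : ℕ} [Fact p.Prime] (Q : Subgroup G) (hQ : IsPGroup p Q) (hzQ : z ∈ Subgroup.normalizer (Q : Set G)) (hmax : ∀ R : Subgroup G, IsPGroup p R → z ∈ Subgroup.normalizer (R : Set G) → Q ≤ R → R = Q) : ∃ P : Sylow p G, (P : Subgroup G) = Q := by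
  classical
  obtain ⟨P, hQP⟩ := hQ.exists_le_sylow
  have hzo : orderOf z = 2 := hz.1
  have hzz : z * z = 1 := by
    rw [← pow_two, ← hzo]; exact pow_orderOf_eq_one z
  have hzinv : z⁻¹ = z := inv_eq_of_mul_eq_one_left hzz
  by_cases hp2 : p = 2
  · subst hp2
    -- `z` lies in `Q`
    have hzp : IsPGroup 2 (Subgroup.zpowers z) := by
      rw [IsPGroup.iff_card, Nat.card_zpowers, hzo]
      exact ⟨1, by norm_num⟩
    have hle : Subgroup.zpowers z ≤ Subgroup.normalizer (Q : Set G) := by
      rw [Subgroup.zpowers_le]; exact hzQ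
    have hsup : IsPGroup 2 (Q ⊔ Subgroup.zpowers z : Subgroup G) := by
      have hnorm : (Q ⊔ Subgroup.zpowers z : Subgroup G) ≤ Subgroup.normalizer (Q : Set G) :=
        sup_le Subgroup.le_normalizer hle
      exact IsPGroup.to_sup_of_normal_left' hQ hzp hle
    have hzR : z ∈ (Q ⊔ Subgroup.zpowers z : Subgroup G) :=
      (le_sup_right : Subgroup.zpowers z ≤ _) (Subgroup.mem_zpowers z)
    have e := hmax _ hsup (Subgroup.le_normalizer hzR) le_sup_left
    have hzQ' : z ∈ Q := e ▸ hzR
    have hP := hmax P P.isPGroup' (Subgroup.le_normalizer (hQP hzQ')) hQP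
    exact ⟨P, hP⟩
  · -- `p` odd
    have hcomm := Cfsg.Agent.H15.zstar_theorem G z hz
    let N : Subgroup G := oddCore G
    haveI hNn : N.Normal := inferInstance
    have hNodd : (Nat.card N).Coprime 2 := Cfsg.Agent.H15.card_oddCore_coprime
    let K : Subgroup G := (P : Subgroup G) ⊔ N
    have hKcard : Nat.card K * Nat.card ((P : Subgroup G) ⊓ N : Subgroup G) = Nat.card P * Nat.card N :=
      Cfsg.Agent.H18.card_sup_mul_card_inf (P : Subgroup G) N
    have hPodd : (Nat.card (P : Subgroup G)).Coprime 2 := by
      obtain ⟨n, hn⟩ := IsPGroup.iff_card.1 P.isPGroup'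
      rw [hn]
      apply Nat.Coprime.pow_left
      exact (Nat.coprime_primes (Fact.out) Nat.prime_two).2 hp2
    have hKodd : (Nat.card K).Coprime 2 := by
      have h1 : Nat.card K ∣ Nat.card P * Nat.card N := ⟨_, hKcard.symm⟩
      exact Nat.Coprime.coprime_dvd_left h1 (Nat.Coprime.mul_left hPodd hNodd)
    -- `z` normalizes `K`
    have hzK : ∀ x ∈ K, z * x * z⁻¹ ∈ K := by
      have hle : K ≤ K.comap (MulAut.conj z).toMonoidHom := by
        apply sup_le
        · intro x hx
          show z * x * z⁻¹ ∈ K
          have h1 : z * x * z⁻¹ = (z * x * z⁻¹ * x⁻¹) * x := by group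
          rw [h1]
          exact K.mul_mem ((le_sup_right : N ≤ K) (hcomm x))
            ((le_sup_left : (P : Subgroup G) ≤ K) hx)
        · intro x hx
          show z * x * z⁻¹ ∈ K
          exact (le_sup_right : N ≤ K) (hNn.conj_mem x hx z)
      exact fun x hx => hle hx
    have hzKn : z ∈ Subgroup.normalizer (K : Set G) := by
      rw [Subgroup.mem_normalizer_iff]
      intro x
      constructor
      · exact hzK x
      · intro h
        have := hzK _ h
        have e : z * (z * x * z⁻¹) * z⁻¹ = x := by
          rw [hzinv]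
          calc z * (z * x * z) * z = (z * z) * x * (z * z) := by group
            _ = x := by rw [hzz]; group
        rwa [e] at this
    have hAK : Subgroup.zpowers z ≤ Subgroup.normalizer (K : Set G) := by
      rw [Subgroup.zpowers_le]; exact hzKn
    have hcop : (Nat.card (Subgroup.zpowers z)).Coprime (Nat.card K) := by
      rw [Nat.card_zpowers, hzo]
      exact hKodd.symm
    have hQK : Q ≤ K := hQP.trans le_sup_left
    obtain ⟨P₁, hQ1, hP1⟩ := Cfsg.Agent.H01.invariant_subgroup_le_invariant_sylow hAK hcop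
      (Or.inl inferInstance) p Q hQK hQ (by rw [Subgroup.zpowers_le]; exact hzQ)
    have hRp : IsPGroup p (((P₁ : Subgroup K).map K.subtype : Subgroup G)) :=
      P₁.isPGroup'.map K.subtype
    have hRQ := hmax _ hRp (hP1 (Subgroup.mem_zpowers z)) hQ1
    -- compare orders
    have hcQ : Nat.card Q = Nat.card (P₁ : Subgroup K) := by
      rw [← hRQ]
      exact Nat.card_congr ((P₁ : Subgroup K).equivMapOfInjective K.subtype K.subtype_injective).toEquiv.symm
    have hPK : IsPGroup p ((P : Subgroup G).subgroupOf K) :=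
      IsPGroup.comap_of_injective P.isPGroup' K.subtype K.subtype_injective
    obtain ⟨P₂, hP2⟩ := hPK.exists_le_sylow
    have h1 : Nat.card (P₂ : Subgroup K) = Nat.card (P₁ : Subgroup K) := by
      rw [P₂.card_eq_multiplicity, P₁.card_eq_multiplicity]
    have h2 : Nat.card (P : Subgroup G) = Nat.card ((P : Subgroup G).subgroupOf K) :=
      Nat.card_congr (Subgroup.subgroupOfEquivOfLe (le_sup_left : (P : Subgroup G) ≤ K)).toEquiv.symm
    have h3 : Nat.card ((P : Subgroup G).subgroupOf K) ≤ Nat.card (P₂ : Subgroup K) :=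
      Subgroup.card_le_of_le hP2
    have h4 : Nat.card (P : Subgroup G) ≤ Nat.card Q := by
      rw [hcQ, ← h1, h2]; exact h3
    exact ⟨P, (Subgroup.eq_of_le_of_card_ge hQP h4).symm⟩

end Cfsg.Agent.S1187
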