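import Cfsg.Statements.S1227
import Cfsg.Agent.Lib.H05.SE3
-- import your own Cfsg.Agent.* helpers here

set_option autoImplicit false
open Cfsg

namespace Cfsg.Agent.S1227

/-- Let G be a finite group with a Sylow 2-subgroup T that is neither cyclic nor normal, such that the centralizer of every involution is an elementary abelian 2-group; put H = N_G(T), let u be an involution outside H and D = H ∩ uHu⁻¹. Then u inverts every element of D, |H| = |T|·(|T| − 1), and D is a complement to T in H. -/
theorem result {G : Type*} [Group G] [Finite G] (T : Sylow 2 G) (hnc : ¬ IsCyclic (T : Subgroup G)) (hnn : ¬ (T : Subgroup G).Normal) (hC : ∀ t : G, orderOf t = 2 → IsMulCommutative (Subgroup.centralizer ({t} : Set G)) ∧ ∀ c ∈ Subgroup.centralizer ({t} : Set G), c ^ 2 = 1) (u : G) (hu : orderOf u = 2) (huH : u ∉ Subgroup.normalizer ((T : Subgroup G) : Set G)) : (∀ d ∈ Subgroup.normalizer ((T : Subgroup G) : Set G) ⊓ (Subgroup.normalizer ((T : Subgroup G) : Set G)).map (MulAut.conj u).toMonoidHom, u * d * u⁻¹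 = d⁻¹) ∧ Nat.card (Subgroup.normalizer ((T : Subgroup G) : Set G)) = Nat.card T * (Nat.card T - 1) ∧ Subgroup.IsComplement' ((Subgroup.normalizer ((T : Subgroup G) : Set G) ⊓ (Subgroup.normalizer ((T : Subgroup G) : Set G)).map (MulAut.conj u).toMonoidHom).subgroupOf (Subgroup.normalizer ((T : Subgroup G) : Set G))) ((T : Subgroup G).subgroupOf (Subgroup.normalizer ((T : Subgroup G) : Set G))) := by
  have h : Cfsg.Agent.H05.EA T := ⟨hnc, hnn, hC⟩
  have huu := Cfsg.Agent.H05.mul_self_of_ord hu
  have hwo : u • Cfsg.Agent.H05.oo T ≠ Cfsg.Agent.H05.oo T := by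
    intro h3
    apply huH
    have : u ∈ MulAction.stabilizer G (Cfsg.Agent.H05.oo T) := h3
    rwa [h.stab_o] at this
  rw [show Subgroup.normalizer ((T : Subgroup G) : Set G) ⊓ (Subgroup.normalizer ((T : Subgroup G) : Set G)).map (MulAut.conj u).toMonoidHom = Cfsg.Agent.H05.DD (Cfsg.Agent.H05.oo T) u from h.D_eq u]
  refine ⟨?_, h.card_H huu hwo, h.compl huu hwo⟩
  intro d hd
  exact h.act.invert huu hwo (Subgroup.mem_inf.mp hd).1 (Subgroup.mem_inf.mp hd).2

end Cfsg.Agent.S1227
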