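import Cfsg.Statements.S1235
import Cfsg.Agent.Lib.H05.Sect6
-- import your own Cfsg.Agent.* helpers here

set_option autoImplicit false
open Cfsg

namespace Cfsg.Agent.S1235

/-- Let G be a finite group, x an involution and T ≤ G a Sylow 2-subgroup of C_G(x) (T ≤ C_G(x) with |C_G(x) : T| odd) which is the internal direct product of a subgroup D that is dihedral (of order ≥ 4) or quasi-dihedral and a Klein four-subgroup B. Suppose that for every involution b ∈ B, T ≤ C_G(b) with |C_G(b) : T| odd. Then every section of G has 2-rank at most 4. -/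
theorem result {G : Type*} [Group G] [Finite G] (x : G) (hx : orderOf x = 2) (T D B : Subgroup G) (hT : IsPGroup 2 T) (hTx : T ≤ Subgroup.centralizer ({x} : Set G)) (hTxi : Odd (T.relIndex (Subgroup.centralizer ({x} : Set G)))) (hprod : Cfsg.IsInternalDirectProduct D B T) (hD : (∃ m : ℕ, 2 ≤ m ∧ Nonempty (D ≃* DihedralGroup m)) ∨ Cfsg.IsQuasiDihedral D) (hB : IsKleinFour B) (hTb : ∀ b ∈ B, orderOf b = 2 → T ≤ Subgroup.centralizer ({b} : Set G) ∧ Odd (T.relIndex (Subgroup.centralizer ({b} : Set G)))) : Cfsg.SectionalPRankLE 2 4 G := by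
  obtain ⟨hDT, hBT, hcomm, hbot, hsup⟩ := hprod
  have hB4 : Nat.card B = 4 := IsKleinFour.card_four
  have hBe : ∀ x ∈ B, x * x = 1 := by
    intro x hx
    have h1 : (⟨x, hx⟩ : B) ^ 2 = 1 := by
      have := Monoid.pow_exponent_eq_one (⟨x, hx⟩ : B)
      rwa [IsKleinFour.exponent_two] at this
    have := congrArg Subtype.val h1
    simpa [sq] using this
  have hBc : ∀ x ∈ B, ∀ y ∈ B, x * y = y * x := by
    intro x hx y hy
    have h1 := hBe x hx
    have h2 := hBe y hy
    have h3 := hBe _ (mul_mem hx hy)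
    have e1 : x⁻¹ = x := inv_eq_of_mul_eq_one_left h1
    have e2 : y⁻¹ = y := inv_eq_of_mul_eq_one_left h2
    have e3 : x * y = (x * y)⁻¹ := eq_inv_of_mul_eq_one_left h3
    rw [e3, mul_inv_rev, e1, e2]
  have hTb' : ∀ b ∈ B, b ≠ 1 → T ≤ Subgroup.centralizer ({b} : Set G) ∧
      Odd (T.relIndex (Subgroup.centralizer ({b} : Set G))) := by
    intro b hb hne
    apply hTb b hb
    have : Fact (Nat.Prime 2) := ⟨Nat.prime_two⟩
    exact orderOf_eq_prime (by rw [sq]; exact hBe b hb) hne
  rcases hD with ⟨m, hm, ⟨e⟩⟩ | ⟨n, hn, hcard, x', y', hx', hy', hxy⟩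
  · by_cases hm2 : m = 2
    · subst hm2
      have hall : ∀ a b : DihedralGroup 2, a * b = b * a := by decide
      have hall2 : ∀ a : DihedralGroup 2, a * a = 1 := by decide
      refine Cfsg.Agent.H05.Sect.sect_klein hT hDT hBT hcomm hbot hsup hB4 hBe hBc ?_ ?_ ?_ hTb'
      · rw [Nat.card_congr e.toEquiv, DihedralGroup.nat_card]
      · intro v hv
        have h1 := hall2 (e ⟨v, hv⟩)
        rw [← map_mul] at h1
        have h2 := e.injective (h1.trans (map_one e).symm)
        exact congrArg Subtype.val h2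
      · intro v hv w hw
        have h1 := hall (e ⟨v, hv⟩) (e ⟨w, hw⟩)
        rw [← map_mul, ← map_mul] at h1
        exact congrArg Subtype.val (e.injective h1)
    · have hm3 : 3 ≤ m := by omega
      have : NeZero m := ⟨by omega⟩
      set c' : D := e.symm (DihedralGroup.r 1) with hc'
      set t' : D := e.symm (DihedralGroup.sr 0) with ht'
      refine Cfsg.Agent.H05.Sect.sect_nonab (c := (c' : G)) (t := (t' : G)) hT hDT hBT hcomm hsup hB4 hBe hBc c'.2 t'.2 ?_ ?_ hTb'
      · intro hc
        have h1 : c' * t' = t' * c' := Subtype.ext hc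
        have h2 : e (c' * t') = e (t' * c') := by rw [h1]
        simp only [map_mul, hc', ht', MulEquiv.apply_symm_apply] at h2
        rw [DihedralGroup.r_mul_sr, DihedralGroup.sr_mul_r] at h2
        have h3 := DihedralGroup.sr.inj h2
        have h4 : (2 : ZMod m) = 0 := by
          have : (0 : ZMod m) - 1 = 0 + 1 := h3
          have h5 : (2 : ZMod m) = (0 + 1) - (0 - 1) := by ring
          rw [h5, this]; ring
        have h6 : ((2 : ℕ) : ZMod m) = 0 := by exact_mod_cast h4
        rw [ZMod.natCast_eq_zero_iff] at h6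
        have := Nat.le_of_dvd (by norm_num) h6
        omega
      · have h1 : orderOf (c' : G) = m := by
          rw [Subgroup.orderOf_coe, hc', MulEquiv.orderOf_eq, DihedralGroup.orderOf_r_one]
        rw [h1, Nat.card_congr e.toEquiv, DihedralGroup.nat_card]
  · refine Cfsg.Agent.H05.Sect.sect_nonab (c := (x' : G)) (t := (y' : G)) hT hDT hBT hcomm hsup hB4 hBe hBc x'.2 y'.2 ?_ ?_ hTb'
    · intro hc
      have h1 : x' * y' = y' * x' := Subtype.ext hc
      have h2 : y' * x' * y'⁻¹ = x' := by rw [← h1]; group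
      rw [hxy] at h2
      have h3 : x' ^ (2 ^ (n - 1) - 1) = x' ^ 1 := by rw [h2, pow_one]
      have h4 : (2:ℕ) ^ 2 ≤ 2 ^ (n - 1) := Nat.pow_le_pow_right (by norm_num) (by omega)
      have h5 : (2:ℕ) ^ n = 2 * 2 ^ (n - 1) := by
        obtain ⟨k, rfl⟩ : ∃ k, n = k + 1 := ⟨n - 1, by omega⟩
        simp [pow_succ]; ring
      have h7 : 2 ^ (n - 1) - 1 < orderOf x' := by rw [hx']; omega
      have h8 : 1 < orderOf x' := by rw [hx']; omega
      have h6 := pow_injOn_Iio_orderOf (Set.mem_Iio.mpr h7) (Set.mem_Iio.mpr h8) h3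
      omega
    · rw [Subgroup.orderOf_coe, hx', hcard, pow_succ]; ring_nf; rfl


end Cfsg.Agent.S1235
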