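import Cfsg.Statements.S1236
import Cfsg.Agent.Lib.H05.Dih6
import Cfsg.Agent.Lib.H05.QF4
import Cfsg.Agent.Lib.H05.Dih
-- import your own Cfsg.Agent.* helpers here

set_option autoImplicit false
open Cfsg

namespace Cfsg.Agent.S1236

/-- Let R be a finite group, t a central involution of R such that R ⧸ ⟨t⟩ is dihedral (of order ≥ 4) or quasi-dihedral, and A ≤ R an elementary abelian subgroup of order 8 containing t. Then C_R(A) = A. -/
theorem result {R : Type*} [Group R] [Finite R] (t : R) (ht : orderOf t = 2) (htz : t ∈ Subgroup.center R) [(Subgroup.zpowers t).Normal] (hq : (∃ m : ℕ, 2 ≤ m ∧ Nonempty (R ⧸ Subgroup.zpowers t ≃* DihedralGroup m)) ∨ Cfsg.IsQuasiDihedral (R ⧸ Subgroup.zpowers t)) (A : Subgroup R) (hA : Cfsg.IsElementaryAbelian 2 A) (hA8 : Nat.card A = 8) (htA : t ∈ A) : Subgroup.centralizer (A : Set R) = A := by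
  classical
  set C := Subgroup.zpowers t with hC
  obtain ⟨hAc, hAp⟩ := hA
  have hApp : ∀ a ∈ A, a ^ 2 = 1 := hAp
  haveI := hAc
  have hAcomm : ∀ a ∈ A, ∀ b ∈ A, a * b = b * a := fun a ha b hb =>
    congrArg Subtype.val (mul_comm' (⟨a, ha⟩ : A) ⟨b, hb⟩)
  have hCA : C ≤ A := by
    rw [hC, Subgroup.zpowers_le]
    exact htA
  let π : R →* (R ⧸ C) := QuotientGroup.mk' C
  have hker : ∀ x, π x = 1 ↔ x ∈ C := fun x => QuotientGroup.eq_one_iff x
  let Ab : Subgroup (R ⧸ C) := A.map π
  have hAb : IsKleinFour Ab := by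
    have hcard : Nat.card Ab = 4 := by
      have h1 : π.ker ⊓ A = C := by
        rw [QuotientGroup.ker_mk']
        exact inf_eq_left.mpr hCA
      have h2 : Nat.card Ab * Nat.card C = Nat.card A := by
        have h3 := Subgroup.card_mul_index (π.ker.subgroupOf A)
        have h4 : Nat.card (π.ker.subgroupOf A) = Nat.card C := by
          rw [← Subgroup.card_map_of_injective A.subtype_injective, Subgroup.subgroupOf_map_subtype, h1]
        have h5 : (π.ker.subgroupOf A).index = Nat.card Ab := by
          have h6 := Subgroup.index_ker (π.comp A.subtype)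
          have h7 : (π.comp A.subtype).ker = π.ker.subgroupOf A := by
            ext a
            simp [Subgroup.mem_subgroupOf, MonoidHom.mem_ker]
          rw [h7] at h6
          rw [h6, MonoidHom.range_comp, Subgroup.range_subtype]
        rw [h4, h5] at h3
        rw [mul_comm]
        exact h3
      have hCc : Nat.card C = 2 := by
        show Nat.card (Subgroup.zpowers t) = 2
        rw [Nat.card_zpowers, ht]
      rw [hA8, hCc] at h2
      omega
    refine ⟨hcard, ?_⟩
    have hn : Nontrivial Ab := (Finite.one_lt_card_iff_nontrivial).mp (by rw [hcard]; norm_num)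
    apply H05.exponent_two_of _ hn
    rintro ⟨_, a, ha, rfl⟩
    apply Subtype.ext
    show π a ^ 2 = 1
    rw [← map_pow, hApp a ha, map_one]
  apply le_antisymm
  · intro x hx
    rw [Subgroup.mem_centralizer_iff] at hx
    have hcomm : ∀ v ∈ Ab, v * π x = π x * v := by
      rintro _ ⟨a, ha, rfl⟩
      rw [← map_mul, ← map_mul, hx a ha]
    have hmem : π x ∈ Ab := by
      rcases hq with ⟨m, hm, ⟨e⟩⟩ | hq
      · haveI : NeZero m := ⟨by omega⟩
        let V : Subgroup (DihedralGroup m) := Ab.map e.toMonoidHom
        have hV : IsKleinFour V := H05.klein_of_equiv (Ab.equivMapOfInjective _ e.injective) hAb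
        have h1 : e (π x) ∈ V := by
          apply H05.klein_self_cent V hV
          rintro _ ⟨v, hv, rfl⟩
          show e v * e (π x) = e (π x) * e v
          rw [← map_mul, ← map_mul, hcomm v hv]
        obtain ⟨v, hv, hve⟩ := h1
        have h2 := e.injective hve
        rw [← h2]
        exact hv
      · obtain ⟨n, a, b, h⟩ := H05.exists_QD hq
        have h1 := (h.klein_cent hAb).1
        rw [← h1, Subgroup.mem_centralizer_iff]
        exact hcomm
    obtain ⟨a, ha, hax⟩ := hmem
    have h1 : π (a⁻¹ * x) = 1 := by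
      rw [map_mul, map_inv]
      show (π a)⁻¹ * π x = 1
      rw [show π a = π x from hax]
      group
    have h2 : a⁻¹ * x ∈ A := hCA ((hker _).mp h1)
    have h3 := A.mul_mem ha h2
    simpa using h3
  · intro a ha
    rw [Subgroup.mem_centralizer_iff]
    intro b hb
    exact hAcomm b hb a ha


end Cfsg.Agent.S1236
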