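import Cfsg.Statements.S1239
import Cfsg.Agent.Lib.H05.WrF5
import Cfsg.Agent.Lib.H05.QD5
import Cfsg.Agent.Lib.H15.CenterWC
import Cfsg.Agent.Lib.H15.ZStarMain
-- import your own Cfsg.Agent.* helpers here

set_option autoImplicit false
open Cfsg

namespace Cfsg.Agent.S1239

/-- Let X be a finite group whose Sylow 2-subgroup S is quasi-dihedral or wreathed, and suppose some involution of S is isolated in X. Then the product of the largest normal odd-order subgroup O(X) with the centre of S is normal in X. -/
theorem result {X : Type*} [Group X] [Finite X] (S : Sylow 2 X) (hS : Cfsg.IsQuasiDihedral (S : Subgroup X) ∨ Cfsg.IsWreathed (S : Subgroup X)) (z : X) (hzS : z ∈ S) (hz : Cfsg.IsIsolatedInvolution z) : (Cfsg.oddCore X ⊔ (Subgroup.center (S : Subgroup X)).map (S : Subgroup X).subtype).Normal := by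
  have key : ∀ q ∈ H05.ZG S, ∀ g : X, g * q * g⁻¹ ∈ (S : Subgroup X) → g * q * g⁻¹ = q := by
    have hzc : ∀ s : (S : Subgroup X), s * ⟨z, hzS⟩ = ⟨z, hzS⟩ * s := by
      intro s
      apply Subtype.ext
      have h1 := H15.iso_central_in_sylow hz S.2 hzS s.2
      show (s : X) * z = z * s
      exact mul_inv_eq_iff_eq_mul.mp h1
    have hzt : (⟨z, hzS⟩ : (S : Subgroup X)) ∈ Subgroup.center (S : Subgroup X) := by
      rw [Subgroup.mem_center_iff]
      exact hzc
    have hz1 : (⟨z, hzS⟩ : (S : Subgroup X)) ≠ 1 := by
      intro h1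
      have h2 : z = 1 := congrArg Subtype.val h1
      have h3 := hz.1
      rw [h2, orderOf_one] at h3
      omega
    have hzz : z * z = 1 := by
      have := pow_orderOf_eq_one z
      rwa [hz.1, pow_two] at this
    have hzfix : ∀ g : X, g * z * g⁻¹ ∈ (S : Subgroup X) → g * z * g⁻¹ = z := by
      intro g hg
      apply hz.2
      have h1 := hzc ⟨_, hg⟩
      have h2 : (g * z * g⁻¹) * z = z * (g * z * g⁻¹) := congrArg Subtype.val h1
      exact h2.symm
    rcases hS with hS | hS
    · obtain ⟨n, x, y, h⟩ := H05.exists_QD hS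
      intro q hq g hg
      obtain ⟨s, hs, rfl⟩ := hq
      have hcard := h.card_center
      rw [Nat.card_eq_two_iff' (1 : Subgroup.center (S : Subgroup X))] at hcard
      obtain ⟨u, hu1, hu2⟩ := hcard
      have hcases : ∀ v : Subgroup.center (S : Subgroup X), v = 1 ∨ v = u := by
        intro v
        by_cases hv : v = 1
        · exact Or.inl hv
        · exact Or.inr (hu2 v hv)
      rcases hcases ⟨s, hs⟩ with h1 | h1
      · have h2 : s = 1 := congrArg Subtype.val h1
        subst h2
        simp
      · rcases hcases ⟨_, hzt⟩ with h2 | h2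
        · exfalso
          exact hz1 (congrArg Subtype.val h2)
        · have h3 : s = ⟨z, hzS⟩ := by
            have h4 : (⟨s, hs⟩ : Subgroup.center (S : Subgroup X)) = ⟨_, hzt⟩ := h1.trans h2.symm
            exact congrArg Subtype.val h4
          subst h3
          exact hzfix g hg
    · obtain ⟨n, x, y, w, h⟩ := H05.exists_Wr hS
      have hU : h.IsUG (h.U.map (S : Subgroup X).subtype) := ⟨Subgroup.map_subtype_le _, by
        ext s
        rw [Subgroup.mem_subgroupOf]
        exact Subgroup.mem_map_iff_mem (S : Subgroup X).subtype_injective⟩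
      obtain ⟨T, hTK, hT⟩ := h.exists_TG hU
      have h3 := h.P3U hU hTK hT
      have h2U : (Subgroup.centralizer ((h.U.map (S : Subgroup X).subtype : Subgroup X) : Set X)).relIndex
          (Subgroup.normalizer ((h.U.map (S : Subgroup X).subtype : Subgroup X) : Set X)) = 2 := by
        rcases h3.index_cases with h4 | h4
        · exact h4
        · exfalso
          obtain ⟨h5, -, -⟩ := h.U6_conj hU h4
          -- `z` is the central involution
          obtain ⟨l, hl⟩ := h.mem_center_iff'.mp hzt
          have htt : (⟨z, hzS⟩ : (S : Subgroup X)) * ⟨z, hzS⟩ = 1 := Subtype.ext hzz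
          rw [hl, h.ee, h.e1] at htt
          obtain ⟨h6, -⟩ := htt
          rcases h.half (i := l) (by convert h6 using 1; ring) with h7 | h7
          · exfalso
            apply hz1
            rw [hl]
            exact h.e1.mpr ⟨h7, h7⟩
          · have h8 : (⟨z, hzS⟩ : (S : Subgroup X)) = H05.we x y h.H h.H := by
              rw [hl]
              exact h.eeq.mpr ⟨h7, h7⟩
            have h9 : z = ((H05.we x y h.H h.H : (S : Subgroup X)) : X) := congrArg Subtype.val h8
            obtain ⟨g, hg⟩ := isConj_iff.mp h5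
            rw [← h9] at hg
            have h10 := hz.2 g (by
              rw [hg]
              have h11 := h.ab_comm (H05.we x y h.H 0)
              have h12 : ((H05.we x y h.H 0 : (S : Subgroup X)) : X) * ((H05.we x y h.H h.H : (S : Subgroup X)) : X) =
                ((H05.we x y h.H h.H : (S : Subgroup X)) : X) * ((H05.we x y h.H 0 : (S : Subgroup X)) : X) := congrArg Subtype.val h11
              rw [← h9] at h12
              exact h12.symm)
            rw [hg] at h10
            have h11 : H05.we x y h.H 0 = (⟨z, hzS⟩ : (S : Subgroup X)) := Subtype.ext h10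
            rw [h8, h.eeq] at h11
            apply h.H_not
            simpa using h11.2
      intro q hq g hg
      exact h.Z_fixed (Q := ⊥) hU h2U hq g hg
  have hfac := H15.exists_odd_mul_centralizer S (H05.ZG S) (Subgroup.map_subtype_le _) key
  have hN : Cfsg.oddCore X ⊔ H05.ZG S ≤ Cfsg.oddCore X ⊔ H05.ZG S := le_refl _
  constructor
  intro n hn g
  obtain ⟨o, ho, c, hc, rfl⟩ := hfac g
  have hcn : ∀ v ∈ Cfsg.oddCore X ⊔ H05.ZG S, c * v * c⁻¹ ∈ Cfsg.oddCore X ⊔ H05.ZG S := by
    have hle : Cfsg.oddCore X ⊔ H05.ZG S ≤ (Cfsg.oddCore X ⊔ H05.ZG S).comap (MulAut.conj c).toMonoidHom := by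
      apply sup_le
      · intro v hv
        exact Subgroup.mem_sup_left ((inferInstance : (Cfsg.oddCore X).Normal).conj_mem v hv c)
      · intro v hv
        have h1 : v * c = c * v := Subgroup.mem_centralizer_iff.mp hc v hv
        have h2 : c * v * c⁻¹ = v := by
          rw [← h1, mul_inv_cancel_right]
        show c * v * c⁻¹ ∈ Cfsg.oddCore X ⊔ H05.ZG S
        rw [h2]
        exact Subgroup.mem_sup_right hv
    exact fun v hv => hle hv
  have h1 : o * c * n * (o * c)⁻¹ = o * (c * n * c⁻¹) * o⁻¹ := by group
  rw [h1]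
  have ho' : o ∈ Cfsg.oddCore X ⊔ H05.ZG S := Subgroup.mem_sup_left ho
  exact mul_mem (mul_mem ho' (hcn n hn)) (Subgroup.inv_mem _ ho')


end Cfsg.Agent.S1239
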