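import Cfsg.Statements.S1241
import Cfsg.Agent.Lib.H05.Transfer
import Mathlib
-- import your own Cfsg.Agent.* helpers here

set_option autoImplicit false
open Cfsg

namespace Cfsg.Agent.S1241

/-- Let G be a finite group, p a prime, H a subgroup of index prime to p, K a subgroup of H normal in H with H/K commutative, and g ∈ H ∖ K an element of p-power order such that for all integers m and all a ∈ G with a g^m a⁻¹ ∈ H one has a g^m a⁻¹ ∈ g^m K. Then g ∉ G'. -/
theorem result {G : Type*} [Group G] [Finite G] {p : ℕ} [Fact p.Prime] (H K : Subgroup G) (hHK : K ≤ H) (hKn : (K.subgroupOf H).Normal) (hab : ∀ x ∈ H, ∀ y ∈ H, x * y * x⁻¹ * y⁻¹ ∈ K) (hidx : Nat.Coprime p H.index) (g : G) (hgH : g ∈ H) (hgK : g ∉ K) (hgp : ∃ k : ℕ, orderOf g = p ^ k) (hctrl : ∀ (m : ℤ) (a : G), a * g ^ m * a⁻¹ ∈ H → (a * g ^ m * a⁻¹) * (g ^ m)⁻¹ ∈ K) : g ∉ commutator G := by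
  classical
  intro hcomm
  have hNormal : (K.subgroupOf H).Normal := hKn
  have hle : commutator ↥H ≤ K.subgroupOf H := by
    rw [commutator_def, Subgroup.commutator_le]
    intro x _ y _
    rw [Subgroup.mem_subgroupOf]
    exact hab x x.2 y y.2
  haveI hcommQ : IsMulCommutative (↥H ⧸ K.subgroupOf H) :=
    Subgroup.Normal.quotient_commutative_iff_commutator_le.mpr hle
  letI : CommGroup (↥H ⧸ K.subgroupOf H) :=
    { (inferInstance : Group (↥H ⧸ K.subgroupOf H)) with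
      mul_comm := fun a b => mul_comm' a b }
  let ϕ : ↥H →* (↥H ⧸ K.subgroupOf H) := QuotientGroup.mk' (K.subgroupOf H)
  haveI : H.FiniteIndex := inferInstance
  let x : ↥H := ⟨g, hgH⟩
  have hker : ∀ y z : ↥H, (y : G) * (z : G)⁻¹ ∈ K → ϕ y = ϕ z := by
    intro y z h
    have h1 : y * z⁻¹ ∈ K.subgroupOf H := by
      rw [Subgroup.mem_subgroupOf]; simpa using h
    have h2 : ϕ (y * z⁻¹) = 1 := (QuotientGroup.eq_one_iff _).2 h1
    rw [map_mul, map_inv] at h2
    exact mul_inv_eq_one.1 h2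
  have key : ∀ (k : ℕ) (g₀ : G) (hk : g₀⁻¹ * (x : G) ^ k * g₀ ∈ H), ϕ ⟨_, hk⟩ = ϕ x ^ k := by
    intro k g₀ hk
    rw [← map_pow]
    apply hker
    have := hctrl (k : ℤ) g₀⁻¹ (by simpa using hk)
    simpa using this
  have h1 := Cfsg.Agent.H05.transfer_apply_eq_pow ϕ x key
  have h2 : MonoidHom.transfer ϕ (x : G) = 1 := Cfsg.Agent.H05.transfer_commutator ϕ hcomm
  rw [h2] at h1
  -- `ϕ x` has `p`-power order and index prime to `p`
  obtain ⟨k, hk⟩ := hgp
  have h3 : ϕ x ^ (p ^ k) = 1 := by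
    rw [← map_pow]
    have : x ^ (p ^ k) = 1 := by
      apply Subtype.ext
      show g ^ (p ^ k) = 1
      rw [← hk, pow_orderOf_eq_one]
    rw [this, map_one]
  have h4 : orderOf (ϕ x) ∣ Nat.gcd (p ^ k) H.index :=
    Nat.dvd_gcd (orderOf_dvd_of_pow_eq_one h3) (orderOf_dvd_of_pow_eq_one h1.symm)
  have h5 : Nat.gcd (p ^ k) H.index = 1 := Nat.Coprime.pow_left k hidx
  rw [h5, Nat.dvd_one, orderOf_eq_one_iff] at h4
  have h6 : x ∈ K.subgroupOf H := (QuotientGroup.eq_one_iff _).1 h4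
  exact hgK (Subgroup.mem_subgroupOf.1 h6)

end Cfsg.Agent.S1241
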