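import Cfsg.Statements.S1243
import Cfsg.Agent.Lib.H13.Weak
-- import your own Cfsg.Agent.* helpers here

set_option autoImplicit false
open Cfsg

namespace Cfsg.Agent.S1243

/-- Let T be a Sylow p-subgroup of the finite group G and W ≤ T a subgroup weakly closed in T. If d and g d g⁻¹ both centralize W, then g d g⁻¹ = h d h⁻¹ for some h ∈ N_G(W). -/
theorem result {G : Type*} [Group G] [Finite G] {p : ℕ} [Fact p.Prime] (T : Sylow p G) (W : Subgroup G) (hW : Cfsg.IsWeaklyClosed W (T : Subgroup G)) (d g : G) (hd : d ∈ Subgroup.centralizer (W : Set G)) (hgd : g * d * g⁻¹ ∈ Subgroup.centralizer (W : Set G)) : ∃ h ∈ Subgroup.normalizer (W : Set G), h * d * h⁻¹ = g * d * g⁻¹ := by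
  have hw : Cfsg.IsWeaklyClosedSubgroup p W := ⟨T, hW⟩
  have hWp : IsPGroup p W := T.isPGroup'.to_le hW.1
  set y := g * d * g⁻¹ with hy
  have hWK : W ≤ Subgroup.centralizer ({y} : Set G) := by
    intro w hw'
    rw [Subgroup.mem_centralizer_singleton_iff]
    exact (Subgroup.mem_centralizer_iff.mp hgd w hw')
  have hgK : W.map (MulAut.conj g).toMonoidHom ≤ Subgroup.centralizer ({y} : Set G) := by
    rintro _ ⟨w, hw', rfl⟩
    rw [Subgroup.mem_centralizer_singleton_iff]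
    have h1 : w * d = d * w := Subgroup.mem_centralizer_iff.mp hd w hw'
    show g * w * g⁻¹ * (g * d * g⁻¹) = g * d * g⁻¹ * (g * w * g⁻¹)
    calc g * w * g⁻¹ * (g * d * g⁻¹) = g * (w * d) * g⁻¹ := by group
      _ = g * (d * w) * g⁻¹ := by rw [h1]
      _ = _ := by group
  obtain ⟨k, hk, hke⟩ := Cfsg.Agent.H13.exists_conj_in hw hWp hWK hgK
  refine ⟨k⁻¹ * g, ?_, ?_⟩
  · apply Cfsg.Agent.H13.mem_normalizer_of_map_conj_eq
    rw [← Cfsg.Agent.H13.map_conj_mul, hke, Cfsg.Agent.H13.map_conj_inv_map_conj]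
  · have h2 : k * y * k⁻¹ = y := by
      rw [Subgroup.mem_centralizer_singleton_iff] at hk
      rw [hk]; group
    show k⁻¹ * g * d * (k⁻¹ * g)⁻¹ = y
    have : k⁻¹ * g * d * (k⁻¹ * g)⁻¹ = k⁻¹ * y * k := by rw [hy]; group
    rw [this]
    conv_lhs => rw [← h2]
    group

end Cfsg.Agent.S1243
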