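import Cfsg.Statements.S1253
import Cfsg.Agent.S1187
import Cfsg.Agent.Lib.H19.Basic
import Mathlib

set_option autoImplicit false
set_option linter.style.haveILetI false
set_option linter.unusedVariables false
set_option linter.unusedSectionVars false
open Cfsg
open scoped Pointwise

namespace Cfsg.Agent.S1253

variable {G : Type*} [Group G] [Finite G]

/-- A square root inside the cyclic group generated by an element of odd order. -/
theorem exists_sqrt (u : G) (h : Odd (orderOf u)) : ∃ w ∈ Subgroup.zpowers u, w * w = u := by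
  obtain ⟨m, hm⟩ := h
  refine ⟨u ^ (m + 1), Subgroup.npow_mem_zpowers u (m + 1), ?_⟩
  rw [← pow_add]
  have e : m + 1 + (m + 1) = orderOf u + 1 := by omega
  rw [e, pow_succ, pow_orderOf_eq_one, one_mul]

theorem inv_of_mem_zpowers {z u w : G} (hz : z * z = 1) (hu : z * u * z⁻¹ = u⁻¹)
    (hw : w ∈ Subgroup.zpowers u) : z * w * z⁻¹ = w⁻¹ := by
  obtain ⟨k, rfl⟩ := Subgroup.mem_zpowers_iff.1 hw
  have : z * u ^ k * z⁻¹ = (z * u * z⁻¹) ^ k := by
    rw [conj_zpow]
  rw [this, hu, inv_zpow]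

/-- Conjugacy of invariant Sylow subgroups under the centralizer. -/
theorem conj_fix (z : G) (hz : Cfsg.IsIsolatedInvolution z) {p : ℕ} [Fact p.Prime] (hp : p ≠ 2)
    (P Q : Sylow p G) (hzP : z ∈ Subgroup.normalizer ((P : Subgroup G) : Set G))
    (hzQ : z ∈ Subgroup.normalizer ((Q : Subgroup G) : Set G)) :
    ∃ h ∈ Subgroup.centralizer ({z} : Set G), ∀ x, x ∈ (Q : Subgroup G) ↔ h⁻¹ * x * h ∈ (P : Subgroup G) := by
  classical
  have hzo : orderOf z = 2 := hz.1
  have hzz : z * z = 1 := by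
    rw [← pow_two, ← hzo]; exact pow_orderOf_eq_one z
  have hzinv : z⁻¹ = z := inv_eq_of_mul_eq_one_left hzz
  obtain ⟨g, hg⟩ := MulAction.exists_smul_eq G P Q
  have hgm : ∀ x, x ∈ (Q : Subgroup G) ↔ g⁻¹ * x * g ∈ (P : Subgroup G) := by
    intro x
    rw [← hg, Sylow.coe_subgroup_smul, Cfsg.Agent.H19.mem_conj_smul]
  have hcomm := Cfsg.Agent.H15.zstar_theorem G z hz
  let N : Subgroup G := oddCore G
  haveI hNn : N.Normal := inferInstance
  have hNodd : (Nat.card N).Coprime 2 := Cfsg.Agent.H15.card_oddCore_coprime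
  set u := g⁻¹ * (z * g * z⁻¹) with hu
  have huN : u ∈ N := by
    have h1 := hNn.conj_mem _ (hcomm g) g⁻¹
    have e : g⁻¹ * (z * g * z⁻¹ * g⁻¹) * g⁻¹⁻¹ = u := by rw [hu]; group
    rwa [e] at h1
  have huinv : z * u * z⁻¹ = u⁻¹ := by
    rw [hu, hzinv]
    calc z * (g⁻¹ * (z * g * z)) * z = z * g⁻¹ * z * g * (z * z) := by group
      _ = z * g⁻¹ * z * g := by rw [hzz, mul_one]
      _ = z⁻¹ * g⁻¹ * z⁻¹ * g := by rw [hzinv]
      _ = (g⁻¹ * (z * g * z))⁻¹ := by group
  have huodd : Odd (orderOf u) := by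
    have h1 : orderOf u ∣ Nat.card N := by
      have := orderOf_dvd_natCard (⟨u, huN⟩ : N)
      rwa [Subgroup.orderOf_mk] at this
    have h2 : (orderOf u).Coprime 2 := Nat.Coprime.coprime_dvd_left h1 hNodd
    exact Nat.Coprime.odd_of_right h2
  obtain ⟨w, hwu, hww⟩ := exists_sqrt u huodd
  have hwinv : z * w * z⁻¹ = w⁻¹ := inv_of_mem_zpowers hzz huinv hwu
  -- `u` normalizes `P`
  have hzPm : ∀ x, x ∈ (P : Subgroup G) ↔ z * x * z⁻¹ ∈ (P : Subgroup G) :=
    fun x => (Subgroup.mem_normalizer_iff.1 hzP) x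
  have hzQm : ∀ x, x ∈ (Q : Subgroup G) ↔ z * x * z⁻¹ ∈ (Q : Subgroup G) :=
    fun x => (Subgroup.mem_normalizer_iff.1 hzQ) x
  have hun : u ∈ Subgroup.normalizer ((P : Subgroup G) : Set G) := by
    rw [Subgroup.mem_normalizer_iff]
    intro x
    have e : u * x * u⁻¹ = g⁻¹ * (z * (g * (z⁻¹ * x * z) * g⁻¹) * z⁻¹) * g := by
      rw [hu]; group
    rw [e, ← hgm, ← hzQm, hgm]
    have e2 : g⁻¹ * (g * (z⁻¹ * x * z) * g⁻¹) * g = z⁻¹ * x * z := by group
    rw [e2]
    have e3 := hzPm (z⁻¹ * x * z)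
    have e4 : z * (z⁻¹ * x * z) * z⁻¹ = x := by group
    rw [e4] at e3
    exact e3.symm
  have hwn : w ∈ Subgroup.normalizer ((P : Subgroup G) : Set G) := by
    have : Subgroup.zpowers u ≤ Subgroup.normalizer ((P : Subgroup G) : Set G) := by
      rw [Subgroup.zpowers_le]; exact hun
    exact this hwu
  refine ⟨g * w, ?_, ?_⟩
  · rw [Subgroup.mem_centralizer_singleton_iff]
    have h1 : z * g * z⁻¹ = g * u := by rw [hu]; group
    have h2 : z * (g * w) * z⁻¹ = g * w := by
      calc z * (g * w) * z⁻¹ = (z * g * z⁻¹) * (z * w * z⁻¹) := by group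
        _ = g * u * w⁻¹ := by rw [h1, hwinv]
        _ = g * (w * w) * w⁻¹ := by rw [hww]
        _ = g * w := by group
    rw [mul_inv_eq_iff_eq_mul] at h2
    exact h2.symm
  · intro x
    rw [hgm]
    have e : (g * w)⁻¹ * x * (g * w) = w⁻¹ * (g⁻¹ * x * g) * w := by group
    rw [e]
    have h3 := (Subgroup.mem_normalizer_iff.1 (Subgroup.inv_mem _ hwn)) (g⁻¹ * x * g)
    rw [inv_inv] at h3
    exact h3

/-- Let z be an isolated involution of the finite group G with centralizer C, p an odd prime and P a Sylow p-subgroup of G normalized by z. Then P ∩ C has p-power-free index in C (it is a Sylow p-subgroup of C), and |P : C_P(z)| equals the number of elements x ∈ P with z x z⁻¹ = x⁻¹. -/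
theorem result {G : Type*} [Group G] [Finite G] (z : G) (hz : Cfsg.IsIsolatedInvolution z) {p : ℕ} [Fact p.Prime] (hp : p ≠ 2) (P : Sylow p G) (hzP : z ∈ Subgroup.normalizer ((P : Subgroup G) : Set G)) : ¬ p ∣ ((P : Subgroup G) ⊓ Subgroup.centralizer ({z} : Set G)).relIndex (Subgroup.centralizer ({z} : Set G)) ∧ ((P : Subgroup G) ⊓ Subgroup.centralizer ({z} : Set G)).relIndex (P : Subgroup G) = Nat.card {x : G // x ∈ P ∧ z * x * z⁻¹ = x⁻¹} := by
  classical
  have hzo : orderOf z = 2 := hz.1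
  have hzz : z * z = 1 := by
    rw [← pow_two, ← hzo]; exact pow_orderOf_eq_one z
  have hzinv : z⁻¹ = z := inv_eq_of_mul_eq_one_left hzz
  set C := Subgroup.centralizer ({z} : Set G) with hC
  have hmemC : ∀ x, x ∈ C ↔ x * z = z * x := fun x => by
    rw [hC, Subgroup.mem_centralizer_singleton_iff]
  have hzPm : ∀ x, x ∈ (P : Subgroup G) ↔ z * x * z⁻¹ ∈ (P : Subgroup G) :=
    fun x => (Subgroup.mem_normalizer_iff.1 hzP) x
  constructor
  · -- Part one
    let X : Subgroup C := ((P : Subgroup G) ⊓ C).subgroupOf C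
    have hXp : IsPGroup p X := by
      have h1 : IsPGroup p ((P : Subgroup G) ⊓ C : Subgroup G) := P.isPGroup'.to_le inf_le_left
      exact IsPGroup.comap_of_injective h1 C.subtype C.subtype_injective
    obtain ⟨W, hW⟩ := hXp.exists_le_sylow
    let R : Subgroup G := (W : Subgroup C).map C.subtype
    have hRC : R ≤ C := by
      rintro _ ⟨y, _, rfl⟩
      exact y.2
    have hRp : IsPGroup p R := W.isPGroup'.map C.subtype
    have hzn : ∀ R' : Subgroup G, R' ≤ C → z ∈ Subgroup.normalizer (R' : Set G) := by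
      intro R' h
      rw [Subgroup.mem_normalizer_iff]
      intro x
      by_cases hx : x ∈ R'
      · have h1 : z * x * z⁻¹ = x := by
          have := (hmemC x).1 (h hx)
          rw [← this]; group
        rw [h1]
      · have h1 : z * x * z⁻¹ ∉ R' := by
          intro h2
          have h3 := (hmemC _).1 (h h2)
          have h4 : z * x * z⁻¹ = x := by
            have e : z * (z * x * z⁻¹) * z⁻¹ = x := by
              rw [hzinv]
              calc z * (z * x * z) * z = (z * z) * x * (z * z) := by group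
                _ = x := by rw [hzz]; group
            rw [← h3] at e
            have e2 : z * x * z⁻¹ * z * z⁻¹ = z * x * z⁻¹ := by group
            rw [e2] at e
            exact e
          rw [h4] at h2
          exact hx h2
        simp [hx, h1]
    -- a maximal invariant `p`-subgroup above `R`
    let S : Set (Subgroup G) := {T | IsPGroup p T ∧ z ∈ Subgroup.normalizer (T : Set G)}
    have hRS : R ∈ S := ⟨hRp, hzn R hRC⟩
    obtain ⟨Q, hRQ, hQmax⟩ := (Set.toFinite S).exists_le_maximal hRS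
    obtain ⟨Q', hQ'⟩ := Cfsg.Agent.S1187.result z hz Q hQmax.prop.1 hQmax.prop.2 (fun T hT1 hT2 hT3 => by
      have hTS : T ∈ S := ⟨hT1, hT2⟩
      exact le_antisymm (hQmax.le_of_ge hTS hT3) hT3)
    obtain ⟨h, hhC, hhm⟩ := conj_fix z hz hp P Q' hzP (by rw [hQ']; exact hQmax.prop.2)
    -- comparing cardinalities
    let φ : ((P : Subgroup G) ⊓ C : Subgroup G) → G := fun y => h * y.1 * h⁻¹
    have hh1 : h⁻¹ ∈ C := C.inv_mem hhC
    have hcard : Nat.card (Q' ⊓ C : Subgroup G) ≤ Nat.card ((P : Subgroup G) ⊓ C : Subgroup G) := by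
      apply Nat.card_le_card_of_injective (fun y : ((Q' : Subgroup G) ⊓ C : Subgroup G) =>
        (⟨h⁻¹ * y.1 * h, (hhm _).1 y.2.1, C.mul_mem (C.mul_mem hh1 y.2.2) hhC⟩ :
          ((P : Subgroup G) ⊓ C : Subgroup G)))
      intro a b hab
      have := congrArg Subtype.val hab
      apply Subtype.ext
      simpa using this
    have hRle : R ≤ ((Q' : Subgroup G) ⊓ C : Subgroup G) := le_inf (hQ' ▸ hRQ) hRC
    have hcR : Nat.card R = Nat.card (W : Subgroup C) :=
      Nat.card_congr ((W : Subgroup C).equivMapOfInjective C.subtype C.subtype_injective).toEquiv.symm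
    have hcX : Nat.card X = Nat.card ((P : Subgroup G) ⊓ C : Subgroup G) :=
      Nat.card_congr (Subgroup.subgroupOfEquivOfLe inf_le_right).toEquiv
    have hXW : X = (W : Subgroup C) := by
      apply Subgroup.eq_of_le_of_card_ge hW
      rw [hcX, ← hcR]
      exact (Subgroup.card_le_of_le hRle).trans hcard
    have : ((P : Subgroup G) ⊓ C).relIndex C = (W : Subgroup C).index := by
      rw [Subgroup.relIndex, ← hXW]
    rw [this]
    exact W.not_dvd_index
  · -- Part two
    let H : Subgroup ↥(P : Subgroup G) := ((P : Subgroup G) ⊓ C).subgroupOf (P : Subgroup G)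
    have hmemH : ∀ x : ↥(P : Subgroup G), x ∈ H ↔ x.1 * z = z * x.1 := by
      intro x
      constructor
      · intro h
        exact (hmemC _).1 (Subgroup.mem_subgroupOf.1 h).2
      · intro h
        exact Subgroup.mem_subgroupOf.2 ⟨x.2, (hmemC _).2 h⟩
    let f : ↥(P : Subgroup G) → {x : G // x ∈ P ∧ z * x * z⁻¹ = x⁻¹} := fun x =>
      ⟨x.1 * (z * x.1⁻¹ * z⁻¹), (P : Subgroup G).mul_mem x.2 ((hzPm _).1 ((P : Subgroup G).inv_mem x.2)), by
        rw [hzinv]
        calc z * (x.1 * (z * x.1⁻¹ * z)) * z = z * x.1 * z * x.1⁻¹ * (z * z) := by group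
          _ = z * x.1 * z * x.1⁻¹ := by rw [hzz, mul_one]
          _ = z⁻¹ * x.1 * z⁻¹ * x.1⁻¹ := by rw [hzinv]
          _ = (x.1 * (z * x.1⁻¹ * z))⁻¹ := by group⟩
    have hf : ∀ a b : ↥(P : Subgroup G), f a = f b ↔ a⁻¹ * b ∈ H := by
      intro a b
      rw [hmemH]
      constructor
      · intro h
        have h1 : a.1 * (z * a.1⁻¹ * z⁻¹) = b.1 * (z * b.1⁻¹ * z⁻¹) := congrArg Subtype.val h
        have h2 : a.1 * z * a.1⁻¹ = b.1 * z * b.1⁻¹ := by
          have := congrArg (· * z) h1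
          simpa [mul_assoc] using this
        show a.1⁻¹ * b.1 * z = z * (a.1⁻¹ * b.1)
        have h3 : z = a.1⁻¹ * (b.1 * z * b.1⁻¹) * a.1 := by
          rw [← h2]; group
        calc a.1⁻¹ * b.1 * z = (a.1⁻¹ * (b.1 * z * b.1⁻¹) * a.1) * (a.1⁻¹ * b.1) := by group
          _ = z * (a.1⁻¹ * b.1) := by rw [← h3]
      · intro h
        apply Subtype.ext
        have h' : a.1⁻¹ * b.1 * z = z * (a.1⁻¹ * b.1) := h
        show a.1 * (z * a.1⁻¹ * z⁻¹) = b.1 * (z * b.1⁻¹ * z⁻¹)
        have h2 : b.1 * z * b.1⁻¹ = a.1 * z * a.1⁻¹ := by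
          calc b.1 * z * b.1⁻¹ = a.1 * (a.1⁻¹ * b.1 * z) * b.1⁻¹ := by group
            _ = a.1 * (z * (a.1⁻¹ * b.1)) * b.1⁻¹ := by rw [h']
            _ = a.1 * z * a.1⁻¹ := by group
        calc a.1 * (z * a.1⁻¹ * z⁻¹) = (a.1 * z * a.1⁻¹) * z⁻¹ := by group
          _ = (b.1 * z * b.1⁻¹) * z⁻¹ := by rw [h2]
          _ = b.1 * (z * b.1⁻¹ * z⁻¹) := by group
    let F : (↥(P : Subgroup G) ⧸ H) → {x : G // x ∈ P ∧ z * x * z⁻¹ = x⁻¹} :=
      Quotient.lift f (fun a b hab => (hf a b).2 (QuotientGroup.leftRel_apply.1 hab))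
    have hFb : Function.Bijective F := by
      constructor
      · intro a b hab
        obtain ⟨a, rfl⟩ := QuotientGroup.mk_surjective a
        obtain ⟨b, rfl⟩ := QuotientGroup.mk_surjective b
        exact QuotientGroup.eq.2 ((hf a b).1 hab)
      · rintro ⟨y, hyP, hyz⟩
        have hyodd : Odd (orderOf y) := by
          have h1 : orderOf y ∣ Nat.card (P : Subgroup G) := by
            have := orderOf_dvd_natCard (⟨y, hyP⟩ : ↥(P : Subgroup G))
            rwa [Subgroup.orderOf_mk] at this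
          obtain ⟨n, hn⟩ := IsPGroup.iff_card.1 P.isPGroup'
          have h2 : (Nat.card (P : Subgroup G)).Coprime 2 := by
            rw [hn]
            apply Nat.Coprime.pow_left
            exact (Nat.coprime_primes (Fact.out) Nat.prime_two).2 hp
          exact Nat.Coprime.odd_of_right (Nat.Coprime.coprime_dvd_left h1 h2)
        obtain ⟨w, hwy, hww⟩ := exists_sqrt y hyodd
        have hwz := inv_of_mem_zpowers hzz hyz hwy
        have hwP : w ∈ (P : Subgroup G) := by
          have : Subgroup.zpowers y ≤ (P : Subgroup G) := by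
            rw [Subgroup.zpowers_le]; exact hyP
          exact this hwy
        refine ⟨((⟨w, hwP⟩ : ↥(P : Subgroup G)) : ↥(P : Subgroup G) ⧸ H), ?_⟩
        apply Subtype.ext
        show w * (z * w⁻¹ * z⁻¹) = y
        have e : z * w⁻¹ * z⁻¹ = (z * w * z⁻¹)⁻¹ := by group
        rw [e, hwz, inv_inv, hww]
    have : ((P : Subgroup G) ⊓ C).relIndex (P : Subgroup G) = H.index := rfl
    rw [this, Subgroup.index]
    exact Nat.card_eq_of_bijective F hFb

end Cfsg.Agent.S1253
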