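import Cfsg.Statements.S1255
import Cfsg.Agent.Lib.H05.Dih4
-- import your own Cfsg.Agent.* helpers here

set_option autoImplicit false
open Cfsg

namespace Cfsg.Agent.S1255

/-- Let X be a finite group whose Sylow 2-subgroup S is dihedral of order 2m ≥ 4. Then X has no subgroup of index 2 and no isolated involution if and only if either all involutions of X are conjugate, or for every Klein four-subgroup U ≤ S the index |N_X(U) : C_X(U)| equals 3 when |S| = 4 and equals 6 when |S| > 4. -/
theorem result {X : Type*} [Group X] [Finite X] (S : Sylow 2 X) (m : ℕ) (hm : 2 ≤ m) (eS : (S : Subgroup X) ≃* DihedralGroup m) : ((∀ H : Subgroup X, H.index ≠ 2) ∧ (∀ z : X, ¬ Cfsg.IsIsolatedInvolution z)) ↔ ((∀ a b : X, orderOf a = 2 → orderOf b = 2 → IsConj a b) ∨ (∀ U : Subgroup X, U ≤ S → IsKleinFour U → (Subgroup.centralizer (U : Set X)).relIndex (Subgroup.normalizer (U : Set X)) = (if Nat.card S = 4 then 3 else 6))) := by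
  classical
  obtain ⟨k, hk, rfl⟩ := H05.dih_two_pow S hm eS
  obtain ⟨n, rfl⟩ : ∃ n, k = n + 1 := ⟨k - 1, by omega⟩
  haveI hne : NeZero (2 ^ (n + 1)) := ⟨by positivity⟩
  have hAimp := H05.lhs_of_all S eS
  constructor
  · rintro ⟨h2, h3⟩
    left
    intro a b ha hb
    have key := H05.all_refl_conj S eS h2
    exact (H05.all_of_refl S eS key ha).trans (H05.all_of_refl S eS key hb).symm
  · rintro (hA | hB)
    · exact hAimp hA
    · apply hAimp
      have key : ∀ i, IsConj (H05.jD S eS (DihedralGroup.sr i)) (H05.jD S eS (H05.zD n)) := by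
        intro i
        apply H05.three_conj S eS i
        rw [hB _ (H05.map_le_P S eS _) (H05.isKlein_map S eS i)]
        split_ifs <;> norm_num
      intro a b ha hb
      exact (H05.all_of_refl S eS key ha).trans (H05.all_of_refl S eS key hb).symm


end Cfsg.Agent.S1255
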