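import Cfsg.Statements.S1256
import Cfsg.Agent.Lib.H05.Dih5
-- import your own Cfsg.Agent.* helpers here

set_option autoImplicit false
open Cfsg

namespace Cfsg.Agent.S1256

/-- Let X be a finite group whose Sylow 2-subgroup S is dihedral of order 2m ≥ 4. If |S| = 4, any two Klein four-subgroups of X are conjugate; if |S| > 4, there are Klein four-subgroups U₁, U₂ of X that are not conjugate, and every Klein four-subgroup of X is conjugate to U₁ or to U₂. -/
theorem result {X : Type*} [Group X] [Finite X] (S : Sylow 2 X) (m : ℕ) (hm : 2 ≤ m) (eS : (S : Subgroup X) ≃* DihedralGroup m) : (Nat.card S = 4 → ∀ U V : Subgroup X, IsKleinFour U → IsKleinFour V → (∃ x : X, U.map (MulAut.conj x).toMonoidHom = V)) ∧ (4 < Nat.card S → ∃ U₁ U₂ : Subgroup X, IsKleinFour U₁ ∧ IsKleinFour U₂ ∧ ¬ (∃ x : X, U₁.map (MulAut.conj x).toMonoidHom = U₂) ∧ ∀ V : Subgroup X, IsKleinFour V → (∃ x : X, V.map (MulAut.conj x).toMonoidHom = U₁) ∨ (∃ x : X, V.map (MulAut.conj x).toMonoidHom = U₂)) := by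
  classical
  haveI : Fact (Nat.Prime 2) := ⟨Nat.prime_two⟩
  constructor
  · intro hc U V hU hV
    have hpU : IsPGroup 2 U := IsPGroup.of_card (n := 2) (by rw [hU.card_four]; norm_num)
    have hpV : IsPGroup 2 V := IsPGroup.of_card (n := 2) (by rw [hV.card_four]; norm_num)
    obtain ⟨g, hg⟩ := H05.exists_conj_le_syl S hpU
    obtain ⟨h, hh⟩ := H05.exists_conj_le_syl S hpV
    have h1 : U.map (MulAut.conj g).toMonoidHom = (S : Subgroup X) := by
      apply Subgroup.eq_of_le_of_card_ge hg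
      rw [Cfsg.Agent.H13.card_map_conj, hU.card_four]
      exact hc.le
    have h2 : V.map (MulAut.conj h).toMonoidHom = (S : Subgroup X) := by
      apply Subgroup.eq_of_le_of_card_ge hh
      rw [Cfsg.Agent.H13.card_map_conj, hV.card_four]
      exact hc.le
    refine ⟨h⁻¹ * g, ?_⟩
    rw [← Cfsg.Agent.H13.map_conj_mul, h1, ← h2, Cfsg.Agent.H13.map_conj_inv_map_conj]
  · intro hc
    obtain ⟨k, hk, rfl⟩ := H05.dih_two_pow S hm eS
    obtain ⟨n, rfl⟩ : ∃ n, k = n + 1 := ⟨k - 1, by omega⟩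
    haveI hne : NeZero (2 ^ (n + 1)) := ⟨by positivity⟩
    have hn : 1 ≤ n := by
      rw [Nat.card_congr eS.toEquiv, DihedralGroup.nat_card] at hc
      rcases n with _ | n
      · norm_num at hc
      · omega
    refine ⟨_, _, H05.isKlein_map S eS 0, H05.isKlein_map S eS 1, ?_, ?_⟩
    · rintro ⟨x, hx⟩
      exact H05.klein_not_conj S eS hn x hx
    · intro V hV
      exact H05.klein_conj_std S eS hV


end Cfsg.Agent.S1256
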