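import Cfsg.Statements.S1286
-- import your own Cfsg.Agent.* helpers here

set_option autoImplicit false
open Cfsg

namespace Cfsg.Agent.S1286

set_option maxRecDepth 100000
set_option maxHeartbeats 4000000

/-- There exist a finite group X, an elementary abelian subgroup A of order 4 and a solvable A-signalizer functor θ on X for the prime 2 which is not complete. -/
theorem result : ∃ (X : Type) (_ : Group X) (_ : Finite X) (A : Subgroup X) (θ : X → Subgroup X), Cfsg.IsElementaryAbelian 2 A ∧ Nat.card ↥A = 4 ∧ Cfsg.IsSolvableSignalizerFunctor 2 A θ ∧ ¬ Cfsg.IsCompleteSignalizerFunctor 2 A θ := by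
  classical
  let a : Equiv.Perm (Fin 5) := Equiv.swap 0 1
  let b : Equiv.Perm (Fin 5) := Equiv.swap 2 3
  let u : Equiv.Perm (Fin 5) := Equiv.swap 2 3 * Equiv.swap 3 4
  let v : Equiv.Perm (Fin 5) := Equiv.swap 0 1 * Equiv.swap 1 4
  let A : Subgroup (Equiv.Perm (Fin 5)) :=
    { carrier := {1, a, b, a * b}
      one_mem' := by simp
      mul_mem' := by
        have : ∀ x ∈ ({1, a, b, a * b} : Finset (Equiv.Perm (Fin 5))), ∀ y ∈ ({1, a, b, a * b} : Finset (Equiv.Perm (Fin 5))), x * y ∈ ({1, a, b, a * b} : Finset (Equiv.Perm (Fin 5))) := by decide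
        intro x y hx hy
        have hx' : x ∈ ({1, a, b, a * b} : Finset (Equiv.Perm (Fin 5))) := by simpa using hx
        have hy' : y ∈ ({1, a, b, a * b} : Finset (Equiv.Perm (Fin 5))) := by simpa using hy
        simpa using this x hx' y hy'
      inv_mem' := by
        have : ∀ x ∈ ({1, a, b, a * b} : Finset (Equiv.Perm (Fin 5))), x⁻¹ ∈ ({1, a, b, a * b} : Finset (Equiv.Perm (Fin 5))) := by decide
        intro x hx
        have hx' : x ∈ ({1, a, b, a * b} : Finset (Equiv.Perm (Fin 5))) := by simpa using hx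
        simpa using this x hx' }
  have hAcases : ∀ x ∈ A, x = 1 ∨ x = a ∨ x = b ∨ x = a * b := by
    intro x hx
    simpa [A] using hx
  have haA : a ∈ A := by simp [A]
  have hbA : b ∈ A := by simp [A]
  have habA : a * b ∈ A := by simp [A]
  let θ : Equiv.Perm (Fin 5) → Subgroup (Equiv.Perm (Fin 5)) := fun g =>
    if g = a then Subgroup.zpowers u else if g = b then Subgroup.zpowers v else ⊥
  have hθa : θ a = Subgroup.zpowers u := by simp [θ]
  have hθb : θ b = Subgroup.zpowers v := by
    have : b ≠ a := by decide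
    simp [θ, this]
  have hθab : θ (a * b) = ⊥ := by
    have h1 : a * b ≠ a := by decide
    have h2 : a * b ≠ b := by decide
    simp [θ, h1, h2]
  have hu3 : orderOf u = 3 := by
    have : Fact (Nat.Prime 3) := ⟨by norm_num⟩
    exact orderOf_eq_prime (by decide) (by decide)
  have hv3 : orderOf v = 3 := by
    have : Fact (Nat.Prime 3) := ⟨by norm_num⟩
    exact orderOf_eq_prime (by decide) (by decide)
  have hcase3 : ∀ w : Equiv.Perm (Fin 5), orderOf w = 3 → ∀ x ∈ Subgroup.zpowers w, x = 1 ∨ x = w ∨ x = w⁻¹ := by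
    intro w hw x hx
    obtain ⟨k, rfl⟩ := Subgroup.mem_zpowers_iff.mp hx
    have hk : w ^ k = w ^ (k % 3) := by
      rw [← zpow_mod_orderOf, hw]
      rfl
    have hw3 : w ^ 3 = 1 := by rw [← hw]; exact pow_orderOf_eq_one w
    have h3 : k % 3 = 0 ∨ k % 3 = 1 ∨ k % 3 = 2 := by omega
    rw [hk]
    rcases h3 with h3 | h3 | h3
    · left
      rw [h3, zpow_zero]
    · right; left
      rw [h3, zpow_one]
    · right; right
      rw [h3, eq_inv_iff_mul_eq_one, show (2 : ℤ) = ((2 : ℕ) : ℤ) from rfl, zpow_natCast, ← pow_succ, hw3]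
  have hsolv : ∀ w : Equiv.Perm (Fin 5), Group.IsSolvable (Subgroup.zpowers w) := by
    intro w
    apply Group.isSolvable_of_comm
    rintro ⟨_, k, rfl⟩ ⟨_, l, rfl⟩
    apply Subtype.ext
    show w ^ k * w ^ l = w ^ l * w ^ k
    rw [← zpow_add, ← zpow_add, add_comm]
  refine ⟨Equiv.Perm (Fin 5), inferInstance, inferInstance, A, θ, ⟨⟨⟨?_⟩⟩, ?_⟩, ?_, ⟨⟨?_, ?_, ?_, ?_⟩, ?_⟩, ?_⟩
  · rintro ⟨x, hx⟩ ⟨y, hy⟩
    apply Subtype.ext
    show x * y = y * x
    have hc := hAcases x hx
    have hd := hAcases y hy
    have key : ∀ x ∈ ({1, a, b, a * b} : Finset (Equiv.Perm (Fin 5))), ∀ y ∈ ({1, a, b, a * b} : Finset (Equiv.Perm (Fin 5))), x * y = y * x := by decide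
    apply key
    · simpa using hc
    · simpa using hd
  · intro x hx
    have key : ∀ x ∈ ({1, a, b, a * b} : Finset (Equiv.Perm (Fin 5))), x ^ 2 = 1 := by decide
    apply key
    simpa using hAcases x hx
  · -- the cardinality
    have : (A : Set (Equiv.Perm (Fin 5))) = (({1, a, b, a * b} : Finset (Equiv.Perm (Fin 5))) : Set (Equiv.Perm (Fin 5))) := by
      ext x
      simp [A]
    rw [show Nat.card A = Nat.card (A : Set (Equiv.Perm (Fin 5))) from rfl, this, Nat.card_coe_set_eq, Set.ncard_coe_finset]
    decide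
  · -- centralizer
    intro c hc hc1
    rcases hAcases c hc with rfl | rfl | rfl | rfl
    · exact absurd rfl hc1
    · rw [hθa, Subgroup.zpowers_le, Subgroup.mem_centralizer_iff]
      intro h hh
      rw [Set.mem_singleton_iff.mp hh]
      decide
    · rw [hθb, Subgroup.zpowers_le, Subgroup.mem_centralizer_iff]
      intro h hh
      rw [Set.mem_singleton_iff.mp hh]
      decide
    · rw [hθab]
      exact bot_le
  · intro c hc hc1
    rcases hAcases c hc with rfl | rfl | rfl | rfl
    · exact absurd rfl hc1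
    · rw [hθa, Nat.card_zpowers, hu3]
      decide
    · rw [hθb, Nat.card_zpowers, hv3]
      decide
    · rw [hθab, Subgroup.card_bot]
      decide
  · -- invariance
    have hinv : ∀ (w c : Equiv.Perm (Fin 5)), c * w * c⁻¹ = w ∨ c * w * c⁻¹ = w⁻¹ → ∀ x ∈ Subgroup.zpowers w, c * x * c⁻¹ ∈ Subgroup.zpowers w := by
      intro w c hcw x hx
      have h0 : Subgroup.zpowers w ≤ (Subgroup.zpowers w).comap (MulAut.conj c).toMonoidHom := by
        rw [Subgroup.zpowers_le, Subgroup.mem_comap]
        show c * w * c⁻¹ ∈ Subgroup.zpowers w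
        rcases hcw with h | h
        · rw [h]
          exact Subgroup.mem_zpowers w
        · rw [h]
          exact Subgroup.inv_mem _ (Subgroup.mem_zpowers w)
      exact h0 hx
    intro c hc hc1 d hd x hx
    rcases hAcases c hc with rfl | rfl | rfl | rfl
    · exact absurd rfl hc1
    · rw [hθa] at hx ⊢
      apply hinv u d _ x hx
      rcases hAcases d hd with rfl | rfl | rfl | rfl
      all_goals first | (left; decide) | (right; decide)
    · rw [hθb] at hx ⊢
      apply hinv v d _ x hx
      rcases hAcases d hd with rfl | rfl | rfl | rfl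
      all_goals first | (left; decide) | (right; decide)
    · rw [hθab, Subgroup.mem_bot] at hx
      rw [hθab, Subgroup.mem_bot, hx]
      group
  · -- balance
    intro c hc hc1 d hd hd1 x hx
    obtain ⟨h1, h2⟩ := Subgroup.mem_inf.mp hx
    have hcomm : x * d = d * x := (Subgroup.mem_centralizer_iff.mp h2 d rfl).symm
    rcases hAcases c hc with rfl | rfl | rfl | rfl
    · exact absurd rfl hc1
    · rcases hAcases d hd with rfl | rfl | rfl | rfl
      · exact absurd rfl hd1
      · exact h1
      · rw [hθa] at h1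
        rcases hcase3 u hu3 x h1 with rfl | rfl | rfl
        · exact one_mem _
        · exact absurd hcomm (by decide)
        · exact absurd hcomm (by decide)
      · rw [hθa] at h1
        rcases hcase3 u hu3 x h1 with rfl | rfl | rfl
        · exact one_mem _
        · exact absurd hcomm (by decide)
        · exact absurd hcomm (by decide)
    · rcases hAcases d hd with rfl | rfl | rfl | rfl
      · exact absurd rfl hd1
      · rw [hθb] at h1
        rcases hcase3 v hv3 x h1 with rfl | rfl | rfl
        · exact one_mem _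
        · exact absurd hcomm (by decide)
        · exact absurd hcomm (by decide)
      · exact h1
      · rw [hθb] at h1
        rcases hcase3 v hv3 x h1 with rfl | rfl | rfl
        · exact one_mem _
        · exact absurd hcomm (by decide)
        · exact absurd hcomm (by decide)
    · rw [hθab, Subgroup.mem_bot] at h1
      rw [h1]
      exact one_mem _
  · -- solvable
    intro c hc hc1
    rcases hAcases c hc with rfl | rfl | rfl | rfl
    · exact absurd rfl hc1
    · rw [hθa]
      exact hsolv u
    · rw [hθb]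
      exact hsolv v
    · rw [hθab]
      exact hsolv 1 |> fun _ => by
        apply Group.isSolvable_of_comm
        intro x y
        apply Subtype.ext
        have hx : (x : Equiv.Perm (Fin 5)) = 1 := Subgroup.mem_bot.mp x.2
        have hy : (y : Equiv.Perm (Fin 5)) = 1 := Subgroup.mem_bot.mp y.2
        show (x : Equiv.Perm (Fin 5)) * y = y * x
        rw [hx, hy]
  · -- not complete
    rintro ⟨-, X₀, -, hodd, hX⟩
    have h1 : u ∈ X₀ := by
      have h2 := hX a haA (by decide)
      rw [hθa] at h2
      have h3 : u ∈ X₀ ⊓ Subgroup.centralizer {a} := by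
        rw [h2]
        exact Subgroup.mem_zpowers u
      exact (Subgroup.mem_inf.mp h3).1
    have h4 : v ∈ X₀ := by
      have h2 := hX b hbA (by decide)
      rw [hθb] at h2
      have h3 : v ∈ X₀ ⊓ Subgroup.centralizer {b} := by
        rw [h2]
        exact Subgroup.mem_zpowers v
      exact (Subgroup.mem_inf.mp h3).1
    have h5 : u⁻¹ * v⁻¹ * u⁻¹ * v ∈ X₀ :=
      mul_mem (mul_mem (mul_mem (Subgroup.inv_mem _ h1) (Subgroup.inv_mem _ h4)) (Subgroup.inv_mem _ h1)) h4
    have h6 : orderOf (u⁻¹ * v⁻¹ * u⁻¹ * v) = 2 :=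
      orderOf_eq_prime (by decide) (by decide)
    apply hodd
    have h7 : orderOf (⟨_, h5⟩ : X₀) ∣ Nat.card X₀ := orderOf_dvd_natCard _
    rw [Subgroup.orderOf_mk, h6] at h7
    exact h7

end Cfsg.Agent.S1286
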