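import Cfsg.Statements.S1300
-- import your own Cfsg.Agent.* helpers here

set_option autoImplicit false
open Cfsg

namespace Cfsg.Agent.S1300

/-- For a finite group G, balance in the sense of commuting involutions is the same as 1-balance for the prime 2. -/
theorem result {G : Type*} [Group G] [Finite G] : Cfsg.IsBalanced G ↔ Cfsg.IsKBalanced 2 1 G := by
  constructor
  · intro h A hA hcard b hb hab x hx
    obtain ⟨h1, h2⟩ := Subgroup.mem_inf.mp hx
    -- the nonidentity element of `A`
    have h5 : Nontrivial A := (Subgroup.nontrivial_iff_ne_bot A).mpr (by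
      rintro rfl
      rw [Subgroup.card_bot] at hcard
      norm_num at hcard)
    obtain ⟨a, ha⟩ := exists_ne (1 : A)
    have ha1 : (a : G) ≠ 1 := fun h => ha (Subtype.ext h)
    have ha2 : orderOf (a : G) = 2 := orderOf_eq_prime (hA.2 a a.2) ha1
    have hx2 : x ∈ Cfsg.centralizerPPrimeCore 2 (a : G) := by
      have := Subgroup.mem_iInf.mp h1 ⟨(a : G), a.2, ha1⟩
      exact this
    have h7 := h (a : G) b ha2 hb (hab a a.2)
    have h8 : x ∈ Cfsg.centralizerPPrimeCore 2 (a : G) ⊓ Subgroup.centralizer {b} := Subgroup.mem_inf.mpr ⟨hx2, h2⟩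
    rw [h7] at h8
    exact (Subgroup.mem_inf.mp h8).1
  · intro h x y hx hy hxy
    -- order two subgroups
    have key : ∀ x y : G, orderOf x = 2 → orderOf y = 2 → x * y = y * x →
        Cfsg.centralizerPPrimeCore 2 x ⊓ Subgroup.centralizer {y} ≤ Cfsg.centralizerPPrimeCore 2 y ⊓ Subgroup.centralizer {x} := by
      intro x y hx hy hxy
      have hA : Cfsg.IsElementaryAbelian 2 (Subgroup.zpowers x) := by
        refine ⟨⟨⟨?_⟩⟩, ?_⟩
        · rintro ⟨_, k, rfl⟩ ⟨_, l, rfl⟩
          apply Subtype.ext
          show x ^ k * x ^ l = x ^ l * x ^ k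
          rw [← zpow_add, ← zpow_add, add_comm]
        · rintro _ ⟨k, rfl⟩
          show (x ^ k) ^ 2 = 1
          rw [← zpow_natCast, ← zpow_mul, mul_comm, zpow_mul, zpow_natCast, ← hx, pow_orderOf_eq_one, one_zpow]
      have hcard : Nat.card (Subgroup.zpowers x) = 2 ^ 1 := by
        rw [Nat.card_zpowers, hx, pow_one]
      have hcomm : ∀ a ∈ Subgroup.zpowers x, a * y = y * a := by
        rintro _ ⟨k, rfl⟩
        exact ((Commute.zpow_left (show Commute x y from hxy) k))
      have hle := h _ hA hcard y hy hcomm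
      intro w hw
      obtain ⟨h1, h2⟩ := Subgroup.mem_inf.mp hw
      have hxa : x ≠ 1 := by
        rintro rfl
        rw [orderOf_one] at hx
        exact absurd hx (by decide)
      have hdelta : w ∈ Cfsg.signalizerDelta 2 (Subgroup.zpowers x) := by
        refine Subgroup.mem_iInf.mpr ?_
        rintro ⟨a, ha, ha1⟩
        -- `a = x`
        have hax : a = x := by
          obtain ⟨k, rfl⟩ := ha
          have hxx : x ^ 2 = 1 := by rw [← hx]; exact pow_orderOf_eq_one x
          show x ^ k = x
          have ha1' : x ^ k ≠ 1 := ha1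
          rw [← zpow_mod_orderOf, hx] at ha1' ⊢
          rcases Int.emod_two_eq_zero_or_one k with hk | hk
          · exfalso
            apply ha1'
            simp only [Nat.cast_ofNat, hk, zpow_zero]
          · simp only [Nat.cast_ofNat, hk, zpow_one]
        show w ∈ Cfsg.centralizerPPrimeCore 2 a
        rw [hax]
        exact h1
      have h3 := hle (Subgroup.mem_inf.mpr ⟨hdelta, h2⟩)
      refine Subgroup.mem_inf.mpr ⟨h3, ?_⟩
      -- elements of the core lie in the centralizer
      obtain ⟨z, -, rfl⟩ := h1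
      exact z.2
    exact le_antisymm (key x y hx hy hxy) (key y x hy hx hxy.symm)

end Cfsg.Agent.S1300
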