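import Cfsg.Statements.S1302
import Cfsg.Agent.Lib.H26.BaerFix
import Cfsg.Agent.Lib.H03.PConstr
import Cfsg.Agent.Lib.H19.Basic
import Cfsg.Agent.Lib.H01.Coprime4
import Mathlib

set_option autoImplicit false
set_option linter.style.haveILetI false
set_option linter.unusedVariables false

open Cfsg

namespace Cfsg.Agent.S1302

/-- Let X be a finite p-constrained group, p an odd prime, and A an abelian p-subgroup of X containing every element of order p of C_X(A). Then every subgroup of X of order prime to p that is normalized by A lies in O_{p'}(X). -/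
theorem result {X : Type*} [Group X] [Finite X] (p : ℕ) [Fact p.Prime] (hp : p ≠ 2) (hX : Cfsg.IsPConstrained p X) (A : Subgroup X) (hA : IsMulCommutative ↥A) (hAp : IsPGroup p ↥A) (hΩ : ∀ x ∈ Subgroup.centralizer (A : Set X), orderOf x = p → x ∈ A) (Q : Subgroup X) (hQ : ¬ p ∣ Nat.card ↥Q) (hAQ : A ≤ Subgroup.normalizer (Q : Set X)) : Q ≤ Cfsg.pPrimeCore p X := by
  classical
  have hpp : p.Prime := Fact.out
  haveI hKn : (pPrimeCore p X).Normal := Cfsg.Agent.H03.pPrimeCore_normal'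
  have hKc : (Nat.card (pPrimeCore p X)).Coprime p := Cfsg.Agent.H06.coprime_card_pPrimeCore p
  have hchar := Cfsg.Agent.H03.isPConstrained_iff.mp hX
  let mk : X →* X ⧸ pPrimeCore p X := QuotientGroup.mk' (pPrimeCore p X)
  have hmks : Function.Surjective mk := QuotientGroup.mk'_surjective _
  have hmk1 : ∀ x, mk x = 1 ↔ x ∈ pPrimeCore p X := fun x => QuotientGroup.eq_one_iff x
  let Ab : Subgroup (X ⧸ pPrimeCore p X) := A.map mk
  let Wb : Subgroup (X ⧸ pPrimeCore p X) := Q.map mk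
  haveI hQ0n : (pCore p (X ⧸ pPrimeCore p X)).Normal := Cfsg.Agent.H01.pCore_normal p
  have hQ0p : IsPGroup p (pCore p (X ⧸ pPrimeCore p X)) := Cfsg.Agent.H01.pCore_isPGroup p
  have hWbc : (Nat.card Wb).Coprime p := by
    have h1 : (Nat.card Q).Coprime p := ((Nat.Prime.coprime_iff_not_dvd hpp).mpr hQ).symm
    exact Nat.Coprime.coprime_dvd_left (Subgroup.card_map_dvd Q mk) h1
  have hAbp : IsPGroup p Ab := hAp.map mk
  have hAK : Disjoint A (pPrimeCore p X) := by
    apply Subgroup.disjoint_of_coprime_natCard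
    obtain ⟨k, hk⟩ := IsPGroup.iff_card.mp hAp
    rw [hk]
    exact (Nat.Coprime.pow_right k hKc).symm
  have hΩb : ∀ x ∈ pCore p (X ⧸ pPrimeCore p X), x ∈ Subgroup.centralizer (Ab : Set (X ⧸ pPrimeCore p X)) →
      orderOf x = p → x ∈ Ab := by
    intro xb _ hxb hord
    obtain ⟨x, rfl⟩ := hmks xb
    have hxp : (mk x) ^ p = 1 := by
      have := pow_orderOf_eq_one (mk x)
      rwa [hord] at this
    have hcomm : ∀ a ∈ A, x * a * x⁻¹ * a⁻¹ ∈ pPrimeCore p X := by
      intro a ha
      rw [← hmk1, map_mul, map_mul, map_mul, map_inv, map_inv]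
      have h1 : mk a * mk x = mk x * mk a :=
        Subgroup.mem_centralizer_iff.mp hxb (mk a) ⟨a, ha, rfl⟩
      rw [← h1]
      group
    haveI : Group.IsNilpotent ↥A := hAp.isNilpotent
    obtain ⟨n, hn, hnorm⟩ := Cfsg.Agent.H01.key_lemma' (A := A) (N := pPrimeCore p X)
      (by rw [Subgroup.normalizer_eq_top_iff.mpr hKn]; exact le_top)
      (by
        obtain ⟨k, hk⟩ := IsPGroup.iff_card.mp hAp
        rw [hk]
        exact (Nat.Coprime.pow_right k hKc).symm)
      (Or.inl inferInstance) hcomm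
    let n₀ : X := n * x
    have hmkn₀ : mk n₀ = mk x := by
      simp only [n₀, map_mul]
      rw [(hmk1 n).mpr hn, one_mul]
    have hn₀C : n₀ ∈ Subgroup.centralizer (A : Set X) := by
      rw [Subgroup.mem_centralizer_iff]
      intro a ha
      have h1 : n₀ * a * n₀⁻¹ ∈ A := (Subgroup.mem_normalizer_iff.mp hnorm a).mp ha
      have h2 : n₀ * a * n₀⁻¹ * a⁻¹ ∈ A := A.mul_mem h1 (A.inv_mem ha)
      have h3 : n₀ * a * n₀⁻¹ * a⁻¹ ∈ pPrimeCore p X := by
        rw [← hmk1, map_mul, map_mul, map_mul, map_inv, map_inv, hmkn₀]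
        have h4 : mk a * mk x = mk x * mk a :=
          Subgroup.mem_centralizer_iff.mp hxb (mk a) ⟨a, ha, rfl⟩
        rw [← h4]
        group
      have h4 := (Subgroup.disjoint_def.mp hAK) h2 h3
      have h5 : n₀ * a * n₀⁻¹ = a := mul_inv_eq_one.mp h4
      exact (mul_inv_eq_iff_eq_mul.mp h5).symm
    obtain ⟨u, v, huv, hcuv, ⟨k, hk⟩, hv, hu', hv'⟩ := Cfsg.Agent.H19.exists_primary_decomp p n₀
    have hvmk : mk v = 1 := by
      have h1 : orderOf (mk v) ∣ orderOf v := orderOf_map_dvd mk v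
      obtain ⟨j, hj⟩ := Subgroup.mem_zpowers_iff.mp hv'
      have h2 : mk v = (mk x) ^ j := by rw [← hj, map_zpow, hmkn₀]
      have h3 : orderOf (mk v) ∣ p := by
        apply orderOf_dvd_of_pow_eq_one
        rw [h2, ← zpow_natCast, ← zpow_mul, mul_comm, zpow_mul, zpow_natCast, hxp, one_zpow]
      have h4 : orderOf (mk v) = 1 :=
        Nat.Coprime.eq_one_of_dvd (Nat.Coprime.coprime_dvd_left h1 hv) h3
      exact orderOf_eq_one_iff.mp h4
    have humk : mk u = mk x := by
      rw [← hmkn₀, huv, map_mul, hvmk, mul_one]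
    have huC : u ∈ Subgroup.centralizer (A : Set X) :=
      (Subgroup.zpowers_le.mpr hn₀C) hu'
    have hu1 : u ≠ 1 := by
      intro h
      have h1 : mk x = 1 := by rw [← humk, h, map_one]
      rw [h1, orderOf_one] at hord
      exact hpp.one_lt.ne hord
    have hup : u ^ p = 1 := by
      have h1 : u ^ p ∈ pPrimeCore p X := by
        rw [← hmk1, map_pow, humk, hxp]
      have h2 : orderOf (u ^ p) ∣ Nat.card (pPrimeCore p X) := Subgroup.orderOf_dvd_natCard _ h1
      have h3 : orderOf (u ^ p) ∣ p ^ k := by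
        apply orderOf_dvd_of_pow_eq_one
        rw [← pow_mul, mul_comm, pow_mul, ← hk, pow_orderOf_eq_one, one_pow]
      have h4 : (Nat.card (pPrimeCore p X)).Coprime (p ^ k) := Nat.Coprime.pow_right k hKc
      have h5 := Nat.Coprime.eq_one_of_dvd (Nat.Coprime.coprime_dvd_left h2 h4) h3
      exact orderOf_eq_one_iff.mp h5
    have huA : u ∈ A := hΩ u huC (orderOf_eq_prime hup hu1)
    exact ⟨u, huA, humk⟩
  have hmain := Cfsg.Agent.H26.BaerFix.main_fix hp Ab Wb (pCore p (X ⧸ pPrimeCore p X)) hQ0p hWbc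
    (by rw [Subgroup.normalizer_eq_top_iff.mpr hQ0n]; exact le_top)
    (by rw [Subgroup.normalizer_eq_top_iff.mpr hQ0n]; exact le_top)
    ((Subgroup.map_mono hAQ).trans (Subgroup.le_normalizer_map mk)) hAbp hΩb
  have hWQ : Wb ≤ pCore p (X ⧸ pPrimeCore p X) := hmain.trans hchar
  intro y hy
  rw [← hmk1]
  have h1 : mk y ∈ Wb := ⟨y, hy, rfl⟩
  have h2 : Disjoint Wb (pCore p (X ⧸ pPrimeCore p X)) := by
    apply Subgroup.disjoint_of_coprime_natCard
    obtain ⟨k, hk⟩ := IsPGroup.iff_card.mp hQ0p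
    rw [hk]
    exact Nat.Coprime.pow_right k hWbc
  exact (Subgroup.disjoint_def.mp h2) h1 (hWQ h1)

end Cfsg.Agent.S1302
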