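import Cfsg.Statements.S1303
import Cfsg.Agent.Lib.H05.SolvL
-- import your own Cfsg.Agent.* helpers here

set_option autoImplicit false
open Cfsg

namespace Cfsg.Agent.S1303

set_option maxRecDepth 1000000
set_option maxHeartbeats 0
open scoped commutatorElement

/-- The group X = SL(2, 3): it is 2-constrained, O_{2'}(X) = 1, its centre A = Z(X) contains every involution of X = C_X(A), and X has a subgroup of order 3 (normalized by A) not contained in O_{2'}(X). -/
theorem result : Cfsg.IsPConstrained 2 (Matrix.SpecialLinearGroup (Fin 2) (ZMod 3)) ∧ Cfsg.pPrimeCore 2 (Matrix.SpecialLinearGroup (Fin 2) (ZMod 3)) = ⊥ ∧ (∀ t : Matrix.SpecialLinearGroup (Fin 2) (ZMod 3), orderOf t = 2 → t ∈ Subgroup.center (Matrix.SpecialLinearGroup (Fin 2) (ZMod 3))) ∧ ∃ Q : Subgroup (Matrix.SpecialLinearGroup (Fin 2) (ZMod 3)), Nat.card ↥Q = 3 ∧ ¬ (Q ≤ Cfsg.pPrimeCore 2 (Matrix.SpecialLinearGroup (Fin 2) (ZMod 3))) := by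
  have hsol : Group.IsSolvable (Matrix.SpecialLinearGroup (Fin 2) (ZMod 3)) := by
    let Q1 : Subgroup (Matrix.SpecialLinearGroup (Fin 2) (ZMod 3)) :=
      { carrier := {g | g ^ 4 = 1}
        one_mem' := by decide
        mul_mem' := by
          have : ∀ a b : Matrix.SpecialLinearGroup (Fin 2) (ZMod 3), a ^ 4 = 1 → b ^ 4 = 1 → (a * b) ^ 4 = 1 := by decide
          exact fun {a b} ha hb => this a b ha hb
        inv_mem' := by
          have : ∀ a : Matrix.SpecialLinearGroup (Fin 2) (ZMod 3), a ^ 4 = 1 → (a⁻¹) ^ 4 = 1 := by decide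
          exact fun {a} ha => this a ha }
    let Q2 : Subgroup (Matrix.SpecialLinearGroup (Fin 2) (ZMod 3)) :=
      { carrier := {g | g ^ 2 = 1}
        one_mem' := by decide
        mul_mem' := by
          have : ∀ a b : Matrix.SpecialLinearGroup (Fin 2) (ZMod 3), a ^ 2 = 1 → b ^ 2 = 1 → (a * b) ^ 2 = 1 := by decide
          exact fun {a b} ha hb => this a b ha hb
        inv_mem' := by
          have : ∀ a : Matrix.SpecialLinearGroup (Fin 2) (ZMod 3), a ^ 2 = 1 → (a⁻¹) ^ 2 = 1 := by decide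
          exact fun {a} ha => this a ha }
    have h1 : derivedSeries (Matrix.SpecialLinearGroup (Fin 2) (ZMod 3)) 1 ≤ Q1 := by
      rw [derivedSeries_succ, derivedSeries_zero, Subgroup.commutator_le]
      have : ∀ a b : Matrix.SpecialLinearGroup (Fin 2) (ZMod 3), (a * b * a⁻¹ * b⁻¹) ^ 4 = 1 := by decide
      exact fun a _ b _ => this a b
    have h2 : derivedSeries (Matrix.SpecialLinearGroup (Fin 2) (ZMod 3)) 2 ≤ Q2 := by
      rw [derivedSeries_succ, Subgroup.commutator_le]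
      have : ∀ a b : Matrix.SpecialLinearGroup (Fin 2) (ZMod 3), a ^ 4 = 1 → b ^ 4 = 1 → (a * b * a⁻¹ * b⁻¹) ^ 2 = 1 := by decide
      exact fun a ha b hb => this a b (h1 ha) (h1 hb)
    have h3 : derivedSeries (Matrix.SpecialLinearGroup (Fin 2) (ZMod 3)) 3 ≤ ⊥ := by
      rw [derivedSeries_succ, Subgroup.commutator_le]
      have : ∀ a b : Matrix.SpecialLinearGroup (Fin 2) (ZMod 3), a ^ 2 = 1 → b ^ 2 = 1 → a * b * a⁻¹ * b⁻¹ = 1 := by decide
      exact fun a ha b hb => this a b (h2 ha) (h2 hb)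
    exact Group.isSolvable_def _ |>.mpr ⟨3, le_bot_iff.mp h3⟩
  have hcore : Cfsg.pPrimeCore 2 (Matrix.SpecialLinearGroup (Fin 2) (ZMod 3)) = ⊥ := by
    rw [eq_bot_iff]
    refine sSup_le ?_
    rintro K ⟨hKn, hKc⟩
    intro k hk
    have hodd : ∀ y ∈ K, y ^ 3 = 1 := by
      intro y hy
      have h1 : orderOf y ∣ Nat.card K := by
        have := orderOf_dvd_natCard (⟨y, hy⟩ : K)
        rwa [Subgroup.orderOf_mk] at this
      have h2 : (orderOf y).Coprime 2 := Nat.Coprime.coprime_dvd_left h1 hKc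
      have h3 : y ^ 24 = 1 := by
        have := pow_card_eq_one' (x := y)
        have h4 : Nat.card (Matrix.SpecialLinearGroup (Fin 2) (ZMod 3)) = 24 := by
          rw [Nat.card_eq_fintype_card]
          decide
        rwa [h4] at this
      have h4 : orderOf y ∣ 24 := orderOf_dvd_of_pow_eq_one h3
      have h5 : orderOf y ∣ 3 := by
        have h6 : orderOf y ∣ 2 ^ 3 * 3 := h4
        exact (Nat.Coprime.pow_right 3 h2).dvd_of_dvd_mul_left h6
      exact orderOf_dvd_iff_pow_eq_one.mp h5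
    have key : ∀ n : Matrix.SpecialLinearGroup (Fin 2) (ZMod 3), n ≠ 1 → n ^ 3 = 1 → ∃ h, ¬ (n * h * n⁻¹ * h⁻¹) ^ 3 = 1 := by decide
    rw [Subgroup.mem_bot]
    by_contra hk1
    obtain ⟨h, hh⟩ := key k hk1 (hodd k hk)
    apply hh
    apply hodd
    have e : k * h * k⁻¹ * h⁻¹ = k * (h * k⁻¹ * h⁻¹) := by group
    rw [e]
    exact mul_mem hk (hKn.conj_mem _ (Subgroup.inv_mem _ hk) h)
  refine ⟨?_, hcore, ?_, ?_⟩
  · rw [Cfsg.Agent.H05.pConstrained_iff]
    exact Cfsg.Agent.H05.pLayer_eq_bot_of_solvable hsol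
  · intro t ht
    have hcomm : ∀ t : Matrix.SpecialLinearGroup (Fin 2) (ZMod 3), t * t = 1 → ∀ g, g * t = t * g := by decide
    rw [Subgroup.mem_center_iff]
    apply hcomm
    have := pow_orderOf_eq_one t
    rwa [ht, pow_two] at this
  · have hex : ∃ A : Matrix.SpecialLinearGroup (Fin 2) (ZMod 3), A ^ 3 = 1 ∧ A ≠ 1 := by decide
    obtain ⟨A, hA3, hA1⟩ := hex
    have hAo : orderOf A = 3 := by
      have : Fact (Nat.Prime 3) := ⟨by norm_num⟩
      exact orderOf_eq_prime hA3 hA1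
    refine ⟨Subgroup.zpowers A, by rw [Nat.card_zpowers, hAo], ?_⟩
    rw [hcore]
    intro h
    exact hA1 (Subgroup.mem_bot.mp (h (Subgroup.mem_zpowers A)))

end Cfsg.Agent.S1303
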