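import Cfsg.Statements.S1331
import Cfsg.Agent.Lib.H05.Sig
-- import your own Cfsg.Agent.* helpers here

set_option autoImplicit false
open Cfsg

namespace Cfsg.Agent.S1331

/-- Let θ be a solvable A-signalizer functor on the finite group G for the prime p, A elementary abelian of rank at least 3, X a member of the family of θ, and B ≤ A with |B| ≥ p². Then X is generated by the subgroups X ∩ ⋂_{d ∈ D, d ≠ 1} θ d, D ranging over the subgroups of index p in B. -/
theorem result {G : Type*} [Group G] [Finite G] (p : ℕ) [Fact p.Prime] (A : Subgroup G) (hA : Cfsg.IsElementaryAbelian p A) (hA3 : p ^ 3 ≤ Nat.card ↥A) (θ : G → Subgroup G) (hθ : Cfsg.IsSolvableSignalizerFunctor p A θ) (X : Subgroup G) (hX : X ∈ Cfsg.signalizerFamily p A θ) (B : Subgroup G) (hB : B ≤ A) (hB2 : p ^ 2 ≤ Nat.card ↥B) : X = ⨆ D : {D : Subgroup G // D ≤ B ∧ D.relIndex B = p}, X ⊓ Cfsg.signalizerInf (D : Subgroup G) θ := by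
  have hBA : Cfsg.IsElementaryAbelian p B := Cfsg.Agent.H05.elem_of_le hA hB
  have hpp : p.Prime := Fact.out
  have hc := Cfsg.Agent.H05.sf_card_coprime hX
  have hnorm : B ≤ Subgroup.normalizer (X : Set G) := hB.trans (Cfsg.Agent.H05.sf_normalizer hX)
  have hinf : ∀ D : Subgroup G, D ≤ A → X ⊓ Subgroup.centralizer (D : Set G) ≤ X ⊓ Cfsg.signalizerInf D θ := by
    intro D hD z hz
    obtain ⟨hz1, hz2⟩ := Subgroup.mem_inf.mp hz
    refine Subgroup.mem_inf.mpr ⟨hz1, ?_⟩
    rw [Cfsg.signalizerInf, Subgroup.mem_iInf]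
    rintro ⟨d, hdD, hd1⟩
    apply hX.2.2.2 d (hD hdD) hd1
    refine Subgroup.mem_inf.mpr ⟨hz1, ?_⟩
    rw [Cfsg.Agent.H05.mem_C]
    exact (Subgroup.mem_centralizer_iff.mp hz2 d hdD)
  apply le_antisymm
  · have h1 := Cfsg.Agent.H05.gen_hyp hBA hc hnorm
    conv_lhs => rw [h1]
    refine iSup_le ?_
    rintro ⟨D, hDB, hD⟩
    rcases hD with hDe | hco
    · -- a hyperplane below `B`
      show X ⊓ Subgroup.centralizer (D : Set G) ≤ _
      rw [hDe]
      have hBne : B ≠ ⊥ := by
        rintro rfl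
        have : Nat.card (⊥ : Subgroup G) = 1 := Subgroup.card_bot
        have h3 : 1 < p ^ 2 := Nat.one_lt_pow (by norm_num) hpp.one_lt
        omega
      have hBtop : (⊥ : Subgroup B) ≠ ⊤ := by
        intro h
        apply hBne
        rw [eq_bot_iff]
        intro x hx
        have : (⟨x, hx⟩ : B) ∈ (⊥ : Subgroup B) := h ▸ Subgroup.mem_top _
        simpa using this
      obtain ⟨K, hK, -⟩ : ∃ K : Subgroup B, IsCoatom K ∧ ⊥ ≤ K := by
        obtain h | h := eq_top_or_exists_le_coatom (⊥ : Subgroup B)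
        · exact absurd h hBtop
        · obtain ⟨K, hK, hle⟩ := h
          exact ⟨K, hK, hle⟩
      set D' := K.map B.subtype with hD
      have hDB' : D' ≤ B := by
        rintro _ ⟨y, _, rfl⟩
        exact y.2
      have e : D'.subgroupOf B = K := by
        ext y
        constructor
        · rintro ⟨z, hz, hzy⟩
          have : z = y := Subtype.ext hzy
          rwa [← this]
        · intro hy
          exact ⟨y, hy, rfl⟩
      have hco : IsCoatom (D'.subgroupOf B) := e ▸ hK
      have hri := Cfsg.Agent.H05.relIndex_eq_of_isCoatom hBA hco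
      refine le_trans ?_ (le_iSup (fun D : {D : Subgroup G // D ≤ B ∧ D.relIndex B = p} => X ⊓ Cfsg.signalizerInf (D : Subgroup G) θ) ⟨D', hDB', hri⟩)
      refine le_trans ?_ (hinf D' (hDB'.trans hB))
      exact inf_le_inf_left _ (Subgroup.centralizer_le hDB')
    · have hri := Cfsg.Agent.H05.relIndex_eq_of_isCoatom hBA hco
      refine le_trans ?_ (le_iSup (fun D : {D : Subgroup G // D ≤ B ∧ D.relIndex B = p} => X ⊓ Cfsg.signalizerInf (D : Subgroup G) θ) ⟨D, hDB, hri⟩)
      exact hinf D (hDB.trans hB)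
  · exact iSup_le fun _ => inf_le_left


end Cfsg.Agent.S1331
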