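import Cfsg.Statements.S1336
import Cfsg.Agent.Lib.H05.Conn2
-- import your own Cfsg.Agent.* helpers here

set_option autoImplicit false
open Cfsg

namespace Cfsg.Agent.S1336

/-- Let G be finite and p prime. Then G has a proper subgroup H with p ∣ |H| and p ∤ |H ∩ gHg⁻¹| for every g ∉ H (a strongly p-embedded subgroup) if and only if G is not 1-connected for p. -/
theorem result {G : Type*} [Group G] [Finite G] (p : ℕ) [Fact p.Prime] : (∃ H : Subgroup G, H ≠ ⊤ ∧ p ∣ Nat.card ↥H ∧ ∀ g : G, g ∉ H → ¬ p ∣ Nat.card ↥(H ⊓ H.map (MulAut.conj g).toMonoidHom)) ↔ ¬ Cfsg.IsKConnected p 1 G := by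
  rw [← Cfsg.Agent.H05.chain_iff_kconn]
  constructor
  · rintro ⟨H, h1, h2, h3⟩
    exact Cfsg.Agent.H14.not_connected_of_stronglyEmbedded h1 h2 h3
  · exact Cfsg.Agent.H14.exists_stronglyEmbedded

end Cfsg.Agent.S1336
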