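import Cfsg.Statements.S1337
import Mathlib
import Cfsg.Agent.Lib.H01.MaxNormal
import Cfsg.Agent.Lib.H01.NormalFour
import Cfsg.Agent.Lib.H01.OmegaApps
import Cfsg.Agent.Lib.H18.EASup

set_option autoImplicit false
open Cfsg

namespace Cfsg.Agent.S1337


theorem P_isP {P : Type*} [Group P] {p : ℕ} (hP : IsPGroup p P) (A : Subgroup P) : IsPGroup p A := hP.to_subgroup A


/-- Let P be a finite p-group of p-rank greater than 2. Then P has a normal elementary abelian subgroup U of order p², and for every elementary abelian X ≤ P with |X| ≥ p²: X is joined to U by a chain of pairwise commuting elementary abelian subgroups of order ≥ p² if and only if C_P(X) has p-rank greater than 2. -/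
theorem result {P : Type*} [Group P] [Finite P] (p : ℕ) [Fact p.Prime] (hP : IsPGroup p P) (hrk : ¬ Cfsg.PRankLE p 2 P) : ∃ U : Subgroup P, U.Normal ∧ Cfsg.IsElementaryAbelian p U ∧ Nat.card ↥U = p ^ 2 ∧ ∀ X : Subgroup P, Cfsg.IsElementaryAbelian p X → p ^ 2 ≤ Nat.card ↥X → (Relation.ReflTransGen (fun A B : Subgroup P => Cfsg.IsElementaryAbelian p A ∧ p ^ 2 ≤ Nat.card ↥A ∧ Cfsg.IsElementaryAbelian p B ∧ p ^ 2 ≤ Nat.card ↥B ∧ ∀ a ∈ A, ∀ b ∈ B, a * b = b * a) X U ↔ ¬ Cfsg.PRankLE p 2 ↥(Subgroup.centralizer (X : Set P))) := by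
  classical
have hpp : p.Prime := Fact.out
-- the normal subgroup
obtain ⟨U, hUn, hUe, hUc⟩ : ∃ U : Subgroup P, U.Normal ∧ Cfsg.IsElementaryAbelian p U ∧ Nat.card U = p ^ 2 := by
  unfold Cfsg.PRankLE at hrk
  push Not at hrk
  obtain ⟨A, hAc, hAe, hAl⟩ := hrk
  have hAp : IsPGroup p A := P_isP hP A
  by_cases hp2 : p = 2
  · subst hp2
    -- a subgroup of order 8
    obtain ⟨m, hm⟩ := IsPGroup.iff_card.1 hAp
    have hm3 : 3 ≤ m := by
      by_contra hlt
      have : m ≤ 2 := by omega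
      have h1 : 2 ^ m ≤ 2 ^ 2 := Nat.pow_le_pow_right (by norm_num) this
      omega
    obtain ⟨E₀, hE₀⟩ := Sylow.exists_subgroup_card_pow_prime (G := A) 2 (n := 3) (by
      rw [hm]
      exact pow_dvd_pow 2 hm3)
    let E : Subgroup P := E₀.map A.subtype
    have hEc : Nat.card E = 8 := by
      have : Nat.card E = Nat.card E₀ := (Nat.card_congr (E₀.equivMapOfInjective _ A.subtype_injective).toEquiv).symm
      rw [this, hE₀]
      norm_num
    have hE2 : ∀ e ∈ E, e ^ 2 = 1 := by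
      rintro _ ⟨x, -, rfl⟩
      exact hAe _ x.2
    obtain ⟨V, hVn, hVc, hV2⟩ := H01.exists_normal_four_of_E8 hP E hEc hE2
    refine ⟨V, hVn, ⟨⟨⟨?_⟩⟩, hV2⟩, by rw [hVc]; norm_num⟩
    rintro ⟨a, ha⟩ ⟨b, hb⟩
    apply Subtype.ext
    show a * b = b * a
    have h1 : (a * b) ^ 2 = 1 := hV2 _ (V.mul_mem ha hb)
    have h2 : a ^ 2 = 1 := hV2 _ ha
    have h3 : b ^ 2 = 1 := hV2 _ hb
    have h4 : a⁻¹ = a := inv_eq_of_mul_eq_one_left (by rw [← sq]; exact h2)
    have h5 : b⁻¹ = b := inv_eq_of_mul_eq_one_left (by rw [← sq]; exact h3)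
    have h6 : (a * b)⁻¹ = a * b := inv_eq_of_mul_eq_one_left (by rw [← sq]; exact h1)
    rw [mul_inv_rev, h4, h5] at h6
    exact h6.symm
  · apply H01.exists_normal_elementary_sq hP hp2
    intro hcyc
    -- a cyclic group has at most `p` elements of exponent `p`
    have h1 : IsCyclic A := inferInstance
    obtain ⟨⟨g, hgA⟩, hg⟩ := IsCyclic.exists_generator (α := A)
    have h2 : Nat.card A = orderOf (⟨g, hgA⟩ : A) := (orderOf_eq_card_of_forall_mem_zpowers hg).symm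
    have h3 : orderOf (⟨g, hgA⟩ : A) = orderOf g := Subgroup.orderOf_mk g hgA
    have h4 : orderOf g ∣ p := orderOf_dvd_of_pow_eq_one (hAe g hgA)
    have h5 : orderOf g ≤ p := Nat.le_of_dvd hpp.pos h4
    have h6 : p ≤ p ^ 2 := by nlinarith [hpp.two_le]
    omega
haveI := hUn
refine ⟨U, hUn, hUe, hUc, ?_⟩
obtain ⟨hUab, hUexp⟩ := hUe
have hUcomm : ∀ a ∈ U, ∀ b ∈ U, a * b = b * a := fun a ha b hb =>
  congrArg Subtype.val (hUab.1.comm ⟨a, ha⟩ ⟨b, hb⟩)
-- the centralizer of `U` has index at most `p`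
have hidx : (Subgroup.centralizer (U : Set P)).index ≤ p := by
  have := H01.index_centralizer_le_choose hP 2 U hUn hUab hUc
  simpa using this
haveI hCn : (Subgroup.centralizer (U : Set P)).Normal := inferInstance
have hinfU : ∀ E : Subgroup P, p ^ 3 ≤ Nat.card E → p ^ 2 ≤ Nat.card (E ⊓ Subgroup.centralizer (U : Set P) : Subgroup P) := by
  intro E hE
  have h1 := H18.card_inf_mul_relIndex (Subgroup.centralizer (U : Set P)) E
  have h2 : (Subgroup.centralizer (U : Set P)).relIndex E ∣ (Subgroup.centralizer (U : Set P)).index :=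
    Subgroup.relIndex_dvd_index_of_normal _ _
  have h3 : (Subgroup.centralizer (U : Set P)).relIndex E ≤ p :=
    (Nat.le_of_dvd (Nat.pos_of_ne_zero Subgroup.index_ne_zero_of_finite) h2).trans hidx
  rw [inf_comm]
  by_contra hlt
  push Not at hlt
  have h4 : Nat.card (Subgroup.centralizer (U : Set P) ⊓ E : Subgroup P) * (Subgroup.centralizer (U : Set P)).relIndex E
      ≤ (p ^ 2 - 1) * p := Nat.mul_le_mul (by omega) h3
  have h5 : (p ^ 2 - 1) * p < p ^ 3 := by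
    have h6 : 0 < p := hpp.pos
    have h7 : 0 < p ^ 2 := by positivity
    calc (p ^ 2 - 1) * p < p ^ 2 * p := Nat.mul_lt_mul_of_pos_right (by omega) h6
      _ = p ^ 3 := by ring
  omega
have hrkuse : ∀ X : Subgroup P, (∃ E : Subgroup P, E ≤ Subgroup.centralizer (X : Set P) ∧ (∀ a ∈ E, ∀ b ∈ E, a * b = b * a) ∧ (∀ a ∈ E, a ^ p = 1) ∧ p ^ 2 < Nat.card E) → ¬ Cfsg.PRankLE p 2 ↥(Subgroup.centralizer (X : Set P)) := by
  rintro X ⟨E, hEX, hEc, hEe, hEl⟩ hR
  have h1 := hR (E.subgroupOf (Subgroup.centralizer (X : Set P))) ⟨⟨by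
    rintro ⟨⟨a, ha'⟩, ha⟩ ⟨⟨b, hb'⟩, hb⟩
    apply Subtype.ext
    apply Subtype.ext
    exact hEc a ha b hb⟩⟩ (by
    intro a ha
    apply Subtype.ext
    exact hEe _ ha)
  rw [H18.card_subgroupOf, inf_eq_left.2 hEX] at h1
  omega
have hrkget : ∀ X : Subgroup P, ¬ Cfsg.PRankLE p 2 ↥(Subgroup.centralizer (X : Set P)) → ∃ E : Subgroup P, E ≤ Subgroup.centralizer (X : Set P) ∧ (∀ a ∈ E, ∀ b ∈ E, a * b = b * a) ∧ (∀ a ∈ E, a ^ p = 1) ∧ p ^ 3 ≤ Nat.card E := by
  intro X hX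
  unfold Cfsg.PRankLE at hX
  push Not at hX
  obtain ⟨A, hAc, hAe, hAl⟩ := hX
  refine ⟨A.map (Subgroup.centralizer (X : Set P)).subtype, ?_, ?_, ?_, ?_⟩
  · rintro _ ⟨x, -, rfl⟩
    exact x.2
  · rintro _ ⟨a, ha, rfl⟩ _ ⟨b, hb, rfl⟩
    exact congrArg (fun z : A => ((z : ↥(Subgroup.centralizer (X : Set P))) : P)) (hAc.1.comm ⟨a, ha⟩ ⟨b, hb⟩)
  · rintro _ ⟨a, ha, rfl⟩
    exact congrArg (fun z : ↥(Subgroup.centralizer (X : Set P)) => (z : P)) (hAe a ha)
  · have h1 : Nat.card (A.map (Subgroup.centralizer (X : Set P)).subtype) = Nat.card A :=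
      (Nat.card_congr (A.equivMapOfInjective _ (Subgroup.subtype_injective _)).toEquiv).symm
    rw [h1]
    have hAp : IsPGroup p A := (hP.to_subgroup (Subgroup.centralizer (X : Set P))).to_subgroup A
    obtain ⟨m, hm⟩ := IsPGroup.iff_card.1 hAp
    rw [hm] at hAl ⊢
    have hm3 : 2 < m := (Nat.pow_lt_pow_iff_right hpp.one_lt).1 hAl
    exact Nat.pow_le_pow_right hpp.pos hm3
-- the base point
have hQU : ¬ Cfsg.PRankLE p 2 ↥(Subgroup.centralizer (U : Set P)) := by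
  have hrk' := hrk
  unfold Cfsg.PRankLE at hrk'
  push Not at hrk'
  obtain ⟨A, hAc, hAe, hAl⟩ := hrk'
  have hAcomm : ∀ a ∈ A, ∀ b ∈ A, a * b = b * a := fun a ha b hb =>
    congrArg Subtype.val (hAc.1.comm ⟨a, ha⟩ ⟨b, hb⟩)
  obtain ⟨m, hm⟩ := IsPGroup.iff_card.1 (P_isP hP A)
  have hA3 : p ^ 3 ≤ Nat.card A := by
    rw [hm] at hAl ⊢
    have hm3 : 2 < m := (Nat.pow_lt_pow_iff_right hpp.one_lt).1 hAl
    exact Nat.pow_le_pow_right hpp.pos hm3
  have h1 := hinfU A hA3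
  set D := A ⊓ Subgroup.centralizer (U : Set P) with hD
  have hDU : ∀ a ∈ D, ∀ b ∈ U, a * b = b * a := by
    intro a ha b hb
    exact (Subgroup.mem_centralizer_iff.1 ha.2 b hb).symm
  have hW1 : D ⊔ U ≤ Subgroup.centralizer (U : Set P) := by
    apply sup_le inf_le_right
    intro u hu
    rw [Subgroup.mem_centralizer_iff]
    intro v hv
    exact hUcomm v hv u hu
  have hWc := H18.comm_sup_of_comm (A := D) (B := U) (fun a ha b hb => hAcomm a ha.1 b hb.1) hUcomm hDU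
  have hWe := H18.exp_sup_of_comm (A := D) (B := U) (p := p) (fun a ha => hAe a ha.1) hUexp hDU
  by_cases hW : p ^ 2 < Nat.card (D ⊔ U : Subgroup P)
  · exact hrkuse U ⟨D ⊔ U, hW1, hWc, hWe, hW⟩
  · push Not at hW
    have hUW : U = D ⊔ U := Subgroup.eq_of_le_of_card_ge le_sup_right (by rw [hUc]; exact hW)
    have hDleU : D ≤ U := by
      rw [hUW]
      exact le_sup_left
    have hDeq : D = U := Subgroup.eq_of_le_of_card_ge hDleU (by rw [hUc]; exact h1)
    have hUA : U ≤ A := hDeq ▸ inf_le_left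
    exact hrkuse U ⟨A, fun a ha => by
      rw [Subgroup.mem_centralizer_iff]
      intro v hv
      exact hAcomm v (hUA hv) a ha, hAcomm, hAe, hAl⟩
intro X hXe hX2
obtain ⟨hXab, hXexp⟩ := hXe
constructor
· intro hchain
  clear hXab hXexp hX2
  induction hchain using Relation.ReflTransGen.head_induction_on with
  | refl => exact hQU
  | @head X Y hXY _ ih =>
    obtain ⟨hXe, hX2', hYe, hY2, hcomm⟩ := hXY
    by_contra hn
    -- `X ⊔ Y` is elementary abelian inside `C(X)`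
    obtain ⟨hXab', hXexp'⟩ := hXe
    obtain ⟨hYab, hYexp⟩ := hYe
    have hXcomm : ∀ a ∈ X, ∀ b ∈ X, a * b = b * a := fun a ha b hb =>
      congrArg Subtype.val (hXab'.1.comm ⟨a, ha⟩ ⟨b, hb⟩)
    have hYcomm : ∀ a ∈ Y, ∀ b ∈ Y, a * b = b * a := fun a ha b hb =>
      congrArg Subtype.val (hYab.1.comm ⟨a, ha⟩ ⟨b, hb⟩)
    have hWc := H18.comm_sup_of_comm hXcomm hYcomm hcomm
    have hWe := H18.exp_sup_of_comm (p := p) hXexp' hYexp hcomm
    have hW1 : X ⊔ Y ≤ Subgroup.centralizer (X : Set P) := by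
      intro x hx
      rw [Subgroup.mem_centralizer_iff]
      intro v hv
      exact hWc v (Subgroup.mem_sup_left hv) x hx
    have hW : ¬ p ^ 2 < Nat.card (X ⊔ Y : Subgroup P) := fun hlt => (hrkuse X ⟨X ⊔ Y, hW1, hWc, hWe, hlt⟩) hn
    push Not at hW
    have hXW : X = X ⊔ Y := Subgroup.eq_of_le_of_card_ge le_sup_left (hW.trans hX2')
    have hYW : Y = X ⊔ Y := Subgroup.eq_of_le_of_card_ge le_sup_right (hW.trans hY2)
    have hYX : Y = X := hYW.trans hXW.symm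
    rw [hYX] at ih
    exact ih hn
· intro hQ
  obtain ⟨E, hEX, hEc, hEe, hE3⟩ := hrkget X hQ
  have hp23 : p ^ 2 ≤ p ^ 3 := Nat.pow_le_pow_right hpp.pos (by norm_num)
  have hEA : Cfsg.IsElementaryAbelian p E := ⟨⟨⟨fun a b => Subtype.ext (hEc _ a.2 _ b.2)⟩⟩, hEe⟩
  set D := E ⊓ Subgroup.centralizer (U : Set P) with hD
  have hD2 := hinfU E hE3
  have hDA : Cfsg.IsElementaryAbelian p D := ⟨⟨⟨fun a b => Subtype.ext (hEc _ a.2.1 _ b.2.1)⟩⟩, fun a ha => hEe a ha.1⟩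
  refine Relation.ReflTransGen.head ⟨⟨hXab, hXexp⟩, hX2, hEA, hE3 |> (hp23.trans ·), ?_⟩
    (Relation.ReflTransGen.head ⟨hEA, hE3 |> (hp23.trans ·), hDA, hD2, ?_⟩
      (Relation.ReflTransGen.head ⟨hDA, hD2, ⟨hUab, hUexp⟩, hUc.ge, ?_⟩ Relation.ReflTransGen.refl))
  · intro a ha b hb
    exact Subgroup.mem_centralizer_iff.1 (hEX hb) a ha
  · intro a ha b hb
    exact hEc a ha b hb.1
  · intro a ha b hb
    exact (Subgroup.mem_centralizer_iff.1 ha.2 b hb).symm

end Cfsg.Agent.S1337
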