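import Cfsg.Statements.S1342
import Cfsg.Agent.Lib.H06.Layer2

set_option autoImplicit false
open Cfsg

namespace Cfsg.Agent.S1342

theorem result {X : Type*} [Group X] [Finite X] : (Cfsg.extendedTwoLayer X).Normal := by
  haveI hN : (H06.layN X).Normal := H06.layN_normal
  haveI hA : (H06.layA X).Normal := H06.layA_normal
  constructor
  intro x hx g
  have hmap : (Cfsg.extendedTwoLayer X).map (MulAut.conj g).toMonoidHom ≤ Cfsg.extendedTwoLayer X := by
    unfold Cfsg.extendedTwoLayer
    rw [Subgroup.map_sup]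
    apply sup_le
    · apply le_sup_of_le_left
      rw [H13.map_conj_eq_of_normal]
    · rw [Subgroup.map_le_iff_le_comap]
      apply iSup_le
      intro T
      rw [← Subgroup.map_le_iff_le_comap]
      let T₂ : Sylow 2 ↥(H06.layN X) := (MulAut.conjNormal g : MulAut ↥(H06.layN X)) • T
      have hT₂ : H06.sylImg T₂ = (H06.sylImg T).map (MulAut.conj g).toMonoidHom := by
        ext y
        constructor
        · rintro ⟨z, ⟨w, hw, rfl⟩, rfl⟩
          exact ⟨w, ⟨w, hw, rfl⟩, rfl⟩
        · rintro ⟨_, ⟨w, hw, rfl⟩, rfl⟩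
          exact ⟨_, ⟨w, hw, rfl⟩, rfl⟩
      have h1 : (H06.oddCoreOf (Subgroup.centralizer (H06.sylImg T : Set X))).map
          (MulAut.conj g).toMonoidHom = H06.oddCoreOf (Subgroup.centralizer (H06.sylImg T₂ : Set X)) := by
        rw [hT₂, ← H13.map_conj_centralizer, H06.oddCoreOf_conj]
      show (H06.oddCoreOf (Subgroup.centralizer (H06.sylImg T : Set X))).map
          (MulAut.conj g).toMonoidHom ≤ _
      rw [h1]
      apply le_sup_of_le_right
      exact le_iSup (fun T₂ : Sylow 2 ↥(H06.layN X) =>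
        H06.oddCoreOf (Subgroup.centralizer (H06.sylImg T₂ : Set X))) T₂
  exact hmap ⟨x, hx, rfl⟩

end Cfsg.Agent.S1342
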