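import Cfsg.Statements.S1343
import Cfsg.Agent.Lib.H06.Layer2

set_option autoImplicit false
open Cfsg

namespace Cfsg.Agent.S1343

theorem result {X : Type*} [Group X] [Finite X] : ∃ F : Subgroup X, Odd (Nat.card ↥F) ∧ (∃ S : Sylow 2 X, (S : Subgroup X) ≤ Subgroup.normalizer (F : Set X)) ∧ Cfsg.extendedTwoLayer X = Cfsg.pLayer 2 X ⊔ F := by
  haveI : Fact (Nat.Prime 2) := ⟨Nat.prime_two⟩
  haveI hN : (H06.layN X).Normal := H06.layN_normal
  haveI : (Cfsg.pPrimeCore 2 X).Characteristic := H06.pPrimeCore_characteristic X 2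
  haveI hO : (Cfsg.oddCore X).Normal := Subgroup.normal_of_characteristic (Cfsg.pPrimeCore 2 X)
  obtain ⟨T⟩ : Nonempty (Sylow 2 ↥(H06.layN X)) := inferInstance
  have hTp : IsPGroup 2 (H06.sylImg T) := T.isPGroup'.map _
  obtain ⟨S, hS⟩ := hTp.exists_le_sylow
  have hmax : (S : Subgroup X).subgroupOf (H06.layN X) = (T : Subgroup ↥(H06.layN X)) := by
    apply T.is_maximal'
    · exact S.isPGroup'.comap_of_injective (H06.layN X).subtype (H06.layN X).subtype_injective
    · intro t ht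
      rw [Subgroup.mem_subgroupOf]
      exact hS ⟨t, ht, rfl⟩
  have hself : ∀ s ∈ (S : Subgroup X), (H06.sylImg T).map (MulAut.conj s).toMonoidHom = H06.sylImg T := by
    intro s hs
    apply H13.mem_normalizer_iff_map_conj.mp
    apply H13.mem_normalizer_of_map_conj_le
    rintro _ ⟨y, ⟨t, ht, rfl⟩, rfl⟩
    have h1 : s * (t : X) * s⁻¹ ∈ H06.layN X := hN.conj_mem _ t.2 s
    have h2 : s * (t : X) * s⁻¹ ∈ (S : Subgroup X) :=
      S.mul_mem (S.mul_mem hs (hS ⟨t, ht, rfl⟩)) (S.inv_mem hs)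
    have h3 : (⟨_, h1⟩ : ↥(H06.layN X)) ∈ (S : Subgroup X).subgroupOf (H06.layN X) := h2
    rw [hmax] at h3
    exact ⟨_, h3, rfl⟩
  set F : Subgroup X := Cfsg.oddCore X ⊔ H06.oddCoreOf (Subgroup.centralizer (H06.sylImg T : Set X)) with hF
  refine ⟨F, ?_, ⟨S, ?_⟩, ?_⟩
  · have h1 := H06.card_sup_dvd_of_normal (Cfsg.oddCore X)
      (H06.oddCoreOf (Subgroup.centralizer (H06.sylImg T : Set X)))
    refine Odd.of_dvd_nat (Odd.mul ?_ (H06.odd_card_oddCoreOf _)) h1
    exact Nat.Coprime.odd_of_right (H06.coprime_card_pPrimeCore 2)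
  · intro s hs
    apply H13.mem_normalizer_of_map_conj_le
    rw [hF, Subgroup.map_sup]
    apply sup_le_sup
    · rw [H13.map_conj_eq_of_normal]
    · rw [← H06.oddCoreOf_conj, H13.map_conj_centralizer, hself s hs]
  · rw [H06.extendedTwoLayer_eq T, hF, sup_assoc]

end Cfsg.Agent.S1343
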