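import Cfsg.Statements.S1344
import Cfsg.Agent.Lib.H06.Layer2
import Cfsg.Agent.Lib.H05.PComp
import Cfsg.Agent.Lib.H05.PComp3

set_option autoImplicit false
open Cfsg

namespace Cfsg.Agent.S1344

open Cfsg Cfsg.Agent Cfsg.Agent.H06
open scoped commutatorElement

section Helpers

variable {X : Type*} [Group X] [Finite X]

local notation "ff" => QuotientGroup.mk' (pPrimeCore 2 X)

/-- Elements whose conjugation preserves the image of a 2-component normalize it. -/
theorem norm_of_image {K : Subgroup X} (hK : IsPComponent 2 K) {g : X}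
    (h : (K.map (MulAut.conj g).toMonoidHom).map ff = K.map ff) :
    g ∈ Subgroup.normalizer (K : Set X) := by
  haveI : Fact (Nat.Prime 2) := ⟨Nat.prime_two⟩
  have h1 := isPComponent_map_equiv (MulAut.conj g) hK
  have h2 := H05.pcomp_unique h1 hK h
  exact H13.mem_normalizer_iff_map_conj.mpr h2

theorem map_conj_image (K : Subgroup X) (g : X) :
    (K.map (MulAut.conj g).toMonoidHom).map ff = (K.map ff).map (MulAut.conj (ff g)).toMonoidHom := by
  rw [Subgroup.map_map, Subgroup.map_map]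
  congr 1

theorem map_conj_eq_of_comm {Q : Type*} [Group Q] {A : Subgroup Q} {c : Q} (h : ∀ a ∈ A, c * a = a * c) :
    A.map (MulAut.conj c).toMonoidHom = A := by
  ext x
  constructor
  · rintro ⟨a, ha, rfl⟩
    have : (MulAut.conj c).toMonoidHom a = a := by
      show c * a * c⁻¹ = a
      rw [h a ha]; group
    rw [this]; exact ha
  · intro hx
    refine ⟨x, hx, ?_⟩
    show c * x * c⁻¹ = x
    rw [h x hx]; group

/-- `O_{2',2}(X)` normalizes each 2-component. -/
theorem pPrimePCore_le_norm {K : Subgroup X} (hK : IsPComponent 2 K) :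
    pPrimePCore 2 X ≤ Subgroup.normalizer (K : Set X) := by
  haveI : Fact (Nat.Prime 2) := ⟨Nat.prime_two⟩
  haveI : (pPrimeCore 2 X).Normal := H05.pp_normal 2
  intro g hg
  apply norm_of_image hK
  have hgc : ff g ∈ pCore 2 (X ⧸ pPrimeCore 2 X) := hg
  have hcomm : ⁅K.map ff, pCore 2 (X ⧸ pPrimeCore 2 X)⁆ = ⊥ := by
    apply H05.comp_comm_solvable hK.2.1
    · haveI : Group.IsNilpotent (pCore 2 (X ⧸ pPrimeCore 2 X)) :=
        (H01.pCore_isPGroup 2).isNilpotent
      infer_instance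
    · have hn : (pCore 2 (X ⧸ pPrimeCore 2 X)).Normal := H01.pCore_normal 2
      rw [Subgroup.normalizer_eq_top_iff.mpr hn]
      exact le_top
  rw [map_conj_image]
  apply map_conj_eq_of_comm
  intro a ha
  exact (H05.comm_bot_iff.mp hcomm a ha _ hgc).symm

/-- The 2-layer normalizes each 2-component. -/
theorem pLayer_le_norm {K : Subgroup X} (hK : IsPComponent 2 K) :
    pLayer 2 X ≤ Subgroup.normalizer (K : Set X) := by
  haveI : Fact (Nat.Prime 2) := ⟨Nat.prime_two⟩
  apply sSup_le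
  intro L hL
  by_cases h : K = L
  · rw [← h]; exact Subgroup.le_normalizer
  · exact H05.pcomp_le_normalizer hK hL h

theorem layN_le_norm {K : Subgroup X} (hK : IsPComponent 2 K) :
    layN X ≤ Subgroup.normalizer (K : Set X) :=
  sup_le (pLayer_le_norm hK) (pPrimePCore_le_norm hK)

/-- An element centralizing a Sylow 2-subgroup of `L O_{2',2}` normalizes each 2-component. -/
theorem centralizer_sylow_norm {K : Subgroup X} (hK : IsPComponent 2 K) (T : Sylow 2 ↥(layN X)) {u : X}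
    (hu : ∀ t ∈ sylImg T, u * t = t * u) : u ∈ Subgroup.normalizer (K : Set X) := by
  classical
  haveI : Fact (Nat.Prime 2) := ⟨Nat.prime_two⟩
  haveI : (pPrimeCore 2 X).Normal := H05.pp_normal 2
  apply norm_of_image hK
  by_contra hne
  -- a noncentral 2-element
  obtain ⟨yb, hyb1, hyb2⟩ := H05.qs_exists_noncentral_pelem (p := 2) hK.2.1.2 (H05.comp_quot_dvd hK.2.1)
  obtain ⟨k, hk, hkyb⟩ := yb.2
  obtain ⟨b, hb⟩ := hyb1
  have hkb : ff k ^ 2 ^ b = 1 := by
    have h1 := congrArg (Subgroup.subtype _) hb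
    simp only [map_pow, map_one, Subgroup.subtype_apply] at h1
    rw [← hkyb] at h1
    exact h1
  obtain ⟨z, hzk, hzf, a, ha⟩ := H05.pelem_lift ff hkb
  have hzK : z ∈ K := (Subgroup.zpowers_le.mpr hk) hzk
  have hzN : z ∈ layN X :=
    Subgroup.mem_sup_left ((le_sSup hK : K ≤ pLayer 2 X) hzK)
  -- conjugate into the Sylow subgroup
  have hz1 : (⟨z, hzN⟩ : ↥(layN X)) ^ 2 ^ a = 1 := Subtype.ext (by simpa using ha)
  have hzP : IsPGroup 2 (Subgroup.zpowers (⟨z, hzN⟩ : ↥(layN X))) := by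
    rintro ⟨w, hw⟩
    obtain ⟨n, rfl⟩ := Subgroup.mem_zpowers_iff.mp hw
    refine ⟨a, ?_⟩
    apply Subtype.ext
    show ((⟨z, hzN⟩ : ↥(layN X)) ^ n : ↥(layN X)) ^ 2 ^ a = 1
    rw [← zpow_natCast, ← zpow_mul, mul_comm, zpow_mul, zpow_natCast, hz1, one_zpow]
  obtain ⟨P, hP⟩ := hzP.exists_le_sylow
  obtain ⟨g, hg⟩ := H13.sylow_conj T P
  have hzmem : (⟨z, hzN⟩ : ↥(layN X)) ∈ (P : Subgroup ↥(layN X)) := hP (Subgroup.mem_zpowers _)
  rw [hg] at hzmem
  obtain ⟨t, ht, htz⟩ := hzmem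
  -- `y` is the conjugate in the Sylow subgroup
  set y : X := (t : X) with hy
  have hyT : y ∈ sylImg T := ⟨t, ht, rfl⟩
  have hzy : z = (g : X) * y * (g : X)⁻¹ := by
    have := congrArg Subtype.val htz
    exact this.symm
  have hgn : (g : X) ∈ Subgroup.normalizer (K : Set X) := layN_le_norm hK g.2
  have hginv : ∀ c ∈ K, (g : X) * c * (g : X)⁻¹ ∈ K ∧ (g : X)⁻¹ * c * (g : X) ∈ K := by
    intro c hc
    refine ⟨(Subgroup.mem_normalizer_iff.mp hgn c).mp hc, ?_⟩
    have := (Subgroup.mem_normalizer_iff.mp (Subgroup.inv_mem _ hgn) c).mp hc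
    simpa using this
  have hyK : y ∈ K := by
    have h1 := (hginv z hzK).2
    have e : (g : X)⁻¹ * z * (g : X) = y := by rw [hzy]; group
    rwa [e] at h1
  -- the contradiction
  have hcomp := (isPComponent_map_equiv (MulAut.conj u) hK).2.1
  rcases H05.comp_eq_or_comm hcomp hK.2.1 with h | h
  · exact hne h
  have hycomm : ∀ c ∈ K, ff y * ff c = ff c * ff y := by
    intro c hc
    have h1 : ff y ∈ (K.map (MulAut.conj u).toMonoidHom).map ff := by
      refine ⟨y, ⟨y, hyK, ?_⟩, rfl⟩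
      show u * y * u⁻¹ = y
      rw [hu y hyT]; group
    exact H05.comm_bot_iff.mp h _ h1 _ ⟨c, hc, rfl⟩
  apply hyb2
  rw [Subgroup.mem_center_iff]
  rintro ⟨_, c, hc, rfl⟩
  apply Subtype.ext
  show ff c * (yb : X ⧸ pPrimeCore 2 X) = (yb : X ⧸ pPrimeCore 2 X) * ff c
  rw [← hkyb, ← hzf, hzy]
  obtain ⟨h1, h2⟩ := hginv c hc
  have h3 := hycomm _ h2
  have e1 : ff ((g : X) * y * (g : X)⁻¹) = ff (g : X) * ff y * (ff (g : X))⁻¹ := by simp
  have e2 : ff c = ff (g : X) * ff ((g : X)⁻¹ * c * (g : X)) * (ff (g : X))⁻¹ := by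
    simp only [map_mul, map_inv]
    group
  rw [e1]
  conv_lhs => rw [e2]
  conv_rhs => rw [e2]
  calc ff (g : X) * ff ((g : X)⁻¹ * c * (g : X)) * (ff (g : X))⁻¹ * (ff (g : X) * ff y * (ff (g : X))⁻¹)
      = ff (g : X) * (ff ((g : X)⁻¹ * c * (g : X)) * ff y) * (ff (g : X))⁻¹ := by group
    _ = ff (g : X) * (ff y * ff ((g : X)⁻¹ * c * (g : X))) * (ff (g : X))⁻¹ := by rw [h3]
    _ = _ := by group

end Helpers


/-- Let K be a 2-component of the finite group X. Then K ≤ L*_{2'}(X) and K is normal in L*_{2'}(X). -/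
theorem result {X : Type*} [Group X] [Finite X] (K : Subgroup X) (hK : Cfsg.IsPComponent 2 K) : K ≤ Cfsg.extendedTwoLayer X ∧ (K.subgroupOf (Cfsg.extendedTwoLayer X)).Normal := by
  have hle : K ≤ pLayer 2 X := le_sSup hK
  have hnorm : Cfsg.extendedTwoLayer X ≤ Subgroup.normalizer (K : Set X) := by
    refine sup_le (sup_le (pLayer_le_norm hK) ((pPrimeCore_le_pPrimePCore 2 X).trans (pPrimePCore_le_norm hK))) ?_
    refine iSup_le fun T => ?_
    rintro _ ⟨c, -, rfl⟩
    apply centralizer_sylow_norm hK T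
    intro t ht
    exact (Subgroup.mem_centralizer_iff.mp c.2 t ht).symm
  refine ⟨hle.trans (le_sup_of_le_left le_sup_left), ?_⟩
  exact H05.normal_subgroupOf_of_le_norm hnorm

end Cfsg.Agent.S1344
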