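import Cfsg.Statements.S1386
import Cfsg.Agent.Lib.H06.Basic

set_option autoImplicit false
open Cfsg

namespace Cfsg.Agent.S1386

open Cfsg.Agent.H06

/-- Let G be a finite group, W₁, W₂ subgroups forming a self-normalizing cyclic pair, S a subgroup with W₂ ≤ S and W₁ a complement to S' in S, and (W₁, U, W₂') type-P data for S. Then W₂' = W₂ (that is, C_{S'}(W₁) = W₂). -/
theorem result {G : Type*} [Group G] [Finite G] (W₁ W₂ S U W₂' : Subgroup G) (hW : Cfsg.IsSelfNormalizingCyclic W₁ W₂)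
    (hSW : Cfsg.IsComplIn ⁅S, S⁆ W₁ S) (hW₂S : W₂ ≤ S) (hP : Cfsg.IsTypePWith S W₁ U W₂') :
    W₂' = W₂ := by
  obtain ⟨hW1, hW2, hW12, hWc, hWcyc, hWn⟩ := hW
  obtain ⟨hW1', hW2', hW12', hWc', hWcyc', hWn'⟩ := hP.selfNormalizing
  -- pick x ≠ 1 in W₁, y ≠ 1 in W₂
  obtain ⟨x, hx, hx1⟩ := (Subgroup.ne_bot_iff_exists_ne_one.mp hW1).elim
    (fun x h => (⟨x.1, x.2, fun h' => h (Subtype.ext h')⟩ : ∃ x ∈ W₁, x ≠ 1))
  obtain ⟨y, hy, hy1⟩ := (Subgroup.ne_bot_iff_exists_ne_one.mp hW2).elim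
    (fun x h => (⟨x.1, x.2, fun h' => h (Subtype.ext h')⟩ : ∃ x ∈ W₂, x ≠ 1))
  -- C_{S'}(x) = W₂'
  have hC := hP.W₂_centralizer x hx hx1
  -- W₂ ≤ W₁ ⊔ W₂'
  have hW2le : W₂ ≤ W₁ ⊔ W₂' := by
    intro v hv
    obtain ⟨a, ha, b, hb, hab⟩ := hSW.2.2.2 v (hW₂S hv)
    have hbx : b * x = x * b := comm_of_isCyclic hP.W₁_cyclic hb hx
    have hvx : v * x = x * v := (hWc x hx v hv).symm
    have hax : a * x = x * a := by
      have h1 : a = v * b⁻¹ := by rw [hab]; group
      rw [h1]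
      exact Commute.mul_left hvx (Commute.inv_left hbx)
    have ha' : a ∈ ⁅S, S⁆ ⊓ Subgroup.centralizer ({x} : Set G) :=
      ⟨ha, Subgroup.mem_centralizer_iff.mpr (by
        intro z hz; rw [Set.mem_singleton_iff.mp hz]; exact hax.symm)⟩
    rw [hC] at ha'
    rw [hab, sup_comm]
    exact Subgroup.mul_mem_sup ha' hb
  -- W₂' ≤ W₁ ⊔ W₂
  have hW2le' : W₂' ≤ W₁ ⊔ W₂ := by
    have hxy1 : x * y ∉ W₁ := fun h => by
      have : y ∈ W₁ := by
        have := W₁.mul_mem (W₁.inv_mem hx) h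
        simpa using this
      have h2 : y ∈ W₁ ⊓ W₂ := ⟨this, hy⟩
      rw [hW12, Subgroup.mem_bot] at h2
      exact hy1 h2
    have hxy2 : x * y ∉ W₂ := fun h => by
      have : x ∈ W₂ := by
        have := W₂.mul_mem h (W₂.inv_mem hy)
        simpa using this
      have h2 : x ∈ W₁ ⊓ W₂ := ⟨hx, this⟩
      rw [hW12, Subgroup.mem_bot] at h2
      exact hx1 h2
    have hN := hWn {x * y} (by
      intro z hz
      rw [Set.mem_singleton_iff.mp hz]
      refine ⟨Subgroup.mul_mem_sup hx hy, ?_⟩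
      rintro (h | h)
      · exact hxy1 h
      · exact hxy2 h) (Set.singleton_nonempty _)
    rw [← hN]
    intro z hz
    rw [Subgroup.mem_set_normalizer_iff]
    intro w
    have hzx : z * x = x * z := comm_of_isCyclic hWcyc' (Subgroup.mem_sup_right hz) (Subgroup.mem_sup_left hx)
    have hzy : z * y = y * z := comm_of_isCyclic hWcyc' (Subgroup.mem_sup_right hz) (hW2le hy)
    have key : z * (x * y) * z⁻¹ = x * y := by
      calc z * (x * y) * z⁻¹ = (z * x) * y * z⁻¹ := by group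
        _ = x * (z * y) * z⁻¹ := by rw [hzx]; group
        _ = x * y * (z * z⁻¹) := by rw [hzy]; group
        _ = x * y := by group
    simp only [Set.mem_singleton_iff]
    constructor
    · rintro rfl; exact key
    · intro h
      have : z * w * z⁻¹ = z * (x * y) * z⁻¹ := by rw [h, key]
      have h2 : z * w = z * (x * y) := mul_right_cancel this
      exact mul_left_cancel h2
  have hEq : W₁ ⊔ W₂' = W₁ ⊔ W₂ := le_antisymm (sup_le le_sup_left hW2le') (sup_le le_sup_left hW2le)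
  have hcard : Nat.card W₂' = Nat.card W₂ := by
    have h1 := card_sup_of_commute hWc' hW12'
    have h2 := card_sup_of_commute hWc hW12
    rw [hEq] at h1
    have hpos : 0 < Nat.card W₁ := Nat.card_pos
    rw [h2] at h1
    exact (Nat.eq_of_mul_eq_mul_left hpos h1).symm
  exact eq_of_card_eq_of_le_cyclic hWcyc (hW2le'.trans (le_of_eq rfl)) le_sup_right hcard

end Cfsg.Agent.S1386
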