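import Cfsg.Statements.S1387
import Cfsg.Agent.Lib.H06.FittingHall

set_option autoImplicit false
open Cfsg

namespace Cfsg.Agent.S1387

theorem result {G : Type*} [Group G] [Finite G] (M W₁ U W₂ : Subgroup G) (hP : Cfsg.IsTypePWith M W₁ U W₂) :
    Cfsg.fittingOf M = Cfsg.fittingHallOf M ⊔ (U ⊓ Subgroup.centralizer (Cfsg.fittingHallOf M : Set G)) := by
  have hM' : ⁅M, M⁆ ≤ M := hP.W₁_compl.1
  have hUM' : U ≤ ⁅M, M⁆ := hP.U_compl.2.1
  apply le_antisymm
  · rw [← hP.fitting_eq]
    apply sup_le le_sup_left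
    rintro x ⟨hxM, hxC⟩
    have hxC : x ∈ Subgroup.centralizer (Cfsg.fittingHallOf M : Set G) := hxC
    obtain ⟨y, z, hy, rfl, ⟨s, hs⟩, ⟨t, ht⟩, hz⟩ := H06.exists_fittingHall_split M hxM
    refine Subgroup.mul_mem _ (Subgroup.mem_sup_left hy) (Subgroup.mem_sup_right ?_)
    have hzC : z ∈ Subgroup.centralizer (Cfsg.fittingHallOf M : Set G) := by
      rw [ht]
      exact Subgroup.zpow_mem _ hxC t
    have hzM : z ∈ M := by
      rw [ht]
      exact Subgroup.zpow_mem _ hxM t
    have hzM' : z ∈ ⁅M, M⁆ := by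
      apply hP.fitting_le
      rw [← hP.fitting_eq]
      exact Subgroup.mem_sup_right (Subgroup.mem_inf.mpr ⟨hzM, hzC⟩)
    obtain ⟨a, ha, b, hb, hab⟩ := hP.U_compl.2.2.2 z hzM'
    have hcomm : a * z = z * a := (Subgroup.mem_centralizer_iff.mp hzC) a ha
    have hbe : b = a⁻¹ * z := by rw [hab]; group
    have hcomm' : Commute a⁻¹ z := by
      have : Commute a z := hcomm
      exact this.inv_left
    have hbk : b ^ (Cfsg.fittingHall M).index = (a⁻¹) ^ (Cfsg.fittingHall M).index := by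
      rw [hbe, hcomm'.mul_pow, hz, mul_one]
    have hbk1 : b ^ (Cfsg.fittingHall M).index = 1 := by
      have : b ^ (Cfsg.fittingHall M).index ∈ Cfsg.fittingHallOf M ⊓ U := by
        refine Subgroup.mem_inf.mpr ⟨?_, U.pow_mem hb _⟩
        rw [hbk]
        exact Subgroup.pow_mem _ (Subgroup.inv_mem _ ha) _
      rw [hP.U_compl.2.2.1] at this
      exact this
    have hak : a ^ (Cfsg.fittingHall M).index = 1 := by
      rw [hbk1, inv_pow] at hbk
      exact inv_eq_one.mp hbk.symm
    have han : a ^ Nat.card (Cfsg.fittingHall M) = 1 := by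
      rw [← H06.card_fittingHallOf]
      exact H06.pow_card_of_mem ha
    have ha1 : a = 1 := by
      have hc : Nat.Coprime (Nat.card (Cfsg.fittingHall M)) (Cfsg.fittingHall M).index :=
        H06.fittingHall_coprime
      exact (pow_eq_one_iff_of_coprime hc).mp ⟨han, hak⟩
    rw [ha1, one_mul] at hab
    rw [hab]
    exact Subgroup.mem_inf.mpr ⟨hb, hab ▸ hzC⟩
  · rw [← hP.fitting_eq]
    apply sup_le le_sup_left
    apply le_trans _ le_sup_right
    exact inf_le_inf_right _ (hUM'.trans hM')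

end Cfsg.Agent.S1387
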