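import Cfsg.Statements.S1388
import Cfsg.Agent.S1387

set_option autoImplicit false
open Cfsg

namespace Cfsg.Agent.S1388

theorem result {G : Type*} [Group G] [Finite G] (M W₁ U W₂ : Subgroup G) (hP : Cfsg.IsTypePWith M W₁ U W₂) :
    ⁅U, U⁆ ≤ Subgroup.centralizer (Cfsg.fittingHallOf M : Set G) ∧ (U ≠ ⊥ → ¬ U ≤ Subgroup.centralizer (Cfsg.fittingHallOf M : Set G)) := by
  have hM' : ⁅M, M⁆ ≤ M := hP.W₁_compl.1
  have hUM' : U ≤ ⁅M, M⁆ := hP.U_compl.2.1
  have hHM' : Cfsg.fittingHallOf M ≤ ⁅M, M⁆ := hP.U_compl.1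
  constructor
  · intro z hz
    have hzU : z ∈ U := (Subgroup.commutator_le_self U) hz
    have h1 : z ∈ ⁅⁅M, M⁆, ⁅M, M⁆⁆ := (Subgroup.commutator_mono hUM' hUM') hz
    have h2 := hP.derived_two_le h1
    rw [hP.fitting_eq, S1387.result M W₁ U W₂ hP] at h2
    obtain ⟨a, ha, c, hc, rfl⟩ := H06.mem_sup_of_normalizes
      (N := Cfsg.fittingHallOf M) (D := U ⊓ Subgroup.centralizer (Cfsg.fittingHallOf M : Set G))
      (fun d hd n hn => H06.conj_mem_fittingHallOf M (hM' (hUM' hd.1)) hn) h2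
    have ha1 : a ∈ Cfsg.fittingHallOf M ⊓ U := by
      refine Subgroup.mem_inf.mpr ⟨ha, ?_⟩
      have : a = a * c * c⁻¹ := by group
      rw [this]
      exact U.mul_mem hzU (U.inv_mem hc.1)
    rw [hP.U_compl.2.2.1, Subgroup.mem_bot] at ha1
    rw [ha1, one_mul]
    exact hc.2
  · intro hne hle
    apply hne
    have hcomm : ∀ a ∈ Cfsg.fittingHallOf M, ∀ b ∈ U, Commute a b := fun a ha b hb =>
      (Subgroup.mem_centralizer_iff.mp (hle hb)) a ha
    have hnilH : Group.IsNilpotent (Cfsg.fittingHallOf M) := by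
      haveI : Group.IsNilpotent (Cfsg.fittingHall M) := H06.fittingHall_nilpotent
      exact Group.nilpotent_of_surjective
        (((Cfsg.fittingHall M).equivMapOfInjective M.subtype M.subtype_injective).toMonoidHom)
        ((Cfsg.fittingHall M).equivMapOfInjective M.subtype M.subtype_injective).surjective
    have hnil : Group.IsNilpotent ↥(⁅M, M⁆ : Subgroup G) :=
      H06.nilpotent_of_commuting_gen hnilH hP.U_nilpotent hHM' hUM' hcomm hP.U_compl.2.2.2
    have hsub : Group.IsNilpotent ↥(⁅M, M⁆.subgroupOf M) :=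
      Group.nilpotent_of_surjective (Subgroup.subgroupOfEquivOfLe hM').symm.toMonoidHom
        (Subgroup.subgroupOfEquivOfLe hM').symm.surjective
    have hcard := H06.card_mul_card_of_compl hP.W₁_compl
    have hnormal : (⁅M, M⁆.subgroupOf M).Normal := by
      constructor
      rintro ⟨c, hc⟩ hc' ⟨m, hm⟩
      rw [Subgroup.mem_subgroupOf] at hc' ⊢
      show m * c * m⁻¹ ∈ ⁅M, M⁆
      have h1 : m * c * m⁻¹ = (m * c * m⁻¹ * c⁻¹) * c := by group
      rw [h1]
      exact Subgroup.mul_mem _ (Subgroup.commutator_mem_commutator hm hc) hc'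
    have hMpos : 0 < Nat.card M := Nat.card_pos
    have hM1pos : 0 < Nat.card ↥(⁅M, M⁆ : Subgroup G) := Nat.card_pos
    have hW1pos : 0 < Nat.card W₁ := Nat.card_pos
    have hr1 : W₁.relIndex M * Nat.card W₁ = Nat.card M :=
      H06.relIndex_mul_card_of_le' hP.W₁_compl.2.1
    have hr2 : (⁅M, M⁆ : Subgroup G).relIndex M * Nat.card ↥(⁅M, M⁆ : Subgroup G) = Nat.card M :=
      H06.relIndex_mul_card_of_le' hM'
    have e1 : W₁.relIndex M = Nat.card ↥(⁅M, M⁆ : Subgroup G) :=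
      Nat.eq_of_mul_eq_mul_right hW1pos (hr1.trans hcard.symm)
    have e2 : (⁅M, M⁆ : Subgroup G).relIndex M = Nat.card W₁ :=
      Nat.eq_of_mul_eq_mul_right hM1pos (by rw [hr2, ← hcard, mul_comm])
    have hcop : (Nat.card ↥(⁅M, M⁆.subgroupOf M)).Coprime (⁅M, M⁆.subgroupOf M).index := by
      have e3 : Nat.card ↥(⁅M, M⁆.subgroupOf M) = Nat.card ↥(⁅M, M⁆ : Subgroup G) :=
        Nat.card_congr (Subgroup.subgroupOfEquivOfLe hM').toEquiv
      have e4 : (⁅M, M⁆.subgroupOf M).index = (⁅M, M⁆ : Subgroup G).relIndex M := rfl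
      rw [e3, e4, e2, ← e1]
      exact hP.W₁_hall.symm
    have hle := H06.le_fittingHall hnormal hsub hcop
    rw [eq_bot_iff]
    intro u hu
    have hum : u ∈ M := hM' (hUM' hu)
    have h1 : (⟨u, hum⟩ : M) ∈ ⁅M, M⁆.subgroupOf M := by
      rw [Subgroup.mem_subgroupOf]
      exact hUM' hu
    have h2 : u ∈ Cfsg.fittingHallOf M := (H06.mem_fittingHallOf M hum).mpr (hle h1)
    have h3 : u ∈ Cfsg.fittingHallOf M ⊓ U := Subgroup.mem_inf.mpr ⟨h2, hu⟩
    rwa [hP.U_compl.2.2.1] at h3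

end Cfsg.Agent.S1388
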