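import Cfsg.Statements.S1392
import Cfsg.Agent.Lib.H01.Coprime3
import Cfsg.Agent.Lib.H08.PiCore
import Mathlib

set_option autoImplicit false
set_option linter.style.haveILetI false
set_option linter.unusedVariables false
set_option linter.unusedSectionVars false
set_option linter.unusedSimpArgs false
open Cfsg
open scoped commutatorElement

namespace Cfsg.Agent.S1392

variable {G : Type*} [Group G] [Finite G]

theorem qset_isP {q : ℕ} {Y : Subgroup G} (hq : q.Prime)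
    (h : ∀ p : ℕ, p.Prime → p ∣ Nat.card Y → p ∈ ({q} : Set ℕ)) : IsPGroup q Y := by
  haveI : Fact q.Prime := ⟨hq⟩
  rw [IsPGroup.iff_card]
  exact ⟨_, Nat.eq_prime_pow_of_unique_prime_dvd Nat.card_pos.ne' (fun {d} hd hdv => h d hd hdv)⟩

theorem isP_qset {q : ℕ} {Y : Subgroup G} (hq : q.Prime) (h : IsPGroup q Y) :
    ∀ p : ℕ, p.Prime → p ∣ Nat.card Y → p ∈ ({q} : Set ℕ) := by
  intro p hp hdv
  haveI : Fact q.Prime := ⟨hq⟩
  obtain ⟨n, hn⟩ := IsPGroup.iff_card.mp h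
  rw [hn] at hdv
  exact (Nat.prime_dvd_prime_iff_eq hp hq).1 (hp.dvd_of_dvd_pow hdv)

theorem inv_le_core {A : Subgroup G} (hA : TransitivityHypothesis A) (X : Subgroup G) (hX : X ≠ ⊤)
    (hAX : A ≤ X) (Y : Subgroup G) (hYX : Y ≤ X)
    (hY : ∀ p : ℕ, p.Prime → p ∣ Nat.card Y → p ∈ primesNotDvd (Nat.card A))
    (hn : A ≤ Subgroup.normalizer (Y : Set G)) :
    Y ≤ piCoreOf (primesNotDvd (Nat.card A)) X := by
  rw [← hA.2.2 X hX hAX]
  exact le_sSup ⟨hYX, hY, hn⟩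

theorem piCoreOf_pi (π : Set ℕ) (X : Subgroup G) :
    ∀ p : ℕ, p.Prime → p ∣ Nat.card (piCoreOf π X) → p ∈ π := by
  intro p hp hdv
  have : Nat.card (piCoreOf π X) = Nat.card (piCore π X) :=
    Subgroup.card_map_of_injective X.subtype_injective
  rw [this] at hdv
  exact H08.piCore_isPi π p hp hdv

theorem mem_normalizer_core (π : Set ℕ) (X : Subgroup G) {g : G} (hg : g ∈ X) :
    g ∈ Subgroup.normalizer (piCoreOf π X : Set G) := by
  rw [Subgroup.mem_normalizer_iff]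
  intro h
  constructor
  · rintro ⟨x, hx, rfl⟩
    refine ⟨⟨g, hg⟩ * x * ⟨g, hg⟩⁻¹, (inferInstance : (piCore π X).Normal).conj_mem x hx _, ?_⟩
    simp
  · rintro ⟨y, hy, hye⟩
    refine ⟨⟨g, hg⟩⁻¹ * y * ⟨g, hg⟩,
      (inferInstance : (piCore π X).Normal).conj_mem' y hy _ , ?_⟩
    simp only [Subgroup.subtype_apply, Subgroup.coe_mul, InvMemClass.coe_inv] at hye ⊢
    rw [hye]; group

theorem piCoreOf_le (π : Set ℕ) (X : Subgroup G) : piCoreOf π X ≤ X := by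
  rintro _ ⟨x, -, rfl⟩
  exact x.2

theorem normalizer_ne_top (hG : IsMinSimpleOddOrder G) {A : Subgroup G} (h1 : A ≠ ⊥) (h2 : A ≠ ⊤) :
    Subgroup.normalizer (A : Set G) ≠ ⊤ := by
  intro h
  have hn : A.Normal := Subgroup.normalizer_eq_top_iff.mp h
  haveI := hG.2.1
  rcases IsSimpleGroup.eq_bot_or_eq_top_of_normal A hn with h3 | h3
  · exact h1 h3
  · exact h2 h3

theorem le_normalizer_of_le_centralizer {A Y : Subgroup G}
    (hY : Y ≤ Subgroup.centralizer (A : Set G)) : A ≤ Subgroup.normalizer (Y : Set G) := by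
  intro a ha
  rw [Subgroup.mem_normalizer_iff]
  intro h
  constructor
  · intro hh
    have := Subgroup.mem_centralizer_iff.mp (hY hh) a ha
    rw [this]
    simpa using hh
  · intro hh
    have := Subgroup.mem_centralizer_iff.mp (hY hh) a⁻¹ (A.inv_mem ha)
    have e : h = a⁻¹ * (a * h * a⁻¹) * a := by group
    rw [e, this]
    simpa using hh


/-- The group `K`. -/
noncomputable abbrev KK (A : Subgroup G) : Subgroup G :=
  piCoreOf (primesNotDvd (Nat.card A)) (Subgroup.centralizer (A : Set G))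

theorem KK_le (A : Subgroup G) : KK A ≤ Subgroup.centralizer (A : Set G) := piCoreOf_le _ _

theorem le_KK (hG : IsMinSimpleOddOrder G) {A : Subgroup G} (hA : TransitivityHypothesis A)
    {Y : Subgroup G} (hYC : Y ≤ Subgroup.centralizer (A : Set G))
    (hY : ∀ p : ℕ, p.Prime → p ∣ Nat.card Y → p ∈ primesNotDvd (Nat.card A)) : Y ≤ KK A := by
  have hN := normalizer_ne_top hG hA.1 hA.2.1
  have hAN : A ≤ Subgroup.normalizer (A : Set G) := Subgroup.le_normalizer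
  have hCN : Subgroup.centralizer (A : Set G) ≤ Subgroup.normalizer (A : Set G) :=
    Subgroup.centralizer_le_normalizer _
  have hYL := inv_le_core hA _ hN hAN Y (hYC.trans hCN) hY (le_normalizer_of_le_centralizer hYC)
  set L := piCoreOf (primesNotDvd (Nat.card A)) (Subgroup.normalizer (A : Set G)) with hL
  let C := Subgroup.centralizer (A : Set G)
  have hT : (L.subgroupOf C).Normal := by
    refine ⟨fun n hn g => ?_⟩
    rw [Subgroup.mem_subgroupOf] at hn ⊢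
    have := mem_normalizer_core (primesNotDvd (Nat.card A)) (Subgroup.normalizer (A : Set G))
      (hCN g.2)
    rw [Subgroup.mem_normalizer_iff] at this
    simpa using (this _).mp hn
  have hTpi : ∀ p : ℕ, p.Prime → p ∣ Nat.card (L.subgroupOf C) → p ∈ primesNotDvd (Nat.card A) := by
    intro p hp hdv
    apply piCoreOf_pi (primesNotDvd (Nat.card A)) (Subgroup.normalizer (A : Set G)) p hp
    refine hdv.trans ?_
    have : Nat.card (L.subgroupOf C) = Nat.card ((L.subgroupOf C).map C.subtype) :=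
      (Subgroup.card_map_of_injective C.subtype_injective).symm
    rw [this]
    apply Subgroup.card_dvd_of_le
    rintro _ ⟨x, hx, rfl⟩
    exact hx
  have hle := H08.le_piCore hT hTpi
  intro y hy
  exact ⟨⟨y, hYC hy⟩, hle (by rw [Subgroup.mem_subgroupOf]; exact hYL hy), rfl⟩

theorem exists_common (hG : IsMinSimpleOddOrder G) {A : Subgroup G} (hA : TransitivityHypothesis A)
    {q : ℕ} (hq : q.Prime) (hqA : ¬ q ∣ Nat.card A) {X : Subgroup G} (hX : X ≠ ⊤) (hAX : A ≤ X)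
    {S₁ S₂ : Subgroup G} (hS₁X : S₁ ≤ X) (hS₂X : S₂ ≤ X) (h₁p : IsPGroup q S₁) (h₂p : IsPGroup q S₂)
    (h₁n : A ≤ Subgroup.normalizer (S₁ : Set G)) (h₂n : A ≤ Subgroup.normalizer (S₂ : Set G)) :
    ∃ k ∈ KK A, ∃ S' : Subgroup G, IsPGroup q S' ∧ A ≤ Subgroup.normalizer (S' : Set G) ∧
      S₁.map (MulAut.conj k).toMonoidHom ≤ S' ∧ S₂ ≤ S' := by
  haveI : Fact q.Prime := ⟨hq⟩
  have hqπ : ∀ {Y : Subgroup G}, IsPGroup q Y →
      ∀ p : ℕ, p.Prime → p ∣ Nat.card Y → p ∈ primesNotDvd (Nat.card A) := by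
    intro Y hY p hp hdv
    have := isP_qset hq hY p hp hdv
    rw [Set.mem_singleton_iff] at this
    subst this
    exact ⟨hp, hqA⟩
  set L := piCoreOf (primesNotDvd (Nat.card A)) X with hL
  have h₁L : S₁ ≤ L := inv_le_core hA X hX hAX S₁ hS₁X (hqπ h₁p) h₁n
  have h₂L : S₂ ≤ L := inv_le_core hA X hX hAX S₂ hS₂X (hqπ h₂p) h₂n
  have hAL : A ≤ Subgroup.normalizer (L : Set G) := fun a ha => mem_normalizer_core _ X (hAX ha)
  have hcop : (Nat.card A).Coprime (Nat.card L) := by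
    apply Nat.coprime_of_dvd
    intro p hp h1 h2
    exact (piCoreOf_pi _ X p hp h2).2 h1
  have hLtop : L ≠ ⊤ := by
    intro h
    apply hX
    rw [eq_top_iff, ← h]
    exact piCoreOf_le _ _
  have hsolv : Group.IsSolvable A ∨ Group.IsSolvable L := Or.inr (hG.2.2.2 L hLtop)
  obtain ⟨P₁, hP₁, hP₁n⟩ := H01.invariant_subgroup_le_invariant_sylow hAL hcop hsolv q S₁ h₁L h₁p h₁n
  obtain ⟨P₂, hP₂, hP₂n⟩ := H01.invariant_subgroup_le_invariant_sylow hAL hcop hsolv q S₂ h₂L h₂p h₂n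
  obtain ⟨c, hcC, hc⟩ := H01.conj_invariant_sylow hAL hcop hsolv q P₁ P₂ hP₁n hP₂n
  have hcK : (c : G) ∈ KK A := by
    have hle : L ⊓ Subgroup.centralizer (A : Set G) ≤ KK A := by
      apply le_KK hG hA inf_le_right
      intro p hp hdv
      exact piCoreOf_pi _ X p hp (hdv.trans (Subgroup.card_dvd_of_le inf_le_left))
    exact hle ⟨c.2, hcC⟩
  refine ⟨c, hcK, (P₂ : Subgroup L).map L.subtype, P₂.isPGroup'.map _, hP₂n, ?_, hP₂⟩
  rintro _ ⟨x, hx, rfl⟩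
  obtain ⟨w, hw, hwe⟩ := hP₁ hx
  have h1 : (MulAut.conj c) w ∈ ((MulAut.conj c • P₁ : Sylow q L) : Subgroup L) := by
    rw [Sylow.pointwise_smul_def]
    exact Subgroup.smul_mem_pointwise_smul w _ _ hw
  rw [hc] at h1
  refine ⟨_, h1, ?_⟩
  subst hwe
  simp


theorem exists_max_ge {A : Subgroup G} {q : ℕ} {S : Subgroup G}
    (hS : S ∈ invSubgroups ⊤ A {q}) : ∃ Q ∈ maxInvSubgroups ⊤ A {q}, S ≤ Q := by
  obtain ⟨m, hm, hmax⟩ := (Set.toFinite (invSubgroups (⊤ : Subgroup G) A {q})).exists_le_maximal hS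
  refine ⟨m, ⟨hmax.1, fun R hR h => le_antisymm (hmax.2 hR h) h⟩, hm⟩

theorem inv_of_p {A : Subgroup G} {q : ℕ} (hq : q.Prime) {S : Subgroup G} (h : IsPGroup q S)
    (hn : A ≤ Subgroup.normalizer (S : Set G)) : S ∈ invSubgroups ⊤ A {q} :=
  ⟨le_top, isP_qset hq h, hn⟩

theorem map_conj_map (Q : Subgroup G) (k₀ k : G) :
    (Q.map (MulAut.conj k₀).toMonoidHom).map (MulAut.conj k).toMonoidHom
      = Q.map (MulAut.conj (k * k₀)).toMonoidHom := by
  rw [Subgroup.map_map]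
  congr 1
  ext x
  simp [mul_assoc]

theorem map_conj_one (Q : Subgroup G) : Q.map (MulAut.conj (1 : G)).toMonoidHom = Q := by
  ext x
  simp

theorem conj_inv {A : Subgroup G} {q : ℕ} {Y : Subgroup G} (hY : Y ∈ invSubgroups ⊤ A {q}) {k : G}
    (hk : k ∈ Subgroup.centralizer (A : Set G)) :
    Y.map (MulAut.conj k).toMonoidHom ∈ invSubgroups ⊤ A {q} := by
  refine ⟨le_top, ?_, ?_⟩
  · intro p hp hdv
    apply hY.2.1 p hp
    have : Nat.card (Y.map (MulAut.conj k).toMonoidHom) = Nat.card Y :=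
      Subgroup.card_map_of_injective (MulAut.conj k).injective
    rwa [this] at hdv
  · intro a ha
    rw [Subgroup.mem_normalizer_iff]
    intro h
    have hc : a * k = k * a := (Subgroup.mem_centralizer_iff.mp hk a ha)
    have hcinv : k⁻¹ * a = a * k⁻¹ := by
      have : a * k⁻¹ = k⁻¹ * (k * a) * k⁻¹ := by group
      rw [this, ← hc]; group
    have hn := Subgroup.mem_normalizer_iff.mp (hY.2.2 ha) (k⁻¹ * h * k)
    rw [Subgroup.mem_map_equiv, Subgroup.mem_map_equiv]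
    simp only [MulAut.conj_symm_apply] at *
    have e : k⁻¹ * (a * h * a⁻¹) * k = a * (k⁻¹ * h * k) * a⁻¹ := by
      have h1 : k⁻¹ * (a * h * a⁻¹) * k = (k⁻¹ * a) * h * (a⁻¹ * k) := by group
      have h2 : a⁻¹ * k = k * a⁻¹ := by
        have : k = a⁻¹ * (a * k) := by group
        rw [hc] at this
        calc a⁻¹ * k = a⁻¹ * (k * a) * a⁻¹ := by group
          _ = k * a⁻¹ := by rw [← this]
      rw [h1, hcinv, h2]; group
    rw [e]
    exact hn

theorem conj_max {A : Subgroup G} {q : ℕ} {Q : Subgroup G} (hQ : Q ∈ maxInvSubgroups ⊤ A {q}) {k : G}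
    (hk : k ∈ Subgroup.centralizer (A : Set G)) :
    Q.map (MulAut.conj k).toMonoidHom ∈ maxInvSubgroups ⊤ A {q} := by
  refine ⟨conj_inv hQ.1 hk, fun R hR hle => ?_⟩
  have hkinv : k⁻¹ ∈ Subgroup.centralizer (A : Set G) := Subgroup.inv_mem _ hk
  have h1 := conj_inv hR hkinv
  have h2 : Q ≤ R.map (MulAut.conj k⁻¹).toMonoidHom := by
    intro x hx
    refine ⟨k * x * k⁻¹, hle ⟨x, hx, rfl⟩, ?_⟩
    simp
    group
  have h3 := hQ.2 _ h1 h2
  rw [← h3, map_conj_map, mul_inv_cancel, map_conj_one]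

theorem link (hG : IsMinSimpleOddOrder G) {A : Subgroup G} (hA : TransitivityHypothesis A)
    {q : ℕ} (hq : q.Prime) (hqA : ¬ q ∣ Nat.card A) {Q₁ Q₂ : Subgroup G}
    (h₁ : Q₁ ∈ maxInvSubgroups ⊤ A {q}) (h₂ : Q₂ ∈ maxInvSubgroups ⊤ A {q})
    {X : Subgroup G} (hX : X ≠ ⊤) (hAX : A ≤ X) {S₁ S₂ : Subgroup G} (hS₁X : S₁ ≤ X) (hS₂X : S₂ ≤ X)
    (hS₁Q : S₁ ≤ Q₁) (hS₂Q : S₂ ≤ Q₂)
    (h₁n : A ≤ Subgroup.normalizer (S₁ : Set G)) (h₂n : A ≤ Subgroup.normalizer (S₂ : Set G))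
    (T₁ : ∀ k₀ ∈ KK A, ∀ Q₃ ∈ maxInvSubgroups ⊤ A {q}, S₁.map (MulAut.conj k₀).toMonoidHom ≤ Q₃ →
      ∃ k ∈ KK A, Q₃ = (Q₁.map (MulAut.conj k₀).toMonoidHom).map (MulAut.conj k).toMonoidHom)
    (T₂ : ∀ Q₃ ∈ maxInvSubgroups ⊤ A {q}, S₂ ≤ Q₃ → ∃ k ∈ KK A, Q₃ = Q₂.map (MulAut.conj k).toMonoidHom) :
    ∃ k ∈ KK A, Q₂ = Q₁.map (MulAut.conj k).toMonoidHom := by
  haveI : Fact q.Prime := ⟨hq⟩
  have hp₁ : IsPGroup q Q₁ := qset_isP hq h₁.1.2.1
  have hp₂ : IsPGroup q Q₂ := qset_isP hq h₂.1.2.1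
  obtain ⟨k₀, hk₀, S', hS'p, hS'n, hS'1, hS'2⟩ := exists_common hG hA hq hqA hX hAX hS₁X hS₂X
    (hp₁.to_le hS₁Q) (hp₂.to_le hS₂Q) h₁n h₂n
  obtain ⟨Q₃, hQ₃, hS'Q₃⟩ := exists_max_ge (inv_of_p hq hS'p hS'n)
  obtain ⟨k₁, hk₁, e₁⟩ := T₂ Q₃ hQ₃ (hS'2.trans hS'Q₃)
  obtain ⟨k₂, hk₂, e₂⟩ := T₁ k₀ hk₀ Q₃ hQ₃ (hS'1.trans hS'Q₃)
  refine ⟨k₁⁻¹ * (k₂ * k₀), (KK A).mul_mem ((KK A).inv_mem hk₁) ((KK A).mul_mem hk₂ hk₀), ?_⟩
  rw [map_conj_map] at e₂
  rw [← map_conj_map Q₁, ← e₂, e₁, map_conj_map, inv_mul_cancel, map_conj_one]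


theorem norm_grow {q : ℕ} [Fact q.Prime] {Q D : Subgroup G} (hp : IsPGroup q Q) (hDQ : D ≤ Q) (hne : ¬ Q ≤ D) :
    D < Q ⊓ Subgroup.normalizer (D : Set G) := by
  have hnil : Group.IsNilpotent Q := hp.isNilpotent
  have hD : D.subgroupOf Q < ⊤ := by
    rw [lt_top_iff_ne_top]
    intro h
    apply hne
    intro x hx
    have : (⟨x, hx⟩ : Q) ∈ D.subgroupOf Q := by rw [h]; trivial
    exact this
  obtain ⟨x, hx1, hx2⟩ := SetLike.exists_of_lt (Group.normalizerCondition_of_isNilpotent _ hD)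
  refine lt_of_le_of_ne (le_inf hDQ Subgroup.le_normalizer) ?_
  intro h
  apply hx2
  rw [Subgroup.mem_subgroupOf, h]
  refine ⟨x.2, ?_⟩
  rw [SetLike.mem_coe, Subgroup.mem_normalizer_iff] at *
  intro y
  constructor
  · intro hy
    have := (hx1 ⟨y, hDQ hy⟩).mp (by rw [Subgroup.mem_subgroupOf]; exact hy)
    rw [Subgroup.mem_subgroupOf] at this
    simpa using this
  · intro hy
    have hyQ : y ∈ Q := by
      have h1 := hDQ hy
      have e : y = (x : G)⁻¹ * ((x : G) * y * (x : G)⁻¹) * x := by group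
      rw [e]
      exact Q.mul_mem (Q.mul_mem (Q.inv_mem x.2) h1) x.2
    have := (hx1 ⟨y, hyQ⟩).mpr (by rw [Subgroup.mem_subgroupOf]; simpa using hy)
    rw [Subgroup.mem_subgroupOf] at this
    simpa using this

theorem inf_norm {A Q Q' : Subgroup G} (h₁ : A ≤ Subgroup.normalizer (Q : Set G))
    (h₂ : A ≤ Subgroup.normalizer (Q' : Set G)) : A ≤ Subgroup.normalizer ((Q ⊓ Q' : Subgroup G) : Set G) := by
  intro a ha
  rw [Subgroup.mem_normalizer_iff]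
  intro h
  have h1 := Subgroup.mem_normalizer_iff.mp (h₁ ha) h
  have h2 := Subgroup.mem_normalizer_iff.mp (h₂ ha) h
  rw [Subgroup.mem_inf, Subgroup.mem_inf, h1, h2]

theorem trans_core (hG : IsMinSimpleOddOrder G) {A : Subgroup G} (hA : TransitivityHypothesis A)
    {q : ℕ} (hq : q.Prime) (hqA : ¬ q ∣ Nat.card A) :
    ∀ (n : ℕ) (Q Q' : Subgroup G), Q ∈ maxInvSubgroups ⊤ A {q} → Q' ∈ maxInvSubgroups ⊤ A {q} →
      Q ⊓ Q' ≠ ⊥ → Nat.card G - Nat.card ↥(Q ⊓ Q') = n →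
      ∃ k ∈ KK A, Q' = Q.map (MulAut.conj k).toMonoidHom := by
  intro n
  induction n using Nat.strong_induction_on with
  | _ n ih =>
  intro Q Q' hQ hQ' hD hn
  haveI : Fact q.Prime := ⟨hq⟩
  have hC : (1 : G) ∈ KK A := (KK A).one_mem
  by_cases h1 : Q ≤ Q'
  · exact ⟨1, hC, by rw [map_conj_one]; exact hQ.2 Q' hQ'.1 h1⟩
  by_cases h2 : Q' ≤ Q
  · exact ⟨1, hC, by rw [map_conj_one]; exact (hQ'.2 Q hQ.1 h2).symm⟩
  set D := Q ⊓ Q' with hDdef
  have hpQ : IsPGroup q Q := qset_isP hq hQ.1.2.1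
  have hpQ' : IsPGroup q Q' := qset_isP hq hQ'.1.2.1
  have hDtop : D ≠ ⊤ := by
    intro h
    apply h1
    have : Q' = ⊤ := by
      rw [eq_top_iff, ← h]
      exact inf_le_right
    rw [this]
    exact le_top
  have hnA : A ≤ Subgroup.normalizer (D : Set G) := inf_norm hQ.1.2.2 hQ'.1.2.2
  have hX := normalizer_ne_top hG hD hDtop
  have hlt₁ : D < Q ⊓ Subgroup.normalizer (D : Set G) :=
    norm_grow hpQ inf_le_left (fun h => h1 (h.trans inf_le_right))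
  have hlt₂ : D < Q' ⊓ Subgroup.normalizer (D : Set G) :=
    norm_grow hpQ' inf_le_right (fun h => h2 (h.trans inf_le_left))
  have hnn : A ≤ Subgroup.normalizer ((Subgroup.normalizer (D : Set G) : Subgroup G) : Set G) :=
    hnA.trans Subgroup.le_normalizer
  have card_lt : ∀ {U V : Subgroup G}, U < V → Nat.card U < Nat.card V := by
    intro U V hUV
    by_contra hcon
    exact hUV.ne (Subgroup.eq_of_le_of_card_ge hUV.le (not_lt.mp hcon))
  have card_le : ∀ {U V : Subgroup G}, U ≤ V → Nat.card U ≤ Nat.card V := fun {U V} hUV =>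
    Nat.le_of_dvd Nat.card_pos (Subgroup.card_dvd_of_le hUV)
  have key : ∀ P P' : Subgroup G, P ∈ maxInvSubgroups ⊤ A {q} → P' ∈ maxInvSubgroups ⊤ A {q} →
      Nat.card D < Nat.card ↥(P ⊓ P') → ∃ k ∈ KK A, P' = P.map (MulAut.conj k).toMonoidHom := by
    intro P P' hP hP' hlt
    have hle : Nat.card ↥(P ⊓ P') ≤ Nat.card G := by
      exact Nat.le_of_dvd Nat.card_pos (Subgroup.card_subgroup_dvd_card _)
    refine ih (Nat.card G - Nat.card ↥(P ⊓ P')) (by omega) P P' hP hP' ?_ rfl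
    intro hb
    rw [hb] at hlt
    simp at hlt
    exact Nat.card_pos.ne' hlt
  exact link hG hA hq hqA hQ hQ' hX hnA (S₁ := Q ⊓ Subgroup.normalizer (D : Set G))
    (S₂ := Q' ⊓ Subgroup.normalizer (D : Set G)) inf_le_right inf_le_right inf_le_left inf_le_left
    (inf_norm hQ.1.2.2 hnn) (inf_norm hQ'.1.2.2 hnn)
    (fun k₀ hk₀ Q₃ hQ₃ hle => by
      apply key _ _ (conj_max hQ (KK_le A hk₀)) hQ₃
      have h3 : Nat.card ↥((Q ⊓ Subgroup.normalizer (D : Set G)).map (MulAut.conj k₀).toMonoidHom)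
          = Nat.card ↥(Q ⊓ Subgroup.normalizer (D : Set G)) :=
        Subgroup.card_map_of_injective (MulAut.conj k₀).injective
      calc Nat.card D < Nat.card ↥(Q ⊓ Subgroup.normalizer (D : Set G)) := card_lt hlt₁
        _ = _ := h3.symm
        _ ≤ _ := card_le (le_inf (Subgroup.map_mono inf_le_left) hle))
    (fun Q₃ hQ₃ hle => by
      apply key _ _ hQ' hQ₃
      calc Nat.card D < Nat.card ↥(Q' ⊓ Subgroup.normalizer (D : Set G)) := card_lt hlt₂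
        _ ≤ _ := card_le (le_inf inf_le_left hle))

theorem trans_inter (hG : IsMinSimpleOddOrder G) {A : Subgroup G} (hA : TransitivityHypothesis A)
    {q : ℕ} (hq : q.Prime) (hqA : ¬ q ∣ Nat.card A) {Q Q' : Subgroup G}
    (hQ : Q ∈ maxInvSubgroups ⊤ A {q}) (hQ' : Q' ∈ maxInvSubgroups ⊤ A {q}) (hD : Q ⊓ Q' ≠ ⊥) :
    ∃ k ∈ KK A, Q' = Q.map (MulAut.conj k).toMonoidHom :=
  trans_core hG hA hq hqA _ Q Q' hQ hQ' hD rfl

theorem main (hG : IsMinSimpleOddOrder G)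
    (A : Subgroup G) (hA : TransitivityHypothesis A) (q : ℕ) (hq : q.Prime) (hqA : ¬ q ∣ Nat.card A)
    (Q₁ Q₂ : Subgroup G) (h₁ : Q₁ ∈ maxInvSubgroups ⊤ A {q}) (h₂ : Q₂ ∈ maxInvSubgroups ⊤ A {q})
    (H : Subgroup G) (hH : H ≠ ⊤) (hAH : A ≤ H) (hH₁ : H ⊓ Q₁ ≠ ⊥) (hH₂ : H ⊓ Q₂ ≠ ⊥) :
    ∃ k ∈ KK A, Q₂ = Q₁.map (MulAut.conj k).toMonoidHom := by
  have hnH : A ≤ Subgroup.normalizer (H : Set G) := hAH.trans Subgroup.le_normalizer
  exact link hG hA hq hqA h₁ h₂ hH hAH (S₁ := H ⊓ Q₁) (S₂ := H ⊓ Q₂) inf_le_left inf_le_left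
    inf_le_right inf_le_right (inf_norm hnH h₁.1.2.2) (inf_norm hnH h₂.1.2.2)
    (fun k₀ hk₀ Q₃ hQ₃ hle => by
      apply trans_inter hG hA hq hqA (conj_max h₁ (KK_le A hk₀)) hQ₃
      intro hb
      apply hH₁
      have h3 : (H ⊓ Q₁).map (MulAut.conj k₀).toMonoidHom ≤ Q₁.map (MulAut.conj k₀).toMonoidHom ⊓ Q₃ :=
        le_inf (Subgroup.map_mono inf_le_right) hle
      rw [hb, le_bot_iff, Subgroup.map_eq_bot_iff_of_injective _ (MulAut.conj k₀).injective] at h3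
      exact h3)
    (fun Q₃ hQ₃ hle => by
      apply trans_inter hG hA hq hqA h₂ hQ₃
      intro hb
      apply hH₂
      have h3 : H ⊓ Q₂ ≤ Q₂ ⊓ Q₃ := le_inf inf_le_right hle
      rw [hb, le_bot_iff] at h3
      exact h3)

/-- Let G be a minimal simple group of odd order, A a subgroup satisfying the transitivity hypothesis, K = O_{π(A)'}(C_G(A)), and q a prime not dividing the order of A. If Q₁, Q₂ are maximal among the A-invariant q-subgroups of G and some proper subgroup H ≥ A meets both Q₁ and Q₂ nontrivially, then Q₂ = kQ₁k⁻¹ for some k ∈ K. -/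
theorem result {G : Type*} [Group G] [Finite G] (hG : Cfsg.IsMinSimpleOddOrder G)
    (A : Subgroup G) (hA : Cfsg.TransitivityHypothesis A) (q : ℕ) (hq : q.Prime) (hqA : ¬ q ∣ Nat.card A)
    (Q₁ Q₂ : Subgroup G) (h₁ : Q₁ ∈ Cfsg.maxInvSubgroups ⊤ A {q}) (h₂ : Q₂ ∈ Cfsg.maxInvSubgroups ⊤ A {q})
    (H : Subgroup G) (hH : H ≠ ⊤) (hAH : A ≤ H) (hH₁ : H ⊓ Q₁ ≠ ⊥) (hH₂ : H ⊓ Q₂ ≠ ⊥) :
    ∃ k ∈ Cfsg.piCoreOf (Cfsg.primesNotDvd (Nat.card A)) (Subgroup.centralizer (A : Set G)), Q₂ = Q₁.map (MulAut.conj k).toMonoidHom :=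
  main hG A hA q hq hqA Q₁ Q₂ h₁ h₂ H hH hAH hH₁ hH₂

end Cfsg.Agent.S1392
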