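import Cfsg.Statements.S1393
import Cfsg.Agent.S1392
import Cfsg.Agent.Lib.H13.CoprimeGen2
import Cfsg.Agent.Lib.H01.Basic
import Mathlib

set_option autoImplicit false
set_option linter.style.haveILetI false
set_option linter.unusedVariables false
set_option linter.unusedSectionVars false
set_option linter.unusedSimpArgs false
open Cfsg
open scoped commutatorElement

namespace Cfsg.Agent.S1393

open Cfsg.Agent.S1392

variable {G : Type*} [Group G] [Finite G]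

theorem exists_B {A : Subgroup G} {k : ℕ} (hZ : ¬ RankLE k ↥(A ⊓ Subgroup.centralizer (A : Set G))) :
    ∃ r : ℕ, r.Prime ∧ ∃ B : Subgroup G, B ≤ A ∧ B ≤ Subgroup.centralizer (A : Set G) ∧
      IsElementaryAbelian r B ∧ r ^ k < Nat.card B := by
  unfold RankLE PRankLE at hZ
  push Not at hZ
  obtain ⟨r, hr, A₀, hc, hp, hlt⟩ := hZ
  refine ⟨r, hr, A₀.map (A ⊓ Subgroup.centralizer (A : Set G)).subtype, ?_, ?_, ⟨?_, ?_⟩, ?_⟩
  · rintro _ ⟨x, -, rfl⟩
    exact x.2.1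
  · rintro _ ⟨x, -, rfl⟩
    exact x.2.2
  · refine ⟨⟨fun x y => ?_⟩⟩
    obtain ⟨x, x', hx', hxe⟩ := x
    obtain ⟨y, y', hy', hye⟩ := y
    apply Subtype.ext
    simp only [Subgroup.coe_mul]
    rw [← hxe, ← hye]
    have := congrArg Subtype.val (hc.is_comm.comm (⟨x', hx'⟩ : A₀) ⟨y', hy'⟩)
    simpa using congrArg Subtype.val this
  · rintro _ ⟨x, hx, rfl⟩
    have := hp x hx
    simpa using congrArg Subtype.val this
  · have : Nat.card (A₀.map (A ⊓ Subgroup.centralizer (A : Set G)).subtype) = Nat.card A₀ :=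
      Subgroup.card_map_of_injective (Subgroup.subtype_injective _)
    rwa [this]

theorem centralizer_ne_top (hG : IsMinSimpleOddOrder G) {b : G} (hb : b ≠ 1) :
    Subgroup.centralizer ({b} : Set G) ≠ ⊤ := by
  intro h
  haveI := hG.2.1
  have hbc : b ∈ Subgroup.center G := by
    rw [Subgroup.mem_center_iff]
    intro g
    have : g ∈ Subgroup.centralizer ({b} : Set G) := by rw [h]; trivial
    exact Subgroup.mem_centralizer_singleton_iff.mp this
  rcases IsSimpleGroup.eq_bot_or_eq_top_of_normal (Subgroup.center G) inferInstance with h1 | h1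
  · rw [h1] at hbc
    exact hb (by simpa using hbc)
  · apply hG.2.2.1
    refine ⟨⟨fun x y => ?_⟩⟩
    have : y ∈ Subgroup.center G := by rw [h1]; trivial
    exact (Subgroup.mem_center_iff.mp this x)

section
variable {r : ℕ} [hr : Fact r.Prime] {B : Subgroup G} {A : Subgroup G}

theorem elem_isP (hB : IsElementaryAbelian r B) : IsPGroup r B := by
  intro x
  refine ⟨1, ?_⟩
  apply Subtype.ext
  simpa using hB.2 x x.2

theorem coatom_card (hB : IsElementaryAbelian r B) {U₀ : Subgroup G} (hU₀ : U₀ ≤ B)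
    (hco : IsCoatom (U₀.subgroupOf B)) : Nat.card U₀ * r = Nat.card B := by
  have h := (H01.isCoatom_normal_index (elem_isP hB) hco).2
  have h2 := Subgroup.card_mul_index (U₀.subgroupOf B)
  rw [h] at h2
  rw [← h2]
  congr 1
  exact (Nat.card_congr (Subgroup.subgroupOfEquivOfLe hU₀).toEquiv).symm

theorem r_ne_q {q : ℕ} (hq : q.Prime) (hqA : ¬ q ∣ Nat.card A) (hBA : B ≤ A) (hB : IsElementaryAbelian r B)
    (hB1 : 1 < Nat.card B) : (r : ℕ) ≠ q := by
  rintro rfl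
  apply hqA
  refine Dvd.dvd.trans ?_ (Subgroup.card_dvd_of_le hBA)
  obtain ⟨n, hn⟩ := IsPGroup.iff_card.mp (elem_isP hB)
  rw [hn] at hB1 ⊢
  have hn0 : n ≠ 0 := by
    rintro rfl
    simp at hB1
  exact dvd_pow_self _ hn0

theorem fixed_coatom {q : ℕ} (hq : q.Prime) (hqA : ¬ q ∣ Nat.card A) (hBA : B ≤ A)
    (hB : IsElementaryAbelian r B) (hB1 : 1 < Nat.card B) {Q : Subgroup G}
    (hQ : Q ∈ maxInvSubgroups ⊤ A {q}) (hQ1 : Q ≠ ⊥) :
    ∃ U₀ : Subgroup G, U₀ ≤ B ∧ IsCoatom (U₀.subgroupOf B) ∧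
      Q ⊓ Subgroup.centralizer (U₀ : Set G) ≠ ⊥ := by
  haveI : Fact q.Prime := ⟨hq⟩
  have hne := r_ne_q hq hqA hBA hB hB1
  have hB1' : B ≠ ⊥ := by
    rintro rfl
    simp at hB1
  have hpQ : IsPGroup q Q := qset_isP hq hQ.1.2.1
  obtain ⟨n, hn⟩ := IsPGroup.iff_card.mp hpQ
  have hc : (Nat.card Q).Coprime r := by
    rw [hn]
    exact Nat.Coprime.pow_left _ ((Nat.coprime_primes hq hr.out).mpr hne.symm)
  exact H13.exists_coatom_fixed hB hB1' hQ1 hc (hBA.trans hQ.1.2.2)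

end

theorem main (hG : IsMinSimpleOddOrder G)
    (A : Subgroup G) (hA : TransitivityHypothesis A) (hZ : ¬ RankLE 2 ↥(A ⊓ Subgroup.centralizer (A : Set G)))
    (q : ℕ) (hq : q.Prime) (hqA : ¬ q ∣ Nat.card A) :
    ∀ Q₁ ∈ maxInvSubgroups ⊤ A {q}, ∀ Q₂ ∈ maxInvSubgroups ⊤ A {q}, ∃ k ∈ KK A, Q₂ = Q₁.map (MulAut.conj k).toMonoidHom := by
  intro Q₁ h₁ Q₂ h₂
  have hC : (1 : G) ∈ KK A := (KK A).one_mem
  by_cases hQ₁ : Q₁ = ⊥
  · refine ⟨1, hC, ?_⟩
    rw [map_conj_one]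
    exact h₁.2 Q₂ h₂.1 (by rw [hQ₁]; exact bot_le)
  by_cases hQ₂ : Q₂ = ⊥
  · refine ⟨1, hC, ?_⟩
    rw [map_conj_one]
    exact (h₂.2 Q₁ h₁.1 (by rw [hQ₂]; exact bot_le)).symm
  obtain ⟨r, hr, B, hBA, hBC, hB, hlt⟩ := exists_B hZ
  haveI : Fact r.Prime := ⟨hr⟩
  have hB1 : 1 < Nat.card B := lt_of_le_of_lt (Nat.one_le_pow _ _ hr.pos) hlt
  obtain ⟨U₁, hU₁, hco₁, hf₁⟩ := fixed_coatom hq hqA hBA hB hB1 h₁ hQ₁
  obtain ⟨U₂, hU₂, hco₂, hf₂⟩ := fixed_coatom hq hqA hBA hB hB1 h₂ hQ₂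
  have hi₁ := (H01.isCoatom_normal_index (elem_isP hB) hco₁).2
  have hi₂ := (H01.isCoatom_normal_index (elem_isP hB) hco₂).2
  have hle : (U₁.subgroupOf B ⊓ U₂.subgroupOf B).index ≤ _ := Subgroup.index_inf_le
  rw [hi₁, hi₂] at hle
  have hc := Subgroup.card_mul_index (U₁.subgroupOf B ⊓ U₂.subgroupOf B)
  have hne : U₁.subgroupOf B ⊓ U₂.subgroupOf B ≠ ⊥ := by
    intro hb
    rw [hb] at hc hle
    simp only [Nat.card_unique, one_mul] at hc
    rw [← hc] at hlt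
    nlinarith
  obtain ⟨x, hx, hx1⟩ := (Subgroup.bot_or_exists_ne_one _).resolve_left hne
  have hb1 : (x : G) ≠ 1 := fun h => hx1 (Subtype.ext h)
  have hxU₁ : (x : G) ∈ U₁ := Subgroup.mem_subgroupOf.mp hx.1
  have hxU₂ : (x : G) ∈ U₂ := Subgroup.mem_subgroupOf.mp hx.2
  have hsub : ∀ {U : Subgroup G}, (x : G) ∈ U → ∀ {Q : Subgroup G}, Q ⊓ Subgroup.centralizer (U : Set G) ≠ ⊥ →
      Subgroup.centralizer ({(x : G)} : Set G) ⊓ Q ≠ ⊥ := by
    intro U hU Q hf hb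
    apply hf
    rw [eq_bot_iff, ← hb]
    rintro y ⟨hy1, hy2⟩
    refine ⟨?_, hy1⟩
    apply Subgroup.mem_centralizer_singleton_iff.mpr
    exact (Subgroup.mem_centralizer_iff.mp hy2 _ hU).symm
  apply Cfsg.Agent.S1392.main hG A hA q hq hqA Q₁ Q₂ h₁ h₂ (Subgroup.centralizer ({(x : G)} : Set G))
    (centralizer_ne_top hG hb1) ?_ (hsub hxU₁ hf₁) (hsub hxU₂ hf₂)
  intro a ha
  apply Subgroup.mem_centralizer_singleton_iff.mpr
  exact Subgroup.mem_centralizer_iff.mp (hBC x.2) a ha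

/-- Let G be a minimal simple group of odd order, A a subgroup satisfying the transitivity hypothesis whose centre has rank at least 3, K = O_{π(A)'}(C_G(A)), and q a prime not dividing the order of A. Then any two maximal A-invariant q-subgroups of G are conjugate by an element of K. -/
theorem result {G : Type*} [Group G] [Finite G] (hG : Cfsg.IsMinSimpleOddOrder G)
    (A : Subgroup G) (hA : Cfsg.TransitivityHypothesis A) (hZ : ¬ Cfsg.RankLE 2 ↥(A ⊓ Subgroup.centralizer (A : Set G)))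
    (q : ℕ) (hq : q.Prime) (hqA : ¬ q ∣ Nat.card A) :
    ∀ Q₁ ∈ Cfsg.maxInvSubgroups ⊤ A {q}, ∀ Q₂ ∈ Cfsg.maxInvSubgroups ⊤ A {q}, ∃ k ∈ Cfsg.piCoreOf (Cfsg.primesNotDvd (Nat.card A)) (Subgroup.centralizer (A : Set G)), Q₂ = Q₁.map (MulAut.conj k).toMonoidHom :=
  main hG A hA hZ q hq hqA

end Cfsg.Agent.S1393
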