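import Cfsg.Statements.S1394
import Cfsg.Agent.S1393
import Mathlib

set_option autoImplicit false
set_option linter.style.haveILetI false
set_option linter.unusedVariables false
set_option linter.unusedSectionVars false
set_option linter.unusedSimpArgs false
open Cfsg
open scoped commutatorElement

namespace Cfsg.Agent.S1394

open Cfsg.Agent.S1392 Cfsg.Agent.S1393

variable {G : Type*} [Group G] [Finite G]

theorem to_base (hG : IsMinSimpleOddOrder G)
    (A : Subgroup G) (hA : TransitivityHypothesis A) (hZ : ¬ RankLE 1 ↥(A ⊓ Subgroup.centralizer (A : Set G)))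
    (q : ℕ) (hq : q.Prime) (hqA : ¬ q ∣ Nat.card A) {y : G} (hy : y ∈ Subgroup.centralizer (A : Set G))
    (hy1 : y ≠ 1) {Q₀ : Subgroup G} (hQ₀ : Q₀ ∈ maxInvSubgroups ⊤ A {q}) (hyQ₀ : y ∈ Q₀)
    {Q : Subgroup G} (hQ : Q ∈ maxInvSubgroups ⊤ A {q}) :
    ∃ k ∈ KK A, Q = Q₀.map (MulAut.conj k).toMonoidHom := by
  have hQ1 : Q ≠ ⊥ := by
    intro hb
    have := hQ.2 Q₀ hQ₀.1 (by rw [hb]; exact bot_le)
    rw [hb] at this
    rw [this] at hyQ₀
    exact hy1 (by simpa using hyQ₀)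
  obtain ⟨r, hr, B, hBA, hBC, hB, hlt⟩ := exists_B hZ
  haveI : Fact r.Prime := ⟨hr⟩
  have hB1 : 1 < Nat.card B := lt_of_le_of_lt (Nat.one_le_pow _ _ hr.pos) hlt
  obtain ⟨U, hU, hco, hf⟩ := fixed_coatom hq hqA hBA hB hB1 hQ hQ1
  have hc := coatom_card hB hU hco
  have hU1 : U ≠ ⊥ := by
    intro hb
    rw [hb] at hc
    simp only [Subgroup.card_bot, one_mul] at hc
    rw [← hc] at hlt
    simp at hlt
  obtain ⟨x, hx, hx1⟩ := (Subgroup.bot_or_exists_ne_one _).resolve_left hU1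
  have hxA : x ∈ A := hBA (hU hx)
  apply Cfsg.Agent.S1392.main hG A hA q hq hqA Q₀ Q hQ₀ hQ (Subgroup.centralizer ({x} : Set G))
    (centralizer_ne_top hG hx1)
  · intro a ha
    apply Subgroup.mem_centralizer_singleton_iff.mpr
    exact Subgroup.mem_centralizer_iff.mp (hBC (hU hx)) a ha
  · intro hb
    have : y ∈ Subgroup.centralizer ({x} : Set G) ⊓ Q₀ := by
      refine ⟨?_, hyQ₀⟩
      apply Subgroup.mem_centralizer_singleton_iff.mpr
      exact (Subgroup.mem_centralizer_iff.mp hy x hxA).symm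
    rw [hb] at this
    exact hy1 (by simpa using this)
  · intro hb
    apply hf
    rw [eq_bot_iff, ← hb]
    rintro z ⟨hz1, hz2⟩
    refine ⟨?_, hz1⟩
    apply Subgroup.mem_centralizer_singleton_iff.mpr
    exact (Subgroup.mem_centralizer_iff.mp hz2 _ hx).symm

theorem main (hG : IsMinSimpleOddOrder G)
    (A : Subgroup G) (hA : TransitivityHypothesis A) (hZ : ¬ RankLE 1 ↥(A ⊓ Subgroup.centralizer (A : Set G)))
    (q : ℕ) (hq : q.Prime) (hqA : ¬ q ∣ Nat.card A) (hqC : q ∣ Nat.card (Subgroup.centralizer (A : Set G))) :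
    ∀ Q₁ ∈ maxInvSubgroups ⊤ A {q}, ∀ Q₂ ∈ maxInvSubgroups ⊤ A {q}, ∃ k ∈ KK A, Q₂ = Q₁.map (MulAut.conj k).toMonoidHom := by
  intro Q₁ h₁ Q₂ h₂
  haveI : Fact q.Prime := ⟨hq⟩
  obtain ⟨y, hy⟩ := exists_prime_orderOf_dvd_card' q hqC
  have hy1 : (y : G) ≠ 1 := by
    intro h
    have : y = 1 := Subtype.ext h
    rw [this, orderOf_one] at hy
    exact hq.one_lt.ne hy
  have hyo : orderOf (y : G) = q := by
    rw [Subgroup.orderOf_coe]; exact hy
  have hYC : Subgroup.zpowers (y : G) ≤ Subgroup.centralizer (A : Set G) :=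
    (Subgroup.zpowers_le).mpr y.2
  have hYp : IsPGroup q (Subgroup.zpowers (y : G)) := by
    rw [IsPGroup.iff_card]
    exact ⟨1, by rw [Nat.card_zpowers, hyo, pow_one]⟩
  obtain ⟨Q₀, hQ₀, hle⟩ := exists_max_ge (inv_of_p (A := A) hq hYp (le_normalizer_of_le_centralizer hYC))
  have hyQ₀ : (y : G) ∈ Q₀ := hle (Subgroup.mem_zpowers _)
  obtain ⟨k₁, hk₁, e₁⟩ := to_base hG A hA hZ q hq hqA y.2 hy1 hQ₀ hyQ₀ h₁
  obtain ⟨k₂, hk₂, e₂⟩ := to_base hG A hA hZ q hq hqA y.2 hy1 hQ₀ hyQ₀ h₂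
  refine ⟨k₂ * k₁⁻¹, (KK A).mul_mem hk₂ ((KK A).inv_mem hk₁), ?_⟩
  rw [e₁, e₂, map_conj_map]
  simp

/-- Let G be a minimal simple group of odd order, A a subgroup satisfying the transitivity hypothesis whose centre has rank at least 2, K = O_{π(A)'}(C_G(A)), and q a prime dividing the order of C_G(A) but not that of A. Then any two maximal A-invariant q-subgroups of G are conjugate by an element of K. -/
theorem result {G : Type*} [Group G] [Finite G] (hG : Cfsg.IsMinSimpleOddOrder G)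
    (A : Subgroup G) (hA : Cfsg.TransitivityHypothesis A) (hZ : ¬ Cfsg.RankLE 1 ↥(A ⊓ Subgroup.centralizer (A : Set G)))
    (q : ℕ) (hq : q.Prime) (hqA : ¬ q ∣ Nat.card A) (hqC : q ∣ Nat.card (Subgroup.centralizer (A : Set G))) :
    ∀ Q₁ ∈ Cfsg.maxInvSubgroups ⊤ A {q}, ∀ Q₂ ∈ Cfsg.maxInvSubgroups ⊤ A {q}, ∃ k ∈ Cfsg.piCoreOf (Cfsg.primesNotDvd (Nat.card A)) (Subgroup.centralizer (A : Set G)), Q₂ = Q₁.map (MulAut.conj k).toMonoidHom :=
  main hG A hA hZ q hq hqA hqC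

end Cfsg.Agent.S1394
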