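import Cfsg.Statements.S1395
import Cfsg.Agent.S1392
import Cfsg.Agent.Lib.H06.PLen1
import Cfsg.Agent.Lib.H01.Coprime3
import Mathlib

set_option autoImplicit false
set_option linter.style.haveILetI false
set_option linter.unusedVariables false
set_option linter.unusedSectionVars false
set_option linter.unusedSimpArgs false
open Cfsg
open scoped commutatorElement

namespace Cfsg.Agent.S1395

open Cfsg.Agent.S1392

variable {G : Type*} [Group G] [Finite G]

theorem mem_normalizer_of_map_conj {Q : Subgroup G} {g : G}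
    (h : Q.map (MulAut.conj g).toMonoidHom = Q) : g ∈ Subgroup.normalizer (Q : Set G) := by
  rw [Subgroup.mem_normalizer_iff]
  intro y
  constructor
  · intro hy
    rw [← h]
    exact ⟨y, hy, rfl⟩
  · intro hy
    rw [← h] at hy
    obtain ⟨z, hz, hze⟩ := hy
    have : z = y := by
      have h2 : g * z * g⁻¹ = g * y * g⁻¹ := hze
      simpa using h2
    rwa [← this]

theorem map_conj_of_mem_normalizer {Q : Subgroup G} {g : G}
    (h : g ∈ Subgroup.normalizer (Q : Set G)) : Q.map (MulAut.conj g).toMonoidHom = Q := by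
  ext y
  rw [Subgroup.mem_map_equiv]
  simp only [MulAut.conj_symm_apply]
  have := (Subgroup.mem_normalizer_iff.mp h (g⁻¹ * y * g))
  rw [this]
  have e : g * (g⁻¹ * y * g) * g⁻¹ = y := by group
  rw [e]

theorem conj_inv_norm {D : Subgroup G} {q : ℕ} {Y : Subgroup G} (hY : Y ∈ invSubgroups ⊤ D {q}) {g : G}
    (hg : g ∈ Subgroup.normalizer (D : Set G)) :
    Y.map (MulAut.conj g).toMonoidHom ∈ invSubgroups ⊤ D {q} := by
  refine ⟨le_top, ?_, ?_⟩
  · intro p hp hdv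
    apply hY.2.1 p hp
    have : Nat.card (Y.map (MulAut.conj g).toMonoidHom) = Nat.card Y :=
      Subgroup.card_map_of_injective (MulAut.conj g).injective
    rwa [this] at hdv
  · intro d hd
    rw [Subgroup.mem_normalizer_iff]
    intro h
    have he : g⁻¹ * d * g ∈ D := by
      have := (Subgroup.mem_normalizer_iff.mp ((Subgroup.normalizer (D : Set G)).inv_mem hg) d).mp hd
      simpa using this
    have hn := Subgroup.mem_normalizer_iff.mp (hY.2.2 he) (g⁻¹ * h * g)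
    rw [Subgroup.mem_map_equiv, Subgroup.mem_map_equiv]
    simp only [MulAut.conj_symm_apply] at *
    have e : g⁻¹ * (d * h * d⁻¹) * g = (g⁻¹ * d * g) * (g⁻¹ * h * g) * (g⁻¹ * d * g)⁻¹ := by group
    rw [e]
    exact hn

theorem conj_max_norm {D : Subgroup G} {q : ℕ} {Q : Subgroup G} (hQ : Q ∈ maxInvSubgroups ⊤ D {q}) {g : G}
    (hg : g ∈ Subgroup.normalizer (D : Set G)) :
    Q.map (MulAut.conj g).toMonoidHom ∈ maxInvSubgroups ⊤ D {q} := by
  refine ⟨conj_inv_norm hQ.1 hg, fun R hR hle => ?_⟩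
  have hginv : g⁻¹ ∈ Subgroup.normalizer (D : Set G) := Subgroup.inv_mem _ hg
  have h1 := conj_inv_norm hR hginv
  have h2 : Q ≤ R.map (MulAut.conj g⁻¹).toMonoidHom := by
    intro x hx
    refine ⟨g * x * g⁻¹, hle ⟨x, hx, rfl⟩, ?_⟩
    simp
    group
  have h3 := hQ.2 _ h1 h2
  rw [← h3, map_conj_map, mul_inv_cancel, map_conj_one]

theorem exists_fixed_family {K T : Subgroup G} (hTK : T ≤ Subgroup.normalizer (K : Set G))
    (hcop : (Nat.card T).Coprime (Nat.card K)) (hsolv : Group.IsSolvable T ∨ Group.IsSolvable K)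
    (F : Set (Subgroup G))
    (hcl : ∀ g ∈ K ⊔ T, ∀ Q ∈ F, Q.map (MulAut.conj g).toMonoidHom ∈ F)
    (htr : ∀ Q₁ ∈ F, ∀ Q₂ ∈ F, ∃ k ∈ K, Q₂ = Q₁.map (MulAut.conj k).toMonoidHom)
    (hne : F.Nonempty) : ∃ Q ∈ F, T ≤ Subgroup.normalizer (Q : Set G) := by
  let Γ : Subgroup G := K ⊔ T
  have hKΓ : K ≤ Γ := le_sup_left
  have hTΓ : T ≤ Γ := le_sup_right
  have hΓ : Γ ≤ Subgroup.normalizer (K : Set G) := sup_le Subgroup.le_normalizer hTK
  let ρ : Γ →* Equiv.Perm F :=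
    { toFun := fun g =>
        { toFun := fun Q => ⟨Q.1.map (MulAut.conj (g : G)).toMonoidHom, hcl g g.2 Q.1 Q.2⟩
          invFun := fun Q => ⟨Q.1.map (MulAut.conj (g : G)⁻¹).toMonoidHom,
            hcl _ (Γ.inv_mem g.2) Q.1 Q.2⟩
          left_inv := fun Q => Subtype.ext (by
            show (Q.1.map _).map _ = Q.1
            rw [map_conj_map, inv_mul_cancel, map_conj_one])
          right_inv := fun Q => Subtype.ext (by
            show (Q.1.map _).map _ = Q.1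
            rw [map_conj_map, mul_inv_cancel, map_conj_one]) }
      map_one' := by
        ext Q : 2
        show Q.1.map _ = Q.1
        exact map_conj_one Q.1
      map_mul' := fun g h => by
        ext Q : 2
        show Q.1.map _ = (Q.1.map _).map _
        rw [map_conj_map]
        rfl }
  have hρ : ∀ (g : Γ) (Q : F), ((ρ g Q : F) : Subgroup G) = Q.1.map (MulAut.conj (g : G)).toMonoidHom :=
    fun g Q => rfl
  have hN₀ : (K.subgroupOf Γ).Normal := (Subgroup.normal_subgroupOf_iff_le_normalizer hKΓ).mpr hΓ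
  have hcardΓ : Nat.card K * Nat.card T = Nat.card Γ :=
    H01.card_sup_of_le_normalizer hTK hcop.symm
  have hc : (K.subgroupOf Γ).IsComplement' (T.subgroupOf Γ) := by
    apply Subgroup.isComplement'_of_coprime
    · rw [H01.card_subgroupOf_of_le hKΓ, H01.card_subgroupOf_of_le hTΓ, hcardΓ]
    · rw [H01.card_subgroupOf_of_le hKΓ, H01.card_subgroupOf_of_le hTΓ]; exact hcop.symm
  have hcop₀ : (Nat.card (K.subgroupOf Γ)).Coprime (K.subgroupOf Γ).index := by
    rw [hc.symm.index_eq_card, H01.card_subgroupOf_of_le hKΓ, H01.card_subgroupOf_of_le hTΓ]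
    exact hcop.symm
  have hsolv₀ : Group.IsSolvable (K.subgroupOf Γ) ∨ Group.IsSolvable (T.subgroupOf Γ) := by
    rcases hsolv with h | h
    · right
      exact Group.isSolvable_of_surjective (f := ((Subgroup.subgroupOfEquivOfLe hTΓ).symm : T →* _))
        (Subgroup.subgroupOfEquivOfLe hTΓ).symm.surjective
    · left
      exact Group.isSolvable_of_surjective (f := ((Subgroup.subgroupOfEquivOfLe hKΓ).symm : K →* _))
        (Subgroup.subgroupOfEquivOfLe hKΓ).symm.surjective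
  have htrans : ∀ x y : F, ∃ k ∈ K.subgroupOf Γ, ρ k x = y := by
    intro x y
    obtain ⟨k, hk, e⟩ := htr x.1 x.2 y.1 y.2
    refine ⟨⟨k, hKΓ hk⟩, hk, Subtype.ext ?_⟩
    rw [hρ]
    exact e.symm
  obtain ⟨Q₀, hQ₀⟩ := hne
  obtain ⟨Q, hQ⟩ := H01.glauberman_fixed ρ (K.subgroupOf Γ) (T.subgroupOf Γ) hc hcop₀ hsolv₀ htrans ⟨Q₀, hQ₀⟩
  refine ⟨Q.1, Q.2, fun t ht => ?_⟩
  have h1 := hQ ⟨t, hTΓ ht⟩ ht
  have h2 := congrArg Subtype.val h1
  rw [hρ] at h2
  exact mem_normalizer_of_map_conj h2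

theorem le_core_of_normalized (π : Set ℕ) {L X : Subgroup G} (hX : X ≤ Subgroup.normalizer (L : Set G))
    (hL : ∀ p : ℕ, p.Prime → p ∣ Nat.card L → p ∈ π) : L ⊓ X ≤ piCoreOf π X := by
  have hT : (L.subgroupOf X).Normal := by
    refine ⟨fun n hn g => ?_⟩
    rw [Subgroup.mem_subgroupOf] at hn ⊢
    have := Subgroup.mem_normalizer_iff.mp (hX g.2) n
    simpa using this.mp hn
  have hTpi : ∀ p : ℕ, p.Prime → p ∣ Nat.card (L.subgroupOf X) → p ∈ π := by
    intro p hp hdv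
    apply hL p hp
    refine hdv.trans ?_
    have : Nat.card (L.subgroupOf X) = Nat.card ((L.subgroupOf X).map X.subtype) :=
      (Subgroup.card_map_of_injective X.subtype_injective).symm
    rw [this]
    apply Subgroup.card_dvd_of_le
    rintro _ ⟨x, hx, rfl⟩
    exact hx
  have hle := H08.le_piCore hT hTpi
  rintro y ⟨hy1, hy2⟩
  exact ⟨⟨y, hy2⟩, hle (by rw [Subgroup.mem_subgroupOf]; exact hy1), rfl⟩

theorem norm_centralizer {D : Subgroup G} {g : G} (hg : g ∈ Subgroup.normalizer (D : Set G)) :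
    g ∈ Subgroup.normalizer ((Subgroup.centralizer (D : Set G) : Subgroup G) : Set G) := by
  have key : ∀ {g : G}, g ∈ Subgroup.normalizer (D : Set G) → ∀ h ∈ Subgroup.centralizer (D : Set G),
      g * h * g⁻¹ ∈ Subgroup.centralizer (D : Set G) := by
    intro g hg h hh
    apply Subgroup.mem_centralizer_iff.mpr
    intro d hd
    have h1 : g⁻¹ * d * g ∈ D := by
      have := (Subgroup.mem_normalizer_iff.mp ((Subgroup.normalizer (D : Set G)).inv_mem hg) d).mp hd
      simpa using this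
    have h2 := Subgroup.mem_centralizer_iff.mp hh _ h1
    calc d * (g * h * g⁻¹) = g * ((g⁻¹ * d * g) * h) * g⁻¹ := by group
      _ = g * (h * (g⁻¹ * d * g)) * g⁻¹ := by rw [h2]
      _ = (g * h * g⁻¹) * d := by group
  rw [Subgroup.mem_normalizer_iff]
  intro h
  refine ⟨key hg h, fun hh => ?_⟩
  have := key ((Subgroup.normalizer (D : Set G)).inv_mem hg) _ hh
  simpa [mul_assoc] using this


theorem norm_core (π : Set ℕ) {X : Subgroup G} {g : G} (hg : g ∈ Subgroup.normalizer (X : Set G)) :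
    g ∈ Subgroup.normalizer (piCoreOf π X : Set G) := by
  have hchar : (piCore π X).Characteristic := H08.piCore_characteristic π X
  have key : ∀ (φ : X ≃* X) (z : X), z ∈ piCore π X ↔ φ z ∈ piCore π X := by
    intro φ z
    have := Subgroup.characteristic_iff_comap_eq.mp hchar φ
    constructor
    · intro hz
      rw [← this] at hz
      exact hz
    · intro hz
      rw [← this]
      exact hz
  let ψ : X ≃* X := X.normalizerMonoidHom ⟨g, hg⟩
  have hψ : ∀ z : X, ((ψ z : X) : G) = g * z * g⁻¹ := fun z => rfl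
  rw [Subgroup.mem_normalizer_iff]
  intro h
  constructor
  · rintro ⟨x, hx, rfl⟩
    exact ⟨ψ x, (key ψ x).mp hx, hψ x⟩
  · rintro ⟨y, hy, hye⟩
    have hye' : (y : G) = g * h * g⁻¹ := hye
    have hhX : h ∈ X := by
      have e : h = g⁻¹ * (y : G) * g := by rw [hye']; group
      rw [e]
      have := (Subgroup.mem_normalizer_iff.mp ((Subgroup.normalizer (X : Set G)).inv_mem hg) y).mp y.2
      simpa using this
    have h1 : ψ ⟨h, hhX⟩ = y := Subtype.ext (by rw [hψ]; exact hye'.symm)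
    exact ⟨⟨h, hhX⟩, (key ψ _).mpr (by rw [h1]; exact hy), rfl⟩

/-- The non-trivial case of `(c)`. -/
theorem max_of_ne_bot (hG : IsMinSimpleOddOrder G) {A : Subgroup G} (hA : TransitivityHypothesis A)
    {q : ℕ} (hq : q.Prime) (hqA : ¬ q ∣ Nat.card A) {K : Subgroup G} (hAK : A ≤ K)
    (hKπ : ∀ r : ℕ, r.Prime → r ∣ Nat.card K → r ∣ Nat.card A) (hK : K ≠ ⊤) {Q : Subgroup G}
    (hQ : Q ∈ maxInvSubgroups ⊤ K {q}) (hQ1 : Q ≠ ⊥) : Q ∈ maxInvSubgroups ⊤ A {q} := by
  haveI : Fact q.Prime := ⟨hq⟩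
  have hp : IsPGroup q Q := qset_isP hq hQ.1.2.1
  have hKN : K ≤ Subgroup.normalizer (Q : Set G) := hQ.1.2.2
  have hQA : A ≤ Subgroup.normalizer (Q : Set G) := hAK.trans hKN
  have hqπ : ∀ {Y : Subgroup G}, IsPGroup q Y →
      ∀ p : ℕ, p.Prime → p ∣ Nat.card Y → p ∈ primesNotDvd (Nat.card A) := by
    intro Y hY r hr hdv
    have := isP_qset hq hY r hr hdv
    rw [Set.mem_singleton_iff] at this
    rw [this]
    exact ⟨hq, hqA⟩
  have hQtop : Q ≠ ⊤ := by
    intro h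
    have hpA : IsPGroup q A := hp.to_le (by rw [h]; exact le_top)
    obtain ⟨n, hn⟩ := IsPGroup.iff_card.mp hpA
    rcases Nat.eq_zero_or_pos n with h0 | h0
    · rw [h0, pow_zero] at hn
      exact hA.1 (Subgroup.eq_bot_of_card_eq _ hn)
    · exact hqA (by rw [hn]; exact dvd_pow_self _ h0.ne')
  have hX := normalizer_ne_top hG hQ1 hQtop
  set L := piCoreOf (primesNotDvd (Nat.card A)) (Subgroup.normalizer (Q : Set G)) with hL
  have hKL : K ≤ Subgroup.normalizer (L : Set G) := fun k hk => mem_normalizer_core _ _ (hKN hk)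
  have hcop : (Nat.card K).Coprime (Nat.card L) := by
    apply Nat.coprime_of_dvd
    intro p hp h1 h2
    exact (piCoreOf_pi _ _ p hp h2).2 (hKπ p hp h1)
  have hsolv : Group.IsSolvable K ∨ Group.IsSolvable L := Or.inl (hG.2.2.2 K hK)
  obtain ⟨S, hS⟩ := H01.exists_invariant_sylow hKL hcop hsolv q
  have hQL : Q ≤ L := inv_le_core hA _ hX hQA Q Subgroup.le_normalizer (hqπ hp) hQA
  have hQn : (Q.subgroupOf L).Normal :=
    (Subgroup.normal_subgroupOf_iff_le_normalizer hQL).mpr (piCoreOf_le _ _)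
  have hQp' : IsPGroup q (Q.subgroupOf L) := hp.of_equiv (Subgroup.subgroupOfEquivOfLe hQL).symm
  have hQS : Q ≤ (S : Subgroup L).map L.subtype := by
    intro y hy
    exact ⟨⟨y, hQL hy⟩, hQp'.le_sylow_of_normal S (by rw [Subgroup.mem_subgroupOf]; exact hy), rfl⟩
  have hSeq : (S : Subgroup L).map L.subtype = Q :=
    hQ.2 _ ⟨le_top, isP_qset hq (S.isPGroup'.map _), hS⟩ hQS
  refine ⟨⟨le_top, hQ.1.2.1, hQA⟩, fun R hR hle => ?_⟩
  by_contra hne
  have hpR : IsPGroup q R := qset_isP hq hR.2.1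
  have hnRQ : ¬ R ≤ Q := fun h => hne (le_antisymm h hle)
  have hlt := norm_grow hpR hle hnRQ
  have hR₁L : R ⊓ Subgroup.normalizer (Q : Set G) ≤ L :=
    inv_le_core hA _ hX hQA _ inf_le_right (hqπ (hpR.to_le inf_le_left))
      (inf_norm hR.2.2 (hQA.trans Subgroup.le_normalizer))
  have hp₁ : IsPGroup q ((R ⊓ Subgroup.normalizer (Q : Set G)).subgroupOf L) :=
    (hpR.to_le inf_le_left).of_equiv (Subgroup.subgroupOfEquivOfLe hR₁L).symm
  have hmax := S.is_maximal' hp₁ (by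
    intro x hx
    rw [Subgroup.mem_subgroupOf]
    apply hlt.le
    rw [← hSeq]
    exact ⟨x, hx, rfl⟩)
  apply hlt.not_ge
  intro x hx
  rw [← hSeq]
  refine ⟨⟨x, hR₁L hx⟩, ?_, rfl⟩
  have : (⟨x, hR₁L hx⟩ : L) ∈ (R ⊓ Subgroup.normalizer (Q : Set G)).subgroupOf L := by
    rw [Subgroup.mem_subgroupOf]; exact hx
  rwa [hmax] at this


/-- The pair of properties propagated along a subnormal chain. -/
def Good (A : Subgroup G) (q : ℕ) (D : Subgroup G) : Prop :=
  (∀ Q₁ ∈ maxInvSubgroups ⊤ D {q}, ∀ Q₂ ∈ maxInvSubgroups ⊤ D {q},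
    ∃ k ∈ piCoreOf (primesNotDvd (Nat.card A)) (Subgroup.centralizer (D : Set G)),
      Q₂ = Q₁.map (MulAut.conj k).toMonoidHom) ∧
  maxInvSubgroups ⊤ D {q} ⊆ maxInvSubgroups ⊤ A {q}

theorem step (hG : IsMinSimpleOddOrder G) {A : Subgroup G} (hA : TransitivityHypothesis A)
    {q : ℕ} (hq : q.Prime) (hqA : ¬ q ∣ Nat.card A) {D K : Subgroup G} (hAD : A ≤ D) (hDK : D ≤ K)
    (hKN : K ≤ Subgroup.normalizer (D : Set G))
    (hKπ : ∀ r : ℕ, r.Prime → r ∣ Nat.card K → r ∣ Nat.card A) (hK : K ≠ ⊤)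
    (hD : Good A q D) : Good A q K := by
  haveI : Fact q.Prime := ⟨hq⟩
  obtain ⟨hTr, hSub⟩ := hD
  set LD := piCoreOf (primesNotDvd (Nat.card A)) (Subgroup.centralizer (D : Set G)) with hLD
  have hKL : K ≤ Subgroup.normalizer (LD : Set G) := fun k hk => norm_core _ (norm_centralizer (hKN hk))
  have hcop : (Nat.card K).Coprime (Nat.card LD) := by
    apply Nat.coprime_of_dvd
    intro p hp h1 h2
    exact (piCoreOf_pi _ _ p hp h2).2 (hKπ p hp h1)
  have hsolv : Group.IsSolvable K := hG.2.2.2 K hK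
  have hSubK : maxInvSubgroups ⊤ K {q} ⊆ maxInvSubgroups ⊤ A {q} := by
    intro Q hQ
    by_cases hQ1 : Q = ⊥
    · have hcl : ∀ g ∈ LD ⊔ K, ∀ Q ∈ maxInvSubgroups ⊤ D {q},
          Q.map (MulAut.conj g).toMonoidHom ∈ maxInvSubgroups ⊤ D {q} := by
        intro g hg Q hQ
        apply conj_max_norm hQ
        refine (sup_le ?_ hKN) hg
        exact (piCoreOf_le _ _).trans (Subgroup.centralizer_le_normalizer _)
      obtain ⟨Q₀', hQ₀', -⟩ := exists_max_ge (A := D) (q := q) (S := ⊥)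
        (inv_of_p hq (IsPGroup.of_bot) (fun d _ => by
          rw [Subgroup.mem_normalizer_iff]
          intro h
          simp))
      obtain ⟨Q₀, hQ₀, hQ₀n⟩ := exists_fixed_family hKL hcop (Or.inl hsolv) _ hcl hTr ⟨Q₀', hQ₀'⟩
      have h1 : Q₀ = Q := hQ.2 Q₀ ⟨le_top, hQ₀.1.2.1, hQ₀n⟩ (by rw [hQ1]; exact bot_le)
      rw [← h1]
      exact hSub hQ₀
    · exact max_of_ne_bot hG hA hq hqA (hAD.trans hDK) hKπ hK hQ hQ1
  refine ⟨?_, hSubK⟩
  have hmemD : ∀ Q ∈ maxInvSubgroups ⊤ K {q}, Q ∈ maxInvSubgroups ⊤ D {q} := by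
    intro Q hQ
    refine ⟨⟨le_top, hQ.1.2.1, hDK.trans hQ.1.2.2⟩, fun R hR hle => ?_⟩
    exact (hSubK hQ).2 R ⟨le_top, hR.2.1, hAD.trans hR.2.2⟩ hle
  intro Q₁ h₁ Q₂ h₂
  obtain ⟨k, hk, e⟩ := hTr Q₁ (hmemD Q₁ h₁) Q₂ (hmemD Q₂ h₂)
  obtain ⟨c, hc, he⟩ := H06.exists_centralizing_conj (K := LD) (D := K) (A := Q₁) (B := Q₂) hKL hcop
    (Or.inl hsolv) h₁.1.2.2 h₂.1.2.2 hk e.symm
  have hCN : Subgroup.centralizer (K : Set G) ≤ Subgroup.normalizer (LD : Set G) := by
    intro x hx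
    exact mem_normalizer_core _ _ (Subgroup.centralizer_le hDK hx)
  refine ⟨c, le_core_of_normalized _ hCN (piCoreOf_pi _ _) hc, he.symm⟩

theorem chain (hG : IsMinSimpleOddOrder G) {A : Subgroup G} (hA : TransitivityHypothesis A)
    {q : ℕ} (hq : q.Prime) (hqA : ¬ q ∣ Nat.card A) {P : Subgroup G} (hP : P ≠ ⊤)
    (hPπ : ∀ r : ℕ, r.Prime → r ∣ Nat.card P → r ∣ Nat.card A) {H : Subgroup P} (hH : H.IsSubnormal) :
    A ≤ H.map P.subtype → Good A q (H.map P.subtype) → Good A q P := by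
  induction hH with
  | top =>
    intro _ h
    have e : (⊤ : Subgroup P).map P.subtype = P := by
      ext x
      simp
    rwa [e] at h
  | step H K h_le hSubn hN ih =>
    intro hAH hgood
    have hle : H.map P.subtype ≤ K.map P.subtype := Subgroup.map_mono h_le
    refine ih (hAH.trans hle) (step hG hA hq hqA hAH hle ?_ ?_ ?_ hgood)
    · rintro _ ⟨k, hk, rfl⟩
      rw [Subgroup.mem_normalizer_iff]
      intro y
      constructor
      · rintro ⟨x, hx, rfl⟩
        refine ⟨k * x * k⁻¹, ?_, rfl⟩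
        have := hN.conj_mem ⟨x, h_le hx⟩ (by rw [Subgroup.mem_subgroupOf]; exact hx) ⟨k, hk⟩
        rw [Subgroup.mem_subgroupOf] at this
        exact this
      · rintro ⟨x, hx, hxe⟩
        have hy : y = P.subtype (k⁻¹ * x * k) := by
          have h1 : (x : G) = (k : G) * y * (k : G)⁻¹ := hxe
          simp only [Subgroup.subtype_apply, Subgroup.coe_mul, InvMemClass.coe_inv]
          rw [h1]
          group
        rw [hy]
        refine ⟨k⁻¹ * x * k, ?_, rfl⟩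
        have := hN.conj_mem' ⟨x, h_le hx⟩ (by rw [Subgroup.mem_subgroupOf]; exact hx) ⟨k, hk⟩
        rw [Subgroup.mem_subgroupOf] at this
        exact this
    · intro r hr hdv
      apply hPπ r hr
      refine hdv.trans (Subgroup.card_dvd_of_le ?_)
      rintro _ ⟨x, -, rfl⟩
      exact x.2
    · intro htop
      apply hP
      rw [eq_top_iff, ← htop]
      rintro _ ⟨x, -, rfl⟩
      exact x.2


theorem part_a (hG : IsMinSimpleOddOrder G) {A : Subgroup G} (hA : TransitivityHypothesis A)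
    {P : Subgroup G} (hAP : A ≤ P) :
    piCoreOf (primesNotDvd (Nat.card A)) (Subgroup.centralizer (A : Set G)) ⊓ Subgroup.centralizer (P : Set G)
      = piCoreOf (primesNotDvd (Nat.card A)) (Subgroup.centralizer (P : Set G)) := by
  have hC : Subgroup.centralizer (P : Set G) ≤ Subgroup.centralizer (A : Set G) :=
    Subgroup.centralizer_le hAP
  apply le_antisymm
  · apply le_core_of_normalized _ _ (piCoreOf_pi _ _)
    intro x hx
    exact mem_normalizer_core _ _ (hC hx)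
  · exact le_inf (le_KK hG hA ((piCoreOf_le _ _).trans hC) (piCoreOf_pi _ _)) (piCoreOf_le _ _)

theorem part_d₂ {A P Q : Subgroup G} {q : ℕ} (hgood : Good A q P) (hQ : Q ∈ maxInvSubgroups ⊤ P {q}) :
    Subgroup.normalizer (P : Set G) = piCoreOf (primesNotDvd (Nat.card A)) (Subgroup.centralizer (P : Set G)) ⊔
      (Subgroup.normalizer (P : Set G) ⊓ Subgroup.normalizer (Q : Set G)) := by
  have hK : piCoreOf (primesNotDvd (Nat.card A)) (Subgroup.centralizer (P : Set G))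
      ≤ Subgroup.normalizer (P : Set G) :=
    (piCoreOf_le _ _).trans (Subgroup.centralizer_le_normalizer _)
  apply le_antisymm
  · intro n hn
    obtain ⟨k, hk, e⟩ := hgood.1 Q hQ _ (conj_max_norm hQ hn)
    have h1 : k⁻¹ * n ∈ Subgroup.normalizer (P : Set G) :=
      Subgroup.mul_mem _ (Subgroup.inv_mem _ (hK hk)) hn
    have h2 : k⁻¹ * n ∈ Subgroup.normalizer (Q : Set G) := by
      apply mem_normalizer_of_map_conj
      rw [← map_conj_map, e, map_conj_map, inv_mul_cancel, map_conj_one]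
    have e2 : n = k * (k⁻¹ * n) := by group
    rw [e2]
    exact Subgroup.mul_mem_sup hk ⟨h1, h2⟩
  · exact sup_le hK inf_le_left

theorem part_d₁ {A P Q : Subgroup G} {q : ℕ} (hgood : Good A q P) (hQ : Q ∈ maxInvSubgroups ⊤ P {q})
    (hPπ : ∀ r : ℕ, r.Prime → r ∣ Nat.card P → r ∣ Nat.card A) :
    P ⊓ ⁅Subgroup.normalizer (P : Set G), Subgroup.normalizer (P : Set G)⁆
      ≤ ⁅Subgroup.normalizer (Q : Set G), Subgroup.normalizer (Q : Set G)⁆ := by
  set NP := Subgroup.normalizer (P : Set G) with hNP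
  set K := piCoreOf (primesNotDvd (Nat.card A)) (Subgroup.centralizer (P : Set G)) with hKdef
  set N₁ := NP ⊓ Subgroup.normalizer (Q : Set G) with hN₁
  have hKNP : K ≤ NP := (piCoreOf_le _ _).trans (Subgroup.centralizer_le_normalizer _)
  have hKn : NP ≤ Subgroup.normalizer (K : Set G) := fun n hn => norm_core _ (norm_centralizer hn)
  have hconj : ∀ n ∈ NP, ∀ k ∈ K, n * k * n⁻¹ ∈ K := fun n hn k hk =>
    (Subgroup.mem_normalizer_iff.mp (hKn hn) k).mp hk
  have hN₁NP : N₁ ≤ NP := inf_le_left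
  let C := ⁅N₁, N₁⁆
  have hCN₁ : C ≤ N₁ := by
    rw [Subgroup.commutator_le]
    intro g hg h hh
    rw [commutatorElement_def]
    exact N₁.mul_mem (N₁.mul_mem (N₁.mul_mem hg hh) (N₁.inv_mem hg)) (N₁.inv_mem hh)
  let T : Subgroup G :=
    { carrier := {g | ∃ k ∈ K, ∃ c ∈ C, g = k * c}
      one_mem' := ⟨1, K.one_mem, 1, C.one_mem, by simp⟩
      mul_mem' := by
        rintro _ _ ⟨k, hk, c, hc, rfl⟩ ⟨k', hk', c', hc', rfl⟩
        refine ⟨k * (c * k' * c⁻¹), K.mul_mem hk (hconj c (hN₁NP (hCN₁ hc)) k' hk'), c * c',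
          C.mul_mem hc hc', by group⟩
      inv_mem' := by
        rintro _ ⟨k, hk, c, hc, rfl⟩
        refine ⟨c⁻¹ * k⁻¹ * c⁻¹⁻¹, hconj _ (NP.inv_mem (hN₁NP (hCN₁ hc))) _ (K.inv_mem hk), c⁻¹,
          C.inv_mem hc, by group⟩ }
  have hsplit : NP = K ⊔ N₁ := part_d₂ hgood hQ
  have hdecomp : ∀ g ∈ NP, ∃ k ∈ K, ∃ n ∈ N₁, g = k * n := by
    intro n hn
    obtain ⟨k, hk, e⟩ := hgood.1 Q hQ _ (conj_max_norm hQ hn)
    have h1 : k⁻¹ * n ∈ NP := Subgroup.mul_mem _ (Subgroup.inv_mem _ (hKNP hk)) hn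
    have h2 : k⁻¹ * n ∈ Subgroup.normalizer (Q : Set G) := by
      apply mem_normalizer_of_map_conj
      rw [← map_conj_map, e, map_conj_map, inv_mul_cancel, map_conj_one]
    exact ⟨k, hk, k⁻¹ * n, ⟨h1, h2⟩, by group⟩
  have hcomm : ⁅NP, NP⁆ ≤ T := by
    rw [Subgroup.commutator_le]
    intro g hg h hh
    obtain ⟨k₁, hk₁, n₁, hn₁, rfl⟩ := hdecomp g hg
    obtain ⟨k₂, hk₂, n₂, hn₂, rfl⟩ := hdecomp h hh
    refine ⟨_, ?_, ⁅n₁, n₂⁆, Subgroup.commutator_mem_commutator hn₁ hn₂,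
      (div_mul_cancel (⁅k₁ * n₁, k₂ * n₂⁆) ⁅n₁, n₂⁆).symm⟩
    have e : ⁅k₁ * n₁, k₂ * n₂⁆ / ⁅n₁, n₂⁆
        = k₁ * (n₁ * k₂ * n₁⁻¹) * ((n₁ * n₂ * n₁⁻¹) * k₁⁻¹ * (n₁ * n₂ * n₁⁻¹)⁻¹)
          * (⁅n₁, n₂⁆ * k₂⁻¹ * ⁅n₁, n₂⁆⁻¹) := by
      simp only [commutatorElement_def, div_eq_mul_inv]
      group
    rw [e]
    have hn₁' := hN₁NP hn₁
    have hn₂' := hN₁NP hn₂
    refine K.mul_mem (K.mul_mem (K.mul_mem hk₁ (hconj _ hn₁' _ hk₂)) (hconj _ ?_ _ (K.inv_mem hk₁))) (hconj _ ?_ _ (K.inv_mem hk₂))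
    · exact NP.mul_mem (NP.mul_mem hn₁' hn₂') (NP.inv_mem hn₁')
    · exact hN₁NP (hCN₁ (Subgroup.commutator_mem_commutator hn₁ hn₂))
  rintro x ⟨hxP, hxC⟩
  obtain ⟨k, hk, c, hc, e⟩ := hcomm hxC
  have hPN₁ : P ≤ N₁ := le_inf Subgroup.le_normalizer hQ.1.2.2
  have hcN₁ := hCN₁ hc
  have hkN₁ : k ∈ N₁ := by
    have : k = x * c⁻¹ := by rw [e]; group
    rw [this]
    exact N₁.mul_mem (hPN₁ hxP) (N₁.inv_mem hcN₁)
  -- pass to the abelianisation of `N₁`
  let ab := (Abelianization.of : N₁ →* Abelianization N₁)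
  have hcab : ab ⟨c, hcN₁⟩ = 1 := by
    have h1 : c ∈ (commutator N₁).map N₁.subtype := by
      rw [Subgroup.map_subtype_commutator]
      exact hc
    obtain ⟨c', hc', hce⟩ := h1
    have : c' = ⟨c, hcN₁⟩ := Subtype.ext hce
    rw [← this]
    have h2 : c' ∈ ab.ker := by
      have : ab.ker = commutator N₁ := Abelianization.ker_of N₁
      rw [this]
      exact hc'
    exact h2
  have hxk : ab ⟨x, hPN₁ hxP⟩ = ab ⟨k, hkN₁⟩ := by
    have : (⟨x, hPN₁ hxP⟩ : N₁) = ⟨k, hkN₁⟩ * ⟨c, hcN₁⟩ := Subtype.ext e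
    rw [this, map_mul, hcab, mul_one]
  have h1 : (ab ⟨x, hPN₁ hxP⟩) ^ Nat.card P = 1 := by
    rw [← map_pow]
    have : (⟨x, hPN₁ hxP⟩ : N₁) ^ Nat.card P = 1 := by
      apply Subtype.ext
      have h0 : ((⟨x, hxP⟩ : P) ^ Nat.card P : P).1 = 1 := by rw [pow_card_eq_one']; rfl
      rw [Subgroup.coe_pow] at h0
      exact h0
    rw [this, map_one]
  have h2 : (ab ⟨x, hPN₁ hxP⟩) ^ Nat.card K = 1 := by
    rw [hxk, ← map_pow]
    have : (⟨k, hkN₁⟩ : N₁) ^ Nat.card K = 1 := by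
      apply Subtype.ext
      have h0 : ((⟨k, hk⟩ : K) ^ Nat.card K : K).1 = 1 := by rw [pow_card_eq_one']; rfl
      rw [Subgroup.coe_pow] at h0
      exact h0
    rw [this, map_one]
  have hcop : (Nat.card P).Coprime (Nat.card K) := by
    apply Nat.coprime_of_dvd
    intro p hp h3 h4
    exact (piCoreOf_pi _ _ p hp h4).2 (hPπ p hp h3)
  have hone : ab ⟨x, hPN₁ hxP⟩ = 1 := by
    have h3 := orderOf_dvd_of_pow_eq_one h1
    have h4 := orderOf_dvd_of_pow_eq_one h2
    have h5 := Nat.eq_one_of_dvd_coprimes hcop h3 h4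
    exact orderOf_eq_one_iff.mp h5
  have hmem : (⟨x, hPN₁ hxP⟩ : N₁) ∈ commutator N₁ := by
    have : ab.ker = commutator N₁ := Abelianization.ker_of N₁
    rw [← this]
    exact hone
  have hxN₁ : x ∈ C := by
    have : x ∈ (commutator N₁).map N₁.subtype := ⟨_, hmem, rfl⟩
    rwa [Subgroup.map_subtype_commutator] at this
  exact Subgroup.commutator_mono inf_le_right inf_le_right hxN₁

/-- Let G be a minimal simple group of odd order, A a subgroup satisfying the transitivity hypothesis with K = O_{π(A)'}(C_G(A)), q a prime not dividing the order of A, and P a proper subgroup all of whose prime divisors divide the order of A, containing A as a subnormal subgroup, such that any two maximal A-invariant q-subgroups are conjugate under K. Then (a) K ∩ C_G(P) = O_{π(A)'}(C_G(P)); (b) any two maximal P-invariant q-subgroups are conjugate under O_{π(A)'}(C_G(P)); (c) every maximal P-invariant q-subgroup is a maximal A-invariant q-subgroup;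 (d) for every maximal P-invariant q-subgroup Q, P ∩ N_G(P)' ≤ N_G(Q)' and N_G(P) is generated by O_{π(A)'}(C_G(P)) and N_G(P) ∩ N_G(Q). -/
theorem result {G : Type*} [Group G] [Finite G] (hG : Cfsg.IsMinSimpleOddOrder G)
    (A : Subgroup G) (hA : Cfsg.TransitivityHypothesis A) (q : ℕ) (hq : q.Prime) (hqA : ¬ q ∣ Nat.card A)
    (P : Subgroup G) (hP : P ≠ ⊤) (hPπ : (∀ r : ℕ, r.Prime → r ∣ Nat.card P → r ∣ Nat.card A)) (hAP : A ≤ P) (hsn : (A.subgroupOf P).IsSubnormal)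
    (htr : ∀ Q₁ ∈ Cfsg.maxInvSubgroups ⊤ A {q}, ∀ Q₂ ∈ Cfsg.maxInvSubgroups ⊤ A {q}, ∃ k ∈ Cfsg.piCoreOf (Cfsg.primesNotDvd (Nat.card A)) (Subgroup.centralizer (A : Set G)), Q₂ = Q₁.map (MulAut.conj k).toMonoidHom) :
    Cfsg.piCoreOf (Cfsg.primesNotDvd (Nat.card A)) (Subgroup.centralizer (A : Set G)) ⊓ Subgroup.centralizer (P : Set G) = Cfsg.piCoreOf (Cfsg.primesNotDvd (Nat.card A)) (Subgroup.centralizer (P : Set G)) ∧
      (∀ Q₁ ∈ Cfsg.maxInvSubgroups ⊤ P {q}, ∀ Q₂ ∈ Cfsg.maxInvSubgroups ⊤ P {q}, ∃ k ∈ Cfsg.piCoreOf (Cfsg.primesNotDvd (Nat.card A)) (Subgroup.centralizer (P : Set G)), Q₂ = Q₁.map (MulAut.conj k).toMonoidHom) ∧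
      Cfsg.maxInvSubgroups ⊤ P {q} ⊆ Cfsg.maxInvSubgroups ⊤ A {q} ∧
      ∀ Q ∈ Cfsg.maxInvSubgroups ⊤ P {q},
        P ⊓ ⁅Subgroup.normalizer (P : Set G), Subgroup.normalizer (P : Set G)⁆ ≤ ⁅Subgroup.normalizer (Q : Set G), Subgroup.normalizer (Q : Set G)⁆ ∧
        Subgroup.normalizer (P : Set G) = Cfsg.piCoreOf (Cfsg.primesNotDvd (Nat.card A)) (Subgroup.centralizer (P : Set G)) ⊔ (Subgroup.normalizer (P : Set G) ⊓ Subgroup.normalizer (Q : Set G)) := by
  have hgood₀ : Good A q A := ⟨htr, fun _ h => h⟩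
  have hsub : (A.subgroupOf P).map P.subtype = A := Subgroup.map_subgroupOf_eq_of_le hAP
  have hgood : Good A q P :=
    chain hG hA hq hqA hP hPπ hsn (by rw [hsub]) (by rw [hsub]; exact hgood₀)
  exact ⟨part_a hG hA hAP, hgood.1, hgood.2, fun Q hQ => ⟨part_d₁ hgood hQ hPπ, part_d₂ hgood hQ⟩⟩


end Cfsg.Agent.S1395
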