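import Cfsg.Statements.S1462
import Cfsg.Agent.Lib.H06.PLen1
import Cfsg.Agent.Lib.H06.PSolvable
import Cfsg.Agent.Lib.H06.Basic
import Cfsg.Agent.Lib.H01.Coprime4
import Cfsg.Agent.Lib.H01.SZ2
import Cfsg.Agent.Lib.H13.FrobOdd
import Cfsg.Agent.Lib.H08.PCoreL

set_option autoImplicit false

open Cfsg

namespace Cfsg.Agent.S1462

open Cfsg.Agent.H06 Cfsg.Agent.H01 Cfsg.Agent.H13

universe u

variable {G : Type u} [Group G] [Finite G] {p : ℕ} [Fact p.Prime]

/-- A maximal elementary abelian subgroup stays maximal modulo a normal `p'`-subgroup. -/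
theorem max_elem_quot (X : Subgroup G) [hXn : X.Normal] (hXc : (Nat.card X).Coprime p) (E : Subgroup G)
    (hE : IsElementaryAbelian p E) (hEmax : ∀ B : Subgroup G, IsElementaryAbelian p B → E ≤ B → B = E)
    (z : G ⧸ X) (hz : z ^ p = 1) (hzE : ∀ e ∈ E, QuotientGroup.mk' X e * z = z * QuotientGroup.mk' X e) :
    z ∈ E.map (QuotientGroup.mk' X) := by
  classical
  let φ := QuotientGroup.mk' X
  have hφs : Function.Surjective φ := QuotientGroup.mk'_surjective X
  let E' := E.map φ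
  let Bb : Subgroup (G ⧸ X) := E' ⊔ Subgroup.zpowers z
  haveI := hE.1
  have hE'c : ∀ a ∈ E', ∀ b ∈ E', a * b = b * a := by
    rintro _ ⟨a, ha, rfl⟩ _ ⟨b, hb, rfl⟩
    rw [← map_mul, ← map_mul]
    have : (⟨a, ha⟩ : E) * ⟨b, hb⟩ = ⟨b, hb⟩ * ⟨a, ha⟩ := mul_comm' _ _
    exact congrArg φ (congrArg Subtype.val this)
  have h1 : ∀ a ∈ E', ∀ b ∈ Subgroup.zpowers z, a * b = b * a := by
    rintro _ ⟨e, he, rfl⟩ b hb
    obtain ⟨k, rfl⟩ := Subgroup.mem_zpowers_iff.mp hb
    have : Commute (φ e) z := hzE e he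
    exact (this.zpow_right k).eq
  have hzz : ∀ a ∈ Subgroup.zpowers z, ∀ b ∈ Subgroup.zpowers z, a * b = b * a := by
    intro a ha b hb
    obtain ⟨k, rfl⟩ := Subgroup.mem_zpowers_iff.mp ha
    obtain ⟨l, rfl⟩ := Subgroup.mem_zpowers_iff.mp hb
    exact ((Commute.refl z).zpow_zpow k l).eq
  have hBc : ∀ a ∈ Bb, ∀ b ∈ Bb, a * b = b * a := by
    intro a ha b hb
    obtain ⟨a₁, ha₁, z₁, hz₁, rfl⟩ := mem_sup_of_commute h1 ha
    obtain ⟨a₂, ha₂, z₂, hz₂, rfl⟩ := mem_sup_of_commute h1 hb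
    calc a₁ * z₁ * (a₂ * z₂) = a₁ * (z₁ * a₂) * z₂ := by group
      _ = a₁ * (a₂ * z₁) * z₂ := by rw [h1 a₂ ha₂ z₁ hz₁]
      _ = (a₁ * a₂) * (z₁ * z₂) := by group
      _ = (a₂ * a₁) * (z₂ * z₁) := by rw [hE'c a₁ ha₁ a₂ ha₂, hzz z₁ hz₁ z₂ hz₂]
      _ = a₂ * (a₁ * z₂) * z₁ := by group
      _ = a₂ * (z₂ * a₁) * z₁ := by rw [h1 a₁ ha₁ z₂ hz₂]
      _ = a₂ * z₂ * (a₁ * z₁) := by group
  have hBe : ∀ a ∈ Bb, a ^ p = 1 := by
    intro a ha
    obtain ⟨a₁, ha₁, z₁, hz₁, rfl⟩ := mem_sup_of_commute h1 ha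
    have hc : Commute a₁ z₁ := h1 a₁ ha₁ z₁ hz₁
    rw [hc.mul_pow]
    obtain ⟨e, he, rfl⟩ := ha₁
    obtain ⟨k, rfl⟩ := Subgroup.mem_zpowers_iff.mp hz₁
    rw [← map_pow, hE.2 e he, map_one, one_mul, ← zpow_natCast, ← zpow_mul, mul_comm, zpow_mul, zpow_natCast, hz,
      one_zpow]
  let W : Subgroup G := Bb.comap φ
  have hEW : E ≤ W := fun e he => Subgroup.mem_sup_left (Subgroup.mem_map_of_mem φ he)
  let ψ : W →* Bb := (φ.comp W.subtype).codRestrict Bb (fun w => w.2)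
  have hψs : Function.Surjective ψ := by
    rintro ⟨b, hb⟩
    obtain ⟨g, rfl⟩ := hφs b
    exact ⟨⟨g, hb⟩, rfl⟩
  have hEp : IsPGroup p (E.subgroupOf W) := by
    rintro ⟨⟨e, _⟩, he⟩
    refine ⟨1, Subtype.ext (Subtype.ext ?_)⟩
    have := hE.2 e he
    simpa using this
  obtain ⟨Q₀, hQ₀⟩ := hEp.exists_le_sylow
  let B : Subgroup G := (Q₀ : Subgroup W).map W.subtype
  have hBW : B ≤ W := Subgroup.map_subtype_le _
  have hEB : E ≤ B := by
    intro e he
    exact ⟨⟨e, hEW he⟩, hQ₀ he, rfl⟩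
  have hBp : IsPGroup p B := by
    have : IsPGroup p (Q₀ : Subgroup W) := Q₀.isPGroup'
    exact this.map W.subtype
  have hinj : ∀ a ∈ B, φ a = 1 → a = 1 := by
    intro a ha h
    have haX : a ∈ X := (QuotientGroup.eq_one_iff a).mp h
    obtain ⟨k, hk⟩ := hBp ⟨a, ha⟩
    have h1 : a ^ p ^ k = 1 := by simpa using congrArg Subtype.val hk
    have h2 : orderOf a ∣ p ^ k := orderOf_dvd_of_pow_eq_one h1
    have h3 : orderOf a ∣ Nat.card X := by
      have := orderOf_dvd_natCard (⟨a, haX⟩ : X)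
      rwa [Subgroup.orderOf_mk] at this
    exact orderOf_eq_one_iff.mp (Nat.eq_one_of_dvd_coprimes (Nat.Coprime.pow_right k hXc).symm h2 h3 |> fun h => h)
  have hBel : IsElementaryAbelian p B := by
    refine ⟨⟨⟨?_⟩⟩, ?_⟩
    · rintro ⟨a, ha⟩ ⟨b, hb⟩
      apply Subtype.ext
      show a * b = b * a
      have h1 : φ (a * b * (b * a)⁻¹) = 1 := by
        rw [map_mul, map_inv, map_mul, map_mul, hBc _ (hBW ha) _ (hBW hb), mul_inv_cancel]
      have h2 := hinj _ (mul_mem (mul_mem ha hb) (inv_mem (mul_mem hb ha))) h1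
      exact mul_inv_eq_one.mp h2
    · intro a ha
      apply hinj _ (pow_mem ha p)
      rw [map_pow]
      exact hBe _ (hBW ha)
  have hBE := hEmax B hBel hEB
  -- the image of the Sylow subgroup is everything
  let S' : Sylow p Bb := Q₀.mapSurjective hψs
  have hBbp : IsPGroup p Bb := fun x => ⟨1, Subtype.ext (by simpa using hBe x x.2)⟩
  have hS'top : (S' : Subgroup Bb) = ⊤ := by
    have := S'.is_maximal' (Q := ⊤) (hBbp.to_subgroup ⊤) le_top
    exact this.symm
  have hzB : (⟨z, Subgroup.mem_sup_right (Subgroup.mem_zpowers z)⟩ : Bb) ∈ (S' : Subgroup Bb) := by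
    rw [hS'top]
    exact Subgroup.mem_top _
  obtain ⟨q, hq, hqz⟩ := hzB
  have hqz' : φ q = z := congrArg Subtype.val hqz
  rw [← hqz', ]
  have : (q : G) ∈ E := by
    rw [← hBE]
    exact ⟨q, hq, rfl⟩
  exact Subgroup.mem_map_of_mem φ this

theorem result {G : Type*} [Group G] [Finite G] [Group.IsSolvable G] (p : ℕ) [Fact p.Prime] (hp : p ≠ 2) (hpl : Cfsg.PLengthLE p 1 G) (E L : Subgroup G) (hE : Cfsg.IsElementaryAbelian p E)
    (hEmax : ∀ B : Subgroup G, Cfsg.IsElementaryAbelian p B → E ≤ B → B = E) (hL : (Nat.card L).Coprime p) (hEL : E ≤ Subgroup.normalizer (L : Set G)) :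
    L ≤ Cfsg.pPrimeCore p G := by
  classical
  set X := pPrimeCore p G with hX
  haveI hXn : X.Normal := pPrimeCore_normal''
  have hXcop : (Nat.card X).Coprime p := coprime_card_pPrimeCore p
  let φ := QuotientGroup.mk' X
  have hφs : Function.Surjective φ := QuotientGroup.mk'_surjective X
  set T : Subgroup (G ⧸ X) := pCore p (G ⧸ X) with hT
  have hTn : T.Normal := Cfsg.pCore_normal p _
  have hTp : IsPGroup p T := Cfsg.Agent.H01.pCore_isPGroup p
  have hO : pPrimeCore p (G ⧸ X) = ⊥ := Cfsg.Agent.H08.pPrimeCore_quotient_eq_bot p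
  have hC : Subgroup.centralizer (T : Set (G ⧸ X)) ≤ T :=
    Cfsg.Agent.H03.centralizer_pCore_le_of_isPSolvable (isPSolvable_of_isSolvable p _) hO
  let E' := E.map φ
  let L' := L.map φ
  have hEp : IsPGroup p E := fun x => ⟨1, Subtype.ext (by simpa using hE.2 x x.2)⟩
  -- `E' ≤ T`
  have hU₂ : (upperPSeries p G 2).1.map φ ≤ T := by
    apply Cfsg.Agent.H13.le_pCore (Subgroup.Normal.map (upperPSeries p G 2).2 φ hφs)
    rintro ⟨_, x, hx, rfl⟩
    obtain ⟨t, ht⟩ := Cfsg.Agent.H18.step_odd (p := p) (j := 1) (by decide) hx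
    refine ⟨t, Subtype.ext ?_⟩
    show (φ x) ^ (p ^ t) = 1
    rw [← map_pow]
    exact (QuotientGroup.eq_one_iff _).2 (upper_one_le ht)
  have hE'T : E' ≤ T := (Subgroup.map_mono (sylow_le_upper_two hpl hEp)).trans hU₂
  have hE'p : IsPGroup p E' := hEp.map φ
  have hL'c : (Nat.card L').Coprime p := Nat.Coprime.coprime_dvd_left (card_map_dvd' φ L) hL
  have hTL : Disjoint L' T := by
    obtain ⟨n, hn⟩ := IsPGroup.iff_card.mp hTp
    refine Subgroup.disjoint_of_coprime_natCard ?_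
    rw [hn]
    exact Nat.Coprime.pow_right _ hL'c
  have hE'N : E' ≤ Subgroup.normalizer (L' : Set (G ⧸ X)) := by
    rintro _ ⟨e, he, rfl⟩
    rw [Subgroup.mem_normalizer_iff]
    intro y
    have key : ∀ e ∈ E, ∀ y ∈ L', φ e * y * (φ e)⁻¹ ∈ L' := by
      rintro e he _ ⟨l, hl, rfl⟩
      refine ⟨e * l * e⁻¹, (Subgroup.mem_normalizer_iff.mp (hEL he) l).mp hl, ?_⟩
      simp
    refine ⟨key e he y, fun h => ?_⟩
    have := key e⁻¹ (inv_mem he) _ h
    simpa [mul_assoc] using this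
  have hcomm : ∀ e ∈ E', ∀ y ∈ L', e * y = y * e := by
    intro e he y hy
    have h1 : e * y * e⁻¹ * y⁻¹ ∈ L' := mul_mem ((Subgroup.mem_normalizer_iff.mp (hE'N he) y).mp hy) (inv_mem hy)
    have h2 : e * y * e⁻¹ * y⁻¹ ∈ T := by
      have : e * y * e⁻¹ * y⁻¹ = e * (y * e⁻¹ * y⁻¹) := by group
      rw [this]
      exact mul_mem (hE'T he) (hTn.conj_mem _ (inv_mem (hE'T he)) y)
    have h3 : e * y * e⁻¹ * y⁻¹ = 1 := by
      have := hTL.le_bot ⟨h1, h2⟩
      simpa using this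
    calc e * y = (e * y * e⁻¹ * y⁻¹) * (y * e) := by group
      _ = y * e := by rw [h3, one_mul]
  have hE'C : E' ≤ Subgroup.centralizer (L' : Set (G ⧸ X)) := by
    intro e he
    rw [Subgroup.mem_centralizer_iff]
    intro y hy
    exact (hcomm e he y hy).symm
  have hTN : ∀ K : Subgroup (G ⧸ X), K ≤ Subgroup.normalizer (T : Set (G ⧸ X)) := fun K => by
    rw [Subgroup.normalizer_eq_top_iff.mpr hTn]
    exact le_top
  have hfin := thompson_PxQ p E' L' T hE'p hL'c hTp hE'C (hTN _) (hTN _) (by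
    -- the `Ω₁` argument
    set R : Subgroup (G ⧸ X) := T ⊓ Subgroup.centralizer (E' : Set (G ⧸ X)) with hR
    have hRp : IsPGroup p R := hTp.to_le inf_le_left
    intro t ht
    rw [Subgroup.mem_centralizer_iff]
    intro y hy
    have hyC : y ∈ Subgroup.centralizer (R : Set (G ⧸ X)) := by
      refine centralizes_of_centralizes_omega hp hRp ?_ ?_ ?_
      · rw [Subgroup.mem_normalizer_iff]
        have key : ∀ y ∈ L', ∀ x ∈ R, y * x * y⁻¹ ∈ R := by
          intro y hy x hx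
          obtain ⟨hx1, hx2⟩ := Subgroup.mem_inf.mp hx
          refine Subgroup.mem_inf.mpr ⟨hTn.conj_mem _ hx1 y, ?_⟩
          rw [Subgroup.mem_centralizer_iff] at hx2 ⊢
          intro e he
          have h1 := hx2 e he
          have h2 := hcomm e he y hy
          have h3 := hcomm e he y⁻¹ (inv_mem hy)
          calc e * (y * x * y⁻¹) = (e * y) * x * y⁻¹ := by group
            _ = (y * e) * x * y⁻¹ := by rw [h2]
            _ = y * (e * x) * y⁻¹ := by group
            _ = y * (x * e) * y⁻¹ := by rw [h1]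
            _ = y * x * (e * y⁻¹) := by group
            _ = y * x * (y⁻¹ * e) := by rw [h3]
            _ = y * x * y⁻¹ * e := by group
        intro x
        refine ⟨key y hy x, fun h => ?_⟩
        have := key y⁻¹ (inv_mem hy) _ h
        simpa [mul_assoc] using this
      · have h1 : orderOf y ∣ Nat.card L' := by
          have := orderOf_dvd_natCard (⟨y, hy⟩ : L')
          rwa [Subgroup.orderOf_mk] at this
        exact Nat.Coprime.coprime_dvd_left h1 hL'c
      · intro x hx hxp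
        obtain ⟨hx1, hx2⟩ := Subgroup.mem_inf.mp hx
        have hxE : x ∈ E' := by
          refine max_elem_quot X hXcop E hE hEmax x hxp ?_
          intro e he
          have := Subgroup.mem_centralizer_iff.mp hx2 (φ e) (Subgroup.mem_map_of_mem φ he)
          exact this
        exact (hcomm x hxE y hy).symm
    exact (Subgroup.mem_centralizer_iff.mp hyC t ht).symm)
  intro l hl
  have h1 : φ l ∈ L' := Subgroup.mem_map_of_mem φ hl
  have h2 : φ l ∈ T := hC (hfin h1)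
  have h3 : φ l = 1 := by
    have := hTL.le_bot ⟨h1, h2⟩
    simpa using this
  exact (QuotientGroup.eq_one_iff l).mp h3

end Cfsg.Agent.S1462
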