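import Cfsg.Statements.S1396
import Cfsg.Agent.S1462
import Cfsg.Agent.S1393
import Cfsg.Agent.S1395
import Cfsg.Agent.Lib.H26.BGStab
import Cfsg.Agent.Lib.H13.CoprimeGen
import Cfsg.Agent.Lib.H09.KSeq2
import Mathlib

set_option autoImplicit false
set_option linter.style.haveILetI false
set_option linter.unusedVariables false
set_option linter.unusedSectionVars false
set_option linter.unusedSimpArgs false
open Cfsg
open scoped commutatorElement

namespace Cfsg.Agent.S1396

open Cfsg.Agent.S1392 Cfsg.Agent.H26.BG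

universe u
variable {G : Type u} [Group G] [Finite G]

theorem comm_le_of_index_le {H : Type*} [Group H] [Finite H] {p : ℕ} [Fact p.Prime] (hH : IsPGroup p H)
    (R : Subgroup H) (hR : R.index ≤ p) (a b : H) : ⁅a, b⁆ ∈ R := by
  have hpp : p.Prime := Fact.out
  have hnil : Group.IsNilpotent H := hH.isNilpotent
  by_cases htop : R = ⊤
  · rw [htop]; trivial
  have hlt := Group.normalizerCondition_of_isNilpotent (G := H) R (lt_top_iff_ne_top.mpr htop)
  have hidx : R.index ∣ Nat.card H := Subgroup.index_dvd_card R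
  obtain ⟨n, hn⟩ := IsPGroup.iff_card.mp hH
  have hi : R.index ≠ 1 := fun h => htop (Subgroup.index_eq_one.mp h)
  have hip : R.index = p := by
    rw [hn] at hidx
    obtain ⟨k, hk, e⟩ := (Nat.dvd_prime_pow hpp).mp hidx
    rcases k with _ | k
    · exact absurd (by simpa using e) hi
    · have h1 : p ≤ R.index := by rw [e, pow_succ]; exact Nat.le_mul_of_pos_left _ (pow_pos hpp.pos _)
      exact le_antisymm hR h1
  set N := Subgroup.normalizer (R : Set H) with hN
  have hmul := Subgroup.relIndex_mul_index hlt.le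
  rw [hip] at hmul
  have hrel : R.relIndex N ≠ 1 := by
    intro h
    have : N ≤ R := Subgroup.relIndex_eq_one.mp h
    exact hlt.not_ge this
  have hNidx : N.index = 1 := by
    have h1 : R.relIndex N ∣ p := ⟨_, hmul.symm⟩
    rcases (Nat.dvd_prime hpp).mp h1 with h2 | h2
    · exact absurd h2 hrel
    · rw [h2] at hmul
      exact Nat.eq_of_mul_eq_mul_left hpp.pos (by simpa using hmul)
  have hNtop : N = ⊤ := Subgroup.index_eq_one.mp hNidx
  haveI hRn : R.Normal := Subgroup.normalizer_eq_top_iff.mp hNtop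
  have hcard : Nat.card (H ⧸ R) = p := by
    rw [← hip]; rfl
  haveI : Fact (Nat.card (H ⧸ R)).Prime := ⟨by rw [hcard]; exact hpp⟩
  haveI : IsCyclic (H ⧸ R) := isCyclic_of_prime_card rfl
  have hc : ∀ x y : H ⧸ R, x * y = y * x := fun x y => (IsCyclic.isMulCommutative (α := H ⧸ R)).is_comm.comm x y
  have h1 := hc (a : H ⧸ R) (b : H ⧸ R)
  have h2 : ((⁅a, b⁆ : H) : H ⧸ R) = 1 := by
    have : QuotientGroup.mk' R ⁅a, b⁆ = 1 := by
      rw [map_commutatorElement, commutatorElement_eq_one_iff_mul_comm]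
      exact h1
    exact this
  exact (QuotientGroup.eq_one_iff _).mp h2


theorem almost (hG : IsMinSimpleOddOrder G) (p : ℕ) [Fact p.Prime] (hp2 : p ≠ 2) (P : Sylow p G)
    {A : Subgroup G} (hAP : A ≤ (P : Subgroup G))
    (hAn : (P : Subgroup G) ≤ Subgroup.normalizer (A : Set G))
    (hF1 : ∀ x ∈ Subgroup.centralizer (A : Set G), IsPGroup p (Subgroup.zpowers x) → x ∈ A)
    {X : Subgroup G} (hX : X ≠ ⊤) (hAX : A ≤ X)
    (hindex : Nat.card (P : Subgroup G) ≤ Nat.card ↥((P : Subgroup G) ⊓ X) * p)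
    {Y : Subgroup G} (hYX : Y ≤ X) (hYc : (Nat.card Y).Coprime p)
    (hYA : A ≤ Subgroup.normalizer (Y : Set G)) :
    Y ≤ (pPrimeCore p X).map X.subtype := by
  haveI hsolv : Group.IsSolvable X := hG.2.2.2 X hX
  have hodd : Odd (Nat.card X) := Odd.of_dvd_nat hG.1 (Subgroup.card_subgroup_dvd_card X)
  set K := pPrimeCore p X with hK
  haveI hKn : K.Normal := inferInstance
  let ρ := QuotientGroup.mk' K
  have hρs : Function.Surjective ρ := QuotientGroup.mk'_surjective _
  have hker : ∀ x : X, x ∈ K ↔ ρ x = 1 := fun x => by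
    rw [← MonoidHom.mem_ker, QuotientGroup.ker_mk']
  have hoddq : Odd (Nat.card (X ⧸ K)) := Odd.of_dvd_nat hodd (Subgroup.card_quotient_dvd_card K)
  have hO : pPrimeCore p (X ⧸ K) = ⊥ := H08.pPrimeCore_quotient_eq_bot p
  have hKc : (Nat.card K).Coprime p := H06.coprime_card_pPrimeCore p
  let A' : Subgroup X := A.subgroupOf X
  let Y' : Subgroup X := Y.subgroupOf X
  let R' : Subgroup X := (P : Subgroup G).subgroupOf X
  have hR'p : IsPGroup p R' := P.isPGroup'.comap_of_injective X.subtype X.subtype_injective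
  obtain ⟨T₁, hT₁⟩ := hR'p.exists_le_sylow
  have hA'R' : A' ≤ R' := fun x hx => hAP hx
  -- orders
  have hcardT : Nat.card (T₁ : Subgroup X) ≤ Nat.card R' * p := by
    have h1 : IsPGroup p ((T₁ : Subgroup X).map X.subtype) := T₁.isPGroup'.map _
    obtain ⟨S, hS⟩ := h1.exists_le_sylow
    obtain ⟨g, hg⟩ := MulAction.exists_smul_eq G S P
    have h2 : Nat.card (S : Subgroup G) = Nat.card (P : Subgroup G) := by
      rw [← hg, Sylow.coe_subgroup_smul]
      exact (Subgroup.card_map_of_injective (MulAut.conj g).injective).symm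
    have h3 : Nat.card (T₁ : Subgroup X) = Nat.card ((T₁ : Subgroup X).map X.subtype) :=
      (Subgroup.card_map_of_injective X.subtype_injective).symm
    have h4 : Nat.card ((T₁ : Subgroup X).map X.subtype) ≤ Nat.card (S : Subgroup G) :=
      Nat.le_of_dvd Nat.card_pos (Subgroup.card_dvd_of_le hS)
    have h5 : Nat.card R' = Nat.card ↥((P : Subgroup G) ⊓ X) := by
      have : R'.map X.subtype = (P : Subgroup G) ⊓ X := Subgroup.subgroupOf_map_subtype _ _
      rw [← this]
      exact (Subgroup.card_map_of_injective X.subtype_injective).symm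
    rw [h3, h5]
    omega
  have hidx : (R'.subgroupOf (T₁ : Subgroup X)).index ≤ p := by
    have h1 := Subgroup.card_mul_index (R'.subgroupOf (T₁ : Subgroup X))
    have h2 : Nat.card (R'.subgroupOf (T₁ : Subgroup X)) = Nat.card R' :=
      Nat.card_congr (Subgroup.subgroupOfEquivOfLe hT₁).toEquiv
    rw [h2] at h1
    have h3 : 0 < Nat.card R' := Nat.card_pos
    rw [← h1] at hcardT
    exact Nat.le_of_mul_le_mul_left hcardT h3
  have hcomT : ∀ t ∈ (T₁ : Subgroup X), ∀ a ∈ (T₁ : Subgroup X), ⁅t, a⁆ ∈ R' := by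
    intro t ht a ha
    have h1 := comm_le_of_index_le T₁.isPGroup' (R'.subgroupOf (T₁ : Subgroup X)) hidx ⟨t, ht⟩ ⟨a, ha⟩
    rw [Subgroup.mem_subgroupOf] at h1
    simpa [commutatorElement_def] using h1
  -- images
  let St : Sylow p (X ⧸ K) := T₁.mapSurjective hρs 
  have hStc : ((St : Subgroup (X ⧸ K))) = (T₁ : Subgroup X).map ρ := rfl
  have hTS : pCore p (X ⧸ K) ≤ (T₁ : Subgroup X).map ρ := by
    rw [← hStc]
    exact H01.pCore_le_sylow p St
  haveI hTn : (pCore p (X ⧸ K)).Normal := H01.pCore_normal p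
  have hTN : ∀ g : X ⧸ K, g ∈ Subgroup.normalizer (pCore p (X ⧸ K) : Set (X ⧸ K)) := fun g => by
    rw [Subgroup.normalizer_eq_top_iff.mpr hTn]; trivial
  have hA'p : IsPGroup p A' := (P.isPGroup'.to_le hAP).comap_of_injective X.subtype X.subtype_injective
  have hR'A' : R' ≤ Subgroup.normalizer (A' : Set X) := by
    intro r hr
    rw [Subgroup.mem_normalizer_iff]
    intro z
    have := Subgroup.mem_normalizer_iff.mp (hAn hr) z
    simp only [A', Subgroup.mem_subgroupOf, Subgroup.coe_mul, InvMemClass.coe_inv]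
    exact this
  have hA'Y' : A' ≤ Subgroup.normalizer (Y' : Set X) := by
    intro r hr
    rw [Subgroup.mem_normalizer_iff]
    intro z
    have := Subgroup.mem_normalizer_iff.mp (hYA hr) z
    simp only [Y', Subgroup.mem_subgroupOf, Subgroup.coe_mul, InvMemClass.coe_inv]
    exact this
  have hY'c : (Nat.card Y').Coprime p := by
    have : Nat.card Y' = Nat.card Y := Nat.card_congr (Subgroup.subgroupOfEquivOfLe hYX).toEquiv
    rwa [this]
  have hbot : Y'.map ρ = ⊥ := by
    refine lemma_K hoddq p hp2 hO (A := A'.map ρ) (D := pCore p (X ⧸ K) ⊓ R'.map ρ) (hA'p.map ρ) ?_ inf_le_left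
      ?_ ?_ (Nat.Coprime.coprime_dvd_left (Subgroup.card_map_dvd _ _) hY'c) ?_
    · -- `C_T(A) ≤ A`
      rintro t ⟨ht, htc⟩
      obtain ⟨x, hx, rfl⟩ := hTS ht
      have hcx : ∀ a ∈ A', ⁅x, a⁆ = 1 := by
        intro a ha
        have h1 : ⁅x, a⁆ ∈ (T₁ : Subgroup X) := by
          rw [commutatorElement_def]
          exact Subgroup.mul_mem _ (Subgroup.mul_mem _ (Subgroup.mul_mem _ hx (hT₁ (hA'R' ha))) (Subgroup.inv_mem _ hx))
            (Subgroup.inv_mem _ (hT₁ (hA'R' ha)))
        have h2 : ⁅x, a⁆ ∈ K := by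
          rw [hker, map_commutatorElement, commutatorElement_eq_one_iff_mul_comm]
          exact (Subgroup.mem_centralizer_iff.mp htc (ρ a) ⟨a, ha, rfl⟩).symm
        exact eq_one_of_mem_both T₁.isPGroup' hKc h2 h1
      have hxC : (x : G) ∈ Subgroup.centralizer (A : Set G) := by
        apply Subgroup.mem_centralizer_iff.mpr
        intro a ha
        have h1 := hcx ⟨a, hAX ha⟩ ha
        rw [commutatorElement_eq_one_iff_mul_comm] at h1
        have := congrArg Subtype.val h1
        exact this.symm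
      have hxp : IsPGroup p (Subgroup.zpowers (x : G)) := by
        have h1 : IsPGroup p ((T₁ : Subgroup X).map X.subtype) := T₁.isPGroup'.map _
        apply h1.to_le
        rw [Subgroup.zpowers_le]
        exact ⟨x, hx, rfl⟩
      exact ⟨x, hF1 _ hxC hxp, rfl⟩
    · intro d hd
      exact Subgroup.le_normalizer_map ρ (by
        obtain ⟨r, hr, hre⟩ := hd.2
        exact ⟨r, hR'A' hr, hre⟩)
    · rintro t ht _ ⟨a, ha, rfl⟩
      refine ⟨?_, ?_⟩
      · exact comm_mem_of_norm ht (hTN _)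
      · obtain ⟨x, hx, rfl⟩ := hTS ht
        exact ⟨⁅x, a⁆, hcomT x hx a (hT₁ (hA'R' ha)), by rw [map_commutatorElement]⟩
    · rintro _ ⟨a, ha, rfl⟩
      exact Subgroup.le_normalizer_map ρ ⟨a, hA'Y' ha, rfl⟩
  intro y hy
  have h1 : ρ ⟨y, hYX hy⟩ ∈ Y'.map ρ := ⟨⟨y, hYX hy⟩, hy, rfl⟩
  rw [hbot] at h1
  exact ⟨⟨y, hYX hy⟩, (hker _).mpr (Subgroup.mem_bot.mp h1), rfl⟩


theorem card_le_of_comm_mem {p : ℕ} [Fact p.Prime] {P : Subgroup G} {z e : G} (hzp : z ^ p = 1) (hz1 : z ≠ 1)
    (hzZ : P ≤ Subgroup.centralizer ({z} : Set G)) (heP : ∀ g ∈ P, ⁅g, e⁆ ∈ Subgroup.zpowers z) :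
    Nat.card P ≤ Nat.card ↥(P ⊓ Subgroup.centralizer ({e} : Set G)) * p := by
  have hzo : orderOf z = p := orderOf_eq_prime hzp hz1
  have hcomm : ∀ g ∈ P, ∀ w ∈ Subgroup.zpowers z, g * w = w * g := by
    rintro g hg _ ⟨n, rfl⟩
    have := Subgroup.mem_centralizer_singleton_iff.mp (hzZ hg)
    exact (Commute.zpow_right (show Commute g z from this) n).eq
  let φ : P →* Subgroup.zpowers z :=
    { toFun := fun g => ⟨⁅(g : G), e⁆, heP g g.2⟩
      map_one' := by
        apply Subtype.ext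
        simp [commutatorElement_def]
      map_mul' := fun g h => by
        apply Subtype.ext
        show ⁅((g * h : P) : G), e⁆ = ⁅(g : G), e⁆ * ⁅(h : G), e⁆
        have h1 := hcomm g g.2 _ (heP h h.2)
        simp only [Subgroup.coe_mul, commutatorElement_def] at h1 ⊢
        calc (g : G) * h * e * ((g : G) * h)⁻¹ * e⁻¹
            = (g : G) * ((h : G) * e * (h : G)⁻¹ * e⁻¹) * e * (g : G)⁻¹ * e⁻¹ := by group
          _ = ((h : G) * e * (h : G)⁻¹ * e⁻¹) * (g : G) * e * (g : G)⁻¹ * e⁻¹ := by rw [h1]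
          _ = _ := by
            have h2 := hcomm g g.2 _ (heP h h.2)
            simp only [commutatorElement_def] at h2
            have h3 : (h : G) * e * (h : G)⁻¹ * e⁻¹ * ((g : G) * e * (g : G)⁻¹ * e⁻¹)
                = (g : G) * e * (g : G)⁻¹ * e⁻¹ * ((h : G) * e * (h : G)⁻¹ * e⁻¹) := by
              have h4 : ((g : G) * e * (g : G)⁻¹ * e⁻¹) ∈ Subgroup.zpowers z := heP g g.2
              have h5 : ((h : G) * e * (h : G)⁻¹ * e⁻¹) ∈ Subgroup.zpowers z := heP h h.2
              obtain ⟨m, hm⟩ := h4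
              obtain ⟨n, hn⟩ := h5
              rw [← hm, ← hn]
              exact (Commute.refl z).zpow_zpow _ _ |>.symm.eq
            calc _ = (h : G) * e * (h : G)⁻¹ * e⁻¹ * ((g : G) * e * (g : G)⁻¹ * e⁻¹) := by group
              _ = _ := h3 }
  have hker : φ.ker.map P.subtype = P ⊓ Subgroup.centralizer ({e} : Set G) := by
    ext x
    constructor
    · rintro ⟨g, hg, rfl⟩
      refine ⟨g.2, ?_⟩
      apply Subgroup.mem_centralizer_singleton_iff.mpr
      have h1 : φ g = 1 := hg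
      have h2 : ⁅(g : G), e⁆ = 1 := congrArg Subtype.val h1
      rwa [commutatorElement_eq_one_iff_mul_comm] at h2
    · rintro ⟨hx1, hx2⟩
      refine ⟨⟨x, hx1⟩, ?_, rfl⟩
      have h1 : ⁅x, e⁆ = 1 := by
        rw [commutatorElement_eq_one_iff_mul_comm]
        exact Subgroup.mem_centralizer_singleton_iff.mp hx2
      exact Subtype.ext h1
  have h1 : Nat.card φ.ker = Nat.card ↥(P ⊓ Subgroup.centralizer ({e} : Set G)) := by
    rw [← hker]
    exact (Subgroup.card_map_of_injective P.subtype_injective).symm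
  have h2 := Subgroup.card_mul_index φ.ker
  have h3 : φ.ker.index = Nat.card φ.range := Subgroup.index_ker φ
  have h4 : Nat.card φ.range ≤ p := by
    have h5 : Nat.card φ.range ≤ Nat.card (Subgroup.zpowers z) :=
      Nat.le_of_dvd Nat.card_pos (Subgroup.card_subgroup_dvd_card _)
    rwa [Nat.card_zpowers, hzo] at h5
  rw [← h2, h3, ← h1]
  exact Nat.mul_le_mul_left _ h4

theorem case2_core (hG : IsMinSimpleOddOrder G) (p : ℕ) [Fact p.Prime] (hp2 : p ≠ 2) (P : Sylow p G)
    {A : Subgroup G} (hAP : A ≤ (P : Subgroup G))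
    (hAn : (P : Subgroup G) ≤ Subgroup.normalizer (A : Set G))
    (hAab : A ≤ Subgroup.centralizer (A : Set G))
    (hF1 : ∀ x ∈ Subgroup.centralizer (A : Set G), IsPGroup p (Subgroup.zpowers x) → x ∈ A)
    {z e : G} (hzA : z ∈ A) (heA : e ∈ A) (hzp : z ^ p = 1) (hep : e ^ p = 1) (hz1 : z ≠ 1)
    (he : e ∉ Subgroup.zpowers z) (hzZ : (P : Subgroup G) ≤ Subgroup.centralizer ({z} : Set G))
    (heP : ∀ g ∈ (P : Subgroup G), ⁅g, e⁆ ∈ Subgroup.zpowers z)
    {X : Subgroup G} (hX : X ≠ ⊤) (hAX : A ≤ X) {Y : Subgroup G} (hYX : Y ≤ X)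
    (hYc : (Nat.card Y).Coprime p) (hYA : A ≤ Subgroup.normalizer (Y : Set G)) :
    Y ≤ (pPrimeCore p X).map X.subtype := by
  haveI hsolv : Group.IsSolvable X := hG.2.2.2 X hX
  have hpA : IsPGroup p A := P.isPGroup'.to_le hAP
  have hab : Commute e z := Subgroup.mem_centralizer_iff.mp (hAab hzA) e heA
  have hfix := H13.fixGen_eq (p := p) (R := Y) hYc hab hep hzp (hYA heA) (hYA hzA)
  rw [← hfix]
  apply iSup_le
  rintro ⟨x, hx⟩
  have hxA : x ∈ A := by
    rcases hx with rfl | ⟨i, _, rfl⟩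
    · exact hzA
    · exact A.mul_mem heA (A.pow_mem hzA _)
  have hx1 : x ≠ 1 := by
    rcases hx with rfl | ⟨i, _, rfl⟩
    · exact hz1
    · intro h
      apply he
      have : e = (z ^ i)⁻¹ := eq_inv_of_mul_eq_one_left h
      rw [this]
      exact Subgroup.inv_mem _ (Subgroup.pow_mem _ (Subgroup.mem_zpowers z) _)
  have hindex : Nat.card (P : Subgroup G) ≤
      Nat.card ↥((P : Subgroup G) ⊓ Subgroup.centralizer ({x} : Set G)) * Nat.card (Fin p) := by
    rw [Nat.card_fin]
    rcases hx with rfl | ⟨i, _, rfl⟩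
    · rw [inf_eq_left.mpr hzZ]
      exact Nat.le_mul_of_pos_right _ (Fact.out : p.Prime).pos
    · have h1 : (P : Subgroup G) ⊓ Subgroup.centralizer ({e * z ^ i} : Set G)
          = (P : Subgroup G) ⊓ Subgroup.centralizer ({e} : Set G) := by
        ext g
        constructor
        · rintro ⟨hg, hg2⟩
          refine ⟨hg, Subgroup.mem_centralizer_singleton_iff.mpr ?_⟩
          have h2 := Subgroup.mem_centralizer_singleton_iff.mp hg2
          have h3 : Commute g z := Subgroup.mem_centralizer_singleton_iff.mp (hzZ hg)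
          have h4 : g * z ^ i = z ^ i * g := (h3.pow_right i).eq
          have h5 : g * e * z ^ i = e * g * z ^ i := by
            calc g * e * z ^ i = g * (e * z ^ i) := by group
              _ = e * z ^ i * g := h2
              _ = e * (z ^ i * g) := by group
              _ = e * (g * z ^ i) := by rw [h4]
              _ = e * g * z ^ i := by group
          exact mul_right_cancel h5
        · rintro ⟨hg, hg2⟩
          refine ⟨hg, Subgroup.mem_centralizer_singleton_iff.mpr ?_⟩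
          have h2 := Subgroup.mem_centralizer_singleton_iff.mp hg2
          have h3 : Commute g z := Subgroup.mem_centralizer_singleton_iff.mp (hzZ hg)
          have h4 : g * z ^ i = z ^ i * g := (h3.pow_right i).eq
          calc g * (e * z ^ i) = (g * e) * z ^ i := by group
            _ = (e * g) * z ^ i := by rw [h2]
            _ = e * (g * z ^ i) := by group
            _ = e * (z ^ i * g) := by rw [h4]
            _ = e * z ^ i * g := by group
      rw [h1]
      exact card_le_of_comm_mem hzp hz1 hzZ heP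
  rw [Nat.card_fin] at hindex
  have hXx := Cfsg.Agent.S1393.centralizer_ne_top hG hx1
  have hAXx : A ≤ Subgroup.centralizer ({x} : Set G) := fun a ha =>
    Subgroup.mem_centralizer_singleton_iff.mpr (Subgroup.mem_centralizer_iff.mp (hAab hxA) a ha)
  have hYxA : A ≤ Subgroup.normalizer ((Y ⊓ Subgroup.centralizer ({x} : Set G) : Subgroup G) : Set G) :=
    inf_norm hYA (hAXx.trans Subgroup.le_normalizer)
  have hYxc : (Nat.card ↥(Y ⊓ Subgroup.centralizer ({x} : Set G))).Coprime p :=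
    Nat.Coprime.coprime_dvd_left (Subgroup.card_dvd_of_le inf_le_left) hYc
  have h1 := almost hG p hp2 P hAP hAn hF1 hXx hAXx hindex inf_le_right hYxc hYxA
  set Θ := (pPrimeCore p ↥(Subgroup.centralizer ({x} : Set G))).map (Subgroup.centralizer ({x} : Set G)).subtype
    with hΘ
  have hΘx : Θ ≤ Subgroup.centralizer ({x} : Set G) := by
    rintro _ ⟨w, -, rfl⟩
    exact w.2
  have hΘc : (Nat.card Θ).Coprime p := by
    have : Nat.card Θ = Nat.card (pPrimeCore p ↥(Subgroup.centralizer ({x} : Set G))) :=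
      Subgroup.card_map_of_injective (Subgroup.subtype_injective _)
    rw [this]
    exact H06.coprime_card_pPrimeCore p
  have hΘn : Subgroup.centralizer ({x} : Set G) ≤ Subgroup.normalizer (Θ : Set G) := by
    intro g hg
    rw [Subgroup.mem_normalizer_iff]
    intro h
    haveI hKn : (pPrimeCore p ↥(Subgroup.centralizer ({x} : Set G))).Normal := inferInstance
    constructor
    · rintro ⟨w, hw, rfl⟩
      exact ⟨⟨g, hg⟩ * w * ⟨g, hg⟩⁻¹, hKn.conj_mem w hw _, by simp⟩
    · rintro ⟨w, hw, hwe⟩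
      refine ⟨⟨g, hg⟩⁻¹ * w * ⟨g, hg⟩, hKn.conj_mem' w hw _, ?_⟩
      simp only [Subgroup.subtype_apply, Subgroup.coe_mul, InvMemClass.coe_inv] at hwe ⊢
      rw [hwe]; group
  have hf : IsPGroup p (Subgroup.zpowers (⟨x, hAX hxA⟩ : X)) := by
    have h2 : IsPGroup p (A.subgroupOf X) :=
      hpA.comap_of_injective X.subtype X.subtype_injective
    exact h2.to_le ((Subgroup.zpowers_le).mpr (Subgroup.mem_subgroupOf.mpr hxA))
  have hbal := balance p hf (U := Θ.subgroupOf X)
    (by
      have h2 : Nat.card (Θ.subgroupOf X) = Nat.card ((Θ.subgroupOf X).map X.subtype) :=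
        (Subgroup.card_map_of_injective X.subtype_injective).symm
      rw [h2, Subgroup.subgroupOf_map_subtype]
      exact Nat.Coprime.coprime_dvd_left (Subgroup.card_dvd_of_le inf_le_left) hΘc)
    (by
      intro u hu
      apply Subgroup.mem_centralizer_singleton_iff.mpr
      apply Subtype.ext
      exact Subgroup.mem_centralizer_singleton_iff.mp (hΘx (Subgroup.mem_subgroupOf.mp hu)))
    (by
      intro u hu
      rw [Subgroup.mem_normalizer_iff]
      intro v
      have h2 : (u : G) ∈ Subgroup.centralizer ({x} : Set G) := by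
        apply Subgroup.mem_centralizer_singleton_iff.mpr
        have := Subgroup.mem_centralizer_singleton_iff.mp hu
        exact congrArg Subtype.val this
      have h3 := Subgroup.mem_normalizer_iff.mp (hΘn h2) (v : G)
      simp only [Subgroup.mem_subgroupOf, Subgroup.coe_mul, InvMemClass.coe_inv]
      exact h3)
  rintro y ⟨hy1, hy2⟩
  have hyX : y ∈ X := hYX hy1
  exact ⟨⟨y, hyX⟩, hbal (Subgroup.mem_subgroupOf.mpr (h1 ⟨hy1, hy2⟩)), rfl⟩


theorem f1 (p : ℕ) [Fact p.Prime] (P : Sylow p G) {A : Subgroup G}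
    (hAn : (P : Subgroup G) ≤ Subgroup.normalizer (A : Set G))
    (hself : (P : Subgroup G) ⊓ Subgroup.centralizer (A : Set G) = A)
    {x : G} (hx : x ∈ Subgroup.centralizer (A : Set G)) (hxp : IsPGroup p (Subgroup.zpowers x)) : x ∈ A := by
  set N := Subgroup.normalizer (A : Set G) with hN
  have hxN : x ∈ N := Subgroup.centralizer_le_normalizer _ hx
  let P' : Sylow p N := P.subtype hAn
  have hZ : IsPGroup p (Subgroup.zpowers (⟨x, hxN⟩ : N)) := by
    have h1 : Subgroup.zpowers (⟨x, hxN⟩ : N) ≤ (Subgroup.zpowers x).subgroupOf N := by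
      rw [Subgroup.zpowers_le]
      exact Subgroup.mem_subgroupOf.mpr (Subgroup.mem_zpowers x)
    exact (hxp.comap_of_injective N.subtype N.subtype_injective).to_le h1
  obtain ⟨S, hS⟩ := hZ.exists_le_sylow
  obtain ⟨n, hn⟩ := MulAction.exists_smul_eq N S P'
  have h1 : (⟨x, hxN⟩ : N) ∈ (S : Subgroup N) := hS (Subgroup.mem_zpowers _)
  have h2 : n * ⟨x, hxN⟩ * n⁻¹ ∈ (P' : Subgroup N) := by
    rw [← hn, Sylow.coe_subgroup_smul]
    exact ⟨_, h1, rfl⟩
  have h3 : (n : G) * x * (n : G)⁻¹ ∈ (P : Subgroup G) := by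
    have : (n * ⟨x, hxN⟩ * n⁻¹ : N) ∈ (P : Subgroup G).subgroupOf N := by
      have e : (P' : Subgroup N) = (P : Subgroup G).subgroupOf N := rfl
      rw [← e]; exact h2
    rw [Subgroup.mem_subgroupOf] at this
    simpa using this
  have h4 : (n : G) * x * (n : G)⁻¹ ∈ Subgroup.centralizer (A : Set G) :=
    (Subgroup.mem_normalizer_iff.mp (Cfsg.Agent.S1395.norm_centralizer n.2) x).mp hx
  have h5 : (n : G) * x * (n : G)⁻¹ ∈ A := by
    rw [← hself]
    exact ⟨h3, h4⟩
  exact (Subgroup.mem_normalizer_iff.mp n.2 x).mpr h5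

theorem exists_z_e (p : ℕ) [Fact p.Prime] (P : Sylow p G) {A : Subgroup G} (hAP : A ≤ (P : Subgroup G))
    (hAn : (P : Subgroup G) ≤ Subgroup.normalizer (A : Set G)) (hAc : IsMulCommutative A)
    (hr : ¬ PRankLE p 1 A) :
    ∃ z e : G, z ∈ A ∧ e ∈ A ∧ z ^ p = 1 ∧ e ^ p = 1 ∧ z ≠ 1 ∧ e ∉ Subgroup.zpowers z ∧
      (P : Subgroup G) ≤ Subgroup.centralizer ({z} : Set G) ∧
      ∀ g ∈ (P : Subgroup G), ⁅g, e⁆ ∈ Subgroup.zpowers z := by
  have hpp : p.Prime := Fact.out
  have hcomm : ∀ a ∈ A, ∀ b ∈ A, Commute a b := fun a ha b hb =>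
    congrArg Subtype.val (hAc.is_comm.comm (⟨a, ha⟩ : A) ⟨b, hb⟩)
  let Ω : Subgroup G :=
    { carrier := {a | a ∈ A ∧ a ^ p = 1}
      one_mem' := ⟨A.one_mem, one_pow _⟩
      mul_mem' := fun {a b} ha hb => ⟨A.mul_mem ha.1 hb.1, by
        rw [(hcomm a ha.1 b hb.1).mul_pow, ha.2, hb.2, one_mul]⟩
      inv_mem' := fun {a} ha => ⟨A.inv_mem ha.1, by rw [inv_pow, ha.2, inv_one]⟩ }
  unfold PRankLE at hr
  push Not at hr
  obtain ⟨A₀, hA₀c, hA₀p, hA₀l⟩ := hr
  rw [pow_one] at hA₀l
  have hPp : IsPGroup p (P : Subgroup G) := P.isPGroup'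
  let Ω' : Subgroup (P : Subgroup G) := Ω.subgroupOf (P : Subgroup G)
  haveI hΩn : Ω'.Normal := by
    refine ⟨fun n hn g => ?_⟩
    rw [Subgroup.mem_subgroupOf] at hn ⊢
    refine ⟨(Subgroup.mem_normalizer_iff.mp (hAn g.2) _).mp hn.1, ?_⟩
    have h1 : ((g * n * g⁻¹ : (P : Subgroup G)) : G) ^ p = (g : G) * (n : G) ^ p * (g : G)⁻¹ := by
      simp [conj_pow]
    rw [h1, hn.2]
    simp
  have hB : ∃ b ∈ A₀, (1 : A) ≠ b := by
    by_contra hcon
    push Not at hcon
    have : A₀ = ⊥ := by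
      rw [eq_bot_iff]
      intro b hb
      exact Subgroup.mem_bot.mpr (hcon b hb).symm
    rw [this] at hA₀l
    simp at hA₀l
    exact absurd hA₀l (by have := hpp.one_lt; omega)
  obtain ⟨b, hb, hb1⟩ := hB
  have hΩ'1 : Ω' ≠ ⊥ := by
    intro h
    have h1 : (⟨b, hAP b.2⟩ : (P : Subgroup G)) ∈ Ω' := by
      rw [Subgroup.mem_subgroupOf]
      exact ⟨b.2, congrArg Subtype.val (hA₀p b hb)⟩
    rw [h] at h1
    apply hb1
    have h2 := Subgroup.mem_bot.mp h1
    apply Subtype.ext
    exact (congrArg Subtype.val h2).symm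
  have hne := H09.normal_inf_center_ne_bot hPp Ω' hΩ'1
  obtain ⟨z', hz', hz'1⟩ := (Subgroup.bot_or_exists_ne_one _).resolve_left hne
  have hz'Ω : (z' : G) ∈ Ω := Subgroup.mem_subgroupOf.mp hz'.1
  have hz1 : (z' : G) ≠ 1 := fun h => hz'1 (Subtype.ext h)
  have hzo : orderOf (z' : G) = p := orderOf_eq_prime hz'Ω.2 hz1
  have hzo' : orderOf z' = p := (Subgroup.orderOf_coe z').symm.trans hzo
  have hzc : ∀ g : (P : Subgroup G), g * z' = z' * g := fun g =>
    (Subgroup.mem_center_iff.mp hz'.2 g)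
  let Z' : Subgroup (P : Subgroup G) := Subgroup.zpowers z'
  haveI hZ'n : Z'.Normal := by
    refine ⟨fun n hn g => ?_⟩
    obtain ⟨k, rfl⟩ := hn
    have : Commute g z' := hzc g
    refine ⟨k, ?_⟩
    simp only
    rw [(this.zpow_right k).eq]
    group
  -- an element of `Ω` outside `⟨z⟩`
  have hout : ∃ w ∈ Ω', w ∉ Z' := by
    by_contra hcon
    push Not at hcon
    have h1 : Nat.card A₀ ≤ p := by
      have hinj : Function.Injective (fun b : A₀ => (⟨⟨b.1.1, hAP b.1.2⟩,
          hcon ⟨b.1.1, hAP b.1.2⟩ (Subgroup.mem_subgroupOf.mpr ⟨b.1.2, congrArg Subtype.val (hA₀p b.1 b.2)⟩)⟩ : Z')) := by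
        intro x y hxy
        have := congrArg (fun t : Z' => ((t : (P : Subgroup G)) : G)) hxy
        exact Subtype.ext (Subtype.ext this)
      have h2 := Nat.card_le_card_of_injective _ hinj
      rwa [Nat.card_zpowers, hzo'] at h2
    omega
  obtain ⟨w, hwΩ, hwZ⟩ := hout
  let q := QuotientGroup.mk' Z'
  have hqs : Function.Surjective q := QuotientGroup.mk'_surjective _
  have hqk : ∀ x, x ∈ Z' ↔ q x = 1 := fun x => by
    rw [← MonoidHom.mem_ker, QuotientGroup.ker_mk']
  haveI hOqn : (Ω'.map q).Normal := hΩn.map q hqs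
  have hOq1 : Ω'.map q ≠ ⊥ := by
    intro h
    have h1 : q w ∈ Ω'.map q := ⟨w, hwΩ, rfl⟩
    rw [h] at h1
    exact hwZ ((hqk w).mpr (Subgroup.mem_bot.mp h1))
  have hQp : IsPGroup p ((P : Subgroup G) ⧸ Z') := hPp.to_quotient Z'
  have hne2 := H09.normal_inf_center_ne_bot hQp (Ω'.map q) hOq1
  obtain ⟨wq, hwq, hwq1⟩ := (Subgroup.bot_or_exists_ne_one _).resolve_left hne2
  obtain ⟨e', he', rfl⟩ := hwq.1
  have he'Ω : (e' : G) ∈ Ω := Subgroup.mem_subgroupOf.mp he'
  refine ⟨z', e', hz'Ω.1, he'Ω.1, hz'Ω.2, he'Ω.2, hz1, ?_, ?_, ?_⟩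
  · intro h
    obtain ⟨k, hk⟩ := h
    apply hwq1
    rw [← hqk]
    refine ⟨k, Subtype.ext ?_⟩
    simpa using hk
  · intro g hg
    apply Subgroup.mem_centralizer_singleton_iff.mpr
    have := hzc ⟨g, hg⟩
    exact congrArg Subtype.val this
  · intro g hg
    have h1 : q ⁅(⟨g, hg⟩ : (P : Subgroup G)), e'⁆ = 1 := by
      rw [map_commutatorElement, commutatorElement_eq_one_iff_mul_comm]
      exact Subgroup.mem_center_iff.mp hwq.2 _
    have h2 := (hqk _).mpr h1
    obtain ⟨k, hk⟩ := h2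
    refine ⟨k, ?_⟩
    have h3 := congrArg Subtype.val hk
    simpa [commutatorElement_def] using h3

theorem primes_to_coprime {A Y : Subgroup G} {p : ℕ} [Fact p.Prime] (hpA : p ∣ Nat.card A)
    (hY : ∀ q : ℕ, q.Prime → q ∣ Nat.card Y → q ∈ primesNotDvd (Nat.card A)) :
    (Nat.card Y).Coprime p := by
  have hpp : p.Prime := Fact.out
  rw [Nat.coprime_comm, Nat.Prime.coprime_iff_not_dvd hpp]
  intro h
  exact (hY p hpp h).2 hpA

theorem core_le {A : Subgroup G} {p : ℕ} [Fact p.Prime] (hAp : IsPGroup p A) (X : Subgroup G) :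
    (pPrimeCore p X).map X.subtype ≤ piCoreOf (primesNotDvd (Nat.card A)) X := by
  apply Subgroup.map_mono
  apply H08.le_piCore (inferInstance)
  intro q hq hdv
  refine ⟨hq, fun hqA => ?_⟩
  obtain ⟨n, hn⟩ := IsPGroup.iff_card.mp hAp
  rw [hn] at hqA
  have hqp : q = p := (Nat.prime_dvd_prime_iff_eq hq Fact.out).mp (hq.dvd_of_dvd_pow hqA)
  rw [hqp] at hdv
  have := H06.coprime_card_pPrimeCore (G := X) p
  exact (Nat.Prime.coprime_iff_not_dvd (Fact.out : p.Prime)).mp this.symm hdv

/-- Let G be a minimal simple group of odd order, p a prime dividing the order of G and A an abelian p-subgroup. Suppose either (1) A consists exactly of the elements x of C_G(A) with x^p = 1, and every proper subgroup of G has p-length at most one, or (2) A is normal and self-centralizing in some Sylow p-subgroup of G and has rank at least 2. Then A satisfies the transitivity hypothesis. -/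
theorem result {G : Type*} [Group G] [Finite G] (hG : Cfsg.IsMinSimpleOddOrder G)
    (p : ℕ) [Fact p.Prime] (hp : p ∣ Nat.card G) (A : Subgroup G) (hAp : IsPGroup p A) (hAc : IsMulCommutative A)
    (h : (∀ x ∈ Subgroup.centralizer (A : Set G), x ^ p = 1 ↔ x ∈ A) ∧ (∀ H : Subgroup G, H ≠ ⊤ → Cfsg.PLengthLE p 1 H) ∨
      ∃ P : Sylow p G, Cfsg.IsSCN (P : Subgroup G) A ∧ ¬ Cfsg.PRankLE p 1 A) :
    Cfsg.TransitivityHypothesis A := by
  
  have hpp : p.Prime := Fact.out
  have hp2 : p ≠ 2 := by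
    rintro rfl
    exact (Nat.not_even_iff_odd.mpr hG.1) (even_iff_two_dvd.mpr hp)
  have hcomm : A ≤ Subgroup.centralizer (A : Set G) := by
    intro a ha
    apply Subgroup.mem_centralizer_iff.mpr
    intro b hb
    exact congrArg Subtype.val (hAc.is_comm.comm (⟨b, hb⟩ : A) ⟨a, ha⟩)
  have hA1 : A ≠ ⊥ := by
    rintro rfl
    rcases h with ⟨h1, -⟩ | ⟨P, -, h1⟩
    · obtain ⟨x, hx⟩ := exists_prime_orderOf_dvd_card' p hp
      have hxc : x ∈ Subgroup.centralizer ((⊥ : Subgroup G) : Set G) := by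
        apply Subgroup.mem_centralizer_iff.mpr
        intro b hb
        have : b = 1 := by simpa using hb
        rw [this, one_mul, mul_one]
      have h2 := (h1 x hxc).mp (by rw [← hx]; exact pow_orderOf_eq_one x)
      have h3 : x = 1 := by simpa using h2
      rw [h3, orderOf_one] at hx
      exact hpp.one_lt.ne hx
    · apply h1
      intro B hBc hBp
      have : B = ⊥ := by
        rw [eq_bot_iff]
        intro b _
        exact Subgroup.mem_bot.mpr (Subsingleton.elim (α := (⊥ : Subgroup G)) b 1)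
      rw [this]
      simp
      exact hpp.pos
  have hAtop : A ≠ ⊤ := by
    rintro rfl
    apply hG.2.2.1
    refine ⟨⟨fun x y => ?_⟩⟩
    exact Subgroup.mem_centralizer_iff.mp (hcomm (Subgroup.mem_top y)) x (Subgroup.mem_top x)
  have hpA : p ∣ Nat.card A := by
    obtain ⟨n, hn⟩ := IsPGroup.iff_card.mp hAp
    rcases Nat.eq_zero_or_pos n with h0 | h0
    · rw [h0, pow_zero] at hn
      exact absurd (Subgroup.eq_bot_of_card_eq _ hn) hA1
    · rw [hn]; exact dvd_pow_self _ h0.ne'
  refine ⟨hA1, hAtop, fun X hX hAX => le_antisymm (sSup_le fun Y hY => ?_)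
    (le_sSup ⟨piCoreOf_le _ _, piCoreOf_pi _ _, fun a ha => mem_normalizer_core _ X (hAX ha)⟩)⟩
  obtain ⟨hYX, hYπ, hYA⟩ := hY
  have hYc := primes_to_coprime hpA hYπ
  refine le_trans ?_ (core_le hAp X)
  rcases h with ⟨h1, h2⟩ | ⟨P, hscn, hr⟩
  · haveI hsolv : Group.IsSolvable X := hG.2.2.2 X hX
    have hE : IsElementaryAbelian p (A.subgroupOf X) := by
      refine ⟨⟨⟨fun x y => ?_⟩⟩, fun a ha => ?_⟩
      · apply Subtype.ext
        apply Subtype.ext
        exact Subgroup.mem_centralizer_iff.mp (hcomm (Subgroup.mem_subgroupOf.mp y.2)) _ (Subgroup.mem_subgroupOf.mp x.2)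
      · apply Subtype.ext
        exact (h1 _ (hcomm (Subgroup.mem_subgroupOf.mp ha))).mpr (Subgroup.mem_subgroupOf.mp ha)
    have hEmax : ∀ B : Subgroup X, IsElementaryAbelian p B → A.subgroupOf X ≤ B → B = A.subgroupOf X := by
      intro B hB hle
      apply le_antisymm _ hle
      intro b hb
      rw [Subgroup.mem_subgroupOf]
      apply (h1 _ _).mp (congrArg Subtype.val (hB.2 b hb))
      apply Subgroup.mem_centralizer_iff.mpr
      intro a ha
      have ha' : (⟨a, hAX ha⟩ : X) ∈ B := hle (Subgroup.mem_subgroupOf.mpr ha)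
      have := congrArg Subtype.val (congrArg Subtype.val (hB.1.is_comm.comm (⟨_, ha'⟩ : B) ⟨b, hb⟩))
      exact this
    have hL : (Nat.card (Y.subgroupOf X)).Coprime p := by
      have : Nat.card (Y.subgroupOf X) = Nat.card Y :=
        Nat.card_congr (Subgroup.subgroupOfEquivOfLe hYX).toEquiv
      rwa [this]
    have hEL : A.subgroupOf X ≤ Subgroup.normalizer ((Y.subgroupOf X : Subgroup X) : Set X) := by
      intro r hr
      rw [Subgroup.mem_normalizer_iff]
      intro z
      have := Subgroup.mem_normalizer_iff.mp (hYA (Subgroup.mem_subgroupOf.mp hr)) z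
      simp only [Subgroup.mem_subgroupOf, Subgroup.coe_mul, InvMemClass.coe_inv]
      exact this
    have := Cfsg.Agent.S1462.result p hp2 (h2 X hX) _ _ hE hEmax hL hEL
    intro y hy
    exact ⟨⟨y, hYX hy⟩, this (Subgroup.mem_subgroupOf.mpr hy), rfl⟩
  · obtain ⟨hAP, hAn, hself⟩ := hscn
    obtain ⟨z, e, hzA, heA, hzp, hep, hz1, he, hzZ, heP⟩ := exists_z_e p P hAP hAn hAc hr
    exact case2_core hG p hp2 P hAP hAn hcomm (fun x hx hxp => f1 p P hAn hself hx hxp) hzA heA hzp hep hz1 he hzZ heP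
      hX hAX hYX hYc hYA

end Cfsg.Agent.S1396
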