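import Cfsg.Statements.S1441
import Cfsg.Agent.Lib.H06.Stable

set_option autoImplicit false
open Cfsg

namespace Cfsg.Agent.S1441

open Cfsg.Agent.H06

/-- Let G be a finite group, H a solvable subgroup and A a subgroup normalizing H. Suppose there is a chain H = H₀ ≥ H₁ ≥ ⋯ ≥ H_n = 1 of subgroups normal in H and normalized by A such that A acts trivially on each factor H_{i-1}/H_i (that is, [H_{i-1}, A] ≤ H_i). Then every prime dividing the index of C_A(H) in A divides the order of H. -/
theorem result {G : Type*} [Group G] [Finite G] (H A : Subgroup G) (hH : Group.IsSolvable H) (hA : (A ≤ Subgroup.normalizer (H : Set G)))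
    (n : ℕ) (c : Fin (n + 1) → Subgroup G) (hc0 : c 0 = H) (hcn : c (Fin.last n) = ⊥) (hanti : Antitone c)
    (hcN : ∀ i, H ≤ Subgroup.normalizer ((c i : Subgroup G) : Set G)) (hcA : ∀ i, A ≤ Subgroup.normalizer ((c i : Subgroup G) : Set G))
    (htriv : ∀ i : Fin n, ⁅c i.castSucc, A⁆ ≤ c i.succ) :
    ∀ p : ℕ, p.Prime → p ∣ (A ⊓ Subgroup.centralizer (H : Set G)).relIndex A → p ∣ Nat.card H := by
  intro p hp hdvd
  by_contra hpH
  have : Fact p.Prime := ⟨hp⟩
  obtain ⟨P⟩ : Nonempty (Sylow p A) := inferInstance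
  have hnot : ¬ (P : Subgroup A) ≤ (A ⊓ Subgroup.centralizer (H : Set G)).subgroupOf A := by
    intro hle
    exact P.not_dvd_index (dvd_trans hdvd (Subgroup.index_dvd_of_le hle))
  obtain ⟨a, haP, haC⟩ := SetLike.not_le_iff_exists.mp hnot
  apply haC
  rw [Subgroup.mem_subgroupOf]
  refine Subgroup.mem_inf.mpr ⟨a.2, ?_⟩
  -- the order of a is a power of p
  have hord : ∃ k, orderOf (a : G) = p ^ k := by
    obtain ⟨k, hk⟩ := (IsPGroup.iff_orderOf.mp P.isPGroup') ⟨a, haP⟩
    refine ⟨k, ?_⟩
    rw [← hk, Subgroup.orderOf_mk, Subgroup.orderOf_coe]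
  obtain ⟨k, hk⟩ := hord
  have hcop : (orderOf (a : G)).Coprime (Nat.card H) := by
    rw [hk]
    exact Nat.Coprime.pow_left k ((Nat.Prime.coprime_iff_not_dvd hp).mpr hpH)
  have key : ∀ i : Fin (n + 1), ∀ x ∈ c i, (a : G) * x = x * a := by
    intro i
    induction i using Fin.reverseInduction with
    | last =>
      intro x hx
      rw [hcn, Subgroup.mem_bot] at hx
      simp [hx]
    | cast i ih =>
      intro x hx
      have hy : x⁻¹ * ((a : G) * x * (a : G)⁻¹) ∈ c i.succ := by
        apply htriv i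
        have := Subgroup.commutator_mem_commutator ((c i.castSucc).inv_mem hx) a.2
        convert this using 1
        simp [commutatorElement_def, mul_assoc]
      have hyH : x⁻¹ * ((a : G) * x * (a : G)⁻¹) ∈ H := by
        have hle : c i.succ ≤ c 0 := hanti (Fin.zero_le _)
        rw [hc0] at hle
        exact hle hy
      exact conj_eq_of_stable hyH hcop (ih _ hy)
  rw [Subgroup.mem_centralizer_iff]
  intro h hh
  have hh' : h ∈ c 0 := by rw [hc0]; exact hh
  exact (key 0 h hh').symm

end Cfsg.Agent.S1441
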