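import Cfsg.Statements.S1442
import Cfsg.Agent.Lib.H06.Stable

set_option autoImplicit false
open Cfsg

namespace Cfsg.Agent.S1442

open Cfsg.Agent.H06

/-- Let G be a finite group, H a nilpotent subgroup and A a subgroup normalizing H with the orders of A and H coprime. Put C = H ∩ C_G(A). If H ∩ C_G(C) ≤ C then A centralizes H. -/
theorem result {G : Type*} [Group G] [Finite G] (H A : Subgroup G) (hH : Group.IsNilpotent H) (hA : (A ≤ Subgroup.normalizer (H : Set G))) (hcop : (Nat.card A).Coprime (Nat.card H))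
    (hC : H ⊓ Subgroup.centralizer (((H ⊓ Subgroup.centralizer (A : Set G)) : Subgroup G) : Set G) ≤ (H ⊓ Subgroup.centralizer (A : Set G))) :
    A ≤ Subgroup.centralizer (H : Set G) := by
  intro a ha
  rw [Subgroup.mem_centralizer_iff]
  have hcopa : (orderOf a).Coprime (Nat.card H) := by
    have h1 : orderOf (⟨a, ha⟩ : A) ∣ Nat.card A := orderOf_dvd_natCard _
    rw [Subgroup.orderOf_mk] at h1
    exact Nat.Coprime.coprime_dvd_left h1 hcop
  have key : ∀ i : ℕ, ∀ z : H, z ∈ Subgroup.upperCentralSeries H i →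
      ∀ b ∈ A, (orderOf b).Coprime (Nat.card H) → b * (z : G) = z * b := by
    intro i
    induction i with
    | zero =>
      intro z hz b _ _
      rw [Subgroup.upperCentralSeries_zero, Subgroup.mem_bot] at hz
      simp [hz]
    | succ i ih =>
      intro z hz b hb hbc
      rw [Subgroup.mem_upperCentralSeries_succ_iff] at hz
      have hbH : b * (z : G) * b⁻¹ ∈ H := (Subgroup.mem_normalizer_iff.mp (hA hb) _).mp z.2
      set y : G := (z : G)⁻¹ * (b * z * b⁻¹) with hy
      have hyH : y ∈ H := H.mul_mem (H.inv_mem z.2) hbH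
      -- y centralizes C
      have hyC : y ∈ Subgroup.centralizer (((H ⊓ Subgroup.centralizer (A : Set G)) : Subgroup G) : Set G) := by
        rw [Subgroup.mem_centralizer_iff]
        intro c hc
        have hcH : c ∈ H := hc.1
        have hcA : ∀ e ∈ A, e * c = c * e := by
          intro e he
          exact (Subgroup.mem_centralizer_iff.mp hc.2 e he)
        -- the commutator of z and c is fixed by b
        have h1 := hz ⟨c, hcH⟩
        have hfix : b * ((z : G) * c * (z : G)⁻¹ * c⁻¹) = ((z : G) * c * (z : G)⁻¹ * c⁻¹) * b :=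
          ih _ h1 b hb hbc
        have hbc' : b * c = c * b := hcA b hb
        -- from b [z,c] = [z,c] b derive that y commutes with c
        have hbinv : b⁻¹ * c = c * b⁻¹ := (Commute.inv_left hbc')
        have e1 : (b * z * b⁻¹) * c * (b * z * b⁻¹)⁻¹ = (z : G) * c * (z : G)⁻¹ := by
          have h2 : b * ((z : G) * c * (z : G)⁻¹ * c⁻¹) * b⁻¹ = (z : G) * c * (z : G)⁻¹ * c⁻¹ := by
            rw [hfix]; group
          have h3 : b * ((z : G) * c * (z : G)⁻¹ * c⁻¹) * b⁻¹
              = (b * z * b⁻¹) * (b * c * b⁻¹) * (b * z * b⁻¹)⁻¹ * (b * c⁻¹ * b⁻¹) := by group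
          have h4 : b * c * b⁻¹ = c := by rw [hbc']; group
          have h5 : b * c⁻¹ * b⁻¹ = c⁻¹ := by
            have : b * c⁻¹ = c⁻¹ * b := Commute.inv_right hbc'
            rw [this]; group
          rw [h3, h4, h5] at h2
          exact mul_right_cancel h2
        have e2 : y * c = c * y := by
          rw [hy]
          have e3 : (b * z * b⁻¹) * c = (z : G) * c * (z : G)⁻¹ * (b * z * b⁻¹) := by
            rw [← e1]; group
          calc (z : G)⁻¹ * (b * z * b⁻¹) * c = (z : G)⁻¹ * ((b * z * b⁻¹) * c) := by group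
            _ = (z : G)⁻¹ * ((z : G) * c * (z : G)⁻¹ * (b * z * b⁻¹)) := by rw [e3]
            _ = c * ((z : G)⁻¹ * (b * z * b⁻¹)) := by group
        exact e2.symm
      have hyb : b * y = y * b := by
        have h1 : y ∈ H ⊓ Subgroup.centralizer (A : Set G) := hC ⟨hyH, hyC⟩
        exact (Subgroup.mem_centralizer_iff.mp h1.2 b hb)
      exact conj_eq_of_stable hyH hbc hyb
  intro h hh
  obtain ⟨n, hn⟩ := hH.nilpotent
  have hz : (⟨h, hh⟩ : H) ∈ Subgroup.upperCentralSeries H n := by
    rw [hn]; exact Subgroup.mem_top _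
  exact (key n _ hz a ha hcopa).symm

end Cfsg.Agent.S1442
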