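import Cfsg.Statements.S1443
import Cfsg.Agent.Lib.H06.OddPGroup

set_option autoImplicit false
open Cfsg

namespace Cfsg.Agent.S1443

open Cfsg.Agent.H06

/-- Let G be a finite group, p an odd prime, H a p-subgroup, E an elementary abelian subgroup of H, and A a subgroup of order coprime to p normalizing H. If A centralizes every element of order p in H ∩ C_G(E), then A centralizes H. -/
theorem result {G : Type*} [Group G] [Finite G] (p : ℕ) [Fact p.Prime] (hp : p ≠ 2) (H E A : Subgroup G) (hH : IsPGroup p H) (hE : E ≤ H) (hEe : IsElementaryAbelian p E)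
    (hA : (A ≤ Subgroup.normalizer (H : Set G))) (hcop : (Nat.card A).Coprime p)
    (hfix : ∀ x ∈ (H ⊓ Subgroup.centralizer (E : Set G)), orderOf x = p → A ≤ Subgroup.centralizer ({x} : Set G)) :
    A ≤ Subgroup.centralizer (H : Set G) := by
  have hpp : p.Prime := Fact.out
  intro a ha
  rw [Subgroup.mem_centralizer_iff]
  have hcopa : (orderOf a).Coprime p := by
    have h1 : orderOf (⟨a, ha⟩ : A) ∣ Nat.card A := orderOf_dvd_natCard _
    rw [Subgroup.orderOf_mk] at h1
    exact Nat.Coprime.coprime_dvd_left h1 hcop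
  have hcopH : (orderOf a).Coprime (Nat.card H) := by
    obtain ⟨k, hk⟩ := IsPGroup.iff_card.mp hH
    rw [hk]
    exact Nat.Coprime.pow_right k hcopa
  have hnorm : ∀ x ∈ H, a * x * a⁻¹ ∈ H := fun x hx =>
    (Subgroup.mem_normalizer_iff.mp (hA ha) x).mp hx
  -- E is commutative
  have hEcomm : ∀ e ∈ E, ∀ f ∈ E, e * f = f * e := by
    intro e he f hf
    haveI := hEe.1
    have := mul_comm' (⟨e, he⟩ : E) ⟨f, hf⟩
    exact congrArg Subtype.val this
  -- a fixes every x ∈ D with x ^ p = 1
  have hDfix : ∀ x ∈ H ⊓ Subgroup.centralizer (E : Set G), x ^ p = 1 → a * x = x * a := by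
    intro x hx hxp
    by_cases hx1 : x = 1
    · simp [hx1]
    · have hord : orderOf x = p := orderOf_eq_prime hxp hx1
      have := hfix x hx hord ha
      exact (Subgroup.mem_centralizer_iff.mp this x rfl).symm
  -- a centralizes E
  have hEfix : ∀ e ∈ E, a * e = e * a := by
    intro e he
    refine hDfix e ⟨hE he, ?_⟩ (hEe.2 e he)
    exact Subgroup.mem_centralizer_iff.mpr (fun f hf => hEcomm f hf e he)
  -- a centralizes D
  have hDinv : ∀ x ∈ H ⊓ Subgroup.centralizer (E : Set G),
      a * x * a⁻¹ ∈ H ⊓ Subgroup.centralizer (E : Set G) := by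
    intro x hx
    refine Subgroup.mem_inf.mpr ⟨hnorm x hx.1, Subgroup.mem_centralizer_iff.mpr ?_⟩
    intro f hf
    have h1 : f * x = x * f := Subgroup.mem_centralizer_iff.mp hx.2 f hf
    have h2 := hEfix f hf
    have h3 : a⁻¹ * f = f * a⁻¹ := Commute.inv_left h2
    calc f * (a * x * a⁻¹) = (f * a) * x * a⁻¹ := by group
      _ = (a * f) * x * a⁻¹ := by rw [h2]
      _ = a * (f * x) * a⁻¹ := by group
      _ = a * (x * f) * a⁻¹ := by rw [h1]
      _ = a * x * (f * a⁻¹) := by group
      _ = a * x * (a⁻¹ * f) := by rw [h3]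
      _ = a * x * a⁻¹ * f := by group
  have hDcent : ∀ x ∈ H ⊓ Subgroup.centralizer (E : Set G), a * x = x * a :=
    centralizes_of_fix_omega hp hcopa _ _ rfl (hH.to_le inf_le_left) hDinv hDfix
  -- Y = C_H(a)
  set Y : Subgroup H := (Subgroup.centralizer ({a} : Set G)).subgroupOf H with hY
  have hYtop : Y = ⊤ := by
    haveI : Group.IsNilpotent H := hH.isNilpotent
    by_contra hne
    have hlt : Y < Subgroup.normalizer (Y : Set H) :=
      Group.normalizerCondition_of_isNilpotent Y (lt_top_iff_ne_top.mpr hne)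
    obtain ⟨x, hxN, hxY⟩ := SetLike.exists_of_lt hlt
    apply hxY
    have hxH : (x : G) ∈ H := x.2
    have hy : (x : G)⁻¹ * (a * x * a⁻¹) ∈ H := H.mul_mem (H.inv_mem hxH) (hnorm x hxH)
    have hyD : (x : G)⁻¹ * (a * x * a⁻¹) ∈ H ⊓ Subgroup.centralizer (E : Set G) := by
      refine Subgroup.mem_inf.mpr ⟨hy, Subgroup.mem_centralizer_iff.mpr ?_⟩
      intro e he
      have heH : e ∈ H := hE he
      have heY : (⟨e, heH⟩ : H) ∈ Y := by
        rw [hY, Subgroup.mem_subgroupOf]
        exact Subgroup.mem_centralizer_iff.mpr (fun z hz => by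
          rw [Set.mem_singleton_iff.mp hz]; exact hEfix e he)
      have hconj : x * (⟨e, heH⟩ : H) * x⁻¹ ∈ Y :=
        (Subgroup.mem_normalizer_iff.mp hxN _).mp heY
      have hconj' : (x : G) * e * (x : G)⁻¹ ∈ Subgroup.centralizer ({a} : Set G) := by
        rw [hY, Subgroup.mem_subgroupOf] at hconj
        exact hconj
      have hfix2 : a * ((x : G) * e * (x : G)⁻¹) = ((x : G) * e * (x : G)⁻¹) * a :=
        Subgroup.mem_centralizer_iff.mp hconj' a rfl
      exact (commute_of_conj_fix (hEfix e he) hfix2).symm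
    have hcomm := conj_eq_of_stable hy hcopH (hDcent _ hyD)
    rw [hY, Subgroup.mem_subgroupOf]
    exact Subgroup.mem_centralizer_iff.mpr (fun z hz => by
      rw [Set.mem_singleton_iff.mp hz]; exact hcomm)
  intro h hh
  have : (⟨h, hh⟩ : H) ∈ Y := by rw [hYtop]; exact Subgroup.mem_top _
  rw [hY, Subgroup.mem_subgroupOf] at this
  exact (Subgroup.mem_centralizer_iff.mp this a rfl).symm

end Cfsg.Agent.S1443
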