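import Cfsg.Statements.S1449
import Cfsg.Agent.Lib.H06.Rank2

set_option autoImplicit false
open Cfsg

namespace Cfsg.Agent.S1449

/-- Let G be a finite group, p an odd prime, R a p-subgroup with no elementary abelian subgroup of order p ^ 3, and A a solvable subgroup of odd order normalizing R with A ∩ C_G(R) = 1. Then the derived subgroup [A, A] is a p-group. -/
theorem result {G : Type*} [Group G] [Finite G] (p : ℕ) [Fact p.Prime] (hp : p ≠ 2) (R A : Subgroup G) (hR : IsPGroup p R) (hr : Cfsg.PRankLE p 2 R)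
    (hA : (A ≤ Subgroup.normalizer (R : Set G))) (hAs : Group.IsSolvable A) (hAodd : Odd (Nat.card A)) (hfaith : A ⊓ Subgroup.centralizer (R : Set G) = ⊥) :
    IsPGroup p ↥⁅A, A⁆ := by
  classical
  haveI : Finite ↥R := inferInstance
  let ψ : A →* MulAut ↥R := (R.normalizerMonoidHom).comp (Subgroup.inclusion hA)
  have hψ : ∀ (a : A) (z : ↥R), ((ψ a z : ↥R) : G) = (a : G) * z * (a : G)⁻¹ := fun _ _ => rfl
  have hinj : Function.Injective ψ := by
    rw [injective_iff_map_eq_one]
    intro a ha
    have hmem : (a : G) ∈ A ⊓ Subgroup.centralizer (R : Set G) := by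
      refine Subgroup.mem_inf.mpr ⟨a.2, ?_⟩
      rw [Subgroup.mem_centralizer_iff]
      intro z hz
      have h1 := DFunLike.congr_fun ha ⟨z, hz⟩
      have h2 := congrArg Subtype.val h1
      rw [hψ] at h2
      have h3 : (a : G) * z * (a : G)⁻¹ = z := h2
      rw [mul_inv_eq_iff_eq_mul] at h3
      exact h3.symm
    rw [hfaith, Subgroup.mem_bot] at hmem
    exact Subtype.ext hmem
  obtain ⟨h1, -⟩ := Cfsg.Agent.H06.rank2_action p hp hR hr hAodd ψ hinj
  have h2 := h1.map A.subtype
  have h3 : (commutator A).map A.subtype = ⁅A, A⁆ := by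
    rw [commutator_def, Subgroup.map_commutator, ← MonoidHom.range_eq_map, Subgroup.range_subtype]
  rwa [h3] at h2

end Cfsg.Agent.S1449
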