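import Cfsg.Statements.S1450
import Cfsg.Agent.Lib.H06.Rank2b

set_option autoImplicit false
open Cfsg
open scoped commutatorElement

namespace Cfsg.Agent.S1450

/-- Let G be a solvable group of odd order, p a prime dividing its order with G having no elementary abelian subgroup of order p ^ 3. Then every prime dividing the index of O_{p'}(G) is at most p; if p = 3 or p is the smallest prime divisor of #G then G has a normal p-complement; the derived subgroup G' has a normal p-complement; every subgroup of G' of order coprime to p lies in O_{p'}(G'); and G/O_{p',p}(G) is abelian of order coprime to p. -/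
theorem result {G : Type*} [Group G] [Finite G] [Group.IsSolvable G] (hodd : Odd (Nat.card G)) (p : ℕ) [Fact p.Prime] (hpG : p ∣ Nat.card G) (hr : Cfsg.PRankLE p 2 G) :
    (∀ q : ℕ, q.Prime → q ∣ (Cfsg.pPrimeCore p G).index → q ≤ p) ∧
      ((p = 3 ∨ ∀ q : ℕ, q.Prime → q ∣ Nat.card G → p ≤ q) → Cfsg.HasNormalPComplement p G) ∧
      Cfsg.HasNormalPComplement p ↥(commutator G) ∧
      (∀ L : Subgroup ↥(commutator G), (Nat.card L).Coprime p → L ≤ Cfsg.pPrimeCore p ↥(commutator G)) ∧
      commutator G ≤ Cfsg.pPrimePCore p G ∧ ((Cfsg.pPrimePCore p G).index).Coprime p := by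
  classical
  have hpp : p.Prime := Fact.out
  have hp2 : p ≠ 2 := by
    rintro rfl
    have h1 := Odd.of_dvd_nat hodd hpG
    exact absurd h1 (by decide)
  set N₀ := Cfsg.pPrimeCore p G with hN₀
  haveI hNn : N₀.Normal := Subgroup.sSup_normal _ (fun _ h => h.1)
  have hNc : (Nat.card N₀).Coprime p := Cfsg.Agent.H06.coprime_card_pPrimeCore p
  let Gb := G ⧸ N₀
  let π : G →* Gb := QuotientGroup.mk' N₀
  have hπ : Function.Surjective π := QuotientGroup.mk'_surjective N₀
  haveI : Group.IsSolvable Gb := solvable_of_surjective hπ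
  have hoddb : Odd (Nat.card Gb) := Odd.of_dvd_nat hodd (Subgroup.card_dvd_of_surjective π hπ)
  have hOb : Cfsg.pPrimeCore p Gb = ⊥ := Cfsg.Agent.H08.pPrimeCore_quotient_eq_bot p
  have hrb : Cfsg.PRankLE p 2 Gb := Cfsg.Agent.H06.prankLE_quotient_coprime N₀ hNc hr
  obtain ⟨hD, hQ⟩ := Cfsg.Agent.H06.rank2_reduced hoddb p hOb hrb
  have hidx : N₀.index = Nat.card Gb := rfl
  have hDP : commutator Gb ≤ Cfsg.pCore p Gb := Cfsg.Agent.H01.le_pCore inferInstance hD
  have hmap : ∀ x ∈ commutator G, π x ∈ commutator Gb := by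
    intro x hx
    have hle : commutator G ≤ (commutator Gb).comap π := by
      rw [commutator_def, Subgroup.commutator_le]
      intro a _ b _
      rw [Subgroup.mem_comap, map_commutatorElement, commutator_def]
      exact Subgroup.commutator_mem_commutator (Subgroup.mem_top _) (Subgroup.mem_top _)
    exact hle hx
  -- the restriction of the projection to `G'`
  let f : ↥(commutator G) →* Gb := π.comp (commutator G).subtype
  have hfmem : ∀ x, f x ∈ commutator Gb := fun x => hmap x x.2
  have hN'c : (Nat.card f.ker).Coprime p := by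
    have hker : ∀ n : f.ker, ((n : ↥(commutator G)) : G) ∈ N₀ := by
      intro n
      have h1 : f n = 1 := n.2
      exact (QuotientGroup.eq_one_iff _).mp h1
    let g : f.ker →* N₀ :=
      { toFun := fun n => ⟨_, hker n⟩, map_one' := rfl, map_mul' := fun _ _ => rfl }
    have hinj : Function.Injective g := by
      intro a b hab
      apply Subtype.ext
      apply Subtype.ext
      have h := congrArg Subtype.val hab
      exact h
    exact Nat.Coprime.coprime_dvd_left (Subgroup.card_dvd_of_injective g hinj) hNc
  have hcore : f.ker ≤ Cfsg.pPrimeCore p ↥(commutator G) :=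
    Cfsg.Agent.H08.le_pPrimeCore inferInstance hN'c
  refine ⟨?_, ?_, ?_, ?_, ?_, ?_⟩
  · intro q hq hd
    exact hQ q hq hd
  · intro h
    have hn : N₀.index ≠ 0 := by
      rw [hidx]
      exact Nat.card_pos.ne'
    have hp' := Nat.eq_prime_pow_of_unique_prime_dvd (p := p) hn (by
      intro d hd hdd
      have hle := hQ d hd hdd
      have hdG : d ∣ Nat.card G := hdd.trans (Subgroup.index_dvd_card N₀)
      rcases h with rfl | h
      · have hd2 : d ≠ 2 := by
          rintro rfl
          have h1 := Odd.of_dvd_nat hodd hdG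
          exact absurd h1 (by decide)
        have := hd.two_le
        omega
      · exact le_antisymm hle (h d hd hdG))
    exact Cfsg.Agent.H06.hasNormalPComplement_of p N₀ hNn hNc hp'
  · obtain ⟨a, ha⟩ := (hD.to_le (show f.range ≤ commutator Gb from by
      rintro _ ⟨x, rfl⟩
      exact hfmem x)).exists_card_eq
    exact Cfsg.Agent.H06.hasNormalPComplement_of p f.ker inferInstance hN'c (a := a)
      (by rw [Subgroup.index_ker, ha])
  · intro L hL x hx
    apply hcore
    rw [MonoidHom.mem_ker]
    obtain ⟨k, hk⟩ := hD ⟨f x, hfmem x⟩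
    have h1 : (f x) ^ (p ^ k) = 1 := congrArg Subtype.val hk
    have h2 : orderOf (f x) ∣ p ^ k := orderOf_dvd_of_pow_eq_one h1
    have h3 : orderOf (f x) ∣ Nat.card L := (orderOf_map_dvd f x).trans (Subgroup.orderOf_dvd_natCard L hx)
    have h4 : (Nat.card L).Coprime (p ^ k) := Nat.Coprime.pow_right _ hL
    have h5 : orderOf (f x) = 1 := Nat.Coprime.eq_one_of_dvd (Nat.Coprime.coprime_dvd_left h3 h4) h2
    exact orderOf_eq_one_iff.mp h5
  · intro x hx
    exact hDP (hmap x hx)
  · -- the index
    have hi : (Cfsg.pPrimePCore p G).index = (Cfsg.pCore p Gb).index :=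
      Subgroup.index_comap_of_surjective _ hπ
    rw [hi]
    let S : Sylow p Gb := default
    have hSle : Cfsg.pCore p Gb ≤ (S : Subgroup Gb) := Cfsg.Agent.H01.pCore_le_sylow p S
    have hSn : (S : Subgroup Gb).Normal := by
      refine ⟨fun s hs g => ?_⟩
      have h1 : g * s * g⁻¹ = ⁅g, s⁆ * s := by
        rw [commutatorElement_def]
        group
      rw [h1]
      refine (S : Subgroup Gb).mul_mem (hSle (hDP ?_)) hs
      rw [commutator_def]
      exact Subgroup.commutator_mem_commutator (Subgroup.mem_top _) (Subgroup.mem_top _)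
    have hEq : Cfsg.pCore p Gb = (S : Subgroup Gb) :=
      le_antisymm hSle (Cfsg.Agent.H01.le_pCore hSn S.isPGroup')
    rw [hEq]
    exact ((Nat.Prime.coprime_iff_not_dvd hpp).mpr S.not_dvd_index).symm

end Cfsg.Agent.S1450
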