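import Cfsg.Statements.S1451
import Cfsg.Agent.Lib.H06.Rank2c

set_option autoImplicit false
open Cfsg

namespace Cfsg.Agent.S1451

/-- Let G be a solvable group of odd order such that G, or its Fitting subgroup, has no elementary abelian subgroup of order q ^ 3 for any prime q. Then G' is nilpotent; for every Sylow subgroup S of G, every characteristic subgroup T of S with T ≤ [S, S] is normal in G; and for every prime p, G has a characteristic subgroup that is a Hall subgroup for the set of primes greater than p. -/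
theorem result {G : Type*} [Group G] [Finite G] [Group.IsSolvable G] (hodd : Odd (Nat.card G)) (hr : Cfsg.RankLE 2 G ∨ Cfsg.RankLE 2 (Cfsg.fittingSubgroup G)) :
    Group.IsNilpotent ↥(commutator G) ∧
      (∀ (q : ℕ) [Fact q.Prime] (S : Sylow q G) (T : Subgroup ↥(S : Subgroup G)), T.Characteristic → T.map (S : Subgroup G).subtype ≤ ⁅(S : Subgroup G), (S : Subgroup G)⁆ →
        (T.map (S : Subgroup G).subtype).Normal) ∧
      ∀ p : ℕ, ∃ N : Subgroup G, N.Characteristic ∧ Cfsg.IsPiHall {q | q.Prime ∧ p < q} N := by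
  classical
  have hF : Cfsg.RankLE 2 (Cfsg.fittingSubgroup G) := by
    rcases hr with h | h
    · intro p hp
      exact Cfsg.Agent.H06.prankLE_of_injective (Cfsg.fittingSubgroup G).subtype
        (Subgroup.subtype_injective _) (h p hp)
    · exact h
  have hrank : ∀ s : ℕ, s.Prime → Cfsg.PRankLE s 2 (Cfsg.pCore s G) := by
    intro s hs
    haveI : Fact s.Prime := ⟨hs⟩
    have hle : Cfsg.pCore s G ≤ Cfsg.fittingSubgroup G := Cfsg.Agent.H01.pCore_le_fitting s
    exact Cfsg.Agent.H06.prankLE_of_injective (Subgroup.inclusion hle) (Subgroup.inclusion_injective hle) (hF s hs)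
  have hconj := fun (s : ℕ) (hs : s.Prime) =>
    haveI : Fact s.Prime := ⟨hs⟩
    haveI : (Cfsg.pCore s G).Normal := Cfsg.Agent.H01.pCore_normal s
    Cfsg.Agent.H06.rank2_conj hodd s (Cfsg.pCore s G) (Cfsg.Agent.H01.pCore_isPGroup s) (hrank s hs)
  have hD : commutator G ≤ Cfsg.fittingSubgroup G :=
    Cfsg.Agent.H06.derived_le_fitting_of (fun s hs => (hconj s hs).1)
  refine ⟨Cfsg.Agent.H06.nilpotent_of_le hD Cfsg.Agent.H01.fitting_nilpotent, ?_, ?_⟩
  · intro q _ S T hT hle
    exact Cfsg.Agent.H06.normal_of_char_le_derived hD q S T hT hle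
  · exact Cfsg.Agent.H06.exists_char_hall hD (fun s hs => (hconj s hs).2)

end Cfsg.Agent.S1451
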