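import Cfsg.Statements.S1452
import Cfsg.Agent.Lib.H06.SCN

set_option autoImplicit false
open Cfsg

namespace Cfsg.Agent.S1452

theorem result {R : Type*} [Group R] [Finite R] (p : ℕ) [Fact p.Prime] (hp : p ≠ 2) (hR : IsPGroup p R) (hr : ¬ Cfsg.PRankLE p 2 R)
    (E : Subgroup R) [E.Normal] (hE : Cfsg.IsElementaryAbelian p E) (hE2 : Nat.card E = p ^ 2) :
    ∃ A : Subgroup R, E ≤ A ∧ A.Normal ∧ Subgroup.centralizer (A : Set R) = A ∧ ¬ Cfsg.PRankLE p 2 A := by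
  unfold Cfsg.PRankLE at hr
  push Not at hr
  obtain ⟨B, hBc, hBp, hB⟩ := hr
  have hEc : ∀ a ∈ E, ∀ b ∈ E, a * b = b * a := fun a ha b hb =>
    congrArg Subtype.val (hE.1.is_comm.comm (⟨a, ha⟩ : E) ⟨b, hb⟩)
  have hBc' : ∀ a ∈ B, ∀ b ∈ B, a * b = b * a := fun a ha b hb =>
    congrArg Subtype.val (hBc.is_comm.comm (⟨a, ha⟩ : B) ⟨b, hb⟩)
  obtain ⟨f₀, _, hf₀E, hf₀p, hf₀c⟩ := H06.exists_f0 hR (inferInstance : E.Normal) hEc hE.2 hE2 hBc' hBp hB
  obtain ⟨f, hfE, hfp, hfc, hfz⟩ := H06.exists_central_elt hR hp (inferInstance : E.Normal) hEc hE.2 hf₀E hf₀p hf₀c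
  obtain ⟨A, hFA, hAn, hAC⟩ := H06.exists_selfCentralizing hR
    (H06.sup_zpowers_normal (inferInstance : E.Normal) hfz)
    (fun a ha b hb => H06.sup_zpowers_comm hEc hfc ha hb)
  refine ⟨A, le_sup_left.trans hFA, hAn, hAC, ?_⟩
  intro h
  have hel := H06.isElementaryAbelian_sup_zpowers hE hfp hfc
  have h1 := h ((E ⊔ Subgroup.zpowers f).subgroupOf A)
    (by
      constructor
      constructor
      rintro ⟨⟨a, ha⟩, ha'⟩ ⟨⟨b, hb⟩, hb'⟩
      rw [Subgroup.mem_subgroupOf] at ha' hb'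
      apply Subtype.ext
      apply Subtype.ext
      exact H06.sup_zpowers_comm hEc hfc ha' hb')
    (by
      rintro ⟨a, ha⟩ ha'
      rw [Subgroup.mem_subgroupOf] at ha'
      apply Subtype.ext
      exact hel.2 a ha')
  rw [Nat.card_congr (Subgroup.subgroupOfEquivOfLe hFA).toEquiv] at h1
  have hlt : E < E ⊔ Subgroup.zpowers f := by
    refine lt_of_le_of_ne le_sup_left ?_
    intro h2
    exact hfE (h2 ▸ Subgroup.mem_sup_right (Subgroup.mem_zpowers f))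
  have h3 := H06.card_lt_of_lt hlt
  omega

end Cfsg.Agent.S1452
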