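import Cfsg.Statements.S1456
import Cfsg.Agent.Lib.H06.Narrow6

set_option autoImplicit false
open Cfsg

namespace Cfsg.Agent.S1456

/-- Let G be a solvable group of odd order, p a prime, and E an elementary abelian p-subgroup of the Fitting subgroup F(G) such that F(G) ∩ C_G(E) has no elementary abelian subgroup of order q ^ 3 for any prime q. Then the derived subgroup of G is contained in F(G). -/
theorem result {G : Type*} [Group G] [Finite G] [Group.IsSolvable G] (hodd : Odd (Nat.card G)) (p : ℕ) [Fact p.Prime] (E : Subgroup G) (hE : E ≤ Cfsg.fittingSubgroup G) (hEe : Cfsg.IsElementaryAbelian p E)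
    (hr : Cfsg.RankLE 2 ↥(Cfsg.fittingSubgroup G ⊓ Subgroup.centralizer (E : Set G))) :
    commutator G ≤ Cfsg.fittingSubgroup G := by
  classical
  have hpp : p.Prime := Fact.out
  have hEcore : E ≤ Cfsg.pCore p G := by
    intro e he
    have h1 : e ^ p = 1 := hEe.2 e he
    by_cases he1 : e = 1
    · rw [he1]
      exact Subgroup.one_mem _
    · have ho : orderOf e = p ^ 1 := by
        rw [pow_one]
        exact orderOf_eq_prime h1 he1
      exact Cfsg.Agent.H06.mem_pCore_of_mem_fitting hpp (hE he) ho
  apply Cfsg.Agent.H06.derived_le_fitting_of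
  intro s hs
  haveI : Fact s.Prime := ⟨hs⟩
  haveI hPn : (Cfsg.pCore s G).Normal := Cfsg.Agent.H01.pCore_normal s
  have hPp : IsPGroup s ↥(Cfsg.pCore s G) := Cfsg.Agent.H01.pCore_isPGroup s
  by_cases hsp : s = p
  · subst hsp
    by_cases hrk : Cfsg.PRankLE s 2 ↥(Cfsg.pCore s G)
    · exact (Cfsg.Agent.H06.rank2_conj hodd s _ hPp hrk).1
    · -- the case of large rank
      have hs2 : s ≠ 2 := by
        rintro rfl
        apply hrk
        intro A _ _
        have h1 : Nat.card A ∣ Nat.card ↥(Cfsg.pCore 2 G) := Subgroup.card_dvd_of_injective A.subtype A.subtype_injective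
        have h2 : Nat.card ↥(Cfsg.pCore 2 G) ∣ Nat.card G := Subgroup.card_subgroup_dvd_card _
        obtain ⟨k, hk⟩ := hPp.exists_card_eq
        have h3 : Odd (Nat.card ↥(Cfsg.pCore 2 G)) := Odd.of_dvd_nat hodd h2
        have hk0 : k = 0 := by
          by_contra hne
          rw [hk] at h3
          exact absurd h3 (by
            rw [Nat.not_odd_iff_even]
            exact (Nat.even_pow' hne).mpr even_two)
        rw [hk, hk0, pow_zero] at h1
        have h4 := Nat.le_of_dvd one_pos h1
        omega
      have hE' : Cfsg.IsElementaryAbelian s (E.subgroupOf (Cfsg.pCore s G)) := by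
        refine ⟨⟨⟨?_⟩⟩, ?_⟩
        · rintro ⟨a, ha⟩ ⟨b, hb⟩
          apply Subtype.ext
          apply Subtype.ext
          have h1 := hEe.1.is_comm.comm ⟨a.1, ha⟩ ⟨b.1, hb⟩
          have h2 := congrArg Subtype.val h1
          exact h2
        · intro a ha
          apply Subtype.ext
          exact hEe.2 a.1 ha
      have hr' : Cfsg.PRankLE s 2 ↥(Subgroup.centralizer ((E.subgroupOf (Cfsg.pCore s G) : Subgroup ↥(Cfsg.pCore s G)) : Set ↥(Cfsg.pCore s G))) := by
        let f : ↥(Subgroup.centralizer ((E.subgroupOf (Cfsg.pCore s G) : Subgroup ↥(Cfsg.pCore s G)) : Set ↥(Cfsg.pCore s G))) →*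
            ↥(Cfsg.fittingSubgroup G ⊓ Subgroup.centralizer (E : Set G)) :=
          { toFun := fun x => ⟨x.1.1, Subgroup.mem_inf.mpr ⟨Cfsg.Agent.H01.pCore_le_fitting s x.1.2, by
              rw [Subgroup.mem_centralizer_iff]
              intro e he
              have h1 := (Subgroup.mem_centralizer_iff.mp x.2) ⟨e, hEcore he⟩ he
              exact congrArg Subtype.val h1⟩⟩
            map_one' := rfl
            map_mul' := fun _ _ => rfl }
        refine Cfsg.Agent.H06.prankLE_of_injective f ?_ (hr s hs)
        intro a b hab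
        apply Subtype.ext
        apply Subtype.ext
        have h := congrArg Subtype.val hab
        exact h
      have hPack := Cfsg.Agent.H06.Narrow.pack_of_elem hs2 hPp hrk _ hE' hr'
      obtain ⟨K, _, hcK, _, hK⟩ := Cfsg.Agent.H06.Narrow.narrow_action hs2 hPp hPack
        (MulAut.conjNormal (G := G) (H := Cfsg.pCore s G))
      intro x hx
      obtain ⟨k, hk⟩ := hK x (hcK hx)
      refine ⟨k, ?_⟩
      rw [Subgroup.mem_centralizer_iff]
      intro z hz
      have h1 := DFunLike.congr_fun hk ⟨z, hz⟩
      have h2 : x ^ (s ^ k) * z * (x ^ (s ^ k))⁻¹ = z := congrArg Subtype.val h1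
      rw [mul_inv_eq_iff_eq_mul] at h2
      exact h2.symm
  · -- another prime
    have hrk : Cfsg.PRankLE s 2 ↥(Cfsg.pCore s G) := by
      let f : ↥(Cfsg.pCore s G) →* ↥(Cfsg.fittingSubgroup G ⊓ Subgroup.centralizer (E : Set G)) :=
        { toFun := fun x => ⟨x.1, Subgroup.mem_inf.mpr ⟨Cfsg.Agent.H01.pCore_le_fitting s x.2, by
            rw [Subgroup.mem_centralizer_iff]
            intro e he
            have hdis : Disjoint (Cfsg.pCore p G) (Cfsg.pCore s G) :=
              IsPGroup.disjoint_of_ne p s (Ne.symm hsp) _ _ (Cfsg.Agent.H01.pCore_isPGroup p) hPp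
            exact Subgroup.commute_of_normal_of_disjoint _ _ (Cfsg.Agent.H01.pCore_normal p) hPn hdis e x.1
              (hEcore he) x.2⟩⟩
          map_one' := rfl
          map_mul' := fun _ _ => rfl }
      refine Cfsg.Agent.H06.prankLE_of_injective f ?_ (hr s hs)
      intro a b hab
      apply Subtype.ext
      have h := congrArg Subtype.val hab
      exact h
    exact (Cfsg.Agent.H06.rank2_conj hodd s _ hPp hrk).1

end Cfsg.Agent.S1456
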