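import Cfsg.Statements.S1457
import Cfsg.Agent.Lib.H06.Quad5

set_option autoImplicit false

open Cfsg

namespace Cfsg.Agent.S1457

open Cfsg.Agent.H06

open scoped commutatorElement

/-- Let G be a solvable group of odd order, p a prime, S a Sylow p-subgroup of G and A an abelian subgroup of S normal in S. Then A ≤ O_{p',p}(G). -/
theorem result {G : Type*} [Group G] [Finite G] [Group.IsSolvable G] (hodd : Odd (Nat.card G)) (p : ℕ) [Fact p.Prime] (S : Sylow p G) (A : Subgroup G) (hA : A ≤ (S : Subgroup G)) (hAc : IsMulCommutative A)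
    (hAn : (S : Subgroup G) ≤ Subgroup.normalizer (A : Set G)) :
    A ≤ Cfsg.pPrimePCore p G := by
  classical
  intro a ha
  by_cases hp : p = 2
  · subst hp
    have h1 : a = 1 := by
      obtain ⟨e, he⟩ := S.isPGroup' ⟨a, hA ha⟩
      have h2 : a ^ (2 ^ e) = 1 := by
        have := congrArg Subtype.val he
        simpa using this
      have h3 : a ^ (Nat.card G) = 1 := pow_card_eq_one'
      have h4 : orderOf a ∣ Nat.gcd (2 ^ e) (Nat.card G) :=
        Nat.dvd_gcd (orderOf_dvd_of_pow_eq_one h2) (orderOf_dvd_of_pow_eq_one h3)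
      have h5 : Nat.Coprime (2 ^ e) (Nat.card G) :=
        Nat.Coprime.pow_left e (Nat.coprime_two_left.mpr hodd)
      rw [h5.gcd_eq_one, Nat.dvd_one, orderOf_eq_one_iff] at h4
      exact h4
    rw [h1]
    exact one_mem _
  · refine quad_mem_pPrimePCore hodd p hp S a (hA ha) ?_
    intro s hs
    have h1 : s * a * s⁻¹ ∈ A := (Subgroup.mem_normalizer_iff.mp (hAn hs) a).mp ha
    have h2 : ⁅s, a⁆ ∈ A := by
      rw [commutatorElement_def]
      exact mul_mem h1 (inv_mem ha)
    rw [commutatorElement_eq_one_iff_mul_comm]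
    have h3 := hAc.is_comm.comm ⟨_, h2⟩ ⟨a, ha⟩
    exact congrArg Subtype.val h3

end Cfsg.Agent.S1457
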