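import Cfsg.Statements.S1459
import Cfsg.Agent.Lib.H01.CoprimeAb
import Cfsg.Agent.Lib.H01.Solv
import Cfsg.Agent.Lib.H01.SZ2
import Cfsg.Agent.Lib.H06.Nilp
import Cfsg.Agent.Lib.H06.FittingHall
import Cfsg.Agent.Lib.H06.Layer2

set_option autoImplicit false

open Cfsg

namespace Cfsg.Agent.S1459

open Cfsg.Agent.H01 Cfsg.Agent.H06
open scoped commutatorElement

universe u

theorem comm_central {Q : Type*} [Group Q] {a b c d : Q} (ha : ∀ x, a * x = x * a) (hc : ∀ x, c * x = x * c) :
    ⁅a * b, c * d⁆ = ⁅b, d⁆ := by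
  have e0 : a * b * (c * d) * (b⁻¹ * a⁻¹) = a * (c * (b * d * b⁻¹)) * a⁻¹ := by
    have : b * c = c * b := (hc b).symm
    calc a * b * (c * d) * (b⁻¹ * a⁻¹) = a * ((b * c) * (d * b⁻¹)) * a⁻¹ := by group
      _ = a * (c * (b * d * b⁻¹)) * a⁻¹ := by rw [this]; group
  have e1 : a * (c * (b * d * b⁻¹)) * a⁻¹ = c * (b * d * b⁻¹) := by
    rw [ha (c * (b * d * b⁻¹))]
    group
  simp only [commutatorElement_def, mul_inv_rev]
  rw [e0, e1]
  calc c * (b * d * b⁻¹) * (d⁻¹ * c⁻¹) = c * (b * d * b⁻¹ * d⁻¹) * c⁻¹ := by group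
    _ = b * d * b⁻¹ * d⁻¹ := by
      rw [hc (b * d * b⁻¹ * d⁻¹)]
      group

variable {G : Type u} [Group G] [Finite G]

theorem normal_comm (H K : Subgroup G) [hH : H.Normal] (hsup : H ⊔ K = ⊤) : (⁅H, K⁆ : Subgroup G).Normal := by
  have hK : K ≤ Subgroup.normalizer ((⁅H, K⁆ : Subgroup G) : Set G) := fun k hk =>
    mem_normalizer_commutator (by
      rw [Subgroup.normalizer_eq_top_iff.mpr hH]
      exact Subgroup.mem_top _) (Subgroup.le_normalizer hk)
  have hH' : H ≤ Subgroup.normalizer ((⁅H, K⁆ : Subgroup G) : Set G) := by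
    intro h hh
    have key : ∀ h ∈ H, ⁅H, K⁆ ≤ (⁅H, K⁆ : Subgroup G).comap (MulAut.conj h).toMonoidHom := by
      intro h hh
      rw [Subgroup.commutator_le]
      intro a ha b hb
      show h * ⁅a, b⁆ * h⁻¹ ∈ ⁅H, K⁆
      have e : h * ⁅a, b⁆ * h⁻¹ = ⁅h * a, b⁆ * ⁅h, b⁆⁻¹ := by
        simp only [commutatorElement_def]
        group
      rw [e]
      exact mul_mem (Subgroup.commutator_mem_commutator (mul_mem hh ha) hb)
        (inv_mem (Subgroup.commutator_mem_commutator hh hb))
    have key2 : ∀ h ∈ H, ∀ x, x ∈ (⁅H, K⁆ : Subgroup G) → h * x * h⁻¹ ∈ (⁅H, K⁆ : Subgroup G) := fun h hh x hx =>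
      key h hh hx
    rw [Subgroup.mem_normalizer_iff]
    intro x
    refine ⟨key2 h hh x, fun hx => ?_⟩
    have := key2 h⁻¹ (inv_mem hh) _ hx
    simpa [mul_assoc] using this
  have hall : (⊤ : Subgroup G) ≤ Subgroup.normalizer ((⁅H, K⁆ : Subgroup G) : Set G) := by
    rw [← hsup]
    exact sup_le hH' hK
  exact Subgroup.normalizer_eq_top_iff.mp (top_le_iff.mp hall)

/-- A nilpotent group with cyclic abelianisation is abelian. -/
theorem comm_of_gen : ∀ (n : ℕ) {X : Type u} [Group X] [Finite X] [Group.IsNilpotent X], Nat.card X = n → ∀ (x : X)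
    (_ : ∀ y : X, ∃ n : ℤ, ∃ c ∈ commutator X, y = x ^ n * c), ∀ a b : X, a * b = b * a := by
  intro n
  induction n using Nat.strong_induction_on with
  | _ n ih =>
    intro X _ _ _ hn x hx
    by_cases hbot : commutator X = ⊥
    · intro a b
      have := (commutator_eq_bot_iff_center_eq_top X).mp hbot
      have hb : b ∈ Subgroup.center X := by
        rw [this]
        exact Subgroup.mem_top _
      exact (Subgroup.mem_center_iff.mp hb a)
    · obtain ⟨z, hzc, hz1, hzZ⟩ := exists_central_of_normal (inferInstance : (commutator X).Normal) hbot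
      let Z : Subgroup X := Subgroup.zpowers z
      haveI hZn : Z.Normal := by
        have hle : Z ≤ Subgroup.center X := by
          rw [Subgroup.zpowers_le]
          exact hzZ
        exact ⟨fun a ha g => by
          have := (Subgroup.mem_center_iff.mp (hle ha) g)
          rw [this]
          simpa using ha⟩
      have hZc : Z ≤ Subgroup.center X := by
        rw [Subgroup.zpowers_le]
        exact hzZ
      let φ := QuotientGroup.mk' Z
      have hφs : Function.Surjective φ := QuotientGroup.mk'_surjective Z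
      have hlt : Nat.card (X ⧸ Z) < n := by
        have h1 := Subgroup.card_eq_card_quotient_mul_card_subgroup Z
        have h2 : 1 < Nat.card Z := by
          rw [Nat.card_zpowers]
          exact (orderOf_eq_one_iff.not.mpr hz1 |> fun h => by
            have hp : 0 < orderOf z := orderOf_pos z
            omega)
        have h3 : 0 < Nat.card (X ⧸ Z) := Nat.card_pos
        rw [hn] at h1
        nlinarith
      haveI : Group.IsNilpotent (X ⧸ Z) := nilpotent_of_surjective φ hφs
      have hq := ih _ hlt (X := X ⧸ Z) rfl (φ x) (by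
        intro y
        obtain ⟨y', rfl⟩ := hφs y
        obtain ⟨k, c, hc, e⟩ := hx y'
        refine ⟨k, φ c, ?_, ?_⟩
        · have : (commutator X).map φ = commutator (X ⧸ Z) := by
            rw [commutator_def, Subgroup.map_commutator, ← MonoidHom.range_eq_map, MonoidHom.range_eq_top.mpr hφs,
              commutator_def]
          rw [← this]
          exact Subgroup.mem_map_of_mem _ hc
        · rw [e, map_mul, map_zpow])
      have hcomm : commutator X ≤ Z := by
        rw [commutator_def, Subgroup.commutator_le]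
        intro a _ b _
        have h := hq (φ a) (φ b)
        rw [← map_mul, ← map_mul] at h
        have h2 := (QuotientGroup.eq).mp h
        have h3 : ⁅a, b⁆ = (a * b) * (b * a)⁻¹ := by
          simp only [commutatorElement_def]
          group
        rw [h3]
        have h4 : (b * a)⁻¹ * (a * b) ∈ Z := by
          have := Z.inv_mem h2
          simpa using this
        have := hZn.conj_mem _ h4 (b * a)
        simpa [mul_assoc] using this
      intro a b
      obtain ⟨k, c, hc, e⟩ := hx a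
      obtain ⟨l, d, hd, e'⟩ := hx b
      have hcZ := Subgroup.mem_center_iff.mp (hZc (hcomm hc))
      have hdZ := Subgroup.mem_center_iff.mp (hZc (hcomm hd))
      rw [e, e']
      have hcd : c * d = d * c := (hdZ c)
      have h1 : ∀ (p q : ℤ) (u v : X), (∀ g, g * u = u * g) → x ^ p * u * (x ^ q * v) = x ^ (p + q) * (u * v) := by
        intro p q u v hu
        rw [zpow_add]
        calc x ^ p * u * (x ^ q * v) = x ^ p * (u * x ^ q) * v := by group
          _ = x ^ p * (x ^ q * u) * v := by rw [hu]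
          _ = x ^ p * x ^ q * (u * v) := by group
      rw [h1 k l c d hcZ, h1 l k d c hdZ, add_comm, hcd]

section part_a

variable (H K : Subgroup G) [hHn : H.Normal] (hcop : (Nat.card H).Coprime H.index)
  (hcomp : Subgroup.IsComplement' H K)

include hcomp in
theorem sup_eq_top_of_compl : H ⊔ K = ⊤ := hcomp.sup_eq_top

theorem le_comm_sup (hsup : H ⊔ K = ⊤) (hinf : H ⊓ K = ⊥) (hle : H ≤ commutator G) : H ≤ ⁅H, K⁆ ⊔ ⁅H, H⁆ := by
  haveI : (⁅H, K⁆ : Subgroup G).Normal := normal_comm H K hsup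
  set W : Subgroup G := ⁅H, K⁆ ⊔ ⁅H, H⁆ with hW
  haveI hWn : W.Normal := Subgroup.sup_normal _ _
  have hWH : W ≤ H := by
    apply sup_le
    · exact Subgroup.commutator_le_left H K
    · exact Subgroup.commutator_le_left H H
  let φ := QuotientGroup.mk' W
  have hφ1 : ∀ x, x ∈ W → φ x = 1 := fun x hx => (QuotientGroup.eq_one_iff x).mpr hx
  -- `φ H` is central
  have hcentK : ∀ h ∈ H, ∀ k ∈ K, φ h * φ k = φ k * φ h := by
    intro h hh k hk
    have h1 : ⁅h, k⁆ ∈ W := Subgroup.mem_sup_left (Subgroup.commutator_mem_commutator hh hk)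
    have h2 := hφ1 _ h1
    rw [map_commutatorElement, commutatorElement_eq_one_iff_mul_comm] at h2
    exact h2
  have hcentH : ∀ h ∈ H, ∀ h' ∈ H, φ h * φ h' = φ h' * φ h := by
    intro h hh k hk
    have h1 : ⁅h, k⁆ ∈ W := Subgroup.mem_sup_right (Subgroup.commutator_mem_commutator hh hk)
    have h2 := hφ1 _ h1
    rw [map_commutatorElement, commutatorElement_eq_one_iff_mul_comm] at h2
    exact h2
  have hdec : ∀ g : G, ∃ h ∈ H, ∃ k ∈ K, g = h * k := by
    intro g
    have hg : g ∈ ((H ⊔ K : Subgroup G) : Set G) := by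
      rw [hsup]
      exact Set.mem_univ _
    rw [Subgroup.normal_mul, Set.mem_mul] at hg
    obtain ⟨h, hh, k, hk, e⟩ := hg
    exact ⟨h, hh, k, hk, e.symm⟩
  have hcent : ∀ h ∈ H, ∀ x : G ⧸ W, φ h * x = x * φ h := by
    intro h hh x
    obtain ⟨g, rfl⟩ := QuotientGroup.mk'_surjective W x
    obtain ⟨h', hh', k, hk, rfl⟩ := hdec g
    show φ h * φ (h' * k) = φ (h' * k) * φ h
    rw [map_mul, ← mul_assoc, hcentH h hh h' hh', mul_assoc, hcentK h hh k hk, mul_assoc]
  have hcomm : commutator G ≤ W ⊔ K := by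
    rw [commutator_def, Subgroup.commutator_le]
    intro a _ b _
    obtain ⟨h, hh, k, hk, rfl⟩ := hdec a
    obtain ⟨h', hh', k', hk', rfl⟩ := hdec b
    have h1 : φ ⁅h * k, h' * k'⁆ = φ ⁅k, k'⁆ := by
      rw [map_commutatorElement, map_commutatorElement, map_mul, map_mul]
      exact comm_central (hcent h hh) (hcent h' hh')
    have h2 : ⁅h * k, h' * k'⁆ * ⁅k, k'⁆⁻¹ ∈ W := by
      have : φ (⁅h * k, h' * k'⁆ * ⁅k, k'⁆⁻¹) = 1 := by
        rw [map_mul, map_inv, h1, mul_inv_cancel]
      exact (QuotientGroup.eq_one_iff _).mp this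
    have h3 : ⁅k, k'⁆ ∈ K := by
      rw [commutatorElement_def]
      exact mul_mem (mul_mem (mul_mem hk hk') (inv_mem hk)) (inv_mem hk')
    have e : ⁅h * k, h' * k'⁆ = (⁅h * k, h' * k'⁆ * ⁅k, k'⁆⁻¹) * ⁅k, k'⁆ := by group
    rw [e]
    exact Subgroup.mul_mem_sup h2 h3
  intro x hx
  have hx' : x ∈ ((W ⊔ K : Subgroup G) : Set G) := hcomm (hle hx)
  rw [Subgroup.normal_mul, Set.mem_mul] at hx'
  obtain ⟨w, hw, k, hk, e⟩ := hx'
  have hkH : k ∈ H := by
    have : k = w⁻¹ * x := by
      rw [← e]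
      group
    rw [this]
    exact mul_mem (inv_mem (hWH hw)) hx
  have hk1 : k = 1 := by
    have : k ∈ H ⊓ K := ⟨hkH, hk⟩
    rw [hinf] at this
    exact this
  rw [← e, hk1, mul_one]
  exact hw

theorem eq_comm_of_le (hsup : H ⊔ K = ⊤) (hinf : H ⊓ K = ⊥) (hle : H ≤ commutator G) [Group.IsSolvable G] :
    H = ⁅H, K⁆ := by
  haveI hNn : (⁅H, K⁆ : Subgroup G).Normal := normal_comm H K hsup
  have hNH : ⁅H, K⁆ ≤ H := Subgroup.commutator_le_left H K
  have h1 := le_comm_sup H K hsup hinf hle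
  let φ := QuotientGroup.mk' (⁅H, K⁆ : Subgroup G)
  have hker : (⁅H, K⁆ : Subgroup G).map φ = ⊥ := by
    rw [Subgroup.map_eq_bot_iff, QuotientGroup.ker_mk']
  have hH : H.map φ = ⁅H.map φ, H.map φ⁆ := by
    apply le_antisymm
    · calc H.map φ ≤ (⁅H, K⁆ ⊔ ⁅H, H⁆ : Subgroup G).map φ := Subgroup.map_mono h1
        _ = ⁅H.map φ, H.map φ⁆ := by
          rw [Subgroup.map_sup, hker, bot_sup_eq, Subgroup.map_commutator]
    · exact Subgroup.commutator_le_left _ _
  have hbot : H.map φ = ⊥ := by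
    by_contra hne
    exact commutator_subgroup_ne_self (N := H.map φ) inferInstance hne hH.symm
  apply le_antisymm _ hNH
  rw [Subgroup.map_eq_bot_iff, QuotientGroup.ker_mk'] at hbot
  exact hbot

theorem cent_le (hsup : H ⊔ K = ⊤) (hcp : (Nat.card H).Coprime (Nat.card K)) (hHK : H = ⁅H, K⁆) :
    H ⊓ Subgroup.centralizer (K : Set G) ≤ ⁅H, H⁆ := by
  haveI : (⁅H, H⁆ : Subgroup G).Normal := inferInstance
  let φ := QuotientGroup.mk' (⁅H, H⁆ : Subgroup G)
  let V := H.map φ
  let A := K.map φ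
  haveI hVc : IsMulCommutative V := by
    refine ⟨⟨?_⟩⟩
    rintro ⟨_, a, ha, rfl⟩ ⟨_, b, hb, rfl⟩
    apply Subtype.ext
    show φ a * φ b = φ b * φ a
    have h1 : ⁅a, b⁆ ∈ (⁅H, H⁆ : Subgroup G) := Subgroup.commutator_mem_commutator ha hb
    have h2 : φ ⁅a, b⁆ = 1 := (QuotientGroup.eq_one_iff _).mpr h1
    rw [map_commutatorElement, commutatorElement_eq_one_iff_mul_comm] at h2
    exact h2
  have hVn : V.Normal := Subgroup.Normal.map hHn φ (QuotientGroup.mk'_surjective _)
  have hAV : A ≤ Subgroup.normalizer (V : Set (G ⧸ (⁅H, H⁆ : Subgroup G))) := by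
    rw [Subgroup.normalizer_eq_top_iff.mpr hVn]
    exact le_top
  have hcop' : (Nat.card A).Coprime (Nat.card V) :=
    Nat.Coprime.coprime_dvd_left (card_map_dvd' φ K) (Nat.Coprime.coprime_dvd_right (card_map_dvd' φ H) hcp.symm)
  obtain ⟨h1, -⟩ := abelian_decomposition A V hAV hcop'
  have hcomm : (⁅V, A⁆ : Subgroup _) = V := by
    show (⁅H.map φ, K.map φ⁆ : Subgroup _) = H.map φ
    rw [← Subgroup.map_commutator, ← hHK]
  rw [hcomm] at h1
  rintro x ⟨hxH, hxC⟩
  have hx1 : φ x ∈ (V ⊓ Subgroup.centralizer (A : Set _)) ⊓ V := by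
    refine ⟨⟨Subgroup.mem_map_of_mem _ hxH, ?_⟩, Subgroup.mem_map_of_mem _ hxH⟩
    show φ x ∈ Subgroup.centralizer (A : Set _)
    rw [Subgroup.mem_centralizer_iff]
    rintro _ ⟨k, hk, rfl⟩
    show φ k * φ x = φ x * φ k
    have := Subgroup.mem_centralizer_iff.mp hxC k hk
    rw [← map_mul, ← map_mul, this]
  rw [h1] at hx1
  exact (QuotientGroup.eq_one_iff _).mp hx1

end part_a

theorem part_b_coprime [Group.IsSolvable G] (hnil : Group.IsNilpotent ↥(commutator G)) (hp : (commutator G).index.Prime) :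
    (Nat.card ↥(commutator G)).Coprime (commutator G).index := by
  set D := commutator G with hD
  set p := D.index with hpdef
  haveI : Fact p.Prime := ⟨hp⟩
  have hcard : Nat.card D * p = Nat.card G := by
    rw [hpdef, mul_comm]
    exact D.index_mul_card
  -- the `p'`-core
  let Q := Cfsg.pPrimeCore p G
  haveI hQc : Q.Characteristic := pPrimeCore_characteristic G p
  haveI hQn : Q.Normal := inferInstance
  have hQcop : (Nat.card Q).Coprime p := coprime_card_pPrimeCore p
  let φ := QuotientGroup.mk' Q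
  have hφs : Function.Surjective φ := QuotientGroup.mk'_surjective Q
  have hQmul : Nat.card Q * Nat.card (G ⧸ Q) = Nat.card G := by
    rw [mul_comm, ← Subgroup.card_eq_card_quotient_mul_card_subgroup]
  -- the quotient is a `p`-group
  have hXp : IsPGroup p (G ⧸ Q) := by
    obtain ⟨k, hk⟩ : ∃ k, Nat.card (G ⧸ Q) = p ^ k := by
      refine ⟨_, Nat.eq_prime_pow_of_unique_prime_dvd Nat.card_pos.ne' ?_⟩
      intro q hq hdvd
      by_contra hne
      haveI : Fact q.Prime := ⟨hq⟩
      have hqp : q.Coprime p := (Nat.coprime_primes hq hp).mpr hne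
      let T₀ : Sylow q D := default
      haveI hT₀n : (T₀ : Subgroup D).Normal := Group.isNilpotent_of_finite_tfae.out 0 3 rfl rfl |>.mp hnil q inferInstance T₀
      haveI : (T₀ : Subgroup D).Characteristic := Sylow.characteristic_of_normal T₀ hT₀n
      let T : Subgroup G := (T₀ : Subgroup D).map D.subtype
      have hTn : T.Normal := inferInstance
      have hTcard : Nat.card T = Nat.card T₀ := by
        exact (Subgroup.card_map_of_injective D.subtype_injective)
      have hTcop : (Nat.card T).Coprime p := by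
        rw [hTcard, Sylow.card_eq_multiplicity]
        exact Nat.Coprime.pow_left _ hqp
      have hTQ : T ≤ Q := le_sSup ⟨hTn, hTcop⟩
      have hTdvd : Nat.card T ∣ Nat.card Q := Subgroup.card_dvd_of_le hTQ
      have h1 : q * Nat.card T₀ ∣ Nat.card D * p := by
        rw [hcard, ← hQmul, ← hTcard, mul_comm]
        exact Nat.mul_dvd_mul hTdvd hdvd
      have h2 : q * Nat.card T₀ ∣ Nat.card D := by
        refine Nat.Coprime.dvd_of_dvd_mul_right ?_ h1
        rw [Sylow.card_eq_multiplicity]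
        exact Nat.Coprime.mul_left hqp (Nat.Coprime.pow_left _ hqp)
      rw [Sylow.card_eq_multiplicity] at h2
      have h3 : q ^ ((Nat.card D).factorization q + 1) ∣ Nat.card D := by
        rw [pow_succ, mul_comm]
        exact h2
      exact Nat.pow_succ_factorization_not_dvd Nat.card_pos.ne' hq h3
    exact IsPGroup.of_card hk
  haveI : Group.IsNilpotent (G ⧸ Q) := hXp.isNilpotent
  -- a generator modulo `D`
  have hpne : p ≠ 1 := hp.one_lt.ne'
  obtain ⟨x₀, hx₀⟩ : ∃ x₀ : G, x₀ ∉ D := by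
    by_contra hcon
    push Not at hcon
    have : D = ⊤ := eq_top_iff.mpr fun x _ => hcon x
    rw [hpdef, this, Subgroup.index_top] at hpne
    exact hpne rfl
  have hgen : ∀ y : G, ∃ n : ℤ, ∃ c ∈ D, y = x₀ ^ n * c := by
    intro y
    have hc : Nat.card (G ⧸ D) = p := rfl
    have hne : ((x₀ : G) : G ⧸ D) ≠ 1 := fun h => hx₀ ((QuotientGroup.eq_one_iff _).mp h)
    obtain ⟨n, hn⟩ := Subgroup.mem_zpowers_iff.mp (mem_zpowers_of_prime_card hc (g' := ((y : G) : G ⧸ D)) hne)
    refine ⟨n, (x₀ ^ n)⁻¹ * y, ?_, by group⟩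
    rw [← QuotientGroup.eq_one_iff]
    show (((x₀ ^ n)⁻¹ * y : G) : G ⧸ D) = 1
    rw [QuotientGroup.mk_mul, QuotientGroup.mk_inv, QuotientGroup.mk_zpow, hn, inv_mul_cancel]
  have hmap : D.map φ = commutator (G ⧸ Q) := by
    rw [hD, commutator_def, Subgroup.map_commutator, ← MonoidHom.range_eq_map, MonoidHom.range_eq_top.mpr hφs,
      commutator_def]
  have hcomm := comm_of_gen _ (X := G ⧸ Q) rfl (φ x₀) (by
    intro y
    obtain ⟨y', rfl⟩ := hφs y
    obtain ⟨n, c, hc, e⟩ := hgen y'
    refine ⟨n, φ c, ?_, ?_⟩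
    · rw [← hmap]
      exact Subgroup.mem_map_of_mem _ hc
    · rw [e, map_mul, map_zpow])
  have hbot : commutator (G ⧸ Q) = ⊥ := by
    rw [commutator_def, Subgroup.commutator_eq_bot_iff_le_centralizer]
    intro a _
    rw [Subgroup.mem_centralizer_iff]
    intro b _
    exact hcomm b a
  rw [← hmap, Subgroup.map_eq_bot_iff, QuotientGroup.ker_mk'] at hbot
  exact Nat.Coprime.coprime_dvd_left (Subgroup.card_dvd_of_le hbot) hQcop

theorem result {G : Type*} [Group G] [Finite G] [Group.IsSolvable G] :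
    (∀ (H K : Subgroup G), H.Normal → (Nat.card H).Coprime H.index → Subgroup.IsComplement' H K → H ≤ commutator G →
        H = ⁅H, K⁆ ∧ H ⊓ Subgroup.centralizer (K : Set G) ≤ ⁅H, H⁆) ∧
      (Group.IsNilpotent ↥(commutator G) → (commutator G).index.Prime →
        (Nat.card ↥(commutator G)).Coprime (commutator G).index ∧
        ∀ K : Subgroup G, Subgroup.IsComplement' (commutator G) K → commutator G = ⁅(⊤ : Subgroup G), K⁆) := by
  have ha : ∀ (H K : Subgroup G), H.Normal → (Nat.card H).Coprime H.index → Subgroup.IsComplement' H K → H ≤ commutator G →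
        H = ⁅H, K⁆ ∧ H ⊓ Subgroup.centralizer (K : Set G) ≤ ⁅H, H⁆ := by
    intro H K hn hc hcomp hle
    haveI := hn
    have h1 := eq_comm_of_le H K hcomp.sup_eq_top hcomp.disjoint.eq_bot hle
    have hcp : (Nat.card H).Coprime (Nat.card K) := by
      rw [← hcomp.symm.index_eq_card]
      exact hc
    exact ⟨h1, cent_le H K hcomp.sup_eq_top hcp h1⟩
  refine ⟨ha, fun hnil hp => ?_⟩
  have hcop := part_b_coprime hnil hp
  refine ⟨hcop, fun K hK => ?_⟩
  have h1 := (ha _ K inferInstance hcop hK le_rfl).1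
  apply le_antisymm
  · calc commutator G = ⁅commutator G, K⁆ := h1
      _ ≤ ⁅(⊤ : Subgroup G), K⁆ := Subgroup.commutator_mono le_top le_rfl
  · rw [commutator_def]
    exact Subgroup.commutator_mono le_rfl le_top

end Cfsg.Agent.S1459
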