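import Cfsg.Statements.S1460
import Cfsg.Agent.Lib.H01.Coprime

set_option autoImplicit false

open Cfsg

namespace Cfsg.Agent.S1460

open Cfsg.Agent.H01
open scoped Pointwise

universe u

variable {G : Type u} [Group G] [Finite G] [Group.IsSolvable G] (K U H : Subgroup G) [K.Normal]

omit [Finite G] [Group.IsSolvable G] [K.Normal] in
theorem pow_card_of_mem [Finite G] {L : Subgroup G} {x : G} (hx : x ∈ L) : x ^ Nat.card L = 1 := by
  have h1 : orderOf (⟨x, hx⟩ : L) ∣ Nat.card L := orderOf_dvd_natCard _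
  rw [Subgroup.orderOf_mk] at h1
  exact orderOf_dvd_iff_pow_eq_one.mp h1

theorem part3 (hKU : K ⊔ U = ⊤) (hH : H ≤ U) (hcop : (Nat.card H).Coprime (Nat.card K)) (g : G)
    (hg : H.map (MulAut.conj g).toMonoidHom ≤ U) :
    ∃ u ∈ U, ∃ c ∈ K ⊓ Subgroup.centralizer (H : Set G), g = u * c := by
  have hUK : U ≤ Subgroup.normalizer (K : Set G) := by
    rw [Subgroup.normalizer_eq_top_iff.mpr inferInstance]
    exact le_top
  obtain ⟨u, hu, k, hk, rfl⟩ := exists_mul_of_mem_sup' hUK (show g ∈ K ⊔ U by rw [hKU]; exact Subgroup.mem_top _)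
  have hHk : ∀ h ∈ H, k * h * k⁻¹ ∈ U := by
    intro h hh
    have h1 : (u * k) * h * (u * k)⁻¹ ∈ U := hg ⟨h, hh, rfl⟩
    have h2 : k * h * k⁻¹ = u⁻¹ * ((u * k) * h * (u * k)⁻¹) * u := by group
    rw [h2]
    exact mul_mem (mul_mem (inv_mem hu) h1) hu
  set V := U ⊓ K with hV
  have hVmem : ∀ h ∈ H, k * h * k⁻¹ * h⁻¹ ∈ V := by
    intro h hh
    refine Subgroup.mem_inf.mpr ⟨mul_mem (hHk h hh) (inv_mem (hH hh)), ?_⟩
    have : k * h * k⁻¹ * h⁻¹ = k * (h * k⁻¹ * h⁻¹) := by group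
    rw [this]
    exact mul_mem hk (‹K.Normal›.conj_mem _ (inv_mem hk) h)
  have hVH : H ≤ Subgroup.normalizer (V : Set G) := by
    intro h hh
    rw [Subgroup.mem_normalizer_iff]
    intro x
    constructor
    · intro hx
      obtain ⟨h1, h2⟩ := Subgroup.mem_inf.mp hx
      exact Subgroup.mem_inf.mpr ⟨mul_mem (mul_mem (hH hh) h1) (inv_mem (hH hh)), ‹K.Normal›.conj_mem _ h2 h⟩
    · intro hx
      obtain ⟨h1, h2⟩ := Subgroup.mem_inf.mp hx
      have e : x = h⁻¹ * (h * x * h⁻¹) * h := by group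
      refine Subgroup.mem_inf.mpr ⟨?_, ?_⟩
      · rw [e]
        exact mul_mem (mul_mem (inv_mem (hH hh)) h1) (hH hh)
      · have := ‹K.Normal›.conj_mem _ h2 h⁻¹
        simpa [mul_assoc] using this
  have hVK : V ≤ K := inf_le_right
  have hcop' : (Nat.card V).Coprime (Nat.card H) :=
    Nat.Coprime.coprime_dvd_left (Subgroup.card_dvd_of_le hVK) hcop.symm
  have hcard := card_sup_of_le_normalizer hVH hcop'
  let Hk : Subgroup G := MulAut.conj k • H
  have hHkmem : ∀ x, x ∈ Hk ↔ ∃ h ∈ H, x = k * h * k⁻¹ := by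
    intro x
    rw [Subgroup.mem_pointwise_smul_iff_inv_smul_mem]
    constructor
    · intro hx
      refine ⟨_, hx, ?_⟩
      simp [MulAut.smul_def, MulAut.conj_apply]
      group
    · rintro ⟨h, hh, rfl⟩
      simpa [MulAut.smul_def, MulAut.conj_apply, mul_assoc] using hh
  have hHkL : Hk ≤ V ⊔ H := by
    intro x hx
    obtain ⟨h, hh, rfl⟩ := (hHkmem x).mp hx
    have e : k * h * k⁻¹ = (k * h * k⁻¹ * h⁻¹) * h := by group
    rw [e]
    exact Subgroup.mul_mem_sup (hVmem h hh) hh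
  have hHkcard : Nat.card Hk = Nat.card H := Nat.card_congr (Subgroup.equivSMul (MulAut.conj k) H).toEquiv.symm
  have hLV : V ⊔ H ≤ Subgroup.normalizer (V : Set G) := sup_le Subgroup.le_normalizer hVH
  obtain ⟨l, hl, e⟩ := conj_rel (L := V ⊔ H) (N := V) (H := H) (K := Hk) le_sup_left hLV le_sup_right hHkL hcop'
    hcard hHkcard (Or.inl inferInstance)
  obtain ⟨v, hv, h₀, hh₀, rfl⟩ := exists_mul_of_mem_sup hVH hl
  let c := v⁻¹ * k
  have hcK : c ∈ K := mul_mem (inv_mem (hVK hv)) hk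
  have hcN : c ∈ Subgroup.normalizer (H : Set G) := by
    rw [mem_normalizer_iff_smul]
    show MulAut.conj (v⁻¹ * k) • H = H
    rw [map_mul, mul_smul]
    show MulAut.conj v⁻¹ • Hk = H
    rw [← e, ← mul_smul, ← map_mul, inv_mul_cancel_left]
    exact conj_smul_of_mem_normalizer (Subgroup.le_normalizer hh₀)
  have hdis : Disjoint H K := Subgroup.disjoint_of_coprime_natCard hcop
  have hHK : H ≤ Subgroup.normalizer (K : Set G) := hH.trans hUK
  have hcC := mem_centralizer_of_normalizes hdis hHK hcK hcN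
  refine ⟨u * v, mul_mem hu hv.1, c, ⟨hcK, hcC⟩, ?_⟩
  simp only [c]
  group

theorem part1 (hKU : K ⊔ U = ⊤) (hH : H ≤ U) (hcop : (Nat.card H).Coprime (Nat.card K)) :
    H ⊓ commutator G = H ⊓ ⁅U, U⁆ := by
  apply le_antisymm
  · rintro x ⟨hxH, hxG⟩
    refine ⟨hxH, ?_⟩
    let φ := QuotientGroup.mk' K
    have hφs : Function.Surjective φ := QuotientGroup.mk'_surjective K
    have hmapU : U.map φ = ⊤ := by
      have : (K ⊔ U).map φ = ⊤ := by
        rw [hKU, ← MonoidHom.range_eq_map, MonoidHom.range_eq_top.mpr hφs]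
      rw [Subgroup.map_sup] at this
      have hK : K.map φ = ⊥ := by
        rw [Subgroup.map_eq_bot_iff, QuotientGroup.ker_mk']
      rwa [hK, bot_sup_eq] at this
    have h1 : (commutator G).map φ = (⁅U, U⁆ : Subgroup G).map φ := by
      rw [commutator_def, Subgroup.map_commutator, Subgroup.map_commutator, ← MonoidHom.range_eq_map,
        MonoidHom.range_eq_top.mpr hφs, hmapU]
    have hx1 : φ x ∈ (⁅U, U⁆ : Subgroup G).map φ := by
      rw [← h1]
      exact Subgroup.mem_map_of_mem _ hxG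
    obtain ⟨y, hy, hyx⟩ := hx1
    have hk : y⁻¹ * x ∈ K := QuotientGroup.eq.mp hyx
    set k := y⁻¹ * x with hkdef
    have hcl : (⁅U, U⁆ : Subgroup G) ≤ U := by
      rw [Subgroup.commutator_le]
      intro a ha b hb
      rw [commutatorElement_def]
      exact mul_mem (mul_mem (mul_mem ha hb) (inv_mem ha)) (inv_mem hb)
    have hyU : y ∈ U := hcl hy
    have hkU : k ∈ U := mul_mem (inv_mem hyU) (hH hxH)
    -- in the abelianisation of `U`
    let ψ := QuotientGroup.mk' (commutator ↥U)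
    have hyc : (⟨y, hyU⟩ : ↥U) ∈ commutator ↥U := by
      have h2 := Subgroup.map_subtype_commutator U
      rw [← h2] at hy
      obtain ⟨z, hz, hzy⟩ := hy
      have : z = ⟨y, hyU⟩ := Subtype.ext hzy
      rwa [← this]
    have hexk : (⟨x, hH hxH⟩ : ↥U) = ⟨y, hyU⟩ * ⟨k, hkU⟩ := by
      apply Subtype.ext
      show x = y * (y⁻¹ * x)
      group
    have hψ : ψ ⟨x, hH hxH⟩ = ψ ⟨k, hkU⟩ := by
      have h0 : ψ ⟨y, hyU⟩ = 1 := (QuotientGroup.eq_one_iff _).mpr hyc
      rw [hexk, map_mul, h0, one_mul]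
    have hn1 : (ψ ⟨x, hH hxH⟩) ^ Nat.card H = 1 := by
      rw [← map_pow]
      have : (⟨x, hH hxH⟩ : ↥U) ^ Nat.card H = 1 := by
        apply Subtype.ext
        have h3 : x ^ Nat.card H = 1 := pow_card_of_mem hxH
        simpa using h3
      rw [this, map_one]
    have hn2 : (ψ ⟨x, hH hxH⟩) ^ Nat.card K = 1 := by
      rw [hψ, ← map_pow]
      have : (⟨k, hkU⟩ : ↥U) ^ Nat.card K = 1 := by
        apply Subtype.ext
        have h3 : k ^ Nat.card K = 1 := pow_card_of_mem hk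
        simpa using h3
      rw [this, map_one]
    have h5 : ψ ⟨x, hH hxH⟩ = 1 := by
      have h6 := orderOf_dvd_of_pow_eq_one hn1
      have h7 := orderOf_dvd_of_pow_eq_one hn2
      exact orderOf_eq_one_iff.mp (Nat.eq_one_of_dvd_coprimes hcop h6 h7)
    have h8 : (⟨x, hH hxH⟩ : ↥U) ∈ commutator ↥U := (QuotientGroup.eq_one_iff _).mp h5
    have h2 := Subgroup.map_subtype_commutator U
    rw [← h2]
    exact ⟨_, h8, rfl⟩
  · rintro x ⟨hxH, hx⟩
    exact ⟨hxH, Subgroup.commutator_mono le_top le_top hx⟩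

theorem result {G : Type*} [Group G] [Finite G] [Group.IsSolvable G] (K U H : Subgroup G) [K.Normal] (hKU : K ⊔ U = ⊤) (hH : H ≤ U) (hcop : (Nat.card H).Coprime (Nat.card K)) :
    H ⊓ commutator G = H ⊓ ⁅U, U⁆ ∧
      Subgroup.normalizer (H : Set G) = (K ⊓ Subgroup.centralizer (H : Set G)) ⊔ (U ⊓ Subgroup.normalizer (H : Set G)) ∧
      ∀ g : G, H.map (MulAut.conj g).toMonoidHom ≤ U → ∃ u ∈ U, ∃ c ∈ K ⊓ Subgroup.centralizer (H : Set G), g = u * c := by
  refine ⟨part1 K U H hKU hH hcop, ?_, part3 K U H hKU hH hcop⟩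
  apply le_antisymm
  · intro g hg
    have hg' : H.map (MulAut.conj g).toMonoidHom = H := Subgroup.mem_normalizer_iff_map_conj_eq.mp hg
    obtain ⟨u, hu, c, hc, rfl⟩ := part3 K U H hKU hH hcop g (by rw [hg']; exact hH)
    have hcN : c ∈ Subgroup.normalizer (H : Set G) := Subgroup.centralizer_le_normalizer _ hc.2
    have huN : u ∈ Subgroup.normalizer (H : Set G) := by
      have : u = (u * c) * c⁻¹ := by group
      rw [this]
      exact mul_mem hg (inv_mem hcN)
    exact mul_mem (Subgroup.mem_sup_right (Subgroup.mem_inf.mpr ⟨hu, huN⟩)) (Subgroup.mem_sup_left hc)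
  · refine sup_le ?_ inf_le_right
    intro x hx
    exact Subgroup.centralizer_le_normalizer _ hx.2

end Cfsg.Agent.S1460
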