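import Cfsg.Statements.S1461
import Cfsg.Agent.S1460
import Cfsg.Agent.Lib.H06.PLen1

set_option autoImplicit false

open Cfsg

namespace Cfsg.Agent.S1461

open Cfsg.Agent.H06 Cfsg.Agent.H01
open scoped Pointwise

theorem result {G : Type*} [Group G] [Finite G] [Group.IsSolvable G] (p : ℕ) [Fact p.Prime] (hpl : Cfsg.PLengthLE p 1 G) (S : Sylow p G) :
    ((S : Subgroup G) ≤ commutator G → (S : Subgroup G) ≤ ⁅Subgroup.normalizer ((S : Subgroup G) : Set G), Subgroup.normalizer ((S : Subgroup G) : Set G)⁆) ∧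
      (∀ (Y : Set G) (x : G), Y ⊆ (S : Subgroup G) → (fun y => x * y * x⁻¹) '' Y ⊆ (S : Subgroup G) →
        ∃ g ∈ Subgroup.normalizer ((S : Subgroup G) : Set G), ∃ c ∈ Subgroup.centralizer Y, g * c = x) ∧
      ∀ Q : Subgroup G, IsPGroup p Q → ∃ x ∈ Subgroup.centralizer ((Q ⊓ (S : Subgroup G) : Subgroup G) : Set G), Q.map (MulAut.conj x).toMonoidHom ≤ (S : Subgroup G) := by
  classical
  set X := pPrimeCore p G with hX
  haveI hXn : X.Normal := pPrimeCore_normal''
  have hXcop : (Nat.card X).Coprime p := coprime_card_pPrimeCore p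
  have hfr := plen1_frattini hpl S
  set U := Subgroup.normalizer ((S : Subgroup G) : Set G) with hU
  have hSU : (S : Subgroup G) ≤ U := Subgroup.le_normalizer
  have hpcop : ∀ {Q : Subgroup G}, IsPGroup p Q → (Nat.card Q).Coprime (Nat.card X) := by
    intro Q hQ
    obtain ⟨n, hn⟩ := IsPGroup.iff_card.mp hQ
    rw [hn]
    exact Nat.Coprime.pow_left _ hXcop.symm
  refine ⟨?_, ?_, ?_⟩
  · intro hle
    have h1 := (S1460.result X U (S : Subgroup G) hfr hSU (hpcop S.isPGroup')).1
    have h2 : (S : Subgroup G) ≤ (S : Subgroup G) ⊓ commutator G := le_inf le_rfl hle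
    rw [h1] at h2
    exact h2.trans inf_le_right
  · intro Y x hY hxY
    let H := Subgroup.closure Y
    have hHS : H ≤ (S : Subgroup G) := (Subgroup.closure_le _).mpr hY
    have hHp : IsPGroup p H := S.isPGroup'.to_le hHS
    have hmap : H.map (MulAut.conj x).toMonoidHom ≤ U := by
      refine le_trans ?_ hSU
      rw [Subgroup.map_le_iff_le_comap, Subgroup.closure_le]
      intro y hy
      exact hxY ⟨y, hy, rfl⟩
    obtain ⟨u, hu, c, hc, e⟩ := (S1460.result X U H hfr (hHS.trans hSU) (hpcop hHp)).2.2 x hmap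
    refine ⟨u, hu, c, ?_, e.symm⟩
    have hcC := (Subgroup.mem_inf.mp hc).2
    exact Subgroup.centralizer_le Subgroup.subset_closure hcC
  · intro Q hQ
    let D := Q ⊓ (S : Subgroup G)
    let Y := X ⊔ Q
    let S₁ := (S : Subgroup G) ⊓ Y
    have hQY : Q ≤ Y := le_sup_right
    have hXY : X ≤ Y := le_sup_left
    have hYXS : Y ≤ X ⊔ (S : Subgroup G) := sup_le le_sup_left (plen1_le_sup hpl S hQ)
    have hnormal : ∀ (K : Subgroup G), K ≤ Subgroup.normalizer (X : Set G) := fun K => by
      rw [Subgroup.normalizer_eq_top_iff.mpr hXn]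
      exact le_top
    have hYsup : Y = X ⊔ S₁ := by
      apply le_antisymm
      · intro y hy
        obtain ⟨x, hx, s, hs, rfl⟩ := exists_mul_of_mem_sup (hnormal _) (hYXS hy)
        refine Subgroup.mul_mem_sup hx (Subgroup.mem_inf.mpr ⟨hs, ?_⟩)
        have : s = x⁻¹ * (x * s) := by group
        rw [this]
        exact mul_mem (inv_mem (hXY hx)) hy
      · exact sup_le hXY inf_le_right
    have hS₁p : IsPGroup p S₁ := S.isPGroup'.to_le inf_le_left
    have hc1 := card_sup_of_le_normalizer (hnormal Q) (hpcop hQ).symm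
    have hc2 := card_sup_of_le_normalizer (hnormal S₁) (hpcop hS₁p).symm
    have hcard : Nat.card S₁ = Nat.card Q := by
      rw [← hYsup] at hc2
      have hpos : 0 < Nat.card X := Nat.card_pos
      exact Nat.eq_of_mul_eq_mul_left hpos (hc2.trans hc1.symm)
    have hLX : Y ≤ Subgroup.normalizer (X : Set G) := hnormal Y
    obtain ⟨l, hl, e⟩ := conj_rel (L := Y) (N := X) (H := Q) (K := S₁) hXY hLX hQY inf_le_right
      (hpcop hQ).symm hc1 hcard (Or.inr (inferInstance))
    obtain ⟨x₀, hx₀, q, hq, rfl⟩ := exists_mul_of_mem_sup (hnormal Q) hl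
    have e2 : MulAut.conj x₀ • Q = S₁ := by
      rw [← e, map_mul, mul_smul, conj_smul_of_mem_normalizer (Subgroup.le_normalizer hq)]
    have hDQ : D ≤ Q := inf_le_left
    have hDS₁ : D ≤ S₁ := le_inf inf_le_right (hDQ.trans hQY)
    have hDp : IsPGroup p D := hQ.to_le hDQ
    obtain ⟨c, hc, ec⟩ := exists_centralizing_conj (K := X) (D := D) (A := Q) (B := S₁) (hnormal D) (hpcop hDp)
      (Or.inl inferInstance) (hDQ.trans Subgroup.le_normalizer) (hDS₁.trans Subgroup.le_normalizer) hx₀ e2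
    refine ⟨c, (Subgroup.mem_inf.mp hc).2, ?_⟩
    have : Q.map (MulAut.conj c).toMonoidHom = S₁ := ec
    rw [this]
    exact inf_le_left

end Cfsg.Agent.S1461
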