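import Cfsg.Statements.S1464
import Cfsg.Agent.Lib.H06.Quad4

set_option autoImplicit false

open Cfsg

namespace Cfsg.Agent.S1464

open Cfsg.Agent.H06

open scoped commutatorElement

/-- Let p be an odd prime and G a solvable group of odd order, P a p-subgroup with O_{p'}(G)P normal in G, and A a p-subgroup of N_G(P) with [[P, A], A] = 1. Then the image of A in the quotient N_G(P)/C_G(P) is contained in the p-core of that quotient. -/
theorem result {G : Type*} [Group G] [Finite G] [Group.IsSolvable G] (hodd : Odd (Nat.card G)) (p : ℕ) [Fact p.Prime] (hp : p ≠ 2) (P A : Subgroup G) (hP : IsPGroup p P) (hPn : (Cfsg.pPrimeCore p G ⊔ P).Normal)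
    (hA : IsPGroup p A) (hAN : A ≤ Subgroup.normalizer (P : Set G)) (hquad : ⁅⁅P, A⁆, A⁆ = ⊥) :
    (A.subgroupOf (Subgroup.normalizer (P : Set G))).map
        (QuotientGroup.mk' ((Subgroup.centralizer (P : Set G)).subgroupOf (Subgroup.normalizer (P : Set G))))
      ≤ Cfsg.pCore p _ := by
  classical
  rintro _ ⟨⟨a, haN⟩, ha, rfl⟩
  have ha' : a ∈ A := ha
  have hoddN : Odd (Nat.card (Subgroup.normalizer (P : Set G))) :=
    Odd.of_dvd_nat hodd (Subgroup.card_subgroup_dvd_card _)
  haveI hPN : (P.subgroupOf (Subgroup.normalizer (P : Set G))).Normal := Subgroup.normal_in_normalizer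
  have hP' : IsPGroup p (P.subgroupOf (Subgroup.normalizer (P : Set G))) := by
    rintro ⟨⟨g, hgN⟩, hg⟩
    obtain ⟨e, he⟩ := hP ⟨g, hg⟩
    refine ⟨e, ?_⟩
    apply Subtype.ext
    apply Subtype.ext
    have := congrArg Subtype.val he
    simpa using this
  refine quad_image_pCore hoddN p hp (P.subgroupOf (Subgroup.normalizer (P : Set G))) hP' _ ?_ ⟨a, haN⟩ ?_ ?_
  · intro z hz
    rw [Subgroup.mem_subgroupOf, Subgroup.mem_centralizer_iff]
    intro v hv
    have hvN : v ∈ Subgroup.normalizer (P : Set G) := Subgroup.le_normalizer hv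
    have h1 := (Subgroup.mem_centralizer_iff.mp hz) ⟨v, hvN⟩ hv
    exact congrArg Subtype.val h1
  · obtain ⟨e, he⟩ := hA ⟨a, ha'⟩
    refine ⟨e, Subtype.ext ?_⟩
    have := congrArg Subtype.val he
    simpa using this
  · intro g hg
    apply Subtype.ext
    have h1 : ⁅⁅(g : G), a⁆, a⁆ = 1 := by
      have h2 : ⁅⁅(g : G), a⁆, a⁆ ∈ ⁅⁅P, A⁆, A⁆ :=
        Subgroup.commutator_mem_commutator (Subgroup.commutator_mem_commutator hg ha') ha'
      rw [hquad] at h2
      exact h2
    exact h1

end Cfsg.Agent.S1464
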