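import Cfsg.Statements.S1466
import Cfsg.Agent.Lib.H06.Puig
import Cfsg.Agent.Lib.H06.Nilp

set_option autoImplicit false
open Cfsg

namespace Cfsg.Agent.S1466

open Cfsg.Agent.H06

theorem puigSeq_normal' {R : Type*} [Group R] (n : ℕ) : (Cfsg.puigSeq R n).Normal := by
  induction n with
  | zero => exact (inferInstance : (⊥ : Subgroup R).Normal)
  | succ n ih => exact puigStep_normal ih

theorem le_step_of_normal {R : Type*} [Group R] (X A : Subgroup R) (hA : A.Normal)
    (hc : IsMulCommutative A) : A ≤ Cfsg.puigStep X :=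
  le_puigStep hc (by rw [Subgroup.normalizer_eq_top_iff.mpr hA]; exact le_top)

/-- Let p be a prime and R a nontrivial finite p-group. Then for every i > 0, Z(R) ≤ C_R(L_i(R)) ≤ L_i(R); likewise Z(R) ≤ C_R(L_*(R)) ≤ L_*(R) and Z(R) ≤ C_R(L(R)) ≤ L(R); and L(R) ≠ 1, L_*(R) ≠ 1. -/
theorem result {R : Type*} [Group R] [Finite R] (p : ℕ) [Fact p.Prime] (hR : IsPGroup p R) [Nontrivial R] :
    (∀ i : ℕ, 0 < i → Subgroup.center R ≤ Subgroup.centralizer ((Cfsg.puigSeq R i : Subgroup R) : Set R) ∧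
        Subgroup.centralizer ((Cfsg.puigSeq R i : Subgroup R) : Set R) ≤ Cfsg.puigSeq R i) ∧
      (Subgroup.center R ≤ Subgroup.centralizer ((Cfsg.puigLower R : Subgroup R) : Set R) ∧ Subgroup.centralizer ((Cfsg.puigLower R : Subgroup R) : Set R) ≤ Cfsg.puigLower R) ∧
      (Subgroup.center R ≤ Subgroup.centralizer ((Cfsg.puigSubgroup R : Subgroup R) : Set R) ∧ Subgroup.centralizer ((Cfsg.puigSubgroup R : Subgroup R) : Set R) ≤ Cfsg.puigSubgroup R) ∧
      Cfsg.puigSubgroup R ≠ ⊥ ∧ Cfsg.puigLower R ≠ ⊥ := by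
  haveI : Group.IsNilpotent R := hR.isNilpotent
  have hcen : ∀ X : Set R, Subgroup.center R ≤ Subgroup.centralizer X := by
    intro X z hz
    rw [Subgroup.mem_centralizer_iff]
    intro x _
    exact ((Subgroup.mem_center_iff.mp hz) x).symm ▸ rfl
  -- normality of the limit terms
  obtain ⟨k, hk⟩ := puig_stable (G := R)
  obtain ⟨hk1, hk2⟩ := hk k le_rfl
  have hlown : (Cfsg.puigLower R).Normal := hk1 ▸ puigSeq_normal' _
  have hsubn : (Cfsg.puigSubgroup R).Normal := hk2 ▸ puigSeq_normal' _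
  have hstep1 : ∀ A : Subgroup R, A.Normal → IsMulCommutative A → A ≤ Cfsg.puigSubgroup R := by
    intro A hA hc
    rw [← puigStep_puigLower]
    exact le_step_of_normal _ A hA hc
  have hstep2 : ∀ A : Subgroup R, A.Normal → IsMulCommutative A → A ≤ Cfsg.puigLower R := by
    intro A hA hc
    rw [← puigStep_puigSubgroup]
    exact le_step_of_normal _ A hA hc
  have hcenter_ne : Subgroup.center R ≠ ⊥ := (hR.bot_lt_center).ne'
  have hcn : (Subgroup.center R).Normal := inferInstance
  have hcc : IsMulCommutative (Subgroup.center R) := inferInstance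
  refine ⟨?_, ⟨hcen _, centralizer_le_of_contains_abelian_normal hlown hstep2⟩,
    ⟨hcen _, centralizer_le_of_contains_abelian_normal hsubn hstep1⟩, ?_, ?_⟩
  · intro i hi
    refine ⟨hcen _, ?_⟩
    obtain ⟨j, rfl⟩ := Nat.exists_eq_succ_of_ne_zero hi.ne'
    exact centralizer_le_of_contains_abelian_normal (puigSeq_normal' _)
      (fun A hA hc => le_step_of_normal _ A hA hc)
  · intro h
    apply hcenter_ne
    exact le_bot_iff.mp (h ▸ hstep1 _ hcn hcc)
  · intro h
    apply hcenter_ne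
    exact le_bot_iff.mp (h ▸ hstep2 _ hcn hcc)

end Cfsg.Agent.S1466
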