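import Cfsg.Statements.S1469
import Cfsg.Agent.Lib.H06.Puig4

set_option autoImplicit false

open Cfsg

namespace Cfsg.Agent.S1469

open Cfsg.Agent.H06

universe u

/-- The general case of Puig's theorem. -/
theorem general {G : Type u} [Group G] [Finite G] [Group.IsSolvable G] (hodd : Odd (Nat.card G)) (p : ℕ) [Fact p.Prime]
    (hp : p ≠ 2) (S : Sylow p G) :
    Cfsg.pPrimeCore p G ⊔ Subgroup.normalizer (relZ (S : Subgroup G) : Set G) = ⊤ := by
  classical
  set O := pPrimeCore p G with hOdef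
  haveI hOn : O.Normal := Subgroup.sSup_normal _ (fun _ h => h.1)
  have hOc : (Nat.card O).Coprime p := coprime_card_pPrimeCore p
  let π := QuotientGroup.mk' O
  have hπs : Function.Surjective π := QuotientGroup.mk'_surjective O
  have hcard : Nat.card (G ⧸ O) ∣ Nat.card G := Subgroup.card_quotient_dvd_card O
  have hoddQ : Odd (Nat.card (G ⧸ O)) := Odd.of_dvd_nat hodd hcard
  haveI : Group.IsSolvable (G ⧸ O) := solvable_of_surjective hπs
  -- `π` is injective on `S`
  have hinj : ∀ a ∈ (S : Subgroup G), ∀ b ∈ (S : Subgroup G), π a = π b → a = b := by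
    intro a ha b hb hab
    have h1 : a⁻¹ * b ∈ O := QuotientGroup.eq.mp hab
    have h2 : a⁻¹ * b ∈ (S : Subgroup G) := mul_mem (inv_mem ha) hb
    have hSp : IsPGroup p (S : Subgroup G) := S.isPGroup'
    obtain ⟨e, he⟩ := hSp ⟨_, h2⟩
    have h3 : (a⁻¹ * b) ^ (p ^ e) = 1 := by
      have := congrArg Subtype.val he
      simpa using this
    have h4 : (a⁻¹ * b) ^ Nat.card O = 1 := by
      have h0 : (⟨a⁻¹ * b, h1⟩ : O) ^ Nat.card O = 1 := pow_card_eq_one'
      exact congrArg Subtype.val h0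
    have h5 : orderOf (a⁻¹ * b) ∣ Nat.gcd (p ^ e) (Nat.card O) :=
      Nat.dvd_gcd (orderOf_dvd_of_pow_eq_one h3) (orderOf_dvd_of_pow_eq_one h4)
    have h6 : Nat.Coprime (p ^ e) (Nat.card O) := Nat.Coprime.pow_left e hOc.symm
    rw [h6.gcd_eq_one, Nat.dvd_one, orderOf_eq_one_iff] at h5
    exact (inv_mul_eq_one.mp h5)
  let T : Sylow p (G ⧸ O) := S.mapSurjective hπs
  have hT : (T : Subgroup (G ⧸ O)) = (S : Subgroup G).map π := Sylow.coe_mapSurjective _ _
  let f : (S : Subgroup G) →* (G ⧸ O) := π.comp (S : Subgroup G).subtype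
  have hf : Function.Injective f := by
    intro a b hab
    exact Subtype.ext (hinj a a.2 b b.2 hab)
  have hfr : f.range = (T : Subgroup (G ⧸ O)) := by
    rw [hT, MonoidHom.range_eq_map, ← Subgroup.map_map]
    congr 1
    rw [← MonoidHom.range_eq_map, Subgroup.range_subtype]
  let φ : (S : Subgroup G) ≃* (T : Subgroup (G ⧸ O)) :=
    (MonoidHom.ofInjective hf).trans (MulEquiv.subgroupCongr hfr)
  have hφ : ∀ s : (S : Subgroup G), ((φ s : T) : G ⧸ O) = π s := fun s => rfl
  -- transport of the Puig subgroup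
  have hU : relUpper (T : Subgroup (G ⧸ O)) = (relUpper (S : Subgroup G)).map π := by
    have h1 := map_puigSubgroup φ
    rw [relUpper, ← h1]
    ext z
    constructor
    · rintro ⟨_, ⟨u, hu, rfl⟩, rfl⟩
      exact ⟨u, ⟨u, hu, rfl⟩, (hφ u).symm⟩
    · rintro ⟨_, ⟨u, hu, rfl⟩, rfl⟩
      exact ⟨φ u, ⟨u, hu, rfl⟩, hφ u⟩
  have hZ : relZ (T : Subgroup (G ⧸ O)) = (relZ (S : Subgroup G)).map π := by
    apply le_antisymm
    · intro w hw
      obtain ⟨h1, h2⟩ := Subgroup.mem_inf.mp hw
      rw [hU] at h1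
      obtain ⟨z, hz, rfl⟩ := h1
      refine ⟨z, Subgroup.mem_inf.mpr ⟨hz, Subgroup.mem_centralizer_iff.mpr ?_⟩, rfl⟩
      intro u hu
      have h3 := (Subgroup.mem_centralizer_iff.mp h2) (π u) (by rw [hU]; exact ⟨u, hu, rfl⟩)
      have hle : relUpper (S : Subgroup G) ≤ (S : Subgroup G) := Subgroup.map_subtype_le _
      apply hinj _ (mul_mem (hle hu) (hle hz)) _ (mul_mem (hle hz) (hle hu))
      rw [map_mul, map_mul]
      exact h3
    · rintro _ ⟨z, hz, rfl⟩
      obtain ⟨h1, h2⟩ := Subgroup.mem_inf.mp hz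
      refine Subgroup.mem_inf.mpr ⟨by rw [hU]; exact ⟨z, h1, rfl⟩, Subgroup.mem_centralizer_iff.mpr ?_⟩
      intro w hw
      have hw' : w ∈ (relUpper (S : Subgroup G)).map π := by
        rw [← hU]
        exact hw
      obtain ⟨u, hu, rfl⟩ := hw'
      rw [← map_mul, ← map_mul, (Subgroup.mem_centralizer_iff.mp h2) u hu]
  -- normality in the quotient
  have hNor : (relZ (T : Subgroup (G ⧸ O))).Normal :=
    relZ_normal hoddQ p hp (Cfsg.Agent.H08.pPrimeCore_quotient_eq_bot p) T
  set Z := relZ (S : Subgroup G) with hZdef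
  let M : Subgroup G := (relZ (T : Subgroup (G ⧸ O))).comap π
  haveI hMn : M.Normal := Subgroup.Normal.comap hNor _
  have hZM : Z ≤ M := by
    intro z hz
    show π z ∈ relZ (T : Subgroup (G ⧸ O))
    rw [hZ]
    exact ⟨z, hz, rfl⟩
  have hOM : O ≤ M := by
    intro x hx
    show π x ∈ relZ (T : Subgroup (G ⧸ O))
    have : π x = 1 := (QuotientGroup.eq_one_iff x).mpr hx
    rw [this]
    exact one_mem _
  have hMle : M ≤ O ⊔ Z := by
    intro m hm
    have hm' : π m ∈ relZ (T : Subgroup (G ⧸ O)) := hm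
    rw [hZ] at hm'
    obtain ⟨z, hz, hzm⟩ := hm'
    have h1 : z⁻¹ * m ∈ O := QuotientGroup.eq.mp hzm
    have h2 : m = z * (z⁻¹ * m) := by group
    rw [h2]
    exact mul_mem (Subgroup.mem_sup_right hz) (Subgroup.mem_sup_left h1)
  have hZS : Z ≤ (S : Subgroup G) := inf_le_left.trans (Subgroup.map_subtype_le _)
  have hZp : IsPGroup p Z := S.isPGroup'.to_le hZS
  have hZcop : (Nat.card O).Coprime (Nat.card Z) := by
    obtain ⟨k, hk⟩ := IsPGroup.iff_card.mp hZp
    rw [hk]
    exact Nat.Coprime.pow_right k hOc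
  have hZN : Z ≤ Subgroup.normalizer (O : Set G) := by
    rw [Subgroup.normalizer_eq_top_iff.mpr hOn]
    exact le_top
  have hcardM : Nat.card O * Nat.card Z = Nat.card M := by
    rw [Cfsg.Agent.H01.card_sup_of_le_normalizer hZN hZcop]
    congr 2
    exact le_antisymm (sup_le hOM hZM) hMle
  -- `Z` is Sylow in `M`
  have hZ₀p : IsPGroup p (Z.subgroupOf M) :=
    hZp.comap_of_injective M.subtype (Subgroup.subtype_injective _) |> fun h => by
      rwa [show Z.subgroupOf M = Z.comap M.subtype from rfl]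
  have hcZ₀ : Nat.card (Z.subgroupOf M) = Nat.card Z := by
    rw [← Subgroup.card_map_of_injective M.subtype_injective, Subgroup.subgroupOf_map_subtype, inf_eq_left.mpr hZM]
  have hind : (Z.subgroupOf M).index = Nat.card O := by
    have h1 := Subgroup.card_mul_index (Z.subgroupOf M)
    rw [hcZ₀, ← hcardM, mul_comm (Nat.card O)] at h1
    exact Nat.eq_of_mul_eq_mul_left Nat.card_pos h1
  have hnd : ¬ p ∣ (Z.subgroupOf M).index := by
    rw [hind]
    intro h
    have := Nat.Coprime.eq_one_of_dvd hOc.symm h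
    exact (Fact.out : p.Prime).one_lt.ne' this
  let P : Sylow p M := hZ₀p.toSylow hnd
  have hPc : (P : Subgroup M) = Z.subgroupOf M := IsPGroup.toSylow_coe _ _
  have hFr := Sylow.normalizer_sup_eq_top P
  have he : ((P : Subgroup M).map M.subtype : Subgroup G) = Z := by
    rw [hPc, Subgroup.subgroupOf_map_subtype, inf_eq_left.mpr hZM]
  have hFr' : Subgroup.normalizer (Z : Set G) ⊔ M = ⊤ := by
    rw [← he]
    exact hFr
  rw [eq_top_iff, ← hFr']
  refine sup_le le_sup_right (hMle.trans (sup_le le_sup_left ?_))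
  exact Subgroup.le_normalizer.trans le_sup_right

/-- Let p be an odd prime, G a solvable group of odd order and S a Sylow p-subgroup, and let Z be the centre of the Puig subgroup L(S), viewed inside G. Then G is generated by O_{p'}(G) and N_G(Z); and if O_{p'}(G) = 1 then Z is normal in G. -/
theorem result {G : Type*} [Group G] [Finite G] [Group.IsSolvable G] (hodd : Odd (Nat.card G)) (p : ℕ) [Fact p.Prime] (hp : p ≠ 2) (S : Sylow p G) :
    Cfsg.pPrimeCore p G ⊔ Subgroup.normalizer ((((Subgroup.center ↥(Cfsg.puigSubgroup ↥(S : Subgroup G))).map (Cfsg.puigSubgroup ↥(S : Subgroup G)).subtype).map (S : Subgroup G).subtype : Subgroup G) : Set G) = ⊤ ∧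
      (Cfsg.pPrimeCore p G = ⊥ → (((Subgroup.center ↥(Cfsg.puigSubgroup ↥(S : Subgroup G))).map (Cfsg.puigSubgroup ↥(S : Subgroup G)).subtype).map (S : Subgroup G).subtype).Normal) := by
  rw [map_center_puig_eq]
  exact ⟨general hodd p hp S, fun hO => relZ_normal hodd p hp hO S⟩

end Cfsg.Agent.S1469
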