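import Cfsg.Statements.S1470
import Mathlib

set_option autoImplicit false
open Cfsg

namespace Cfsg.Agent.S1470

variable {p q : ℕ} [Fact p.Prime]

/-- The orbit argument: `N(1 - k b) = 1` for every natural `k`. -/
theorem norm_aux (hq0 : q ≠ 0)
    (hinv : ∀ a : GaloisField p q, (Algebra.norm (ZMod p) a = 1 ∧ Algebra.norm (ZMod p) (2 - a) = 1) →
      (Algebra.norm (ZMod p) a⁻¹ = 1 ∧ Algebra.norm (ZMod p) (2 - a⁻¹) = 1))
    (a : GaloisField p q) (h1 : Algebra.norm (ZMod p) a = 1) (h2 : Algebra.norm (ZMod p) (2 - a) = 1)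
    (k : ℕ) :
    Algebra.norm (ZMod p) (1 - (k : GaloisField p q) * (a - 1)) = 1 ∧
      ∃ c : GaloisField p q, (Algebra.norm (ZMod p) c = 1 ∧ Algebra.norm (ZMod p) (2 - c) = 1) ∧
        c * (1 - (k : GaloisField p q) * (a - 1)) = 1 - ((k : GaloisField p q) - 1) * (a - 1) := by
  induction k with
  | zero =>
    refine ⟨by simp, a, ⟨h1, h2⟩, ?_⟩
    simp
  | succ k ih =>
    obtain ⟨hk, c, ⟨hc1, hc2⟩, hc⟩ := ih
    -- new element
    have hne : (2 - c) ≠ 0 := by
      intro h0
      rw [h0, Algebra.norm_zero] at hc2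
      exact zero_ne_one hc2
    have h3 : (Algebra.norm (ZMod p) (2 - c) = 1 ∧ Algebra.norm (ZMod p) (2 - (2 - c)) = 1) :=
      ⟨hc2, by simpa using hc1⟩
    have h4 := hinv _ h3
    have hk0 : (1 - (k : GaloisField p q) * (a - 1)) ≠ 0 := by
      intro h0
      rw [h0, Algebra.norm_zero] at hk
      exact zero_ne_one hk
    have h5 : (2 - c)⁻¹ * (1 - ((k + 1 : ℕ) : GaloisField p q) * (a - 1)) =
        1 - (k : GaloisField p q) * (a - 1) := by
      have h6 : (2 - c) * (1 - (k : GaloisField p q) * (a - 1)) =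
          1 - ((k + 1 : ℕ) : GaloisField p q) * (a - 1) := by
        push_cast
        rw [sub_mul, hc]
        ring
      rw [← h6, ← mul_assoc, inv_mul_cancel₀ hne, one_mul]
    refine ⟨?_, (2 - c)⁻¹, h4, ?_⟩
    · have h7 := congrArg (Algebra.norm (ZMod p)) h5
      rw [map_mul, h4.1, one_mul, hk] at h7
      exact h7
    · rw [h5]
      push_cast
      ring_nf

theorem result (p q : ℕ) [Fact p.Prime] [Fact q.Prime] (hp : p ≠ 2) (hq : q ≠ 2) (hA : Nat.Coprime ((p ^ q - 1) / (p - 1)) (p - 1))
    (hinv : ∀ a ∈ {a : GaloisField p q | Algebra.norm (ZMod p) a = 1 ∧ Algebra.norm (ZMod p) (2 - a) = 1}, a⁻¹ ∈ {a : GaloisField p q | Algebra.norm (ZMod p) a = 1 ∧ Algebra.norm (ZMod p) (2 - a) = 1})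
    (h2 : 2 ≤ Set.ncard {a : GaloisField p q | Algebra.norm (ZMod p) a = 1 ∧ Algebra.norm (ZMod p) (2 - a) = 1}) :
    p ≤ q := by
  classical
  have hq0 : q ≠ 0 := (Fact.out : q.Prime).ne_zero
  have hpp : p.Prime := Fact.out
  set E : Set (GaloisField p q) := {a : GaloisField p q | Algebra.norm (ZMod p) a = 1 ∧ Algebra.norm (ZMod p) (2 - a) = 1} with hE
  -- an element other than 1
  obtain ⟨a, haE, ha1⟩ : ∃ a ∈ E, a ≠ 1 := by
    by_contra hcon
    push Not at hcon
    have hsub : E ⊆ {1} := fun x hx => hcon x hx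
    have := Set.ncard_le_ncard hsub (Set.finite_singleton _)
    rw [Set.ncard_singleton] at this
    omega
  set b : GaloisField p q := a - 1 with hb
  have hb0 : b ≠ 0 := sub_ne_zero.mpr ha1
  have hk : ∀ k : ℕ, Algebra.norm (ZMod p) (1 - (k : GaloisField p q) * b) = 1 := fun k =>
    (norm_aux hq0 (fun x hx => hinv x hx) a haE.1 haE.2 k).1
  -- the polynomial
  let σs := (GaloisField p q) ≃ₐ[ZMod p] (GaloisField p q)
  haveI : Fact p.Prime := ⟨hpp⟩
  have hcard : Fintype.card σs = q := by
    have h := IsGalois.card_aut_eq_finrank (ZMod p) (GaloisField p q)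
    rw [GaloisField.finrank p hq0, Nat.card_eq_fintype_card] at h
    exact h
  let P : Polynomial (GaloisField p q) :=
    (∏ σ : σs, (1 - Polynomial.X * Polynomial.C (σ b))) - 1
  have hroot : ∀ k : ℕ, P.eval (k : GaloisField p q) = 0 := by
    intro k
    have h1 := Algebra.norm_eq_prod_automorphisms (ZMod p) (1 - (k : GaloisField p q) * b)
    rw [hk k, map_one] at h1
    simp only [P, Polynomial.eval_sub, Polynomial.eval_prod, Polynomial.eval_one,
      Polynomial.eval_mul, Polynomial.eval_X, Polynomial.eval_C]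
    have h2 : ∏ σ : σs, (1 - (k : GaloisField p q) * σ b) =
        ∏ σ : σs, σ (1 - (k : GaloisField p q) * b) := by
      apply Finset.prod_congr rfl
      intro σ _
      simp
    rw [h2]
    have h3 : (∏ σ : σs, σ (1 - (k : GaloisField p q) * b)) = 1 := h1.symm
    rw [h3, sub_self]
  have hdeg : P.natDegree ≤ q := by
    have h1 : (∏ σ : σs, ((1 : Polynomial (GaloisField p q)) - Polynomial.X * Polynomial.C (σ b))).natDegree ≤ q := by
      calc _ ≤ ∑ σ : σs, ((1 : Polynomial (GaloisField p q)) - Polynomial.X * Polynomial.C (σ b)).natDegree :=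
            Polynomial.natDegree_prod_le _ _
        _ ≤ ∑ _σ : σs, 1 := by
            apply Finset.sum_le_sum
            intro σ _
            refine (Polynomial.natDegree_sub_le _ _).trans ?_
            simp only [Polynomial.natDegree_one]
            refine max_le (by omega) ?_
            exact (Polynomial.natDegree_mul_le).trans (by simp)
        _ = q := by simp [hcard]
    refine (Polynomial.natDegree_sub_le _ _).trans ?_
    simpa using h1
  have hP0 : P ≠ 0 := by
    intro h0
    have h1 : (∏ σ : σs, ((1 : Polynomial (GaloisField p q)) - Polynomial.X * Polynomial.C (σ b))) = 1 :=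
      sub_eq_zero.mp h0
    -- compare degree: each factor has degree 1
    have h2 : ∀ σ : σs, ((1 : Polynomial (GaloisField p q)) - Polynomial.X * Polynomial.C (σ b)).natDegree = 1 := by
      intro σ
      have hne : σ b ≠ 0 := fun h => hb0 (by simpa using h)
      have : (1 : Polynomial (GaloisField p q)) - Polynomial.X * Polynomial.C (σ b) =
          Polynomial.C (-(σ b)) * Polynomial.X + Polynomial.C 1 := by
        rw [map_neg, map_one]; ring
      rw [this]
      exact Polynomial.natDegree_linear (neg_ne_zero.mpr hne)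
    have h3 : ∀ σ ∈ (Finset.univ : Finset σs),
        ((1 : Polynomial (GaloisField p q)) - Polynomial.X * Polynomial.C (σ b)) ≠ 0 := by
      intro σ _ h
      have := h2 σ
      rw [h] at this
      simp at this
    have h4 := Polynomial.natDegree_prod _ _ h3
    rw [h1, Polynomial.natDegree_one] at h4
    simp only [h2] at h4
    simp [hcard] at h4
    omega
  -- `p` distinct roots
  by_contra hlt
  push Not at hlt
  have hinj : Function.Injective (fun k : Fin p => ((k : ℕ) : GaloisField p q)) := by
    intro i j hij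
    have h1 : ((i : ℕ) : GaloisField p q) = (j : ℕ) := hij
    have h2 : ((i : ℕ) : ZMod p) = (j : ℕ) := by
      apply (algebraMap (ZMod p) (GaloisField p q)).injective
      simpa using h1
    rw [ZMod.natCast_eq_natCast_iff'] at h2
    rw [Nat.mod_eq_of_lt i.2, Nat.mod_eq_of_lt j.2] at h2
    exact Fin.ext h2
  have hcardroots : (Finset.univ.image (fun k : Fin p => ((k : ℕ) : GaloisField p q))).card ≤ P.natDegree := by
    have hsub : Finset.univ.image (fun k : Fin p => ((k : ℕ) : GaloisField p q)) ⊆ P.roots.toFinset := by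
      intro x hx
      obtain ⟨k, _, rfl⟩ := Finset.mem_image.mp hx
      rw [Multiset.mem_toFinset, Polynomial.mem_roots hP0]
      exact hroot k
    calc _ ≤ P.roots.toFinset.card := Finset.card_le_card hsub
      _ ≤ P.roots.card := Multiset.toFinset_card_le _
      _ ≤ P.natDegree := Polynomial.card_roots' P
  rw [Finset.card_image_of_injective _ hinj, Finset.card_univ, Fintype.card_fin] at hcardroots
  omega

end Cfsg.Agent.S1470
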