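import Cfsg.Statements.S1475
import Cfsg.Agent.Lib.H06.FrobNorm
import Cfsg.Agent.Lib.H06.CNQuot

set_option autoImplicit false
open Cfsg

namespace Cfsg.Agent.S1475

universe u

/-- Every non-identity element has prime power order. -/
def EPPO (G : Type*) [Group G] : Prop := ∀ g : G, IsPrimePow (orderOf g) ∨ g = 1

theorem eppo_quot {G : Type*} [Group G] [Finite G] (h : EPPO G) (N : Subgroup G) [N.Normal] :
    EPPO (G ⧸ N) := by
  intro gb
  obtain ⟨g, rfl⟩ := QuotientGroup.mk_surjective gb
  rcases h g with hg | rfl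
  · obtain ⟨s, k, hs, hk, hsk⟩ := hg
    have hd : orderOf (g : G ⧸ N) ∣ s ^ k := hsk ▸ orderOf_map_dvd (QuotientGroup.mk' N) g
    obtain ⟨i, _, hi⟩ := (Nat.dvd_prime_pow hs.nat_prime).mp hd
    rcases i with _ | i
    · right
      rw [pow_zero] at hi
      exact orderOf_eq_one_iff.mp hi
    · left
      rw [hi]
      exact ⟨s, i + 1, hs, Nat.succ_pos i, rfl⟩
  · right; rfl

/-- Commuting elements of coprime orders, both nontrivial, contradict the hypothesis. -/
theorem not_commute_of_eppo {G : Type*} [Group G] [Finite G] (h : EPPO G) {a b : G} (ha : a ≠ 1) (hb : b ≠ 1)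
    (hc : Commute a b) (hcop : (orderOf a).Coprime (orderOf b)) : False := by
  have ho := hc.orderOf_mul_eq_mul_orderOf_of_coprime hcop
  have ha1 : orderOf a ≠ 1 := fun h => ha (orderOf_eq_one_iff.mp h)
  have hb1 : orderOf b ≠ 1 := fun h => hb (orderOf_eq_one_iff.mp h)
  rcases h (a * b) with h1 | h1
  · obtain ⟨s, k, hs, hk, hsk⟩ := h1
    rw [ho] at hsk
    have hda : orderOf a ∣ s ^ k := hsk ▸ Nat.dvd_mul_right _ _
    have hdb : orderOf b ∣ s ^ k := hsk ▸ Nat.dvd_mul_left _ _
    obtain ⟨i, _, hi⟩ := (Nat.dvd_prime_pow hs.nat_prime).mp hda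
    obtain ⟨j, _, hj⟩ := (Nat.dvd_prime_pow hs.nat_prime).mp hdb
    have hi0 : i ≠ 0 := by
      rintro rfl
      exact ha1 (by simpa using hi)
    have hj0 : j ≠ 0 := by
      rintro rfl
      exact hb1 (by simpa using hj)
    have hs1 : s ∣ Nat.gcd (orderOf a) (orderOf b) :=
      Nat.dvd_gcd (hi ▸ dvd_pow_self s hi0) (hj ▸ dvd_pow_self s hj0)
    rw [hcop.gcd_eq_one] at hs1
    exact hs.nat_prime.one_lt.ne' (Nat.dvd_one.mp hs1)
  · rw [h1, orderOf_one] at ho
    exact ha1 (Nat.eq_one_of_mul_eq_one_right ho.symm)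

theorem main : ∀ (n : ℕ) (G : Type u) [Group G] [Finite G] [Group.IsSolvable G],
    Nat.card G = n → EPPO G → (Nat.card G).primeFactors.card ≤ 2 := by
  intro n
  induction n using Nat.strong_induction_on with
  | _ n ih =>
    intro G _ _ _ hn hE
    by_cases hG : Nontrivial G
    · have htop : (⊤ : Subgroup G) ≠ ⊥ := top_ne_bot
      obtain ⟨N, p, _, hNn, hN1, hp, hNc, hNpow⟩ :=
        H06.exists_abelian_pgroup_normal_le (H := (⊤ : Subgroup G)) inferInstance htop
      haveI := hNn
      haveI := Fact.mk hp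
      have hNp : IsPGroup p N := by
        intro x
        refine ⟨1, ?_⟩
        apply Subtype.ext
        simpa using hNpow x x.2
      have hNnt : Nontrivial N := (Subgroup.nontrivial_iff_ne_bot N).mpr hN1
      have hcardmul := Subgroup.card_eq_card_quotient_mul_card_subgroup N
      have hN2 : 1 < Nat.card N := Finite.one_lt_card
      have hQ0 : 0 < Nat.card (G ⧸ N) := Nat.card_pos
      have hlt : Nat.card (G ⧸ N) < n := by
        rw [← hn, hcardmul]; nlinarith
      have hIH := ih _ hlt (G ⧸ N) rfl (eppo_quot hE N)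
      set π := (Nat.card (G ⧸ N)).primeFactors with hπ
      obtain ⟨a, hcardN⟩ := IsPGroup.iff_card.mp hNp
      have hsub : (Nat.card G).primeFactors ⊆ insert p π := by
        intro s hs
        have hsp := Nat.prime_of_mem_primeFactors hs
        have hsd := Nat.dvd_of_mem_primeFactors hs
        rw [hcardmul, hcardN] at hsd
        rcases (Nat.Prime.dvd_mul hsp).mp hsd with h | h
        · exact Finset.mem_insert_of_mem (Nat.mem_primeFactors.mpr ⟨hsp, h, hQ0.ne'⟩)
        · have := (Nat.prime_dvd_prime_iff_eq hsp hp).mp (hsp.dvd_of_dvd_pow h)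
          rw [this]
          exact Finset.mem_insert_self _ _
      by_cases hpd : p ∣ Nat.card (G ⧸ N)
      · have hpm : p ∈ π := Nat.mem_primeFactors.mpr ⟨hp, hpd, hQ0.ne'⟩
        rw [Finset.insert_eq_of_mem hpm] at hsub
        exact (Finset.card_le_card hsub).trans hIH
      by_cases hle : π.card ≤ 1
      · calc _ ≤ (insert p π).card := Finset.card_le_card hsub
          _ ≤ π.card + 1 := Finset.card_insert_le _ _
          _ ≤ 2 := by omega
      -- the main case
      exfalso
      have hπ2 : 1 < π.card := by omega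
      have hQnt : Nontrivial (G ⧸ N) := by
        by_contra hc
        rw [not_nontrivial_iff_subsingleton] at hc
        have h1 : Nat.card (G ⧸ N) = 1 := Nat.card_unique
        rw [hπ, h1] at hπ2
        simp at hπ2
      have htopQ : (⊤ : Subgroup (G ⧸ N)) ≠ ⊥ := top_ne_bot
      obtain ⟨K, q, _, hKn, hK1, hq, hKc, hKpow⟩ :=
        H06.exists_abelian_pgroup_normal_le (H := (⊤ : Subgroup (G ⧸ N))) inferInstance htopQ
      haveI := Fact.mk hq
      obtain ⟨⟨k₀, hk₀⟩, hk₀1⟩ := Subgroup.ne_bot_iff_exists_ne_one.mp hK1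
      have hk₀1' : k₀ ≠ 1 := fun h => hk₀1 (Subtype.ext h)
      have hok₀ : orderOf k₀ = q := orderOf_eq_prime (hKpow k₀ hk₀) hk₀1'
      have hqd : q ∣ Nat.card (G ⧸ N) := hok₀ ▸ orderOf_dvd_natCard k₀
      obtain ⟨r, hrπ, hrq⟩ := Finset.exists_mem_ne hπ2 q
      have hr : r.Prime := Nat.prime_of_mem_primeFactors hrπ
      have hrd : r ∣ Nat.card (G ⧸ N) := Nat.dvd_of_mem_primeFactors hrπ
      haveI := Fact.mk hr
      obtain ⟨yb, hyb⟩ := exists_prime_orderOf_dvd_card' r hrd
      have hqp : q ≠ p := fun h => hpd (h ▸ hqd)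
      have hyb1 : yb ≠ 1 := by
        rintro rfl
        rw [orderOf_one] at hyb
        exact hr.one_lt.ne hyb
      set B : Subgroup (G ⧸ N) := Subgroup.zpowers yb with hB
      have hBpow : ∀ b ∈ B, b ^ r = 1 := by
        rintro _ ⟨m, rfl⟩
        show (yb ^ m) ^ r = 1
        rw [← zpow_natCast, ← zpow_mul, mul_comm, zpow_mul, zpow_natCast, ← hyb, pow_orderOf_eq_one,
          one_zpow]
      -- commutative structure on `N`
      letI instN : CommGroup N :=
        { (inferInstance : Group N) with
          mul_comm := fun a b => Subtype.ext (hNc a a.2 b b.2) }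
      -- the action
      let act : (G ⧸ N) → N → N := fun gb y =>
        ⟨(Quotient.out gb : G) * (y : G) * (Quotient.out gb : G)⁻¹, hNn.conj_mem _ y.2 _⟩
      have hact : ∀ (g : G) (y : N), ((act (g : G ⧸ N) y : N) : G) = g * (y : G) * g⁻¹ := by
        intro g y
        have h1 : ((Quotient.out (g : G ⧸ N) : G) : G ⧸ N) = g := QuotientGroup.out_eq' _
        have h2 := QuotientGroup.eq.mp h1
        set o : G := Quotient.out (g : G ⧸ N) with ho
        have h3 : o⁻¹ * g ∈ N := h2
        have h4 : o⁻¹ * g * (y : G) = (y : G) * (o⁻¹ * g) := hNc _ h3 _ y.2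
        show o * (y : G) * o⁻¹ = g * (y : G) * g⁻¹
        have h5 : g = o * (o⁻¹ * g) := by group
        calc o * (y : G) * o⁻¹ = o * ((y : G) * (o⁻¹ * g)) * (o⁻¹ * g)⁻¹ * o⁻¹ := by group
          _ = o * (o⁻¹ * g * (y : G)) * (o⁻¹ * g)⁻¹ * o⁻¹ := by rw [h4]
          _ = g * (y : G) * g⁻¹ := by group
      have hone : ∀ y : N, act 1 y = y := by
        intro y
        apply Subtype.ext
        have := hact 1 y
        simpa using this
      have hmul : ∀ (a b : G ⧸ N) (y : N), act (a * b) y = act a (act b y) := by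
        intro a b y
        obtain ⟨g, rfl⟩ := QuotientGroup.mk_surjective a
        obtain ⟨h, rfl⟩ := QuotientGroup.mk_surjective b
        apply Subtype.ext
        rw [← QuotientGroup.mk_mul, hact, hact, hact]
        group
      have hhom : ∀ (a : G ⧸ N) (y z : N), act a (y * z) = act a y * act a z := by
        intro a y z
        obtain ⟨g, rfl⟩ := QuotientGroup.mk_surjective a
        apply Subtype.ext
        show ((act (g : G ⧸ N) (y * z) : N) : G) =
          ((act (g : G ⧸ N) y : N) : G) * ((act (g : G ⧸ N) z : N) : G)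
        rw [hact, hact, hact]
        show g * ((y : G) * (z : G)) * g⁻¹ = _
        group
      have hfpf : ∀ a ∈ K ⊔ B, a ≠ 1 → ∀ y : N, act a y = y → y = 1 := by
        intro a _ ha1 y hy
        obtain ⟨g, rfl⟩ := QuotientGroup.mk_surjective a
        by_contra hy1
        have hy1' : (y : G) ≠ 1 := fun h => hy1 (Subtype.ext h)
        have hyo : orderOf (y : G) = p := orderOf_eq_prime (hNpow y y.2) hy1'
        have hg1 : g ≠ 1 := by
          rintro rfl
          exact ha1 rfl
        have hcomm : Commute g (y : G) := by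
          have h1 := congrArg Subtype.val hy
          rw [hact, mul_inv_eq_iff_eq_mul] at h1
          exact h1
        rcases hE g with hg | hg
        · obtain ⟨s, k, hs, hk, hsk⟩ := hg
          by_cases hsp : s = p
          · -- then the image of `g` is trivial
            apply ha1
            have h1 : orderOf (g : G ⧸ N) ∣ p ^ k := by
              rw [← hsp, hsk]
              exact orderOf_map_dvd (QuotientGroup.mk' N) g
            have h2 : orderOf (g : G ⧸ N) ∣ Nat.card (G ⧸ N) := orderOf_dvd_natCard _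
            have h3 : (p ^ k).Coprime (Nat.card (G ⧸ N)) :=
              Nat.Coprime.pow_left _ ((Nat.Prime.coprime_iff_not_dvd hp).mpr hpd)
            have h4 := Nat.Coprime.eq_one_of_dvd (Nat.Coprime.coprime_dvd_left h1 h3) h2
            exact orderOf_eq_one_iff.mp h4
          · apply not_commute_of_eppo hE hg1 hy1' hcomm
            rw [← hsk, hyo]
            exact Nat.Coprime.pow_left _ ((Nat.coprime_primes hs.nat_prime hp).mpr hsp)
        · exact hg1 hg
      have hcommKB : ∀ b ∈ B, b ≠ 1 → ∀ k ∈ K, k ≠ 1 → b * k ≠ k * b := by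
        intro b hb hb1 k hk hk1 he
        have hob : orderOf b = r := orderOf_eq_prime (hBpow b hb) hb1
        have hok : orderOf k = q := orderOf_eq_prime (hKpow k hk) hk1
        apply not_commute_of_eppo (eppo_quot hE N) hb1 hk1 he
        rw [hob, hok]
        exact (Nat.coprime_primes hr hq).mpr hrq
      have hdisj : K ⊓ B = ⊥ := by
        rw [eq_bot_iff]
        intro x hx
        obtain ⟨hx1, hx2⟩ := Subgroup.mem_inf.mp hx
        rw [Subgroup.mem_bot]
        have hc : Nat.Coprime q r := (Nat.coprime_primes hq hr).mpr (Ne.symm hrq)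
        exact (pow_eq_one_iff_of_coprime hc).mp ⟨hKpow x hx1, hBpow x hx2⟩
      have hBne : B ≠ ⊥ := by
        intro hb
        apply hyb1
        have h1 : yb ∈ B := Subgroup.mem_zpowers yb
        rw [hb, Subgroup.mem_bot] at h1
        exact h1
      have hfn := H06.frobenius_norm act hone hmul hhom K B
        (fun b _ k hk => hKn.conj_mem k hk b) hdisj hfpf hcommKB hK1 hBne
      -- the order of `K` is prime to `p`
      have hKp : IsPGroup q K := by
        intro x
        refine ⟨1, ?_⟩
        apply Subtype.ext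
        simpa using hKpow x x.2
      obtain ⟨c, hc⟩ := IsPGroup.iff_card.mp hKp
      have hcop : (Nat.card K).Coprime p := by
        rw [hc]
        exact Nat.Coprime.pow_left _ ((Nat.coprime_primes hq hp).mpr hqp)
      apply hN1
      rw [eq_bot_iff]
      intro y hy
      have h1 := hfn ⟨y, hy⟩
      have h2 : (⟨y, hy⟩ : N) ^ p = 1 := Subtype.ext (hNpow y hy)
      have h3 := (pow_eq_one_iff_of_coprime hcop).mp ⟨h1, h2⟩
      exact congrArg Subtype.val h3
    · rw [not_nontrivial_iff_subsingleton] at hG
      have h1 : Nat.card G = 1 := Nat.card_unique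
      rw [h1]
      simp

theorem result {G : Type*} [Group G] [Finite G] [Group.IsSolvable G] (h : ∀ g : G, IsPrimePow (orderOf g) ∨ g = 1) :
    (Nat.card G).primeFactors.card ≤ 2 :=
  main _ G rfl h

end Cfsg.Agent.S1475
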