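import Cfsg.Statements.S1476
import Cfsg.Agent.Lib.H06.CNSolv

set_option autoImplicit false
open Cfsg

namespace Cfsg.Agent.S1476

/-- Let G be a finite solvable group in which every non-identity element has nilpotent centralizer. Then either G is nilpotent; or G has a normal subgroup K with a Frobenius complement E (K E = G, K ∩ E = 1, E meets its conjugates by outside elements trivially) such that E is cyclic or E is generated by two elementwise-commuting subgroups, one cyclic of odd order and one isomorphic to a generalized quaternion group; or G is a three-step group with respect to some prime p. -/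
theorem result {G : Type*} [Group G] [Finite G] [Group.IsSolvable G] (hCN : Cfsg.IsCNGroup G) :
    Group.IsNilpotent G ∨
      (∃ K E : Subgroup G, K.Normal ∧ Subgroup.IsComplement' K E ∧ Cfsg.IsFrobeniusComplement E ∧
        (IsCyclic E ∨ ∃ C Q : Subgroup G, C ⊔ Q = E ∧ (∀ a ∈ C, ∀ b ∈ Q, a * b = b * a) ∧ IsCyclic C ∧ Odd (Nat.card C) ∧
          ∃ n : ℕ, Nonempty (↥Q ≃* QuaternionGroup (2 ^ n)))) ∨
      ∃ p : ℕ, p.Prime ∧ Cfsg.IsThreeStepGroup p G := by
  by_cases hnil : Group.IsNilpotent G
  · exact Or.inl hnil
  refine Or.inr ?_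
  by_cases hH : Cfsg.fittingHall G = ⊥
  · exact Or.inr (Cfsg.Agent.H06.cn_three_step hCN hH hnil)
  · left
    have hnt : Cfsg.fittingHall G ≠ ⊤ := by
      intro ht
      apply hnil
      have h1 : Group.IsNilpotent (Cfsg.fittingHall G) := Cfsg.Agent.H06.fittingHall_nilpotent
      rw [ht] at h1
      exact Group.nilpotent_of_surjective (Subgroup.topEquiv (G := G)).toMonoidHom (Subgroup.topEquiv (G := G)).surjective
    obtain ⟨E, hE, hF, hfpf, hEnil⟩ := Cfsg.Agent.H06.cn_hall_structure hCN hH hnt
    refine ⟨Cfsg.fittingHall G, E, Cfsg.fittingHall_normal G, hE, hF, ?_⟩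
    exact Cfsg.Agent.H06.fpf_nilp_structure _ E (Cfsg.Agent.H06.le_normalizer_of_normal _ E) hH hfpf hEnil

end Cfsg.Agent.S1476
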