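import Cfsg.Statements.S1482
import Cfsg.Agent.S1395
import Cfsg.Agent.Lib.H01.Coprime4
import Cfsg.Agent.Lib.H01.Solv2
import Cfsg.Agent.Lib.H01.Fitting
import Cfsg.Agent.Lib.H05.Comp2
import Cfsg.Agent.Lib.H06.Rank2c
import Cfsg.Agent.Lib.H06.FittingHall
import Mathlib

set_option autoImplicit false
set_option linter.style.haveILetI false
set_option linter.unusedVariables false
set_option linter.unusedSectionVars false
set_option linter.unusedSimpArgs false
open Cfsg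
open scoped commutatorElement

namespace Cfsg.Agent.S1482

variable {G : Type*} [Group G] [Finite G]

/-- `O_q(K)` as a subgroup of `G`. -/
def O (K : Subgroup G) (q : ℕ) : Subgroup G := (Cfsg.pCore q K).map K.subtype

theorem pow_of_mem {p : ℕ} {X : Subgroup G} (hP : IsPGroup p X) {x : G} (hx : x ∈ X) :
    ∃ e : ℕ, x ^ (p ^ e) = 1 := by
  obtain ⟨e, he⟩ := hP ⟨x, hx⟩
  exact ⟨e, by simpa using congrArg Subtype.val he⟩

theorem O_isP (K : Subgroup G) {q : ℕ} (hq : q.Prime) : IsPGroup q (O K q) := by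
  haveI := Fact.mk hq
  exact (H01.pCore_isPGroup q).map _

theorem O_le (K : Subgroup G) (q : ℕ) : O K q ≤ K := by
  rintro _ ⟨x, -, rfl⟩
  exact x.2

theorem map_norm {K : Subgroup G} (A : Subgroup K) (hA : A.Normal) :
    K ≤ Subgroup.normalizer ((A.map K.subtype : Subgroup G) : Set G) := by
  intro k hk
  rw [Subgroup.mem_normalizer_iff]
  intro x
  constructor
  · rintro ⟨a, ha, rfl⟩
    exact ⟨⟨k, hk⟩ * a * ⟨k, hk⟩⁻¹, hA.conj_mem a ha _, by simp⟩
  · rintro ⟨a, ha, hax⟩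
    refine ⟨⟨k, hk⟩⁻¹ * a * (⟨k, hk⟩⁻¹)⁻¹, hA.conj_mem a ha _, ?_⟩
    have hax' : (a : G) = k * x * k⁻¹ := hax
    simp [hax', mul_assoc]

theorem O_norm (K : Subgroup G) (q : ℕ) : K ≤ Subgroup.normalizer (O K q : Set G) :=
  map_norm _ (H01.pCore_normal q)

theorem F_le (K : Subgroup G) : fittingOf K ≤ K := by
  rintro _ ⟨x, -, rfl⟩
  exact x.2

theorem F_norm (K : Subgroup G) : K ≤ Subgroup.normalizer (fittingOf K : Set G) :=
  map_norm _ H01.fitting_normal

theorem O_le_F (K : Subgroup G) {q : ℕ} (hq : q.Prime) : O K q ≤ fittingOf K := by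
  haveI := Fact.mk hq
  exact Subgroup.map_mono (H01.pCore_le_fitting q)

theorem F_iSup (K : Subgroup G) : fittingOf K = ⨆ p : Nat.Primes, O K p := by
  unfold fittingOf O
  rw [H01.fitting_eq_iSup_pCore, Subgroup.map_iSup]

theorem O_comm (K : Subgroup G) {q r : ℕ} (hq : q.Prime) (hr : r.Prime) (hqr : q ≠ r) {x y : G}
    (hx : x ∈ O K q) (hy : y ∈ O K r) : x * y = y * x := by
  haveI := Fact.mk hq
  haveI := Fact.mk hr
  obtain ⟨a, ha, rfl⟩ := hx
  obtain ⟨b, hb, rfl⟩ := hy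
  have h := (H01.pCore_commute hqr a b ha hb).eq
  exact congrArg K.subtype h

theorem mem_O_of_F (K : Subgroup G) {q : ℕ} (hq : q.Prime) {x : G} (hx : x ∈ fittingOf K) (e : ℕ)
    (he : x ^ (q ^ e) = 1) : x ∈ O K q := by
  obtain ⟨a, ha, rfl⟩ := hx
  have h1 : a ^ (q ^ e) = 1 := by
    apply Subtype.ext
    simpa using he
  obtain ⟨l, -, hl⟩ := (Nat.dvd_prime_pow hq).mp (orderOf_dvd_of_pow_eq_one h1)
  exact ⟨a, H06.mem_pCore_of_mem_fitting hq ha hl, rfl⟩

theorem O_disj (K K' : Subgroup G) {q r : ℕ} (hq : q.Prime) (hr : r.Prime) (hqr : q ≠ r) :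
    Disjoint (O K q) (O K' r) := by
  haveI := Fact.mk hq
  haveI := Fact.mk hr
  exact IsPGroup.disjoint_of_ne q r hqr _ _ (O_isP K hq) (O_isP K' hr)

theorem comm_F (K : Subgroup G) (x : G) (h : ∀ p : ℕ, p.Prime → ∀ u ∈ O K p, u * x = x * u) :
    ∀ u ∈ fittingOf K, u * x = x * u := by
  have h1 : fittingOf K ≤ Subgroup.centralizer ({x} : Set G) := by
    rw [F_iSup]
    refine iSup_le ?_
    rintro ⟨p, hp⟩ u hu
    rw [Subgroup.mem_centralizer_iff]
    intro y hy
    rw [Set.mem_singleton_iff] at hy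
    subst hy
    exact (h p hp u hu).symm
  intro u hu
  exact (Subgroup.mem_centralizer_iff.mp (h1 hu) x rfl).symm

theorem cent_F (K : Subgroup G) (hsolv : Group.IsSolvable K) {x : G} (hxK : x ∈ K)
    (h : ∀ u ∈ fittingOf K, u * x = x * u) : x ∈ fittingOf K := by
  haveI := hsolv
  have h1 : (⟨x, hxK⟩ : K) ∈ Subgroup.centralizer ((fittingSubgroup K : Subgroup K) : Set K) := by
    rw [Subgroup.mem_centralizer_iff]
    intro u hu
    apply Subtype.ext
    simpa using h u ⟨u, hu, rfl⟩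
  exact ⟨_, H01.centralizer_fitting_le h1, rfl⟩

theorem norm_eq (hs : IsSimpleGroup G) {K X : Subgroup G} (hK : IsCoatom K) (hX : X ≠ ⊥)
    (hXK : X ≤ K) (hn : K ≤ Subgroup.normalizer (X : Set G)) :
    Subgroup.normalizer (X : Set G) = K := by
  by_contra hne
  have h1 : Subgroup.normalizer (X : Set G) = ⊤ := hK.2 _ (lt_of_le_of_ne hn (Ne.symm hne))
  have h2 : X.Normal := Subgroup.normalizer_eq_top_iff.mp h1
  rcases hs.eq_bot_or_eq_top_of_normal X h2 with h | h
  · exact hX h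
  · exact hK.1 (top_le_iff.mp (h ▸ hXK))

theorem cent_le (hs : IsSimpleGroup G) {K X : Subgroup G} (hK : IsCoatom K) (hX : X ≠ ⊥)
    (hXK : X ≤ K) (hn : K ≤ Subgroup.normalizer (X : Set G)) :
    Subgroup.centralizer (X : Set G) ≤ K :=
  (Subgroup.centralizer_le_normalizer _).trans (norm_eq hs hK hX hXK hn).le

theorem inf_norm {A X Y : Subgroup G} (h1 : A ≤ Subgroup.normalizer (X : Set G))
    (h2 : A ≤ Subgroup.normalizer (Y : Set G)) :
    A ≤ Subgroup.normalizer ((X ⊓ Y : Subgroup G) : Set G) := by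
  intro a ha
  rw [Subgroup.mem_normalizer_iff]
  intro x
  have hx := (Subgroup.mem_normalizer_iff.mp (h1 ha)) x
  have hy := (Subgroup.mem_normalizer_iff.mp (h2 ha)) x
  simp only [SetLike.mem_coe, Subgroup.mem_inf] at hx hy ⊢
  rw [hx, hy]

theorem comm_elem {A B : Subgroup G} {a b : G} (ha : a ∈ A) (hb : b ∈ B)
    (h1 : a ∈ Subgroup.normalizer (B : Set G)) (h2 : b ∈ Subgroup.normalizer (A : Set G))
    (hd : Disjoint A B) : a * b = b * a := by
  have h3 : a * b * a⁻¹ * b⁻¹ ∈ B :=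
    B.mul_mem ((Subgroup.mem_normalizer_iff.mp h1 b).mp hb) (B.inv_mem hb)
  have h4 : a * b * a⁻¹ * b⁻¹ ∈ A := by
    have : a * b * a⁻¹ * b⁻¹ = a * (b * a⁻¹ * b⁻¹) := by group
    rw [this]
    exact A.mul_mem ha ((Subgroup.mem_normalizer_iff.mp h2 a⁻¹).mp (A.inv_mem ha))
  have h5 := Subgroup.disjoint_def.mp hd h4 h3
  have h6 : a * b * a⁻¹ = b := mul_inv_eq_one.mp h5
  exact mul_inv_eq_iff_eq_mul.mp h6

/-- The center of `O_q(K)`, as a subgroup of `G`. -/
def Zs (K : Subgroup G) (q : ℕ) : Subgroup G :=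
  O K q ⊓ Subgroup.centralizer (O K q : Set G)

theorem Zs_isP (K : Subgroup G) {q : ℕ} (hq : q.Prime) : IsPGroup q (Zs K q) :=
  (O_isP K hq).to_le inf_le_left

theorem Zs_ne (K : Subgroup G) {q : ℕ} (hq : q.Prime) (h : O K q ≠ ⊥) : Zs K q ≠ ⊥ := by
  haveI := Fact.mk hq
  haveI : Nontrivial (O K q) := (Subgroup.nontrivial_iff_ne_bot _).mpr h
  haveI := (O_isP K hq).center_nontrivial
  obtain ⟨z, hz⟩ := exists_ne (1 : Subgroup.center (O K q))
  intro hbot
  have hzm : ((z : O K q) : G) ∈ Zs K q := by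
    refine Subgroup.mem_inf.mpr ⟨(z : O K q).2, ?_⟩
    rw [Subgroup.mem_centralizer_iff]
    intro u hu
    have h2 := (Subgroup.mem_center_iff.mp z.2) ⟨u, hu⟩
    exact congrArg Subtype.val h2
  rw [hbot, Subgroup.mem_bot] at hzm
  apply hz
  apply Subtype.ext
  apply Subtype.ext
  simpa using hzm

theorem Zs_comm_F (K : Subgroup G) {q : ℕ} (hq : q.Prime) {z : G} (hz : z ∈ Zs K q) :
    ∀ u ∈ fittingOf K, u * z = z * u := by
  refine comm_F K z ?_
  intro p hp u hu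
  by_cases hpq : p = q
  · subst hpq
    exact Subgroup.mem_centralizer_iff.mp hz.2 u hu
  · exact O_comm K hp hq hpq hu hz.1

theorem Zs_norm (K : Subgroup G) (q : ℕ) : K ≤ Subgroup.normalizer (Zs K q : Set G) :=
  inf_norm (O_norm K q) ((O_norm K q).trans (H01.normalizer_le_normalizer_centralizer _))

theorem cent_Zs (hs : IsSimpleGroup G) {K : Subgroup G} (hK : IsCoatom K) {q : ℕ} (hq : q.Prime)
    (h : O K q ≠ ⊥) : Subgroup.centralizer (Zs K q : Set G) ≤ K :=
  cent_le hs hK (Zs_ne K hq h) (inf_le_left.trans (O_le K q)) (Zs_norm K q)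

/-- The data for the first five steps. -/
structure Setup (H N : Subgroup G) : Prop where
  hs : IsSimpleGroup G
  hH : IsCoatom H
  hN : IsCoatom N
  hsolN : Group.IsSolvable N
  hZN : ∀ q : ℕ, q.Prime → Zs H q ≤ N
  hO1 : ∀ q : ℕ, q.Prime → O H q = ⊥ → O N q = ⊥
  hother : ∀ q : ℕ, ∃ r : ℕ, r.Prime ∧ r ≠ q ∧ O H r ≠ ⊥

variable {H N : Subgroup G}

theorem Setup.step2 (S : Setup H N) {q r : ℕ} (hq : q.Prime) (hr : r.Prime) (hqr : q ≠ r)
    (hOq : O H q ≠ ⊥) {u v : G} (hu : u ∈ N ⊓ O H r) (hv : v ∈ O N q) : u * v = v * u := by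
  haveI := Fact.mk hq
  haveI := Fact.mk hr
  have hQ : IsPGroup r (N ⊓ O H r : Subgroup G) := (O_isP H hr).to_le inf_le_right
  have hcard : (Nat.card ↥(N ⊓ O H r)).Coprime q := by
    obtain ⟨n, hn⟩ := IsPGroup.iff_card.mp hQ
    rw [hn]
    exact Nat.Coprime.pow_left n ((Nat.coprime_primes hr hq).mpr hqr.symm)
  have h := H01.thompson_PxQ q (Zs H q) (N ⊓ O H r) (O N q) (Zs_isP H hq) hcard (O_isP N hq)
    ?_ ?_ ?_ ?_
  · exact (Subgroup.mem_centralizer_iff.mp (h hu) v hv).symm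
  · intro z hz
    rw [Subgroup.mem_centralizer_iff]
    intro w hw
    exact Zs_comm_F H hq hz w (O_le_F H hr hw.2)
  · exact (S.hZN q hq).trans (O_norm N q)
  · exact inf_le_left.trans (O_norm N q)
  · rintro w ⟨hwU, hwC⟩
    rw [Subgroup.mem_centralizer_iff]
    intro y hy
    have hwH : w ∈ H := cent_Zs S.hs S.hH hq hOq hwC
    exact comm_elem hy.2 hwU (O_norm N q hy.1) (O_norm H r hwH) (O_disj H N hr hq hqr.symm)

theorem Setup.step3 (S : Setup H N) {q : ℕ} (hq : q.Prime) (hT : O N q ≠ ⊥) : O N q ≤ H := by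
  have hOq : O H q ≠ ⊥ := fun h => hT (S.hO1 q hq h)
  obtain ⟨r, hr, hrq, hOr⟩ := S.hother q
  intro v hv
  apply cent_Zs S.hs S.hH hr hOr
  rw [Subgroup.mem_centralizer_iff]
  intro z hz
  exact S.step2 hq hr hrq.symm hOq ⟨S.hZN r hr hz, hz.1⟩ hv

theorem Setup.step4 (S : Setup H N) {r : ℕ} (hr : r.Prime) (hOr : O H r ≠ ⊥) : O N r ≠ ⊥ := by
  intro hbot
  apply Zs_ne H hr hOr
  rw [eq_bot_iff]
  intro z hz
  have hzN := S.hZN r hr hz
  have hcomm : ∀ u ∈ fittingOf N, u * z = z * u := by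
    refine comm_F N z ?_
    intro p hp u hu
    by_cases hpr : p = r
    · subst hpr
      rw [hbot, Subgroup.mem_bot] at hu
      simp [hu]
    · by_cases hOp : O H p = ⊥
      · have h1 := S.hO1 p hp hOp
        rw [h1, Subgroup.mem_bot] at hu
        simp [hu]
      · exact (S.step2 hp hr hpr hOp ⟨hzN, hz.1⟩ hu).symm
  have hzF := cent_F N S.hsolN hzN hcomm
  obtain ⟨e, he⟩ := pow_of_mem (Zs_isP H hr) hz
  have h2 := mem_O_of_F N hr hzF e he
  rwa [hbot] at h2

theorem Setup.step5 (S : Setup H N) {q r : ℕ} (hq : q.Prime) (hr : r.Prime) (hqr : q ≠ r) {u v : G}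
    (hu : u ∈ O N q) (hv : v ∈ O H r) : u * v = v * u := by
  by_cases hOr : O H r = ⊥
  · rw [hOr, Subgroup.mem_bot] at hv
    simp [hv]
  by_cases hTq : O N q = ⊥
  · rw [hTq, Subgroup.mem_bot] at hu
    simp [hu]
  have hOq : O H q ≠ ⊥ := fun h => hTq (S.hO1 q hq h)
  have hTr := S.step4 hr hOr
  have hTqH := S.step3 hq hTq
  have hTrH := S.step3 hr hTr
  haveI := Fact.mk hr
  haveI := Fact.mk hq
  have hcard : (Nat.card ↥(O N q)).Coprime r := by
    obtain ⟨n, hn⟩ := IsPGroup.iff_card.mp (O_isP N hq)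
    rw [hn]
    exact Nat.Coprime.pow_left n ((Nat.coprime_primes hq hr).mpr hqr)
  have h := H01.thompson_PxQ r (O N r) (O N q) (O H r) (O_isP N hr) hcard (O_isP H hr) ?_ ?_ ?_ ?_
  · exact (Subgroup.mem_centralizer_iff.mp (h hu) v hv).symm
  · intro x hx
    rw [Subgroup.mem_centralizer_iff]
    intro y hy
    exact O_comm N hq hr hqr hy hx
  · exact hTrH.trans (O_norm H r)
  · exact hTqH.trans (O_norm H r)
  · rintro w ⟨hwU, hwC⟩
    rw [Subgroup.mem_centralizer_iff]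
    intro y hy
    have hwN : w ∈ N := cent_le S.hs S.hN hTr (O_le N r) (O_norm N r) hwC
    exact (S.step2 hq hr hqr hOq ⟨hwN, hwU⟩ hy).symm

/-- The `t'`-part of the Fitting subgroup. -/
def Fp (K : Subgroup G) (t : ℕ) : Subgroup G := ⨆ (p : Nat.Primes) (_ : (p : ℕ) ≠ t), O K p

theorem O_le_Fp (K : Subgroup G) {r t : ℕ} (hr : r.Prime) (hrt : r ≠ t) : O K r ≤ Fp K t :=
  le_iSup₂_of_le (f := fun (p : Nat.Primes) (_ : (p : ℕ) ≠ t) => O K p) ⟨r, hr⟩ hrt le_rfl

theorem Fp_le {K X : Subgroup G} {t : ℕ} (h : ∀ r : ℕ, r.Prime → r ≠ t → O K r ≤ X) : Fp K t ≤ X :=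
  iSup₂_le (fun p hp => h p p.2 hp)

theorem Fp_le_F (K : Subgroup G) (t : ℕ) : Fp K t ≤ fittingOf K :=
  Fp_le (fun _ hr _ => O_le_F K hr)

theorem Fp_norm (K : Subgroup G) (t : ℕ) : K ≤ Subgroup.normalizer (Fp K t : Set G) := by
  intro k hk
  apply S1395.mem_normalizer_of_map_conj
  unfold Fp
  simp only [Subgroup.map_iSup]
  exact iSup_congr fun p => iSup_congr fun hp => S1395.map_conj_of_mem_normalizer (O_norm K p hk)

theorem Fp_disj (K : Subgroup G) {t : ℕ} (ht : t.Prime) : Disjoint (O K t) (Fp K t) := by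
  haveI := Fact.mk ht
  have h1 : Fp K t ≤ (Cfsg.pPrimeCore t K).map K.subtype := by
    refine Fp_le ?_
    intro r hr hrt
    refine Subgroup.map_mono (le_sSup ⟨H01.pCore_normal r, ?_⟩)
    haveI := Fact.mk hr
    obtain ⟨n, hn⟩ := IsPGroup.iff_card.mp (H01.pCore_isPGroup r (G := K))
    rw [hn]
    exact Nat.Coprime.pow_left n ((Nat.coprime_primes hr ht).mpr hrt)
  have h2 : (Nat.card (O K t)).Coprime (Nat.card ((Cfsg.pPrimeCore t K).map K.subtype)) := by
    rw [Subgroup.card_map_of_injective K.subtype_injective]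
    obtain ⟨n, hn⟩ := IsPGroup.iff_card.mp (O_isP K ht)
    rw [hn]
    exact Nat.Coprime.pow_left n (H06.coprime_card_pPrimeCore t).symm
  exact (Subgroup.disjoint_of_coprime_natCard h2).mono_right h1

theorem O_Fp_comm (K : Subgroup G) {t : ℕ} (ht : t.Prime) {a b : G} (ha : a ∈ O K t)
    (hb : b ∈ Fp K t) : a * b = b * a := by
  have h1 : Fp K t ≤ Subgroup.centralizer (O K t : Set G) := by
    refine Fp_le ?_
    intro r hr hrt y hy
    rw [Subgroup.mem_centralizer_iff]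
    intro w hw
    exact O_comm K ht hr hrt.symm hw hy
  exact Subgroup.mem_centralizer_iff.mp (h1 hb) a ha

theorem split_F (K : Subgroup G) {t : ℕ} (ht : t.Prime) {w : G} (hw : w ∈ fittingOf K) :
    ∃ a ∈ O K t, ∃ b ∈ Fp K t, w = a * b := by
  rw [F_iSup] at hw
  refine Subgroup.iSup_induction (fun p : Nat.Primes => O K p)
    (C := fun w => ∃ a ∈ O K t, ∃ b ∈ Fp K t, w = a * b) hw ?_
    ⟨1, one_mem _, 1, one_mem _, by simp⟩ ?_
  · rintro ⟨p, hp⟩ x hx
    by_cases hpt : p = t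
    · subst hpt
      exact ⟨x, hx, 1, one_mem _, by simp⟩
    · exact ⟨1, one_mem _, x, O_le_Fp K hp hpt hx, by simp⟩
  · rintro x y ⟨a, ha, b, hb, rfl⟩ ⟨a', ha', b', hb', rfl⟩
    refine ⟨a * a', mul_mem ha ha', b * b', mul_mem hb hb', ?_⟩
    have h1 := O_Fp_comm K ht ha' hb
    calc a * b * (a' * b') = a * (b * a') * b' := by simp only [mul_assoc]
      _ = a * (a' * b) * b' := by rw [h1]
      _ = a * a' * (b * b') := by simp only [mul_assoc]

/-- `C_G(O_{t'}(F(K)))`. -/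
def CC (K : Subgroup G) (t : ℕ) : Subgroup G := Subgroup.centralizer (Fp K t : Set G)

theorem CC_norm (K : Subgroup G) (t : ℕ) : K ≤ Subgroup.normalizer (CC K t : Set G) :=
  (Fp_norm K t).trans (H01.normalizer_le_normalizer_centralizer _)

theorem CC_le (hs : IsSimpleGroup G) {K : Subgroup G} (hK : IsCoatom K) {r t : ℕ} (hr : r.Prime)
    (hrt : r ≠ t) (h : O K r ≠ ⊥) : CC K t ≤ K := by
  refine le_trans ?_ (cent_le hs hK h (O_le K r) (O_norm K r))
  exact Subgroup.centralizer_le (O_le_Fp K hr hrt)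

/-- The data for the last step. -/
structure Sym (H N : Subgroup G) : Prop where
  hs : IsSimpleGroup G
  hH : IsCoatom H
  hN : IsCoatom N
  hsolH : Group.IsSolvable H
  hpi : ∀ r : ℕ, r.Prime → (O H r ≠ ⊥ ↔ O N r ≠ ⊥)
  hother : ∀ q : ℕ, ∃ r : ℕ, r.Prime ∧ r ≠ q ∧ O H r ≠ ⊥
  hsym : ∀ q r : ℕ, q.Prime → r.Prime → q ≠ r → ∀ u ∈ O N q, ∀ v ∈ O H r, u * v = v * u

theorem Sym.O_le_CC (S : Sym H N) {s : ℕ} (hs : s.Prime) : O N s ≤ CC H s := by
  refine Subgroup.le_centralizer_iff.mp ?_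
  refine Fp_le ?_
  intro r hr hrs v hv
  rw [Subgroup.mem_centralizer_iff]
  intro u hu
  exact S.hsym s r hs hr hrs.symm u hu v hv

theorem Sym.key (S : Sym H N) {s t : ℕ} (hsp : s.Prime) (ht : t.Prime) (hst : s ≠ t)
    (hOs : O H s ≠ ⊥) (hOt : O H t ≠ ⊥) {x y : G} (hx : x ∈ CC H s)
    (hxc : (orderOf x).Coprime t) (hy : y ∈ O N t) : x * y = y * x := by
  have hxH : x ∈ H := CC_le S.hs S.hH ht hst.symm hOt hx
  have hy' : y ∈ CC H t := S.O_le_CC ht hy
  have hyH : y ∈ H := CC_le S.hs S.hH hsp hst hOs hy'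
  set z : G := y⁻¹ * (x⁻¹ * y * x) with hz
  have hzt : z ∈ CC H t := by
    refine (CC H t).mul_mem ((CC H t).inv_mem hy') ?_
    have h1 := (Subgroup.mem_normalizer_iff.mp (CC_norm H t (H.inv_mem hxH)) y).mp hy'
    simpa using h1
  have hzs : z ∈ CC H s := by
    have h0 : z = (y⁻¹ * x⁻¹ * y) * x := by rw [hz]; group
    rw [h0]
    refine (CC H s).mul_mem ?_ hx
    have h1 := (Subgroup.mem_normalizer_iff.mp (CC_norm H s (H.inv_mem hyH)) x⁻¹).mp
      ((CC H s).inv_mem hx)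
    simpa using h1
  have hzH : z ∈ H := CC_le S.hs S.hH ht hst.symm hOt hzs
  have hcomm : ∀ u ∈ fittingOf H, u * z = z * u := by
    refine comm_F H z ?_
    intro p hp u hu
    by_cases hps : p = s
    · subst hps
      exact Subgroup.mem_centralizer_iff.mp hzt u (O_le_Fp H hp hst hu)
    · exact Subgroup.mem_centralizer_iff.mp hzs u (O_le_Fp H hp hps hu)
  have hzF := cent_F H S.hsolH hzH hcomm
  obtain ⟨a, ha, b, hb, hab⟩ := split_F H ht hzF
  have habc : a * b = b * a := O_Fp_comm H ht ha hb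
  have hxa : x * a = a * x :=
    (Subgroup.mem_centralizer_iff.mp hx a (O_le_Fp H ht hst.symm ha)).symm
  have hyb : y * b = b * y := (Subgroup.mem_centralizer_iff.mp hy' b hb).symm
  have hphi : x⁻¹ * y * x = y * (a * b) := by
    rw [← hab, hz]
    group
  have hit : ∀ n : ℕ, ∃ c ∈ Fp H t, (x⁻¹) ^ n * y * x ^ n = y * a ^ n * c := by
    intro n
    induction n with
    | zero => exact ⟨1, one_mem _, by simp⟩
    | succ n ih =>
      obtain ⟨c, hc, hce⟩ := ih
      refine ⟨b * (x⁻¹ * c * x), (Fp H t).mul_mem hb ?_, ?_⟩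
      · have h1 := (Subgroup.mem_normalizer_iff.mp (Fp_norm H t (H.inv_mem hxH)) c).mp hc
        simpa using h1
      · have hxa' : x⁻¹ * a ^ n * x = a ^ n := by
          have h2 : Commute x (a ^ n) := Commute.pow_right hxa n
          rw [mul_assoc, ← h2.eq, inv_mul_cancel_left]
        have hban : b * a ^ n = a ^ n * b :=
          (Commute.pow_right (show Commute b a from habc.symm) n).eq
        calc (x⁻¹) ^ (n + 1) * y * x ^ (n + 1)
            = x⁻¹ * ((x⁻¹) ^ n * y * x ^ n) * x := by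
              rw [pow_succ' x⁻¹, pow_succ x]
              simp only [mul_assoc]
          _ = x⁻¹ * (y * a ^ n * c) * x := by rw [hce]
          _ = (x⁻¹ * y * x) * (x⁻¹ * a ^ n * x) * (x⁻¹ * c * x) := by
              simp only [mul_assoc, mul_inv_cancel_left]
          _ = (y * (a * b)) * a ^ n * (x⁻¹ * c * x) := by rw [hphi, hxa']
          _ = y * a * (b * a ^ n) * (x⁻¹ * c * x) := by simp only [mul_assoc]
          _ = y * a * (a ^ n * b) * (x⁻¹ * c * x) := by rw [hban]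
          _ = y * a ^ (n + 1) * (b * (x⁻¹ * c * x)) := by
              rw [pow_succ' a]
              simp only [mul_assoc]
  obtain ⟨c, hc, hce⟩ := hit (orderOf x)
  have hxn : x ^ orderOf x = 1 := pow_orderOf_eq_one x
  have hxn' : (x⁻¹) ^ orderOf x = 1 := by rw [inv_pow, hxn, inv_one]
  rw [hxn, hxn', one_mul, mul_one] at hce
  have h1 : a ^ orderOf x * c = 1 := by
    have h2 : y * (a ^ orderOf x * c) = y * 1 := by
      rw [mul_one, ← mul_assoc]
      exact hce.symm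
    exact mul_left_cancel h2
  have h2 : a ^ orderOf x = 1 := by
    have h3 : a ^ orderOf x = c⁻¹ := eq_inv_of_mul_eq_one_left h1
    have h4 : a ^ orderOf x ∈ Fp H t := h3 ▸ (Fp H t).inv_mem hc
    exact Subgroup.disjoint_def.mp (Fp_disj H ht) ((O H t).pow_mem ha _) h4
  obtain ⟨e, he⟩ := pow_of_mem (O_isP H ht) ha
  have ha1 : a = 1 :=
    (pow_eq_one_iff_of_coprime (Nat.Coprime.pow_right e hxc)).mp ⟨h2, he⟩
  have hphi' : x⁻¹ * y * x = y * b := by rw [hphi, ha1, one_mul]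
  obtain ⟨e', he'⟩ := pow_of_mem (O_isP N ht) hy
  have hbk : b ^ (t ^ e') = 1 := by
    have h3 : (x⁻¹ * y * x) ^ (t ^ e') = 1 := by
      have h4 : x⁻¹ * y * x = x⁻¹ * y * (x⁻¹)⁻¹ := by simp
      rw [h4, conj_pow, he']
      simp
    rw [hphi', (show Commute y b from hyb).mul_pow, he', one_mul] at h3
    exact h3
  have hbO := mem_O_of_F H ht (Fp_le_F H t hb) e' hbk
  have hb1 : b = 1 := Subgroup.disjoint_def.mp (Fp_disj H ht) hbO hb
  have hfin : x⁻¹ * y * x = y := by rw [hphi', hb1, mul_one]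
  have h5 := congrArg (x * ·) hfin
  simp only [mul_assoc, mul_inv_cancel_left] at h5
  exact h5.symm

theorem Sym.O_le_F (S : Sym H N) {s : ℕ} (hsp : s.Prime) (hTs : O N s ≠ ⊥) : O N s ≤ fittingOf H := by
  obtain ⟨t, ht, hts, hOt⟩ := S.hother s
  have hOs : O H s ≠ ⊥ := (S.hpi s hsp).mpr hTs
  have hTt : O N t ≠ ⊥ := (S.hpi t ht).mp hOt
  haveI := Fact.mk hsp
  have hCCH : CC H s ≤ H := CC_le S.hs S.hH ht hts hOt
  have hconj : ∀ h ∈ H, ∀ u ∈ O N s, h * u * h⁻¹ ∈ N := by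
    intro h hh u hu
    have h1 : h * u * h⁻¹ ∈ CC H s :=
      (Subgroup.mem_normalizer_iff.mp (CC_norm H s hh) u).mp (S.O_le_CC hsp hu)
    obtain ⟨e, he⟩ := pow_of_mem (O_isP N hsp) hu
    have h2 : (h * u * h⁻¹) ^ (s ^ e) = 1 := by
      rw [conj_pow, he]
      simp
    have h3 : (orderOf (h * u * h⁻¹)).Coprime t :=
      Nat.Coprime.coprime_dvd_left (orderOf_dvd_of_pow_eq_one h2)
        (Nat.Coprime.pow_left e ((Nat.coprime_primes hsp ht).mpr hts.symm))
    apply cent_le S.hs S.hN hTt (O_le N t) (O_norm N t)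
    rw [Subgroup.mem_centralizer_iff]
    intro y hy
    exact (S.key hsp ht hts.symm hOs hOt h1 h3 hy).symm
  let A : Subgroup H := (O N s).subgroupOf H
  let Y : Subgroup H := Subgroup.normalClosure (A : Set H)
  have hAY : A ≤ Y := Subgroup.subset_normalClosure
  have hYN : ∀ y ∈ Y, ((y : H) : G) ∈ N := by
    intro y hy
    have h1 : Y ≤ N.subgroupOf H := by
      refine (Subgroup.closure_le _).mpr ?_
      intro w hw
      obtain ⟨a, ha, hc⟩ := Group.mem_conjugatesOfSet_iff.mp hw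
      obtain ⟨c, rfl⟩ := isConj_iff.mp hc
      have ha' : ((a : H) : G) ∈ O N s := ha
      exact hconj c c.2 _ ha'
    exact h1 hy
  have hAn : (A.subgroupOf Y).Normal := by
    refine ⟨fun n hn g => ?_⟩
    have hn' : (((n : Y) : H) : G) ∈ O N s := hn
    have h1 := (Subgroup.mem_normalizer_iff.mp (O_norm N s (hYN g g.2)) _).mp hn'
    exact h1
  have hsub : A.IsSubnormal :=
    Subgroup.IsSubnormal.step A Y hAY (Subgroup.Normal.isSubnormal inferInstance) hAn
  have hnil : Group.IsNilpotent A :=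
    ((O_isP N hsp).comap_of_injective H.subtype H.subtype_injective).isNilpotent
  have hle := H05.sn_nil_le_fitting hsub hnil
  intro u hu
  have huH : u ∈ H := hCCH (S.O_le_CC hsp hu)
  have h1 : (⟨u, huH⟩ : H) ∈ A := hu
  exact ⟨⟨u, huH⟩, hle h1, rfl⟩

theorem Sym.F_le (S : Sym H N) : fittingOf N ≤ fittingOf H := by
  rw [F_iSup N]
  refine iSup_le ?_
  rintro ⟨p, hp⟩
  by_cases h : O N p = ⊥
  · show O N p ≤ _
    rw [h]
    exact bot_le
  · exact S.O_le_F hp h

/-- Let G be a minimal simple group of odd order, and let H be a maximal subgroup whose Fitting subgroup has at least two prime divisors. If M ≤ F(H) contains Z(F(H)) and M has no nontrivial invariant subgroup of order coprime to |F(H)|, then H is the only maximal subgroup containing M. -/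
theorem result {G : Type*} [Group G] [Finite G] (hG : Cfsg.IsMinSimpleOddOrder G) (H : Subgroup G) (hH : IsCoatom H) (hF2 : 2 ≤ (Nat.card (Cfsg.fittingOf H)).primeFactors.card) (M : Subgroup G) (hM : M ≤ Cfsg.fittingOf H) (hZM : Cfsg.fittingOf H ⊓ Subgroup.centralizer (Cfsg.fittingOf H : Set G) ≤ M) (hinv : ∀ Y ∈ Cfsg.invSubgroups ⊤ M (Cfsg.primesNotDvd (Nat.card (Cfsg.fittingOf H))), Y = ⊥) : ∀ L : Subgroup G, IsCoatom L → M ≤ L → L = H := by
  intro L hL hML
  have hs : IsSimpleGroup G := hG.2.1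
  have hsolH : Group.IsSolvable H := hG.2.2.2 H hH.1
  have hsolL : Group.IsSolvable L := hG.2.2.2 L hL.1
  have hdvd : ∀ r : ℕ, r.Prime → r ∣ Nat.card (fittingOf H) → O H r ≠ ⊥ := by
    intro r hr hd hbot
    haveI := Fact.mk hr
    obtain ⟨g, hg⟩ := exists_prime_orderOf_dvd_card' r hd
    have h1 : ((g : fittingOf H) : G) ^ (r ^ 1) = 1 := by
      have h2 : g ^ r = 1 := by rw [← hg]; exact pow_orderOf_eq_one g
      rw [pow_one]
      simpa using congrArg Subtype.val h2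
    have h3 := mem_O_of_F H hr g.2 1 h1
    rw [hbot, Subgroup.mem_bot] at h3
    have h4 : g = 1 := Subtype.ext h3
    rw [h4, orderOf_one] at hg
    exact hr.one_lt.ne hg
  have hother : ∀ q : ℕ, ∃ r : ℕ, r.Prime ∧ r ≠ q ∧ O H r ≠ ⊥ := by
    intro q
    obtain ⟨a, ha, b, hb, hab⟩ := Finset.one_lt_card.mp hF2
    have ha' := Nat.mem_primeFactors.mp ha
    have hb' := Nat.mem_primeFactors.mp hb
    by_cases haq : a = q
    · refine ⟨b, hb'.1, ?_, hdvd b hb'.1 hb'.2.1⟩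
      rw [← haq]
      exact hab.symm
    · exact ⟨a, ha'.1, haq, hdvd a ha'.1 ha'.2.1⟩
  have hZN : ∀ q : ℕ, q.Prime → Zs H q ≤ L := by
    intro q hq z hz
    apply hML
    apply hZM
    refine Subgroup.mem_inf.mpr ⟨O_le_F H hq hz.1, ?_⟩
    rw [Subgroup.mem_centralizer_iff]
    exact Zs_comm_F H hq hz
  have hO1 : ∀ q : ℕ, q.Prime → O H q = ⊥ → O L q = ⊥ := by
    intro q hq hbot
    haveI := Fact.mk hq
    apply hinv
    refine ⟨le_top, ?_, hML.trans (O_norm L q)⟩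
    intro p hp hpd
    obtain ⟨n, hn⟩ := IsPGroup.iff_card.mp (O_isP L hq)
    rw [hn] at hpd
    have hpq : p = q := (Nat.prime_dvd_prime_iff_eq hp hq).mp (hp.dvd_of_dvd_pow hpd)
    subst hpq
    exact ⟨hp, fun hd => hdvd p hp hd hbot⟩
  have S : Setup H L := ⟨hs, hH, hL, hsolL, hZN, hO1, hother⟩
  have hpi : ∀ r : ℕ, r.Prime → (O H r ≠ ⊥ ↔ O L r ≠ ⊥) :=
    fun r hr => ⟨fun h => S.step4 hr h, fun h h' => h (hO1 r hr h')⟩
  have S1 : Sym H L := ⟨hs, hH, hL, hsolH, hpi, hother, fun q r hq hr hqr u hu v hv =>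
    S.step5 hq hr hqr hu hv⟩
  have S2 : Sym L H := ⟨hs, hL, hH, hsolL, fun r hr => (hpi r hr).symm, fun q => by
      obtain ⟨r, hr, hrq, hOr⟩ := hother q
      exact ⟨r, hr, hrq, S.step4 hr hOr⟩, fun q r hq hr hqr u hu v hv =>
    (S.step5 hr hq hqr.symm hv hu).symm⟩
  have hFF : fittingOf L = fittingOf H := le_antisymm S1.F_le S2.F_le
  obtain ⟨r, hr, -, hOr⟩ := hother 0
  have hFne : fittingOf H ≠ ⊥ := by
    intro h
    apply hOr
    rw [eq_bot_iff, ← h]
    exact O_le_F H hr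
  have h1 := norm_eq hs hH hFne (F_le H) (F_norm H)
  have h2 := norm_eq hs hL (hFF ▸ hFne) (F_le L) (F_norm L)
  rw [hFF] at h2
  exact h2.symm.trans h1

end Cfsg.Agent.S1482
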