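import Cfsg.Statements.S1481
import Cfsg.Agent.S1482
import Cfsg.Agent.S1392
import Cfsg.Agent.S1395
import Cfsg.Agent.Lib.H01.Coprime3
import Cfsg.Agent.Lib.H01.Coprime4
import Cfsg.Agent.Lib.H12.Core
import Cfsg.Agent.Lib.H08.PiCore
import Mathlib

set_option autoImplicit false
set_option linter.style.haveILetI false
set_option linter.unusedVariables false
set_option linter.unusedSectionVars false
set_option linter.unusedSimpArgs false
open Cfsg
open scoped commutatorElement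

namespace Cfsg.Agent.S1481

open Cfsg.Agent.S1482

variable {G : Type*} [Group G] [Finite G]

/-- The standing data. -/
structure Ctx (H M R : Subgroup G) : Prop where
  hmax : ∀ (p : ℕ) (T : Subgroup G), p.Prime → IsPGroup p T → T ≠ ⊥ →
    H ≤ Subgroup.normalizer (T : Set G) → Subgroup.normalizer (T : Set G) = H
  hM : M ≤ fittingOf H
  hCM : fittingOf H ⊓ Subgroup.centralizer (M : Set G) ≤ M
  hMR : M ≤ Subgroup.normalizer (R : Set G)
  hXR : H ⊓ Subgroup.centralizer (fittingOf H : Set G) ≤ Subgroup.normalizer (R : Set G)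
  hsolv : Group.IsSolvable R
  hother : ∀ q : ℕ, ∃ r : ℕ, r.Prime ∧ r ≠ q ∧ O H r ≠ ⊥

variable {H M R : Subgroup G}

theorem O_ne_of_dvd (H : Subgroup G) {r : ℕ} (hr : r.Prime) (hd : r ∣ Nat.card (fittingOf H)) :
    O H r ≠ ⊥ := by
  intro hbot
  haveI := Fact.mk hr
  obtain ⟨g, hg⟩ := exists_prime_orderOf_dvd_card' r hd
  have h1 : ((g : fittingOf H) : G) ^ (r ^ 1) = 1 := by
    have h2 : g ^ r = 1 := by rw [← hg]; exact pow_orderOf_eq_one g
    rw [pow_one]
    simpa using congrArg Subtype.val h2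
  have h3 := mem_O_of_F H hr g.2 1 h1
  rw [hbot, Subgroup.mem_bot] at h3
  have h4 : g = 1 := Subtype.ext h3
  rw [h4, orderOf_one] at hg
  exact hr.one_lt.ne hg

theorem dvd_of_O_ne (H : Subgroup G) {r : ℕ} (hr : r.Prime) (h : O H r ≠ ⊥) :
    r ∣ Nat.card (fittingOf H) := by
  haveI := Fact.mk hr
  obtain ⟨n, hn⟩ := IsPGroup.iff_card.mp (O_isP H hr)
  have h1 : Nat.card (O H r) ≠ 1 := fun h1 => h (Subgroup.eq_bot_of_card_eq _ h1)
  have hn0 : n ≠ 0 := by
    rintro rfl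
    exact h1 (by simpa using hn)
  have h2 : r ∣ Nat.card (O H r) := by
    rw [hn]
    exact dvd_pow_self r hn0
  exact h2.trans (Subgroup.card_dvd_of_le (O_le_F H hr))

theorem Ctx.Zs_le_M (c : Ctx H M R) {r : ℕ} (hr : r.Prime) : Zs H r ≤ M := by
  intro z hz
  apply c.hCM
  refine Subgroup.mem_inf.mpr ⟨O_le_F H hr hz.1, ?_⟩
  rw [Subgroup.mem_centralizer_iff]
  intro m hm
  exact Zs_comm_F H hr hz m (c.hM hm)

theorem Ctx.norm_Zs (c : Ctx H M R) {r : ℕ} (hr : r.Prime) (hO : O H r ≠ ⊥) :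
    Subgroup.normalizer (Zs H r : Set G) = H :=
  c.hmax r _ hr (Zs_isP H hr) (Zs_ne H hr hO) (Zs_norm H r)

theorem Ctx.cent_Zs' (c : Ctx H M R) {r : ℕ} (hr : r.Prime) (hO : O H r ≠ ⊥) :
    Subgroup.centralizer (Zs H r : Set G) ≤ H :=
  (Subgroup.centralizer_le_normalizer _).trans (c.norm_Zs hr hO).le

theorem Fp_order (K : Subgroup G) {t : ℕ} (ht : t.Prime) {b : G} (hb : b ∈ Fp K t) :
    (orderOf b).Coprime t := by
  haveI := Fact.mk ht
  have h1 : Fp K t ≤ (Cfsg.pPrimeCore t K).map K.subtype := by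
    refine Fp_le ?_
    intro r hr hrt
    refine Subgroup.map_mono (le_sSup ⟨H01.pCore_normal r, ?_⟩)
    haveI := Fact.mk hr
    obtain ⟨n, hn⟩ := IsPGroup.iff_card.mp (H01.pCore_isPGroup r (G := K))
    rw [hn]
    exact Nat.Coprime.pow_left n ((Nat.coprime_primes hr ht).mpr hrt)
  have h2 : (Nat.card ↥((Cfsg.pPrimeCore t K).map K.subtype)).Coprime t := by
    rw [Subgroup.card_map_of_injective K.subtype_injective]
    exact H06.coprime_card_pPrimeCore t
  exact Nat.Coprime.coprime_dvd_left (Subgroup.orderOf_dvd_natCard _ (h1 hb)) h2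

theorem exists_pow_part {a b : G} (hab : Commute a b) (hc : (orderOf a).Coprime (orderOf b)) :
    ∃ k : ℕ, (a * b) ^ k = a := by
  obtain ⟨k, hk1, hk2⟩ := Nat.chineseRemainder hc 1 0
  refine ⟨k, ?_⟩
  rw [hab.mul_pow]
  have h1 : a ^ k = a ^ 1 := pow_eq_pow_iff_modEq.mpr hk1
  have h2 : b ^ k = b ^ 0 := pow_eq_pow_iff_modEq.mpr hk2
  rw [h1, h2]
  simp

theorem comm_M_of_comm_part (H M : Subgroup G) {p : ℕ} (hp : p.Prime) {v : G} (hv : v ∈ O H p)
    (hM : M ≤ fittingOf H)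
    (hvC : v ∈ Subgroup.centralizer ((M ⊓ O H p : Subgroup G) : Set G)) :
    ∀ m ∈ M, m * v = v * m := by
  intro m hm
  obtain ⟨a, ha, b, hb, hab⟩ := split_F H hp (hM hm)
  have hc := O_Fp_comm H hp ha hb
  obtain ⟨e, he⟩ := pow_of_mem (O_isP H hp) ha
  have hcop : (orderOf a).Coprime (orderOf b) := by
    obtain ⟨l, -, hl⟩ := (Nat.dvd_prime_pow hp).mp (orderOf_dvd_of_pow_eq_one he)
    rw [hl]
    exact Nat.Coprime.pow_left l (Fp_order H hp hb).symm
  obtain ⟨k, hk⟩ := exists_pow_part (show Commute a b from hc) hcop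
  have haM : a ∈ M := by
    rw [← hk, ← hab]
    exact M.pow_mem hm k
  have h1 : a * v = v * a := Subgroup.mem_centralizer_iff.mp hvC a (Subgroup.mem_inf.mpr ⟨haM, ha⟩)
  have h2 : v * b = b * v := O_Fp_comm H hp hv hb
  rw [hab]
  calc a * b * v = a * (b * v) := mul_assoc ..
    _ = a * (v * b) := by rw [h2]
    _ = (a * v) * b := (mul_assoc ..).symm
    _ = v * a * b := by rw [h1]
    _ = v * (a * b) := mul_assoc ..

theorem Ctx.cent_F_of_inv (c : Ctx H M R) {B : Subgroup G} (hBH : B ≤ H)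
    (hB : (Nat.card B).Coprime (Nat.card (fittingOf H)))
    (hMB : M ≤ Subgroup.normalizer (B : Set G)) :
    ∀ b ∈ B, ∀ u ∈ fittingOf H, u * b = b * u := by
  have hd : Disjoint (fittingOf H) B := Subgroup.disjoint_of_coprime_natCard hB.symm
  have hBM : ∀ b ∈ B, ∀ m ∈ M, m * b = b * m := fun b hb m hm =>
    comm_elem (c.hM hm) hb (hMB hm) (F_norm H (hBH hb)) hd
  intro b hb
  refine comm_F H b ?_
  intro p hp u hu
  by_cases hO : O H p = ⊥
  · rw [hO, Subgroup.mem_bot] at hu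
    simp [hu]
  haveI := Fact.mk hp
  have hdv := dvd_of_O_ne H hp hO
  have hcard : (Nat.card B).Coprime p := Nat.Coprime.coprime_dvd_right hdv hB
  have h := H01.thompson_PxQ p (M ⊓ O H p) B (O H p) ((O_isP H hp).to_le inf_le_right) hcard
    (O_isP H hp) ?_ ?_ ?_ ?_
  · exact Subgroup.mem_centralizer_iff.mp (h hb) u hu
  · intro x hx
    rw [Subgroup.mem_centralizer_iff]
    intro w hw
    exact (hBM w hw x hx.1).symm
  · exact inf_le_right.trans ((O_le H p).trans (O_norm H p))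
  · exact hBH.trans (O_norm H p)
  · rintro v ⟨hvU, hvC⟩
    have hvM : v ∈ M := c.hCM (Subgroup.mem_inf.mpr ⟨O_le_F H hp hvU,
      Subgroup.mem_centralizer_iff.mpr (comm_M_of_comm_part H M hp hvU c.hM hvC)⟩)
    rw [Subgroup.mem_centralizer_iff]
    intro w hw
    exact (hBM w hw v hvM).symm

theorem le_F_of_chain {H X Y A : Subgroup G} (hAY : A ≤ Y) (hYX : Y ≤ X) (hXH : X ≤ H)
    (h1 : Y ≤ Subgroup.normalizer (A : Set G)) (h2 : X ≤ Subgroup.normalizer (Y : Set G))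
    (h3 : H ≤ Subgroup.normalizer (X : Set G)) (hnil : Group.IsNilpotent A) :
    A ≤ fittingOf H := by
  have hA₀ : A ≤ H := hAY.trans (hYX.trans hXH)
  have n3 : (X.subgroupOf H).Normal :=
    ⟨fun n hn g => (Subgroup.mem_normalizer_iff.mp (h3 g.2) _).mp hn⟩
  have n2 : ((Y.subgroupOf H).subgroupOf (X.subgroupOf H)).Normal :=
    ⟨fun n hn g => (Subgroup.mem_normalizer_iff.mp (h2 g.2) _).mp hn⟩
  have n1 : ((A.subgroupOf H).subgroupOf (Y.subgroupOf H)).Normal :=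
    ⟨fun n hn g => (Subgroup.mem_normalizer_iff.mp (h1 g.2) _).mp hn⟩
  have s3 : (X.subgroupOf H).IsSubnormal := Subgroup.Normal.isSubnormal n3
  have s2 : (Y.subgroupOf H).IsSubnormal :=
    Subgroup.IsSubnormal.step _ (X.subgroupOf H) (fun x hx => hYX hx) s3 n2
  have s1 : (A.subgroupOf H).IsSubnormal :=
    Subgroup.IsSubnormal.step _ (Y.subgroupOf H) (fun x hx => hAY hx) s2 n1
  have hn : Group.IsNilpotent (A.subgroupOf H) :=
    Group.isNilpotent_congr (Subgroup.subgroupOfEquivOfLe hA₀).symm |>.mp hnil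
  have hle := H05.sn_nil_le_fitting s1 hn
  intro u hu
  exact ⟨⟨u, hA₀ hu⟩, hle hu, rfl⟩

theorem Ctx.XR_le_F (c : Ctx H M R) :
    (H ⊓ Subgroup.centralizer (fittingOf H : Set G)) ⊓ R ≤ fittingOf H := by
  set X := H ⊓ Subgroup.centralizer (fittingOf H : Set G) with hX
  set Y := X ⊓ R with hY
  have h3 : H ≤ Subgroup.normalizer (X : Set G) :=
    inf_norm Subgroup.le_normalizer
      ((F_norm H).trans (H01.normalizer_le_normalizer_centralizer _))
  have h2 : X ≤ Subgroup.normalizer (Y : Set G) := inf_norm Subgroup.le_normalizer c.hXR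
  haveI := c.hsolv
  have hsol : Group.IsSolvable Y :=
    solvable_of_solvable_injective (Subgroup.inclusion_injective (inf_le_right : Y ≤ R))
  have h1 : Y ≤ Subgroup.normalizer (fittingOf Y : Set G) := F_norm Y
  have hnil : Group.IsNilpotent (fittingOf Y) :=
    Group.isNilpotent_congr ((fittingSubgroup Y).equivMapOfInjective _ Y.subtype_injective) |>.mp
      H01.fitting_nilpotent
  have hFY : fittingOf Y ≤ fittingOf H :=
    le_F_of_chain (F_le Y) inf_le_left inf_le_left h1 h2 h3 hnil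
  intro y hy
  apply hFY
  apply cent_F Y hsol hy
  intro u hu
  exact Subgroup.mem_centralizer_iff.mp hy.1.2 u (hFY hu)

theorem Ctx.cent_triv (c : Ctx H M R) {Y : Subgroup G} (hYR : Y ≤ R)
    (hc : (Nat.card Y).Coprime (Nat.card (fittingOf H)))
    (hMY : M ≤ Subgroup.normalizer (Y : Set G)) {s : ℕ} (hs : s.Prime) (hO : O H s ≠ ⊥) :
    Y ⊓ Subgroup.centralizer (Zs H s : Set G) = ⊥ := by
  set B := Y ⊓ Subgroup.centralizer (Zs H s : Set G) with hB
  have hBH : B ≤ H := inf_le_right.trans (c.cent_Zs' hs hO)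
  have hBc : (Nat.card B).Coprime (Nat.card (fittingOf H)) :=
    Nat.Coprime.coprime_dvd_left (Subgroup.card_dvd_of_le inf_le_left) hc
  have hMC : M ≤ Subgroup.centralizer (Zs H s : Set G) := by
    intro m hm
    rw [Subgroup.mem_centralizer_iff]
    intro z hz
    exact (Zs_comm_F H hs hz m (c.hM hm)).symm
  have hMB : M ≤ Subgroup.normalizer (B : Set G) :=
    inf_norm hMY (hMC.trans Subgroup.le_normalizer)
  have hcen := c.cent_F_of_inv hBH hBc hMB
  rw [eq_bot_iff]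
  intro b hb
  have hbF : b ∈ fittingOf H := c.XR_le_F (Subgroup.mem_inf.mpr ⟨Subgroup.mem_inf.mpr ⟨hBH hb,
    Subgroup.mem_centralizer_iff.mpr (fun u hu => hcen b hb u hu)⟩, hYR hb.1⟩)
  exact Subgroup.mem_bot.mpr
    (Subgroup.disjoint_def.mp (Subgroup.disjoint_of_coprime_natCard hBc) hb hbF)

theorem Ctx.core (c : Ctx H M R) {Γ : Type*} [Group Γ] [Finite Γ] {N : Subgroup G}
    (hNe : N = Subgroup.normalizer (R : Set G))
    (f : ↥N →* Γ) (hsurj : Function.Surjective f)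
    (hker : ∀ g, f g = 1 ↔ (g : G) ∈ piCoreOf (primesNotDvd (Nat.card (fittingOf H))) R)
    {q : ℕ} (hq : q.Prime) (hqF : ¬ q ∣ Nat.card (fittingOf H)) {Q : Subgroup G} (hQR : Q ≤ R)
    (hQp : IsPGroup q Q) (hMQ : M ≤ Subgroup.normalizer (Q : Set G)) :
    Q ≤ piCoreOf (primesNotDvd (Nat.card (fittingOf H))) R := by
  set K := piCoreOf (primesNotDvd (Nat.card (fittingOf H))) R with hK
  have hRN : R ≤ N := by rw [hNe]; exact Subgroup.le_normalizer
  have hKR : K ≤ R := S1392.piCoreOf_le _ R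
  have hNK : N ≤ Subgroup.normalizer (K : Set G) := by
    rw [hNe]
    exact fun g hg => S1395.norm_core _ hg
  have hMN : M ≤ N := by rw [hNe]; exact c.hMR
  have hZM : ∀ r : ℕ, r.Prime → Zs H r ≤ M := fun r hr => c.Zs_le_M hr
  have hZN : ∀ r : ℕ, r.Prime → Zs H r ≤ N := fun r hr => (hZM r hr).trans hMN
  haveI hRs := c.hsolv
  let Rh : Subgroup Γ := (R.subgroupOf N).map f
  have hRn : (R.subgroupOf N).Normal := by
    have h0 : N ≤ Subgroup.normalizer (R : Set G) := hNe.le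
    exact ⟨fun n hn g => (Subgroup.mem_normalizer_iff.mp (h0 g.2) _).mp hn⟩
  haveI hRhn : Rh.Normal := hRn.map f hsurj
  have hRhsol : Group.IsSolvable Rh := by
    haveI : Group.IsSolvable (R.subgroupOf N) :=
      solvable_of_solvable_injective (f := (Subgroup.subgroupOfEquivOfLe hRN).toMonoidHom)
        (Subgroup.subgroupOfEquivOfLe hRN).injective
    exact solvable_of_surjective (f.subgroupMap_surjective (R.subgroupOf N))
  have hZhP : ∀ r : ℕ, r.Prime → IsPGroup r (((Zs H r).subgroupOf N).map f) := fun r hr =>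
    ((Zs_isP H hr).comap_of_injective N.subtype N.subtype_injective).map f
  have hcopZK : ∀ r : ℕ, r.Prime → O H r ≠ ⊥ → (Nat.card (Zs H r)).Coprime (Nat.card K) := by
    intro r hr hO
    haveI := Fact.mk hr
    obtain ⟨n, hn⟩ := IsPGroup.iff_card.mp (Zs_isP H hr)
    rw [hn]
    refine Nat.Coprime.pow_left n ((Nat.Prime.coprime_iff_not_dvd hr).mpr ?_)
    intro hd
    exact (S1392.piCoreOf_pi _ R r hr hd).2 (dvd_of_O_ne H hr hO)
  have hZsol : ∀ r : ℕ, r.Prime → Group.IsSolvable (Zs H r) := by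
    intro r hr
    haveI := Fact.mk hr
    haveI := (Zs_isP H hr).isNilpotent
    infer_instance
  -- (a)
  have ha : ∀ r s : ℕ, r.Prime → s.Prime → r ≠ s → O H r ≠ ⊥ → O H s ≠ ⊥ →
      ((Zs H s).subgroupOf N).map f ≤
        Subgroup.centralizer (((Cfsg.pCore r Rh).map Rh.subtype : Subgroup Γ) : Set Γ) := by
    intro r s hr hs hrs hOr hOs
    haveI := Fact.mk hr
    haveI := Fact.mk hs
    haveI hTn : ((Cfsg.pCore r Rh).map Rh.subtype).Normal := H12.map_pCore_normal Rh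
    have hTp : IsPGroup r ((Cfsg.pCore r Rh).map Rh.subtype) := (H01.pCore_isPGroup r).map _
    have hcard : (Nat.card ↥(((Zs H s).subgroupOf N).map f)).Coprime r := by
      obtain ⟨n, hn⟩ := IsPGroup.iff_card.mp (hZhP s hs)
      rw [hn]
      exact Nat.Coprime.pow_left n ((Nat.coprime_primes hs hr).mpr hrs.symm)
    have hTtop : Subgroup.normalizer (((Cfsg.pCore r Rh).map Rh.subtype : Subgroup Γ) : Set Γ) = ⊤ :=
      Subgroup.normalizer_eq_top_iff.mpr hTn
    refine H01.thompson_PxQ r (((Zs H r).subgroupOf N).map f) (((Zs H s).subgroupOf N).map f)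
      ((Cfsg.pCore r Rh).map Rh.subtype) (hZhP r hr) hcard hTp ?_ ?_ ?_ ?_
    · rintro _ ⟨⟨z, hzN⟩, hz, rfl⟩
      rw [Subgroup.mem_centralizer_iff]
      rintro _ ⟨⟨w, hwN⟩, hw, rfl⟩
      have hz' : z ∈ Zs H r := hz
      have hw' : w ∈ Zs H s := hw
      have h1 : w * z = z * w := Zs_comm_F H hr hz' w (O_le_F H hs hw'.1)
      rw [← map_mul, ← map_mul]
      congr 1
      exact Subtype.ext h1
    · rw [hTtop]
      exact le_top
    · rw [hTtop]
      exact le_top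
    · rintro u ⟨huT, huC⟩
      have huR : u ∈ Rh := by
        obtain ⟨w, -, rfl⟩ := huT
        exact w.2
      obtain ⟨⟨x, hxN⟩, hxR, rfl⟩ := huR
      have hcomm : ∀ a ∈ Zs H r, x * a * x⁻¹ * a⁻¹ ∈ K := by
        intro a ha
        have haN := hZN r hr ha
        have h1 : f ⟨a, haN⟩ * f ⟨x, hxN⟩ = f ⟨x, hxN⟩ * f ⟨a, haN⟩ :=
          Subgroup.mem_centralizer_iff.mp huC _ ⟨⟨a, haN⟩, ha, rfl⟩
        have h2 : f (⟨x, hxN⟩ * ⟨a, haN⟩ * ⟨x, hxN⟩⁻¹ * ⟨a, haN⟩⁻¹) = 1 := by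
          simp only [map_mul, map_inv, ← h1]
          group
        exact (hker _).mp h2
      obtain ⟨n, hnK, hnx⟩ := H01.key_lemma' (A := Zs H r) (N := K)
        ((hZM r hr).trans (hMN.trans hNK)) (hcopZK r hr hOr) (Or.inl (hZsol r hr)) hcomm
      have hx'H : n * x ∈ H := by
        have h0 := c.norm_Zs hr hOr
        rw [← h0]
        exact hnx
      have hnN : n ∈ N := hRN (hKR hnK)
      have hfn : f ⟨n, hnN⟩ = 1 := (hker _).mpr hnK
      rw [Subgroup.mem_centralizer_iff]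
      rintro _ ⟨⟨w, hwN⟩, hw, rfl⟩
      have hw' : w ∈ Zs H s := hw
      have hv : n * x * w * (n * x)⁻¹ * w⁻¹ ∈ Zs H s :=
        (Zs H s).mul_mem ((Subgroup.mem_normalizer_iff.mp (Zs_norm H s hx'H) w).mp hw')
          ((Zs H s).inv_mem hw')
      have hxN' : n * x ∈ N := N.mul_mem hnN hxN
      have hfg : f ⟨n * x, hxN'⟩ = f ⟨x, hxN⟩ := by
        have h5 : (⟨n * x, hxN'⟩ : ↥N) = ⟨n, hnN⟩ * ⟨x, hxN⟩ := rfl
        rw [h5, map_mul, hfn, one_mul]
      have h3 : f (⟨n * x, hxN'⟩ * ⟨w, hwN⟩ * ⟨n * x, hxN'⟩⁻¹ * ⟨w, hwN⟩⁻¹) ∈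
          ((Zs H s).subgroupOf N).map f := ⟨_, hv, rfl⟩
      have h6 : f (⟨n * x, hxN'⟩ * ⟨w, hwN⟩ * ⟨n * x, hxN'⟩⁻¹ * ⟨w, hwN⟩⁻¹) =
          f ⟨x, hxN⟩ * (f ⟨w, hwN⟩ * (f ⟨x, hxN⟩)⁻¹ * (f ⟨w, hwN⟩)⁻¹) := by
        simp only [map_mul, map_inv, hfg]
        group
      have h4 : f (⟨n * x, hxN'⟩ * ⟨w, hwN⟩ * ⟨n * x, hxN'⟩⁻¹ * ⟨w, hwN⟩⁻¹) ∈
          (Cfsg.pCore r Rh).map Rh.subtype := by
        rw [h6]
        exact Subgroup.mul_mem _ huT (hTn.conj_mem _ (Subgroup.inv_mem _ huT) _)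
      have h7 := Subgroup.disjoint_def.mp
        (IsPGroup.disjoint_of_ne s r hrs.symm _ _ (hZhP s hs) hTp) h3 h4
      rw [h6] at h7
      have h8 : f ⟨x, hxN⟩ * f ⟨w, hwN⟩ * (f ⟨x, hxN⟩)⁻¹ * (f ⟨w, hwN⟩)⁻¹ = 1 := by
        rw [← h7]
        group
      have h9 : f ⟨x, hxN⟩ * f ⟨w, hwN⟩ * (f ⟨x, hxN⟩)⁻¹ = f ⟨w, hwN⟩ := mul_inv_eq_one.mp h8
      exact (mul_inv_eq_iff_eq_mul.mp h9).symm
  -- (b)
  have hQc : (Nat.card Q).Coprime (Nat.card (fittingOf H)) := by
    haveI := Fact.mk hq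
    obtain ⟨n, hn⟩ := IsPGroup.iff_card.mp hQp
    rw [hn]
    exact Nat.Coprime.pow_left n ((Nat.Prime.coprime_iff_not_dvd hq).mpr hqF)
  have hb : ∀ r : ℕ, r.Prime → O H r ≠ ⊥ → ∀ y ∈ Q, ∀ hyN : y ∈ N,
      f ⟨y, hyN⟩ ∈ Subgroup.centralizer (((Cfsg.pCore r Rh).map Rh.subtype : Subgroup Γ) : Set Γ) := by
    intro r hr hOr y hy hyN
    obtain ⟨s, hs, hsr, hOs⟩ := c.hother r
    haveI := Fact.mk hr
    haveI := Fact.mk hs
    haveI := Fact.mk hq
    haveI hTn : ((Cfsg.pCore r Rh).map Rh.subtype).Normal := H12.map_pCore_normal Rh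
    let Cn : Subgroup Γ := Subgroup.centralizer (((Cfsg.pCore r Rh).map Rh.subtype : Subgroup Γ) : Set Γ)
    have hCnn : Cn.Normal := H01.centralizer_normal hTn
    let Ct : Subgroup G := (Cn.comap f).map N.subtype
    have hZCt : Zs H s ≤ Ct := fun z hz =>
      ⟨⟨z, hZN s hs hz⟩, ha r s hr hs hsr.symm hOr hOs ⟨⟨z, hZN s hs hz⟩, hz, rfl⟩, rfl⟩
    have hAQ : Zs H s ≤ Subgroup.normalizer (Q : Set G) := (hZM s hs).trans hMQ
    have hAN : Zs H s ≤ Subgroup.normalizer ((Q ⊓ Ct : Subgroup G) : Set G) :=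
      inf_norm hAQ (hZCt.trans Subgroup.le_normalizer)
    have hcop : (Nat.card (Zs H s)).Coprime (Nat.card Q) := by
      obtain ⟨n, hn⟩ := IsPGroup.iff_card.mp (Zs_isP H hs)
      obtain ⟨m, hm⟩ := IsPGroup.iff_card.mp hQp
      rw [hn, hm]
      have hsq : s ≠ q := by
        rintro rfl
        exact hqF (dvd_of_O_ne H hs hOs)
      exact Nat.Coprime.pow n m ((Nat.coprime_primes hs hq).mpr hsq)
    obtain ⟨n, hn, hny⟩ := H01.key_lemma (A := Zs H s) (K := Q) (N := Q ⊓ Ct) (k := y) inf_le_left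
      hAN hAQ hcop (Or.inl (hZsol s hs)) hy (by
        intro a haZ
        have haN := hZN s hs haZ
        refine Subgroup.mem_inf.mpr ⟨?_, ?_⟩
        · have h1 : y * a * y⁻¹ * a⁻¹ = y * (a * y⁻¹ * a⁻¹) := by group
          rw [h1]
          exact Q.mul_mem hy ((Subgroup.mem_normalizer_iff.mp (hAQ haZ) y⁻¹).mp (Q.inv_mem hy))
        · refine ⟨⟨y, hyN⟩ * ⟨a, haN⟩ * ⟨y, hyN⟩⁻¹ * ⟨a, haN⟩⁻¹, ?_, rfl⟩
          have h2 : f ⟨a, haN⟩ ∈ Cn :=
            ha r s hr hs hsr.symm hOr hOs ⟨⟨a, haN⟩, haZ, rfl⟩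
          show f (⟨y, hyN⟩ * ⟨a, haN⟩ * ⟨y, hyN⟩⁻¹ * ⟨a, haN⟩⁻¹) ∈ Cn
          rw [map_mul, map_mul, map_mul, map_inv, map_inv]
          exact Cn.mul_mem (hCnn.conj_mem _ h2 _) (Cn.inv_mem h2))
    have hny1 : n * y = 1 := by
      have h1 : n * y ∈ Q ⊓ Subgroup.centralizer (Zs H s : Set G) := hny
      rw [c.cent_triv hQR hQc hMQ hs hOs] at h1
      exact h1
    have hyC : y ∈ Ct := by
      have h1 : y = n⁻¹ := eq_inv_of_mul_eq_one_right hny1
      rw [h1]
      exact Ct.inv_mem hn.2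
    obtain ⟨⟨y', hy'N⟩, hy'C, hyy⟩ := hyC
    have hyy' : y' = y := hyy
    subst hyy'
    exact hy'C
  -- (i)
  have hi : ∀ p : ℕ, p.Prime → O H p = ⊥ → Cfsg.pCore p Rh = ⊥ := by
    intro p hp hO
    haveI := Fact.mk hp
    have hpF : ¬ p ∣ Nat.card (fittingOf H) := fun h => O_ne_of_dvd H hp h hO
    let g₀ : ↥R →* ↥Rh := (f.comp (Subgroup.inclusion hRN)).codRestrict Rh
      (fun x => ⟨⟨x, hRN x.2⟩, x.2, rfl⟩)
    have hsurj₀ : Function.Surjective g₀ := by
      rintro ⟨_, ⟨x, hxN⟩, hx, rfl⟩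
      exact ⟨⟨x, hx⟩, rfl⟩
    let W' : Subgroup R := (Cfsg.pCore p Rh).comap g₀
    have hW'n : W'.Normal := Subgroup.Normal.comap (H01.pCore_normal p) g₀
    have hW'le : W' ≤ piCore (primesNotDvd (Nat.card (fittingOf H))) R := by
      refine le_sSup ⟨hW'n, ?_⟩
      intro l hl hld
      haveI := Fact.mk hl
      obtain ⟨v, hv⟩ := exists_prime_orderOf_dvd_card' l hld
      by_cases hlp : l = p
      · subst hlp
        exact ⟨hl, hpF⟩
      · have hv1 : v ^ l = 1 := by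
          rw [← hv]
          exact pow_orderOf_eq_one v
        have hv2 : g₀ (v : R) ∈ Cfsg.pCore p Rh := v.2
        obtain ⟨e, he⟩ := pow_of_mem (H01.pCore_isPGroup p) hv2
        have hv3 : (g₀ (v : R)) ^ l = 1 := by
          rw [← map_pow]
          have h0 : (v : R) ^ l = 1 := by
            have := congrArg Subtype.val hv1
            simpa using this
          rw [h0, map_one]
        have hcp : l.Coprime (p ^ e) :=
          Nat.Coprime.pow_right e ((Nat.coprime_primes hl hp).mpr hlp)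
        have hv4 : g₀ (v : R) = 1 := (pow_eq_one_iff_of_coprime hcp).mp ⟨hv3, he⟩
        have hvK : ((v : R) : G) ∈ K := (hker ⟨_, hRN (v : R).2⟩).mp
          (congrArg Subtype.val hv4)
        have h1 : orderOf ((v : R) : G) = l := by
          rw [Subgroup.orderOf_coe, Subgroup.orderOf_coe]
          exact hv
        have hld' : l ∣ Nat.card K := by
          rw [← h1]
          exact Subgroup.orderOf_dvd_natCard K hvK
        exact S1392.piCoreOf_pi _ R l hl hld'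
    rw [eq_bot_iff]
    intro w hw
    obtain ⟨x, rfl⟩ := hsurj₀ w
    have hx : x ∈ W' := hw
    have hxK : (x : G) ∈ K := ⟨x, hW'le hx, rfl⟩
    have h1 : f ⟨x, hRN x.2⟩ = 1 := (hker _).mpr hxK
    exact Subgroup.mem_bot.mpr (Subtype.ext h1)
  -- (c)
  intro y hy
  have hyR := hQR hy
  have hyN := hRN hyR
  have hmemRh : f ⟨y, hyN⟩ ∈ Rh := ⟨⟨y, hyN⟩, hyR, rfl⟩
  let ρ : ↥Rh := ⟨f ⟨y, hyN⟩, hmemRh⟩
  have hcen : ρ ∈ Subgroup.centralizer ((fittingSubgroup Rh : Subgroup Rh) : Set Rh) := by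
    have h0 : fittingSubgroup Rh ≤ Subgroup.centralizer ({ρ} : Set Rh) := by
      rw [H01.fitting_eq_iSup_pCore]
      refine iSup_le ?_
      rintro ⟨p, hp⟩ w hw
      rw [Subgroup.mem_centralizer_iff]
      intro t ht
      rw [Set.mem_singleton_iff] at ht
      subst ht
      by_cases hO : O H p = ⊥
      · have h1 := hi p hp hO
        rw [h1, Subgroup.mem_bot] at hw
        simp [hw]
      · have h2 := hb p hp hO y hy hyN
        have h3 := Subgroup.mem_centralizer_iff.mp h2 (w : Γ) ⟨w, hw, rfl⟩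
        exact Subtype.ext h3.symm
    rw [Subgroup.mem_centralizer_iff]
    intro u hu
    exact (Subgroup.mem_centralizer_iff.mp (h0 hu) ρ rfl).symm
  have hρF := H01.centralizer_fitting_le hcen
  obtain ⟨e, he⟩ := pow_of_mem hQp hy
  have hρe : ρ ^ (q ^ e) = 1 := by
    apply Subtype.ext
    show (f ⟨y, hyN⟩) ^ (q ^ e) = 1
    rw [← map_pow]
    have h0 : (⟨y, hyN⟩ : ↥N) ^ (q ^ e) = 1 := Subtype.ext he
    rw [h0, map_one]
  obtain ⟨l, -, hl⟩ := (Nat.dvd_prime_pow hq).mp (orderOf_dvd_of_pow_eq_one hρe)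
  have hρq := H06.mem_pCore_of_mem_fitting hq hρF hl
  have hOq : O H q = ⊥ := by
    by_contra h
    exact hqF (dvd_of_O_ne H hq h)
  rw [hi q hq hOq, Subgroup.mem_bot] at hρq
  have h1 : f ⟨y, hyN⟩ = 1 := congrArg Subtype.val hρq
  exact (hker _).mp h1

theorem Ctx.inv_le_K (c : Ctx H M R) {q : ℕ} (hq : q.Prime) (hqF : ¬ q ∣ Nat.card (fittingOf H))
    {Q : Subgroup G} (hQR : Q ≤ R) (hQp : IsPGroup q Q)
    (hMQ : M ≤ Subgroup.normalizer (Q : Set G)) :
    Q ≤ piCoreOf (primesNotDvd (Nat.card (fittingOf H))) R := by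
  set K := piCoreOf (primesNotDvd (Nat.card (fittingOf H))) R with hK
  set N := Subgroup.normalizer (R : Set G) with hN
  have hNK : N ≤ Subgroup.normalizer (K : Set G) := fun g hg => S1395.norm_core _ hg
  haveI hn : (K.subgroupOf N).Normal :=
    ⟨fun n hn g => (Subgroup.mem_normalizer_iff.mp (hNK g.2) _).mp hn⟩
  exact c.core (Γ := ↥N ⧸ K.subgroupOf N) hN (QuotientGroup.mk' (K.subgroupOf N))
    (QuotientGroup.mk'_surjective _) (fun g => QuotientGroup.eq_one_iff g) hq hqF hQR hQp hMQ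

/-- Let G be a finite group and H a local subgroup (the normalizer of a nontrivial subgroup of prime-power order) not properly contained in any local subgroup; let F = F(H), suppose at least two primes divide #F, put X = H ∩ C_G(F), let M ≤ F with F ∩ C_G(M) ≤ M, and let R be a solvable subgroup normalized by M and by X. Then for every prime q not dividing #F there is exactly one maximal M-invariant q-subgroup of R, and it is a Sylow q-subgroup of the largest normal subgroup of R of order coprime to #F. -/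
theorem result {G : Type*} [Group G] [Finite G] (H : Subgroup G) (hH : Cfsg.IsLocalSubgroup H) (hHmax : ∀ L : Subgroup G, Cfsg.IsLocalSubgroup L → H ≤ L → L = H)
    (hF2 : 2 ≤ (Nat.card (Cfsg.fittingOf H)).primeFactors.card)
    (M : Subgroup G) (hM : M ≤ Cfsg.fittingOf H) (hCM : Cfsg.fittingOf H ⊓ Subgroup.centralizer (M : Set G) ≤ M)
    (R : Subgroup G) (hR : Group.IsSolvable R) (hMR : M ≤ Subgroup.normalizer (R : Set G))
    (hXR : H ⊓ Subgroup.centralizer (Cfsg.fittingOf H : Set G) ≤ Subgroup.normalizer (R : Set G))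
    (q : ℕ) [Fact q.Prime] (hq : ¬ q ∣ Nat.card (Cfsg.fittingOf H)) :
    ∃! Q : Subgroup G, Q ∈ Cfsg.maxInvSubgroups R M {q} ∧
      (∀ Q' : Subgroup G, Q' ∈ Cfsg.maxInvSubgroups R M {q} →
        Q' ≤ Cfsg.piCoreOf (Cfsg.primesNotDvd (Nat.card (Cfsg.fittingOf H))) R ∧
        ¬ q ∣ Q'.relIndex (Cfsg.piCoreOf (Cfsg.primesNotDvd (Nat.card (Cfsg.fittingOf H))) R)) := by
  have hqp : q.Prime := Fact.out
  have hother : ∀ q : ℕ, ∃ r : ℕ, r.Prime ∧ r ≠ q ∧ O H r ≠ ⊥ := by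
    intro q
    obtain ⟨a, ha, b, hb, hab⟩ := Finset.one_lt_card.mp hF2
    have ha' := Nat.mem_primeFactors.mp ha
    have hb' := Nat.mem_primeFactors.mp hb
    by_cases haq : a = q
    · refine ⟨b, hb'.1, ?_, O_ne_of_dvd H hb'.1 hb'.2.1⟩
      rw [← haq]
      exact hab.symm
    · exact ⟨a, ha'.1, haq, O_ne_of_dvd H ha'.1 ha'.2.1⟩
  have c : Ctx H M R := ⟨fun p T hp hT hne hle => hHmax _ ⟨p, T, hp, hT, hne, rfl⟩ hle, hM, hCM, hMR,
    hXR, hR, hother⟩
  set K := Cfsg.piCoreOf (Cfsg.primesNotDvd (Nat.card (Cfsg.fittingOf H))) R with hK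
  have hKR : K ≤ R := S1392.piCoreOf_le _ R
  have hMK : M ≤ Subgroup.normalizer (K : Set G) := hMR.trans (fun g hg => S1395.norm_core _ hg)
  have hFK : (Nat.card (Cfsg.fittingOf H)).Coprime (Nat.card K) := by
    by_contra hne
    obtain ⟨p, hp, h1, h2⟩ := Nat.Prime.not_coprime_iff_dvd.mp hne
    exact (S1392.piCoreOf_pi _ R p hp h2).2 h1
  have hcopMK : (Nat.card M).Coprime (Nat.card K) :=
    Nat.Coprime.coprime_dvd_left (Subgroup.card_dvd_of_le hM) hFK
  haveI := hR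
  have hKsol : Group.IsSolvable K := solvable_of_solvable_injective (Subgroup.inclusion_injective hKR)
  obtain ⟨P, hP⟩ := H01.exists_invariant_sylow hMK hcopMK (Or.inr hKsol) q
  -- uniqueness of invariant Sylow subgroups
  have huniq : ∀ P' : Sylow q K, M ≤ Subgroup.normalizer ((P' : Subgroup K).map K.subtype : Set G) → P' = P := by
    intro P' hP'
    obtain ⟨c₀, hc₀, hc₀P⟩ := H01.conj_invariant_sylow hMK hcopMK (Or.inr hKsol) q P' P hP' hP
    obtain ⟨s, hs, -, hOs⟩ := hother 0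
    have h1 : ((c₀ : K) : G) ∈ K ⊓ Subgroup.centralizer (Zs H s : Set G) :=
      Subgroup.mem_inf.mpr ⟨c₀.2, Subgroup.centralizer_le (c.Zs_le_M hs) hc₀⟩
    rw [c.cent_triv hKR hFK.symm hMK hs hOs, Subgroup.mem_bot] at h1
    have h2 : c₀ = 1 := Subtype.ext h1
    rw [h2] at hc₀P
    simpa using hc₀P
  set S : Subgroup G := (P : Subgroup K).map K.subtype with hS
  have hSp : IsPGroup q S := P.isPGroup'.map _
  have hSK : S ≤ K := by
    rintro _ ⟨x, -, rfl⟩
    exact x.2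
  have hle : ∀ Y : Subgroup G, Y ∈ Cfsg.invSubgroups R M {q} → Y ≤ S := by
    intro Y hY
    have hYp : IsPGroup q Y := by
      refine IsPGroup.iff_card.mpr ⟨_, Nat.eq_prime_pow_of_unique_prime_dvd Nat.card_pos.ne' ?_⟩
      intro d hd hdd
      exact hY.2.1 d hd hdd
    have hYK : Y ≤ K := c.inv_le_K hqp hq hY.1 hYp hY.2.2
    obtain ⟨P', hP'1, hP'2⟩ := H01.invariant_subgroup_le_invariant_sylow hMK hcopMK (Or.inr hKsol)
      q Y hYK hYp hY.2.2
    rw [huniq P' hP'2] at hP'1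
    exact hP'1
  have hSinv : S ∈ Cfsg.invSubgroups R M {q} := by
    refine ⟨hSK.trans hKR, ?_, hP⟩
    intro p hp hd
    obtain ⟨n, hn⟩ := IsPGroup.iff_card.mp hSp
    rw [hn] at hd
    exact (Nat.prime_dvd_prime_iff_eq hp hqp).mp (hp.dvd_of_dvd_pow hd)
  have hSmax : S ∈ Cfsg.maxInvSubgroups R M {q} :=
    ⟨hSinv, fun Y hY hSY => le_antisymm (hle Y hY) hSY⟩
  have hall : ∀ Q' : Subgroup G, Q' ∈ Cfsg.maxInvSubgroups R M {q} → Q' = S :=
    fun Q' hQ' => (hQ'.2 S hSinv (hle Q' hQ'.1)).symm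
  refine ⟨S, ⟨hSmax, ?_⟩, ?_⟩
  · intro Q' hQ'
    rw [hall Q' hQ']
    refine ⟨hSK, ?_⟩
    have h1 : S.relIndex K = (P : Subgroup K).index := by
      have h2 : S.subgroupOf K = (P : Subgroup K) :=
        Subgroup.comap_map_eq_self_of_injective K.subtype_injective _
      show (S.subgroupOf K).index = _
      rw [h2]
    rw [h1]
    exact P.not_dvd_index
  · rintro Y ⟨hY, -⟩
    exact hall Y hY

end Cfsg.Agent.S1481
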