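import Cfsg.Statements.S1485
import Cfsg.Agent.Lib.H06.CharNormal

set_option autoImplicit false

open Cfsg

namespace Cfsg.Agent.S1485

theorem result {G : Type*} [Group G] [Fintype G] (H : Subgroup G) [hN : H.Normal] (θ : H → ℂ) (hθ : Cfsg.IsIrrCharacter H θ) : (fun h : H => Cfsg.indFun H θ h) = ((Nat.card {g : G // ∀ h : H, θ ⟨g * h * g⁻¹, hN.conj_mem h h.2 g⟩ = θ h} : ℂ) / (Nat.card H : ℂ)) • ∑ᶠ ψ ∈ {ψ : H → ℂ | ∃ g : G, ψ = fun h : H => θ ⟨g * h * g⁻¹, hN.conj_mem h h.2 g⟩}, ψ :=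
  Cfsg.Agent.H06.indFun_restrict_eq_orbit_sum H θ

end Cfsg.Agent.S1485
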