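import Cfsg.Statements.S1486
import Cfsg.Agent.Lib.H06.CharNormal

set_option autoImplicit false

open Cfsg

namespace Cfsg.Agent.S1486

theorem result {G : Type*} [Group G] [Fintype G] (H : Subgroup G) [hN : H.Normal] (θ φ : H → ℂ) (hθ : Cfsg.IsIrrCharacter H θ) (hφ : Cfsg.IsIrrCharacter H φ) : ((∃ g : G, φ = fun h : H => θ ⟨g * h * g⁻¹, hN.conj_mem h h.2 g⟩) → Cfsg.indFun H φ = Cfsg.indFun H θ) ∧ ((¬ ∃ g : G, φ = fun h : H => θ ⟨g * h * g⁻¹, hN.conj_mem h h.2 g⟩) → Cfsg.classInner (Cfsg.indFun H φ) (Cfsg.indFun H θ) = 0) := by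
  constructor
  · rintro ⟨g, rfl⟩
    exact Cfsg.Agent.H06.indFun_twist H θ g
  · intro h
    haveI : Fintype H := Fintype.ofFinite _
    refine Cfsg.Agent.H06.classInner_indFun_eq_zero_of_not_conj H hθ hφ ?_
    intro g hg
    exact h ⟨g, hg⟩

end Cfsg.Agent.S1486
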