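import Cfsg.Statements.S1487
import Cfsg.Agent.Lib.H06.CharNormal

set_option autoImplicit false

open Cfsg

namespace Cfsg.Agent.S1487

theorem result {G : Type*} [Group G] [Fintype G] (A H : Subgroup G) [A.Normal] [H.Normal] (hAH : A ≤ H) (θ : H → ℂ) (hθ : Cfsg.IsIrrCharacter H θ) : (∀ a : H, (a : G) ∈ A → θ a = θ 1) ↔ (∀ a : G, a ∈ A → Cfsg.indFun H θ a = Cfsg.indFun H θ 1) :=
  Cfsg.Agent.H06.ker_le_iff_induced A H hAH θ (Cfsg.Agent.H21.isCharacter_of_irr hθ)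

end Cfsg.Agent.S1487
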