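import Cfsg.Statements.S1488
import Cfsg.Agent.Lib.H06.CharNormal

set_option autoImplicit false

open Cfsg

namespace Cfsg.Agent.S1488

theorem result {G : Type*} [Group G] [Fintype G] (A H : Subgroup G) [A.Normal] (hAH : A ≤ H) [Fintype (G ⧸ A)] [Fintype ↥(H.map (QuotientGroup.mk' A))] (θ : H → ℂ) (θ₁ : ↥(H.map (QuotientGroup.mk' A)) → ℂ) (hθ : ∀ x : H, θ₁ ⟨QuotientGroup.mk' A x, Subgroup.mem_map_of_mem _ x.2⟩ = θ x) (g : G) : Cfsg.indFun (H.map (QuotientGroup.mk' A)) θ₁ (QuotientGroup.mk' A g) = Cfsg.indFun H θ g :=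
  Cfsg.Agent.H06.indFun_quotient A H hAH θ θ₁ hθ g

end Cfsg.Agent.S1488
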