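import Cfsg.Statements.S1490
import Cfsg.Agent.Lib.H06.CharGallagher2

set_option autoImplicit false

open Cfsg

namespace Cfsg.Agent.S1490

theorem result {G : Type*} [Group G] [Fintype G] (H T : Subgroup G) [hN : H.Normal] (θ : H → ℂ) (hθ : Cfsg.IsIrrCharacter H θ) (hT : ∀ g : G, g ∈ T ↔ ∀ h : H, θ ⟨g * h * g⁻¹, hN.conj_mem h h.2 g⟩ = θ h) (hab : ∀ x ∈ T, ∀ y ∈ T, x * y * x⁻¹ * y⁻¹ ∈ H) : ∃ (e : ℕ) (C : Finset (G → ℂ)), 0 < e ∧ (∀ χ ∈ C, Cfsg.IsIrrCharacter G χ) ∧ e ^ 2 * C.card * Nat.card H = Nat.card T ∧ Cfsg.indFun H θ = (e : ℂ) • ∑ χ ∈ C, χ ∧ ∀ χ ∈ C, χ 1 = (T.index : ℂ) * e * θ 1 := by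
  obtain ⟨e, C, he, hC, hcard, hsum, hval, -⟩ := Cfsg.Agent.H06.induced_structure_G H T hθ hT hab
  exact ⟨e, C, he, hC, hcard, hsum, hval⟩

end Cfsg.Agent.S1490
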