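import Cfsg.Statements.S1491
import Cfsg.Agent.Lib.H06.CharExtend

set_option autoImplicit false

open Cfsg

namespace Cfsg.Agent.S1491

open Cfsg.Agent.H06 Cfsg.Agent.H21

theorem result {G : Type*} [Group G] [Fintype G] (H T : Subgroup G) [hN : H.Normal] (θ : H → ℂ) (hθ : Cfsg.IsIrrCharacter H θ) (hT : ∀ g : G, g ∈ T ↔ ∀ h : H, θ ⟨g * h * g⁻¹, hN.conj_mem h h.2 g⟩ = θ h) (hab : ∀ x ∈ T, ∀ y ∈ T, x * y * x⁻¹ * y⁻¹ ∈ H) (hcop : Nat.Coprime (Nat.card H) (H.relIndex T)) : ∃ C : Finset (G → ℂ), (∀ χ ∈ C, Cfsg.IsIrrCharacter G χ) ∧ C.card = H.relIndex T ∧ Cfsg.indFun H θ = ∑ χ ∈ C, χ ∧ ∀ χ ∈ C, χ 1 = (T.index : ℂ) * θ 1 := by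
  classical
  obtain ⟨e, C, he, hC, hcard, hsum, hval, hone⟩ := induced_structure_G H T hθ hT hab
  haveI : Fintype T := Fintype.ofFinite _
  have hHT : H ≤ T := le_inertia H T (isCharacter_of_irr hθ) hT
  have hinv : ∀ t : T, twist (H.subgroupOf T) (subTheta H T θ) t = subTheta H T θ := by
    intro t
    funext x
    simp only [twist, subTheta]
    exact (hT t).mp t.2 ⟨(x : T), Subgroup.mem_subgroupOf.mp x.2⟩
  have hab' : ∀ x y : T, x * y * x⁻¹ * y⁻¹ ∈ H.subgroupOf T := by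
    intro x y
    rw [Subgroup.mem_subgroupOf]
    simpa using hab x x.2 y y.2
  have hcardH : Nat.card (H.subgroupOf T) = Nat.card H :=
    Nat.card_congr (Subgroup.subgroupOfEquivOfLe hHT).toEquiv
  have hcop' : (Nat.card (H.subgroupOf T)).Coprime (H.subgroupOf T).index := by
    rw [hcardH]
    exact hcop
  obtain ⟨ψ, hψ, hext⟩ := exists_extension (subTheta_irr H T hHT hθ) hinv hab' hcop'
  have he1 : e = 1 := hone ψ hψ (fun h hh => hext ⟨h, Subgroup.mem_subgroupOf.mpr hh⟩)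
  subst he1
  refine ⟨C, hC, ?_, ?_, ?_⟩
  · have h1 := Subgroup.card_mul_index (H.subgroupOf T)
    rw [hcardH] at h1
    have h2 : C.card * Nat.card H = Nat.card H * (H.subgroupOf T).index := by
      rw [h1, ← hcard]
      ring
    rw [mul_comm] at h2
    exact Nat.eq_of_mul_eq_mul_left Nat.card_pos h2
  · rw [hsum]
    simp
  · intro χ hχ
    rw [hval χ hχ]
    simp

end Cfsg.Agent.S1491
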