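import Cfsg.Statements.S1492
import Cfsg.Agent.Lib.H06.CharDegree

set_option autoImplicit false

open Cfsg

namespace Cfsg.Agent.S1492

open Cfsg.Agent.H06 Cfsg.Agent.H21 Module
open scoped ComplexConjugate

/-- Elements acting as scalars: the norm of the character is the degree, given central action
modulo the kernel. -/
theorem norm_eq_of_central_mod_ker {C : Type*} [Group C] [Finite C] {φ : C → ℂ}
    (hφ : IsIrrCharacter C φ) {d : C} (hd : ∀ c : C, φ (d * c * d⁻¹ * c⁻¹) = φ 1) :
    ‖φ d‖ = charDegree φ := by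
  obtain ⟨n, ρ, hρ, rfl⟩ := hφ
  have hfin : finrank ℂ (Fin n → ℂ) = n := by simp
  have hdeg : charDegree ρ.character = n := by simp [charDegree, Representation.char_one]
  rw [hdeg]
  have h1 : ∀ c : C, ρ (d * c * d⁻¹ * c⁻¹) = 1 := by
    intro c
    apply (character_eq_finrank_iff ρ _).mp
    rw [hd c, hfin]
    simp [Representation.character]
  have hcomm : ∀ c : C, ρ d * ρ c = ρ c * ρ d := by
    intro c
    have h2 : d * c = (d * c * d⁻¹ * c⁻¹) * (c * d) := by group
    rw [← map_mul, h2, map_mul, h1, one_mul, map_mul]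
  obtain ⟨c, hc⟩ := schur_scalar ρ hρ (ρ d) (fun g => by
    exact hcomm g)
  have := (norm_character_eq_finrank_iff ρ d).mpr ⟨c, hc⟩
  rw [this, hfin]

theorem result {G : Type*} [Group G] [Finite G] (ψ : G → ℂ) (hψ : Cfsg.IsIrrCharacter G ψ) (B C D : Subgroup G) (hBD : B ≤ D) (hDC : D ≤ C) (hBn : ∀ c ∈ C, ∀ b ∈ B, c * b * c⁻¹ ∈ B) (hcent : ∀ d ∈ D, ∀ c ∈ C, d * c * d⁻¹ * c⁻¹ ∈ B) (hker : ∀ b ∈ B, ψ b = ψ 1) : ‖ψ 1‖ ^ 2 * (Nat.card C : ℝ) * (Nat.card D : ℝ) ≤ (Nat.card G : ℝ) ^ 2 := by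
  classical
  haveI : Fintype G := Fintype.ofFinite _
  haveI : Fintype C := Fintype.ofFinite _
  haveI : Fintype (IrrCharacter G) := Fintype.ofFinite _
  haveI : Fintype (IrrCharacter C) := Fintype.ofFinite _
  have hψc := isCharacter_of_irr hψ
  have hres := isCharacter_restrict C hψc
  -- a constituent
  obtain ⟨φ, hφ⟩ : ∃ φ : IrrCharacter C, classInner (fun x : C => ψ x) (φ : C → ℂ) ≠ 0 := by
    by_contra hcon
    push Not at hcon
    have hexp := classFunction_expansion _ (isClassFunction_of_isCharacter hres)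
    have h1 := congrFun hexp 1
    simp only [hcon, zero_smul, Finset.sum_const_zero, Pi.zero_apply, OneMemClass.coe_one] at h1
    exact irr_one_ne_zero' hψ h1
  have hφc := isCharacter_of_irr φ.2
  -- kernel
  have hkerφ : ∀ b : C, (b : G) ∈ B → (φ : C → ℂ) b = (φ : C → ℂ) 1 := by
    intro b hb
    apply constituent_ker hres φ hφ
    simpa using hker b hb
  -- norm on `D`
  have hnorm : ∀ d : C, (d : G) ∈ D → ‖(φ : C → ℂ) d‖ = charDegree (φ : C → ℂ) := by
    intro d hd
    apply norm_eq_of_central_mod_ker φ.2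
    intro c
    apply hkerφ
    simpa using hcent d hd c c.2
  -- sum estimate
  have hsum : Nat.card D * (charDegree (φ : C → ℂ)) ^ 2 ≤ Nat.card C := by
    have h1 : ∑ c : C, ‖(φ : C → ℂ) c‖ ^ 2 = (Nat.card C : ℝ) := by
      have h2 := classInner_irr_self φ.2
      simp only [classInner] at h2
      have hne : (Nat.card C : ℂ) ≠ 0 := Nat.cast_ne_zero.mpr Nat.card_pos.ne'
      have h3 : ∑ g : C, (φ : C → ℂ) g * conj ((φ : C → ℂ) g) = (Nat.card C : ℂ) := by
        field_simp at h2
        exact h2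
      have h4 : ∀ g : C, (φ : C → ℂ) g * conj ((φ : C → ℂ) g) =
          ((‖(φ : C → ℂ) g‖ ^ 2 : ℝ) : ℂ) := by
        intro g
        rw [Complex.mul_conj, Complex.normSq_eq_norm_sq]
      simp only [h4] at h3
      exact_mod_cast h3
    have h2 : ∑ c ∈ Finset.univ.filter (fun c : C => (c : G) ∈ D), ‖(φ : C → ℂ) c‖ ^ 2 ≤
        ∑ c : C, ‖(φ : C → ℂ) c‖ ^ 2 :=
      Finset.sum_le_sum_of_subset_of_nonneg (Finset.filter_subset _ _) (fun _ _ _ => by positivity)
    have h3 : ∑ c ∈ Finset.univ.filter (fun c : C => (c : G) ∈ D), ‖(φ : C → ℂ) c‖ ^ 2 =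
        ((Nat.card D * (charDegree (φ : C → ℂ)) ^ 2 : ℕ) : ℝ) := by
      have h4 : ∀ c ∈ Finset.univ.filter (fun c : C => (c : G) ∈ D),
          ‖(φ : C → ℂ) c‖ ^ 2 = (charDegree (φ : C → ℂ) : ℝ) ^ 2 := by
        intro c hc
        rw [hnorm c (Finset.mem_filter.mp hc).2]
      rw [Finset.sum_congr rfl h4, Finset.sum_const, nsmul_eq_mul]
      have h5 : (Finset.univ.filter (fun c : C => (c : G) ∈ D)).card = Nat.card D := by
        haveI : Fintype D := Fintype.ofFinite _
        rw [Nat.card_eq_fintype_card, ← Finset.card_univ]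
        symm
        refine Finset.card_bij (fun d _ => ⟨d, hDC d.2⟩) ?_ ?_ ?_
        · intro d _
          exact Finset.mem_filter.mpr ⟨Finset.mem_univ _, d.2⟩
        · intro a _ b _ h
          exact Subtype.ext (congrArg (fun x : C => (x : G)) h)
        · intro c hc
          exact ⟨⟨c, (Finset.mem_filter.mp hc).2⟩, Finset.mem_univ _, rfl⟩
      rw [h5]
      push_cast
      ring
    rw [h3, h1] at h2
    exact_mod_cast h2
  -- degree of the induced character
  have hX := isCharacter_indFun C hφc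
  have hne : classInner (indFun C (φ : C → ℂ)) ψ ≠ 0 := by
    rw [frobenius_reciprocity C _ _ (isClassFunction_of_isCharacter hψc)]
    intro h0
    apply hφ
    rw [← classInner_comm_conj, h0, map_zero]
  have hdeg := degree_le_of_inner_ne hX ⟨ψ, hψ⟩ hne
  rw [charDegree_indFun C hφc] at hdeg
  simp only at hdeg
  have hψ1 : ‖ψ 1‖ = charDegree ψ := by
    rw [one_eq_charDegree hψc]
    simp
  have hG : Nat.card C * C.index = Nat.card G := C.card_mul_index
  set d := charDegree ψ
  set n := charDegree (φ : C → ℂ)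
  set i := C.index
  have hfinal : d ^ 2 * Nat.card C * Nat.card D ≤ Nat.card G ^ 2 := by
    calc d ^ 2 * Nat.card C * Nat.card D ≤ (i * n) ^ 2 * Nat.card C * Nat.card D := by
          gcongr
      _ = i ^ 2 * Nat.card C * (Nat.card D * n ^ 2) := by ring
      _ ≤ i ^ 2 * Nat.card C * Nat.card C := Nat.mul_le_mul_left _ hsum
      _ = Nat.card G ^ 2 := by rw [← hG]; ring
  rw [hψ1]
  exact_mod_cast hfinal

end Cfsg.Agent.S1492
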