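import Cfsg.Statements.S1493
import Cfsg.Agent.Lib.H06.CharGalois

set_option autoImplicit false

open Cfsg

namespace Cfsg.Agent.S1493

open Cfsg.Agent.H06

theorem result {G : Type*} [Group G] [Finite G] (a b k : ℕ) (hab : Nat.card G = a * b) (hcop : Nat.Coprime a b) (hk : Nat.Coprime k a) (χ : G → ℂ) (hχ : Cfsg.IsCharacter G χ) : ∃ χ' : G → ℂ, Cfsg.IsCharacter G χ' ∧ (Cfsg.IsIrrCharacter G χ → Cfsg.IsIrrCharacter G χ') ∧ (∀ g : G, orderOf g ∣ a → χ' g = χ (g ^ k)) ∧ (∀ g : G, Nat.Coprime (orderOf g) a → χ' g = χ g) := by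
  obtain ⟨k', hk₁, hk₂⟩ := Nat.chineseRemainder hcop k 1
  have hca : k'.Coprime a := by
    rw [Nat.Coprime, hk₁.gcd_eq]
    exact hk
  have hcb : k'.Coprime b := by
    rw [Nat.Coprime, hk₂.gcd_eq]
    simp
  have hc : k'.Coprime (Nat.card G) := by
    rw [hab]
    exact Nat.Coprime.mul_right hca hcb
  refine ⟨fun g => χ (g ^ k'), isCharacter_comp_pow hc hχ, fun h => isIrrCharacter_comp_pow hc h,
    ?_, ?_⟩
  · intro g hg
    have : g ^ k' = g ^ k := pow_eq_pow_iff_modEq.mpr (hk₁.of_dvd hg)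
    show χ (g ^ k') = _
    rw [this]
  · intro g hg
    have h1 : orderOf g ∣ a * b := hab ▸ orderOf_dvd_natCard g
    have h2 : orderOf g ∣ b := hg.dvd_of_dvd_mul_left h1
    have : g ^ k' = g ^ 1 := pow_eq_pow_iff_modEq.mpr (hk₂.of_dvd h2)
    show χ (g ^ k') = _
    rw [this, pow_one]

end Cfsg.Agent.S1493
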