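import Cfsg.Statements.S1494
import Cfsg.Agent.Lib.H06.CharClifford

set_option autoImplicit false

open Cfsg

namespace Cfsg.Agent.S1494

open Cfsg.Agent.H21

/-- A `p`-th root of unity is congruent to `1` modulo `1 - ε`. -/
theorem root_sub_one {p : ℕ} (hp : p.Prime) {z : ℂ} (hz : z ^ p = 1) :
    ∃ ω : ℂ, IsIntegral ℤ ω ∧ z - 1 = (1 - Complex.exp (2 * Real.pi * Complex.I / p)) * ω := by
  have hprim : IsPrimitiveRoot (Complex.exp (2 * Real.pi * Complex.I / p)) p :=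
    Complex.isPrimitiveRoot_exp p hp.ne_zero
  set ε := Complex.exp (2 * Real.pi * Complex.I / p) with hε
  haveI : NeZero p := ⟨hp.ne_zero⟩
  obtain ⟨k, -, rfl⟩ := hprim.eq_pow_of_pow_eq_one hz
  have hint : IsIntegral ℤ ε :=
    IsIntegral.of_pow hp.pos (by rw [hprim.pow_eq_one]; exact isIntegral_one)
  refine ⟨-∑ j ∈ Finset.range k, ε ^ j, ?_, ?_⟩
  · exact (IsIntegral.sum _ fun j _ => hint.pow j).neg
  · have := mul_geom_sum ε k
    rw [← this]
    ring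

theorem char_case {G : Type*} [Group G] [Finite G] {χ : G → ℂ} (hχ : Cfsg.IsCharacter G χ) {p : ℕ}
    (hp : p.Prime) {x y : G} (hx : orderOf x = p) (hxy : x * y = y * x) :
    ∃ ω : ℂ, IsIntegral ℤ ω ∧
      χ (x * y) - χ y = (1 - Complex.exp (2 * Real.pi * Complex.I / p)) * ω := by
  classical
  set A : Subgroup G := Subgroup.closure {x, y} with hA
  have hcomm : ∀ a ∈ ({x, y} : Set G), ∀ b ∈ ({x, y} : Set G), a * b = b * a := by
    rintro a (rfl | rfl) b (rfl | rfl)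
    · rfl
    · exact hxy
    · exact hxy.symm
    · rfl
  letI : CommGroup A := Subgroup.closureCommGroupOfComm hcomm
  have hAc : ∀ a b : A, a * b = b * a := fun a b => mul_comm a b
  haveI : Fintype A := Fintype.ofFinite _
  haveI : Fintype (IrrCharacter A) := Fintype.ofFinite _
  have hxA : x ∈ A := Subgroup.subset_closure (by simp)
  have hyA : y ∈ A := Subgroup.subset_closure (by simp)
  have hres := isCharacter_restrict A hχ
  obtain ⟨m, hm, -⟩ := isCharacter_decomp hres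
  -- each linear character
  have hlin : ∀ l : IrrCharacter A, ∃ ω : ℂ, IsIntegral ℤ ω ∧
      (l : A → ℂ) (⟨x, hxA⟩ * ⟨y, hyA⟩) - (l : A → ℂ) ⟨y, hyA⟩ =
        (1 - Complex.exp (2 * Real.pi * Complex.I / p)) * ω := by
    intro l
    have hdeg := irr_degree_one_of_comm hAc l.2
    have hc := isCharacter_of_irr l.2
    have h1 : (l : A → ℂ) ⟨x, hxA⟩ ^ p = 1 := by
      have h2 : ∀ n : ℕ, (l : A → ℂ) ((⟨x, hxA⟩ : A) ^ n) = (l : A → ℂ) ⟨x, hxA⟩ ^ n := by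
        intro n
        induction n with
        | zero => simpa using linear_one hc hdeg
        | succ n ih => rw [pow_succ, linear_mul hc hdeg, ih, pow_succ]
      rw [← h2]
      have h3 : (⟨x, hxA⟩ : A) ^ p = 1 := by
        apply Subtype.ext
        simp [← hx, pow_orderOf_eq_one]
      rw [h3, linear_one hc hdeg]
    obtain ⟨ω, hω, he⟩ := root_sub_one hp h1
    refine ⟨(l : A → ℂ) ⟨y, hyA⟩ * ω, (isCharacter_isIntegral hc _).mul hω, ?_⟩
    rw [linear_mul hc hdeg]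
    calc (l : A → ℂ) ⟨x, hxA⟩ * (l : A → ℂ) ⟨y, hyA⟩ - (l : A → ℂ) ⟨y, hyA⟩
        = ((l : A → ℂ) ⟨x, hxA⟩ - 1) * (l : A → ℂ) ⟨y, hyA⟩ := by ring
      _ = _ := by rw [he]; ring
  choose ω hω he using hlin
  refine ⟨∑ l : IrrCharacter A, (m l : ℂ) * ω l, ?_, ?_⟩
  · refine IsIntegral.sum _ fun l _ => IsIntegral.mul ?_ (hω l)
    simpa using (isIntegral_algebraMap (R := ℤ) (A := ℂ) (x := ((m l : ℕ) : ℤ)))
  · have h1 : χ (x * y) = ∑ l : IrrCharacter A, (m l : ℂ) * (l : A → ℂ) (⟨x, hxA⟩ * ⟨y, hyA⟩) := by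
      have := congrFun hm (⟨x, hxA⟩ * ⟨y, hyA⟩)
      simpa [Finset.sum_apply] using this
    have h2 : χ y = ∑ l : IrrCharacter A, (m l : ℂ) * (l : A → ℂ) ⟨y, hyA⟩ := by
      have := congrFun hm ⟨y, hyA⟩
      simpa [Finset.sum_apply] using this
    rw [h1, h2, ← Finset.sum_sub_distrib, Finset.mul_sum]
    refine Finset.sum_congr rfl fun l _ => ?_
    have := he l
    calc (m l : ℂ) * (l : A → ℂ) (⟨x, hxA⟩ * ⟨y, hyA⟩) - (m l : ℂ) * (l : A → ℂ) ⟨y, hyA⟩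
        = (m l : ℂ) * ((l : A → ℂ) (⟨x, hxA⟩ * ⟨y, hyA⟩) - (l : A → ℂ) ⟨y, hyA⟩) := by ring
      _ = _ := by rw [this]; ring

theorem result {G : Type*} [Group G] [Finite G] (χ : G → ℂ) (hχ : Cfsg.IsGeneralizedCharacter G χ) (p : ℕ) (hp : p.Prime) (x y : G) (hx : orderOf x = p) (hxy : x * y = y * x) : ∃ ω : ℂ, IsIntegral ℤ ω ∧ χ (x * y) - χ y = (1 - Complex.exp (2 * Real.pi * Complex.I / p)) * ω := by
  obtain ⟨χ₁, χ₂, h₁, h₂, rfl⟩ := hχ
  obtain ⟨ω₁, h1, e1⟩ := char_case h₁ hp hx hxy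
  obtain ⟨ω₂, h2, e2⟩ := char_case h₂ hp hx hxy
  refine ⟨ω₁ - ω₂, h1.sub h2, ?_⟩
  simp only [Pi.sub_apply]
  calc χ₁ (x * y) - χ₂ (x * y) - (χ₁ y - χ₂ y) = (χ₁ (x * y) - χ₁ y) - (χ₂ (x * y) - χ₂ y) := by ring
    _ = _ := by rw [e1, e2]; ring

end Cfsg.Agent.S1494
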