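import Cfsg.Statements.S1495
import Cfsg.Agent.Lib.H21.ModP

set_option autoImplicit false

open Cfsg

namespace Cfsg.Agent.S1495

theorem result (p : ℕ) (hp : p.Prime) (n : ℤ) (ω : ℂ) (hω : IsIntegral ℤ ω) (h : (n : ℂ) = (1 - Complex.exp (2 * Real.pi * Complex.I / p)) * ω) : (p : ℤ) ∣ n := by
  obtain ⟨M, hM⟩ := Cfsg.Agent.H21.exists_pModular hp
  have hp0 : (p : ℂ) ≠ 0 := by exact_mod_cast hp.ne_zero
  set ε : ℂ := Complex.exp (2 * Real.pi * Complex.I / p) with hε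
  have hεp : ε ^ (p ^ 1) = 1 := by
    rw [pow_one, hε, ← Complex.exp_nat_mul]
    rw [show (p : ℂ) * (2 * Real.pi * Complex.I / p) = 2 * Real.pi * Complex.I by field_simp]
    exact Complex.exp_two_pi_mul_I
  obtain ⟨hint, hmem⟩ := Cfsg.Agent.H21.root_sub_one_mem hM ε 1 hεp
  rw [← Cfsg.Agent.H21.intCast_mem_iff hM]
  have hn : ((n : ℤ) : AlgInt) = -(Cfsg.Agent.H21.toAlgInt ε hint - 1) * (⟨ω, hω⟩ : AlgInt) := by
    apply Subtype.ext
    simp only [Subalgebra.coe_mul, Subalgebra.coe_neg, Subalgebra.coe_sub, Subalgebra.coe_one]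
    simp only [Cfsg.Agent.H21.toAlgInt]
    push_cast
    rw [h]
    ring
  rw [hn]
  exact M.mul_mem_right _ (M.neg_mem hmem)

end Cfsg.Agent.S1495
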