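import Cfsg.Statements.S1497
import Cfsg.Agent.Lib.H06.Dade

set_option autoImplicit false
open Cfsg

namespace Cfsg.Agent.S1497

/-- Let A be a nonempty subset of the finite group G not containing 1 and L a subgroup. Then A is a TI-subset whose normaliser is L if and only if the Dade hypothesis holds for A, L and the constant choice H(a) = ⊥. -/
theorem result {G : Type*} [Group G] [Finite G] (A : Set G) (hA : A.Nonempty) (h1 : (1 : G) ∉ A) (L : Subgroup G) : (Cfsg.IsTISubset A ∧ Subgroup.normalizer A = L) ↔ Cfsg.DadeHypothesis A L (fun _ => ⊥) := by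
  constructor
  · rintro ⟨hTI, rfl⟩
    have hN : ∀ g : G, ∀ a ∈ A, g * a * g⁻¹ ∈ A → g ∈ Subgroup.normalizer A := by
      intro g a ha hg
      by_contra hn
      have := hTI g hn a ha hg
      exact h1 (this ▸ ha)
    refine ⟨h1, ?_, ?_, ?_, ?_, ?_, ?_, ?_, ?_⟩
    · intro a ha
      exact hN a a ha (by simpa using ha)
    · intro x hx a ha
      exact (Subgroup.mem_set_normalizer_iff.mp hx a).mp ha
    · intro a ha g hg
      exact ⟨g, hN g a ha hg, rfl⟩
    · intro a _
      exact bot_le
    · intro a _ c _ u hu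
      rw [Subgroup.mem_bot] at hu ⊢
      simp [hu]
    · intro a _
      exact bot_inf_eq _
    · intro a ha
      rw [bot_sup_eq]
      apply le_antisymm inf_le_right
      intro c hc
      refine Subgroup.mem_inf.mpr ⟨hN c a ha ?_, hc⟩
      have : c * a = a * c := (Subgroup.mem_centralizer_iff.mp hc a rfl).symm
      rw [this]
      simpa using ha
    · intro a _ b _
      simp
  · intro hD
    have hLN : L ≤ Subgroup.normalizer A := by
      intro y hy
      rw [Subgroup.mem_set_normalizer_iff]
      intro a
      refine ⟨fun ha => hD.conj_mem y hy a ha, fun ha => ?_⟩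
      have := hD.conj_mem y⁻¹ (L.inv_mem hy) _ ha
      simpa [mul_assoc] using this
    have hkey : ∀ g : G, ∀ a ∈ A, g * a * g⁻¹ ∈ A → g ∈ L := by
      intro g a ha hg
      obtain ⟨y, hy, he⟩ := hD.fusion a ha g hg
      have hc : y⁻¹ * g ∈ Subgroup.centralizer ({a} : Set G) := by
        rw [Subgroup.mem_centralizer_iff]
        intro z hz
        rw [Set.mem_singleton_iff.mp hz]
        have h0 : y⁻¹ * g * a * g⁻¹ * y = a := by
          have h2 : y⁻¹ * (g * a * g⁻¹) * y = a := by rw [← he]; group
          simpa [mul_assoc] using h2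
        calc a * (y⁻¹ * g) = (y⁻¹ * g * a * g⁻¹ * y) * (y⁻¹ * g) := by rw [h0]
          _ = y⁻¹ * g * a := by group
      have hsup := hD.sup_eq a ha
      rw [bot_sup_eq] at hsup
      rw [← hsup] at hc
      have h3 : y * (y⁻¹ * g) ∈ L := L.mul_mem hy hc.1
      simpa using h3
    refine ⟨?_, ?_⟩
    · intro g hg x hx hgx
      exact absurd (hLN (hkey g x hx hgx)) hg
    · apply le_antisymm _ hLN
      intro g hg
      obtain ⟨a, ha⟩ := hA
      exact hkey g a ha ((Subgroup.mem_set_normalizer_iff.mp hg a).mp ha)

end Cfsg.Agent.S1497
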