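import Cfsg.Statements.S1498
import Cfsg.Agent.Lib.H06.Dade

set_option autoImplicit false
open Cfsg

namespace Cfsg.Agent.S1498

/-- Under the Dade hypothesis for (A, L, H): for a ∈ A and x ∈ L, the subgroup attached to x * a * x⁻¹ is the conjugate of H a by x. -/
theorem result {G : Type*} [Group G] [Finite G] (A : Set G) (L : Subgroup G) (H : G → Subgroup G) (hD : Cfsg.DadeHypothesis A L H) (a : G) (ha : a ∈ A) (x : G) (hx : x ∈ L) : H (x * a * x⁻¹) = (H a).map (MulAut.conj x).toMonoidHom := by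
  have hb : x * a * x⁻¹ ∈ A := hD.conj_mem x hx a ha
  apply le_antisymm
  · intro v hv
    refine ⟨x⁻¹ * v * x, ?_, by simp [mul_assoc]⟩
    have h1 := Cfsg.Agent.H06.dade_conj_le hD hb ha (L.inv_mem hx) (x := x⁻¹)
      (a := x * a * x⁻¹) (b := a) (by group) hv
    simpa using h1
  · rintro _ ⟨u, hu, rfl⟩
    exact Cfsg.Agent.H06.dade_conj_le hD ha hb hx rfl hu

end Cfsg.Agent.S1498
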