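import Cfsg.Statements.S1499
import Cfsg.Agent.Lib.H06.Dade

set_option autoImplicit false
open Cfsg

namespace Cfsg.Agent.S1499

open Cfsg.Agent.H06

theorem part {G : Type*} [Group G] [Finite G] {A : Set G} {L : Subgroup G} {H : G → Subgroup G}
    (hD : Cfsg.DadeHypothesis A L H) {a b u v g : G} (ha : a ∈ A) (hb : b ∈ A) (hu : u ∈ H a)
    (hv : v ∈ H b) (he : g * (a * u) * g⁻¹ = b * v) : g * a * g⁻¹ = b := by
  have haL : a ∈ L ⊓ Subgroup.centralizer ({a} : Set G) := by
    refine Subgroup.mem_inf.mpr ⟨hD.subset ha, Subgroup.mem_centralizer_iff.mpr ?_⟩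
    intro z hz
    rw [Set.mem_singleton_iff.mp hz]
  have huc : a * u = u * a := Subgroup.mem_centralizer_iff.mp (hD.le_centralizer a ha hu) a rfl
  have hvc : b * v = v * b := Subgroup.mem_centralizer_iff.mp (hD.le_centralizer b hb hv) b rfl
  refine dade_part_unique hD ha hb (a' := g * a * g⁻¹) (u' := g * u * g⁻¹) ?_ ?_ hv ?_ hvc ?_
  · rw [conj_pow, pow_card_of_mem haL]; group
  · rw [conj_pow, pow_card_of_mem hu]; group
  · calc g * a * g⁻¹ * (g * u * g⁻¹) = g * (a * u) * g⁻¹ := by group
      _ = g * (u * a) * g⁻¹ := by rw [huc]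
      _ = g * u * g⁻¹ * (g * a * g⁻¹) := by group
  · rw [← he]; group

/-- Under the Dade hypothesis for (A, L, H), let a, b ∈ A. If an element of the coset a·H(a) is conjugate in G to an element of b·H(b), then a and b are conjugate by an element of L. Moreover the set normaliser of the coset a·H(a) is the centraliser of a. -/
theorem result {G : Type*} [Group G] [Finite G] (A : Set G) (L : Subgroup G) (H : G → Subgroup G) (hD : Cfsg.DadeHypothesis A L H) (a b : G) (ha : a ∈ A) (hb : b ∈ A) : ((∃ u ∈ H a, ∃ v ∈ H b, ∃ g : G, g * (a * u) * g⁻¹ = b * v) → ∃ x ∈ L, x * a * x⁻¹ = b) ∧ Subgroup.normalizer ((fun u : G => a * u) '' (H a : Set G)) = Subgroup.centralizer ({a} : Set G) := by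
  constructor
  · rintro ⟨u, hu, v, hv, g, he⟩
    have h1 := part hD ha hb hu hv he
    obtain ⟨x, hx, hx2⟩ := hD.fusion a ha g (h1 ▸ hb)
    exact ⟨x, hx, hx2.trans h1⟩
  · apply le_antisymm
    · intro g hg
      have h1 : a ∈ (fun u : G => a * u) '' (H a : Set G) := ⟨1, (H a).one_mem, by simp⟩
      obtain ⟨v, hv, hv2⟩ := (Subgroup.mem_set_normalizer_iff.mp hg a).mp h1
      have hv3 : a * v = g * (a * 1) * g⁻¹ := by simpa using hv2
      have h2 := part hD ha ha (H a).one_mem hv hv3.symm
      rw [Subgroup.mem_centralizer_iff]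
      intro z hz
      rw [Set.mem_singleton_iff.mp hz]
      have : g * a = a * g := by
        rw [mul_inv_eq_iff_eq_mul] at h2; exact h2
      exact this.symm
    · intro c hc
      rw [Subgroup.mem_set_normalizer_iff]
      intro w
      have hcomm : c * a = a * c := (Subgroup.mem_centralizer_iff.mp hc a rfl).symm
      have hcomm' : c⁻¹ * a = a * c⁻¹ := Commute.inv_left hcomm
      constructor
      · rintro ⟨u, hu, rfl⟩
        refine ⟨c * u * c⁻¹, hD.conj_mem_H a ha c hc u hu, ?_⟩
        show a * (c * u * c⁻¹) = c * (a * u) * c⁻¹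
        calc a * (c * u * c⁻¹) = (a * c) * u * c⁻¹ := by group
          _ = (c * a) * u * c⁻¹ := by rw [hcomm]
          _ = c * (a * u) * c⁻¹ := by group
      · rintro ⟨u, hu, hw⟩
        have hw' : a * u = c * w * c⁻¹ := hw
        refine ⟨c⁻¹ * u * c, ?_, ?_⟩
        · have := hD.conj_mem_H a ha c⁻¹ (Subgroup.inv_mem _ hc) u hu
          simpa using this
        · show a * (c⁻¹ * u * c) = w
          have h3 : w = c⁻¹ * (a * u) * c := by rw [hw']; group
          rw [h3]
          calc a * (c⁻¹ * u * c) = (a * c⁻¹) * u * c := by group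
            _ = (c⁻¹ * a) * u * c := by rw [hcomm']
            _ = c⁻¹ * (a * u) * c := by group

end Cfsg.Agent.S1499
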