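import Cfsg.Statements.S1500
import Cfsg.Agent.Lib.H06.DadeIso2

set_option autoImplicit false

open Cfsg

namespace Cfsg.Agent.S1500

open Cfsg.Agent.H06 Cfsg.Agent.H21

theorem result {G : Type*} [Group G] [Fintype G] (A : Set G) (L : Subgroup G) [Fintype L] (H : G → Subgroup G) (hD : Cfsg.DadeHypothesis A L H) (α : L → ℂ) (hα : Cfsg.IsClassFunction L α) (hαA : ∀ x : L, (x : G) ∉ A → α x = 0) : (∀ β : L → ℂ, Cfsg.IsClassFunction L β → (∀ x : L, (x : G) ∉ A → β x = 0) → Cfsg.classInner (Cfsg.dadeIsometry A L H α) (Cfsg.dadeIsometry A L H β) = Cfsg.classInner α β) ∧ (∀ (χ : G → ℂ) (ψ : L → ℂ), Cfsg.IsClassFunction G χ → (∀ a : L, (a : G) ∈ A → ψ a = (Nat.card (H a) : ℂ)⁻¹ * ∑ᶠ u ∈ (H a : Set G), χ (a * u)) → Cfsg.classInner (Cfsg.dadeIsometry A L H α) χ = Cfsg.classInner α ψ) :=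
  ⟨fun _ hβ _ => dade_isometry hD hα hαA hβ, fun χ ψ hχ hψ => dade_inner hD hα hαA χ ψ hχ hψ⟩

end Cfsg.Agent.S1500
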