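import Cfsg.Statements.S1503
import Cfsg.Agent.Lib.H06.CharLin2

set_option autoImplicit false

open Cfsg

namespace Cfsg.Agent.S1503

open Cfsg.Agent.H06 Cfsg.Agent.H21

theorem result {G : Type*} [Group G] [Fintype G] (W₁ W₂ : Subgroup G) (hW : Cfsg.IsSelfNormalizingCyclic W₁ W₂) (χ : (↥(W₁ ⊔ W₂) →* ℂˣ) → (G → ℂ)) (hχ : Cfsg.IsCyclicTIFamily W₁ W₂ χ) (θ : G → ℂ) (hθ : Cfsg.IsIrrCharacter G θ) (horth : ∀ ω, Cfsg.classInner θ (χ ω) = 0) (w : ↥(W₁ ⊔ W₂)) (hw₁ : (w : G) ∉ W₁) (hw₂ : (w : G) ∉ W₂) : θ w = 0 := by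
  classical
  haveI : Fintype ↥(W₁ ⊔ W₂) := Fintype.ofFinite _
  haveI : Fintype (IrrCharacter G) := Fintype.ofFinite _
  have hcl : IsClassFunction G θ := isClassFunction_of_isCharacter (isCharacter_of_irr hθ)
  obtain ⟨-, -, hdisj, hcomm, hcyc, -⟩ := id hW
  have hV : ∀ a b : ↥(W₁ ⊔ W₂), a * b = b * a := fun a b => Subtype.ext (comm_of_isCyclic hcyc a.2 b.2)
  set U₁ : Subgroup ↥(W₁ ⊔ W₂) := W₁.subgroupOf (W₁ ⊔ W₂) with hU₁
  set U₂ : Subgroup ↥(W₁ ⊔ W₂) := W₂.subgroupOf (W₁ ⊔ W₂) with hU₂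
  have hdisj' : U₁ ⊓ U₂ = ⊥ := by
    rw [eq_bot_iff]
    intro x hx
    have h1 := Subgroup.mem_inf.mp hx
    have h2 : (x : G) ∈ W₁ ⊓ W₂ := Subgroup.mem_inf.mpr ⟨Subgroup.mem_subgroupOf.mp h1.1, Subgroup.mem_subgroupOf.mp h1.2⟩
    rw [hdisj, Subgroup.mem_bot] at h2
    rw [Subgroup.mem_bot]
    exact Subtype.ext h2
  have hzero := vanish_of_orth_alpha hV U₁ U₂ hdisj' (fun x => (starRingEnd ℂ) (θ x)) ?_ w
    (fun h => hw₁ (Subgroup.mem_subgroupOf.mp h)) (fun h => hw₂ (Subgroup.mem_subgroupOf.mp h))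
  · simpa using hzero
  intro a b ha hb
  by_cases ha1 : a = 1
  · subst ha1
    simp
  by_cases hb1 : b = 1
  · subst hb1
    simp
  have ha' : ∀ w : ↥(W₁ ⊔ W₂), (w : G) ∈ W₂ → a w = 1 := fun w hw => ha w (Subgroup.mem_subgroupOf.mpr hw)
  have hb' : ∀ w : ↥(W₁ ⊔ W₂), (w : G) ∈ W₁ → b w = 1 := fun w hw => hb w (Subgroup.mem_subgroupOf.mpr hw)
  have h1 := hχ.induced_eq a b ha1 hb1 ha' hb'
  have h2 := frobenius_reciprocity (W₁ ⊔ W₂)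
    (fun w => 1 - (a w : ℂ) - (b w : ℂ) + (a w : ℂ) * (b w : ℂ)) θ hcl
  rw [h1] at h2
  have h4 : (fun g => 1 - χ a g - χ b g + χ (a * b) g) = χ 1 - χ a - χ b + χ (a * b) := by
    funext g
    simp [hχ.map_one]
  rw [h4, classInner_add_left, classInner_sub_left', classInner_sub_left'] at h2
  have hor' : ∀ ω, classInner (χ ω) θ = 0 := by
    intro ω
    rw [← classInner_comm_conj, horth, map_zero]
  rw [hor', hor', hor', hor'] at h2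
  simp only [sub_zero, add_zero, classInner] at h2
  have hne : ((Nat.card ↥(W₁ ⊔ W₂) : ℂ))⁻¹ ≠ 0 := inv_ne_zero (Nat.cast_ne_zero.mpr Nat.card_pos.ne')
  exact (mul_eq_zero.mp h2.symm).resolve_left hne

end Cfsg.Agent.S1503
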