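import Cfsg.Statements.S1504
import Cfsg.Agent.Lib.H06.CharLin

set_option autoImplicit false

open Cfsg

namespace Cfsg.Agent.S1504

open Cfsg.Agent.H06 Cfsg.Agent.H21

theorem result {G : Type*} [Group G] [Finite G] (W₁ W₂ : Subgroup G) (hdisj : W₁ ⊓ W₂ = ⊥) (hcomm : ∀ a ∈ W₁, ∀ b ∈ W₂, a * b = b * a) : (∀ φ ψ : ↥(W₁ ⊔ W₂) →* ℂˣ, (∀ w : ↥(W₁ ⊔ W₂), (w : G) ∈ W₂ → φ w = 1) → (∀ w : ↥(W₁ ⊔ W₂), (w : G) ∈ W₁ → ψ w = 1) → ∀ w : ↥(W₁ ⊔ W₂), ((w : G) ∈ W₁ ∨ (w : G) ∈ W₂) → (1 - (φ w : ℂ) - (ψ w : ℂ) + (φ w : ℂ) * (ψ w : ℂ)) = 0) ∧ LinearIndependent ℂ (fun p : {p : (↥(W₁ ⊔ W₂) →* ℂˣ) × (↥(W₁ ⊔ W₂) →* ℂˣ) // p.1 ≠ 1 ∧ p.2 ≠ 1 ∧ (∀ w : ↥(W₁ ⊔ W₂), (w : G) ∈ W₂ → p.1 w = 1) ∧ (∀ w : ↥(W₁ ⊔ W₂), (w : G) ∈ W₁ → p.2 w = 1)} => fun w : ↥(W₁ ⊔ W₂) => 1 - (p.1.1 w : ℂ) - (p.1.2 w : ℂ) + (p.1.1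 w : ℂ) * (p.1.2 w : ℂ)) := by
  classical
  refine ⟨fun φ ψ hφ hψ w hw => alpha_vanish hφ hψ w hw, ?_⟩
  haveI : Fintype ↥(W₁ ⊔ W₂) := Fintype.ofFinite _
  rw [linearIndependent_iff']
  intro s c hsum p₀ hp₀
  obtain ⟨⟨φ₀, ψ₀⟩, hφ₀, hψ₀, hφ₀₂, hψ₀₁⟩ := p₀
  -- pair with `φ₀ ψ₀`
  have h1 := congrArg (fun f => classInner f (linFun (φ₀ * ψ₀))) hsum
  beta_reduce at h1
  have hz : classInner (0 : ↥(W₁ ⊔ W₂) → ℂ) (linFun (φ₀ * ψ₀)) = 0 := classInner_zero_left _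
  rw [hz, classInner_sum_left] at h1
  simp only [classInner_smul_left] at h1
  have hone : ∀ {φ ψ : ↥(W₁ ⊔ W₂) →* ℂˣ}, (∀ w : ↥(W₁ ⊔ W₂), (w : G) ∈ W₂ → φ w = 1) →
      (∀ w : ↥(W₁ ⊔ W₂), (w : G) ∈ W₁ → φ w = 1) → φ = 1 := by
    intro φ ψ h2 h3
    exact hom_ext_sup hcomm (by simpa using h3) (by simpa using h2)
  have hval : ∀ p : {p : (↥(W₁ ⊔ W₂) →* ℂˣ) × (↥(W₁ ⊔ W₂) →* ℂˣ) // p.1 ≠ 1 ∧ p.2 ≠ 1 ∧ (∀ w : ↥(W₁ ⊔ W₂), (w : G) ∈ W₂ → p.1 w = 1) ∧ (∀ w : ↥(W₁ ⊔ W₂), (w : G) ∈ W₁ → p.2 w = 1)},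
      classInner (fun w : ↥(W₁ ⊔ W₂) => 1 - (p.1.1 w : ℂ) - (p.1.2 w : ℂ) + (p.1.1 w : ℂ) * (p.1.2 w : ℂ))
        (linFun (φ₀ * ψ₀)) = if p.1 = (φ₀, ψ₀) then 1 else 0 := by
    rintro ⟨⟨φ, ψ⟩, hφ, hψ, hφ₂, hψ₁⟩
    simp only at hφ hψ hφ₂ hψ₁ ⊢
    rw [alpha_eq, classInner_add_left, classInner_sub_left', classInner_sub_left', inner_lin,
      inner_lin, inner_lin, inner_lin]
    -- `φ₀ ψ₀` is nontrivial on `W₁` and on `W₂`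
    have hn1 : (1 : ↥(W₁ ⊔ W₂) →* ℂˣ) ≠ φ₀ * ψ₀ := by
      intro h
      apply hφ₀
      refine hom_ext_sup hcomm (fun w hw => ?_) (fun w hw => by simpa using hφ₀₂ w hw)
      have := congrArg (fun f : ↥(W₁ ⊔ W₂) →* ℂˣ => f w) h
      simpa [hψ₀₁ w hw] using this.symm
    have hn2 : φ ≠ φ₀ * ψ₀ := by
      intro h
      apply hψ₀
      refine hom_ext_sup hcomm (fun w hw => by simpa using hψ₀₁ w hw) (fun w hw => ?_)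
      have := congrArg (fun f : ↥(W₁ ⊔ W₂) →* ℂˣ => f w) h
      simp only [hφ₂ w hw, MonoidHom.mul_apply, hφ₀₂ w hw, one_mul] at this
      simpa using this.symm
    have hn3 : ψ ≠ φ₀ * ψ₀ := by
      intro h
      apply hφ₀
      refine hom_ext_sup hcomm (fun w hw => ?_) (fun w hw => by simpa using hφ₀₂ w hw)
      have := congrArg (fun f : ↥(W₁ ⊔ W₂) →* ℂˣ => f w) h
      simp only [hψ₁ w hw, MonoidHom.mul_apply, hψ₀₁ w hw, mul_one] at this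
      simpa using this.symm
    rw [if_neg hn1, if_neg hn2, if_neg hn3]
    have h4 := mul_eq_mul_iff hcomm hφ₂ hφ₀₂ hψ₁ hψ₀₁
    simp only [h4, Prod.mk.injEq]
    simp
  simp only [hval] at h1
  rw [Finset.sum_eq_single ⟨(φ₀, ψ₀), hφ₀, hψ₀, hφ₀₂, hψ₀₁⟩] at h1
  · simpa using h1
  · intro b _ hb
    rw [if_neg, mul_zero]
    intro h
    apply hb
    apply Subtype.ext
    exact h
  · intro h
    exact absurd hp₀ h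

end Cfsg.Agent.S1504
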