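import Cfsg.Statements.S1505
import Cfsg.Agent.Lib.H06.CharLin

set_option autoImplicit false

open Cfsg

namespace Cfsg.Agent.S1505

open Cfsg.Agent.H06 Cfsg.Agent.H21

open Classical in
theorem result {G : Type*} [Group G] [Fintype G] (W₁ W₂ : Subgroup G) (hW : Cfsg.IsSelfNormalizingCyclic W₁ W₂) (φ φ' ψ ψ' : ↥(W₁ ⊔ W₂) →* ℂˣ) (hφ : φ ≠ 1) (hφ' : φ' ≠ 1) (hψ : ψ ≠ 1) (hψ' : ψ' ≠ 1) (hφ₂ : ∀ w : ↥(W₁ ⊔ W₂), (w : G) ∈ W₂ → φ w = 1 ∧ φ' w = 1) (hψ₁ : ∀ w : ↥(W₁ ⊔ W₂), (w : G) ∈ W₁ → ψ w = 1 ∧ ψ' w = 1) : Cfsg.classInner (Cfsg.indFun (W₁ ⊔ W₂) (fun w => 1 - (φ w : ℂ) - (ψ w : ℂ) + (φ w : ℂ) * (ψ w : ℂ))) (fun _ => 1) = 1 ∧ Cfsg.classInner (Cfsg.indFun (W₁ ⊔ W₂) (fun w => 1 - (φ w : ℂ) - (ψ w : ℂ) + (φ w : ℂ) * (ψ w : ℂ))) (Cfsg.indFun (W₁ ⊔ W₂) (fun w => 1 - (φ' w : ℂ) - (ψ' w : ℂ) + (φ' w : ℂ) * (ψ' w : ℂ))) = 1 + (if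 φ = φ' then 1 else 0) + (if ψ = ψ' then 1 else 0) + (if φ = φ' then 1 else 0) * (if ψ = ψ' then 1 else 0) := by
  haveI : Fintype ↥(W₁ ⊔ W₂) := Fintype.ofFinite _
  have hfus := sn_fusion hW
  have hmr : ∀ a : ↥(W₁ ⊔ W₂) →* ℂˣ, a = a * 1 := fun a => MonoidHom.ext fun w => by simp
  have hml : ∀ a : ↥(W₁ ⊔ W₂) →* ℂˣ, a = 1 * a := fun a => MonoidHom.ext fun w => by simp
  obtain ⟨-, -, -, hcomm, hcyc, -⟩ := id hW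
  have h1₂ : ∀ w : ↥(W₁ ⊔ W₂), (w : G) ∈ W₂ → φ w = 1 := fun w hw => (hφ₂ w hw).1
  have h1₂' : ∀ w : ↥(W₁ ⊔ W₂), (w : G) ∈ W₂ → φ' w = 1 := fun w hw => (hφ₂ w hw).2
  have h2₁ : ∀ w : ↥(W₁ ⊔ W₂), (w : G) ∈ W₁ → ψ w = 1 := fun w hw => (hψ₁ w hw).1
  have h2₁' : ∀ w : ↥(W₁ ⊔ W₂), (w : G) ∈ W₁ → ψ' w = 1 := fun w hw => (hψ₁ w hw).2
  have hone1 : ∀ {ω : ↥(W₁ ⊔ W₂) →* ℂˣ}, (∀ w : ↥(W₁ ⊔ W₂), (w : G) ∈ W₂ → ω w = 1) →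
      (∀ w : ↥(W₁ ⊔ W₂), (w : G) ∈ W₁ → ω w = 1) → ω = 1 := by
    intro ω h2 h3
    exact hom_ext_sup hcomm (by simpa using h3) (by simpa using h2)
  have h11 : ∀ w : ↥(W₁ ⊔ W₂), (w : G) ∈ W₂ → (1 : ↥(W₁ ⊔ W₂) →* ℂˣ) w = 1 := fun _ _ => rfl
  have h12 : ∀ w : ↥(W₁ ⊔ W₂), (w : G) ∈ W₁ → (1 : ↥(W₁ ⊔ W₂) →* ℂˣ) w = 1 := fun _ _ => rfl
  have hφψ : φ * ψ ≠ 1 := by
    intro h
    have := (mul_eq_mul_iff hcomm h1₂ h11 h2₁ h12 (ψ' := 1) (φ' := 1)).mp (h.trans (hmr _))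
    exact hφ this.1
  refine ⟨?_, ?_⟩
  · rw [frobenius_reciprocity _ _ _ (fun g h => rfl), alpha_eq]
    have h1 : (fun _ : ↥(W₁ ⊔ W₂) => (1 : ℂ)) = linFun 1 := by
      funext w
      simp
    rw [h1, classInner_add_left, classInner_sub_left', classInner_sub_left', inner_lin, inner_lin,
      inner_lin, inner_lin, if_pos rfl, if_neg hφ, if_neg hψ, if_neg hφψ]
    simp
  · have hAα : ∀ {a b : ↥(W₁ ⊔ W₂) →* ℂˣ}, (∀ w : ↥(W₁ ⊔ W₂), (w : G) ∈ W₂ → a w = 1) →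
        (∀ w : ↥(W₁ ⊔ W₂), (w : G) ∈ W₁ → b w = 1) → ∀ x : ↥(W₁ ⊔ W₂),
        (x : G) ∉ ((↑(W₁ ⊔ W₂) : Set G) \ (↑W₁ ∪ ↑W₂)) →
        (fun w : ↥(W₁ ⊔ W₂) => 1 - (a w : ℂ) - (b w : ℂ) + (a w : ℂ) * (b w : ℂ)) x = 0 := by
      intro a b ha hb x hx
      apply alpha_vanish ha hb
      by_contra hcon
      push Not at hcon
      exact hx ⟨x.2, fun h => by
        rcases h with h | h
        · exact hcon.1 h
        · exact hcon.2 h⟩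
    have hcl : ∀ f : ↥(W₁ ⊔ W₂) → ℂ, IsClassFunction ↥(W₁ ⊔ W₂) f := by
      intro f g h
      congr 1
      apply Subtype.ext
      have h1 : (h : G) * g = g * h := comm_of_isCyclic hcyc h.2 g.2
      simp [h1]
    rw [classInner_indFun_of_fusion _ _ (hcl _) (hAα h1₂ h2₁) (hAα h1₂' h2₁') hfus, alpha_eq, alpha_eq]
    simp only [classInner_add_left, classInner_sub_left', classInner_add_right,
      classInner_sub_right', inner_lin]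
    -- disequalities
    have hmul : φ * ψ = φ' * ψ' ↔ φ = φ' ∧ ψ = ψ' := mul_eq_mul_iff hcomm h1₂ h1₂' h2₁ h2₁'
    have hne1 : (1 : ↥(W₁ ⊔ W₂) →* ℂˣ) ≠ φ' := hφ'.symm
    have hne2 : (1 : ↥(W₁ ⊔ W₂) →* ℂˣ) ≠ ψ' := hψ'.symm
    have hφ'ψ' : φ' * ψ' ≠ 1 := by
      intro h
      have := (mul_eq_mul_iff hcomm h1₂' h11 h2₁' h12 (ψ' := 1) (φ' := 1)).mp (h.trans (hmr _))
      exact hφ' this.1
    have hne3 : (1 : ↥(W₁ ⊔ W₂) →* ℂˣ) ≠ φ' * ψ' := hφ'ψ'.symm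
    have hne4 : φ ≠ 1 := hφ
    have hne5 : φ ≠ ψ' := by
      intro h
      apply hφ
      apply hone1 h1₂
      rw [h]
      exact h2₁'
    have hne6 : φ ≠ φ' * ψ' := by
      intro h
      have h3 : φ * 1 = φ' * ψ' := (mul_one _).trans h
      have := (mul_eq_mul_iff hcomm h1₂ h1₂' h12 h2₁').mp h3
      exact hψ' this.2.symm
    have hne7 : ψ ≠ 1 := hψ
    have hne8 : ψ ≠ φ' := by
      intro h
      apply hψ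
      apply hone1 _ h2₁
      rw [h]
      exact h1₂'
    have hne9 : ψ ≠ φ' * ψ' := by
      intro h
      have h3 : 1 * ψ = φ' * ψ' := (one_mul _).trans h
      have := (mul_eq_mul_iff hcomm h11 h1₂' h2₁ h2₁').mp h3
      exact hφ' this.1.symm
    have hne10 : φ * ψ ≠ 1 := hφψ
    have hne11 : φ * ψ ≠ φ' := by
      intro h
      have h3 : φ * ψ = φ' * 1 := h.trans (hmr _)
      have := (mul_eq_mul_iff hcomm h1₂ h1₂' h2₁ h12).mp h3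
      exact hψ this.2
    have hne12 : φ * ψ ≠ ψ' := by
      intro h
      have h3 : φ * ψ = 1 * ψ' := h.trans (hml _)
      have := (mul_eq_mul_iff hcomm h1₂ h11 h2₁ h2₁').mp h3
      exact hφ this.1
    simp only [hne1, hne2, hne3, hne4, hne5, hne6, hne7, hne8, hne9, hne10, hne11, hne12, hmul,
      if_false, if_true]
    by_cases h1 : φ = φ' <;> by_cases h2 : ψ = ψ' <;> simp [h1, h2] <;> ring

end Cfsg.Agent.S1505
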