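import Cfsg.Statements.S1506
import Cfsg.Agent.Lib.H06.CharLin

set_option autoImplicit false

open Cfsg

namespace Cfsg.Agent.S1506

open Cfsg.Agent.H06 Cfsg.Agent.H21

theorem result {G : Type*} [Group G] [Fintype G] (W₁ W₂ : Subgroup G) (hW : Cfsg.IsSelfNormalizingCyclic W₁ W₂) (χ : (↥(W₁ ⊔ W₂) →* ℂˣ) → (G → ℂ)) (hχ : Cfsg.IsCyclicTIFamily W₁ W₂ χ) (θ : G → ℂ) (hθ : Cfsg.IsClassFunction G θ) (hθV : ∀ w : ↥(W₁ ⊔ W₂), (w : G) ∉ W₁ → (w : G) ∉ W₂ → θ w = 0) (φ φ' ψ ψ' : ↥(W₁ ⊔ W₂) →* ℂˣ) (hφ₂ : ∀ w : ↥(W₁ ⊔ W₂), (w : G) ∈ W₂ → φ w = 1 ∧ φ' w = 1) (hψ₁ : ∀ w : ↥(W₁ ⊔ W₂), (w : G) ∈ W₁ → ψ w = 1 ∧ ψ' w = 1) : Cfsg.classInner θ (χ (φ * ψ)) + Cfsg.classInner θ (χ (φ' * ψ')) = Cfsg.classInner θ (χ (φ * ψ')) + Cfsg.classInner θ (χ (φ' * ψ)) := by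
  haveI : Fintype ↥(W₁ ⊔ W₂) := Fintype.ofFinite _
  -- the key relation
  have key : ∀ a b : ↥(W₁ ⊔ W₂) →* ℂˣ, (∀ w : ↥(W₁ ⊔ W₂), (w : G) ∈ W₂ → a w = 1) →
      (∀ w : ↥(W₁ ⊔ W₂), (w : G) ∈ W₁ → b w = 1) →
      classInner θ (χ (a * b)) = classInner θ (χ a) + classInner θ (χ b) - classInner θ (χ 1) := by
    intro a b ha hb
    by_cases ha1 : a = 1
    · subst ha1
      have : (1 : ↥(W₁ ⊔ W₂) →* ℂˣ) * b = b := MonoidHom.ext fun w => by simp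
      rw [this]
      ring
    by_cases hb1 : b = 1
    · subst hb1
      have : a * (1 : ↥(W₁ ⊔ W₂) →* ℂˣ) = a := MonoidHom.ext fun w => by simp
      rw [this]
      ring
    have h1 := hχ.induced_eq a b ha1 hb1 ha hb
    have h2 := frobenius_reciprocity (W₁ ⊔ W₂)
      (fun w => 1 - (a w : ℂ) - (b w : ℂ) + (a w : ℂ) * (b w : ℂ)) θ hθ
    have h3 : classInner (fun w : ↥(W₁ ⊔ W₂) => 1 - (a w : ℂ) - (b w : ℂ) + (a w : ℂ) * (b w : ℂ))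
        (fun h : ↥(W₁ ⊔ W₂) => θ h) = 0 := by
      simp only [classInner]
      rw [Finset.sum_eq_zero, mul_zero]
      intro w _
      by_cases hw : (w : G) ∈ W₁ ∨ (w : G) ∈ W₂
      · rw [alpha_vanish ha hb w hw, zero_mul]
      · push Not at hw
        rw [hθV w hw.1 hw.2]
        simp
    rw [h1] at h2
    have h4 : (fun g => 1 - χ a g - χ b g + χ (a * b) g) = χ 1 - χ a - χ b + χ (a * b) := by
      funext g
      simp [hχ.map_one]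
    rw [h4] at h2
    have h5 : classInner θ (χ 1 - χ a - χ b + χ (a * b)) = 0 := by
      rw [← classInner_comm_conj, h2, h3, map_zero]
    rw [classInner_add_right, classInner_sub_right', classInner_sub_right'] at h5
    linear_combination h5
  have e1 := key φ ψ (fun w hw => (hφ₂ w hw).1) (fun w hw => (hψ₁ w hw).1)
  have e2 := key φ' ψ' (fun w hw => (hφ₂ w hw).2) (fun w hw => (hψ₁ w hw).2)
  have e3 := key φ ψ' (fun w hw => (hφ₂ w hw).1) (fun w hw => (hψ₁ w hw).2)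
  have e4 := key φ' ψ (fun w hw => (hφ₂ w hw).2) (fun w hw => (hψ₁ w hw).1)
  rw [e1, e2, e3, e4]
  ring

end Cfsg.Agent.S1506
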