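import Cfsg.Statements.S1507
import Cfsg.Agent.Lib.H06.CharLin3
import Cfsg.Agent.S1506

set_option autoImplicit false

open Cfsg

namespace Cfsg.Agent.S1507

open Cfsg.Agent.H06 Cfsg.Agent.H21

open Classical in
theorem result {G : Type*} [Group G] [Fintype G] (W₁ W₂ : Subgroup G) (hW : Cfsg.IsSelfNormalizingCyclic W₁ W₂) (hodd : Odd (Nat.card ↥(W₁ ⊔ W₂))) (χ : (↥(W₁ ⊔ W₂) →* ℂˣ) → (G → ℂ)) (hχ : Cfsg.IsCyclicTIFamily W₁ W₂ χ) (hlt : Nat.card W₁ < Nat.card W₂) (θ : G → ℂ) (hθ : Cfsg.IsClassFunction G θ) (hθV : ∀ w : ↥(W₁ ⊔ W₂), (w : G) ∉ W₁ → (w : G) ∉ W₂ → θ w = 0) (hfew : Nat.card {ω : ↥(W₁ ⊔ W₂) →* ℂˣ // Cfsg.classInner θ (χ ω) ≠ 0} < 2 * Nat.card W₁) : (∀ ω, Cfsg.classInner θ (χ ω) = 0) ∨ (∃ (ψ₀ : ↥(W₁ ⊔ W₂) →* ℂˣ) (a : ℂ), ∀ ω, Cfsg.classInner θ (χ ω) = if (∀ w : ↥(W₁ ⊔ W₂), (w : G) ∈ W₂ → (ω * ψ₀⁻¹) w = 1) then a else 0) ∨ (∃ (φ₀ : ↥(W₁ ⊔ W₂) →*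 ℂˣ) (a : ℂ), ∀ ω, Cfsg.classInner θ (χ ω) = if (∀ w : ↥(W₁ ⊔ W₂), (w : G) ∈ W₁ → (ω * φ₀⁻¹) w = 1) then a else 0) := by
  obtain ⟨-, -, hdisj, hcomm, hcyc, -⟩ := id hW
  -- parity
  have hcardW := card_sup_of_commute hcomm hdisj
  have hw₁ : Odd (Nat.card W₁) := by
    rw [hcardW] at hodd
    exact (Nat.odd_mul.mp hodd).1
  have hw₂ : Odd (Nat.card W₂) := by
    rw [hcardW] at hodd
    exact (Nat.odd_mul.mp hodd).2
  have hwid : Nat.card W₁ + 2 ≤ Nat.card W₂ := by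
    obtain ⟨r, hr⟩ := hw₁
    obtain ⟨s, hs⟩ := hw₂
    omega
  haveI : Finite (↥(W₁ ⊔ W₂) →* ℂˣ) := finite_dual' (fun a b => Subtype.ext (comm_of_isCyclic hcyc a.2 b.2))
  let X := {φ : ↥(W₁ ⊔ W₂) →* ℂˣ // ∀ w : ↥(W₁ ⊔ W₂), (w : G) ∈ W₂ → φ w = 1}
  let Y := {ψ : ↥(W₁ ⊔ W₂) →* ℂˣ // ∀ w : ↥(W₁ ⊔ W₂), (w : G) ∈ W₁ → ψ w = 1}
  haveI : Fintype X := Fintype.ofFinite _
  haveI : Fintype Y := Fintype.ofFinite _
  have hcX : Fintype.card X = Nat.card W₁ := by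
    rw [← Nat.card_eq_fintype_card]
    exact card_ann_eq hcomm hdisj hcyc
  have hcY : Fintype.card Y = Nat.card W₂ := by
    rw [← Nat.card_eq_fintype_card]
    exact card_ann_eq' hcomm hdisj hcyc
  let b : X → Y → ℂ := fun x y => classInner θ (χ (x.1 * y.1))
  have hrect : ∀ x x' y y', b x y + b x' y' = b x y' + b x' y := by
    intro x x' y y'
    exact Cfsg.Agent.S1506.result W₁ W₂ hW χ hχ θ hθ hθV x.1 x'.1 y.1 y'.1
      (fun w hw => ⟨x.2 w hw, x'.2 w hw⟩) (fun w hw => ⟨y.2 w hw, y'.2 w hw⟩)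
  -- the bijection
  have hdec : ∀ ω : ↥(W₁ ⊔ W₂) →* ℂˣ, ∃ p : X × Y, ω = p.1.1 * p.2.1 := by
    intro ω
    obtain ⟨φ, ψ, h1, h2, e⟩ := exists_dual_decomp hcomm hdisj ω
    exact ⟨(⟨φ, h1⟩, ⟨ψ, h2⟩), e⟩
  have hinj : ∀ p q : X × Y, p.1.1 * p.2.1 = q.1.1 * q.2.1 → p = q := by
    intro p q h
    obtain ⟨h1, h2⟩ := (mul_eq_mul_iff hcomm p.1.2 q.1.2 p.2.2 q.2.2).mp h
    exact Prod.ext (Subtype.ext h1) (Subtype.ext h2)
  have hcount : (Finset.univ.filter (fun p : X × Y => b p.1 p.2 ≠ 0)).card < 2 * Fintype.card X := by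
    rw [hcX]
    refine lt_of_le_of_lt ?_ hfew
    have e1 : (Finset.univ.filter (fun p : X × Y => b p.1 p.2 ≠ 0)).card =
        Nat.card {p : X × Y // b p.1 p.2 ≠ 0} := by
      rw [Nat.card_eq_fintype_card, Fintype.card_subtype]
    rw [e1]
    refine Nat.card_le_card_of_injective
      (fun p => (⟨p.1.1.1 * p.1.2.1, p.2⟩ : {ω : ↥(W₁ ⊔ W₂) →* ℂˣ // Cfsg.classInner θ (χ ω) ≠ 0})) ?_
    intro p q h
    exact Subtype.ext (hinj _ _ (congrArg Subtype.val h))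
  rcases rect_trichotomy b hrect hcount (by rw [hcX, hcY]; exact hwid) with h | ⟨y₀, c, h⟩ | ⟨x₀, c, h⟩
  · left
    intro ω
    obtain ⟨p, rfl⟩ := hdec ω
    exact h p.1 p.2
  · right
    left
    refine ⟨y₀.1, c, fun ω => ?_⟩
    obtain ⟨p, rfl⟩ := hdec ω
    have h1 := h p.1 p.2
    show classInner θ (χ (p.1.1 * p.2.1)) = _
    rw [show classInner θ (χ (p.1.1 * p.2.1)) = b p.1 p.2 from rfl, h1]
    have hiff : (p.2 = y₀) ↔ (∀ w : ↥(W₁ ⊔ W₂), (w : G) ∈ W₂ → (p.1.1 * p.2.1 * y₀.1⁻¹) w = 1) := by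
      constructor
      · rintro rfl w hw
        simp [p.1.2 w hw]
      · intro hh
        apply Subtype.ext
        refine hom_ext_sup hcomm (fun w hw => by rw [p.2.2 w hw, y₀.2 w hw]) (fun w hw => ?_)
        have := hh w hw
        simp only [MonoidHom.mul_apply, MonoidHom.inv_apply, p.1.2 w hw, one_mul] at this
        exact mul_inv_eq_one.mp this
    simp only [hiff]
  · right
    right
    refine ⟨x₀.1, c, fun ω => ?_⟩
    obtain ⟨p, rfl⟩ := hdec ω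
    have h1 := h p.1 p.2
    show classInner θ (χ (p.1.1 * p.2.1)) = _
    rw [show classInner θ (χ (p.1.1 * p.2.1)) = b p.1 p.2 from rfl, h1]
    have hiff : (p.1 = x₀) ↔ (∀ w : ↥(W₁ ⊔ W₂), (w : G) ∈ W₁ → (p.1.1 * p.2.1 * x₀.1⁻¹) w = 1) := by
      constructor
      · rintro rfl w hw
        simp [p.2.2 w hw]
      · intro hh
        apply Subtype.ext
        refine hom_ext_sup hcomm (fun w hw => ?_) (fun w hw => by rw [p.1.2 w hw, x₀.2 w hw])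
        have := hh w hw
        simp only [MonoidHom.mul_apply, MonoidHom.inv_apply, p.2.2 w hw, mul_one] at this
        exact mul_inv_eq_one.mp this
    simp only [hiff]

end Cfsg.Agent.S1507
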