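import Cfsg.Statements.S1508
import Cfsg.Agent.Lib.H06.CyclicTI

set_option autoImplicit false

open Cfsg

namespace Cfsg.Agent.S1508

open Cfsg.Agent.H06 Cfsg.Agent.H21

theorem classInner_comp_pow {G : Type*} [Group G] [Fintype G] {k : ℕ} (hk : k.Coprime (Nat.card G)) (f g : G → ℂ) :
    classInner (fun x => f (x ^ k)) (fun x => g (x ^ k)) = classInner f g := by
  simp only [classInner]
  congr 1
  exact Fintype.sum_equiv (powCoprime hk.symm) _ _ (fun x => rfl)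

/-- The Galois identity. -/
theorem family_pow {G : Type*} [Group G] [Fintype G] (W₁ W₂ : Subgroup G) (hW : Cfsg.IsSelfNormalizingCyclic W₁ W₂) (hodd : Odd (Nat.card ↥(W₁ ⊔ W₂))) (χ : (↥(W₁ ⊔ W₂) →* ℂˣ) → (G → ℂ)) (hχ : Cfsg.IsCyclicTIFamily W₁ W₂ χ)
    {k : ℕ} (hk : k.Coprime (Nat.card G)) (ω : ↥(W₁ ⊔ W₂) →* ℂˣ) (g : G) : χ ω (g ^ k) = χ (ω ^ k) g := by
  classical
  obtain ⟨hW₁, hW₂, hdisj, hcomm, hcyc, -⟩ := id hW
  have hWk : k.Coprime (Nat.card ↥(W₁ ⊔ W₂)) :=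
    hk.coprime_dvd_right (Subgroup.card_subgroup_dvd_card _)
  have hcardW := card_sup_of_commute hcomm hdisj
  have hW1 : 1 < Nat.card ↥(W₁ ⊔ W₂) := by
    have h1 : Nat.card W₁ ≠ 1 := fun h => hW₁ ((Subgroup.card_eq_one).mp (by simpa using h))
    have h2 : 0 < Nat.card W₂ := Nat.card_pos
    have h3 : 0 < Nat.card W₁ := Nat.card_pos
    rw [hcardW]
    nlinarith [show 2 ≤ Nat.card W₁ by omega]
  obtain ⟨s, hs⟩ := Nat.exists_mul_mod_eq_one_of_coprime hWk hW1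
  have hpt : ∀ (a : ↥(W₁ ⊔ W₂) →* ℂˣ) (w : ↥(W₁ ⊔ W₂)), (a w) ^ (k * s) = a w := by
    intro a w
    have h1 : k * s = Nat.card ↥(W₁ ⊔ W₂) * (k * s / Nat.card ↥(W₁ ⊔ W₂)) + 1 := by
      have := Nat.div_add_mod (k * s) (Nat.card ↥(W₁ ⊔ W₂))
      rw [hs.2] at this
      exact this.symm
    have h2 : (a w) ^ Nat.card ↥(W₁ ⊔ W₂) = 1 := by
      rw [← map_pow, pow_card_eq_one', map_one]
    rw [h1, pow_add, pow_mul, h2, one_pow, one_mul, pow_one]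
  have hsk : ∀ a : ↥(W₁ ⊔ W₂) →* ℂˣ, (a ^ s) ^ k = a := by
    intro a
    refine MonoidHom.ext fun w => ?_
    show ((a w) ^ s) ^ k = a w
    rw [← pow_mul, mul_comm, hpt]
  have hks' : ∀ a : ↥(W₁ ⊔ W₂) →* ℂˣ, (a ^ k) ^ s = a := by
    intro a
    refine MonoidHom.ext fun w => ?_
    show ((a w) ^ k) ^ s = a w
    rw [← pow_mul, hpt]
  have hone : ∀ n : ℕ, (1 : ↥(W₁ ⊔ W₂) →* ℂˣ) ^ n = 1 := by
    intro n
    refine MonoidHom.ext fun w => ?_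
    show (1 : ℂˣ) ^ n = 1
    rw [one_pow]
  let χ' : (↥(W₁ ⊔ W₂) →* ℂˣ) → G → ℂ := fun a x => χ (a ^ s) (x ^ k)
  have hsχ : ∀ i, SignedIrr (χ i) := hχ.irr_or_neg
  have hoχ : ∀ i j, i ≠ j → classInner (χ i) (χ j) = 0 := by
    intro i j hij
    rw [hχ.orthonormal, if_neg hij]
  have hs' : ∀ i, SignedIrr (χ' i) := by
    intro i
    rcases hχ.irr_or_neg (i ^ s) with h | h
    · left
      exact isIrrCharacter_comp_pow hk h
    · right
      exact isIrrCharacter_comp_pow hk h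
  have ho' : ∀ i j, i ≠ j → classInner (χ' i) (χ' j) = 0 := by
    intro i j hij
    show classInner (fun x => χ (i ^ s) (x ^ k)) (fun x => χ (j ^ s) (x ^ k)) = 0
    rw [classInner_comp_pow hk, hχ.orthonormal, if_neg]
    intro h
    apply hij
    rw [← hsk i, h, hsk]
  have h1 : χ 1 = χ' 1 := by
    funext x
    show χ 1 x = χ (1 ^ s) (x ^ k)
    rw [hone, hχ.map_one]
  have hind : ∀ φ ψ : ↥(W₁ ⊔ W₂) →* ℂˣ, φ ≠ 1 → ψ ≠ 1 →
      (∀ w : ↥(W₁ ⊔ W₂), (w : G) ∈ W₂ → φ w = 1) → (∀ w : ↥(W₁ ⊔ W₂), (w : G) ∈ W₁ → ψ w = 1) →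
      χ (φ * ψ) - χ φ - χ ψ = χ' (φ * ψ) - χ' φ - χ' ψ := by
    intro φ ψ hφ hψ hφ₂ hψ₁
    have hφs : φ ^ s ≠ 1 := by
      intro h
      apply hφ
      rw [← hsk φ, h, hone]
    have hψs : ψ ^ s ≠ 1 := by
      intro h
      apply hψ
      rw [← hsk ψ, h, hone]
    have e1 := hχ.induced_eq φ ψ hφ hψ hφ₂ hψ₁
    have e2 := hχ.induced_eq (φ ^ s) (ψ ^ s) hφs hψs
      (fun w hw => by simp [hφ₂ w hw]) (fun w hw => by simp [hψ₁ w hw])
    funext x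
    have e3 := congrFun e2 (x ^ k)
    rw [indFun_comp_pow _ hk] at e3
    have hcomp : (fun w : ↥(W₁ ⊔ W₂) => 1 - (((φ ^ s) (w ^ k) : ℂˣ) : ℂ) - (((ψ ^ s) (w ^ k) : ℂˣ) : ℂ) +
          (((φ ^ s) (w ^ k) : ℂˣ) : ℂ) * (((ψ ^ s) (w ^ k) : ℂˣ) : ℂ)) =
        fun w => 1 - (φ w : ℂ) - (ψ w : ℂ) + (φ w : ℂ) * (ψ w : ℂ) := by
      funext w
      have h1 : ∀ a : ↥(W₁ ⊔ W₂) →* ℂˣ, (a ^ s) (w ^ k) = a w := by
        intro a
        rw [map_pow, ← MonoidHom.pow_apply, hsk]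
      rw [h1, h1]
    rw [hcomp, e1] at e3
    have e4 := congrFun (rfl : (fun g => 1 - χ φ g - χ ψ g + χ (φ * ψ) g) = _) x
    simp only at e3
    have e5 : (φ * ψ) ^ s = φ ^ s * ψ ^ s := by
      refine MonoidHom.ext fun w => ?_
      show ((φ w) * (ψ w)) ^ s = (φ w) ^ s * (ψ w) ^ s
      rw [mul_pow]
    show χ (φ * ψ) x - χ φ x - χ ψ x = χ ((φ * ψ) ^ s) (x ^ k) - χ (φ ^ s) (x ^ k) - χ (ψ ^ s) (x ^ k)
    rw [e5]
    linear_combination e3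
  have huniq := family_unique hW hodd hsχ hs' hoχ ho' h1 hind
  have h2 := congrFun (congrFun huniq (ω ^ k)) g
  show χ ω (g ^ k) = χ (ω ^ k) g
  have h3 : χ' (ω ^ k) g = χ ω (g ^ k) := by
    show χ ((ω ^ k) ^ s) (g ^ k) = χ ω (g ^ k)
    rw [hks']
  rw [← h3, h2]

theorem result {G : Type*} [Group G] [Fintype G] (W₁ W₂ : Subgroup G) (hW : Cfsg.IsSelfNormalizingCyclic W₁ W₂) (hodd : Odd (Nat.card ↥(W₁ ⊔ W₂))) (χ : (↥(W₁ ⊔ W₂) →* ℂˣ) → (G → ℂ)) (hχ : Cfsg.IsCyclicTIFamily W₁ W₂ χ) (ω : ↥(W₁ ⊔ W₂) →* ℂˣ) (g : G) (hg : Nat.Coprime (orderOf g) (orderOf ω)) : ∃ n : ℤ, χ ω g = n := by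
  classical
  obtain ⟨hW₁, hW₂, hdisj, hcomm, hcyc, -⟩ := id hW
  haveI : Finite (↥(W₁ ⊔ W₂) →* ℂˣ) := finite_dual' (fun a b => Subtype.ext (comm_of_isCyclic hcyc a.2 b.2))
  have hinv : ∀ k : ℕ, k.Coprime (Nat.card G) → χ ω (g ^ k) = χ ω g := by
    intro k hk
    set n := orderOf g with hn
    set m := orderOf ω with hm
    have hnpos : 0 < n := orderOf_pos g
    have hmpos : 0 < m := orderOf_pos ω
    have hkn : k.Coprime n := hk.coprime_dvd_right (orderOf_dvd_natCard g)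
    let k₀ := Nat.chineseRemainder hg k 1
    have hk₀ := k₀.2
    have hk₀n : (k₀ : ℕ).Coprime n := by
      show Nat.gcd _ _ = 1
      rw [Nat.ModEq.gcd_eq hk₀.1]
      exact hkn
    have hk₀m : (k₀ : ℕ).Coprime m := by
      show Nat.gcd _ _ = 1
      rw [Nat.ModEq.gcd_eq hk₀.2]
      simp
    haveI : NeZero (n * m) := ⟨(Nat.mul_pos hnpos hmpos).ne'⟩
    have hunit : IsUnit ((k₀ : ℕ) : ZMod (n * m)) :=
      (ZMod.isUnit_iff_coprime _ _).mpr (Nat.Coprime.mul_right hk₀n hk₀m)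
    obtain ⟨p, hp, hpp, hpeq⟩ := Nat.forall_exists_prime_gt_and_eq_mod hunit (Nat.card G)
    have hpeq' : p ≡ (k₀ : ℕ) [MOD n * m] := (ZMod.natCast_eq_natCast_iff _ _ _).mp hpeq
    have hpn : p ≡ k [MOD n] := (hpeq'.of_mul_right m).trans hk₀.1
    have hpm : p ≡ 1 [MOD m] := (hpeq'.of_mul_left n).trans hk₀.2
    have hpco : p.Coprime (Nat.card G) := by
      refine (Nat.Prime.coprime_iff_not_dvd hpp).mpr fun h => ?_
      have := Nat.le_of_dvd Nat.card_pos h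
      omega
    have e1 : g ^ k = g ^ p := (pow_eq_pow_iff_modEq).mpr hpn.symm
    have e2 : ω ^ p = ω := by
      have h3 : ω ^ p = ω ^ 1 := (pow_eq_pow_iff_modEq (x := ω)).mpr hpm
      exact h3.trans (MonoidHom.ext fun w => pow_one _)
    rw [e1, family_pow W₁ W₂ hW hodd χ hχ hpco, e2]
  rcases hχ.irr_or_neg ω with h | h
  · exact isCharacter_int_of_pow_invariant (isCharacter_of_irr h) g hinv
  · obtain ⟨n, hn⟩ := isCharacter_int_of_pow_invariant (isCharacter_of_irr h) g (fun k hk => by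
      show -(χ ω (g ^ k)) = - (χ ω g)
      rw [hinv k hk])
    refine ⟨-n, ?_⟩
    have : -(χ ω g) = n := hn
    push_cast
    linear_combination -this

end Cfsg.Agent.S1508
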