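import Cfsg.Statements.S1510
import Cfsg.Agent.Lib.H06.Basic

set_option autoImplicit false

open Cfsg

namespace Cfsg.Agent.S1510

open Cfsg.Agent.H06

theorem result {L : Type*} [Group L] [Fintype L] (K W₁ W₂ : Subgroup L) [hK : K.Normal] (hKW₁ : K ⊓ W₁ = ⊥) (hKW₁' : K ⊔ W₁ = ⊤) (hW₁ : W₁ ≠ ⊥) (hW₁c : IsCyclic W₁) (hHall : Nat.Coprime (Nat.card W₁) W₁.index) (hW₂ : W₂ ≠ ⊥) (hW₂c : IsCyclic W₂) (hW₂K : W₂ ≤ K) (hC : ∀ x ∈ W₁, x ≠ 1 → K ⊓ Subgroup.centralizer ({x} : Set L) = W₂) (hodd : Odd (Nat.card ↥(W₁ ⊔ W₂))) : Cfsg.IsSelfNormalizingCyclic W₁ W₂ := by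
  classical
  -- commuting
  have hcomm : ∀ a ∈ W₁, ∀ b ∈ W₂, a * b = b * a := by
    intro a ha b hb
    by_cases h1 : a = 1
    · simp [h1]
    · rw [← hC a ha h1] at hb
      have := Subgroup.mem_centralizer_iff.mp hb.2 a rfl
      exact this
  have hdisj : W₁ ⊓ W₂ = ⊥ := by
    rw [eq_bot_iff]
    intro x hx
    have : x ∈ K ⊓ W₁ := ⟨hW₂K hx.2, hx.1⟩
    rwa [hKW₁] at this
  -- coprimality of `W₁` and `W₂`
  have hcardK : Nat.card K = W₁.index := by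
    have h1 : Nat.card K * Nat.card W₁ = Nat.card L := by
      have hcompl : Subgroup.IsComplement' K W₁ :=
        Subgroup.isComplement'_of_disjoint_and_mul_eq_univ (disjoint_iff.mpr hKW₁) (by
          rw [← Subgroup.normal_mul K W₁, hKW₁']
          rfl)
      exact hcompl.card_mul
    have h2 := W₁.card_mul_index
    rw [← h2, mul_comm] at h1
    exact Nat.eq_of_mul_eq_mul_left Nat.card_pos h1
  have hcop : (Nat.card W₁).Coprime (Nat.card W₂) := by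
    have h1 : Nat.card W₂ ∣ Nat.card K := Subgroup.card_dvd_of_le hW₂K
    rw [hcardK] at h1
    exact Nat.Coprime.coprime_dvd_right h1 hHall
  -- cyclic
  have hcyc : IsCyclic ↥(W₁ ⊔ W₂) := by
    haveI : IsCyclic (W₁ × W₂) := Group.isCyclic_prod_iff.mpr ⟨hW₁c, hW₂c, hcop⟩
    let f : W₁ × W₂ →* ↥(W₁ ⊔ W₂) :=
      MonoidHom.noncommCoprod (Subgroup.inclusion le_sup_left) (Subgroup.inclusion le_sup_right)
        (fun a b => Subtype.ext (hcomm a a.2 b b.2))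
    refine isCyclic_of_surjective f ?_
    rintro ⟨x, hx⟩
    obtain ⟨a, ha, b, hb, rfl⟩ := mem_sup_of_commute hcomm hx
    exact ⟨(⟨a, ha⟩, ⟨b, hb⟩), rfl⟩
  have hW₁c' : IsCyclic W₁ := hW₁c
  refine ⟨hW₁, hW₂, hdisj, hcomm, hcyc, ?_⟩
  intro X hX hne
  apply le_antisymm
  · -- `N(X) ≤ W`
    intro g hg
    obtain ⟨x, hxX⟩ := hne
    have hxW := (hX hxX).1
    have hx₁ := (hX hxX).2
    obtain ⟨w₁, hw₁, w₂, hw₂, rfl⟩ := mem_sup_of_commute hcomm hxW
    have hw₁ne : w₁ ≠ 1 := by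
      rintro rfl
      apply hx₁
      right
      simpa using hw₂
    -- the conjugate lies in X
    have hgx : g * (w₁ * w₂) * g⁻¹ ∈ X := by
      exact (Subgroup.mem_set_normalizer_iff.mp hg (w₁ * w₂)).mp hxX
    obtain ⟨u₁, hu₁, u₂, hu₂, hu⟩ := mem_sup_of_commute hcomm (hX hgx).1
    -- the exponent
    set n₁ := Nat.card W₁
    set n₂ := Nat.card W₂
    obtain ⟨e, he₁, he₂⟩ : ∃ e : ℕ, e ≡ 1 [MOD n₁] ∧ e ≡ 0 [MOD n₂] := by
      obtain ⟨e, h1, h2⟩ := Nat.chineseRemainder hcop 1 0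
      exact ⟨e, h1, h2⟩
    have hpart : ∀ a ∈ W₁, ∀ b ∈ W₂, (a * b) ^ e = a := by
      intro a ha b hb
      have hc : Commute a b := hcomm a ha b hb
      rw [hc.mul_pow]
      have h1 : a ^ e = a := by
        have h2 : orderOf a ∣ n₁ := by
          have := orderOf_dvd_natCard (⟨a, ha⟩ : W₁)
          rwa [Subgroup.orderOf_mk] at this
        have h3 : a ^ e = a ^ 1 := pow_eq_pow_iff_modEq.mpr (he₁.of_dvd h2)
        rwa [pow_one] at h3
      have h2 : b ^ e = 1 := by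
        have h3 : orderOf b ∣ n₂ := by
          have := orderOf_dvd_natCard (⟨b, hb⟩ : W₂)
          rwa [Subgroup.orderOf_mk] at this
        have h4 : n₂ ∣ e := (Nat.modEq_zero_iff_dvd.mp he₂)
        exact orderOf_dvd_iff_pow_eq_one.mp (h3.trans h4)
      rw [h1, h2, mul_one]
    have h1 : g * w₁ * g⁻¹ = u₁ := by
      have h2 : (g * (w₁ * w₂) * g⁻¹) ^ e = g * (w₁ * w₂) ^ e * g⁻¹ := by rw [conj_pow]
      rw [hpart w₁ hw₁ w₂ hw₂, hu, hpart u₁ hu₁ u₂ hu₂] at h2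
      exact h2.symm
    -- decomposition of `g`
    have hgtop : g ∈ K ⊔ W₁ := by rw [hKW₁']; trivial
    obtain ⟨k, hk, w, hw, hgd⟩ := Subgroup.mem_sup_of_normal_left.mp hgtop
    have hww : w * w₁ * w⁻¹ = w₁ := by
      rw [Cfsg.Agent.H06.comm_of_isCyclic hW₁c' hw hw₁]
      group
    have h2 : k * w₁ * k⁻¹ = u₁ := by
      rw [← h1, ← hgd]
      calc k * w₁ * k⁻¹ = k * (w * w₁ * w⁻¹) * k⁻¹ := by rw [hww]
        _ = k * w * w₁ * (k * w)⁻¹ := by group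
    have h3 : k * (w₁ * k⁻¹ * w₁⁻¹) ∈ K := K.mul_mem hk (hK.conj_mem _ (K.inv_mem hk) w₁)
    have h4 : k * (w₁ * k⁻¹ * w₁⁻¹) = u₁ * w₁⁻¹ := by
      rw [← h2]
      group
    have h5 : k * (w₁ * k⁻¹ * w₁⁻¹) ∈ K ⊓ W₁ :=
      ⟨h3, by rw [h4]; exact W₁.mul_mem hu₁ (W₁.inv_mem hw₁)⟩
    rw [hKW₁, Subgroup.mem_bot] at h5
    have h6 : k ∈ K ⊓ Subgroup.centralizer ({w₁} : Set L) := by
      refine Subgroup.mem_inf.mpr ⟨hk, ?_⟩
      rw [Subgroup.mem_centralizer_iff]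
      intro y hy
      have hy' : y = w₁ := hy
      rw [hy']
      have h7 : k * w₁ = (k * (w₁ * k⁻¹ * w₁⁻¹)) * (w₁ * k) := by group
      rw [h5, one_mul] at h7
      exact h7.symm
    rw [hC w₁ hw₁ hw₁ne] at h6
    rw [← hgd]
    exact Subgroup.mul_mem _ (Subgroup.mem_sup_right h6) (Subgroup.mem_sup_left hw)
  · -- `W ≤ N(X)`
    intro w hw
    rw [Subgroup.mem_set_normalizer_iff]
    intro x
    by_cases hx : x ∈ X
    · have hxW := (hX hx).1
      have h1 : w * x * w⁻¹ = x := by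
        rw [Cfsg.Agent.H06.comm_of_isCyclic hcyc hw hxW]
        group
      rw [h1]
    · have : w * x * w⁻¹ ∉ X := by
        intro h
        have hW := (hX h).1
        have h2 : x = w⁻¹ * (w * x * w⁻¹) * w := by group
        apply hx
        have h3 : w⁻¹ * (w * x * w⁻¹) * w = w * x * w⁻¹ := by
          rw [Cfsg.Agent.H06.comm_of_isCyclic hcyc (Subgroup.inv_mem _ hw) hW]
          group
        rw [h2, h3]
        exact h
      simp [hx, this]

end Cfsg.Agent.S1510
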