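import Cfsg.Statements.S1511
import Cfsg.Agent.Lib.H06.TISplit2
import Cfsg.Agent.S1502
import Cfsg.Agent.S1510

set_option autoImplicit false
open Cfsg

namespace Cfsg.Agent.S1511

open Cfsg.Agent.H06 Cfsg.Agent.H21

/-- Let L be a finite group with K normal with complement W₁ ≠ 1 a cyclic Hall subgroup, and W₂ ≠ 1 a cyclic subgroup of K equal to C_K(x) for every non-identity x ∈ W₁, with W₁W₂ of odd order. Then there are a map μ from the linear characters of W = W₁ ⊔ W₂ to irreducible characters of L, injective, and a sign δ(ω) ∈ {1, −1} depending only on the values of ω on W₂, such that: for ω, ω' agreeing on W₂, the function induced to L from ω − ω' equals δ(ω) • (μ ω − μ ω'); μ ω x = δ(ω) ω x for x ∈ W outside W₂; every irreducible character of L not of the form μ ω vanishes on W outside W₂; and μ ω 1 − δ(ω) is an integer multiple of Nat.card W₁. -/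
theorem result {L : Type*} [Group L] [Fintype L] (K W₁ W₂ : Subgroup L) [hK : K.Normal] (hKW₁ : K ⊓ W₁ = ⊥) (hKW₁' : K ⊔ W₁ = ⊤) (hW₁ : W₁ ≠ ⊥) (hW₁c : IsCyclic W₁) (hHall : Nat.Coprime (Nat.card W₁) W₁.index) (hW₂ : W₂ ≠ ⊥) (hW₂c : IsCyclic W₂) (hW₂K : W₂ ≤ K) (hC : ∀ x ∈ W₁, x ≠ 1 → K ⊓ Subgroup.centralizer ({x} : Set L) = W₂) (hodd : Odd (Nat.card ↥(W₁ ⊔ W₂))) : ∃ (μ : (↥(W₁ ⊔ W₂) →* ℂˣ) → (L → ℂ)) (δ : (↥(W₁ ⊔ W₂) →* ℂˣ) → ℂ), Function.Injective μ ∧ (∀ ω, Cfsg.IsIrrCharacter L (μ ω)) ∧ (∀ ω, δ ω = 1 ∨ δ ω = -1) ∧ (∀ ω ω' : ↥(W₁ ⊔ W₂) →* ℂˣ, (∀ w : ↥(W₁ ⊔ W₂), (w : L) ∈ W₂ → ω w = ω' w) → δ ω = δ ω' ∧ Cfsg.indFun (W₁ ⊔ W₂) (fun w => (ω w : ℂ) - (ω' w : ℂ)) = δ ω • (μ ω - μ ω')) ∧ (∀ ω, ∀ w : ↥(W₁ ⊔ W₂), (w : L) ∉ W₂ → μ ω w = δ ω * (ω w : ℂ)) ∧ (∀ θ : L → ℂ, Cfsg.IsIrrCharacter L θ → (∀ ω, θ ≠ μ ω) → ∀ w : ↥(W₁ ⊔ W₂), (w : L) ∉ W₂ → θ w = 0) ∧ (∀ ω, ∃ n : ℤ, μ ω 1 - δ ω = n * (Nat.card W₁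 : ℂ)) := by
  classical
  have hW := Cfsg.Agent.S1510.result K W₁ W₂ hKW₁ hKW₁' hW₁ hW₁c hHall hW₂ hW₂c hW₂K hC hodd
  obtain ⟨χ, hχ⟩ := Cfsg.Agent.S1502.result W₁ W₂ hW hodd
  obtain ⟨-, -, hdisj, hcomm, hcyc, -⟩ := id hW
  haveI : Fintype ↥(W₁ ⊔ W₂) := Fintype.ofFinite _
  haveI : Fintype W₁ := Fintype.ofFinite _
  haveI : Fintype (IrrCharacter L) := Fintype.ofFinite _
  have hfus := split_fusion K W₁ W₂ hKW₁ hKW₁' hW₁c hHall hW₂K hC
  have hdiff := ti_ind_diff hW hodd χ hχ hfus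
  have hs : ∀ ω, SignedIrr (χ ω) := hχ.irr_or_neg
  choose δ μ hδ hμ hχμ using fun ω => (hs ω).exists_sign
  have hδδ : ∀ ω, δ ω * δ ω = 1 := fun ω => sign_mul_self (hδ ω)
  have hχval : ∀ ω (g : L), χ ω g = δ ω * μ ω g := fun ω g => by
    rw [hχμ ω]
    rfl
  have hμval : ∀ ω (g : L), μ ω g = δ ω * χ ω g := fun ω g => by
    rw [hχval, ← mul_assoc, hδδ, one_mul]
  -- the vanishing criterion on `W`
  have hV : ∀ a b : ↥(W₁ ⊔ W₂), a * b = b * a := fun a b => Subtype.ext (comm_of_isCyclic hcyc a.2 b.2)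
  have hvan : ∀ (f : ↥(W₁ ⊔ W₂) → ℂ), (∀ a b : ↥(W₁ ⊔ W₂) →* ℂˣ,
      (∀ w : ↥(W₁ ⊔ W₂), (w : L) ∈ W₂ → a w = b w) → classInner (linFun a - linFun b) f = 0) →
      ∀ w : ↥(W₁ ⊔ W₂), (w : L) ∉ W₂ → f w = 0 := by
    intro f hf w hw
    have h0 := vanish_of_orth_diff hV (W₂.subgroupOf (W₁ ⊔ W₂)) (fun x => (starRingEnd ℂ) (f x)) ?_ w
      (fun h => hw (Subgroup.mem_subgroupOf.mp h))
    · simpa using h0
    intro a b hab
    have h1 := hf a b (fun w hw => hab w (Subgroup.mem_subgroupOf.mpr hw))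
    simp only [classInner] at h1
    have hne : ((Nat.card ↥(W₁ ⊔ W₂) : ℂ))⁻¹ ≠ 0 :=
      inv_ne_zero (Nat.cast_ne_zero.mpr Nat.card_pos.ne')
    exact (mul_eq_zero.mp h1).resolve_left hne
  have hfrob : ∀ (θ : L → ℂ), IsClassFunction L θ → ∀ a b : ↥(W₁ ⊔ W₂) →* ℂˣ,
      (∀ w : ↥(W₁ ⊔ W₂), (w : L) ∈ W₂ → a w = b w) →
      classInner (linFun a - linFun b) (fun x : ↥(W₁ ⊔ W₂) => θ x) = classInner (χ a - χ b) θ := by
    intro θ hθ a b hab
    rw [← hdiff a b hab, frobenius_reciprocity _ _ _ hθ]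
  have hcl : ∀ ω, IsClassFunction L (χ ω) := fun ω => gen_isClass (hs ω).isGeneralized
  have hvalue : ∀ ω (w : ↥(W₁ ⊔ W₂)), (w : L) ∉ W₂ → χ ω w = (ω w : ℂ) := by
    intro ω w hw
    have h1 := hvan (fun x => χ ω x - (ω x : ℂ)) ?_ w hw
    · exact sub_eq_zero.mp h1
    intro a b hab
    have e : (fun x : ↥(W₁ ⊔ W₂) => χ ω x - (ω x : ℂ)) =
        (fun x : ↥(W₁ ⊔ W₂) => χ ω x) - linFun ω := rfl
    rw [e, classInner_sub_right', hfrob _ (hcl ω) a b hab, classInner_sub_left', classInner_sub_left',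
      inner_lin, inner_lin, hχ.orthonormal, hχ.orthonormal]
    by_cases h1 : a = ω <;> by_cases h2 : b = ω <;> simp [h1, h2]
  -- degrees
  have hdeg : ∀ ω, ∃ n : ℕ, μ ω 1 = n ∧ n ≠ 0 := by
    intro ω
    obtain ⟨n, hn, -⟩ := isCharacter_one_eq (isCharacter_of_irr (hμ ω))
    refine ⟨n, hn, ?_⟩
    rintro rfl
    exact irr_one_ne_zero' (hμ ω) (by simpa using hn)
  have hind1 : ∀ a b : ↥(W₁ ⊔ W₂) →* ℂˣ, indFun (W₁ ⊔ W₂) (linFun a - linFun b) 1 = 0 := by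
    intro a b
    simp only [indFun]
    have h : ∀ x : L, extendByZero (W₁ ⊔ W₂) (linFun a - linFun b) (x⁻¹ * 1 * x) = 0 := by
      intro x
      have e : x⁻¹ * 1 * x = ((1 : ↥(W₁ ⊔ W₂)) : L) := by simp
      rw [e, extendByZero_coe]
      simp
    rw [Finset.sum_congr rfl (fun x _ => h x)]
    simp
  have hsame : ∀ a b : ↥(W₁ ⊔ W₂) →* ℂˣ, (∀ w : ↥(W₁ ⊔ W₂), (w : L) ∈ W₂ → a w = b w) → δ a = δ b := by
    intro a b hab
    have h1 := hind1 a b
    rw [hdiff a b hab] at h1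
    simp only [Pi.sub_apply, hχval] at h1
    obtain ⟨n, hn, hn0⟩ := hdeg a
    obtain ⟨m, hm, hm0⟩ := hdeg b
    rw [hn, hm] at h1
    rcases hδ a with h2 | h2 <;> rcases hδ b with h3 | h3
    · rw [h2, h3]
    · exfalso
      rw [h2, h3] at h1
      have h4 : ((n + m : ℕ) : ℂ) = 0 := by
        push_cast
        linear_combination h1
      have h5 : n + m = 0 := by exact_mod_cast h4
      omega
    · exfalso
      rw [h2, h3] at h1
      have h4 : ((n + m : ℕ) : ℂ) = 0 := by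
        push_cast
        linear_combination -h1
      have h5 : n + m = 0 := by exact_mod_cast h4
      omega
    · rw [h2, h3]
  refine ⟨μ, δ, ?_, hμ, hδ, ?_, ?_, ?_, ?_⟩
  · -- injective
    intro a b hab
    by_contra hne
    have h1 := hχ.orthonormal a b
    rw [if_neg hne, hχμ a, hχμ b, ← hab, classInner_smul_left, classInner_smul_right,
      classInner_irr_self (hμ a), mul_one] at h1
    rw [sign_conj (hδ b)] at h1
    exact (mul_ne_zero (sign_ne_zero (hδ a)) (sign_ne_zero (hδ b))) h1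
  · intro a b hab
    refine ⟨hsame a b hab, ?_⟩
    have e : (fun w : ↥(W₁ ⊔ W₂) => (a w : ℂ) - (b w : ℂ)) = linFun a - linFun b := rfl
    rw [e, hdiff a b hab, hχμ a, hχμ b, hsame a b hab, smul_sub]
  · intro ω w hw
    rw [hμval, hvalue ω w hw]
  · intro θ hθ hne w hw
    have hθcl : IsClassFunction L θ := isClassFunction_of_isCharacter (isCharacter_of_irr hθ)
    have h1 := hvan (fun x => θ x) ?_ w hw
    · exact h1
    intro a b hab
    rw [hfrob θ hθcl a b hab, classInner_sub_left', hχμ a, hχμ b, classInner_smul_left, classInner_smul_left,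
      classInner_irr_ne (hμ a) hθ (fun h => hne a h.symm), classInner_irr_ne (hμ b) hθ (fun h => hne b h.symm)]
    simp
  · -- divisibility
    intro ω
    let i₁ : W₁ →* ↥(W₁ ⊔ W₂) := Subgroup.inclusion le_sup_left
    have hγ : IsGeneralizedCharacter W₁ ((fun x : W₁ => χ ω x) - linFun (ω.comp i₁)) :=
      gen_sub (Brauer.gen_restrict W₁ (hs ω).isGeneralized)
        (gen_of_char (Cfsg.Agent.H23.isCharacter_hom (ω.comp i₁)))
    obtain ⟨n, hn⟩ := gen_inner_int hγ (gen_of_char (isCharacter_one (G := W₁)))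
    have hz : ∀ x : W₁, x ≠ 1 → ((fun x : W₁ => χ ω x) - linFun (ω.comp i₁)) x = 0 := by
      intro x hx
      have hxW₂ : ((i₁ x : ↥(W₁ ⊔ W₂)) : L) ∉ W₂ := by
        intro h
        have h2 : (x : L) ∈ W₁ ⊓ W₂ := Subgroup.mem_inf.mpr ⟨x.2, h⟩
        rw [hdisj, Subgroup.mem_bot] at h2
        exact hx (Subtype.ext h2)
      have h3 := hvalue ω (i₁ x) hxW₂
      simp only [Pi.sub_apply, linFun_apply, MonoidHom.comp_apply]
      have h4 : ((i₁ x : ↥(W₁ ⊔ W₂)) : L) = x := rfl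
      rw [h4] at h3
      rw [h3, sub_self]
    have hsum : classInner ((fun x : W₁ => χ ω x) - linFun (ω.comp i₁)) (fun _ => 1) =
        (Nat.card W₁ : ℂ)⁻¹ * (χ ω 1 - 1) := by
      simp only [classInner]
      congr 1
      rw [Finset.sum_eq_single 1]
      · simp
      · intro x _ hx
        rw [hz x hx, zero_mul]
      · intro h
        exact absurd (Finset.mem_univ _) h
    rw [hsum] at hn
    have hcardne : (Nat.card W₁ : ℂ) ≠ 0 := Nat.cast_ne_zero.mpr Nat.card_pos.ne'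
    have h5 : χ ω 1 - 1 = n * (Nat.card W₁ : ℂ) := by
      field_simp at hn
      linear_combination hn
    have h6 : μ ω 1 - δ ω = δ ω * (χ ω 1 - 1) := by
      rw [hμval]
      ring
    rcases hδ ω with h7 | h7
    · refine ⟨n, ?_⟩
      rw [h6, h7, h5]
      ring
    · refine ⟨-n, ?_⟩
      rw [h6, h7, h5]
      push_cast
      ring

end Cfsg.Agent.S1511
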