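import Cfsg.Statements.S1513
import Cfsg.Agent.Lib.H06.TypeP
import Cfsg.Agent.S1491

set_option autoImplicit false

open Cfsg

namespace Cfsg.Agent.S1513

open Cfsg.Agent.H06 Cfsg.Agent.H21

theorem result {L : Type*} [Group L] [Fintype L] (K W₁ W₂ : Subgroup L) [hK : K.Normal] (hKW₁ : K ⊓ W₁ = ⊥) (hKW₁' : K ⊔ W₁ = ⊤) (hW₁ : W₁ ≠ ⊥) (hW₁c : IsCyclic W₁) (hHall : Nat.Coprime (Nat.card W₁) W₁.index) (hW₂ : W₂ ≠ ⊥) (hW₂c : IsCyclic W₂) (hW₂K : W₂ ≤ K) (hC : ∀ x ∈ W₁, x ≠ 1 → K ⊓ Subgroup.centralizer ({x} : Set L) = W₂) (hodd : Odd (Nat.card ↥(W₁ ⊔ W₂))) : (∀ θ : K → ℂ, Cfsg.IsIrrCharacter K θ → (∃ x ∈ W₁, (fun k : K => θ ⟨x * k * x⁻¹, hK.conj_mem (k : L) k.2 x⟩) ≠ θ) → Cfsg.IsIrrCharacter L (Cfsg.indFun K θ)) ∧ Nat.card {θ : Cfsg.IrrCharacter K // ∀ x ∈ W₁, (fun k : K => (θ : K → ℂ) ⟨x * k * x⁻¹, hK.conj_mem (k : L) k.2 x⟩) = θ} = Nat.card W₂ ∧ (∀ θ : K → ℂ, Cfsg.IsIrrCharacter K θ → (∀ x ∈ W₁, (fun k :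 K => θ ⟨x * k * x⁻¹, hK.conj_mem (k : L) k.2 x⟩) = θ) → ∃ C : Finset (L → ℂ), C.card = Nat.card W₁ ∧ (∀ μ ∈ C, Cfsg.IsIrrCharacter L μ) ∧ Cfsg.indFun K θ = ∑ μ ∈ C, μ) := by
  classical
  haveI : Fintype K := Fintype.ofFinite _
  haveI : Fintype (IrrCharacter K) := Fintype.ofFinite _
  have hall : ∀ (θ : K → ℂ), IsIrrCharacter K θ → ∀ y ∈ W₁, y ≠ 1 → y ∈ inertiaSub K θ → W₁ ≤ inertiaSub K θ := by
    intro θ hθ y hy hy1 hyθ
    exact fixed_all_of_fixed_one (θ := ⟨θ, hθ⟩) hKW₁ hKW₁' hW₁ hW₁c hHall hW₂c hC hy hy1 hyθ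
  have hcl : ∀ (θ : K → ℂ), IsIrrCharacter K θ → K ≤ inertiaSub K θ := fun θ hθ =>
    le_inertiaSub K (isClassFunction_of_isCharacter (isCharacter_of_irr hθ))
  have hfact : ∀ g : L, ∃ k ∈ K, ∃ y ∈ W₁, k * y = g := by
    intro g
    have hgm : g ∈ ((K ⊔ W₁ : Subgroup L) : Set L) := by
      rw [hKW₁']
      exact Subgroup.mem_top g
    rw [Subgroup.normal_mul K W₁] at hgm
    obtain ⟨k, hk, y, hy, e⟩ := Set.mem_mul.mp hgm
    exact ⟨k, hk, y, hy, e⟩
  have hindex : K.index = Nat.card W₁ := by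
    have h1 := card_complement hKW₁ hKW₁'
    have h2 := K.card_mul_index
    rw [← h1] at h2
    exact Nat.eq_of_mul_eq_mul_left Nat.card_pos h2
  refine ⟨?_, ?_, ?_⟩
  · intro θ hθ ⟨x, hx, hne⟩
    refine isIrr_indFun_of_stabilizer_le K hθ fun g hg => ?_
    have hg' : g ∈ inertiaSub K θ := by
      rw [mem_inertiaSub_iff_funext]
      exact hg
    obtain ⟨k, hk, y, hy, rfl⟩ := hfact g
    have hyθ : y ∈ inertiaSub K θ := by
      have h1 : y = k⁻¹ * (k * y) := by group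
      rw [h1]
      exact Subgroup.mul_mem _ (Subgroup.inv_mem _ (hcl θ hθ hk)) hg'
    by_cases hy1 : y = 1
    · rw [hy1, mul_one]
      exact hk
    · exfalso
      exact hne ((mem_inertiaSub_iff_funext K).mp (hall θ hθ y hy hy1 hyθ hx))
  · obtain ⟨⟨z, hz⟩, hgen⟩ := id hW₁c
    have hgen' : ∀ w ∈ W₁, w ∈ Subgroup.zpowers z := by
      intro w hw
      obtain ⟨n, hn⟩ := hgen ⟨w, hw⟩
      exact ⟨n, by simpa using congrArg Subtype.val hn⟩
    have hzW : W₁ = Subgroup.zpowers z :=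
      le_antisymm hgen' (Subgroup.zpowers_le.mpr hz)
    have hz1 : z ≠ 1 := by
      rintro rfl
      apply hW₁
      rw [hzW]
      simp
    rw [← fixed_irr_card hKW₁ hKW₁' hHall hW₂c hC hz hz1]
    refine Nat.card_congr (Equiv.subtypeEquivRight fun θ => ?_)
    constructor
    · intro h
      exact (mem_inertiaSub_iff_funext K).mpr (h z hz)
    · intro h x hx
      have : W₁ ≤ inertiaSub K (θ : K → ℂ) := by
        rw [hzW, Subgroup.zpowers_le]
        exact h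
      exact (mem_inertiaSub_iff_funext K).mp (this hx)
  · intro θ hθ hfix
    have hW₁le : W₁ ≤ inertiaSub K θ := fun x hx => (mem_inertiaSub_iff_funext K).mpr (hfix x hx)
    have htop : inertiaSub K θ = ⊤ := by
      rw [eq_top_iff, ← hKW₁']
      exact sup_le (hcl θ hθ) hW₁le
    have hT : ∀ g : L, g ∈ (⊤ : Subgroup L) ↔ ∀ h : K, θ ⟨g * h * g⁻¹, hK.conj_mem h h.2 g⟩ = θ h := by
      intro g
      constructor
      · intro _
        have : g ∈ inertiaSub K θ := by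
          rw [htop]
          exact Subgroup.mem_top g
        exact this
      · intro _
        exact Subgroup.mem_top g
    have hab : ∀ x ∈ (⊤ : Subgroup L), ∀ y ∈ (⊤ : Subgroup L), x * y * x⁻¹ * y⁻¹ ∈ K := by
      intro x _ y _
      obtain ⟨k, hk, a, ha, rfl⟩ := hfact x
      obtain ⟨l, hl, b, hb, rfl⟩ := hfact y
      have hπk : (QuotientGroup.mk' K) k = 1 := (QuotientGroup.eq_one_iff k).mpr hk
      have hπl : (QuotientGroup.mk' K) l = 1 := (QuotientGroup.eq_one_iff l).mpr hl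
      have hcab : a * b = b * a := comm_of_isCyclic hW₁c ha hb
      rw [← QuotientGroup.eq_one_iff]
      show (QuotientGroup.mk' K) _ = 1
      simp only [map_mul, map_inv, hπk, hπl, one_mul]
      have e : (QuotientGroup.mk' K) a * (QuotientGroup.mk' K) b = (QuotientGroup.mk' K) b * (QuotientGroup.mk' K) a := by
        rw [← map_mul, ← map_mul, hcab]
      rw [e]
      group
    have hcop : Nat.Coprime (Nat.card K) (K.relIndex ⊤) := by
      rw [Subgroup.relIndex_top_right, hindex, card_eq_index_complement hKW₁ hKW₁']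
      exact hHall.symm
    obtain ⟨C, hC1, hC2, hC3, -⟩ := Cfsg.Agent.S1491.result K ⊤ θ hθ hT hab hcop
    refine ⟨C, ?_, hC1, hC3⟩
    rw [hC2, Subgroup.relIndex_top_right, hindex]

end Cfsg.Agent.S1513
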