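import Cfsg.Statements.S1515
import Cfsg.Agent.Lib.H06.CharVirtual

set_option autoImplicit false

open Cfsg

namespace Cfsg.Agent.S1515

open Cfsg.Agent.H06 Cfsg.Agent.H21
open scoped ComplexConjugate

theorem result {L : Type*} [Group L] [Fintype L] {G : Type*} [Group G] [Fintype G] (S : Set (L → ℂ)) (τ : (L → ℂ) → (G → ℂ)) (R : (L → ℂ) → Finset (G → ℂ)) (hS : Cfsg.IsCoherenceSystem S τ R) (χ : L → ℂ) (hχ : χ ∈ S) (ψ : L → ℂ) (hψ : ψ ∈ Cfsg.zspan S) (h1 : Cfsg.classInner χ ψ = 0) (h2 : Cfsg.classInner (Cfsg.conjFun χ) ψ = 0) (τ₁ : (L → ℂ) → (G → ℂ)) (hτ₁ : Cfsg.IsLinearIsometryOn (Cfsg.zspan {χ - ψ, χ - Cfsg.conjFun χ}) τ₁) (hagree : ∀ n : ℤ, τ₁ (n • (χ - Cfsg.conjFun χ)) = τ (n • (χ - Cfsg.conjFun χ))) : (Cfsg.classInner χ χ).re ≤ ∑ α ∈ R χ, ‖Cfsg.classInner (τ₁ (χ - ψ)) α‖ ^ 2 ∧ ((Cfsg.classInner ψ ψ).re ≤ (Cfsg.classInner (τ₁ (χ - ψ)) (τ₁ (χ - ψ))).re - ∑ α ∈ R χ, ‖Cfsg.classInner (τ₁ (χ - ψ)) α‖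 ^ 2 → (∑ α ∈ R χ, ‖Cfsg.classInner (τ₁ (χ - ψ)) α‖ ^ 2 = (Cfsg.classInner χ χ).re ∧ ∀ α ∈ R χ, Cfsg.classInner (τ₁ (χ - ψ)) α = 0 ∨ Cfsg.classInner (τ₁ (χ - ψ)) α = 1)) := by
  classical
  obtain ⟨-, -, iso_in, iso_gen⟩ := hτ₁
  have hm1 : χ - ψ ∈ zspan {χ - ψ, χ - conjFun χ} := Submodule.subset_span (by simp)
  have hm2 : χ - conjFun χ ∈ zspan {χ - ψ, χ - conjFun χ} := Submodule.subset_span (by simp)
  set f := τ₁ (χ - ψ) with hf
  have hfgen : IsGeneralizedCharacter G f := iso_gen _ hm1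
  have hg : τ₁ (χ - conjFun χ) = ∑ α ∈ R χ, α := by
    have := hagree 1
    rw [one_smul] at this
    rw [this]
    exact hS.sum_eq χ hχ
  have hcc : classInner χ (conjFun χ) = 0 :=
    hS.orthogonal χ hχ _ (hS.conj_mem χ hχ) (hS.conj_ne χ hχ).symm
  have hψχ : classInner ψ χ = 0 := by
    rw [← classInner_comm_conj, h1, map_zero]
  have hψc : classInner ψ (conjFun χ) = 0 := by
    rw [← classInner_comm_conj, h2, map_zero]
  -- `[f, g] = [χ, χ]`
  have hfg : ∑ α ∈ R χ, classInner f α = classInner χ χ := by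
    rw [← classInner_sum_right, ← hg, iso_in _ hm1 _ hm2, classInner_sub_left',
      classInner_sub_right', classInner_sub_right', hcc, hψχ, hψc]
    simp
  have hff : classInner f f = classInner χ χ + classInner ψ ψ := by
    rw [iso_in _ hm1 _ hm1, classInner_sub_left', classInner_sub_right', classInner_sub_right', h1,
      hψχ]
    simp
  -- integers
  have hint : ∀ α : G → ℂ, α ∈ R χ → ∃ n : ℤ, classInner f α = n := fun α hα =>
    gen_inner_int hfgen (hS.virtual χ hχ α hα)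
  choose! a ha using hint
  have hnorm : ∀ α ∈ R χ, ‖classInner f α‖ ^ 2 = ((a α : ℝ)) ^ 2 := by
    intro α hα
    rw [ha α hα]
    rw [Complex.norm_intCast, sq_abs]
  have hsumnorm : ∑ α ∈ R χ, ‖classInner f α‖ ^ 2 = ((∑ α ∈ R χ, a α * a α : ℤ) : ℝ) := by
    rw [Finset.sum_congr rfl hnorm]
    push_cast
    exact Finset.sum_congr rfl fun α _ => by ring
  have hre : (classInner χ χ).re = ((∑ α ∈ R χ, a α : ℤ) : ℝ) := by
    rw [← hfg, Finset.sum_congr rfl ha]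
    simp
  have hle : ∑ α ∈ R χ, a α ≤ ∑ α ∈ R χ, a α * a α := by
    refine Finset.sum_le_sum fun α _ => ?_
    have := Int.le_self_sq (a α)
    nlinarith
  refine ⟨?_, ?_⟩
  · rw [hre, hsumnorm]
    exact_mod_cast hle
  · intro hcond
    rw [hff, Complex.add_re, hsumnorm, hre] at hcond
    have h3 : ((∑ α ∈ R χ, a α * a α : ℤ) : ℝ) ≤ ((∑ α ∈ R χ, a α : ℤ) : ℝ) := by linarith
    have h4 : ∑ α ∈ R χ, a α * a α ≤ ∑ α ∈ R χ, a α := by exact_mod_cast h3
    have h5 : ∑ α ∈ R χ, (a α * a α - a α) = 0 := by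
      rw [Finset.sum_sub_distrib]
      omega
    have h6 := (Finset.sum_eq_zero_iff_of_nonneg (fun α _ => by
      have := Int.le_self_sq (a α)
      nlinarith)).mp h5
    refine ⟨?_, ?_⟩
    · rw [hsumnorm, hre]
      have : ∑ α ∈ R χ, a α * a α = ∑ α ∈ R χ, a α := by omega
      rw [this]
    · intro α hα
      have h7 := h6 α hα
      have h8 : a α * (a α - 1) = 0 := by linarith
      rcases mul_eq_zero.mp h8 with h9 | h9
      · left
        rw [ha α hα, h9]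
        simp
      · right
        rw [ha α hα, show a α = 1 by omega]
        simp

end Cfsg.Agent.S1515
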