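import Cfsg.Statements.S1525
import Cfsg.Agent.Lib.H06.DadeIso2

set_option autoImplicit false

open Cfsg

namespace Cfsg.Agent.S1525

open Cfsg.Agent.H06 Cfsg.Agent.H21

/-- Jensen for the norm squared. -/
theorem norm_avg_sq_le {ι : Type*} (s : Finset ι) (f : ι → ℂ) (n : ℕ) (hn : s.card = n) (hpos : 0 < n) :
    ‖((n : ℂ))⁻¹ * ∑ i ∈ s, f i‖ ^ 2 ≤ (n : ℝ)⁻¹ * ∑ i ∈ s, ‖f i‖ ^ 2 := by
  have hn' : (0 : ℝ) < n := Nat.cast_pos.mpr hpos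
  rw [norm_mul, norm_inv, Complex.norm_natCast, mul_pow, inv_pow]
  have h1 : ‖∑ i ∈ s, f i‖ ≤ ∑ i ∈ s, ‖f i‖ := norm_sum_le _ _
  have h2 : (∑ i ∈ s, ‖f i‖) ^ 2 ≤ (n : ℝ) * ∑ i ∈ s, ‖f i‖ ^ 2 := by
    have := sq_sum_le_card_mul_sum_sq (s := s) (f := fun i => ‖f i‖)
    rwa [hn] at this
  have h3 : ‖∑ i ∈ s, f i‖ ^ 2 ≤ (n : ℝ) * ∑ i ∈ s, ‖f i‖ ^ 2 :=
    le_trans (pow_le_pow_left₀ (norm_nonneg _) h1 2) h2
  calc ((n : ℝ) ^ 2)⁻¹ * ‖∑ i ∈ s, f i‖ ^ 2 ≤ ((n : ℝ) ^ 2)⁻¹ * ((n : ℝ) * ∑ i ∈ s, ‖f i‖ ^ 2) :=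
        mul_le_mul_of_nonneg_left h3 (by positivity)
    _ = (n : ℝ)⁻¹ * ∑ i ∈ s, ‖f i‖ ^ 2 := by
        field_simp

theorem result {G : Type*} [Group G] [Fintype G] (A : Set G) (L : Subgroup G) [Fintype L] (H : G → Subgroup G) (hD : Cfsg.DadeHypothesis A L H) (χ : G → ℂ) (hχ : Cfsg.IsClassFunction G χ) (ψ : L → ℂ) (hψ : ∀ a : L, (a : G) ∈ A → ψ a = (Nat.card (H a) : ℂ)⁻¹ * ∑ᶠ u ∈ (H a : Set G), χ (a * u)) : (Nat.card L : ℝ)⁻¹ * ∑ᶠ a ∈ {a : L | (a : G) ∈ A}, ‖ψ a‖ ^ 2 ≤ (Nat.card G : ℝ)⁻¹ * ∑ᶠ g ∈ {g : G | ∃ a ∈ A, ∃ u ∈ H a, ∃ x : G, x * g * x⁻¹ = a * u}, ‖χ g‖ ^ 2 := by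
  classical
  have hF : ∀ g h : G, (fun x => ‖χ x‖ ^ 2) (h * g * h⁻¹) = (fun x => ‖χ x‖ ^ 2) g := by
    intro g h
    simp only
    rw [hχ g h]
  have hm := dade_master (K := ℝ) hD (fun x => ‖χ x‖ ^ 2) hF
  have hfin1 : (∑ᶠ g ∈ {g : G | ∃ a ∈ A, ∃ u ∈ H a, ∃ x : G, x * g * x⁻¹ = a * u}, ‖χ g‖ ^ 2) =
      ∑ x : G, (if (∃ a ∈ A, ∃ u ∈ H a, ∃ y : G, y * x * y⁻¹ = a * u) then ‖χ x‖ ^ 2 else 0) := by
    rw [finsum_mem_eq_toFinset_sum, Finset.sum_ite, Finset.sum_const_zero, add_zero]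
    refine Finset.sum_congr ?_ fun _ _ => rfl
    ext u
    simp
  have hfin2 : (∑ᶠ a ∈ {a : L | (a : G) ∈ A}, ‖ψ a‖ ^ 2) =
      ∑ a : L, (if (a : G) ∈ A then ‖ψ a‖ ^ 2 else 0) := by
    rw [finsum_mem_eq_toFinset_sum, Finset.sum_ite, Finset.sum_const_zero, add_zero]
    refine Finset.sum_congr ?_ fun _ _ => rfl
    ext u
    simp
  rw [hfin1, hfin2]
  have hG : (0 : ℝ) < Nat.card G := Nat.cast_pos.mpr Nat.card_pos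
  have hL : (0 : ℝ) < Nat.card L := Nat.cast_pos.mpr Nat.card_pos
  have hterm : ∀ a : L, (if (a : G) ∈ A then ‖ψ a‖ ^ 2 else 0) ≤
      if (a : G) ∈ A then (Nat.card (H a) : ℝ)⁻¹ *
        ∑ u : G, (if u ∈ H a then ‖χ (a * u)‖ ^ 2 else 0) else 0 := by
    intro a
    split_ifs with ha
    · rw [hψ a ha, finsum_mem_eq_toFinset_sum]
      have h1 := norm_avg_sq_le ((H a : Set G).toFinset) (fun u => χ (a * u)) (Nat.card (H a))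
        (by rw [Nat.card_eq_fintype_card, Set.toFinset_card]; rfl) Nat.card_pos
      refine h1.trans (le_of_eq ?_)
      congr 1
      rw [Finset.sum_ite, Finset.sum_const_zero, add_zero]
      refine Finset.sum_congr ?_ fun _ _ => rfl
      ext u
      simp
    · exact le_refl _
  have hsum := Finset.sum_le_sum (s := Finset.univ) fun a _ => hterm a
  have : (Nat.card G : ℝ) * ∑ a : L, (if (a : G) ∈ A then ‖ψ a‖ ^ 2 else 0) ≤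
      (Nat.card L : ℝ) * ∑ x : G, (if (∃ a ∈ A, ∃ u ∈ H a, ∃ y : G, y * x * y⁻¹ = a * u) then ‖χ x‖ ^ 2 else 0) := by
    rw [hm]
    exact mul_le_mul_of_nonneg_left hsum hG.le
  rw [inv_mul_le_iff₀ hL]
  calc ∑ a : L, (if (a : G) ∈ A then ‖ψ a‖ ^ 2 else 0)
      = (Nat.card G : ℝ)⁻¹ * ((Nat.card G : ℝ) * ∑ a : L, (if (a : G) ∈ A then ‖ψ a‖ ^ 2 else 0)) := by
        rw [← mul_assoc, inv_mul_cancel₀ hG.ne', one_mul]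
    _ ≤ (Nat.card G : ℝ)⁻¹ * ((Nat.card L : ℝ) * ∑ x : G, (if (∃ a ∈ A, ∃ u ∈ H a, ∃ y : G, y * x * y⁻¹ = a * u) then ‖χ x‖ ^ 2 else 0)) :=
        mul_le_mul_of_nonneg_left this (by positivity)
    _ = _ := by ring

end Cfsg.Agent.S1525
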