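import Cfsg.Statements.S1527
import Mathlib

set_option autoImplicit false

open Cfsg

namespace Cfsg.Agent.S1527

/-- Counting the non-identity conjugates of a TI subgroup. -/
theorem card_conj_mul {G : Type*} [Group G] [Fintype G] [DecidableEq G] (H : Subgroup G)
    [DecidablePred (· ∈ H)]
    (hTI : Cfsg.IsTISubset (H : Set G)) :
    (Finset.univ.filter (fun x : G => x ≠ 1 ∧ ∃ g : G, g⁻¹ * x * g ∈ H)).card *
      Nat.card (Subgroup.normalizer (H : Set G)) = Nat.card G * (Nat.card H - 1) := by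
  classical
  set X := Finset.univ.filter (fun x : G => x ≠ 1 ∧ ∃ g : G, g⁻¹ * x * g ∈ H) with hX
  set S := (Finset.univ : Finset (G × G)).filter (fun p => p.2 ∈ H ∧ p.2 ≠ 1) with hS
  have hScard : S.card = Nat.card G * (Nat.card H - 1) := by
    have h1 : S = (Finset.univ : Finset G) ×ˢ (Finset.univ.filter (fun h : G => h ∈ H ∧ h ≠ 1)) := by
      ext ⟨a, b⟩
      simp [hS]
    rw [h1, Finset.card_product, Finset.card_univ, ← Nat.card_eq_fintype_card]
    congr 1
    have h2 : (Finset.univ.filter (fun h : G => h ∈ H ∧ h ≠ 1)) =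
        (Finset.univ.filter (fun h : G => h ∈ H)).erase 1 := by
      ext x
      simp [and_comm]
    rw [h2, Finset.card_erase_of_mem (by simp [H.one_mem])]
    congr 1
    rw [Nat.card_eq_fintype_card, Fintype.card_subtype]
  have hmaps : ∀ p ∈ S, p.1 * p.2 * p.1⁻¹ ∈ X := by
    intro p hp
    have hp' := (Finset.mem_filter.mp hp).2
    refine Finset.mem_filter.mpr ⟨Finset.mem_univ _, ?_, p.1, ?_⟩
    · intro h
      apply hp'.2
      have h2 : p.1 * p.2 = p.1 := by
        rwa [mul_inv_eq_one] at h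
      simpa using h2
    · have h5 : p.1⁻¹ * (p.1 * p.2 * p.1⁻¹) * p.1 = p.2 := by group
      rw [h5]
      exact hp'.1
  rw [← hScard, Finset.card_eq_sum_card_fiberwise hmaps, Finset.card_eq_sum_ones X, Finset.sum_mul]
  refine Finset.sum_congr rfl fun x hx => ?_
  rw [one_mul]
  obtain ⟨hx1, g₀, hg₀⟩ := (Finset.mem_filter.mp hx).2
  haveI : Fintype (Subgroup.normalizer (H : Set G)) := Fintype.ofFinite _
  rw [Nat.card_eq_fintype_card, ← Finset.card_univ]
  refine Finset.card_bij (fun n _ => (g₀ * n, (g₀ * (n : G))⁻¹ * x * (g₀ * n))) ?_ ?_ ?_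
  · intro n _
    refine Finset.mem_filter.mpr ⟨Finset.mem_filter.mpr ⟨Finset.mem_univ _, ?_, ?_⟩, ?_⟩
    · have hn := Subgroup.mem_normalizer_iff''.mp n.2 (g₀⁻¹ * x * g₀)
      have h3 := hn.mp hg₀
      have h4 : (g₀ * (n : G))⁻¹ * x * (g₀ * n) = (n : G)⁻¹ * (g₀⁻¹ * x * g₀) * n := by group
      show (g₀ * (n : G))⁻¹ * x * (g₀ * n) ∈ H
      rw [h4]
      exact h3
    · intro h
      apply hx1
      have h4 : x = (g₀ * (n : G)) * ((g₀ * (n : G))⁻¹ * x * (g₀ * n)) * (g₀ * (n : G))⁻¹ := by group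
      rw [h4]
      have h' : (g₀ * (n : G))⁻¹ * x * (g₀ * n) = 1 := h
      rw [h']
      group
    · show g₀ * n * ((g₀ * (n : G))⁻¹ * x * (g₀ * n)) * (g₀ * (n : G))⁻¹ = x
      group
  · intro a _ b _ hab
    have h1 : g₀ * (a : G) = g₀ * b := congrArg Prod.fst hab
    exact Subtype.ext (mul_left_cancel h1)
  · rintro ⟨g, h⟩ hp
    obtain ⟨hpS, hpx⟩ := Finset.mem_filter.mp hp
    obtain ⟨hh, hh1⟩ := (Finset.mem_filter.mp hpS).2
    simp only at hh hh1 hpx
    -- `t = g₀⁻¹ * g` normalizes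
    have hx' : x = g * h * g⁻¹ := hpx.symm
    have hn : g₀⁻¹ * g ∈ Subgroup.normalizer (H : Set G) := by
      by_contra hn
      apply hh1
      exact hTI _ hn h hh (by
        have h5 : g₀⁻¹ * g * h * (g₀⁻¹ * g)⁻¹ = g₀⁻¹ * x * g₀ := by
          rw [hx']
          group
        show g₀⁻¹ * g * h * (g₀⁻¹ * g)⁻¹ ∈ H
        rw [h5]
        exact hg₀)
    refine ⟨⟨_, hn⟩, Finset.mem_univ _, ?_⟩
    apply Prod.ext
    · simp
    · simp only [hx']
      group

theorem result {G : Type*} [Group G] [Finite G] {ι : Type*} [Fintype ι] (H : ι → Subgroup G) (hcop : ∀ i j, i ≠ j → Nat.Coprime (Nat.card (H i)) (Nat.card (H j))) (hTI : ∀ i, Cfsg.IsTISubset (H i : Set G)) (hcover : ∀ g : G, g ≠ 1 → ∃ i, ∃ x : G, x * g * x⁻¹ ∈ H i) : Nat.card G - 1 = ∑ i, (Subgroup.normalizer (H i : Set G)).index * (Nat.card (H i) - 1) := by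
  classical
  haveI : Fintype G := Fintype.ofFinite _
  set X : ι → Finset G := fun i => Finset.univ.filter (fun x : G => x ≠ 1 ∧ ∃ g : G, g⁻¹ * x * g ∈ H i)
    with hX
  have hcard : ∀ i, (X i).card = (Subgroup.normalizer (H i : Set G)).index * (Nat.card (H i) - 1) := by
    intro i
    have h1 := card_conj_mul (H i) (hTI i)
    have h2 := (Subgroup.normalizer (H i : Set G)).card_mul_index
    rw [← h2, mul_assoc] at h1
    rw [mul_comm] at h1
    exact Nat.eq_of_mul_eq_mul_left Nat.card_pos h1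
  have hdisj : ∀ i ∈ (Finset.univ : Finset ι), ∀ j ∈ (Finset.univ : Finset ι), i ≠ j →
      Disjoint (X i) (X j) := by
    intro i _ j _ hij
    rw [Finset.disjoint_left]
    intro x hxi hxj
    obtain ⟨hx1, g, hg⟩ := (Finset.mem_filter.mp hxi).2
    obtain ⟨-, g', hg'⟩ := (Finset.mem_filter.mp hxj).2
    have hord : ∀ (K : Subgroup G) (a : G), a⁻¹ * x * a ∈ K → orderOf x ∣ Nat.card K := by
      intro K a ha
      have h1 := orderOf_dvd_natCard (⟨_, ha⟩ : K)
      rw [Subgroup.orderOf_mk] at h1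
      have h2 : orderOf (a⁻¹ * x * a) = orderOf x := by
        have h3 := orderOf_injective (MulAut.conj a⁻¹).toMonoidHom (MulEquiv.injective _) x
        simpa [MulAut.conj_apply] using h3
      rwa [h2] at h1
    have h3 := Nat.eq_one_of_dvd_coprimes (hcop i j hij) (hord _ g hg) (hord _ g' hg')
    exact hx1 (orderOf_eq_one_iff.mp h3)
  have hunion : Finset.univ.biUnion X = Finset.univ.erase (1 : G) := by
    ext x
    simp only [Finset.mem_biUnion, Finset.mem_univ, true_and, Finset.mem_erase, and_true]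
    constructor
    · rintro ⟨i, hi⟩
      exact (Finset.mem_filter.mp hi).2.1
    · intro hx
      obtain ⟨i, y, hy⟩ := hcover x hx
      refine ⟨i, Finset.mem_filter.mpr ⟨Finset.mem_univ _, hx, y⁻¹, ?_⟩⟩
      simpa using hy
  have h := congrArg Finset.card hunion
  rw [Finset.card_biUnion hdisj, Finset.card_erase_of_mem (Finset.mem_univ _), Finset.card_univ,
    ← Nat.card_eq_fintype_card] at h
  rw [← h]
  exact Finset.sum_congr rfl fun i _ => hcard i

end Cfsg.Agent.S1527
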