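import Cfsg.Statements.S1531
import Cfsg.Agent.Lib.H06.Coher

set_option autoImplicit false

open Cfsg

namespace Cfsg.Agent.S1531

open Cfsg.Agent.H06 Cfsg.Agent.H21
open scoped ComplexConjugate

theorem result {G : Type*} [Group G] [Fintype G] (N : Subgroup G) [Fintype N] (S X Y : Set (N → ℂ)) (hirr : ∀ ξ ∈ S, Cfsg.IsIrrCharacter N ξ) (hXS : X ⊆ S) (hYS : Y ⊆ S) (hXY : Disjoint X Y) (hX2 : ∃ a ∈ X, ∃ b ∈ X, a ≠ b) (hY2 : ∃ a ∈ Y, ∃ b ∈ Y, a ≠ b) (α : (N → ℂ) → (G → ℂ)) (hα : Cfsg.IsLinearIsometryOn (Cfsg.zspanOn S {1}ᶜ) α) (hα1 : ∀ θ ∈ Cfsg.zspanOn S {1}ᶜ, α θ 1 = 0) (σ τ : (N → ℂ) → (G → ℂ)) (hσ : Cfsg.IsLinearIsometryOn (Cfsg.zspan X) σ) (hσα : ∀ θ ∈ Cfsg.zspanOn X {1}ᶜ, σ θ = α θ) (hτ : Cfsg.IsLinearIsometryOn (Cfsg.zspan Y) τ) (hτα : ∀ θ ∈ Cfsg.zspanOn Y {1}ᶜ, τ θ = α θ) : (∀ χ ∈ X, ∀ η ∈ Y, Cfsg.classInner (σ χ) (τ η) = 0) ∧ ((∃ χ₀ ∈ X, ∃ η₀ ∈ Y, α (χ₀ 1 • η₀ - η₀ 1 • χ₀) = χ₀ 1 • τ η₀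 - η₀ 1 • σ χ₀) → Cfsg.IsCoherent (X ∪ Y) {1}ᶜ α) := by
  classical
  have hXY' : ∀ {a b : N → ℂ}, a ∈ X → b ∈ Y → a ≠ b := by
    intro a b ha hb e
    exact (Set.disjoint_left.mp hXY ha) (e ▸ hb)
  have hirrX : ∀ ξ ∈ X, IsIrrCharacter N ξ := fun ξ h => hirr ξ (hXS h)
  have hirrY : ∀ ξ ∈ Y, IsIrrCharacter N ξ := fun ξ h => hirr ξ (hYS h)
  have hdeg : ∀ ξ ∈ S, ξ 1 = ((charDegree ξ : ℤ) : ℂ) := by
    intro ξ hξ
    rw [one_eq_charDegree (isCharacter_of_irr (hirr ξ hξ))]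
    simp
  have hpos : ∀ ξ ∈ S, (charDegree ξ : ℝ) ≠ 0 := by
    intro ξ hξ
    exact Nat.cast_ne_zero.mpr (irr_charDegree_pos (hirr ξ hξ)).ne'
  have hmemX : ∀ ξ ∈ X, ξ ∈ zspan X := fun ξ h => mem_zspan h
  have hmemY : ∀ ξ ∈ Y, ξ ∈ zspan Y := fun ξ h => mem_zspan h
  have hsame : ∀ (T : Set (N → ℂ)) (x y : N → ℂ), x ∈ T → y ∈ T → T ⊆ S →
      ((charDegree y : ℤ) • x + (-(charDegree x : ℤ)) • y) ∈ zspanOn T {1}ᶜ := by
    intro T x y hx hy hT
    refine mem_zspanOn_one (zspan_add_mem (zspan_zsmul_mem _ (mem_zspan hx)) (zspan_zsmul_mem _ (mem_zspan hy))) ?_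
    simp only [Pi.add_apply, zsmul_apply', hdeg x (hT hx), hdeg y (hT hy)]
    push_cast
    ring
  have part1 : ∀ χ ∈ X, ∀ η ∈ Y, classInner (σ χ) (τ η) = 0 := by
    intro χ hχ η hη
    obtain ⟨χ', hχ', hne⟩ : ∃ χ' ∈ X, χ ≠ χ' := by
      obtain ⟨a, ha, b, hb, hab⟩ := hX2
      by_cases h : χ = a
      · exact ⟨b, hb, h ▸ hab⟩
      · exact ⟨a, ha, h⟩
    obtain ⟨η', hη', hne'⟩ : ∃ η' ∈ Y, η ≠ η' := by
      obtain ⟨a, ha, b, hb, hab⟩ := hY2
      by_cases h : η = a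
      · exact ⟨b, hb, h ▸ hab⟩
      · exact ⟨a, ha, h⟩
    have hA := hsame X χ χ' hχ hχ' hXS
    have hB := hsame Y η η' hη hη' hYS
    have hAS := zspanOn_mono hXS hA
    have hBS := zspanOn_mono hYS hB
    have e1 := hσα _ hA
    have e2 := hτα _ hB
    have e3 := hα.2.2.1 _ hAS _ hBS
    rw [← e1, ← e2, iso_lin hσ (zspan_closed X) _ _ (hmemX χ hχ) (hmemX χ' hχ'),
      iso_lin hτ (zspan_closed Y) _ _ (hmemY η hη) (hmemY η' hη')] at e3
    have hin : ∀ {x y : N → ℂ}, x ∈ X → y ∈ Y → classInner x y = 0 := fun hx hy =>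
      classInner_irr_ne (hirrX _ hx) (hirrY _ hy) (hXY' hx hy)
    simp only [classInner_add_left, classInner_add_right, classInner_zsmul_left, classInner_zsmul_right,
      hin hχ hη, hin hχ hη', hin hχ' hη, hin hχ' hη', mul_zero, add_zero] at e3
    have hval1 := hα1 _ hAS
    have hval2 := hα1 _ hBS
    rw [← e1, iso_lin hσ (zspan_closed X) _ _ (hmemX χ hχ) (hmemX χ' hχ')] at hval1
    rw [← e2, iso_lin hτ (zspan_closed Y) _ _ (hmemY η hη) (hmemY η' hη')] at hval2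
    simp only [Pi.add_apply, zsmul_apply'] at hval1 hval2
    have hsχ : SignedIrr (σ χ) := iso_signedIrr hσ (hmemX χ hχ) (classInner_irr_self (hirrX χ hχ))
    have hsχ' : SignedIrr (σ χ') := iso_signedIrr hσ (hmemX χ' hχ') (classInner_irr_self (hirrX χ' hχ'))
    have hsη : SignedIrr (τ η) := iso_signedIrr hτ (hmemY η hη) (classInner_irr_self (hirrY η hη))
    have hsη' : SignedIrr (τ η') := iso_signedIrr hτ (hmemY η' hη') (classInner_irr_self (hirrY η' hη'))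
    have h12 : classInner (σ χ) (σ χ') = 0 := by
      rw [hσ.2.2.1 _ (hmemX χ hχ) _ (hmemX χ' hχ')]
      exact classInner_irr_ne (hirrX χ hχ) (hirrX χ' hχ') hne
    have h34 : classInner (τ η) (τ η') = 0 := by
      rw [hτ.2.2.1 _ (hmemY η hη) _ (hmemY η' hη')]
      exact classInner_irr_ne (hirrY η hη) (hirrY η' hη') hne'
    have := quad_orth hsχ hsχ' hsη hsη' (hpos _ (hXS hχ')) (hpos _ (hYS hη')) (hpos _ (hXS hχ)) (hpos _ (hYS hη))
      h12 h34 (by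
        push_cast at e3 ⊢
        linear_combination e3) (by
        push_cast at hval1 ⊢
        linear_combination hval1) (by
        push_cast at hval2 ⊢
        linear_combination hval2)
    exact this.1
  refine ⟨part1, ?_⟩
  rintro ⟨χ₀, hχ₀, η₀, hη₀, hyp⟩
  have hU : X ∪ Y ⊆ S := Set.union_subset hXS hYS
  have horth : ∀ x ∈ X ∪ Y, ∀ y ∈ X ∪ Y, x ≠ y → classInner x y = 0 := fun x hx y hy h =>
    classInner_irr_ne (hirr x (hU hx)) (hirr y (hU hy)) h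
  have hne : ∀ x ∈ X ∪ Y, classInner x x ≠ 0 := by
    intro x hx
    rw [classInner_irr_self (hirr x (hU hx))]
    exact one_ne_zero
  have hfin := finite_of_orthogonal horth hne
  let T := hfin.toFinset
  have hT : (T : Set (N → ℂ)) = X ∪ Y := hfin.coe_toFinset
  have hmT : ∀ x, x ∈ T ↔ x ∈ X ∪ Y := fun x => by
    rw [← hT]
    rfl
  let μ : (N → ℂ) → (G → ℂ) := fun f => if f ∈ X then σ f else τ f
  have hμX : ∀ f ∈ X, μ f = σ f := fun f hf => if_pos hf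
  have hμY : ∀ f ∈ Y, μ f = τ f := fun f hf => if_neg (Set.disjoint_right.mp hXY hf)
  have hiso : IsLinearIsometryOn (zspan (T : Set (N → ℂ))) (coherExt T μ) := by
    refine coherExt_isometry (fun x hx y hy h => horth x ((hmT x).mp hx) y ((hmT y).mp hy) h)
      (fun x hx => hne x ((hmT x).mp hx)) ?_ ?_
    · intro x hx
      rcases (hmT x).mp hx with hx | hx
      · rw [hμX x hx]
        exact hσ.2.2.2 x (hmemX x hx)
      · rw [hμY x hx]
        exact hτ.2.2.2 x (hmemY x hx)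
    · intro x hx y hy
      rcases (hmT x).mp hx with hx' | hx' <;> rcases (hmT y).mp hy with hy' | hy'
      · rw [hμX x hx', hμX y hy']
        exact hσ.2.2.1 x (hmemX x hx') y (hmemX y hy')
      · rw [hμX x hx', hμY y hy', part1 x hx' y hy']
        exact (classInner_irr_ne (hirrX x hx') (hirrY y hy') (hXY' hx' hy')).symm
      · rw [hμY x hx', hμX y hy', ← classInner_comm_conj, part1 y hy' x hx', map_zero]
        exact (classInner_irr_ne (hirrY x hx') (hirrX y hy') (hXY' hy' hx').symm).symm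
      · rw [hμY x hx', hμY y hy']
        exact hτ.2.2.1 x (hmemY x hx') y (hmemY y hy')
  rw [hT] at hiso
  have hmem : ∀ x, x ∈ T → coherExt T μ x = μ x := fun x hx =>
    coherExt_mem (fun x hx y hy h => horth x ((hmT x).mp hx) y ((hmT y).mp hy) h)
      (fun x hx => hne x ((hmT x).mp hx)) hx
  have hχ₀S := hXS hχ₀
  have hη₀S := hYS hη₀
  set c : ℤ := (charDegree χ₀ : ℤ) with hc
  set e : ℤ := (charDegree η₀ : ℤ) with he
  have hc0 : (c : ℂ) ≠ 0 := by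
    rw [hc]
    exact_mod_cast (irr_charDegree_pos (hirr χ₀ hχ₀S)).ne'
  have he0 : (e : ℂ) ≠ 0 := by
    rw [he]
    exact_mod_cast (irr_charDegree_pos (hirr η₀ hη₀S)).ne'
  have hχ₀1 : χ₀ 1 = (c : ℂ) := hdeg χ₀ hχ₀S
  have hη₀1 : η₀ 1 = (e : ℂ) := hdeg η₀ hη₀S
  have hA₃ : c • η₀ + (-e) • χ₀ ∈ zspanOn (X ∪ Y) {1}ᶜ :=
    hsame (X ∪ Y) η₀ χ₀ (Or.inr hη₀) (Or.inl hχ₀) hU
  refine ⟨⟨_, hA₃, ?_⟩, coherExt T μ, hiso, ?_⟩
  · intro h0
    have h1 := congrArg (fun f => classInner f η₀) h0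
    simp only [classInner_zero_left, classInner_add_left, classInner_zsmul_left] at h1
    rw [classInner_irr_self (hirr η₀ hη₀S),
      classInner_irr_ne (hirr χ₀ hχ₀S) (hirr η₀ hη₀S) (hXY' hχ₀ hη₀)] at h1
    apply hc0
    simpa using h1
  · intro f hf
    have hQ : ∀ g ∈ zspan (X ∪ Y), ∃ g₁ ∈ zspan X, ∃ g₂ ∈ zspan Y, g = g₁ + g₂ ∧
        coherExt T μ g = σ g₁ + τ g₂ := by
      intro g hg
      have hg' : g ∈ Submodule.span ℤ (X ∪ Y) := hg
      clear hg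
      induction hg' using Submodule.span_induction with
      | mem x hx =>
        rcases hx with hx | hx
        · refine ⟨x, hmemX x hx, 0, zspan_zero_mem, by simp, ?_⟩
          rw [hmem x ((hmT x).mpr (Or.inl hx)), hμX x hx, iso_zero hτ zspan_zero_mem, add_zero]
        · refine ⟨0, zspan_zero_mem, x, hmemY x hx, by simp, ?_⟩
          rw [hmem x ((hmT x).mpr (Or.inr hx)), hμY x hx, iso_zero hσ zspan_zero_mem, zero_add]
      | zero =>
        refine ⟨0, zspan_zero_mem, 0, zspan_zero_mem, by simp, ?_⟩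
        rw [coherExt_zero, iso_zero hσ zspan_zero_mem, iso_zero hτ zspan_zero_mem, add_zero]
      | add a b _ _ ha hb =>
        obtain ⟨a₁, ha₁, a₂, ha₂, ea, ea'⟩ := ha
        obtain ⟨b₁, hb₁, b₂, hb₂, eb, eb'⟩ := hb
        refine ⟨a₁ + b₁, zspan_add_mem ha₁ hb₁, a₂ + b₂, zspan_add_mem ha₂ hb₂, ?_, ?_⟩
        · rw [ea, eb]
          abel
        · rw [coherExt_add, ea', eb', hσ.1 _ ha₁ _ hb₁, hτ.1 _ ha₂ _ hb₂]
          abel
      | smul n a _ ha =>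
        obtain ⟨a₁, ha₁, a₂, ha₂, ea, ea'⟩ := ha
        refine ⟨n • a₁, zspan_zsmul_mem n ha₁, n • a₂, zspan_zsmul_mem n ha₂, ?_, ?_⟩
        · rw [ea, smul_add]
        · rw [coherExt_zsmul, ea', hσ.2.1 _ ha₁, hτ.2.1 _ ha₂, smul_add]
    obtain ⟨g₁, hg₁, g₂, hg₂, ef, ef'⟩ := hQ f hf.1
    rw [ef']
    have hint : ∃ d : ℤ, g₁ 1 = d := by
      have hg' : g₁ ∈ Submodule.span ℤ X := hg₁
      clear hg₁ ef ef'
      induction hg' using Submodule.span_induction with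
      | mem x hx => exact ⟨_, hdeg x (hXS hx)⟩
      | zero => exact ⟨0, by simp⟩
      | add a b _ _ ha hb =>
        obtain ⟨a', ha'⟩ := ha
        obtain ⟨b', hb'⟩ := hb
        exact ⟨a' + b', by simp [ha', hb']⟩
      | smul n a _ ha =>
        obtain ⟨a', ha'⟩ := ha
        exact ⟨n * a', by rw [zsmul_apply', ha']; push_cast; ring⟩
    obtain ⟨d, hd⟩ := hint
    have hf1 : f 1 = 0 := hf.2 1 (by simp)
    have hd2 : g₂ 1 = -(d : ℂ) := by
      have := hf1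
      rw [ef, Pi.add_apply, hd] at this
      linear_combination this
    have hA₁ : c • g₁ + (-d) • χ₀ ∈ zspanOn X {1}ᶜ := by
      refine mem_zspanOn_one (zspan_add_mem (zspan_zsmul_mem _ hg₁) (zspan_zsmul_mem _ (hmemX χ₀ hχ₀))) ?_
      simp only [Pi.add_apply, zsmul_apply', hd, hχ₀1]
      push_cast
      ring
    have hA₂ : e • g₂ + d • η₀ ∈ zspanOn Y {1}ᶜ := by
      refine mem_zspanOn_one (zspan_add_mem (zspan_zsmul_mem _ hg₂) (zspan_zsmul_mem _ (hmemY η₀ hη₀))) ?_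
      simp only [Pi.add_apply, zsmul_apply', hd2, hη₀1]
      ring
    have hA₁S := zspanOn_mono hXS hA₁
    have hA₂S := zspanOn_mono hYS hA₂
    have hA₃S := zspanOn_mono hU hA₃
    have hfS := zspanOn_mono hU hf
    have hid : (c * e) • f = e • (c • g₁ + (-d) • χ₀) + (c • (e • g₂ + d • η₀) + (-d) • (c • η₀ + (-e) • χ₀)) := by
      funext x
      simp only [ef, Pi.add_apply, zsmul_apply']
      push_cast
      ring
    have h1 := congrArg α hid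
    have hzc := zspanOn_closed S {1}ᶜ
    rw [hα.2.1 f hfS, hα.1 _ (hzc e _ hA₁S) _ (zspanOn_add (hzc c _ hA₂S) (hzc (-d) _ hA₃S)),
      hα.1 _ (hzc c _ hA₂S) _ (hzc (-d) _ hA₃S), hα.2.1 _ hA₁S, hα.2.1 _ hA₂S, hα.2.1 _ hA₃S,
      ← hσα _ hA₁, ← hτα _ hA₂, iso_lin hσ (zspan_closed X) _ _ hg₁ (hmemX χ₀ hχ₀),
      iso_lin hτ (zspan_closed Y) _ _ hg₂ (hmemY η₀ hη₀)] at h1
    have hA₃eq : χ₀ 1 • η₀ - η₀ 1 • χ₀ = c • η₀ + (-e) • χ₀ := by
      funext x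
      simp only [Pi.add_apply, Pi.sub_apply, Pi.smul_apply, zsmul_apply', hχ₀1, hη₀1, smul_eq_mul]
      push_cast
      ring
    rw [hA₃eq] at hyp
    rw [hyp] at h1
    funext x
    have h2 := congrFun h1 x
    simp only [Pi.add_apply, Pi.sub_apply, Pi.smul_apply, zsmul_apply', hχ₀1, hη₀1, smul_eq_mul] at h2
    push_cast at h2
    have hce : (c : ℂ) * e ≠ 0 := mul_ne_zero hc0 he0
    apply mul_left_cancel₀ hce
    simp only [Pi.add_apply]
    linear_combination -h2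

end Cfsg.Agent.S1531
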