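import Cfsg.Statements.S1532
import Cfsg.Agent.Lib.H06.CoherS2

set_option autoImplicit false
open Cfsg

namespace Cfsg.Agent.S1532

/-- Let G be a finite group, p an odd prime and P a Sylow p-subgroup that is non-abelian, whose underlying set is a TI-subset of G, with P properly contained in its set normaliser N and C_G(x) ≤ P for every non-identity x ∈ P. Let Z be a nontrivial subgroup of the centre of P normalised by N. Then the set of irreducible characters χ of N with χ z ≠ χ 1 for some z ∈ Z is coherent for the map induced by induction from N to G. -/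
theorem result {G : Type*} [Group G] [Fintype G] (p : ℕ) [Fact p.Prime] (hp : p ≠ 2) (P : Sylow p G) (hna : ¬ IsMulCommutative (P : Subgroup G)) (hTI : Cfsg.IsTISubset ((P : Subgroup G) : Set G)) (hlt : (P : Subgroup G) < Subgroup.normalizer ((P : Subgroup G) : Set G)) (hC : ∀ k ∈ (P : Subgroup G), k ≠ 1 → Subgroup.centralizer ({k} : Set G) ≤ (P : Subgroup G)) [Fintype ↥(Subgroup.normalizer ((P : Subgroup G) : Set G))] (Z : Subgroup G) (hZ1 : Z ≠ ⊥) (hZP : ∀ z ∈ Z, z ∈ (P : Subgroup G) ∧ ∀ y ∈ (P : Subgroup G), z * y = y * z) (hZn : ∀ x ∈ Subgroup.normalizer ((P : Subgroup G) : Set G), ∀ z ∈ Z, x * z * x⁻¹ ∈ Z) : Cfsg.IsCoherent {χ : ↥(Subgroup.normalizer ((P : Subgroup G) : Set G)) → ℂ | Cfsg.IsIrrCharacter ↥(Subgroup.normalizer ((P : Subgroup G) : Set G)) χ ∧ ∃ z : ↥(Subgroup.normalizer ((P : Subgroup G) : Set G)), (z : G) ∈ Z ∧ χ z ≠ χ 1} {1}ᶜ (fun α => Cfsg.indFun (Subgroup.normalizer ((P : Subgroup G) : Set G)) α) := by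
  classical
  have hna' : ¬ ∀ a ∈ (P : Subgroup G), ∀ b ∈ (P : Subgroup G), a * b = b * a :=
    fun h => hna ⟨⟨fun a b => Subtype.ext (h a a.2 b b.2)⟩⟩
  have hKodd : Odd (Nat.card (P : Subgroup G)) := by
    obtain ⟨n, hn⟩ := IsPGroup.iff_card.mp P.isPGroup'
    rw [hn]
    exact Odd.pow (Nat.Prime.odd_of_ne_two Fact.out hp)
  have hnil : Group.IsNilpotent (P : Subgroup G) := P.isPGroup'.isNilpotent
  have hP1 : (P : Subgroup G) ≠ ⊥ := by
    intro h
    apply hna'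
    intro a ha b hb
    rw [h, Subgroup.mem_bot] at ha hb
    rw [ha, hb]
  obtain ⟨hodd, hcoh⟩ := Cfsg.Agent.H06.ti_facts (P : Subgroup G) hTI hKodd hnil hP1 hlt hC
    (Cfsg.Agent.H06.sylow_coprime_subgroupOf P _ Subgroup.le_normalizer) hna'
  have hC' := Cfsg.Agent.H06.ti_hC' (P : Subgroup G) _ Subgroup.le_normalizer hC
  haveI hn : ((P : Subgroup G).subgroupOf (Subgroup.normalizer ((P : Subgroup G) : Set G))).Normal :=
    Subgroup.normal_in_normalizer
  have hset := Cfsg.Agent.H06.frob_set_eq ((P : Subgroup G).subgroupOf (Subgroup.normalizer ((P : Subgroup G) : Set G))) hC'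
  refine Cfsg.Agent.H06.coh_restrict hcoh ?_ (Cfsg.Agent.H06.exists_ne_zero_of_conj hodd _ ?_ ?_)
  · rintro χ ⟨hχ, z, hz, hne⟩
    rw [← hset]
    exact ⟨hχ, z, Subgroup.mem_subgroupOf.mpr (hZP z hz).1, hne⟩
  · rintro χ ⟨hχ, z, hz, hne⟩
    refine ⟨hχ, ⟨Cfsg.Agent.H23.isIrrCharacter_conjFun hχ, z, hz, ?_⟩, ?_⟩
    · intro h
      exact hne ((starRingEnd ℂ).injective h)
    · rintro rfl
      exact hne rfl
  · obtain ⟨z, hz, hz1⟩ := (Subgroup.bot_or_exists_ne_one Z).resolve_left hZ1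
    have hzN : z ∈ Subgroup.normalizer ((P : Subgroup G) : Set G) := Subgroup.le_normalizer (hZP z hz).1
    obtain ⟨χ, hχ⟩ := Cfsg.Agent.H22.exists_irr_ne_of_ne_one (G := ↥(Subgroup.normalizer ((P : Subgroup G) : Set G)))
      (w := ⟨z, hzN⟩) (fun h => hz1 (congrArg Subtype.val h))
    exact ⟨χ.1, χ.2, ⟨z, hzN⟩, hz, hχ⟩

end Cfsg.Agent.S1532
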