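import Cfsg.Statements.S1536
import Cfsg.Agent.Lib.H06.CharBrauer

set_option autoImplicit false

open Cfsg

namespace Cfsg.Agent.S1536

theorem result {M : Type*} [Group M] [Finite M] (H : Subgroup M) [hN : H.Normal] (hHall : Nat.Coprime (Nat.card H) H.index) (x : M) : (∃ θ : H → ℂ, Cfsg.IsIrrCharacter H θ ∧ θ ≠ (fun _ => 1) ∧ (fun h : H => θ ⟨x * h * x⁻¹, hN.conj_mem h h.2 x⟩) = θ) ↔ ∃ h ∈ H, h ≠ 1 ∧ x * h = h * x :=
  (Cfsg.Agent.H06.exists_fixed_irr_iff_exists_fixed_class H x).trans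
    (Cfsg.Agent.H06.exists_fixed_element_of_fixed_class H hHall x)

end Cfsg.Agent.S1536
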