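import Cfsg.Statements.S1546
import Mathlib

set_option autoImplicit false
open Cfsg

namespace Cfsg.Agent.S1546

theorem key (p q r : ℕ) (hp : p.Prime) (hq : q.Prime) (hr : r.Prime) (hpq : p % q ≠ 1)
    (hdvd : r ∣ ∑ k ∈ Finset.range q, p ^ k) : ((p : ZMod r) ≠ 1) ∧ r % q = 1 := by
  haveI : Fact r.Prime := ⟨hr⟩
  have hq1 : 1 < q := hq.one_lt
  have hN : ((∑ k ∈ Finset.range q, p ^ k : ℕ) : ZMod r) = 0 :=
    (ZMod.natCast_eq_zero_iff _ r).mpr hdvd
  have hN' : ∑ k ∈ Finset.range q, (p : ZMod r) ^ k = 0 := by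
    simpa using hN
  have hne : (p : ZMod r) ≠ 1 := by
    intro h1
    rw [h1] at hN'
    simp only [one_pow, Finset.sum_const, Finset.card_range, nsmul_eq_mul, mul_one] at hN'
    have hrq : r ∣ q := (ZMod.natCast_eq_zero_iff q r).mp hN'
    have hreq : r = q := (Nat.prime_dvd_prime_iff_eq hr hq).mp hrq
    subst hreq
    apply hpq
    have h2 : ((p : ℕ) : ZMod r) = ((1 : ℕ) : ZMod r) := by simpa using h1
    have h3 := (ZMod.natCast_eq_natCast_iff' p 1 r).mp h2
    rw [h3]
    exact Nat.mod_eq_of_lt hq1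
  refine ⟨hne, ?_⟩
  have hpow : (p : ZMod r) ^ q = 1 := by
    have := geom_sum_mul (p : ZMod r) q
    rw [hN', zero_mul] at this
    exact (sub_eq_zero.mp this.symm)
  have hne0 : (p : ZMod r) ≠ 0 := by
    intro h0
    rw [h0, zero_pow hq.ne_zero] at hpow
    exact zero_ne_one hpow
  have hord : orderOf (p : ZMod r) ∣ q := orderOf_dvd_of_pow_eq_one hpow
  rcases (Nat.dvd_prime hq).mp hord with h | h
  · exact absurd (orderOf_eq_one_iff.mp h) hne
  · have hfermat := ZMod.pow_card_sub_one_eq_one hne0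
    have h4 : q ∣ r - 1 := h ▸ orderOf_dvd_of_pow_eq_one hfermat
    obtain ⟨c, hc⟩ := h4
    have h5 : r = 1 + q * c := by
      have := hr.one_lt
      omega
    rw [h5, Nat.add_mul_mod_self_left]
    exact Nat.mod_eq_of_lt hq1

/-- Let p and q be odd primes and N = (p ^ q − 1) / (p − 1) = 1 + p + ⋯ + p^(q−1). Then N is odd; if p ≡ 1 (mod q) then q ∣ N; and if p is not ≡ 1 (mod q) then N is coprime to p − 1 and every divisor of N is ≡ 1 (mod q). -/
theorem result (p q : ℕ) (hp : p.Prime) (hq : q.Prime) (hp2 : p ≠ 2) (hq2 : q ≠ 2) : Odd ((p ^ q - 1) / (p - 1)) ∧ (p % q = 1 → q ∣ (p ^ q - 1) / (p - 1)) ∧ (p % q ≠ 1 → Nat.Coprime ((p ^ q - 1) / (p - 1)) (p - 1) ∧ ∀ x : ℕ, x ∣ (p ^ q - 1) / (p - 1) → x % q = 1) := by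
  rw [← Nat.geomSum_eq hp.two_le q]
  have hq1 : 1 < q := hq.one_lt
  have hpodd : Odd p := hp.odd_of_ne_two hp2
  have hqodd : Odd q := hq.odd_of_ne_two hq2
  refine ⟨?_, ?_, ?_⟩
  · rw [Finset.odd_sum_iff_odd_card_odd]
    have : (Finset.range q).filter (fun x => Odd (p ^ x)) = Finset.range q := by
      apply Finset.filter_true_of_mem
      intro x _
      exact hpodd.pow
    rw [this, Finset.card_range]
    exact hqodd
  · intro hpq
    have hcast : ((p : ℕ) : ZMod q) = 1 := by
      have : ((p : ℕ) : ZMod q) = ((1 : ℕ) : ZMod q) := by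
        rw [ZMod.natCast_eq_natCast_iff']
        rw [hpq, Nat.mod_eq_of_lt hq1]
      simpa using this
    rw [← ZMod.natCast_eq_zero_iff]
    push_cast
    rw [hcast]
    simp
  · intro hpq
    constructor
    · apply Nat.coprime_of_dvd
      intro r hr hrN hrp
      obtain ⟨hne, _⟩ := key p q r hp hq hr hpq hrN
      apply hne
      have h1 : ((p - 1 : ℕ) : ZMod r) = 0 := (ZMod.natCast_eq_zero_iff _ r).mpr hrp
      rw [Nat.cast_sub hp.one_lt.le, Nat.cast_one, sub_eq_zero] at h1
      exact h1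
    · intro x
      induction x using Nat.strong_induction_on with
      | _ x ih =>
        intro hx
        have hNpos : 0 < ∑ k ∈ Finset.range q, p ^ k :=
          Finset.sum_pos (fun i _ => pow_pos hp.pos i) ⟨0, Finset.mem_range.mpr hq.pos⟩
        have hxpos : 0 < x := Nat.pos_of_dvd_of_pos hx hNpos
        by_cases hx1 : x = 1
        · rw [hx1]; exact Nat.mod_eq_of_lt hq1
        · have hr := Nat.minFac_prime hx1
          obtain ⟨y, hy⟩ := Nat.minFac_dvd x
          have hyx : y < x := by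
            rw [hy]
            have : 0 < y := by
              rcases Nat.eq_zero_or_pos y with h | h
              · rw [h] at hy; omega
              · exact h
            nlinarith [hr.two_le]
          have hyN : y ∣ ∑ k ∈ Finset.range q, p ^ k := (Dvd.intro_left _ hy.symm).trans hx
          have h1 := ih y hyx hyN
          obtain ⟨_, h2⟩ := key p q x.minFac hp hq hr hpq ((Nat.minFac_dvd x).trans hx)
          rw [hy, Nat.mul_mod, h1, h2]
          simp [Nat.mod_eq_of_lt hq1]

end Cfsg.Agent.S1546
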