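import Cfsg.Statements.S1550
import Mathlib
import Cfsg.Agent.Lib.H27.GolayTrios

set_option autoImplicit false
open Cfsg

namespace Cfsg.Agent.S1550

open Cfsg.Agent.H27.Golay
open scoped Pointwise

/-- Every 4-element set of the 24 points is a tetrad of exactly one sextet, and the sextets number 1771. -/
theorem result : (∀ t : Finset Cfsg.GolayPt, t.card = 4 → ∃! S : Finset (Finset Cfsg.GolayPt), S ∈ Cfsg.sextets ∧ t ∈ S) ∧ Cfsg.sextets.ncard = 1771 := by
  refine ⟨fun t ht => ?_, ncard_sextets_all⟩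
  obtain ⟨p, hp⟩ : t.Nonempty := Finset.card_pos.1 (by omega)
  have hall : ∀ q : GolayPt, ∃ a ∈ M24, a (pt 23) = q := by
    intro q
    obtain ⟨t1, -, f1, -, e1⟩ := level1.exists_mem (y := q) ((by decide : ∀ p : GolayPt, p ∈ fs 16777215) q)
    exact ⟨P t1, by rw [← fixG_nil_eq]; exact f1, e1⟩
  obtain ⟨a, ha, ea⟩ := hall p
  obtain ⟨b, hb, eb⟩ := hall (pt 0)
  set g := b * a⁻¹ with hg
  have hgM : g ∈ M24 := M24.mul_mem hb (M24.inv_mem ha)
  have hgp : g p = pt 0 := by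
    rw [hg, Equiv.Perm.mul_apply, ← ea]
    simp [eb]
  have h0 : pt 0 ∈ g • t := by
    rw [← hgp]
    exact Finset.smul_mem_smul_finset hp
  obtain ⟨c, hc, hct⟩ := exists_code_of_tetrad (t := g • t) (by rw [Finset.card_smul_finset]; exact ht) h0
  have hS0 : sx c ∈ sextets := (mem_sextets_iff_list _).mpr ⟨c, hc, rfl⟩
  have hmem0 : g • t ∈ sx c := mem_sx.2 ⟨_, fld0_mem_sxF c, hct⟩
  refine ⟨g⁻¹ • sx c, ⟨smul_mem_sextets (M24.inv_mem hgM) hS0, ?_⟩, ?_⟩
  · have := Finset.smul_mem_smul_finset (a := g⁻¹) hmem0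
    simpa using this
  · rintro S ⟨hS, htS⟩
    apply sextet_eq_of_mem hS (smul_mem_sextets (M24.inv_mem hgM) hS0) htS
    have := Finset.smul_mem_smul_finset (a := g⁻¹) hmem0
    simpa using this

end Cfsg.Agent.S1550
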