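import Cfsg.Statements.S1552
import Mathlib
import Cfsg.Agent.Lib.H07.GolaySR

set_option autoImplicit false
open scoped Pointwise
open Cfsg

set_option maxRecDepth 100000

namespace Cfsg.Agent.S1552

open Cfsg.Agent.H27.Golay Cfsg.Agent.H07.Orb
open scoped Pointwise

theorem c96 : countL (fun m => Nat.beq (keyS m) 96) sextetL = 1 := by decide +kernel
theorem c48 : countL (fun m => Nat.beq (keyS m) 48) sextetL = 90 := by decide +kernel
theorem c36 : countL (fun m => Nat.beq (keyS m) 36) sextetL = 240 := by decide +kernel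
theorem c32 : countL (fun m => Nat.beq (keyS m) 32) sextetL = 1440 := by decide +kernel
theorem rm48 : repS 48 ∈ sextetL := by decide +kernel
theorem rk48 : keyS (repS 48) = 48 := by decide +kernel
theorem rm36 : repS 36 ∈ sextetL := by decide +kernel
theorem rk36 : keyS (repS 36) = 36 := by decide +kernel
theorem rm32 : repS 32 ∈ sextetL := by decide +kernel
theorem rk32 : keyS (repS 32) = 32 := by decide +kernel
theorem allkeys : allL (fun m => Nat.beq (keyS m) 96 || Nat.beq (keyS m) 48 || Nat.beq (keyS m) 36 || Nat.beq (keyS m) 32) sextetL = true := by decide +kernel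
theorem selfkey : allL (fun m => (Nat.beq (keyS m) 96).not || Nat.beq m S0c) sextetL = true := by decide +kernel
theorem keyself : keyS S0c = 96 := by decide +kernel

theorem coatom_base : IsCoatom (MulAction.stabilizer ↥M24 (sx S0c)) := by
  refine coatom_table sx sextetL sextetL_nodup sx_inj S0c_mem ?_ keyS ?_ ?_ {96, 48, 36, 32}
    ?_ (fun k => if k = 96 then 1 else if k = 48 then 90 else if k = 36 then 240 else 1440) ?_ 1771 96 ?_ keyself ?_ (by norm_num)
  · intro g hg c hc
    have h1 := smul_S hg ((mem_S_iff _).mpr ⟨c, hc, rfl⟩)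
    obtain ⟨d, hd, h2⟩ := (mem_S_iff _).mp h1
    exact ⟨d, hd, h2.symm⟩
  · intro c hc
    exact exists_smul_S ((mem_S_iff _).mpr ⟨c, hc, rfl⟩)
  · intro c hc d hd hk
    exact exists_stab_S hc hd hk
  · intro c hc
    have h := allL_spec allkeys c hc
    simp only [Bool.or_eq_true, beq_iff] at h
    simp only [Finset.mem_insert, Finset.mem_singleton]
    tauto
  · intro k hk
    simp only [Finset.mem_insert, Finset.mem_singleton] at hk
    rcases hk with rfl | rfl | rfl | rfl
    · exact c96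
    · exact c48
    · exact c36
    · exact c32
  · decide +kernel
  · decide


/-- A sextet stabiliser has four orbits on the 1771 sextets, of sizes 1, 90, 240, 1440; and the stabiliser is a maximal proper subgroup. -/
theorem result (S : Finset (Finset Cfsg.GolayPt)) (hS : S ∈ Cfsg.sextets) : ∃ X₁ ∈ Cfsg.sextets, ∃ X₂ ∈ Cfsg.sextets, ∃ X₃ ∈ Cfsg.sextets, (MulAction.orbit ↥(MulAction.stabilizer Cfsg.M24 S) X₁).ncard = 90 ∧ (MulAction.orbit ↥(MulAction.stabilizer Cfsg.M24 S) X₂).ncard = 240 ∧ (MulAction.orbit ↥(MulAction.stabilizer Cfsg.M24 S) X₃).ncard = 1440 ∧ Cfsg.sextets = {S} ∪ MulAction.orbit ↥(MulAction.stabilizer Cfsg.M24 S) X₁ ∪ MulAction.orbit ↥(MulAction.stabilizer Cfsg.M24 S) X₂ ∪ MulAction.orbit ↥(MulAction.stabilizer Cfsg.M24 S) X₃ ∧ IsCoatom (MulAction.stabilizer Cfsg.M24 S) := by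
  obtain ⟨h, hh, rfl⟩ := exists_smul_S hS
  have hmemR : ∀ c ∈ sextetL, sx c ∈ sextets := fun c hc => (mem_S_iff _).mpr ⟨c, hc, rfl⟩
  have hR : ∀ (k : ℕ), repS k ∈ sextetL → keyS (repS k) = k →
      MulAction.orbit ↥(MulAction.stabilizer M24 (h • sx S0c)) (h • sx (repS k)) =
        (fun y => h • y) '' {x | x ∈ sextets ∧ labS x = k} := by
    intro k h1 h2
    rw [orbit_S hh (hmemR _ h1), labS_dec h1, h2]
  have hcount : ∀ (k : ℕ), ((fun y : Finset (Finset GolayPt) => h • y) '' {x | x ∈ sextets ∧ labS x = k}).ncard =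
      countL (fun m => Nat.beq (keyS m) k) sextetL := by
    intro k
    rw [Set.InjOn.ncard_image (MulAction.injective h).injOn, ncard_class_S]
  have hmemO : ∀ k, ∀ x ∈ (fun y : Finset (Finset GolayPt) => h • y) '' {x | x ∈ sextets ∧ labS x = k}, x ∈ sextets := by
    rintro k x ⟨y, ⟨hy, -⟩, rfl⟩
    exact smul_S hh hy
  refine ⟨h • sx (repS 48), smul_S hh (hmemR _ rm48), h • sx (repS 36), smul_S hh (hmemR _ rm36), h • sx (repS 32), smul_S hh (hmemR _ rm32), ?_, ?_, ?_, ?_, ?_⟩
  · rw [hR 48 rm48 rk48, hcount, c48]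
  · rw [hR 36 rm36 rk36, hcount, c36]
  · rw [hR 32 rm32 rk32, hcount, c32]
  · rw [hR 48 rm48 rk48, hR 36 rm36 rk36, hR 32 rm32 rk32]
    ext x
    constructor
    · intro hx
      have hy := smul_S (M24.inv_mem hh) hx
      obtain ⟨c, hc, hcy⟩ := (mem_S_iff _).mp hy
      have hkey := allL_spec allkeys c hc
      simp only [Bool.or_eq_true, beq_iff] at hkey
      have hxe : x = h • sx c := by rw [hcy, smul_inv_smul]
      have hlab : labS (sx c) = keyS c := labS_dec hc
      rcases hkey with ((h1 | h2) | h3) | h4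
      · have hs := allL_spec selfkey c hc
        simp only [Bool.or_eq_true, Bool.not_eq_true', beq_iff] at hs
        rcases hs with hs | hs
        · rw [h1] at hs; simp at hs
        · rw [hxe, hs]
          simp
      · exact Or.inl (Or.inl (Or.inr ⟨sx c, ⟨hmemR c hc, by rw [hlab]; exact h2⟩, hxe.symm⟩))
      · exact Or.inl (Or.inr ⟨sx c, ⟨hmemR c hc, by rw [hlab]; exact h3⟩, hxe.symm⟩)
      · exact Or.inr ⟨sx c, ⟨hmemR c hc, by rw [hlab]; exact h4⟩, hxe.symm⟩
    · intro hx
      rcases hx with (((hx | hx) | hx) | hx)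
      · rw [Set.mem_singleton_iff.mp hx]
        exact smul_S hh (hmemR _ S0c_mem)
      · exact hmemO _ _ hx
      · exact hmemO _ _ hx
      · exact hmemO _ _ hx
  · exact isCoatom_stabilizer_smul (⟨h, hh⟩ : ↥M24) _ coatom_base

end Cfsg.Agent.S1552
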