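import Cfsg.Statements.S1555
import Mathlib
import Cfsg.Agent.Lib.H27.GolayTrios
import Cfsg.Agent.Lib.H07.Design

set_option autoImplicit false
open Cfsg

namespace Cfsg.Agent.S1555

open Cfsg.Agent.H07.Design

/-- Bottom row of the Leech triangle: an octad is met in a prescribed pair of its points by exactly 16 octads and in a prescribed 4-subset by exactly 4 octads. -/
theorem result (o : Finset Cfsg.GolayPt) (ho : o ∈ Cfsg.octads) (s : Finset Cfsg.GolayPt) (hs : s ⊆ o) : (s.card = 2 → {o' : Finset Cfsg.GolayPt | o' ∈ Cfsg.octads ∧ o ∩ o' = s}.ncard = 16) ∧ (s.card = 4 → {o' : Finset Cfsg.GolayPt | o' ∈ Cfsg.octads ∧ o ∩ o' = s}.ncard = 4) := by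
  classical
  obtain ⟨hk, huniq⟩ := Cfsg.Agent.H27.Golay.steiner_octads
  set B := Cfsg.octads with hBdef
  have hα : Fintype.card GolayPt = 24 := by decide
  set b := o with hbdef
  have hb : b ∈ B := ho
  set BF : Finset (Finset GolayPt) := (Set.toFinite B).toFinset with hBF
  have memBF : ∀ c, c ∈ BF ↔ c ∈ B := fun c => Set.Finite.mem_toFinset _
  have hkF : ∀ c ∈ BF, c.card = 8 := fun c hc => hk c ((memBF c).mp hc)
  set L : Finset GolayPt → ℕ := fun u => (BF.filter fun c => u ⊆ c).card with hL
  set a : Finset GolayPt → ℕ := fun s => (BF.filter fun c => b ∩ c = s).card with ha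
  have hbc : b.card = 8 := hk b hb
  have L5 : ∀ u : Finset GolayPt, u.card = 5 → L u = 1 := by
    intro u hu
    obtain ⟨c, ⟨hcB, huc⟩, hc⟩ := huniq u hu
    apply Finset.card_eq_one.mpr
    refine ⟨c, ?_⟩
    ext d
    simp only [Finset.mem_filter, memBF, Finset.mem_singleton]
    constructor
    · intro h; exact hc d h
    · rintro rfl; exact ⟨hcB, huc⟩
  have stepL : ∀ (i m : ℕ) (u : Finset GolayPt), u.card = i → (∀ u' : Finset GolayPt, u'.card = i + 1 → L u' = m) →
      (8 - i) * L u = (24 - i) * m := by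
    intro i m u hu hm
    have := count_step BF 8 hkF u m (fun x hx => hm (insert x u) (by rw [Finset.card_insert_of_notMem hx, hu]))
    rwa [hα, hu] at this
  have L4 : ∀ u : Finset GolayPt, u.card = 4 → L u = 5 := by
    intro u hu; have := stepL 4 1 u hu L5; omega
  have L3 : ∀ u : Finset GolayPt, u.card = 3 → L u = 21 := by
    intro u hu; have := stepL 3 5 u hu L4; omega
  have L2 : ∀ u : Finset GolayPt, u.card = 2 → L u = 77 := by
    intro u hu; have := stepL 2 21 u hu L3; omega
  -- a block meeting `b` in at least five points is `b`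
  have hb_only : ∀ c ∈ B, 5 ≤ (b ∩ c).card → c = b := by
    intro c hc h5
    obtain ⟨u, hu, huc⟩ := Finset.exists_subset_card_eq h5
    obtain ⟨d, -, hd⟩ := huniq u huc
    have h1 := hd c ⟨hc, hu.trans Finset.inter_subset_right⟩
    have h2 := hd b ⟨hb, hu.trans Finset.inter_subset_left⟩
    rw [h1, h2]
  have a5 : ∀ t : Finset GolayPt, t ⊆ b → t.card = 5 ∨ t.card = 6 ∨ t.card = 7 → a t = 0 := by
    intro t ht htc
    apply Finset.card_eq_zero.mpr
    apply Finset.filter_false_of_mem
    intro c hc hbc'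
    have h5 : 5 ≤ (b ∩ c).card := by rw [hbc']; omega
    have := hb_only c ((memBF c).mp hc) h5
    subst this
    rw [Finset.inter_self] at hbc'
    rw [← hbc', hbc] at htc
    omega
  have a8 : ∀ t : Finset GolayPt, t ⊆ b → t.card = 8 → a t = 1 := by
    intro t ht htc
    have htb : t = b := Finset.eq_of_subset_of_card_le ht (by omega)
    subst htb
    apply Finset.card_eq_one.mpr
    refine ⟨t, ?_⟩
    ext d
    simp only [Finset.mem_filter, memBF, Finset.mem_singleton]
    constructor
    · rintro ⟨hd, h⟩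
      exact hb_only d hd (by rw [h]; omega)
    · rintro rfl
      exact ⟨hb, Finset.inter_self _⟩
  have tcard : ∀ t : Finset GolayPt, t ⊆ b → t.card ≤ 8 := fun t ht => hbc ▸ Finset.card_le_card ht
  set g : ℕ → ℕ := fun n => match n with
    | 3 => 0 | 4 => 4 | 8 => 1 | _ => 0 with hg
  have stp : ∀ (k n : ℕ) (s : Finset GolayPt), s ⊆ b → s.card = k → k + n = 8 →
      (∀ t : Finset GolayPt, t ⊆ b → k < t.card → a t = g t.card) →
      L s = ∑ m ∈ Finset.range (n + 1), n.choose m * (if m = 0 then a s else g (k + m)) := by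
    intro k n s hs hsk hkn hgt
    refine step_sum BF b s hs k n hsk (by omega) g (fun t ht hst => ?_)
    exact hgt t ht (by rw [← hsk]; exact Finset.card_lt_card hst)
  have a4 : ∀ t : Finset GolayPt, t ⊆ b → t.card = 4 → a t = 4 := by
    intro t ht htc
    have := stp 4 4 t ht htc rfl (fun t' ht' h => by
      have h6 := tcard t' ht'
      have : t'.card = 5 ∨ t'.card = 6 ∨ t'.card = 7 ∨ t'.card = 8 := by omega
      rcases this with h' | h' | h' | h'
      · rw [a5 t' ht' (Or.inl h'), h']; rfl
      · rw [a5 t' ht' (Or.inr (Or.inl h')), h']; rfl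
      · rw [a5 t' ht' (Or.inr (Or.inr h')), h']; rfl
      · rw [a8 t' ht' h', h']; rfl)
    rw [L4 t htc] at this
    simp [Finset.sum_range_succ, hg, Nat.choose] at this
    omega
  have a3 : ∀ t : Finset GolayPt, t ⊆ b → t.card = 3 → a t = 0 := by
    intro t ht htc
    have := stp 3 5 t ht htc rfl (fun t' ht' h => by
      have h6 := tcard t' ht'
      have : t'.card = 4 ∨ t'.card = 5 ∨ t'.card = 6 ∨ t'.card = 7 ∨ t'.card = 8 := by omega
      rcases this with h' | h' | h' | h' | h'
      · rw [a4 t' ht' h', h']; rfl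
      · rw [a5 t' ht' (Or.inl h'), h']; rfl
      · rw [a5 t' ht' (Or.inr (Or.inl h')), h']; rfl
      · rw [a5 t' ht' (Or.inr (Or.inr h')), h']; rfl
      · rw [a8 t' ht' h', h']; rfl)
    rw [L3 t htc] at this
    simp [Finset.sum_range_succ, hg, Nat.choose] at this
    omega
  have a2 : ∀ t : Finset GolayPt, t ⊆ b → t.card = 2 → a t = 16 := by
    intro t ht htc
    have := stp 2 6 t ht htc rfl (fun t' ht' h => by
      have h6 := tcard t' ht'
      have : t'.card = 3 ∨ t'.card = 4 ∨ t'.card = 5 ∨ t'.card = 6 ∨ t'.card = 7 ∨ t'.card = 8 := by omega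
      rcases this with h' | h' | h' | h' | h' | h'
      · rw [a3 t' ht' h', h']; rfl
      · rw [a4 t' ht' h', h']; rfl
      · rw [a5 t' ht' (Or.inl h'), h']; rfl
      · rw [a5 t' ht' (Or.inr (Or.inl h')), h']; rfl
      · rw [a5 t' ht' (Or.inr (Or.inr h')), h']; rfl
      · rw [a8 t' ht' h', h']; rfl)
    rw [L2 t htc] at this
    simp [Finset.sum_range_succ, hg, Nat.choose] at this
    omega
  have hset : ∀ s : Finset GolayPt, {c : Finset GolayPt | c ∈ B ∧ b ∩ c = s}.ncard = a s := by
    intro s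
    have : {c : Finset GolayPt | c ∈ B ∧ b ∩ c = s} = ↑(BF.filter fun c => b ∩ c = s) := by
      ext c; simp [memBF]
    rw [this, Set.ncard_coe_finset]
  refine ⟨fun h => ?_, fun h => ?_⟩
  · rw [hset, a2 s hs h]
  · rw [hset, a4 s hs h]

end Cfsg.Agent.S1555
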