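import Cfsg.Statements.S1556
import Mathlib
import Cfsg.Agent.Lib.H07.TblO0

set_option autoImplicit false
set_option maxRecDepth 100000
open Cfsg

namespace Cfsg.Agent.S1556

open Cfsg.Agent.H27.Golay Cfsg.Agent.H07.Orb
open scoped Pointwise

def keyO (m : ℕ) : ℕ := popc (Nat.land O0 m)
def testO (π : ℕ) : Bool := Nat.beq (am π O0) O0

theorem zip_ok : zipOK (fun m π => isM24 π && (testO π && Nat.beq (am π (repsO0.getD (keyO m) 0)) m)) octadL tblO0 = true := by
  decide +kernel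

/-- Two octads meeting a fixed octad in equally many points are in the same orbit of its stabiliser. -/
theorem result (o o' o'' : Finset Cfsg.GolayPt) (ho : o ∈ Cfsg.octads) (ho' : o' ∈ Cfsg.octads) (ho'' : o'' ∈ Cfsg.octads) (h : (o ∩ o').card = (o ∩ o'').card) : ∃ g : Equiv.Perm Cfsg.GolayPt, g ∈ Cfsg.M24 ∧ g • o = o ∧ g • o' = o'' := by
  obtain ⟨h0, hh0, rfl⟩ := exists_smul_O0 ho
  have hinv := M24.inv_mem hh0
  have ha := smul_mem_octads hinv ho'
  have hb := smul_mem_octads hinv ho''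
  obtain ⟨ma, hma, hfa⟩ := (mem_octads_iff_list _).mp ha
  obtain ⟨mb, hmb, hfb⟩ := (mem_octads_iff_list _).mp hb
  have hO0 : O0 < 2 ^ 24 := by decide +kernel
  have hk : keyO ma = keyO mb := by
    show popc (O0 &&& ma) = popc (O0 &&& mb)
    rw [← card_fs_inter hO0, ← card_fs_inter hO0, hfa, hfb, ← card_smul_inter h0 (fs O0), ← card_smul_inter h0 (fs O0),
      smul_inv_smul, smul_inv_smul]
    exact h
  obtain ⟨g, hg, hgm⟩ := exists_smul_mask₂ (H := M24 ⊓ MulAction.stabilizer (Equiv.Perm GolayPt) (fs O0)) (test := testO) (rep := fun k => repsO0.getD k 0) (key := keyO)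
    (fun π h1 h2 => ⟨P_mem_M24 h1, P_smul_fs h1 h2⟩) zip_ok hma hmb hk
  refine ⟨h0 * g * h0⁻¹, M24.mul_mem (M24.mul_mem hh0 hg.1) hinv, ?_, ?_⟩
  · rw [mul_smul, mul_smul, inv_smul_smul, hg.2]
  · rw [hfa, hfb] at hgm
    rw [mul_smul, mul_smul, hgm, smul_inv_smul]

end Cfsg.Agent.S1556
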