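import Cfsg.Statements.S1557
import Mathlib
import Cfsg.Agent.Lib.H27.GolayTrios

set_option autoImplicit false
open Cfsg

namespace Cfsg.Agent.S1557

open Cfsg.Agent.H27.Golay
open scoped Pointwise

/-- The complement of the union of two disjoint octads is an octad, and the code has exactly 3795 trios of pairwise disjoint octads. -/
theorem result : (∀ o o' : Finset Cfsg.GolayPt, o ∈ Cfsg.octads → o' ∈ Cfsg.octads → Disjoint o o' → (o ∪ o')ᶜ ∈ Cfsg.octads) ∧ Cfsg.trios.ncard = 3795 := by
  refine ⟨fun o o' ho ho' hd => ?_, ncard_trios_all⟩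
  have huniv : fs 16777215 = Finset.univ := by decide +kernel
  have hu : (Finset.univ : Finset GolayPt) ∈ supports (golayCode : Set (GolayPt → ZMod 2)) := by
    rw [← huniv]
    exact (fs_mem_supports_iff (by norm_num)).2 (by decide +kernel)
  have h1 : symmDiff o o' ∈ supports (golayCode : Set (GolayPt → ZMod 2)) := supports_symmDiff ho.1 ho'.1
  have h2 : symmDiff (Finset.univ : Finset GolayPt) (symmDiff o o') ∈ supports (golayCode : Set (GolayPt → ZMod 2)) :=
    supports_symmDiff hu h1
  have h3 : symmDiff (Finset.univ : Finset GolayPt) (symmDiff o o') = (o ∪ o')ᶜ := by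
    rw [hd.symmDiff_eq_sup]
    ext p
    simp [Finset.mem_symmDiff]
  rw [h3] at h2
  refine ⟨h2, ?_⟩
  rw [Finset.card_compl, Finset.card_union_of_disjoint hd, ho.2, ho'.2]
  rfl

end Cfsg.Agent.S1557
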