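import Cfsg.Statements.S1559
import Mathlib
import Cfsg.Agent.Lib.H07.GolaySR

set_option autoImplicit false
open scoped Pointwise
open Cfsg

set_option maxRecDepth 100000

namespace Cfsg.Agent.S1559

open Cfsg.Agent.H27.Golay Cfsg.Agent.H07.Orb
open scoped Pointwise

theorem c192 : countL (fun m => Nat.beq (keyT m) 192) trioL = 1 := by decide +kernel
theorem c128 : countL (fun m => Nat.beq (keyT m) 128) trioL = 42 := by decide +kernel
theorem c96 : countL (fun m => Nat.beq (keyT m) 96) trioL = 56 := by decide +kernel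
theorem c80 : countL (fun m => Nat.beq (keyT m) 80) trioL = 1008 := by decide +kernel
theorem c72 : countL (fun m => Nat.beq (keyT m) 72) trioL = 2688 := by decide +kernel
theorem rm128 : repT 128 ∈ trioL := by decide +kernel
theorem rk128 : keyT (repT 128) = 128 := by decide +kernel
theorem rm96 : repT 96 ∈ trioL := by decide +kernel
theorem rk96 : keyT (repT 96) = 96 := by decide +kernel
theorem rm80 : repT 80 ∈ trioL := by decide +kernel
theorem rk80 : keyT (repT 80) = 80 := by decide +kernel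
theorem rm72 : repT 72 ∈ trioL := by decide +kernel
theorem rk72 : keyT (repT 72) = 72 := by decide +kernel
theorem allkeys : allL (fun m => Nat.beq (keyT m) 192 || Nat.beq (keyT m) 128 || Nat.beq (keyT m) 96 || Nat.beq (keyT m) 80 || Nat.beq (keyT m) 72) trioL = true := by decide +kernel
theorem selfkey : allL (fun m => (Nat.beq (keyT m) 192).not || Nat.beq m R0c) trioL = true := by decide +kernel
theorem keyself : keyT R0c = 192 := by decide +kernel

theorem coatom_base : IsCoatom (MulAction.stabilizer ↥M24 (tr R0c)) := by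
  refine coatom_table tr trioL trioL_nodup tr_inj R0c_mem ?_ keyT ?_ ?_ {192, 128, 96, 80, 72}
    ?_ (fun k => if k = 192 then 1 else if k = 128 then 42 else if k = 96 then 56 else if k = 80 then 1008 else 2688) ?_ 3795 192 ?_ keyself ?_ (by norm_num)
  · intro g hg c hc
    have h1 := smul_T hg ((mem_T_iff _).mpr ⟨c, hc, rfl⟩)
    obtain ⟨d, hd, h2⟩ := (mem_T_iff _).mp h1
    exact ⟨d, hd, h2.symm⟩
  · intro c hc
    exact exists_smul_T ((mem_T_iff _).mpr ⟨c, hc, rfl⟩)
  · intro c hc d hd hk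
    exact exists_stab_T hc hd hk
  · intro c hc
    have h := allL_spec allkeys c hc
    simp only [Bool.or_eq_true, beq_iff] at h
    simp only [Finset.mem_insert, Finset.mem_singleton]
    tauto
  · intro k hk
    simp only [Finset.mem_insert, Finset.mem_singleton] at hk
    rcases hk with rfl | rfl | rfl | rfl | rfl
    · exact c192
    · exact c128
    · exact c96
    · exact c80
    · exact c72
  · decide +kernel
  · decide


/-- A trio stabiliser has five orbits on the 3795 trios, of sizes 1, 42, 56, 1008, 2688; and the stabiliser is a maximal proper subgroup. -/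
theorem result (T : Finset (Finset Cfsg.GolayPt)) (hT : T ∈ Cfsg.trios) : ∃ X₁ ∈ Cfsg.trios, ∃ X₂ ∈ Cfsg.trios, ∃ X₃ ∈ Cfsg.trios, ∃ X₄ ∈ Cfsg.trios, (MulAction.orbit ↥(MulAction.stabilizer Cfsg.M24 T) X₁).ncard = 42 ∧ (MulAction.orbit ↥(MulAction.stabilizer Cfsg.M24 T) X₂).ncard = 56 ∧ (MulAction.orbit ↥(MulAction.stabilizer Cfsg.M24 T) X₃).ncard = 1008 ∧ (MulAction.orbit ↥(MulAction.stabilizer Cfsg.M24 T) X₄).ncard = 2688 ∧ Cfsg.trios = {T} ∪ MulAction.orbit ↥(MulAction.stabilizer Cfsg.M24 T) X₁ ∪ MulAction.orbit ↥(MulAction.stabilizer Cfsg.M24 T) X₂ ∪ MulAction.orbit ↥(MulAction.stabilizer Cfsg.M24 T) X₃ ∪ MulAction.orbit ↥(MulAction.stabilizer Cfsg.M24 T) X₄ ∧ IsCoatom (MulAction.stabilizer Cfsg.M24 T) := by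
  obtain ⟨h, hh, rfl⟩ := exists_smul_T hT
  have hmemR : ∀ c ∈ trioL, tr c ∈ trios := fun c hc => (mem_T_iff _).mpr ⟨c, hc, rfl⟩
  have hR : ∀ (k : ℕ), repT k ∈ trioL → keyT (repT k) = k →
      MulAction.orbit ↥(MulAction.stabilizer M24 (h • tr R0c)) (h • tr (repT k)) =
        (fun y => h • y) '' {x | x ∈ trios ∧ labT x = k} := by
    intro k h1 h2
    rw [orbit_T hh (hmemR _ h1), labT_dec h1, h2]
  have hcount : ∀ (k : ℕ), ((fun y : Finset (Finset GolayPt) => h • y) '' {x | x ∈ trios ∧ labT x = k}).ncard =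
      countL (fun m => Nat.beq (keyT m) k) trioL := by
    intro k
    rw [Set.InjOn.ncard_image (MulAction.injective h).injOn, ncard_class_T]
  have hmemO : ∀ k, ∀ x ∈ (fun y : Finset (Finset GolayPt) => h • y) '' {x | x ∈ trios ∧ labT x = k}, x ∈ trios := by
    rintro k x ⟨y, ⟨hy, -⟩, rfl⟩
    exact smul_T hh hy
  refine ⟨h • tr (repT 128), smul_T hh (hmemR _ rm128), h • tr (repT 96), smul_T hh (hmemR _ rm96), h • tr (repT 80), smul_T hh (hmemR _ rm80), h • tr (repT 72), smul_T hh (hmemR _ rm72), ?_, ?_, ?_, ?_, ?_, ?_⟩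
  · rw [hR 128 rm128 rk128, hcount, c128]
  · rw [hR 96 rm96 rk96, hcount, c96]
  · rw [hR 80 rm80 rk80, hcount, c80]
  · rw [hR 72 rm72 rk72, hcount, c72]
  · rw [hR 128 rm128 rk128, hR 96 rm96 rk96, hR 80 rm80 rk80, hR 72 rm72 rk72]
    ext x
    constructor
    · intro hx
      have hy := smul_T (M24.inv_mem hh) hx
      obtain ⟨c, hc, hcy⟩ := (mem_T_iff _).mp hy
      have hkey := allL_spec allkeys c hc
      simp only [Bool.or_eq_true, beq_iff] at hkey
      have hxe : x = h • tr c := by rw [hcy, smul_inv_smul]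
      have hlab : labT (tr c) = keyT c := labT_dec hc
      rcases hkey with (((h1 | h2) | h3) | h4) | h5
      · have hs := allL_spec selfkey c hc
        simp only [Bool.or_eq_true, Bool.not_eq_true', beq_iff] at hs
        rcases hs with hs | hs
        · rw [h1] at hs; simp at hs
        · rw [hxe, hs]
          simp
      · exact Or.inl (Or.inl (Or.inl (Or.inr ⟨tr c, ⟨hmemR c hc, by rw [hlab]; exact h2⟩, hxe.symm⟩)))
      · exact Or.inl (Or.inl (Or.inr ⟨tr c, ⟨hmemR c hc, by rw [hlab]; exact h3⟩, hxe.symm⟩))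
      · exact Or.inl (Or.inr ⟨tr c, ⟨hmemR c hc, by rw [hlab]; exact h4⟩, hxe.symm⟩)
      · exact Or.inr ⟨tr c, ⟨hmemR c hc, by rw [hlab]; exact h5⟩, hxe.symm⟩
    · intro hx
      rcases hx with ((((hx | hx) | hx) | hx) | hx)
      · rw [Set.mem_singleton_iff.mp hx]
        exact smul_T hh (hmemR _ R0c_mem)
      · exact hmemO _ _ hx
      · exact hmemO _ _ hx
      · exact hmemO _ _ hx
      · exact hmemO _ _ hx
  · exact isCoatom_stabilizer_smul (⟨h, hh⟩ : ↥M24) _ coatom_base

end Cfsg.Agent.S1559
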