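import Cfsg.Statements.S1560
import Mathlib
import Cfsg.Agent.Lib.H07.GolayDod

set_option autoImplicit false
set_option maxRecDepth 100000
open Cfsg

namespace Cfsg.Agent.S1560

open Cfsg.Agent.H27.Golay Cfsg.Agent.H07.Orb
open scoped Pointwise

theorem c4 : countL (fun m => Nat.beq (keyD m) 4) dodecadL = 495 := by decide +kernel
theorem c6 : countL (fun m => Nat.beq (keyD m) 6) dodecadL = 1584 := by decide +kernel
theorem c8 : countL (fun m => Nat.beq (keyD m) 8) dodecadL = 495 := by decide +kernel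
theorem cases : allL (fun m => Nat.beq m D0 || Nat.beq (keyD m) 0 || Nat.beq (keyD m) 4 || Nat.beq (keyD m) 6 || Nat.beq (keyD m) 8) dodecadL = true := by
  decide +kernel

/-- Intersection numbers of dodecads: a dodecad meets every other dodecad in 0, 4, 6 or 8 points, meeting 495 of them in 4 points, 1584 in 6 points and 495 in 8 points. -/
theorem result (d : Finset Cfsg.GolayPt) (hd : d ∈ Cfsg.dodecads) : (∀ d' ∈ Cfsg.dodecads, d' ≠ d → (d ∩ d').card = 0 ∨ (d ∩ d').card = 4 ∨ (d ∩ d').card = 6 ∨ (d ∩ d').card = 8) ∧ {d' : Finset Cfsg.GolayPt | d' ∈ Cfsg.dodecads ∧ (d ∩ d').card = 4}.ncard = 495 ∧ {d' : Finset Cfsg.GolayPt | d' ∈ Cfsg.dodecads ∧ (d ∩ d').card = 6}.ncard = 1584 ∧ {d' : Finset Cfsg.GolayPt | d' ∈ Cfsg.dodecads ∧ (d ∩ d').card = 8}.ncard = 495 := by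
  obtain ⟨h0, hh0, rfl⟩ := exists_smul_D0 hd
  have hcnt : ∀ k, {d' : Finset GolayPt | d' ∈ dodecads ∧ ((h0 • fs D0) ∩ d').card = k}.ncard =
      countL (fun m => Nat.beq (keyD m) k) dodecadL := by
    intro k
    rw [ncard_transport (h := h0) (dodecads_iff_smul hh0)]
    apply ncard_dodecads
    intro m _
    rw [beq_iff, keyD_eq, card_smul_inter]
  refine ⟨?_, by rw [hcnt, c4], by rw [hcnt, c6], by rw [hcnt, c8]⟩
  intro d' hd' hne
  have ha := smul_mem_dodecads (M24.inv_mem hh0) hd'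
  obtain ⟨m, hm, hf⟩ := (mem_dodecads_iff_list _).mp ha
  have hs := allL_spec cases m hm
  simp only [Bool.or_eq_true, beq_iff] at hs
  have hk : (h0 • fs D0 ∩ d').card = keyD m := by
    rw [keyD_eq, hf, ← card_smul_inter h0 (fs D0), smul_inv_smul]
  rw [hk]
  rcases hs with (((h1 | h1) | h1) | h1) | h1
  · exfalso
    apply hne
    rw [h1] at hf
    rw [hf, smul_inv_smul]
  · exact Or.inl h1
  · exact Or.inr (Or.inl h1)
  · exact Or.inr (Or.inr (Or.inl h1))
  · exact Or.inr (Or.inr (Or.inr h1))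

end Cfsg.Agent.S1560
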