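import Cfsg.Statements.S1561
import Mathlib
import Cfsg.Agent.Lib.H07.GolayDod

set_option autoImplicit false
set_option maxRecDepth 100000
open Cfsg

namespace Cfsg.Agent.S1561

open Cfsg.Agent.H27.Golay Cfsg.Agent.H07.Orb
open scoped Pointwise

/-- Two dodecads meeting a fixed dodecad in equally many points lie in one orbit of its stabiliser. -/
theorem result (d d' d'' : Finset Cfsg.GolayPt) (hd : d ∈ Cfsg.dodecads) (hd' : d' ∈ Cfsg.dodecads) (hd'' : d'' ∈ Cfsg.dodecads) (h : (d ∩ d').card = (d ∩ d'').card) : ∃ g : Equiv.Perm Cfsg.GolayPt, g ∈ Cfsg.M24 ∧ g • d = d ∧ g • d' = d'' := by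
  obtain ⟨h0, hh0, rfl⟩ := exists_smul_D0 hd
  have hinv := M24.inv_mem hh0
  have ha := smul_mem_dodecads hinv hd'
  have hb := smul_mem_dodecads hinv hd''
  obtain ⟨ma, hma, hfa⟩ := (mem_dodecads_iff_list _).mp ha
  obtain ⟨mb, hmb, hfb⟩ := (mem_dodecads_iff_list _).mp hb
  have hk : keyD ma = keyD mb := by
    rw [keyD_eq, keyD_eq, hfa, hfb, ← card_smul_inter h0 (fs D0), ← card_smul_inter h0 (fs D0),
      smul_inv_smul, smul_inv_smul]
    exact h
  obtain ⟨g, hg, hgm⟩ := exists_smul_stab_D0 hma hmb hk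
  refine ⟨h0 * g * h0⁻¹, M24.mul_mem (M24.mul_mem hh0 hg.1) hinv, ?_, ?_⟩
  · rw [mul_smul, mul_smul, inv_smul_smul, hg.2]
  · rw [hfa, hfb] at hgm
    rw [mul_smul, mul_smul, hgm, smul_inv_smul]

end Cfsg.Agent.S1561
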