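import Cfsg.Statements.S1562
import Mathlib
import Cfsg.Agent.Lib.H07.GolayPT

set_option autoImplicit false
open scoped Pointwise
open Cfsg

set_option maxRecDepth 100000

namespace Cfsg.Agent.S1562

open Cfsg.Agent.H27.Golay Cfsg.Agent.H07.Orb
open scoped Pointwise

def sp (m : ℕ) : ℕ := countL (fun o => Nat.beq (Nat.land o (Nat.lor T0 m)) (Nat.lor T0 m)) octT0

theorem octT0_eq : octT0 = octadL.filter (fun o => Nat.beq (Nat.land o T0) T0) := by decide +kernel

theorem T0_lt : T0 < 2 ^ 24 := by decide +kernel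

/-- special triads by counting -/
theorem sp_pos_iff {m : ℕ} (hm : m < 2 ^ 24) : (∃ o ∈ octads, fs T0 ∪ fs m ⊆ o) ↔ sp m ≠ 0 := by
  have hT0m : fs T0 ∪ fs m = fs (T0 ||| m) := by
    ext p; simp [mem_fs, Nat.testBit_or]
  rw [hT0m]
  unfold sp
  rw [countL_eq, ne_eq, List.length_eq_zero_iff, List.filter_eq_nil_iff]
  push Not
  constructor
  · rintro ⟨o, ho, hsub⟩
    obtain ⟨a, ha, rfl⟩ := (mem_octads_iff_list o).mp ho
    have hand : (T0 ||| m) &&& a = T0 ||| m := by
      apply Nat.eq_of_testBit_eq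
      intro i
      rw [Nat.testBit_and]
      by_cases hi : i < 24
      · have : ∀ i, i < 24 → (T0 ||| m).testBit i = true → a.testBit i = true := by
          intro i hi h
          have h2 := hsub (mem_fs.mpr (by rw [idx_pt' hi]; exact h))
          have h3 := mem_fs.mp h2
          rwa [idx_pt' hi] at h3
        by_cases h5 : (T0 ||| m).testBit i = true
        · rw [h5, this i hi h5]; rfl
        · simp [h5]
      · have : (T0 ||| m).testBit i = false := by
          apply Nat.testBit_lt_two_pow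
          exact lt_of_lt_of_le (Nat.or_lt_two_pow T0_lt hm) (Nat.pow_le_pow_right (by norm_num) (by omega))
        rw [this]; rfl
    have hT : a &&& T0 = T0 := by
      apply Nat.eq_of_testBit_eq
      intro i
      have h1 := congrArg (fun x => x.testBit i) hand
      simp only [Nat.testBit_and, Nat.testBit_or] at h1 ⊢
      cases h2 : T0.testBit i <;> cases h3 : a.testBit i <;> simp_all
    refine ⟨a, ?_, ?_⟩
    · rw [octT0_eq, List.mem_filter]
      exact ⟨ha, by show Nat.beq (a &&& T0) T0 = true; rw [hT]; exact Nat.beq_refl _⟩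
    · show Nat.beq (a &&& (T0 ||| m)) (T0 ||| m) = true
      rw [Nat.and_comm, hand]
      exact Nat.beq_refl _
  · rintro ⟨a, ha, h⟩
    rw [octT0_eq, List.mem_filter] at ha
    refine ⟨fs a, fs_mem_octads ha.1, ?_⟩
    have h2 : a &&& (T0 ||| m) = T0 ||| m := Nat.eq_of_beq_eq_true h
    intro p hp
    have h3 := mem_fs.mp hp
    rw [mem_fs]
    have h4 := congrArg (fun x => x.testBit (idx p)) h2
    simp only [Nat.testBit_and] at h4
    rw [h3] at h4
    cases h5 : a.testBit (idx p) <;> simp_all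

theorem tbl1 : allL (fun m => (Nat.ble (key3 m) 1).not || (Nat.beq (Nat.land T0 m) 0 && Nat.beq (sp m) (key3 m))) (ksub 24 3) = true := by
  decide +kernel

theorem tbl2 : allL (fun m => (Nat.beq (Nat.land T0 m) 0).not || (Nat.ble (sp m) 1 && Nat.beq (key3 m) (sp m))) (ksub 24 3) = true := by
  decide +kernel

theorem disj_iff {m : ℕ} : Disjoint (fs T0) (fs m) ↔ Nat.land T0 m = 0 := by
  rw [Finset.disjoint_iff_inter_eq_empty, ← fs_and]
  constructor
  · intro h
    have hlt : T0 &&& m < 2 ^ 24 := lt_of_le_of_lt Nat.and_le_left T0_lt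
    exact fs_injOn hlt (by norm_num) (by show fs (T0 &&& m) = fs 0; rw [h]; ext p; simp [mem_fs])
  · intro h
    have : T0 &&& m = 0 := h
    rw [this]
    ext p; simp [mem_fs]

theorem key1_iff {m : ℕ} (hm : m ∈ ksub 24 3) :
    Nat.beq (key3 m) 1 = true ↔ Disjoint (fs T0) (fs m) ∧ ∃ o ∈ octads, fs T0 ∪ fs m ⊆ o := by
  have hlt := (mem_ksub24.mp hm).1
  have h1 := allL_spec tbl1 m hm
  have h2 := allL_spec tbl2 m hm
  simp only [Bool.or_eq_true, Bool.and_eq_true, beq_iff, Bool.not_eq_true', Nat.ble_eq] at h1 h2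
  rw [beq_iff, disj_iff, sp_pos_iff hlt]
  constructor
  · intro h
    rw [h] at h1
    rcases h1 with h3 | ⟨h3, h4⟩
    · simp at h3
    · exact ⟨h3, by omega⟩
  · rintro ⟨h3, h4⟩
    rcases h2 with h5 | ⟨h5, h6⟩
    · rw [h3] at h5; simp at h5
    · omega

theorem key0_iff {m : ℕ} (hm : m ∈ ksub 24 3) :
    Nat.beq (key3 m) 0 = true ↔ Disjoint (fs T0) (fs m) ∧ ¬ ∃ o ∈ octads, fs T0 ∪ fs m ⊆ o := by
  have hlt := (mem_ksub24.mp hm).1
  have h1 := allL_spec tbl1 m hm
  have h2 := allL_spec tbl2 m hm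
  simp only [Bool.or_eq_true, Bool.and_eq_true, beq_iff, Bool.not_eq_true', Nat.ble_eq] at h1 h2
  rw [beq_iff, disj_iff, sp_pos_iff hlt]
  constructor
  · intro h
    rw [h] at h1
    rcases h1 with h3 | ⟨h3, h4⟩
    · simp at h3
    · exact ⟨h3, by omega⟩
  · rintro ⟨h3, h4⟩
    rcases h2 with h5 | ⟨h5, h6⟩
    · rw [h3] at h5; simp at h5
    · omega

theorem c1 : countL (fun m => Nat.beq (key3 m) 1) (ksub 24 3) = 210 := by decide +kernel
theorem c0 : countL (fun m => Nat.beq (key3 m) 0) (ksub 24 3) = 1120 := by decide +kernel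

theorem disj_smul (h : Equiv.Perm GolayPt) (a b : Finset GolayPt) : Disjoint (h • a) (h • b) ↔ Disjoint a b := by
  rw [Finset.disjoint_iff_inter_eq_empty, Finset.disjoint_iff_inter_eq_empty, ← Finset.smul_finset_inter]
  simp

theorem special_smul {h : Equiv.Perm GolayPt} (hh : h ∈ M24) (a b : Finset GolayPt) :
    (∃ o ∈ octads, h • a ∪ h • b ⊆ o) ↔ ∃ o ∈ octads, a ∪ b ⊆ o := by
  constructor
  · rintro ⟨o, ho, hs⟩
    refine ⟨h⁻¹ • o, smul_mem_octads (M24.inv_mem hh) ho, ?_⟩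
    rw [← Finset.smul_finset_union] at hs
    have := Finset.smul_finset_subset_smul_finset_iff (a := h⁻¹).mpr hs
    rwa [inv_smul_smul] at this
  · rintro ⟨o, ho, hs⟩
    refine ⟨h • o, smul_mem_octads hh ho, ?_⟩
    rw [← Finset.smul_finset_union]
    exact Finset.smul_finset_subset_smul_finset_iff.mpr hs


/-- Orbits of a triad stabiliser on the triads disjoint from it: the 210 triads inside a common octad with it form one orbit and the remaining 1120 another. -/
theorem result (T : Finset Cfsg.GolayPt) (hT : T.card = 3) : {U : Finset Cfsg.GolayPt | U.card = 3 ∧ Disjoint T U ∧ (∃ o ∈ Cfsg.octads, T ∪ U ⊆ o)}.ncard = 210 ∧ {U : Finset Cfsg.GolayPt | U.card = 3 ∧ Disjoint T U ∧ ¬ (∃ o ∈ Cfsg.octads, T ∪ U ⊆ o)}.ncard = 1120 ∧ ∀ U U' : Finset Cfsg.GolayPt, U.card = 3 → U'.card = 3 → Disjoint T U → Disjoint T U' → ((∃ o ∈ Cfsg.octads, T ∪ U ⊆ o) ↔ (∃ o ∈ Cfsg.octads, T ∪ U' ⊆ o)) → ∃ g : Equiv.Perm Cfsg.GolayPt, g ∈ Cfsg.M24 ∧ g • T = T ∧ g • U = U'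 := by
  obtain ⟨h, hh, rfl⟩ := exists_smul_T0 hT
  have hA : ∀ x : Finset GolayPt, x ∈ {x : Finset GolayPt | x.card = 3} ↔ h • x ∈ {x : Finset GolayPt | x.card = 3} := by
    intro x
    simp only [Set.mem_ofPred_eq, Finset.card_smul_finset]
  refine ⟨?_, ?_, ?_⟩
  · have e := ncard_transport (h := h) hA (fun U => Disjoint (h • fs T0) U ∧ ∃ o ∈ octads, h • fs T0 ∪ U ⊆ o)
    simp only [Set.mem_ofPred_eq] at e
    rw [e]
    simp only [disj_smul, special_smul hh]
    rw [ncard_ksub (fun m hm => key1_iff hm), c1]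
  · have e := ncard_transport (h := h) hA (fun U => Disjoint (h • fs T0) U ∧ ¬ ∃ o ∈ octads, h • fs T0 ∪ U ⊆ o)
    simp only [Set.mem_ofPred_eq] at e
    rw [e]
    simp only [disj_smul, special_smul hh]
    rw [ncard_ksub (fun m hm => key0_iff hm), c0]
  · intro U U' hU hU' hd hd' hiff
    have hinv := M24.inv_mem hh
    have ha : (h⁻¹ • U).card = 3 := by rw [Finset.card_smul_finset]; exact hU
    have hb : (h⁻¹ • U').card = 3 := by rw [Finset.card_smul_finset]; exact hU'
    obtain ⟨ma, hma, hfa⟩ := (mem_card_iff_ksub _).mp ha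
    obtain ⟨mb, hmb, hfb⟩ := (mem_card_iff_ksub _).mp hb
    have eU : U = h • fs ma := by rw [hfa, smul_inv_smul]
    have eU' : U' = h • fs mb := by rw [hfb, smul_inv_smul]
    rw [eU] at hd hiff
    rw [eU'] at hd' hiff
    rw [disj_smul] at hd hd'
    rw [special_smul hh, special_smul hh] at hiff
    have hk : key3 ma = key3 mb := by
      by_cases hsp : ∃ o ∈ octads, fs T0 ∪ fs ma ⊆ o
      · have h1 := (key1_iff hma).mpr ⟨hd, hsp⟩
        have h2 := (key1_iff hmb).mpr ⟨hd', hiff.mp hsp⟩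
        rw [Nat.eq_of_beq_eq_true h1, Nat.eq_of_beq_eq_true h2]
      · have h1 := (key0_iff hma).mpr ⟨hd, hsp⟩
        have h2 := (key0_iff hmb).mpr ⟨hd', fun hc => hsp (hiff.mpr hc)⟩
        rw [Nat.eq_of_beq_eq_true h1, Nat.eq_of_beq_eq_true h2]
    obtain ⟨g, hg, hgm⟩ := exists_smul_stab_T0 hma hmb hk
    refine ⟨h * g * h⁻¹, M24.mul_mem (M24.mul_mem hh hg.1) hinv, ?_, ?_⟩
    · rw [mul_smul, mul_smul, inv_smul_smul, hg.2]
    · rw [eU, eU', mul_smul, mul_smul, inv_smul_smul, hgm]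

end Cfsg.Agent.S1562
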