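import Cfsg.Statements.S1566
import Mathlib
import Cfsg.Agent.Lib.H07.GolayDodPair

set_option autoImplicit false
open scoped Pointwise
open Cfsg

namespace Cfsg.Agent.S1566

/-- The setwise stabiliser of a dodecad together with its complement is a maximal proper subgroup of the group of the length-24 code. -/
theorem result (d : Finset Cfsg.GolayPt) (hd : d ∈ Cfsg.dodecads) : IsCoatom (MulAction.stabilizer Cfsg.M24 ({d, dᶜ} : Finset (Finset Cfsg.GolayPt))) := by
  obtain ⟨h, hh, rfl⟩ := Cfsg.Agent.H07.Orb.exists_smul_D0 hd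
  rw [← Cfsg.Agent.H07.Orb.smul_dpairF, ← Cfsg.Agent.H07.Orb.dpair_Dc]
  exact Cfsg.Agent.H07.Orb.isCoatom_stabilizer_smul (⟨h, hh⟩ : ↥Cfsg.M24) _ Cfsg.Agent.H07.Orb.coatom_DP

end Cfsg.Agent.S1566
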