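import Cfsg.Statements.S1579
import Cfsg.Agent.Lib.H02.CoW
import Cfsg.Agent.Lib.H02.CoVd

set_option autoImplicit false
open Cfsg

namespace Cfsg.Agent.S1579

open Cfsg Cfsg.Agent.H02 Cfsg.Agent.H02.CoK Cfsg.Agent.H02.CoM Cfsg.Agent.H02.CoR Cfsg.Agent.H02.CoU Cfsg.Agent.H02.CoW CoS CoT

theorem hb : okP CoVd.b0 = true := by decide +kernel

theorem hd0 : TE24 CoVd.b0 = true := by decide +kernel

theorem orb : ∀ x ∈ Dv uE (24), ∀ y ∈ Dv uE (24), ∃ g : Co0, g • uE = uE ∧ g • x = y :=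
  orb_Dv (Us := CoVd.Us) (b := mkL CoVd.b0 hb) (fix_one dec_PE (by rw [sq_uE]; norm_num))
    ⟨sq_mkL _ _, (tEq_iff hBE rfl rfl (by norm_num [tot]) _).mpr hd0⟩
    (fun hinv => (CoVd.main (mkL _ hb) rfl (by rw [sq_mkL]; norm_num) _ ncard_E24 hinv).2)


/-- The stabiliser of a vector of customary norm 6 is transitive on the 552 minimal vectors that complete it to a sum of two minimal vectors. -/
theorem result (u v v' : ↥Cfsg.leechLattice) (hu : Cfsg.sqNorm (u : Cfsg.GolayPt → ℤ) = 48) (hv : Cfsg.sqNorm (v : Cfsg.GolayPt → ℤ) = 32 ∧ Cfsg.sqNorm ((u - v) : Cfsg.GolayPt → ℤ) = 32) (hv' : Cfsg.sqNorm (v' : Cfsg.GolayPt → ℤ) = 32 ∧ Cfsg.sqNorm ((u - v') : Cfsg.GolayPt → ℤ) = 32) : ∃ g : ↥Cfsg.Co0, g • u = u ∧ g • v = v' := by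
  obtain ⟨g0, hg0⟩ := exists_to_uE u hu
  exact conj_Dv hg0 orb ⟨hv.1, (sum_iff hu hv.1).mp hv.2⟩ ⟨hv'.1, (sum_iff hu hv'.1).mp hv'.2⟩

end Cfsg.Agent.S1579
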