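import Cfsg.Statements.S1588
import Mathlib
import Cfsg.Agent.Lib.H07.EvenLattice
-- import your own Cfsg.Agent.* helpers here

set_option autoImplicit false
open Matrix
open Cfsg

namespace Cfsg.Agent.S1588

open Cfsg.Agent.H07.EvenLattice

/-- Reduction modulo two. -/
def red (w : Fin 24 → ℤ) : Fin 24 → ZMod 2 := fun i => (w i : ZMod 2)

theorem red_eq_iff (a b : Fin 24 → ℤ) : red a = red b ↔ ∀ i, (2 : ℤ) ∣ (a - b) i := by
  constructor
  · intro h i
    have := congrFun h i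
    simp only [red] at this
    rw [ZMod.intCast_eq_intCast_iff_dvd_sub] at this
    have h2 : (2 : ℤ) ∣ b i - a i := by exact_mod_cast this
    have h3 : (a - b) i = -(b i - a i) := by simp
    rw [h3]
    exact (dvd_neg).mpr h2
  · intro h
    funext i
    simp only [red]
    rw [ZMod.intCast_eq_intCast_iff_dvd_sub]
    have h2 := h i
    have h3 : b i - a i = -((a - b) i) := by simp
    rw [h3]
    exact_mod_cast (dvd_neg).mpr h2

theorem red_zero_iff (a : Fin 24 → ℤ) : red a = 0 ↔ ∀ i, (2 : ℤ) ∣ a i := by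
  constructor
  · intro h i
    have := congrFun h i
    simp only [red, Pi.zero_apply] at this
    exact_mod_cast (ZMod.intCast_zmod_eq_zero_iff_dvd (a i) 2).mp this
  · intro h
    funext i
    simp only [red, Pi.zero_apply]
    exact (ZMod.intCast_zmod_eq_zero_iff_dvd (a i) 2).mpr (by exact_mod_cast h i)

theorem card_fiber_two (A : Finset (Fin 24 → ℤ))
    (h : ∀ y ∈ A, A.filter (fun a => red a = red y) = {y, -y}) (hne : ∀ y ∈ A, y ≠ -y) :
    A.card = 2 * (A.image red).card := by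
  classical
  rw [Finset.card_eq_sum_card_image red A]
  rw [Finset.sum_const_nat (m := 2), mul_comm]
  intro c hc
  obtain ⟨y, hy, rfl⟩ := Finset.mem_image.mp hc
  rw [h y hy, Finset.card_pair (hne y hy)]

/-- Second step of the characterisation: under the vector counts of the rank-24 lattice, the norm-8 vectors fall into congruence classes of exactly 48 modulo twice the lattice. -/
theorem result (B : Matrix (Fin 24) (Fin 24) ℤ) (hsymm : B.IsSymm) (hpos : ∀ x : Fin 24 → ℤ, x ≠ 0 → 0 < x ⬝ᵥ (B *ᵥ x)) (heven : ∀ x : Fin 24 → ℤ, (2 : ℤ) ∣ x ⬝ᵥ (B *ᵥ x)) (h2 : ∀ x : Fin 24 → ℤ, x ⬝ᵥ (B *ᵥ x) ≠ 2) (h4 : {x : Fin 24 → ℤ | x ⬝ᵥ (B *ᵥ x) = 4}.ncard = 196560) (h6 : {x : Fin 24 → ℤ | x ⬝ᵥ (B *ᵥ x) = 6}.ncard = 16773120) (h8 : {x : Fin 24 → ℤ | x ⬝ᵥ (B *ᵥ x) = 8}.ncard = 398034000) (x : Fin 24 → ℤ) (hx : x ⬝ᵥ (B *ᵥ x) = 8) : {y : Fin 24 → ℤ | y ⬝ᵥ (B *ᵥ y) = 8 ∧ ∀ i, (2 : ℤ) ∣ (x - y) i}.ncard = 48 := by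
  classical
  have R : Rootless B := ⟨hsymm, hpos, heven, h2⟩
  have hneg : ∀ y : Fin 24 → ℤ, y ≠ 0 → y ≠ -y := by
    intro y hy hyy
    apply hy
    funext i
    have := congrFun hyy i
    simp only [Pi.neg_apply] at this
    simp only [Pi.zero_apply]
    omega
  have hf4 : {x : Fin 24 → ℤ | Q B x = 4}.Finite :=
    Set.finite_of_ncard_ne_zero (by change {x : Fin 24 → ℤ | x ⬝ᵥ (B *ᵥ x) = 4}.ncard ≠ 0; rw [h4]; norm_num)
  have hf6 : {x : Fin 24 → ℤ | Q B x = 6}.Finite :=
    Set.finite_of_ncard_ne_zero (by change {x : Fin 24 → ℤ | x ⬝ᵥ (B *ᵥ x) = 6}.ncard ≠ 0; rw [h6]; norm_num)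
  have hf8 : {x : Fin 24 → ℤ | Q B x = 8}.Finite :=
    Set.finite_of_ncard_ne_zero (by change {x : Fin 24 → ℤ | x ⬝ᵥ (B *ᵥ x) = 8}.ncard ≠ 0; rw [h8]; norm_num)
  set A4 := hf4.toFinset with hA4
  set A6 := hf6.toFinset with hA6
  set A8 := hf8.toFinset with hA8
  have mem4 : ∀ y, y ∈ A4 ↔ Q B y = 4 := fun y => by simp [hA4]
  have mem6 : ∀ y, y ∈ A6 ↔ Q B y = 6 := fun y => by simp [hA6]
  have mem8 : ∀ y, y ∈ A8 ↔ Q B y = 8 := fun y => by simp [hA8]
  have c4 : A4.card = 196560 := by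
    rw [← Set.ncard_eq_toFinset_card _ hf4]; exact h4
  have c6 : A6.card = 16773120 := by
    rw [← Set.ncard_eq_toFinset_card _ hf6]; exact h6
  have c8 : A8.card = 398034000 := by
    rw [← Set.ncard_eq_toFinset_card _ hf8]; exact h8
  have hnz : ∀ y, (Q B y = 4 ∨ Q B y = 6 ∨ Q B y = 8) → y ≠ 0 := by
    intro y hy h0
    subst h0
    simp [Q] at hy
  -- fibres in norm 4 and 6
  have fib : ∀ (m : ℤ) (A : Finset (Fin 24 → ℤ)), (m = 4 ∨ m = 6) → (∀ y, y ∈ A ↔ Q B y = m) →
      ∀ y ∈ A, A.filter (fun a => red a = red y) = {y, -y} := by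
    intro m A hm hA y hy
    ext a
    simp only [Finset.mem_filter, Finset.mem_insert, Finset.mem_singleton]
    constructor
    · rintro ⟨ha, hr⟩
      have := R.small_eq (x := y) (y := a) (((hA y).mp hy).trans ((hA a).mp ha).symm)
        (by rw [(hA y).mp hy]; exact hm) ((red_eq_iff y a).mp hr.symm)
      exact this
    · rintro (rfl | rfl)
      · exact ⟨hy, rfl⟩
      · refine ⟨(hA _).mpr (by rw [Q_neg]; exact (hA y).mp hy), ?_⟩
        rw [red_eq_iff]
        intro i
        have : (-y - y) i = 2 * (- y i) := by simp; ring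
        rw [this]
        exact dvd_mul_right _ _
  have k4 : A4.card = 2 * (A4.image red).card := by
    refine card_fiber_two A4 (fib 4 A4 (Or.inl rfl) mem4) ?_
    intro y hy
    exact hneg y (hnz y (Or.inl ((mem4 y).mp hy)))
  have k6 : A6.card = 2 * (A6.image red).card := by
    refine card_fiber_two A6 (fib 6 A6 (Or.inr rfl) mem6) ?_
    intro y hy
    exact hneg y (hnz y (Or.inr (Or.inl ((mem6 y).mp hy))))
  -- fibres in norm 8
  have k8 : ∀ c ∈ A8.image red, (A8.filter (fun a => red a = c)).card ≤ 48 := by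
    intro c _
    refine frame_bound R _ ?_ ?_
    · intro v hv
      exact (mem8 v).mp (Finset.mem_filter.mp hv).1
    · intro v hv w hw
      have hv' := Finset.mem_filter.mp hv
      have hw' := Finset.mem_filter.mp hw
      exact R.norm8 ((mem8 v).mp hv'.1) ((mem8 w).mp hw'.1)
        ((red_eq_iff v w).mp (hv'.2.trans hw'.2.symm))
  have s8 : A8.card = ∑ c ∈ A8.image red, (A8.filter (fun a => red a = c)).card :=
    Finset.card_eq_sum_card_image red A8
  have hsum : ∑ c ∈ A8.image red, (A8.filter (fun a => red a = c)).card ≤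
      ∑ c ∈ A8.image red, 48 := Finset.sum_le_sum k8
  rw [Finset.sum_const, smul_eq_mul] at hsum
  -- disjointness
  have d46 : Disjoint (A4.image red) (A6.image red) := by
    rw [Finset.disjoint_left]
    intro c hc hc'
    obtain ⟨a, ha, rfl⟩ := Finset.mem_image.mp hc
    obtain ⟨b, hb, hab⟩ := Finset.mem_image.mp hc'
    exact R.not_congr (x := a) (y := b) (Or.inl ⟨(mem4 a).mp ha, (mem6 b).mp hb⟩)
      ((red_eq_iff a b).mp hab.symm)
  have d48 : Disjoint (A4.image red) (A8.image red) := by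
    rw [Finset.disjoint_left]
    intro c hc hc'
    obtain ⟨a, ha, rfl⟩ := Finset.mem_image.mp hc
    obtain ⟨b, hb, hab⟩ := Finset.mem_image.mp hc'
    exact R.not_congr (x := a) (y := b) (Or.inr (Or.inl ⟨(mem4 a).mp ha, (mem8 b).mp hb⟩))
      ((red_eq_iff a b).mp hab.symm)
  have d68 : Disjoint (A6.image red) (A8.image red) := by
    rw [Finset.disjoint_left]
    intro c hc hc'
    obtain ⟨a, ha, rfl⟩ := Finset.mem_image.mp hc
    obtain ⟨b, hb, hab⟩ := Finset.mem_image.mp hc'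
    exact R.not_congr (x := a) (y := b) (Or.inr (Or.inr ⟨(mem6 a).mp ha, (mem8 b).mp hb⟩))
      ((red_eq_iff a b).mp hab.symm)
  have h0 : (0 : Fin 24 → ZMod 2) ∉ A4.image red ∪ (A6.image red ∪ A8.image red) := by
    intro h
    simp only [Finset.mem_union, Finset.mem_image] at h
    rcases h with ⟨a, ha, hr⟩ | ⟨a, ha, hr⟩ | ⟨a, ha, hr⟩
    · exact R.not_zero (x := a) (Or.inl ((mem4 a).mp ha)) ((red_zero_iff a).mp hr)
    · exact R.not_zero (x := a) (Or.inr (Or.inl ((mem6 a).mp ha))) ((red_zero_iff a).mp hr)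
    · exact R.not_zero (x := a) (Or.inr (Or.inr ((mem8 a).mp ha))) ((red_zero_iff a).mp hr)
  have hU : (insert (0 : Fin 24 → ZMod 2) (A4.image red ∪ (A6.image red ∪ A8.image red))).card
      ≤ 2 ^ 24 := by
    have := Finset.card_le_univ (insert (0 : Fin 24 → ZMod 2) (A4.image red ∪ (A6.image red ∪ A8.image red)))
    simpa [ZMod.card] using this
  rw [Finset.card_insert_of_notMem h0, Finset.card_union_of_disjoint
    (Finset.disjoint_union_right.mpr ⟨d46, d48⟩), Finset.card_union_of_disjoint d68] at hU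
  have hI8 : (A8.image red).card = 8292375 := by omega
  have hx8 : x ∈ A8 := (mem8 x).mpr hx
  have hall : ∀ c ∈ A8.image red, (A8.filter (fun a => red a = c)).card = 48 := by
    have heq : ∑ c ∈ A8.image red, (A8.filter (fun a => red a = c)).card =
        ∑ c ∈ A8.image red, 48 := by
      rw [← s8, c8, Finset.sum_const, smul_eq_mul, hI8]
    exact (Finset.sum_eq_sum_iff_of_le k8).mp heq
  have hfinal := hall (red x) (Finset.mem_image_of_mem _ hx8)
  have hset : {y : Fin 24 → ℤ | y ⬝ᵥ (B *ᵥ y) = 8 ∧ ∀ i, (2 : ℤ) ∣ (x - y) i} =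
      ↑(A8.filter (fun a => red a = red x)) := by
    ext y
    simp only [Set.mem_setOf_eq, Finset.coe_filter]
    constructor
    · rintro ⟨hy, hc⟩
      exact ⟨(mem8 y).mpr hy, ((red_eq_iff x y).mpr hc).symm⟩
    · rintro ⟨hy, hr⟩
      exact ⟨(mem8 y).mp hy, (red_eq_iff x y).mp hr.symm⟩
  rw [hset, Set.ncard_coe_finset, hfinal]

end Cfsg.Agent.S1588
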