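import Cfsg.Statements.S1590
import Mathlib
import Cfsg.Agent.Lib.H07.Ternary
-- import your own Cfsg.Agent.* helpers here

set_option autoImplicit false
open Cfsg

namespace Cfsg.Agent.S1590

/-- The length-12 ternary code has 729 words with weight distribution 0^1 6^264 9^440 12^24. -/
theorem result : Nat.card ↥Cfsg.ternaryGolayCode = 729 ∧ (∀ x ∈ Cfsg.ternaryGolayCode, x ≠ 0 → (Cfsg.ternarySupport x).card = 6 ∨ (Cfsg.ternarySupport x).card = 9 ∨ (Cfsg.ternarySupport x).card = 12) ∧ {x : Cfsg.ArrayPt → ZMod 3 | x ∈ Cfsg.ternaryGolayCode ∧ (Cfsg.ternarySupport x).card = 6}.ncard = 264 ∧ {x : Cfsg.ArrayPt → ZMod 3 | x ∈ Cfsg.ternaryGolayCode ∧ (Cfsg.ternarySupport x).card = 9}.ncard = 440 ∧ {x : Cfsg.ArrayPt → ZMod 3 | x ∈ Cfsg.ternaryGolayCode ∧ (Cfsg.ternarySupport x).card = 12}.ncard = 24 := by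
  classical
  open Cfsg.Agent.H07.Ternary in
  have hset : ∀ n : ℕ, {x : Cfsg.ArrayPt → ZMod 3 | x ∈ Cfsg.ternaryGolayCode ∧ (Cfsg.ternarySupport x).card = n} =
      enc '' (↑(Finset.univ.filter fun c : T => wt c = n) : Set T) := by
    intro n
    ext x
    constructor
    · rintro ⟨hx, hn⟩
      obtain ⟨c, rfl⟩ := (mem_code_iff x).mp hx
      exact ⟨c, Finset.mem_coe.mpr (Finset.mem_filter.mpr ⟨Finset.mem_univ _, hn⟩), rfl⟩
    · rintro ⟨c, hc, rfl⟩
      exact ⟨enc_mem c, (Finset.mem_filter.mp (Finset.mem_coe.mp hc)).2⟩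
  open Cfsg.Agent.H07.Ternary in
  refine ⟨?_, ?_, ?_, ?_, ?_⟩
  · have e : T ≃ ↥Cfsg.ternaryGolayCode := Equiv.ofBijective (fun c => ⟨enc c, enc_mem c⟩) (by
      constructor
      · intro c c' h
        exact enc_injective (congrArg Subtype.val h)
      · rintro ⟨x, hx⟩
        obtain ⟨c, rfl⟩ := (mem_code_iff x).mp hx
        exact ⟨c, rfl⟩)
    rw [← Nat.card_congr e]
    simp [Nat.card_eq_fintype_card, ZMod.card]
  · intro x hx hne
    obtain ⟨c, rfl⟩ := (mem_code_iff x).mp hx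
    have hc : c ≠ 0 := by
      rintro rfl
      apply hne
      funext p
      have : ∀ p : Cfsg.ArrayPt, enc (0 : T) p = 0 := by decide +kernel
      exact this p
    exact wt_table3 c hc
  · rw [hset, Set.ncard_image_of_injective _ enc_injective, Set.ncard_coe_finset]; exact wt_table0
  · rw [hset, Set.ncard_image_of_injective _ enc_injective, Set.ncard_coe_finset]; exact wt_table1
  · rw [hset, Set.ncard_image_of_injective _ enc_injective, Set.ncard_coe_finset]; exact wt_table2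

end Cfsg.Agent.S1590
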