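import Cfsg.Statements.S1591
import Mathlib
import Cfsg.Agent.Lib.H07.Ternary
-- import your own Cfsg.Agent.* helpers here

set_option autoImplicit false
open Cfsg

namespace Cfsg.Agent.S1591

open Cfsg.Agent.H07.Ternary

theorem ortho_basis : ∀ (c : T) (j : Fin 6),
    ∑ p : Cfsg.ArrayPt, enc c p * enc (![(1,0,0,0,0,0),(0,1,0,0,0,0),(0,0,1,0,0,0),(0,0,0,1,0,0),(0,0,0,0,1,0),(0,0,0,0,0,1)] j) p = 0 := by
  decide +kernel

theorem enc_expand : ∀ (d : T) (p : Cfsg.ArrayPt), enc d p =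
    d.1 * enc (1,0,0,0,0,0) p + d.2.1 * enc (0,1,0,0,0,0) p + d.2.2.1 * enc (0,0,1,0,0,0) p +
    d.2.2.2.1 * enc (0,0,0,1,0,0) p + d.2.2.2.2.1 * enc (0,0,0,0,1,0) p +
    d.2.2.2.2.2 * enc (0,0,0,0,0,1) p := by
  decide +kernel

/-- Any two words of the length-12 ternary code have dot product zero. -/
theorem result (x y : Cfsg.ArrayPt → ZMod 3) (hx : x ∈ Cfsg.ternaryGolayCode) (hy : y ∈ Cfsg.ternaryGolayCode) : ∑ p, x p * y p = 0 := by
  obtain ⟨c, rfl⟩ := (mem_code_iff x).mp hx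
  obtain ⟨d, rfl⟩ := (mem_code_iff y).mp hy
  have h0 := ortho_basis c 0
  have h1 := ortho_basis c 1
  have h2 := ortho_basis c 2
  have h3 := ortho_basis c 3
  have h4 := ortho_basis c 4
  have h5 := ortho_basis c 5
  simp only [Matrix.cons_val] at h0 h1 h2 h3 h4 h5
  have e : ∀ p : Cfsg.ArrayPt, enc c p * enc d p =
      d.1 * (enc c p * enc (1,0,0,0,0,0) p) + d.2.1 * (enc c p * enc (0,1,0,0,0,0) p) +
      d.2.2.1 * (enc c p * enc (0,0,1,0,0,0) p) + d.2.2.2.1 * (enc c p * enc (0,0,0,1,0,0) p) +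
      d.2.2.2.2.1 * (enc c p * enc (0,0,0,0,1,0) p) + d.2.2.2.2.2 * (enc c p * enc (0,0,0,0,0,1) p) := by
    intro p
    conv_lhs => rw [enc_expand d p]
    ring
  simp only [e, Finset.sum_add_distrib, ← Finset.mul_sum, h0, h1, h2, h3, h4, h5]
  simp

end Cfsg.Agent.S1591
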