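import Cfsg.Statements.S1594
import Mathlib
import Cfsg.Agent.Lib.H07.Ternary3
import Cfsg.Agent.S1593

set_option autoImplicit false
open Cfsg

namespace Cfsg.Agent.S1594

/-- The monomial automorphism group of the length-12 ternary code has order 190080 and its permutation parts are exactly the automorphisms of its hexad system. -/
theorem result : Nat.card {f : Equiv.Perm Cfsg.ArrayPt × (Cfsg.ArrayPt → (ZMod 3)ˣ) // (∀ x ∈ Cfsg.ternaryGolayCode, Cfsg.monomialMap f.1 f.2 x ∈ Cfsg.ternaryGolayCode)} = 190080 ∧ {σ : Equiv.Perm Cfsg.ArrayPt | ∃ c : Cfsg.ArrayPt → (ZMod 3)ˣ, (∀ x ∈ Cfsg.ternaryGolayCode, Cfsg.monomialMap σ c x ∈ Cfsg.ternaryGolayCode)} = (Cfsg.setSystemAut {h : Finset Cfsg.ArrayPt | ∃ x ∈ Cfsg.ternaryGolayCode, Cfsg.ternarySupport x = h ∧ h.card = 6} : Set (Equiv.Perm Cfsg.ArrayPt)) := by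
  classical
  open Cfsg.Agent.H07.Ternary in
  have main : Nat.card {f : Equiv.Perm Cfsg.ArrayPt × (Cfsg.ArrayPt → (ZMod 3)ˣ) // (∀ x ∈ Cfsg.ternaryGolayCode, Cfsg.monomialMap f.1 f.2 x ∈ Cfsg.ternaryGolayCode)} = 190080 := by
    -- fibres
    have hfib : ∀ (σ : Equiv.Perm Cfsg.ArrayPt) (c c' : Cfsg.ArrayPt → (ZMod 3)ˣ), IsMono σ c → IsMono σ c' →
        (∀ p, c' p = c p) ∨ (∀ p, c' p = - c p) := by
      intro σ c c' h h'
      have hd : ∀ x ∈ Cfsg.ternaryGolayCode, Cfsg.monomialMap 1 (fun i => c' i * (c i)⁻¹) x ∈ Cfsg.ternaryGolayCode := by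
        intro y hy
        obtain ⟨x, hx, rfl⟩ := mono_surj h hy
        have : Cfsg.monomialMap 1 (fun i => c' i * (c i)⁻¹) (Cfsg.monomialMap σ c x) = Cfsg.monomialMap σ c' x := by
          funext i
          show ((c' i * (c i)⁻¹ : (ZMod 3)ˣ) : ZMod 3) * (((c i : (ZMod 3)ˣ) : ZMod 3) * x (σ.symm i)) = ((c' i : (ZMod 3)ˣ) : ZMod 3) * x (σ.symm i)
          rw [Units.val_mul, mul_assoc, ← mul_assoc (((c i)⁻¹ : (ZMod 3)ˣ) : ZMod 3), Units.inv_mul, one_mul]
        rw [this]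
        exact h' x hx
      rcases Cfsg.Agent.S1593.result _ hd with h1 | h1
      · left
        intro p
        exact mul_inv_eq_one.mp (h1 p)
      · right
        intro p
        have := h1 p
        rw [mul_inv_eq_iff_eq_mul, neg_one_mul] at this
        exact this
    have hscale : ∀ (σ : Equiv.Perm Cfsg.ArrayPt) (c : Cfsg.ArrayPt → (ZMod 3)ˣ) (u : (ZMod 3)ˣ), IsMono σ c → IsMono σ (fun i => u * c i) := by
      intro σ c u h x hx
      have : Cfsg.monomialMap σ (fun i => u * c i) x = ((u : (ZMod 3)ˣ) : ZMod 3) • Cfsg.monomialMap σ c x := by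
        funext i
        show ((u * c i : (ZMod 3)ˣ) : ZMod 3) * x (σ.symm i) = ((u : (ZMod 3)ˣ) : ZMod 3) * (((c i : (ZMod 3)ˣ) : ZMod 3) * x (σ.symm i))
        rw [Units.val_mul, mul_assoc]
      rw [this]
      exact Cfsg.ternaryGolayCode.smul_mem _ (h x hx)
    have hex : ∀ g : setSystemAut (↑hexads : Set (Finset Cfsg.ArrayPt)), ∃ c, IsMono (g : Equiv.Perm Cfsg.ArrayPt) c := by
      intro g
      have h : (g : Equiv.Perm Cfsg.ArrayPt) ∈ monoG := by rw [monoG_eq]; exact g.2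
      exact h
    choose c0 hc0 using hex
    have hnn : ∀ u : (ZMod 3)ˣ, - u ≠ u := by decide
    let φ : {f : Equiv.Perm Cfsg.ArrayPt × (Cfsg.ArrayPt → (ZMod 3)ˣ) // (∀ x ∈ Cfsg.ternaryGolayCode, Cfsg.monomialMap f.1 f.2 x ∈ Cfsg.ternaryGolayCode)} → setSystemAut (↑hexads : Set (Finset Cfsg.ArrayPt)) × (ZMod 3)ˣ :=
      fun f => let g : setSystemAut (↑hexads : Set (Finset Cfsg.ArrayPt)) := ⟨f.1.1, monoG_le ⟨f.1.2, f.2⟩⟩
        (g, f.1.2 (0, 0) * (c0 g (0, 0))⁻¹)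
    have hφ : Function.Bijective φ := by
      constructor
      · rintro ⟨⟨σ, c⟩, hc⟩ ⟨⟨σ', c'⟩, hc'⟩ h
        have h1 : σ = σ' := congrArg (fun a => (a.1 : Equiv.Perm Cfsg.ArrayPt)) h
        subst h1
        have h2 : c (0, 0) * (c0 ⟨σ, monoG_le ⟨c, hc⟩⟩ (0, 0))⁻¹ = c' (0, 0) * (c0 ⟨σ, monoG_le ⟨c, hc⟩⟩ (0, 0))⁻¹ :=
          congrArg Prod.snd h
        have h3 : c (0, 0) = c' (0, 0) := mul_right_cancel h2
        rcases hfib σ c c' hc hc' with h4 | h4
        · have : c' = c := funext h4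
          subst this
          rfl
        · exfalso
          rw [h4 (0, 0)] at h3
          exact hnn _ h3.symm
      · rintro ⟨g, u⟩
        refine ⟨⟨(g, fun i => u * c0 g i), hscale _ _ _ (hc0 g)⟩, ?_⟩
        have : (⟨(⟨(g : Equiv.Perm Cfsg.ArrayPt), monoG_le ⟨fun i => u * c0 g i, hscale _ _ _ (hc0 g)⟩⟩ : setSystemAut (↑hexads : Set (Finset Cfsg.ArrayPt))), u * c0 g (0,0) * (c0 g (0,0))⁻¹⟩ : setSystemAut (↑hexads : Set (Finset Cfsg.ArrayPt)) × (ZMod 3)ˣ) = (g, u) := by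
          ext1
          · rfl
          · simp
        exact this
    rw [Nat.card_congr (Equiv.ofBijective φ hφ), Nat.card_prod, card_aut]
    have hu : Nat.card (ZMod 3)ˣ = 2 := by
      rw [Nat.card_eq_fintype_card]
      decide
    rw [hu]
  refine ⟨main, ?_⟩
  rw [Cfsg.Agent.H07.Ternary.hexads_set, ← Cfsg.Agent.H07.Ternary.monoG_eq]
  rfl

end Cfsg.Agent.S1594
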