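-- S1595: Leech triangle of S(5,6,12)
import Cfsg.Statements.S1595
import Mathlib

set_option autoImplicit false
open Cfsg

namespace Cfsg.Agent.S1595

section aux

set_option linter.unusedSectionVars false
variable {α : Type*} [Fintype α] [DecidableEq α]

open Finset in
/-- Double counting: the number of blocks through an `i`-set from that through `(i+1)`-sets. -/
private lemma count_step (B : Finset (Finset α)) (k : ℕ) (hB : ∀ b ∈ B, b.card = k)
    (u : Finset α) (m : ℕ)
    (hm : ∀ x, x ∉ u → (B.filter fun c => insert x u ⊆ c).card = m) :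
    (k - u.card) * (B.filter fun c => u ⊆ c).card = (Fintype.card α - u.card) * m := by
  classical
  have h1 : ∑ c ∈ B.filter (fun c => u ⊆ c), ((univ \ u).filter (fun x => x ∈ c)).card
      = ∑ x ∈ univ \ u, (B.filter fun c => insert x u ⊆ c).card := by
    simp only [card_eq_sum_ones, sum_filter]
    calc _ = ∑ a ∈ B, ∑ x ∈ univ \ u, (if (u ⊆ a ∧ x ∈ a) then 1 else 0) := by
          refine sum_congr rfl fun a _ => ?_
          by_cases h : u ⊆ a <;> simp [h]
      _ = _ := by
          rw [sum_comm]
          refine sum_congr rfl fun x _ => sum_congr rfl fun c _ => ?_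
          by_cases h : x ∈ c <;> by_cases h' : u ⊆ c <;> simp [h, h', insert_subset_iff]
  have h2 : ∀ c ∈ B.filter (fun c => u ⊆ c), ((univ \ u).filter (fun x => x ∈ c)).card = k - u.card := by
    intro c hc
    obtain ⟨hcB, huc'⟩ := mem_filter.mp hc
    have : (univ \ u).filter (fun x => x ∈ c) = c \ u := by
      ext x; simp [and_comm]
    rw [this, card_sdiff_of_subset huc', hB c hcB]
  rw [sum_congr rfl h2, sum_const, smul_eq_mul, mul_comm] at h1
  rw [h1, sum_congr rfl (fun x hx => hm x (by simpa using hx)), sum_const, smul_eq_mul,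
    card_sdiff_of_subset (subset_univ _), card_univ]

open Finset in
/-- Blocks through `s ⊆ b` are partitioned by their trace on `b`. -/
private lemma fiber_sum (B : Finset (Finset α)) (b s : Finset α) (hs : s ⊆ b) :
    (B.filter fun c => s ⊆ c).card =
      ∑ v ∈ (b \ s).powerset, (B.filter fun c => b ∩ c = s ∪ v).card := by
  classical
  rw [card_eq_sum_card_fiberwise (f := fun c => (b ∩ c) \ s) (t := (b \ s).powerset)]
  · refine sum_congr rfl fun v hv => ?_
    have hv' : v ⊆ b \ s := mem_powerset.mp hv
    congr 1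
    ext c
    simp only [mem_filter]
    constructor
    · rintro ⟨⟨hc, hsc⟩, h⟩
      refine ⟨hc, ?_⟩
      rw [← h]
      ext x
      simp only [mem_inter, mem_union, mem_sdiff]
      constructor
      · intro hx; by_cases hxs : x ∈ s
        · exact Or.inl hxs
        · exact Or.inr ⟨hx, hxs⟩
      · rintro (hx | hx)
        · exact ⟨hs hx, hsc hx⟩
        · exact hx.1
    · rintro ⟨hc, h⟩
      refine ⟨⟨hc, ?_⟩, ?_⟩
      · intro x hx
        have : x ∈ b ∩ c := by rw [h]; exact mem_union_left _ hx
        exact (mem_inter.mp this).2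
      · rw [h]
        ext x
        simp only [mem_sdiff, mem_union]
        constructor
        · rintro ⟨hx | hx, hxs⟩
          · exact absurd hx hxs
          · exact hx
        · intro hx
          exact ⟨Or.inr hx, (mem_sdiff.mp (hv' hx)).2⟩
  · intro c hc
    have hc' := mem_coe.mp hc
    simp only [coe_powerset, Set.mem_preimage, Set.mem_powerset_iff, coe_subset]
    intro x hx
    simp only [mem_sdiff, mem_inter] at hx ⊢
    exact ⟨hx.1.1, hx.2⟩

open Finset in
private lemma step_sum (B : Finset (Finset α)) (b s : Finset α) (hs : s ⊆ b) (k n : ℕ)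
    (hk : s.card = k) (hn : b.card = k + n) (g : ℕ → ℕ)
    (hg : ∀ t, t ⊆ b → s ⊂ t → (B.filter fun c => b ∩ c = t).card = g t.card) :
    (B.filter fun c => s ⊆ c).card = ∑ m ∈ range (n + 1), n.choose m *
      (if m = 0 then (B.filter fun c => b ∩ c = s).card else g (k + m)) := by
  classical
  rw [fiber_sum B b s hs]
  have hX : (b \ s).card = n := by
    rw [card_sdiff_of_subset hs, hn, hk]; omega
  have key : ∀ v ∈ (b \ s).powerset, (B.filter fun c => b ∩ c = s ∪ v).card =
      (fun m => if m = 0 then (B.filter fun c => b ∩ c = s).card else g (k + m)) v.card := by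
    intro v hv
    have hv' : v ⊆ b \ s := mem_powerset.mp hv
    by_cases h0 : v = ∅
    · subst h0; simp
    · have hvc : v.card ≠ 0 := by simpa [card_eq_zero] using h0
      have hdisj : Disjoint s v := by
        rw [disjoint_left]
        intro x hx hxv
        exact (mem_sdiff.mp (hv' hxv)).2 hx
      simp only [hvc, if_false]
      rw [hg (s ∪ v) (union_subset hs (hv'.trans sdiff_subset)) ?_, card_union_of_disjoint hdisj, hk]
      rw [ssubset_iff_subset_ne]
      refine ⟨subset_union_left, ?_⟩
      intro h
      have : v ⊆ s := by rw [h]; exact subset_union_right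
      rcases Finset.nonempty_iff_ne_empty.mpr h0 with ⟨x, hx⟩
      exact (mem_sdiff.mp (hv' hx)).2 (this hx)
  rw [sum_congr rfl key]
  have := sum_powerset_apply_card (fun m => if m = 0 then (B.filter fun c => b ∩ c = s).card else g (k + m)) (x := b \ s)
  rw [hX] at this
  simpa [smul_eq_mul] using this

end aux

/-- Leech triangle of S(5, 6, 12): blocks meet in 0, 2, 3 or 4 points, and a block is met exactly in a given 2-, 3- or 4-subset by 3, 2, 3 blocks respectively. -/
theorem result {α : Type*} [Fintype α] [DecidableEq α] (hα : Fintype.card α = 12) {B : Set (Finset α)} (hB : Cfsg.IsSteinerSystem 5 6 B) (b : Finset α) (hb : b ∈ B) : (∀ c ∈ B, c ≠ b → (b ∩ c).card = 0 ∨ (b ∩ c).card = 2 ∨ (b ∩ c).card = 3 ∨ (b ∩ c).card = 4) ∧ ∀ s ⊆ b, (s.card = 2 → {c : Finset α | c ∈ B ∧ b ∩ c = s}.ncard = 3) ∧ (s.card = 3 → {c : Finset α | c ∈ B ∧ b ∩ c = s}.ncard = 2) ∧ (s.card = 4 → {c : Finset α | c ∈ B ∧ b ∩ c = s}.ncard = 3) := by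
  classical
  obtain ⟨hk, huniq⟩ := hB
  set BF : Finset (Finset α) := (Set.toFinite B).toFinset with hBF
  have memBF : ∀ c, c ∈ BF ↔ c ∈ B := fun c => Set.Finite.mem_toFinset _
  have hkF : ∀ c ∈ BF, c.card = 6 := fun c hc => hk c ((memBF c).mp hc)
  set L : Finset α → ℕ := fun u => (BF.filter fun c => u ⊆ c).card with hL
  set a : Finset α → ℕ := fun s => (BF.filter fun c => b ∩ c = s).card with ha
  have hbc : b.card = 6 := hk b hb
  -- number of blocks through sets of given size
  have L5 : ∀ u : Finset α, u.card = 5 → L u = 1 := by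
    intro u hu
    obtain ⟨c, ⟨hcB, huc⟩, hc⟩ := huniq u hu
    apply Finset.card_eq_one.mpr
    refine ⟨c, ?_⟩
    ext d
    simp only [Finset.mem_filter, memBF, Finset.mem_singleton]
    constructor
    · intro h; exact hc d h
    · rintro rfl; exact ⟨hcB, huc⟩
  have stepL : ∀ (i m : ℕ) (u : Finset α), u.card = i → (∀ u' : Finset α, u'.card = i + 1 → L u' = m) →
      (6 - i) * L u = (12 - i) * m := by
    intro i m u hu hm
    have := count_step BF 6 hkF u m (fun x hx => hm (insert x u) (by rw [Finset.card_insert_of_notMem hx, hu]))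
    rwa [hα, hu] at this
  have L4 : ∀ u : Finset α, u.card = 4 → L u = 4 := by
    intro u hu; have := stepL 4 1 u hu L5; omega
  have L3 : ∀ u : Finset α, u.card = 3 → L u = 12 := by
    intro u hu; have := stepL 3 4 u hu L4; omega
  have L2 : ∀ u : Finset α, u.card = 2 → L u = 30 := by
    intro u hu; have := stepL 2 12 u hu L3; omega
  have L1 : ∀ u : Finset α, u.card = 1 → L u = 66 := by
    intro u hu; have := stepL 1 30 u hu L2; omega
  -- the trace numbers
  have hb_only : ∀ c ∈ B, b ⊆ c → c = b := by
    intro c hc hbsub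
    exact (Finset.eq_of_subset_of_card_le hbsub (by rw [hk c hc, hbc])).symm
  have a6 : ∀ t : Finset α, t ⊆ b → t.card = 6 → a t = 1 := by
    intro t ht htc
    have htb : t = b := Finset.eq_of_subset_of_card_le ht (by omega)
    subst htb
    apply Finset.card_eq_one.mpr
    refine ⟨t, ?_⟩
    ext d
    simp only [Finset.mem_filter, memBF, Finset.mem_singleton]
    constructor
    · rintro ⟨hd, h⟩
      exact hb_only d hd (Finset.inter_eq_left.mp h)
    · rintro rfl
      exact ⟨hb, Finset.inter_self _⟩
  have tcard : ∀ t : Finset α, t ⊆ b → t.card ≤ 6 := fun t ht => hbc ▸ Finset.card_le_card ht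
  set g : ℕ → ℕ := fun n => match n with
    | 1 => 0 | 2 => 3 | 3 => 2 | 4 => 3 | 5 => 0 | 6 => 1 | _ => 0 with hg
  have stp : ∀ (k n : ℕ) (s : Finset α), s ⊆ b → s.card = k → k + n = 6 →
      (∀ t : Finset α, t ⊆ b → k < t.card → a t = g t.card) →
      L s = ∑ m ∈ Finset.range (n + 1), n.choose m * (if m = 0 then a s else g (k + m)) := by
    intro k n s hs hsk hkn hgt
    refine step_sum BF b s hs k n hsk (by omega) g (fun t ht hst => ?_)
    exact hgt t ht (by rw [← hsk]; exact Finset.card_lt_card hst)
  have a5 : ∀ t : Finset α, t ⊆ b → t.card = 5 → a t = 0 := by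
    intro t ht htc
    have := stp 5 1 t ht htc rfl (fun t' ht' h => by
      have h6 : t'.card = 6 := by have := tcard t' ht'; omega
      rw [a6 t' ht' h6, h6]; rfl)
    rw [L5 t htc] at this
    simp [Finset.sum_range_succ, hg] at this
    omega
  have a4 : ∀ t : Finset α, t ⊆ b → t.card = 4 → a t = 3 := by
    intro t ht htc
    have := stp 4 2 t ht htc rfl (fun t' ht' h => by
      have h6 := tcard t' ht'
      have : t'.card = 5 ∨ t'.card = 6 := by omega
      rcases this with h' | h'
      · rw [a5 t' ht' h', h']; rfl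
      · rw [a6 t' ht' h', h']; rfl)
    rw [L4 t htc] at this
    simp [Finset.sum_range_succ, hg, Nat.choose] at this
    omega
  have a3 : ∀ t : Finset α, t ⊆ b → t.card = 3 → a t = 2 := by
    intro t ht htc
    have := stp 3 3 t ht htc rfl (fun t' ht' h => by
      have h6 := tcard t' ht'
      have : t'.card = 4 ∨ t'.card = 5 ∨ t'.card = 6 := by omega
      rcases this with h' | h' | h'
      · rw [a4 t' ht' h', h']; rfl
      · rw [a5 t' ht' h', h']; rfl
      · rw [a6 t' ht' h', h']; rfl)
    rw [L3 t htc] at this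
    simp [Finset.sum_range_succ, hg, Nat.choose] at this
    omega
  have a2 : ∀ t : Finset α, t ⊆ b → t.card = 2 → a t = 3 := by
    intro t ht htc
    have := stp 2 4 t ht htc rfl (fun t' ht' h => by
      have h6 := tcard t' ht'
      have : t'.card = 3 ∨ t'.card = 4 ∨ t'.card = 5 ∨ t'.card = 6 := by omega
      rcases this with h' | h' | h' | h'
      · rw [a3 t' ht' h', h']; rfl
      · rw [a4 t' ht' h', h']; rfl
      · rw [a5 t' ht' h', h']; rfl
      · rw [a6 t' ht' h', h']; rfl)
    rw [L2 t htc] at this
    simp [Finset.sum_range_succ, hg, Nat.choose] at this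
    omega
  have a1 : ∀ t : Finset α, t ⊆ b → t.card = 1 → a t = 0 := by
    intro t ht htc
    have := stp 1 5 t ht htc rfl (fun t' ht' h => by
      have h6 := tcard t' ht'
      have : t'.card = 2 ∨ t'.card = 3 ∨ t'.card = 4 ∨ t'.card = 5 ∨ t'.card = 6 := by omega
      rcases this with h' | h' | h' | h' | h'
      · rw [a2 t' ht' h', h']; rfl
      · rw [a3 t' ht' h', h']; rfl
      · rw [a4 t' ht' h', h']; rfl
      · rw [a5 t' ht' h', h']; rfl
      · rw [a6 t' ht' h', h']; rfl)
    rw [L1 t htc] at this
    simp [Finset.sum_range_succ, hg, Nat.choose] at this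
    omega
  have hset : ∀ s : Finset α, {c : Finset α | c ∈ B ∧ b ∩ c = s}.ncard = a s := by
    intro s
    have : {c : Finset α | c ∈ B ∧ b ∩ c = s} = ↑(BF.filter fun c => b ∩ c = s) := by
      ext c; simp [memBF]
    rw [this, Set.ncard_coe_finset]
  refine ⟨?_, ?_⟩
  · intro c hc hne
    set s := b ∩ c with hs
    have hsb : s ⊆ b := Finset.inter_subset_left
    have hpos : 0 < a s := Finset.card_pos.mpr ⟨c, Finset.mem_filter.mpr ⟨(memBF c).mpr hc, rfl⟩⟩
    have h6 := tcard s hsb
    have h1 : s.card ≠ 1 := fun h => by have := a1 s hsb h; omega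
    have h5 : s.card ≠ 5 := fun h => by have := a5 s hsb h; omega
    have h66 : s.card ≠ 6 := fun h => by
      have : s = b := Finset.eq_of_subset_of_card_le hsb (by omega)
      exact hne (hb_only c hc (Finset.inter_eq_left.mp this))
    omega
  · intro s hs
    refine ⟨fun h => ?_, fun h => ?_, fun h => ?_⟩
    · rw [hset, a2 s hs h]
    · rw [hset, a3 s hs h]
    · rw [hset, a4 s hs h]

end Cfsg.Agent.S1595
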