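import Cfsg.Statements.S1596
import Mathlib
import Cfsg.Agent.Lib.H07.GolayQuart

set_option autoImplicit false
open scoped Pointwise
open Cfsg

namespace Cfsg.Agent.S1596

/-- A quartet of a dodecad is determined by any two of its triples: two disjoint triples uniting to a hexad extend to exactly one quartet. -/
theorem result (d : Finset Cfsg.GolayPt) (hd : d ∈ Cfsg.dodecads) (t u : Finset Cfsg.GolayPt) (ht : t.card = 3) (hu : u.card = 3) (htu : Disjoint t u) (hh : t ∪ u ∈ Cfsg.hexadsOn d) : ∃! Q : Finset (Finset Cfsg.GolayPt), Q ∈ Cfsg.quartets d ∧ t ∈ Q ∧ u ∈ Q := by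
  obtain ⟨g, hg, rfl⟩ := Cfsg.Agent.H07.Orb.exists_smul_D0 hd
  have hne : t ≠ u := by
    rintro rfl
    rw [disjoint_self] at htu
    simp [Finset.bot_eq_empty] at htu
    rw [htu] at ht
    simp at ht
  have hcard : (g • Cfsg.Agent.H27.Golay.fs Cfsg.Agent.H07.Orb.D0).card = 12 := by
    rw [Finset.card_smul_finset]
    exact Cfsg.Agent.H07.Orb.card_D0
  have hh0 : g⁻¹ • (t ∪ u) ∈ Cfsg.hexadsOn (Cfsg.Agent.H27.Golay.fs Cfsg.Agent.H07.Orb.D0) := by
    have := Cfsg.Agent.H07.Orb.smul_mem_hexadsOn (Cfsg.M24.inv_mem hg) hh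
    rwa [inv_smul_smul] at this
  have hsub : t ∪ u ⊆ g • Cfsg.Agent.H27.Golay.fs Cfsg.Agent.H07.Orb.D0 := by
    obtain ⟨-, o, -, he⟩ := hh
    rw [← he]
    exact Finset.inter_subset_right
  have hts : g⁻¹ • t ⊆ Cfsg.Agent.H27.Golay.fs Cfsg.Agent.H07.Orb.D0 := by
    have := Finset.smul_finset_subset_smul_finset (a := g⁻¹) (Finset.union_subset_left hsub)
    rwa [inv_smul_smul] at this
  have hus : g⁻¹ • u ⊆ Cfsg.Agent.H27.Golay.fs Cfsg.Agent.H07.Orb.D0 := by
    have := Finset.smul_finset_subset_smul_finset (a := g⁻¹) (Finset.union_subset_right hsub)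
    rwa [inv_smul_smul] at this
  have hdj : Disjoint (g⁻¹ • t) (g⁻¹ • u) := by
    rw [Finset.disjoint_left]
    intro p hp hp2
    obtain ⟨a, ha, rfl⟩ := Finset.mem_smul_finset.mp hp
    obtain ⟨b, hb, hab⟩ := Finset.mem_smul_finset.mp hp2
    have : b = a := MulAction.injective g⁻¹ hab
    exact Finset.disjoint_left.mp htu ha (this ▸ hb)
  rw [Finset.smul_finset_union] at hh0
  obtain ⟨c, hc, h3, h4⟩ := Cfsg.Agent.H07.Orb.exists_qu_pair (t := g⁻¹ • t) (u := g⁻¹ • u)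
    (by rw [Finset.card_smul_finset]; exact ht) (by rw [Finset.card_smul_finset]; exact hu) hts hus hdj hh0
  have hQ := Cfsg.Agent.H07.Orb.smul_mem_quartets hg (Cfsg.Agent.H07.Orb.qu_mem_quartets hc)
  have h5 : t ∈ g • Cfsg.Agent.H07.Orb.qu c := by
    have := Finset.smul_mem_smul_finset (a := g) h3
    rwa [smul_inv_smul] at this
  have h6 : u ∈ g • Cfsg.Agent.H07.Orb.qu c := by
    have := Finset.smul_mem_smul_finset (a := g) h4
    rwa [smul_inv_smul] at this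
  refine ⟨g • Cfsg.Agent.H07.Orb.qu c, ⟨hQ, h5, h6⟩, ?_⟩
  rintro Q' ⟨h7, h8, h9⟩
  exact Cfsg.Agent.H07.Orb.quartet_eq hcard h7 hQ h8 h9 h5 h6 hne

end Cfsg.Agent.S1596
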