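import Cfsg.Statements.S1597
import Mathlib
import Cfsg.Agent.Lib.H07.GolayQuart

set_option autoImplicit false
open scoped Pointwise
open Cfsg

namespace Cfsg.Agent.S1597

/-- A dodecad has 220 quartets and its stabiliser is transitive on them. -/
theorem result (d : Finset Cfsg.GolayPt) (hd : d ∈ Cfsg.dodecads) : (Cfsg.quartets d).ncard = 220 ∧ ∀ Q ∈ Cfsg.quartets d, ∀ Q' ∈ Cfsg.quartets d, ∃ g : Equiv.Perm Cfsg.GolayPt, g ∈ Cfsg.M24 ∧ g • d = d ∧ g • Q = Q' := by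
  refine ⟨Cfsg.Agent.H07.Orb.ncard_quartets hd, ?_⟩
  intro Q hQ Q' hQ'
  obtain ⟨h, hh, rfl, rfl⟩ := Cfsg.Agent.H07.Orb.exists_smul_pair hd hQ
  have h1 := (Cfsg.Agent.H07.Orb.mem_quartets_iff_smul hh (Cfsg.Agent.H27.Golay.fs Cfsg.Agent.H07.Orb.D0) (h⁻¹ • Q')).mpr
    (by rwa [smul_inv_smul])
  obtain ⟨c, hc, hce⟩ := (Cfsg.Agent.H07.Orb.mem_quartets_iff _).mp h1
  obtain ⟨g, hg, hg2⟩ := Cfsg.Agent.H07.Orb.exists_smul_q0 hc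
  have hg1 : g • Cfsg.Agent.H27.Golay.fs Cfsg.Agent.H07.Orb.D0 = Cfsg.Agent.H27.Golay.fs Cfsg.Agent.H07.Orb.D0 := hg.2
  refine ⟨h * g * h⁻¹, Cfsg.M24.mul_mem (Cfsg.M24.mul_mem hh hg.1) (Cfsg.M24.inv_mem hh), ?_, ?_⟩
  · rw [mul_smul, mul_smul, inv_smul_smul, hg1]
  · rw [mul_smul, mul_smul, inv_smul_smul, hg2, hce, smul_inv_smul]

end Cfsg.Agent.S1597
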