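import Cfsg.Statements.S1599
import Mathlib
import Cfsg.Agent.Lib.H07.GolayQuart2

set_option autoImplicit false
open scoped Pointwise
open Cfsg

set_option maxRecDepth 100000

namespace Cfsg.Agent.S1599

open Cfsg.Agent.H27.Golay Cfsg.Agent.H07.Orb
open scoped Pointwise

theorem c324 : countL (fun m => Nat.beq (keyQ m) 324) quartL = 1 := by decide +kernel
theorem c90 : countL (fun m => Nat.beq (keyQ m) 90) quartL = 12 := by decide +kernel
theorem c68 : countL (fun m => Nat.beq (keyQ m) 68) quartL = 27 := by decide +kernel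
theorem c54 : countL (fun m => Nat.beq (keyQ m) 54) quartL = 72 := by decide +kernel
theorem c26 : countL (fun m => Nat.beq (keyQ m) 26) quartL = 108 := by decide +kernel
theorem rm90 : repQ 90 ∈ quartL := by decide +kernel
theorem rk90 : keyQ (repQ 90) = 90 := by decide +kernel
theorem rm68 : repQ 68 ∈ quartL := by decide +kernel
theorem rk68 : keyQ (repQ 68) = 68 := by decide +kernel
theorem rm54 : repQ 54 ∈ quartL := by decide +kernel
theorem rk54 : keyQ (repQ 54) = 54 := by decide +kernel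
theorem rm26 : repQ 26 ∈ quartL := by decide +kernel
theorem rk26 : keyQ (repQ 26) = 26 := by decide +kernel
theorem all5 : allL (fun m => (Nat.beq (keyQ m) 324 && Nat.beq m q0) || Nat.beq (keyQ m) 90 || Nat.beq (keyQ m) 68 || Nat.beq (keyQ m) 54 || Nat.beq (keyQ m) 26) quartL = true := by decide +kernel

/-- A quartet stabiliser has five orbits on the quartets of its dodecad, of sizes 1, 12, 27, 72, 108. -/
theorem result (d : Finset Cfsg.GolayPt) (hd : d ∈ Cfsg.dodecads) (Q : Finset (Finset Cfsg.GolayPt)) (hQ : Q ∈ Cfsg.quartets d) : ∃ X₁ ∈ Cfsg.quartets d, ∃ X₂ ∈ Cfsg.quartets d, ∃ X₃ ∈ Cfsg.quartets d, ∃ X₄ ∈ Cfsg.quartets d, (MulAction.orbit ↥(MulAction.stabilizer Cfsg.M24 d ⊓ MulAction.stabilizer Cfsg.M24 Q) X₁).ncard = 12 ∧ (MulAction.orbit ↥(MulAction.stabilizer Cfsg.M24 d ⊓ MulAction.stabilizer Cfsg.M24 Q) X₂).ncard = 27 ∧ (MulAction.orbit ↥(MulAction.stabilizer Cfsg.M24 d ⊓ MulAction.stabilizer Cfsg.M24 Q) X₃).ncard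 = 72 ∧ (MulAction.orbit ↥(MulAction.stabilizer Cfsg.M24 d ⊓ MulAction.stabilizer Cfsg.M24 Q) X₄).ncard = 108 ∧ Cfsg.quartets d = {Q} ∪ MulAction.orbit ↥(MulAction.stabilizer Cfsg.M24 d ⊓ MulAction.stabilizer Cfsg.M24 Q) X₁ ∪ MulAction.orbit ↥(MulAction.stabilizer Cfsg.M24 d ⊓ MulAction.stabilizer Cfsg.M24 Q) X₂ ∪ MulAction.orbit ↥(MulAction.stabilizer Cfsg.M24 d ⊓ MulAction.stabilizer Cfsg.M24 Q) X₃ ∪ MulAction.orbit ↥(MulAction.stabilizer Cfsg.M24 d ⊓ MulAction.stabilizer Cfsg.M24 Q) X₄ := by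
  obtain ⟨h, hh, rfl, rfl⟩ := exists_smul_pair hd hQ
  have orb : ∀ k, ∀ r ∈ quartL, keyQ r = k →
      MulAction.orbit ↥(MulAction.stabilizer M24 (h • fs D0) ⊓ MulAction.stabilizer M24 (h • qu q0)) (h • qu r) =
        (fun y => h • y) '' {x | x ∈ quartets (fs D0) ∧ labQ x = k} := by
    intro k r hr hk
    rw [orbit_Q hh (qu_mem_quartets hr), labQ_dec hr, hk]
  have nc : ∀ k, ((fun y => h • y) '' {x | x ∈ quartets (fs D0) ∧ labQ x = k}).ncard =
      countL (fun m => Nat.beq (keyQ m) k) quartL := by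
    intro k
    rw [Set.ncard_image_of_injective _ (MulAction.injective h), ncard_class_Q]
  have memq : ∀ r ∈ quartL, h • qu r ∈ quartets (h • fs D0) := fun r hr => smul_mem_quartets hh (qu_mem_quartets hr)
  refine ⟨h • qu (repQ 90), memq _ rm90, h • qu (repQ 68), memq _ rm68, h • qu (repQ 54), memq _ rm54,
    h • qu (repQ 26), memq _ rm26, ?_, ?_, ?_, ?_, ?_⟩
  · rw [orb _ _ rm90 rk90, nc, c90]
  · rw [orb _ _ rm68 rk68, nc, c68]
  · rw [orb _ _ rm54 rk54, nc, c54]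
  · rw [orb _ _ rm26 rk26, nc, c26]
  · rw [orb _ _ rm90 rk90, orb _ _ rm68 rk68, orb _ _ rm54 rk54, orb _ _ rm26 rk26]
    ext x
    simp only [Set.mem_union, Set.mem_singleton_iff, Set.mem_image, Set.mem_ofPred_eq]
    constructor
    · intro hx
      rw [quartets_smul hh] at hx
      obtain ⟨x0, hx0, rfl⟩ := hx
      obtain ⟨c, hc, rfl⟩ := (mem_quartets_iff _).mp hx0
      have h5 := allL_spec all5 c hc
      simp only [Bool.or_eq_true, Bool.and_eq_true, beq_iff] at h5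
      rw [← labQ_dec hc] at h5
      rcases h5 with (((⟨-, rfl⟩ | h5) | h5) | h5) | h5
      · exact Or.inl (Or.inl (Or.inl (Or.inl rfl)))
      · exact Or.inl (Or.inl (Or.inl (Or.inr ⟨_, ⟨hx0, h5⟩, rfl⟩)))
      · exact Or.inl (Or.inl (Or.inr ⟨_, ⟨hx0, h5⟩, rfl⟩))
      · exact Or.inl (Or.inr ⟨_, ⟨hx0, h5⟩, rfl⟩)
      · exact Or.inr ⟨_, ⟨hx0, h5⟩, rfl⟩
    · intro hx
      have hcase : x = h • qu q0 ∨ ∃ y ∈ quartets (fs D0), h • y = x := by
        rcases hx with hx | ⟨y, ⟨hy, -⟩, e⟩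
        · rcases hx with hx | ⟨y, ⟨hy, -⟩, e⟩
          · rcases hx with hx | ⟨y, ⟨hy, -⟩, e⟩
            · rcases hx with hx | ⟨y, ⟨hy, -⟩, e⟩
              · exact Or.inl hx
              · exact Or.inr ⟨y, hy, e⟩
            · exact Or.inr ⟨y, hy, e⟩
          · exact Or.inr ⟨y, hy, e⟩
        · exact Or.inr ⟨y, hy, e⟩
      rcases hcase with rfl | ⟨y, hy, rfl⟩
      · exact memq _ q0_mem
      · exact smul_mem_quartets hh hy

end Cfsg.Agent.S1599
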