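import Cfsg.Statements.S1600
import Mathlib
import Cfsg.Agent.Lib.H07.GolayM12

set_option autoImplicit false
open scoped Pointwise
open Cfsg

namespace Cfsg.Agent.S1600

/-- The pointwise stabiliser of three points of a dodecad inside the dodecad stabiliser (order 72) is transitive on the complementary dodecad. -/
theorem result (d : Finset Cfsg.GolayPt) (hd : d ∈ Cfsg.dodecads) (p q r : Cfsg.GolayPt) (hp : p ∈ d) (hq : q ∈ d) (hr : r ∈ d) (hpq : p ≠ q) (hpr : p ≠ r) (hqr : q ≠ r) : Nat.card ↥(MulAction.stabilizer Cfsg.M24 d ⊓ MulAction.stabilizer Cfsg.M24 p ⊓ MulAction.stabilizer Cfsg.M24 q ⊓ MulAction.stabilizer Cfsg.M24 r) = 72 ∧ ∀ x ∉ d, ∀ y ∉ d, ∃ g ∈ (MulAction.stabilizer Cfsg.M24 d ⊓ MulAction.stabilizer Cfsg.M24 p ⊓ MulAction.stabilizer Cfsg.M24 q ⊓ MulAction.stabilizer Cfsg.M24 r), ((g : ↥Cfsg.M24)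 : Equiv.Perm Cfsg.GolayPt) x = y := by
  have hpq' : q ≠ p := Ne.symm hpq
  have hpr' : r ≠ p := Ne.symm hpr
  have hqr' : r ≠ q := Ne.symm hqr
  refine ⟨Cfsg.Agent.H07.Orb.card_S3 hd hp hq hr hpq' hpr' hqr', ?_⟩
  intro x hx y hy
  obtain ⟨h1, hh1, e0, e1, e2, e3, rfl⟩ := Cfsg.Agent.H07.Orb.flagC3 hd hp hq hr hpq' hpr' hqr' hx
  obtain ⟨h2, hh2, e0', e1', e2', e3', rfl⟩ := Cfsg.Agent.H07.Orb.flagC3 hd hp hq hr hpq' hpr' hqr' hy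
  subst e0 e1 e2 e3
  refine ⟨⟨h2 * h1⁻¹, Cfsg.M24.mul_mem hh2 (Cfsg.M24.inv_mem hh1)⟩, ⟨⟨⟨?_, ?_⟩, ?_⟩, ?_⟩, ?_⟩
  · show (h2 * h1⁻¹) • h1 • Cfsg.Agent.H27.Golay.fs Cfsg.Agent.H07.Orb.D0 = h1 • Cfsg.Agent.H27.Golay.fs Cfsg.Agent.H07.Orb.D0
    rw [mul_smul, inv_smul_smul, e0']
  · show (h2 * h1⁻¹) (h1 (Cfsg.Agent.H27.Golay.pt 1)) = h1 (Cfsg.Agent.H27.Golay.pt 1)
    simp [e1']
  · show (h2 * h1⁻¹) (h1 (Cfsg.Agent.H27.Golay.pt 4)) = h1 (Cfsg.Agent.H27.Golay.pt 4)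
    simp [e2']
  · show (h2 * h1⁻¹) (h1 (Cfsg.Agent.H27.Golay.pt 5)) = h1 (Cfsg.Agent.H27.Golay.pt 5)
    simp [e3']
  · show (h2 * h1⁻¹) (h1 (Cfsg.Agent.H27.Golay.pt 0)) = h2 (Cfsg.Agent.H27.Golay.pt 0)
    simp

end Cfsg.Agent.S1600
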