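import Cfsg.Statements.S1601
import Mathlib
import Cfsg.Agent.Lib.H07.GolayM11Psl

set_option autoImplicit false
open scoped Pointwise
open Cfsg

namespace Cfsg.Agent.S1601

/-- In the 3-transitive action of the smallest Mathieu group on the complementary dodecad, a point stabiliser is isomorphic to PSL(2, 11). -/
theorem result (d : Finset Cfsg.GolayPt) (hd : d ∈ Cfsg.dodecads) (p q : Cfsg.GolayPt) (hp : p ∈ d) (hq : q ∉ d) : Nonempty (↥(MulAction.stabilizer Cfsg.M24 d ⊓ MulAction.stabilizer Cfsg.M24 p ⊓ MulAction.stabilizer Cfsg.M24 q) ≃* Matrix.ProjectiveSpecialLinearGroup (Fin 2) (ZMod 11)) := by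
  obtain ⟨h, hh, rfl, rfl, rfl⟩ := Cfsg.Agent.H07.Orb.flagC1 hd hp hq
  exact Cfsg.Agent.H07.Orb.main_PSL hh

end Cfsg.Agent.S1601
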