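import Cfsg.Statements.S1603
import Mathlib
import Cfsg.Agent.Lib.H07.GolayM11Gl

set_option autoImplicit false
open scoped Pointwise
open Cfsg

namespace Cfsg.Agent.S1603

/-- Involution centralisers in the smallest Mathieu group are isomorphic to GL(2, 3). -/
theorem result (d : Finset Cfsg.GolayPt) (hd : d ∈ Cfsg.dodecads) (p : Cfsg.GolayPt) (hp : p ∈ d) (x : ↥(MulAction.stabilizer Cfsg.M24 d ⊓ MulAction.stabilizer Cfsg.M24 p)) (hx : orderOf x = 2) : Nonempty (↥(Subgroup.centralizer ({x} : Set ↥(MulAction.stabilizer Cfsg.M24 d ⊓ MulAction.stabilizer Cfsg.M24 p))) ≃* GL (Fin 2) (ZMod 3)) := by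
  open Cfsg.Agent.H07.Orb Cfsg.Agent.H27.Golay in
  obtain ⟨h, hh, hd', hp'⟩ := flagD1 hd hp
  have hx2 : x * x = 1 := by
    rw [← pow_two, ← hx]
    exact pow_orderOf_eq_one x
  have hx1 : x ≠ 1 := by
    rintro rfl
    rw [orderOf_one] at hx
    omega
  have hxM : ((x : ↥Cfsg.M24) : Equiv.Perm Cfsg.GolayPt) ∈ Cfsg.M24 := (x : ↥Cfsg.M24).2
  have hxd : ((x : ↥Cfsg.M24) : Equiv.Perm Cfsg.GolayPt) • d = d := x.2.1
  have hxp : ((x : ↥Cfsg.M24) : Equiv.Perm Cfsg.GolayPt) p = p := x.2.2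
  have hxx : ((x : ↥Cfsg.M24) : Equiv.Perm Cfsg.GolayPt) * ((x : ↥Cfsg.M24) : Equiv.Perm Cfsg.GolayPt) = 1 :=
    congrArg (fun z => ((z : ↥Cfsg.M24) : Equiv.Perm Cfsg.GolayPt)) (congrArg Subtype.val hx2)
  have hxn : ((x : ↥Cfsg.M24) : Equiv.Perm Cfsg.GolayPt) ≠ 1 := by
    intro e
    apply hx1
    apply Subtype.ext
    apply Subtype.ext
    exact e
  set g := h⁻¹ * ((x : ↥Cfsg.M24) : Equiv.Perm Cfsg.GolayPt) * h with hg
  have hgm : g ∈ HD1 := by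
    refine ⟨⟨Cfsg.M24.mul_mem (Cfsg.M24.mul_mem (Cfsg.M24.inv_mem hh) hxM) hh, ?_⟩, ?_⟩
    · show (h⁻¹ * ((x : ↥Cfsg.M24) : Equiv.Perm Cfsg.GolayPt) * h) • fs D0 = fs D0
      rw [mul_smul, mul_smul, hd', hxd, ← hd', inv_smul_smul]
    · show (h⁻¹ * ((x : ↥Cfsg.M24) : Equiv.Perm Cfsg.GolayPt) * h) (pt 1) = pt 1
      rw [Equiv.Perm.mul_apply, Equiv.Perm.mul_apply, hp', hxp, ← hp']
      simp
  have hg2 : g * g = 1 := by
    calc g * g = h⁻¹ * (((x : ↥Cfsg.M24) : Equiv.Perm Cfsg.GolayPt) * ((x : ↥Cfsg.M24) : Equiv.Perm Cfsg.GolayPt)) * h := by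
          rw [hg]; group
      _ = 1 := by rw [hxx]; group
  have hg1 : g ≠ 1 := by
    intro e
    apply hxn
    have : ((x : ↥Cfsg.M24) : Equiv.Perm Cfsg.GolayPt) = h * g * h⁻¹ := by rw [hg]; group
    rw [this, e]
    group
  obtain ⟨τ, hτ, e⟩ := exists_conj_x0 hgm hg2 hg1
  have hτ1 : τ • fs D0 = fs D0 := hτ.1.2
  have hτ2 : τ (pt 1) = pt 1 := hτ.2
  have hkd : (h * τ) • fs D0 = d := by rw [mul_smul, hτ1, hd']
  have hkp : (h * τ) (pt 1) = p := by rw [Equiv.Perm.mul_apply, hτ2, hp']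
  have hkM : h * τ ∈ Cfsg.M24 := Cfsg.M24.mul_mem hh hτ.1.1
  have hxform : ((x : ↥Cfsg.M24) : Equiv.Perm Cfsg.GolayPt) = (h * τ) * P x0Inv * (h * τ)⁻¹ := by
    have : ((x : ↥Cfsg.M24) : Equiv.Perm Cfsg.GolayPt) = h * g * h⁻¹ := by rw [hg]; group
    rw [this, e]
    group
  clear_value g
  clear hg hgm hg2 hg1 e hxx hxn hxM hxd hxp hx1 hx2 hx hd' hp'
  generalize h * τ = k at hkd hkp hkM hxform
  subst hkd hkp
  exact centralizer_iso hkM x hxform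

end Cfsg.Agent.S1603
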