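import Cfsg.Statements.S1604
import Mathlib
import Cfsg.Agent.Lib.H07.GolayFlag

set_option autoImplicit false
open scoped Pointwise
open Cfsg

set_option maxRecDepth 100000

namespace Cfsg.Agent.S1604

open Cfsg.Agent.H27.Golay Cfsg.Agent.H07.Orb
open scoped Pointwise

theorem c2 : countL (fun m => (bitb m 23 && bitb m 0) && Nat.beq (keyO m) 2) octadL = 16 := by decide +kernel
theorem c4 : countL (fun m => (bitb m 23 && bitb m 0) && Nat.beq (keyO m) 4) octadL = 60 := by decide +kernel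

theorem test_iff (k : ℕ) : ∀ m ∈ octadL, ((bitb m 23 && bitb m 0) && Nat.beq (keyO m) k) = true ↔ (pt 23 ∈ fs m ∧ pt 0 ∈ fs m ∧ (fs O0 ∩ fs m).card = k) := by
  intro m _
  rw [Bool.and_eq_true, Bool.and_eq_true, mem_pt_fs (by norm_num), mem_pt_fs (by norm_num), beq_iff, keyO_eq, and_assoc]


/-- A hexad stabiliser in the two-point stabiliser has orbits of sizes 1, 16, 60 on the 77 hexads: the 16 hexads disjoint from it and the 60 meeting it in two points. -/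
theorem result (p q : Cfsg.GolayPt) (hpq : p ≠ q) (o o' o'' : Finset Cfsg.GolayPt) (ho : o ∈ Cfsg.octads) (ho' : o' ∈ Cfsg.octads) (ho'' : o'' ∈ Cfsg.octads) (hp : p ∈ o ∧ p ∈ o' ∧ p ∈ o'') (hq : q ∈ o ∧ q ∈ o' ∧ q ∈ o'') (h : (o ∩ o').card = (o ∩ o'').card) : {x : Finset Cfsg.GolayPt | x ∈ Cfsg.octads ∧ p ∈ x ∧ q ∈ x ∧ (o ∩ x).card = 2}.ncard = 16 ∧ {x : Finset Cfsg.GolayPt | x ∈ Cfsg.octads ∧ p ∈ x ∧ q ∈ x ∧ (o ∩ x).card = 4}.ncard = 60 ∧ ∃ g : Equiv.Perm Cfsg.GolayPt, g ∈ Cfsg.M24 ∧ g p = p ∧ g q = q ∧ g • o = o ∧ g • o' = o'' := by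
  obtain ⟨h0, hh, rfl, rfl, rfl⟩ := flag_in2 ho hp.1 hq.1 hpq
  have hcnt : ∀ k, {x : Finset GolayPt | x ∈ octads ∧ h0 (pt 23) ∈ x ∧ h0 (pt 0) ∈ x ∧ (h0 • fs O0 ∩ x).card = k}.ncard =
      countL (fun m => (bitb m 23 && bitb m 0) && Nat.beq (keyO m) k) octadL := by
    intro k
    rw [ncard_transport (h := h0) (octads_iff_smul hh)]
    simp only [mem_smul_iff', card_smul_inter]
    exact ncard_octads (test_iff k)
  refine ⟨by rw [hcnt, c2], by rw [hcnt, c4], ?_⟩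
  have hinv := M24.inv_mem hh
  obtain ⟨ma, hma, hfa⟩ := mask_of_octad (smul_mem_octads hinv ho')
  obtain ⟨mb, hmb, hfb⟩ := mask_of_octad (smul_mem_octads hinv ho'')
  have eo' : o' = h0 • fs ma := by rw [hfa, smul_inv_smul]
  have eo'' : o'' = h0 • fs mb := by rw [hfb, smul_inv_smul]
  subst eo' eo''
  have hx' := (mem_smul_iff' h0 _ _).mp hp.2.1
  have hx'' := (mem_smul_iff' h0 _ _).mp hp.2.2
  have hy' := (mem_smul_iff' h0 _ _).mp hq.2.1
  have hy'' := (mem_smul_iff' h0 _ _).mp hq.2.2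
  rw [card_smul_inter, card_smul_inter, ← keyO_eq, ← keyO_eq] at h
  have hLa : ma ∈ L1604 := List.mem_filter.mpr ⟨hma, by
    rw [Bool.and_eq_true]; exact ⟨(mem_pt_fs (by norm_num)).mp hx', (mem_pt_fs (by norm_num)).mp hy'⟩⟩
  have hLb : mb ∈ L1604 := List.mem_filter.mpr ⟨hmb, by
    rw [Bool.and_eq_true]; exact ⟨(mem_pt_fs (by norm_num)).mp hx'', (mem_pt_fs (by norm_num)).mp hy''⟩⟩
  obtain ⟨g, hg, hgm⟩ := exists_smul_mask₂ (H := HOxz) (test := tOxz) (rep := fun k => r1604.getD k 0) (key := keyO)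
    hHOxz zip1604 hLa hLb h
  refine ⟨h0 * g * h0⁻¹, conj_mem hh hg.1.1.1, conj_pt h0 g hg.1.2, conj_pt h0 g hg.2, ?_, ?_⟩
  · rw [conj_smul, hg.1.1.2]
  · rw [conj_smul, hgm]

end Cfsg.Agent.S1604
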