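import Cfsg.Statements.S1605
import Mathlib
import Cfsg.Agent.Lib.H07.GolayFlag

set_option autoImplicit false
open scoped Pointwise
open Cfsg

set_option maxRecDepth 100000

namespace Cfsg.Agent.S1605

open Cfsg.Agent.H27.Golay Cfsg.Agent.H07.Orb
open scoped Pointwise

theorem c176 : countL (fun m => (bitb m 23 && (bitb m 4).not) && true) octadL = 176 := by decide +kernel
theorem c2 : countL (fun m => (bitb m 23 && (bitb m 4).not) && Nat.beq (keyO m) 2) octadL = 70 := by decide +kernel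
theorem c4 : countL (fun m => (bitb m 23 && (bitb m 4).not) && Nat.beq (keyO m) 4) octadL = 105 := by decide +kernel

theorem test_iff (k : ℕ) : ∀ m ∈ octadL, ((bitb m 23 && (bitb m 4).not) && Nat.beq (keyO m) k) = true ↔ ((pt 23 ∈ fs m ∧ pt 4 ∉ fs m) ∧ (fs O0 ∩ fs m).card = k) := by
  intro m _
  rw [Bool.and_eq_true, Bool.and_eq_true, mem_pt_fs (by norm_num), mem_pt_fs (by norm_num), beq_iff, keyO_eq]
  simp

theorem test0_iff : ∀ m ∈ octadL, ((bitb m 23 && (bitb m 4).not) && true) = true ↔ (pt 23 ∈ fs m ∧ pt 4 ∉ fs m) := by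
  intro m _
  rw [Bool.and_true, Bool.and_eq_true, mem_pt_fs (by norm_num), mem_pt_fs (by norm_num)]
  simp

theorem O0_in : pt 23 ∈ fs O0 ∧ pt 4 ∉ fs O0 := by decide +kernel

theorem fs_O0_octad' : fs O0 ∈ octads := fs_mem_octads O0_mem

/-- Two-point stabiliser transitive on the octads. -/
theorem trans_base {ma mb : ℕ} (ha : ma ∈ L1605) (hb : mb ∈ L1605) : ∃ g ∈ Hxy, g • fs ma = fs mb :=
  exists_smul_mask₂ (H := Hxy) (test := txy) (rep := fun _ => r1605b) (key := fun _ => 0)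
    hHxy zip1605b ha hb rfl

theorem exists_octad_io (p q : GolayPt) (hpq : p ≠ q) : ∃ o ∈ octads, p ∈ o ∧ q ∉ o := by
  -- move a fixed flag by two-transitivity
  obtain ⟨t1, -, f1, -, e1⟩ := level1.exists_mem (y := p) ((by decide : ∀ p : GolayPt, p ∈ fs 16777215) p)
  set a := P t1 with ha
  have haM : a ∈ M24 := by rw [← fixG_nil_eq]; exact f1
  have hq1 : a⁻¹ q ≠ pt 23 := by
    intro h
    apply hpq
    rw [← e1, ← h]
    simp
  have hq2 : a⁻¹ q ∈ fs 8388607 := by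
    have : ∀ r : GolayPt, r ≠ pt 23 → r ∈ fs 8388607 := by decide +kernel
    exact this _ hq1
  obtain ⟨t2, -, f2, -, e2⟩ := level2.exists_mem hq2
  obtain ⟨t3, -, f3, -, e3⟩ := level2.exists_mem (y := pt 4) (by decide +kernel)
  set b := P t2 with hb
  set c := P t3 with hc
  have hbM : b ∈ M24 := f2.1
  have hcM : c ∈ M24 := f3.1
  have hb23 : b (pt 23) = pt 23 := f2.2 23 (by simp)
  have hc23 : c (pt 23) = pt 23 := f3.2 23 (by simp)
  refine ⟨(a * b * c⁻¹) • fs O0, smul_mem_octads (M24.mul_mem (M24.mul_mem haM hbM) (M24.inv_mem hcM)) fs_O0_octad', ?_, ?_⟩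
  · have h1 : p = (a * b * c⁻¹) (pt 23) := by
      have : c⁻¹ (pt 23) = pt 23 := by rw [Equiv.Perm.inv_eq_iff_eq, hc23]
      rw [Equiv.Perm.mul_apply, Equiv.Perm.mul_apply, this, hb23, e1]
    rw [h1]
    exact Finset.smul_mem_smul_finset O0_in.1
  · have h1 : q = (a * b * c⁻¹) (pt 4) := by
      have : c⁻¹ (pt 4) = pt 0 := by rw [Equiv.Perm.inv_eq_iff_eq]; exact e3.symm
      rw [Equiv.Perm.mul_apply, Equiv.Perm.mul_apply, this, e2]
      simp
    rw [h1]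
    intro hc2
    exact O0_in.2 ((mem_smul_iff' _ _ _).mp hc2)


/-- The two-point stabiliser acts on the 176 octads through the first point avoiding the second with rank 3 and subdegrees 1, 70, 105 (intersections 8, 2, 4). -/
theorem result (p q : Cfsg.GolayPt) (hpq : p ≠ q) : {x : Finset Cfsg.GolayPt | (x ∈ Cfsg.octads ∧ p ∈ x ∧ q ∉ x)}.ncard = 176 ∧ (∀ o o' : Finset Cfsg.GolayPt, (o ∈ Cfsg.octads ∧ p ∈ o ∧ q ∉ o) → (o' ∈ Cfsg.octads ∧ p ∈ o' ∧ q ∉ o') → ∃ g : Equiv.Perm Cfsg.GolayPt, g ∈ Cfsg.M24 ∧ g p = p ∧ g q = q ∧ g • o = o') ∧ ∀ o : Finset Cfsg.GolayPt, (o ∈ Cfsg.octads ∧ p ∈ o ∧ q ∉ o) → {x : Finset Cfsg.GolayPt | (x ∈ Cfsg.octads ∧ p ∈ x ∧ q ∉ x) ∧ (o ∩ x).card = 2}.ncard = 70 ∧ {x : Finset Cfsg.GolayPt | (x ∈ Cfsg.octads ∧ p ∈ x ∧ q ∉ x) ∧ (o ∩ x).card = 4}.ncard = 105 ∧ ∀ o' o'' : Finset Cfsg.GolayPt, (o' ∈ Cfsg.octads ∧ p ∈ o' ∧ q ∉ o') → (o'' ∈ Cfsg.octads ∧ p ∈ o'' ∧ q ∉ o'') → (o ∩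 o').card = (o ∩ o'').card → ∃ g : Equiv.Perm Cfsg.GolayPt, g ∈ Cfsg.M24 ∧ g p = p ∧ g q = q ∧ g • o = o ∧ g • o' = o'' := by
  obtain ⟨o0, ho0, hp0, hq0⟩ := exists_octad_io p q hpq
  obtain ⟨h, hh, rfl, rfl, rfl⟩ := flag_io ho0 hp0 hq0
  have hinv := M24.inv_mem hh
  have hcnt : ∀ (o1 : Finset GolayPt) k, o1 = h • fs O0 → {x : Finset GolayPt | x ∈ octads ∧ (h (pt 23) ∈ x ∧ h (pt 4) ∉ x) ∧ (o1 ∩ x).card = k}.ncard =
      countL (fun m => (bitb m 23 && (bitb m 4).not) && Nat.beq (keyO m) k) octadL := by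
    rintro o1 k rfl
    rw [ncard_transport (h := h) (octads_iff_smul hh)]
    simp only [mem_smul_iff', card_smul_inter]
    exact ncard_octads (test_iff k)
  have hcnt0 : {x : Finset GolayPt | x ∈ octads ∧ h (pt 23) ∈ x ∧ h (pt 4) ∉ x}.ncard = 176 := by
    rw [ncard_transport (h := h) (octads_iff_smul hh)]
    simp only [mem_smul_iff']
    rw [ncard_octads test0_iff, c176]
  have hL : ∀ {x : Finset GolayPt}, x ∈ octads → h (pt 23) ∈ x → h (pt 4) ∉ x → ∃ m ∈ L1605, x = h • fs m := by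
    intro x hx h1 h2
    obtain ⟨m, hm, hf⟩ := mask_of_octad (smul_mem_octads hinv hx)
    have ex : x = h • fs m := by rw [hf, smul_inv_smul]
    subst ex
    rw [mem_smul_iff'] at h1 h2
    refine ⟨m, List.mem_filter.mpr ⟨hm, ?_⟩, rfl⟩
    rw [Bool.and_eq_true]
    refine ⟨(mem_pt_fs (by norm_num)).mp h1, ?_⟩
    have := (mem_pt_fs (m := m) (i := 4) (by norm_num)).not.mp h2
    simpa using this
  refine ⟨?_, ?_, ?_⟩
  · simpa using hcnt0
  · rintro x y ⟨hx, hx1, hx2⟩ ⟨hy, hy1, hy2⟩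
    obtain ⟨ma, hma, rfl⟩ := hL hx hx1 hx2
    obtain ⟨mb, hmb, rfl⟩ := hL hy hy1 hy2
    obtain ⟨g, hg, hgm⟩ := trans_base hma hmb
    refine ⟨h * g * h⁻¹, conj_mem hh hg.1.1, conj_pt h g hg.1.2, conj_pt h g hg.2, ?_⟩
    rw [conj_smul, hgm]
  · rintro x ⟨hx, hx1, hx2⟩
    obtain ⟨m0, hm0, rfl⟩ := hL hx hx1 hx2
    -- reduce to base flag by a two-point stabiliser element
    have hO0L : O0 ∈ L1605 := by decide +kernel
    obtain ⟨g0, hg0, hg0m⟩ := trans_base hO0L hm0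
    set h1 := h * g0 with hh1
    have hh1M : h1 ∈ M24 := M24.mul_mem hh hg0.1.1
    have e23 : h1 (pt 23) = h (pt 23) := by
      rw [hh1, Equiv.Perm.mul_apply]; congr 1; exact hg0.1.2
    have e4 : h1 (pt 4) = h (pt 4) := by
      rw [hh1, Equiv.Perm.mul_apply]; congr 1; exact hg0.2
    have eO : h • fs m0 = h1 • fs O0 := by rw [hh1, mul_smul, hg0m]
    rw [eO, ← e23, ← e4]
    have hinv1 := M24.inv_mem hh1M
    have hcnt1 : ∀ k, {y : Finset GolayPt | (y ∈ octads ∧ h1 (pt 23) ∈ y ∧ h1 (pt 4) ∉ y) ∧ (h1 • fs O0 ∩ y).card = k}.ncard =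
        countL (fun m => (bitb m 23 && (bitb m 4).not) && Nat.beq (keyO m) k) octadL := by
      intro k
      have : {y : Finset GolayPt | (y ∈ octads ∧ h1 (pt 23) ∈ y ∧ h1 (pt 4) ∉ y) ∧ (h1 • fs O0 ∩ y).card = k} =
          {y : Finset GolayPt | y ∈ octads ∧ (h1 (pt 23) ∈ y ∧ h1 (pt 4) ∉ y) ∧ (h1 • fs O0 ∩ y).card = k} := by
        ext y; simp only [Set.mem_ofPred_eq, and_assoc]
      rw [this, ncard_transport (h := h1) (octads_iff_smul hh1M)]
      simp only [mem_smul_iff', card_smul_inter]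
      exact ncard_octads (test_iff k)
    refine ⟨by rw [hcnt1, c2], by rw [hcnt1, c4], ?_⟩
    rintro y z ⟨hy, hy1, hy2⟩ ⟨hz, hz1, hz2⟩ hi
    obtain ⟨ma, hma, hfa⟩ := mask_of_octad (smul_mem_octads hinv1 hy)
    obtain ⟨mb, hmb, hfb⟩ := mask_of_octad (smul_mem_octads hinv1 hz)
    have ey : y = h1 • fs ma := by rw [hfa, smul_inv_smul]
    have ez : z = h1 • fs mb := by rw [hfb, smul_inv_smul]
    subst ey ez
    rw [mem_smul_iff'] at hy1 hy2 hz1 hz2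
    rw [card_smul_inter, card_smul_inter, ← keyO_eq, ← keyO_eq] at hi
    have hLa : ma ∈ L1605 := List.mem_filter.mpr ⟨hma, by
      rw [Bool.and_eq_true]
      refine ⟨(mem_pt_fs (by norm_num)).mp hy1, ?_⟩
      have := (mem_pt_fs (m := ma) (i := 4) (by norm_num)).not.mp hy2
      simpa using this⟩
    have hLb : mb ∈ L1605 := List.mem_filter.mpr ⟨hmb, by
      rw [Bool.and_eq_true]
      refine ⟨(mem_pt_fs (by norm_num)).mp hz1, ?_⟩
      have := (mem_pt_fs (m := mb) (i := 4) (by norm_num)).not.mp hz2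
      simpa using this⟩
    obtain ⟨g, hg, hgm⟩ := exists_smul_mask₂ (H := HOxy) (test := tOxy) (rep := fun k => r1605.getD k 0) (key := keyO)
      hHOxy zip1605 hLa hLb hi
    refine ⟨h1 * g * h1⁻¹, conj_mem hh1M hg.1.1.1, conj_pt h1 g hg.1.2, conj_pt h1 g hg.2, ?_, ?_⟩
    · rw [conj_smul, hg.1.1.2]
    · rw [conj_smul, hgm]

end Cfsg.Agent.S1605
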