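import Cfsg.Statements.S1607
import Mathlib
import Cfsg.Agent.Lib.H07.GolayFlag

set_option autoImplicit false
open scoped Pointwise
open Cfsg

set_option maxRecDepth 100000

namespace Cfsg.Agent.S1607

open Cfsg.Agent.H27.Golay Cfsg.Agent.H07.Orb
open scoped Pointwise

theorem c2 : countL (fun m => bitb m 23 && Nat.beq (keyO m) 2) octadL = 112 := by decide +kernel
theorem c4 : countL (fun m => bitb m 23 && Nat.beq (keyO m) 4) octadL = 140 := by decide +kernel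

theorem test_iff (k : ℕ) : ∀ m ∈ octadL, (bitb m 23 && Nat.beq (keyO m) k) = true ↔ (pt 23 ∈ fs m ∧ (fs O0 ∩ fs m).card = k) := by
  intro m _
  rw [Bool.and_eq_true, mem_pt_fs (by norm_num), beq_iff, keyO_eq]


/-- The point stabiliser acts on the 253 heptads of its S(4, 7, 23) with rank 3 and subdegrees 1, 112, 140 (intersections 8, 2, 4). -/
theorem result (x : Cfsg.GolayPt) (o : Finset Cfsg.GolayPt) (ho : o ∈ Cfsg.octads) (hx : x ∈ o) : {o' : Finset Cfsg.GolayPt | o' ∈ Cfsg.octads ∧ x ∈ o' ∧ (o ∩ o').card = 2}.ncard = 112 ∧ {o' : Finset Cfsg.GolayPt | o' ∈ Cfsg.octads ∧ x ∈ o' ∧ (o ∩ o').card = 4}.ncard = 140 ∧ ∀ o' o'' : Finset Cfsg.GolayPt, o' ∈ Cfsg.octads → o'' ∈ Cfsg.octads → x ∈ o' → x ∈ o'' → (o ∩ o').card = (o ∩ o'').card → ∃ g : Equiv.Perm Cfsg.GolayPt, g ∈ Cfsg.M24 ∧ g x = x ∧ g • o = o ∧ g • o' = o'' := by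
  obtain ⟨h, hh, rfl, rfl⟩ := flag_in ho hx
  have hcnt : ∀ k, {o' : Finset GolayPt | o' ∈ octads ∧ h (pt 23) ∈ o' ∧ (h • fs O0 ∩ o').card = k}.ncard =
      countL (fun m => bitb m 23 && Nat.beq (keyO m) k) octadL := by
    intro k
    rw [ncard_transport (h := h) (octads_iff_smul hh)]
    simp only [mem_smul_iff', card_smul_inter]
    exact ncard_octads (test_iff k)
  refine ⟨by rw [hcnt, c2], by rw [hcnt, c4], ?_⟩
  intro o' o'' ho' ho'' hx' hx'' hi
  have hinv := M24.inv_mem hh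
  obtain ⟨ma, hma, hfa⟩ := mask_of_octad (smul_mem_octads hinv ho')
  obtain ⟨mb, hmb, hfb⟩ := mask_of_octad (smul_mem_octads hinv ho'')
  have eo' : o' = h • fs ma := by rw [hfa, smul_inv_smul]
  have eo'' : o'' = h • fs mb := by rw [hfb, smul_inv_smul]
  subst eo' eo''
  rw [mem_smul_iff'] at hx' hx''
  rw [card_smul_inter, card_smul_inter, ← keyO_eq, ← keyO_eq] at hi
  have hLa : ma ∈ L1607 := List.mem_filter.mpr ⟨hma, (mem_pt_fs (by norm_num)).mp hx'⟩
  have hLb : mb ∈ L1607 := List.mem_filter.mpr ⟨hmb, (mem_pt_fs (by norm_num)).mp hx''⟩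
  obtain ⟨g, hg, hgm⟩ := exists_smul_mask₂ (H := HOx) (test := tOx) (rep := fun k => r1607.getD k 0) (key := keyO)
    hHOx zip1607 hLa hLb hi
  refine ⟨h * g * h⁻¹, conj_mem hh hg.1.1, conj_pt h g hg.2, ?_, ?_⟩
  · rw [conj_smul, hg.1.2]
  · rw [conj_smul, hgm]

end Cfsg.Agent.S1607
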