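import Cfsg.Statements.S1608
import Mathlib
import Cfsg.Agent.Lib.H07.GolayFlag

set_option autoImplicit false
open scoped Pointwise
open Cfsg

set_option maxRecDepth 100000

namespace Cfsg.Agent.S1608

open Cfsg.Agent.H27.Golay Cfsg.Agent.H07.Orb
open scoped Pointwise

theorem c0 : countL (fun m => (bitb m 4).not && Nat.beq (keyO m) 0) octadL = 15 := by decide +kernel
theorem c4 : countL (fun m => (bitb m 4).not && Nat.beq (keyO m) 4) octadL = 210 := by decide +kernel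
theorem c2 : countL (fun m => (bitb m 4).not && Nat.beq (keyO m) 2) octadL = 280 := by decide +kernel

theorem test_iff (k : ℕ) : ∀ m ∈ octadL, ((bitb m 4).not && Nat.beq (keyO m) k) = true ↔ (pt 4 ∉ fs m ∧ (fs O0 ∩ fs m).card = k) := by
  intro m _
  rw [Bool.and_eq_true, mem_pt_fs (by norm_num), beq_iff, keyO_eq]
  simp


/-- The point stabiliser acts on the 506 octads avoiding the point with rank 4 and subdegrees 1, 15, 210, 280, the suborbits being given by intersection size with the fixed octad. -/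
theorem result (x : Cfsg.GolayPt) (o : Finset Cfsg.GolayPt) (ho : o ∈ Cfsg.octads) (hx : x ∉ o) : {o' : Finset Cfsg.GolayPt | o' ∈ Cfsg.octads ∧ x ∉ o' ∧ (o ∩ o').card = 0}.ncard = 15 ∧ {o' : Finset Cfsg.GolayPt | o' ∈ Cfsg.octads ∧ x ∉ o' ∧ (o ∩ o').card = 4}.ncard = 210 ∧ {o' : Finset Cfsg.GolayPt | o' ∈ Cfsg.octads ∧ x ∉ o' ∧ (o ∩ o').card = 2}.ncard = 280 ∧ ∀ o' o'' : Finset Cfsg.GolayPt, o' ∈ Cfsg.octads → o'' ∈ Cfsg.octads → x ∉ o' → x ∉ o'' → (o ∩ o').card = (o ∩ o'').card → ∃ g : Equiv.Perm Cfsg.GolayPt, g ∈ Cfsg.M24 ∧ g x = x ∧ g • o = o ∧ g • o' = o'' := by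
  obtain ⟨h, hh, rfl, rfl⟩ := flag_out ho hx
  have hcnt : ∀ k, {o' : Finset GolayPt | o' ∈ octads ∧ h (pt 4) ∉ o' ∧ (h • fs O0 ∩ o').card = k}.ncard =
      countL (fun m => (bitb m 4).not && Nat.beq (keyO m) k) octadL := by
    intro k
    rw [ncard_transport (h := h) (octads_iff_smul hh)]
    simp only [mem_smul_iff', card_smul_inter]
    exact ncard_octads (test_iff k)
  refine ⟨by rw [hcnt, c0], by rw [hcnt, c4], by rw [hcnt, c2], ?_⟩
  intro o' o'' ho' ho'' hx' hx'' hi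
  have hinv := M24.inv_mem hh
  obtain ⟨ma, hma, hfa⟩ := mask_of_octad (smul_mem_octads hinv ho')
  obtain ⟨mb, hmb, hfb⟩ := mask_of_octad (smul_mem_octads hinv ho'')
  have eo' : o' = h • fs ma := by rw [hfa, smul_inv_smul]
  have eo'' : o'' = h • fs mb := by rw [hfb, smul_inv_smul]
  subst eo' eo''
  rw [mem_smul_iff'] at hx' hx''
  rw [card_smul_inter, card_smul_inter, ← keyO_eq, ← keyO_eq] at hi
  have hLa : ma ∈ L1608 := List.mem_filter.mpr ⟨hma, by
    have := (mem_pt_fs (m := ma) (i := 4) (by norm_num)).not.mp hx'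
    simpa using this⟩
  have hLb : mb ∈ L1608 := List.mem_filter.mpr ⟨hmb, by
    have := (mem_pt_fs (m := mb) (i := 4) (by norm_num)).not.mp hx''
    simpa using this⟩
  obtain ⟨g, hg, hgm⟩ := exists_smul_mask₂ (H := HOy) (test := tOy) (rep := fun k => r1608.getD k 0) (key := keyO)
    hHOy zip1608 hLa hLb hi
  refine ⟨h * g * h⁻¹, conj_mem hh hg.1.1, conj_pt h g hg.2, ?_, ?_⟩
  · rw [conj_smul, hg.1.2]
  · rw [conj_smul, hgm]

end Cfsg.Agent.S1608
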