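import Cfsg.Statements.S1610
import Mathlib
import Cfsg.Agent.Lib.H07.Hexa

set_option autoImplicit false
open Cfsg

namespace Cfsg.Agent.S1610

/-- The hexacode has 64 words, minimum weight 4, and weight distribution 0^1 4^45 6^18. -/
theorem result (F : Type*) [Field F] [Fintype F] [DecidableEq F] (hF : Fintype.card F = 4) (ω : F) (hω : ω ^ 2 + ω + 1 = 0) : Nat.card ↥(Cfsg.hexacode F ω) = 64 ∧ (∀ x ∈ Cfsg.hexacode F ω, x ≠ 0 → (Finset.univ.filter fun i => x i ≠ 0).card = 4 ∨ (Finset.univ.filter fun i => x i ≠ 0).card = 6) ∧ {x : Fin 6 → F | x ∈ Cfsg.hexacode F ω ∧ (Finset.univ.filter fun i => x i ≠ 0).card = 4}.ncard = 45 ∧ {x : Fin 6 → F | x ∈ Cfsg.hexacode F ω ∧ (Finset.univ.filter fun i => x i ≠ 0).card = 6}.ncard = 18 := by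
  classical
  open Cfsg.Agent.H07.Hexa in
  have hset : ∀ n : ℕ, {x : Fin 6 → F | x ∈ Cfsg.hexacode F ω ∧ (Finset.univ.filter fun i => x i ≠ 0).card = n} =
      encF ω '' (↑(Finset.univ.filter fun c : P3 => wt c = n) : Set P3) := by
    intro n
    ext x
    constructor
    · rintro ⟨hx, hn⟩
      obtain ⟨c, rfl⟩ := (mem_hexacode_iff hF ω hω x).mp hx
      rw [support_encF hF ω hω] at hn
      exact ⟨c, Finset.mem_coe.mpr (Finset.mem_filter.mpr ⟨Finset.mem_univ _, hn⟩), rfl⟩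
    · rintro ⟨c, hc, rfl⟩
      refine ⟨(mem_hexacode_iff hF ω hω _).mpr ⟨c, rfl⟩, ?_⟩
      rw [support_encF hF ω hω]
      exact (Finset.mem_filter.mp (Finset.mem_coe.mp hc)).2
  open Cfsg.Agent.H07.Hexa in
  have hinj := encF_injective hF ω hω
  open Cfsg.Agent.H07.Hexa in
  refine ⟨?_, ?_, ?_, ?_⟩
  · have e : P3 ≃ ↥(Cfsg.hexacode F ω) := Equiv.ofBijective (fun c => ⟨encF ω c, (mem_hexacode_iff hF ω hω _).mpr ⟨c, rfl⟩⟩) (by
      constructor
      · intro c c' h
        exact hinj (congrArg Subtype.val h)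
      · rintro ⟨x, hx⟩
        obtain ⟨c, rfl⟩ := (mem_hexacode_iff hF ω hω x).mp hx
        exact ⟨c, rfl⟩)
    rw [← Nat.card_congr e]
    simp [Nat.card_eq_fintype_card]
  · intro x hx hne
    obtain ⟨c, rfl⟩ := (mem_hexacode_iff hF ω hω x).mp hx
    have hc : c ≠ (0, 0, 0) := by
      rintro rfl
      apply hne
      funext p
      simp [encF, enc_zero, phi_zero]
    rw [support_encF hF ω hω]
    exact wt_cases c hc
  · rw [hset, Set.ncard_image_of_injective _ hinj, Set.ncard_coe_finset]; exact wt4_card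
  · rw [hset, Set.ncard_image_of_injective _ hinj, Set.ncard_coe_finset]; exact wt6_card

end Cfsg.Agent.S1610
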