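import Cfsg.Statements.S1611
import Mathlib
import Cfsg.Agent.Lib.H07.Hexa2

set_option autoImplicit false
open Cfsg

namespace Cfsg.Agent.S1611

/-- The monomial automorphism group of the hexacode has order 1080: its diagonal part is the scalars and its permutation parts form the alternating group of degree 6. -/
theorem result (F : Type*) [Field F] [Fintype F] [DecidableEq F] (hF : Fintype.card F = 4) (ω : F) (hω : ω ^ 2 + ω + 1 = 0) : Nat.card {f : Equiv.Perm (Fin 6) × (Fin 6 → Fˣ) // (∀ x ∈ Cfsg.hexacode F ω, Cfsg.monomialMap f.1 f.2 x ∈ Cfsg.hexacode F ω)} = 1080 ∧ (∀ c : Fin 6 → Fˣ, (∀ x ∈ Cfsg.hexacode F ω, Cfsg.monomialMap 1 c x ∈ Cfsg.hexacode F ω) → ∀ i j, c i = c j) ∧ {σ : Equiv.Perm (Fin 6) | ∃ c : Fin 6 → Fˣ, (∀ x ∈ Cfsg.hexacode F ω, Cfsg.monomialMap σ c x ∈ Cfsg.hexacode F ω)} = (alternatingGroup (Fin 6) : Set (Equiv.Perm (Fin 6))) := by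
  classical
  open Cfsg.Agent.H07.Hexa in
  have hmon := mon_iff_even hF ω hω
  open Cfsg.Agent.H07.Hexa in
  refine ⟨?_, fun c hc i j => diag_const hF ω hω c hc i j, ?_⟩
  · -- counting
    have hlift : ∀ σ : alternatingGroup (Fin 6), ∃ c, Mon ω (σ : Equiv.Perm (Fin 6)) c := fun σ =>
      (hmon _).mpr (Equiv.Perm.mem_alternatingGroup.mp σ.2)
    choose lift hlift using hlift
    let g : alternatingGroup (Fin 6) × Fˣ →
        {f : Equiv.Perm (Fin 6) × (Fin 6 → Fˣ) // (∀ x ∈ Cfsg.hexacode F ω, Cfsg.monomialMap f.1 f.2 x ∈ Cfsg.hexacode F ω)} :=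
      fun p => ⟨((p.1 : Equiv.Perm (Fin 6)), fun i => p.2 * lift p.1 i), mon_smul ω (hlift p.1) p.2⟩
    have hg : Function.Bijective g := by
      constructor
      · rintro ⟨σ, a⟩ ⟨τ, b⟩ h
        have h1 := congrArg Subtype.val h
        have h2 : (σ : Equiv.Perm (Fin 6)) = τ := congrArg Prod.fst h1
        have h3 : σ = τ := Subtype.ext h2
        subst h3
        have h4 : (fun i => a * lift σ i) = (fun i => b * lift σ i) := congrArg Prod.snd h1
        have h5 := congrFun h4 0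
        have h6 : a = b := mul_right_cancel h5
        rw [h6]
      · rintro ⟨⟨σ, c⟩, hc⟩
        have hσ : σ ∈ alternatingGroup (Fin 6) := Equiv.Perm.mem_alternatingGroup.mpr ((hmon σ).mp ⟨c, hc⟩)
        refine ⟨(⟨σ, hσ⟩, c 0 * (lift ⟨σ, hσ⟩ 0)⁻¹), ?_⟩
        apply Subtype.ext
        refine Prod.ext rfl ?_
        funext i
        have := ratio hF ω hω (hlift ⟨σ, hσ⟩) hc i 0
        apply Units.ext
        simp only [Units.val_mul]
        have h0 : ((lift ⟨σ, hσ⟩ 0 : Fˣ) : F) ≠ 0 := (lift ⟨σ, hσ⟩ 0).ne_zero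
        show ((c 0 : F) * (((lift ⟨σ, hσ⟩ 0)⁻¹ : Fˣ) : F)) * (lift ⟨σ, hσ⟩ i) = c i
        rw [Units.val_inv_eq_inv_val]
        field_simp
        linear_combination -this
    rw [← Nat.card_congr (Equiv.ofBijective g hg), Nat.card_prod, Nat.card_eq_fintype_card, Nat.card_eq_fintype_card,
      Fintype.card_units, hF]
    have := two_mul_nat_card_alternatingGroup (α := Fin 6)
    rw [Nat.card_eq_fintype_card, Nat.card_eq_fintype_card (α := Equiv.Perm (Fin 6)), Fintype.card_perm, Fintype.card_fin] at this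
    have h720 : Nat.factorial 6 = 720 := by decide
    omega
  · ext σ
    simp only [Set.mem_setOf_eq, SetLike.mem_coe, Equiv.Perm.mem_alternatingGroup]
    exact hmon σ

end Cfsg.Agent.S1611
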