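import Cfsg.Statements.S1612
import Cfsg.Agent.Lib.H08.Fis.Max
-- import your own Cfsg.Agent.* helpers here

set_option autoImplicit false
open Cfsg

namespace Cfsg.Agent.S1612

open Cfsg.Agent.H25 Cfsg.Agent.H08.Fis


/-- In a 3-transposition group (no solvable normal subgroup, perfect derived group), the normaliser of a commuting set of transpositions of maximum size contains a Sylow 2-subgroup and is doubly transitive on the set. -/
theorem result {G : Type*} [Group G] [Finite G] (hsol : ∀ N : Subgroup G, N.Normal → Group.IsSolvable ↥N → N = ⊥) (hperf : ⁅commutator G, commutator G⁆ = commutator G) {D : Set G} (hD : Cfsg.IsThreeTranspositionClass D) {E : Set G} (hE : E ⊆ D) (hc : ∀ a ∈ E, ∀ b ∈ E, Commute a b) (hmax : ∀ E' : Set G, E' ⊆ D → (∀ a ∈ E', ∀ b ∈ E', Commute a b) → E'.ncard ≤ E.ncard) : (∃ P : Sylow 2 G, (P : Subgroup G) ≤ Subgroup.normalizer E) ∧ ∀ a ∈ E, ∀ b ∈ E, ∀ c ∈ E, ∀ d ∈ E, a ≠ b → c ≠ d → ∃ g ∈ Subgroup.normalizer E, g * a * g⁻¹ = c ∧ g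 * b * g⁻¹ = d := by
  have hT := TTS.of_class hD
  refine ⟨sylow_normalizes hT hE hc hmax, ?_⟩
  intro a ha b hb c hc' d hd hab hcd
  have hw : ∃ a ∈ D, ∃ b ∈ D, a ≠ b ∧ Commute a b := ⟨a, hE ha, b, hE hb, hab, hc a ha b hb⟩
  have hcore : ∀ (p : ℕ) [Fact p.Prime], Cfsg.pCore p G = ⊥ := by
    intro p _
    haveI hn : (Cfsg.pCore p G).Normal := H01.pCore_normal p
    haveI := (H01.pCore_isPGroup (G := G) p).isNilpotent
    exact hsol _ hn inferInstance
  haveI : Fact (Nat.Prime 3) := ⟨Nat.prime_three⟩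
  have hprim : ∀ B : Set G, B ⊆ D → IsBlock B → B.Subsingleton ∨ B = D := by
    have hconn := connected_of_perfect hD hperf hw
    exact (prim_of_cores_connected hD hw (by rw [hcore 2]; exact bot_le) (by rw [hcore 3]; exact bot_le) hconn).2.2
  exact normalizer_two_trans hD (t1_of_blocks hD hw hprim) hE hc hmax ha hb hc' hd hab hcd

end Cfsg.Agent.S1612
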