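import Cfsg.Statements.S1613
import Cfsg.Agent.Lib.H08.Fis.Prim
-- import your own Cfsg.Agent.* helpers here

set_option autoImplicit false
open Cfsg

namespace Cfsg.Agent.S1613

open Cfsg.Agent.H25 Cfsg.Agent.H08.Fis


/-- For a transposition x of a Fischer 3-transposition group, the transpositions commuting with x (other than x) form one conjugacy class of the subgroup they generate. -/
theorem result {G : Type*} [Group G] [Finite G] (hsol : ∀ N : Subgroup G, N.Normal → Group.IsSolvable ↥N → N = ⊥) (hperf : ⁅commutator G, commutator G⁆ = commutator G) {D : Set G} (hD : Cfsg.IsThreeTranspositionClass D) (x : G) (hx : x ∈ D) : ∀ y ∈ {y : G | y ∈ D ∧ y ≠ x ∧ Commute x y}, ∀ y' ∈ {y : G | y ∈ D ∧ y ≠ x ∧ Commute x y}, ∃ g ∈ Subgroup.closure {y : G | y ∈ D ∧ y ≠ x ∧ Commute x y}, g * y * g⁻¹ = y' := by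
  intro y₀ h0 y₁ h1
  have hw : ∃ a ∈ D, ∃ b ∈ D, a ≠ b ∧ Commute a b := ⟨x, hx, y₀, h0.1, h0.2.1.symm, h0.2.2⟩
  have hcore : ∀ (p : ℕ) [Fact p.Prime], Cfsg.pCore p G = ⊥ := by
    intro p _
    haveI hn : (Cfsg.pCore p G).Normal := H01.pCore_normal p
    haveI := (H01.pCore_isPGroup (G := G) p).isNilpotent
    exact hsol _ hn inferInstance
  haveI : Fact (Nat.Prime 3) := ⟨Nat.prime_three⟩
  have hprim : ∀ B : Set G, B ⊆ D → IsBlock B → B.Subsingleton ∨ B = D := by
    have hconn := connected_of_perfect hD hperf hw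
    exact (prim_of_cores_connected hD hw (by rw [hcore 2]; exact bot_le) (by rw [hcore 3]; exact bot_le) hconn).2.2
  exact t1_of_blocks hD hw hprim x hx y₀ h0 y₁ h1

end Cfsg.Agent.S1613
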