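import Cfsg.Statements.S1622
import Cfsg.Agent.Lib.H02.JG

set_option autoImplicit false
open Quaternion
open Cfsg

namespace Cfsg.Agent.S1622



/-- The reflection group is transitive on its 315 reflections by conjugation. -/
theorem result (f f' : Equiv.Perm ↥Cfsg.Spor.icoLeech) (hf : Cfsg.Spor.IsIcoReflection f) (hf' : Cfsg.Spor.IsIcoReflection f') : ∃ g ∈ Cfsg.Spor.twoJ2, g * f * g⁻¹ = f' := by
  exact Cfsg.Agent.H02.JG.refl_trans f f' hf hf'

end Cfsg.Agent.S1622
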