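import Mathlib
import Cfsg.Agent.Lib.H01.Om3T
import Cfsg.Statements.S1630
-- import your own Cfsg.Agent.* helpers here

set_option autoImplicit false
open scoped MatrixGroups
open Cfsg

namespace Cfsg.Agent.S1630


/-- The orthogonal transvections of the minus-type orthogonal group in dimension ≥ 6 over the field with two elements form a generating conjugacy class of 3-transpositions. -/
theorem result (m : ℕ) (hm : 2 ≤ m) : Cfsg.IsThreeTranspositionClass {g : ↥(Cfsg.isometryGroup (ZMod 2) (Cfsg.quadFormMinus m (ZMod 2) 1 1)) | (((g : GL ((Fin m ⊕ Fin m) ⊕ Fin 2) (ZMod 2)) : Matrix ((Fin m ⊕ Fin m) ⊕ Fin 2) ((Fin m ⊕ Fin m) ⊕ Fin 2) (ZMod 2)) - 1).rank = 1} := by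
  obtain ⟨m', rfl⟩ : ∃ m', m = m' + 1 := ⟨m - 1, by omega⟩
  have hab : ∀ z₁ z₂ : ZMod 2, z₁ ^ 2 + 1 * z₁ * z₂ + 1 * z₂ ^ 2 = 0 → z₁ = 0 ∧ z₂ = 0 := by decide
  exact Cfsg.Agent.H01.Om.three_class (Cfsg.Agent.Lead.Ortho.qfMinus (m' + 1) 1 1) (Cfsg.Agent.Lead.Ortho.ndMinus (m' + 1) 1 1 hab)
    (by simp only [Fintype.card_sum, Fintype.card_fin]; omega) (Cfsg.Agent.Lead.Omega.frameMinus_HF 1 1 (m' + 1)) (Cfsg.Agent.Lead.Omega.frameMinus_anis 1 1 hab (m' + 1))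


end Cfsg.Agent.S1630
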