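import Mathlib
import Cfsg.Agent.Lib.H27.GeoSUGen
import Cfsg.Statements.S1631
-- import your own Cfsg.Agent.* helpers here

set_option autoImplicit false
open scoped MatrixGroups
open Cfsg

namespace Cfsg.Agent.S1631

open Matrix Cfsg.Agent.Lead

section

variable {F : Type} [Field F] [Fintype F] {n : ℕ}

local notation "herm" => Cfsg.hermForm n F 2

abbrev mat (g : Cfsg.SU n F 2) : Matrix (Fin n) (Fin n) F :=
  ((g : SpecialLinearGroup (Fin n) F) : Matrix (Fin n) (Fin n) F)

lemma two_eq (hF : Fintype.card F = 2 ^ 2) : (2 : F) = 0 := by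
  have h := FiniteField.pow_card (-1 : F)
  rw [hF] at h
  have e : (-1 : F) ^ (2 ^ 2) = 1 := by norm_num
  rw [e] at h
  linear_combination h

lemma hc1 (hF : Fintype.card F = 2 ^ 2) : (1 : F) ^ 2 + 1 = 0 := by
  linear_combination two_eq hF

noncomputable def T (hF : Fintype.card F = 2 ^ 2) (u : Fin n → F) (hu : herm u u = 0) : Cfsg.SU n F 2 :=
  uT hF u 1 hu (hc1 hF)

lemma su_ext {g k : Cfsg.SU n F 2} (H : ∀ x : Fin n → F, mat g *ᵥ x = mat k *ᵥ x) : g = k :=
  Subtype.ext (Subtype.ext (Matrix.mulVec_injective (funext H)))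

lemma act_mul (g k : Cfsg.SU n F 2) (x : Fin n → F) : mat (g * k) *ᵥ x = mat g *ᵥ (mat k *ᵥ x) :=
  (Matrix.mulVec_mulVec _ _ _).symm

lemma act_one (x : Fin n → F) : mat (1 : Cfsg.SU n F 2) *ᵥ x = x := Matrix.one_mulVec x

lemma act_T (hF : Fintype.card F = 2 ^ 2) (u : Fin n → F) (hu : herm u u = 0) (x : Fin n → F) :
    mat (T hF u hu) *ᵥ x = x + herm x u • u := by
  have := uTmat_mulVec (q := 2) u (1 : F) x
  rw [one_mul] at this
  exact this

lemma herm_zero_left (x : Fin n → F) : herm 0 x = 0 := by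
  simp [Cfsg.hermForm]

lemma T_sq (hF : Fintype.card F = 2 ^ 2) (u : Fin n → F) (hu : herm u u = 0) :
    T hF u hu * T hF u hu = 1 := by
  refine su_ext fun x => ?_
  rw [act_mul, act_one, act_T, act_T, herm_add_left, herm_smul_left, hu, mul_zero, add_zero]
  funext i
  simp only [Pi.add_apply, Pi.smul_apply, smul_eq_mul]
  linear_combination (herm x u * u i) * two_eq hF

lemma rank_T (hF : Fintype.card F = 2 ^ 2) (u : Fin n → F) (hu : herm u u = 0) (hu0 : u ≠ 0) :
    (mat (T hF u hu) - 1).rank = 1 := by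
  have hm : mat (T hF u hu) - 1 = vecMulVec u (fun j => u j ^ 2) := by
    change uTmat 2 u 1 - 1 = _
    simp [uTmat]
  rw [hm]
  apply le_antisymm (Matrix.rank_vecMulVec_le _ _)
  by_contra hlt
  have h0 : (vecMulVec u (fun j => u j ^ 2)).rank = 0 := by omega
  unfold Matrix.rank at h0
  rw [Submodule.finrank_eq_zero] at h0
  obtain ⟨x, hx⟩ := H12.UTrans.exists_herm_one (q := 2) hF hu0
  have h1 : herm x u = 1 := by
    rw [herm_conj hF u x, hx, one_pow]
  have h4 : (vecMulVec u (fun j => u j ^ 2)) *ᵥ x ∈ LinearMap.range (vecMulVec u (fun j => u j ^ 2)).mulVecLin := ⟨x, rfl⟩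
  rw [h0, Submodule.mem_bot, ← hm, Matrix.sub_mulVec, Matrix.one_mulVec, act_T, h1, one_smul] at h4
  exact hu0 (by simpa using h4)

lemma T_ne (hF : Fintype.card F = 2 ^ 2) (u : Fin n → F) (hu : herm u u = 0) (hu0 : u ≠ 0) :
    T hF u hu ≠ 1 := by
  intro e
  have := rank_T hF u hu hu0
  rw [e] at this
  simp [mat] at this

lemma T_congr (hF : Fintype.card F = 2 ^ 2) {u v : Fin n → F} (hu : herm u u = 0) (hv : herm v v = 0) (e : u = v) :
    T hF u hu = T hF v hv := by
  subst e; rfl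

lemma mem_form (hF : Fintype.card F = 2 ^ 2) (g : Cfsg.SU n F 2) (hr : (mat g - 1).rank = 1) :
    ∃ u, ∃ hu : herm u u = 0, u ≠ 0 ∧ g = T hF u hu := by
  classical
  have hr' := hr
  unfold Matrix.rank at hr'
  obtain ⟨⟨a, x₀, hx₀⟩, hv0, hv⟩ := finrank_eq_one_iff'.1 hr'
  have hcol : ∀ j, ∃ c : F, c • a = (mat g - 1) *ᵥ Pi.single j 1 := fun j => by
    obtain ⟨c, hc⟩ := hv ⟨_, ⟨Pi.single j 1, rfl⟩⟩
    exact ⟨c, congrArg Subtype.val hc⟩
  choose c hc using hcol
  have hN : mat g - 1 = vecMulVec a c := by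
    ext i j
    have := congrFun (hc j) i
    rw [Matrix.mulVec_single_one] at this
    simp only [Pi.smul_apply, smul_eq_mul, Matrix.col_apply] at this
    rw [← this, vecMulVec_apply, mul_comm]
  have hg1 : mat g = 1 + replicateCol Unit a * replicateRow Unit c := by
    have : replicateCol Unit a * replicateRow Unit c = vecMulVec a c := by
      ext i j
      simp [Matrix.mul_apply, vecMulVec_apply]
    rw [this, ← hN]
    abel
  have hdet := Matrix.det_one_add_replicateCol_mul_replicateRow (ι := Unit) a c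
  rw [← hg1] at hdet
  have hdet1 : (mat g).det = 1 := (g : SpecialLinearGroup (Fin n) F).2
  rw [hdet1] at hdet
  have hca : c ⬝ᵥ a = 0 := by linear_combination -hdet
  have hsq : (mat g - 1) * (mat g - 1) = 0 := by
    rw [hN, vecMulVec_mul_vecMulVec, hca, zero_smul]
    ext i j
    simp [vecMulVec_apply]
  obtain ⟨u, b, hu0, hu, hb0, hb, hgu⟩ := H12.UTrans.transvection_normal_form (q := 2) hF (mat g)
    (fun x y => g.2 x y) ⟨hr, hsq⟩
  have hb1 : b = 1 := by
    have : b * (b + 1) = 0 := by linear_combination hb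
    rcases mul_eq_zero.1 this with h | h
    · exact absurd h hb0
    · linear_combination h - two_eq hF
  subst hb1
  refine ⟨u, hu, hu0, su_ext fun x => ?_⟩
  rw [act_T, hgu]
  have := uTmat_mulVec (q := 2) u (1 : F) x
  rw [one_mul] at this
  exact this

lemma T_conj (hF : Fintype.card F = 2 ^ 2) (g : Cfsg.SU n F 2) (u : Fin n → F) (hu : herm u u = 0)
    (hu' : herm (mat g *ᵥ u) (mat g *ᵥ u) = 0) :
    g * T hF u hu * g⁻¹ = T hF (mat g *ᵥ u) hu' := by
  refine su_ext fun x => ?_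
  rw [act_mul, act_mul, act_T, act_T, Matrix.mulVec_add, Matrix.mulVec_smul, ← act_mul, mul_inv_cancel, act_one]
  congr 2
  have h := g.2 (mat g⁻¹ *ᵥ x) u
  have e : mat g *ᵥ (mat g⁻¹ *ᵥ x) = x := by
    rw [← act_mul, mul_inv_cancel, act_one]
  change herm (mat g *ᵥ (mat g⁻¹ *ᵥ x)) (mat g *ᵥ u) = _ at h
  rw [e] at h
  exact h.symm

/-- coordinates of the product of two transvections -/
lemma step (hF : Fintype.card F = 2 ^ 2) {u v : Fin n → F} (hu : herm u u = 0) (hv : herm v v = 0)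
    (w : Fin n → F) :
    mat (T hF u hu * T hF v hv) *ᵥ w = w + herm w v • v + (herm w u + herm w v * herm v u) • u ∧
    herm (mat (T hF u hu * T hF v hv) *ᵥ w) v = herm w v + (herm w u + herm w v * herm v u) * herm u v ∧
    herm (mat (T hF u hu * T hF v hv) *ᵥ w) u = herm w u + herm w v * herm v u := by
  have e : mat (T hF u hu * T hF v hv) *ᵥ w = w + herm w v • v + (herm w u + herm w v * herm v u) • u := by
    rw [act_mul, act_T, act_T, herm_add_left, herm_smul_left]
  refine ⟨e, ?_, ?_⟩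
  · rw [e]
    simp only [herm_add_left, herm_smul_left, hv, hu]
    ring
  · rw [e]
    simp only [herm_add_left, herm_smul_left, hv, hu]
    ring

lemma T_comm_sq (hF : Fintype.card F = 2 ^ 2) {u v : Fin n → F} (hu : herm u u = 0) (hv : herm v v = 0)
    (huv : herm u v = 0) : (T hF u hu * T hF v hv) ^ 2 = 1 := by
  have hvu : herm v u = 0 := by
    rw [herm_conj hF u v, huv]; simp
  rw [sq]
  refine su_ext fun x => ?_
  rw [act_mul, act_one]
  obtain ⟨e1, e2, e3⟩ := step hF hu hv x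
  obtain ⟨f1, -, -⟩ := step hF hu hv (mat (T hF u hu * T hF v hv) *ᵥ x)
  rw [f1, e2, e3, e1, huv, hvu]
  funext i
  simp only [Pi.add_apply, Pi.smul_apply, smul_eq_mul]
  linear_combination (herm x v * v i + herm x u * u i) * two_eq hF

lemma T_cube (hF : Fintype.card F = 2 ^ 2) {u v : Fin n → F} (hu : herm u u = 0) (hv : herm v v = 0)
    (huv : herm u v ≠ 0) : (T hF u hu * T hF v hv) ^ 3 = 1 := by
  set c := herm u v with hc
  have hcc : herm v u = c ^ 2 := by
    rw [herm_conj hF u v]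
  have hc3 : c * c ^ 2 = 1 := by
    have h := FiniteField.pow_card_sub_one_eq_one c huv
    rw [hF] at h
    rw [← h]
    ring
  have h2 := two_eq hF
  rw [pow_succ, pow_succ, pow_one]
  refine su_ext fun x => ?_
  rw [act_mul, act_mul, act_one]
  obtain ⟨e1, e2, e3⟩ := step hF hu hv x
  set x₁ := mat (T hF u hu * T hF v hv) *ᵥ x with hx₁
  obtain ⟨f1, f2, f3⟩ := step hF hu hv x₁
  set x₂ := mat (T hF u hu * T hF v hv) *ᵥ x₁ with hx₂
  obtain ⟨g1, -, -⟩ := step hF hu hv x₂
  rw [g1, f2, f3, f1, e2, e3, e1, hcc, ← hc]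
  funext i
  simp only [Pi.add_apply, Pi.smul_apply, smul_eq_mul]
  set A := herm x v
  set B := herm x u
  linear_combination (v i) * ((4*A + A*(c^3+1) + B*c) * hc3 + (4*A + 2*B*c) * h2) + (u i) * ((5*A*c^2 + A*c^2*(c^3+1) + 4*B + B*(c^3+1)) * hc3 + (4*B + 6*A*c^2) * h2)

end


/-- The unitary transvections of SU(n, 2), n ≥ 4, form a generating conjugacy class of 3-transpositions. -/
theorem result (F : Type) [Field F] [Fintype F] [DecidableEq F] (hF : Fintype.card F = 4) (n : ℕ) (hn : 4 ≤ n) : Cfsg.IsThreeTranspositionClass {g : ↥(Cfsg.SU n F 2) | (((g : Matrix.SpecialLinearGroup (Fin n) F) : Matrix (Fin n) (Fin n) F) - 1).rank = 1} := by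

  classical
  obtain ⟨σ, hS⟩ := Cfsg.Agent.H28.exists_hs (q := 2) hF
  have hval : ∀ (c : Cfsg.SU n F 2) (u : Fin n → F), Cfsg.hermForm n F 2 (mat c *ᵥ u) (mat c *ᵥ u) = Cfsg.hermForm n F 2 u u :=
    fun c u => c.2 u u
  have hnz : ∀ (c : Cfsg.SU n F 2) (u : Fin n → F), u ≠ 0 → mat c *ᵥ u ≠ 0 := by
    intro c u hu e
    apply hu
    have : mat c⁻¹ *ᵥ (mat c *ᵥ u) = u := by
      rw [← act_mul, inv_mul_cancel, act_one]
    rw [← this, e, Matrix.mulVec_zero]
  refine ⟨⟨?_, ?_⟩, ?_, ?_⟩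
  · intro d hd
    obtain ⟨u, hu, hu0, rfl⟩ := mem_form hF d hd
    exact orderOf_eq_prime (by rw [sq, T_sq]) (T_ne hF u hu hu0)
  · intro d hd e he
    obtain ⟨u, hu, hu0, rfl⟩ := mem_form hF d hd
    obtain ⟨v, hv, hv0, rfl⟩ := mem_form hF e he
    by_cases huv : Cfsg.hermForm n F 2 u v = 0
    · exact Or.inl (T_comm_sq hF hu hv huv)
    · exact Or.inr (T_cube hF hu hv huv)
  · obtain ⟨u₀, -, hu₀0, hu₀⟩ := Cfsg.Agent.H27.SG.exists_iso (n := n) hS (Cfsg.Agent.H27.SG.nd_top hS)
      (by rw [finrank_top, Cfsg.Agent.H27.SG.finrank_V]; omega)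
    refine ⟨T hF u₀ hu₀, rank_T hF u₀ hu₀ hu₀0, ?_⟩
    ext g
    constructor
    · intro hg
      obtain ⟨v, hv, hv0, rfl⟩ := mem_form hF g hg
      obtain ⟨c, hc⟩ := H12.UTrans.exists_SU_map (q := 2) hF (by omega) hu₀0 hv0 hu₀ hv
      refine isConj_iff.2 ⟨c, ?_⟩
      have hc' : mat c *ᵥ u₀ = v := hc
      rw [T_conj hF c u₀ hu₀ (by rw [hval]; exact hu₀)]
      exact T_congr hF _ _ hc'
    · intro hg
      obtain ⟨c, hc⟩ := isConj_iff.1 hg
      rw [Set.mem_setOf_eq, ← hc, T_conj hF c u₀ hu₀ (by rw [hval]; exact hu₀)]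
      exact rank_T hF _ _ (hnz c u₀ hu₀0)
  · let ι : Cfsg.SU n F 2 →* GL (Fin n) F :=
      (Matrix.SpecialLinearGroup.toGL).comp (Subgroup.subtype _)
    have hinj : Function.Injective ι := by
      intro a b e
      refine Subtype.ext (Subtype.ext ?_)
      exact congrArg (fun g : GL (Fin n) F => (g : Matrix (Fin n) (Fin n) F)) e
    have hT : Cfsg.Agent.H27.SG.AllT hS ((Subgroup.closure {g : ↥(Cfsg.SU n F 2) | (((g : Matrix.SpecialLinearGroup (Fin n) F) : Matrix (Fin n) (Fin n) F) - 1).rank = 1}).map ι) := by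
      intro u hu a ha
      have hone : ∀ (e : (∀ x : Fin n → F, x + (a * Cfsg.hermForm n F 2 x u) • u = x)), Cfsg.Agent.H28.ut hS hu a = 1 := by
        intro e
        apply Units.ext
        apply Matrix.mulVec_injective
        funext x
        rw [Cfsg.Agent.H28.ut_mulVec, e]
        simp
      by_cases hu0 : u = 0
      · rw [hone (fun x => by rw [hu0]; simp)]
        exact Subgroup.one_mem _
      by_cases ha0 : a = 0
      · rw [hone (fun x => by rw [ha0]; simp)]
        exact Subgroup.one_mem _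
      have ha1 : a = 1 := by
        rw [hS.pow a] at ha
        have : a * (a + 1) = 0 := by linear_combination ha
        rcases mul_eq_zero.1 this with h | h
        · exact absurd h ha0
        · linear_combination h - two_eq hF
      subst ha1
      refine ⟨T hF u hu, Subgroup.subset_closure (rank_T hF u hu hu0), ?_⟩
      apply Units.ext
      apply Matrix.mulVec_injective
      funext x
      rw [Cfsg.Agent.H28.ut_mulVec, one_mul]
      exact act_T hF u hu x
    rw [eq_top_iff]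
    rintro g -
    have hg : ι g ∈ Cfsg.Agent.H28.GSU n F 2 := by
      refine ⟨fun x y => g.2 x y, ?_⟩
      refine MonoidHom.mem_ker.2 (Units.ext ?_)
      exact (g : Matrix.SpecialLinearGroup (Fin n) F).2
    obtain ⟨x, hx, e⟩ := Cfsg.Agent.H27.SG.gsu_le hS hn hT hg
    rw [← hinj e]
    exact hx


end Cfsg.Agent.S1631
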