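import Cfsg.Statements.S1635
import Mathlib
import Cfsg.Agent.Lib.H07.GolayCoset
import Cfsg.Agent.S1550

set_option autoImplicit false
open Cfsg

namespace Cfsg.Agent.S1635

open Cfsg.Agent.H27.Golay Cfsg.Agent.H07.Coset

/-- The word of a subset. -/
noncomputable def wOf (t : Finset GolayPt) : GolayPt → ZMod 2 := wd (maskOf t)

theorem support_wOf (t : Finset GolayPt) : support₂ (wOf t) = t := by
  rw [wOf, support_wd, fs_maskOf]

theorem wOf_support (v : GolayPt → ZMod 2) : wOf (support₂ v) = v := wd_support v

theorem wOf_mem {s : Finset GolayPt} (hs : s ∈ supports (golayCode : Set (GolayPt → ZMod 2))) :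
    wOf s ∈ golayCode :=
  (wd_mem_iff (maskOf_lt s)).mpr ((mem_supports_iff s).mp hs)

theorem support_add (a b : GolayPt → ZMod 2) :
    support₂ (a + b) = symmDiff (support₂ a) (support₂ b) := by
  have key : ∀ x y : ZMod 2, x + y ≠ 0 ↔ (x ≠ 0 ∧ ¬ y ≠ 0) ∨ (y ≠ 0 ∧ ¬ x ≠ 0) := by decide
  ext p
  simp only [support₂, Pi.add_apply, Finset.mem_filter, Finset.mem_univ, true_and, Finset.mem_symmDiff]
  exact key _ _

theorem card_symmDiff_add (s t : Finset GolayPt) :
    (symmDiff s t).card + 2 * (s ∩ t).card = s.card + t.card := by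
  have h1 : symmDiff s t = (s \ t) ∪ (t \ s) := rfl
  have h2 : Disjoint (s \ t) (t \ s) := by
    rw [Finset.disjoint_left]
    intro p hp hp'
    exact (Finset.mem_sdiff.mp hp).2 (Finset.mem_sdiff.mp hp').1
  have h3 := Finset.card_sdiff_add_card_inter s t
  have h4 := Finset.card_sdiff_add_card_inter t s
  rw [h1, Finset.card_union_of_disjoint h2, Finset.inter_comm t s] at *
  omega

theorem add_self' (a : GolayPt → ZMod 2) : a + a = 0 := by
  funext p
  exact CharTwo.add_self_eq_zero _

theorem pair {w v v' : GolayPt → ZMod 2} (h : hammingNorm v ≤ 4) (h' : hammingNorm v' ≤ 4)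
    (hc : w - v ∈ golayCode) (hc' : w - v' ∈ golayCode) :
    v = v' ∨ ((support₂ v).card = 4 ∧ (support₂ v').card = 4 ∧ Disjoint (support₂ v) (support₂ v') ∧
      support₂ v ∪ support₂ v' ∈ octads) := by
  have hz : v + v' ∈ golayCode := by
    have := golayCode.add_mem hc hc'
    rw [sub_eq_add', sub_eq_add'] at this
    have e : w + v + (w + v') = v + v' + (w + w) := by abel
    rw [e, add_self', add_zero] at this
    exact this
  have hs : support₂ (v + v') ∈ supports (golayCode : Set (GolayPt → ZMod 2)) := ⟨_, hz, rfl⟩
  rw [hammingNorm_eq] at h h'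
  rcases supports_weights hs with h0 | ⟨h8, -⟩
  · left
    funext p
    have hp : p ∉ support₂ (v + v') := by rw [h0]; simp
    simp only [support₂, Finset.mem_filter, Finset.mem_univ, true_and, not_not, Pi.add_apply] at hp
    have key : ∀ x y : ZMod 2, x + y = 0 → x = y := by decide
    exact key _ _ hp
  · right
    rw [support_add] at h8 hs
    have hsum := card_symmDiff_add (support₂ v) (support₂ v')
    have h1 : (support₂ v).card = 4 := by omega
    have h2 : (support₂ v').card = 4 := by omega
    have h3 : (support₂ v ∩ support₂ v').card = 0 := by omega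
    have hd : Disjoint (support₂ v) (support₂ v') := by
      rw [Finset.disjoint_iff_inter_eq_empty]
      exact Finset.card_eq_zero.mp h3
    refine ⟨h1, h2, hd, ?_⟩
    rw [hd.symmDiff_eq_sup] at hs
    refine ⟨hs, ?_⟩
    show (support₂ v ∪ support₂ v').card = 8
    rw [Finset.card_union_of_disjoint hd, h1, h2]

/-- Coset leaders of the length-24 code: a coset contains a unique word of weight ≤ 3, or else exactly six words of weight 4 and none lighter. -/
theorem result (w : Cfsg.GolayPt → ZMod 2) : ({v : Cfsg.GolayPt → ZMod 2 | hammingNorm v ≤ 4 ∧ w - v ∈ Cfsg.golayCode}.ncard = 1 ∧ ∃ v : Cfsg.GolayPt → ZMod 2, hammingNorm v ≤ 3 ∧ w - v ∈ Cfsg.golayCode) ∨ ({v : Cfsg.GolayPt → ZMod 2 | hammingNorm v ≤ 4 ∧ w - v ∈ Cfsg.golayCode}.ncard = 6 ∧ ∀ v : Cfsg.GolayPt → ZMod 2, w - v ∈ Cfsg.golayCode → hammingNorm v ≤ 4 → hammingNorm v = 4) := by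
  classical
  by_cases h : ∃ v : GolayPt → ZMod 2, hammingNorm v ≤ 3 ∧ w - v ∈ golayCode
  · left
    refine ⟨?_, h⟩
    obtain ⟨v, hv, hvc⟩ := h
    rw [Set.ncard_eq_one]
    refine ⟨v, ?_⟩
    ext v'
    simp only [Set.mem_ofPred_eq, Set.mem_singleton_iff]
    constructor
    · rintro ⟨h1, h2⟩
      rcases pair h1 (by omega) h2 hvc with rfl | ⟨h3, h4, -⟩
      · rfl
      · rw [hammingNorm_eq] at hv
        omega
    · rintro rfl
      exact ⟨by omega, hvc⟩
  · right
    push Not at h
    have hfour : ∀ v : GolayPt → ZMod 2, w - v ∈ golayCode → hammingNorm v ≤ 4 → hammingNorm v = 4 := by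
      intro v hv h4
      by_contra h3
      exact h v (by omega) hv
    refine ⟨?_, hfour⟩
    obtain ⟨v0, hv0, hv0c⟩ := exists_leader w
    have hv04 : (support₂ v0).card = 4 := hfour v0 hv0c hv0
    obtain ⟨S, ⟨hS, ht0⟩, -⟩ := Cfsg.Agent.S1550.result.1 _ hv04
    have himg : {v : GolayPt → ZMod 2 | hammingNorm v ≤ 4 ∧ w - v ∈ golayCode} = wOf '' (S : Set (Finset GolayPt)) := by
      ext v
      simp only [Set.mem_ofPred_eq, Set.mem_image, Finset.mem_coe]
      constructor
      · rintro ⟨h1, h2⟩
        refine ⟨support₂ v, ?_, wOf_support v⟩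
        rcases pair h1 hv0 h2 hv0c with rfl | ⟨h3, h4, hd, ho⟩
        · exact ht0
        · obtain ⟨p, hp⟩ : (support₂ v).Nonempty := Finset.card_pos.1 (by omega)
          obtain ⟨u, hu, hpu⟩ := sextet_cover hS p
          have hpt : p ∉ support₂ v0 := Finset.disjoint_left.mp hd hp
          have hut : u ≠ support₂ v0 := fun he => hpt (he ▸ hpu)
          have hdu := sextet_disjoint hS hu ht0 hut
          have hou := hS.2.2 u hu _ ht0 hut
          have heq : u ∪ support₂ v0 = support₂ v ∪ support₂ v0 := by
            apply octad_eq_of_five hou ho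
            have hsub : insert p (support₂ v0) ⊆ (u ∪ support₂ v0) ∩ (support₂ v ∪ support₂ v0) := by
              intro q hq
              rw [Finset.mem_insert] at hq
              rw [Finset.mem_inter, Finset.mem_union, Finset.mem_union]
              rcases hq with rfl | hq
              · exact ⟨Or.inl hpu, Or.inl hp⟩
              · exact ⟨Or.inr hq, Or.inr hq⟩
            have hc := Finset.card_le_card hsub
            rw [Finset.card_insert_of_notMem hpt, hv04] at hc
            exact hc
          have huv : support₂ v = u := by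
            ext q
            have h5 : q ∈ u ∪ support₂ v0 ↔ q ∈ support₂ v ∪ support₂ v0 := by rw [heq]
            simp only [Finset.mem_union] at h5
            constructor
            · intro hq
              rcases h5.2 (Or.inl hq) with h6 | h6
              · exact h6
              · exact absurd h6 (Finset.disjoint_left.mp hd hq)
            · intro hq
              rcases h5.1 (Or.inl hq) with h6 | h6
              · exact h6
              · exact absurd h6 (Finset.disjoint_left.mp hdu hq)
          rw [huv]
          exact hu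
      · rintro ⟨t, ht, rfl⟩
        have ht4 : t.card = 4 := hS.2.1 t ht
        refine ⟨by rw [hammingNorm_eq, support_wOf, ht4], ?_⟩
        by_cases htt : t = support₂ v0
        · rw [htt, wOf_support]
          exact hv0c
        · have ho := hS.2.2 t ht _ ht0 htt
          have hdt := sextet_disjoint hS ht ht0 htt
          have hsupp : support₂ (wOf t + v0) = t ∪ support₂ v0 := by
            rw [support_add, support_wOf, hdt.symmDiff_eq_sup]
            rfl
          have hmem : wOf t + v0 ∈ golayCode := by
            have := wOf_mem ho.1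
            rw [← hsupp, wOf_support] at this
            exact this
          have e : w - wOf t = (w - v0) + (wOf t + v0) := by
            rw [sub_eq_add', sub_eq_add']
            have e2 : w + v0 + (wOf t + v0) = w + wOf t + (v0 + v0) := by abel
            rw [e2, add_self', add_zero]
          rw [e]
          exact golayCode.add_mem hv0c hmem
    rw [himg, Set.ncard_image_of_injOn, Set.ncard_coe_finset]
    · exact hS.1
    · intro a _ b _ hab
      have := congrArg support₂ hab
      rwa [support_wOf, support_wOf] at this

end Cfsg.Agent.S1635
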