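import Cfsg.Statements.S1636
import Mathlib
import Cfsg.Agent.Lib.H07.GolayCoset

set_option autoImplicit false
open Cfsg

set_option maxRecDepth 100000

namespace Cfsg.Agent.S1636

open Cfsg.Agent.H27.Golay Cfsg.Agent.H07.Coset

theorem c7 : countL (fun m => Nat.beq (popc (low23 m)) 7) codeL = 253 := by decide +kernel
theorem c8 : countL (fun m => Nat.beq (popc (low23 m)) 8) codeL = 506 := by decide +kernel
theorem c11 : countL (fun m => Nat.beq (popc (low23 m)) 11) codeL = 1288 := by decide +kernel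
theorem c12 : countL (fun m => Nat.beq (popc (low23 m)) 12) codeL = 1288 := by decide +kernel
theorem c15 : countL (fun m => Nat.beq (popc (low23 m)) 15) codeL = 506 := by decide +kernel
theorem c16 : countL (fun m => Nat.beq (popc (low23 m)) 16) codeL = 253 := by decide +kernel
theorem call : countL (fun _ => true) codeL = 4096 := by decide +kernel
theorem cmin : allL (fun m => Nat.beq m 0 || Nat.ble 7 (popc (low23 m))) codeL = true := by decide +kernel


/-- The punctured length-23 code has weight distribution 0^1 7^253 8^506 11^1288 12^1288 15^506 16^253 23^1. -/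
theorem result : {u : ZMod 23 → ZMod 2 | ∃ w ∈ Cfsg.golayCode, ∀ x : ZMod 23, u x = w (some x)}.ncard = 4096 ∧ {u : ZMod 23 → ZMod 2 | u ∈ {u : ZMod 23 → ZMod 2 | ∃ w ∈ Cfsg.golayCode, ∀ x : ZMod 23, u x = w (some x)} ∧ hammingNorm u = 7}.ncard = 253 ∧ {u : ZMod 23 → ZMod 2 | u ∈ {u : ZMod 23 → ZMod 2 | ∃ w ∈ Cfsg.golayCode, ∀ x : ZMod 23, u x = w (some x)} ∧ hammingNorm u = 8}.ncard = 506 ∧ {u : ZMod 23 → ZMod 2 | u ∈ {u : ZMod 23 → ZMod 2 | ∃ w ∈ Cfsg.golayCode, ∀ x : ZMod 23, u x = w (some x)} ∧ hammingNorm u = 11}.ncard = 1288 ∧ {u : ZMod 23 → ZMod 2 | u ∈ {u : ZMod 23 → ZMod 2 | ∃ w ∈ Cfsg.golayCode, ∀ x : ZMod 23, u x = w (some x)} ∧ hammingNorm u = 12}.ncard = 1288 ∧ {u : ZMod 23 → ZMod 2 | u ∈ {u : ZMod 23 → ZMod 2 | ∃ w ∈ Cfsg.golayCode, ∀ x : ZMod 23, u x = w (some x)} ∧ hammingNorm u = 15}.ncard = 506 ∧ {u : ZMod 23 → ZMod 2 | u ∈ {u : ZMod 23 → ZMod 2 | ∃ w ∈ Cfsg.golayCode, ∀ x : ZMod 23, u x = w (some x)} ∧ hammingNorm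 u = 16}.ncard = 253 ∧ ∀ u ∈ {u : ZMod 23 → ZMod 2 | ∃ w ∈ Cfsg.golayCode, ∀ x : ZMod 23, u x = w (some x)}, u ≠ 0 → 7 ≤ hammingNorm u := by
  have hP : {u : ZMod 23 → ZMod 2 | ∃ w ∈ Cfsg.golayCode, ∀ x : ZMod 23, u x = w (some x)} = punct := rfl
  rw [hP]
  refine ⟨?_, ?_, ?_, ?_, ?_, ?_, ?_, ?_⟩
  · have h := ncard_punct (Q := fun _ => True) (test := fun _ => true) (by simp)
    simp only [and_true, Set.ofPred_mem_eq] at h
    rw [h, call]
  · rw [ncard_punct_weight, c7]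
  · rw [ncard_punct_weight, c8]
  · rw [ncard_punct_weight, c11]
  · rw [ncard_punct_weight, c12]
  · rw [ncard_punct_weight, c15]
  · rw [ncard_punct_weight, c16]
  · intro u hu hne
    obtain ⟨m, hm, rfl⟩ := (mem_punct_iff u).mp hu
    have := allL_spec cmin m hm
    rw [Bool.or_eq_true] at this
    rcases this with h0 | h1
    · exfalso
      apply hne
      have : m = 0 := Nat.eq_of_beq_eq_true h0
      subst this
      funext x
      simp [pw23, wd_zero]
    · rw [hammingNorm_pw23]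
      exact Nat.le_of_ble_eq_true h1

end Cfsg.Agent.S1636
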