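import Cfsg.Statements.S1637
import Mathlib
import Cfsg.Agent.Lib.H07.GolayCoset

set_option autoImplicit false
open Cfsg

set_option maxRecDepth 100000

namespace Cfsg.Agent.S1637

open Cfsg.Agent.H27.Golay Cfsg.Agent.H07.Coset

/-- the parity of a word -/
noncomputable def par (w : GolayPt → ZMod 2) : ZMod 2 := ∑ p, w p

theorem par_eq_card (w : GolayPt → ZMod 2) : par w = ((support₂ w).card : ZMod 2) := by
  unfold par support₂
  rw [Finset.card_filter, Nat.cast_sum]
  refine Finset.sum_congr rfl fun p _ => ?_
  have key : ∀ a : ZMod 2, a = ((if a ≠ 0 then 1 else 0 : ℕ) : ZMod 2) := by decide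
  exact key _

theorem par_code {w : GolayPt → ZMod 2} (hw : w ∈ golayCode) : par w = 0 := by
  rw [par_eq_card]
  rcases supports_weights (s := support₂ w) ⟨w, hw, rfl⟩ with h | ⟨-, h⟩
  · rw [h]; simp
  · obtain ⟨k, hk⟩ := h
    rw [hk]
    have h2 : ((4 * k : ℕ) : ZMod 2) = 2 * (2 * (k : ZMod 2)) := by push_cast; ring
    rw [h2, show (2 : ZMod 2) = 0 by decide]
    simp

theorem par_sub (a b : GolayPt → ZMod 2) : par (a - b) = par a - par b := by
  simp [par, Finset.sum_sub_distrib]

/-- the sum over the extended points -/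
theorem sum_option (f : GolayPt → ZMod 2) : ∑ p, f p = f none + ∑ x : ZMod 23, f (some x) :=
  Fintype.sum_option f


/-- The punctured length-23 code is a perfect 3-error-correcting code: each word of length 23 is within distance 3 of exactly one codeword. -/
theorem result (u : ZMod 23 → ZMod 2) : ∃! c : ZMod 23 → ZMod 2, c ∈ {u : ZMod 23 → ZMod 2 | ∃ w ∈ Cfsg.golayCode, ∀ x : ZMod 23, u x = w (some x)} ∧ hammingDist u c ≤ 3 := by
  classical
  -- extension to odd parity
  set b : ZMod 2 := 1 - ∑ x : ZMod 23, u x with hb
  set w : GolayPt → ZMod 2 := fun p => match p with | some x => u x | none => b with hw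
  have hparw : par w = 1 := by
    unfold par
    rw [sum_option]
    show b + ∑ x : ZMod 23, u x = 1
    rw [hb]; ring
  obtain ⟨v, hv, hvc⟩ := exists_leader w
  have hparv : par v = 1 := by
    have h0 := par_code hvc
    rw [par_sub, hparw] at h0
    have := sub_eq_zero.mp h0
    exact this.symm
  have hv3 : hammingNorm v ≤ 3 := by
    have h1 : (support₂ v).card ≠ 4 := by
      intro h4
      rw [par_eq_card, h4] at hparv
      revert hparv
      decide
    rw [hammingNorm_eq] at hv ⊢
    omega
  set c : ZMod 23 → ZMod 2 := fun x => (w - v) (some x) with hc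
  have hcP : c ∈ {u : ZMod 23 → ZMod 2 | ∃ w ∈ Cfsg.golayCode, ∀ x : ZMod 23, u x = w (some x)} :=
    ⟨w - v, hvc, fun _ => rfl⟩
  have hdist : hammingDist u c ≤ 3 := by
    refine le_trans ?_ hv3
    rw [hammingNorm_eq]
    have : (Finset.univ.filter fun x : ZMod 23 => u x ≠ c x).map Function.Embedding.some ⊆ support₂ v := by
      intro p hp
      obtain ⟨x, hx, rfl⟩ := Finset.mem_map.mp hp
      have hx' := (Finset.mem_filter.mp hx).2
      simp only [support₂, Finset.mem_filter, Finset.mem_univ, true_and]
      intro h0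
      apply hx'
      simp only [Function.Embedding.some_apply] at h0
      simp [hc, hw, h0]
    have h2 := Finset.card_le_card this
    rwa [Finset.card_map] at h2
  refine ⟨c, ⟨hcP, hdist⟩, ?_⟩
  rintro c' ⟨⟨w', hw', hw'c⟩, hd'⟩
  obtain ⟨w0, hw0, hw0c⟩ := hcP
  have hd2 : hammingDist c' c ≤ 6 := by
    have := hammingDist_triangle c' u c
    rw [hammingDist_comm c' u] at this
    omega
  have hz : w' + w0 ∈ golayCode := golayCode.add_mem hw' hw0
  have hs : support₂ (w' + w0) ∈ supports (golayCode : Set (GolayPt → ZMod 2)) := ⟨_, hz, rfl⟩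
  have hsub : support₂ (w' + w0) ⊆ insert none ((Finset.univ.filter fun x : ZMod 23 => c' x ≠ c x).map Function.Embedding.some) := by
    intro p hp
    rw [Finset.mem_insert]
    cases p with
    | none => exact Or.inl rfl
    | some x =>
      right
      refine Finset.mem_map.mpr ⟨x, Finset.mem_filter.mpr ⟨Finset.mem_univ _, ?_⟩, rfl⟩
      have hp' := (Finset.mem_filter.mp hp).2
      rw [hw'c x, hw0c x]
      intro he
      apply hp'
      simp only [Pi.add_apply]
      rw [he]
      exact CharTwo.add_self_eq_zero _
  have hcard : (support₂ (w' + w0)).card ≤ 7 := by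
    have h1 := Finset.card_le_card hsub
    have h2 := Finset.card_insert_le (none : GolayPt) ((Finset.univ.filter fun x : ZMod 23 => c' x ≠ c x).map Function.Embedding.some)
    rw [Finset.card_map] at h2
    have h3 : (Finset.univ.filter fun x : ZMod 23 => c' x ≠ c x).card = hammingDist c' c := rfl
    omega
  rcases supports_weights hs with h0 | ⟨h8, -⟩
  · funext x
    have hp : (some x : GolayPt) ∉ support₂ (w' + w0) := by rw [h0]; simp
    simp only [support₂, Finset.mem_filter, Finset.mem_univ, true_and, not_not, Pi.add_apply] at hp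
    rw [hw'c x, hw0c x]
    have key : ∀ x y : ZMod 2, x + y = 0 → x = y := by decide
    exact key _ _ hp
  · omega

end Cfsg.Agent.S1637
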