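import Cfsg.Statements.S1638
import Mathlib
import Cfsg.Agent.Lib.H07.GolayFlag
import Cfsg.Agent.Lib.H07.TblF2

set_option autoImplicit false
open scoped Pointwise
open Cfsg

set_option maxRecDepth 100000

namespace Cfsg.Agent.S1638

open Cfsg.Agent.H27.Golay Cfsg.Agent.H07.Orb
open scoped Pointwise

/-- Union with the base set. -/
def U38 (m : ℕ) : ℕ := Nat.lor 8388615 m

def sp38 (m : ℕ) : ℕ := countL (fun o => Nat.beq (Nat.land o (U38 m)) (U38 m)) octadL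

def key38 (m : ℕ) : ℕ := Nat.add (Nat.mul 10 (popc (Nat.land 6 m))) (if sp38 m = 0 then 0 else 1)

theorem fs_lor (a b : ℕ) : fs (a ||| b) = fs a ∪ fs b := by
  ext p; simp [mem_fs, Nat.testBit_or]

theorem fs_base : fs 8388615 = insert (pt 23) (insert (pt 0) (fs 6)) := by decide +kernel

theorem fs6 : fs 6 = {pt 1, pt 2} := by decide +kernel

theorem exists_octad_iff_count {U : ℕ} (hU : U < 2 ^ 24) :
    (∃ o ∈ octads, fs U ⊆ o) ↔ countL (fun o => Nat.beq (Nat.land o U) U) octadL ≠ 0 := by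
  rw [countL_eq, ne_eq, List.length_eq_zero_iff, List.filter_eq_nil_iff]
  push Not
  constructor
  · rintro ⟨o, ho, hsub⟩
    obtain ⟨a, ha, rfl⟩ := (mem_octads_iff_list o).mp ho
    refine ⟨a, ha, ?_⟩
    show Nat.beq (a &&& U) U = true
    have : a &&& U = U := by
      apply Nat.eq_of_testBit_eq
      intro i
      rw [Nat.testBit_and]
      by_cases h5 : U.testBit i = true
      · by_cases hi : i < 24
        · have h2 := hsub (mem_fs.mpr (by rw [idx_pt' hi]; exact h5))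
          have h3 := mem_fs.mp h2
          rw [idx_pt' hi] at h3
          rw [h3, h5]; rfl
        · rw [Nat.testBit_lt_two_pow (lt_of_lt_of_le hU (Nat.pow_le_pow_right (by norm_num) (by omega)))] at h5
          cases h5
      · simp only [Bool.not_eq_true] at h5
        rw [h5]; simp
    rw [this]
    exact Nat.beq_refl _
  · rintro ⟨a, ha, h⟩
    refine ⟨fs a, fs_mem_octads ha, ?_⟩
    have h2 : a &&& U = U := Nat.eq_of_beq_eq_true h
    intro p hp
    have h3 := mem_fs.mp hp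
    rw [mem_fs]
    have h4 := congrArg (fun x => x.testBit (idx p)) h2
    simp only [Nat.testBit_and] at h4
    rw [h3] at h4
    cases h5 : a.testBit (idx p) <;> simp_all

theorem U38_lt {m : ℕ} (hm : m < 2 ^ 24) : U38 m < 2 ^ 24 :=
  Nat.or_lt_two_pow (by norm_num) hm

/-- The special pairs. -/
theorem special_iff {m : ℕ} (hm : m < 2 ^ 24) :
    (∃ o ∈ octads, pt 23 ∈ o ∧ pt 0 ∈ o ∧ fs 6 ∪ fs m ⊆ o) ↔ sp38 m ≠ 0 := by
  unfold sp38
  rw [← exists_octad_iff_count (U38_lt hm)]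
  have e : fs (U38 m) = insert (pt 23) (insert (pt 0) (fs 6)) ∪ fs m := by
    show fs (8388615 ||| m) = _
    rw [fs_lor, fs_base]
  rw [e]
  constructor
  · rintro ⟨o, ho, h1, h2, h3⟩
    refine ⟨o, ho, ?_⟩
    intro p hp
    simp only [Finset.mem_union, Finset.mem_insert] at hp
    rcases hp with (rfl | rfl | hp) | hp
    · exact h1
    · exact h2
    · exact h3 (Finset.mem_union_left _ hp)
    · exact h3 (Finset.mem_union_right _ hp)
  · rintro ⟨o, ho, h⟩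
    refine ⟨o, ho, h (by simp), h (by simp), ?_⟩
    intro p hp
    apply h
    simp only [Finset.mem_union, Finset.mem_insert] at hp ⊢
    rcases hp with hp | hp
    · exact Or.inl (Or.inr (Or.inr hp))
    · exact Or.inr hp

theorem disj_iff {m : ℕ} : Disjoint (fs 6) (fs m) ↔ Nat.land 6 m = 0 := by
  rw [Finset.disjoint_iff_inter_eq_empty]
  have e : fs 6 ∩ fs m = fs (6 &&& m) := by
    ext p; simp [mem_fs, Nat.testBit_and]
  rw [e]
  constructor
  · intro h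
    have hlt : 6 &&& m < 2 ^ 24 := lt_of_le_of_lt Nat.and_le_left (by norm_num)
    exact fs_injOn hlt (by norm_num) (by show fs (6 &&& m) = fs 0; rw [h]; ext p; simp [mem_fs])
  · intro h
    have : 6 &&& m = 0 := h
    rw [this]
    ext p; simp [mem_fs]

def test1 (m : ℕ) : Bool := (bitb m 23).not && (bitb m 0).not && Nat.beq (Nat.land 6 m) 0 && (Nat.beq (sp38 m) 0).not
def test0 (m : ℕ) : Bool := (bitb m 23).not && (bitb m 0).not && Nat.beq (Nat.land 6 m) 0 && Nat.beq (sp38 m) 0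

theorem c1 : countL test1 (ksub 24 2) = 30 := by decide +kernel
theorem c0 : countL test0 (ksub 24 2) = 160 := by decide +kernel

theorem test1_iff : ∀ m ∈ ksub 24 2, test1 m = true ↔ ((pt 23 ∉ fs m ∧ pt 0 ∉ fs m) ∧ Disjoint (fs 6) (fs m) ∧ ∃ o ∈ octads, pt 23 ∈ o ∧ pt 0 ∈ o ∧ fs 6 ∪ fs m ⊆ o) := by
  intro m hm
  have hlt := (mem_ksub24.mp hm).1
  rw [special_iff hlt, disj_iff, mem_pt_fs (by norm_num), mem_pt_fs (by norm_num), test1]
  simp only [Bool.and_eq_true, Bool.not_eq_true', beq_iff]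
  constructor
  · rintro ⟨⟨⟨h1, h2⟩, h3⟩, h4⟩
    refine ⟨⟨by simp [h1], by simp [h2]⟩, h3, ?_⟩
    intro h5
    rw [h5] at h4
    have h6 : Nat.beq 0 0 = true := Nat.beq_refl 0
    rw [h6] at h4
    cases h4
  · rintro ⟨⟨h1, h2⟩, h3, h4⟩
    refine ⟨⟨⟨by simpa using h1, by simpa using h2⟩, h3⟩, ?_⟩
    cases hb : Nat.beq (sp38 m) 0 with
    | false => rfl
    | true => exact absurd (Nat.eq_of_beq_eq_true hb) h4

theorem test0_iff : ∀ m ∈ ksub 24 2, test0 m = true ↔ ((pt 23 ∉ fs m ∧ pt 0 ∉ fs m) ∧ Disjoint (fs 6) (fs m) ∧ ¬ ∃ o ∈ octads, pt 23 ∈ o ∧ pt 0 ∈ o ∧ fs 6 ∪ fs m ⊆ o) := by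
  intro m hm
  have hlt := (mem_ksub24.mp hm).1
  rw [special_iff hlt, disj_iff, mem_pt_fs (by norm_num), mem_pt_fs (by norm_num), test0]
  simp only [Bool.and_eq_true, Bool.not_eq_true', beq_iff, not_not]
  constructor
  · rintro ⟨⟨⟨h1, h2⟩, h3⟩, h4⟩
    exact ⟨⟨by simp [h1], by simp [h2]⟩, h3, h4⟩
  · rintro ⟨⟨h1, h2⟩, h3, h4⟩
    exact ⟨⟨⟨by simpa using h1, by simpa using h2⟩, h3⟩, h4⟩

def L1638 : List ℕ := (ksub 24 2).filter (fun m => (bitb m 23).not && (bitb m 0).not && (Nat.beq m 6).not)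

def t38 (π : ℕ) : Bool := Nat.beq (pa π 23) 23 && Nat.beq (pa π 0) 0 && Nat.beq (am π 6) 6

abbrev H38 : Subgroup (Equiv.Perm GolayPt) :=
  M24 ⊓ MulAction.stabilizer (Equiv.Perm GolayPt) (pt 23) ⊓ MulAction.stabilizer (Equiv.Perm GolayPt) (pt 0) ⊓ MulAction.stabilizer (Equiv.Perm GolayPt) (fs 6)

theorem hH38 : ∀ π, isM24 π = true → t38 π = true → P π ∈ H38 := by
  intro π h1 h2
  rw [t38, Bool.and_eq_true, Bool.and_eq_true] at h2
  exact ⟨⟨⟨P_mem_M24 h1, P_fix_pt h1 (by norm_num) h2.1.1⟩, P_fix_pt h1 (by norm_num) h2.1.2⟩, P_smul_fs h1 h2.2⟩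

theorem zip38 : zipOK (fun m π => isM24 π && (t38 π && Nat.beq (am π (r1638.getD (key38 m) 0)) m)) L1638 T1638 = true := by
  decide +kernel


/-- Fix two points p ≠ q and a pair s of two further points. Among the pairs avoiding p, q and disjoint from s, exactly 30 lie in an octad together with p, q and s and exactly 160 do not; and any two pairs other than s that meet s in equally many points and agree on that octad property are carried to one another by an element of the group of the length-24 code fixing p, q and s. -/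
theorem result (p q : Cfsg.GolayPt) (hpq : p ≠ q) (s : Finset Cfsg.GolayPt) (hs : (s.card = 2 ∧ p ∉ s ∧ q ∉ s)) : {t : Finset Cfsg.GolayPt | (t.card = 2 ∧ p ∉ t ∧ q ∉ t) ∧ Disjoint s t ∧ (∃ o ∈ Cfsg.octads, p ∈ o ∧ q ∈ o ∧ s ∪ t ⊆ o)}.ncard = 30 ∧ {t : Finset Cfsg.GolayPt | (t.card = 2 ∧ p ∉ t ∧ q ∉ t) ∧ Disjoint s t ∧ ¬ (∃ o ∈ Cfsg.octads, p ∈ o ∧ q ∈ o ∧ s ∪ t ⊆ o)}.ncard = 160 ∧ ∀ t t' : Finset Cfsg.GolayPt, (t.card = 2 ∧ p ∉ t ∧ q ∉ t) → (t'.card = 2 ∧ p ∉ t' ∧ q ∉ t') → t ≠ s → t' ≠ s → (s ∩ t).card = (s ∩ t').card → ((∃ o ∈ Cfsg.octads, p ∈ o ∧ q ∈ o ∧ s ∪ t ⊆ o) ↔ (∃ o ∈ Cfsg.octads, p ∈ o ∧ q ∈ o ∧ s ∪ t' ⊆ o)) → ∃ g : Equiv.Perm Cfsg.GolayPt, g ∈ Cfsg.M24 ∧ g p = p ∧ g q = q ∧ g • s = s ∧ g • t = t' := by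
  classical
  -- the base flag
  obtain ⟨a, b, hab, rfl⟩ := Finset.card_eq_two.mp hs.1
  have hpa : p ≠ a := fun e => hs.2.1 (by simp [e])
  have hpb : p ≠ b := fun e => hs.2.1 (by simp [e])
  have hqa : q ≠ a := fun e => hs.2.2 (by simp [e])
  have hqb : q ≠ b := fun e => hs.2.2 (by simp [e])
  obtain ⟨e, -, he⟩ := Finset.exists_mem_notMem_of_card_lt_card (s := ({p, q, a, b} : Finset GolayPt)) (t := Finset.univ)
    (lt_of_le_of_lt Finset.card_le_four (by decide))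
  simp only [Finset.mem_insert, Finset.mem_singleton, not_or] at he
  obtain ⟨h, hh, h0, h1, h2, h3, -⟩ := exists_base5 p q a b e hpq hpa hpb (Ne.symm he.1) hqa hqb (Ne.symm he.2.1) hab (Ne.symm he.2.2.1) (Ne.symm he.2.2.2)
  subst h0 h1 h2 h3
  have hs6 : ({h (pt 1), h (pt 2)} : Finset GolayPt) = h • fs 6 := by
    rw [fs6, Finset.smul_finset_insert, Finset.smul_finset_singleton]
    rfl
  rw [hs6]
  have hinv := M24.inv_mem hh
  have hA : ∀ x : Finset GolayPt, x ∈ {x : Finset GolayPt | x.card = 2} ↔ h • x ∈ {x : Finset GolayPt | x.card = 2} := by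
    intro x
    simp only [Set.mem_ofPred_eq, Finset.card_smul_finset]
  have hsp : ∀ x : Finset GolayPt, (∃ o ∈ octads, h (pt 23) ∈ o ∧ h (pt 0) ∈ o ∧ h • fs 6 ∪ h • x ⊆ o) ↔
      ∃ o ∈ octads, pt 23 ∈ o ∧ pt 0 ∈ o ∧ fs 6 ∪ x ⊆ o := by
    intro x
    constructor
    · rintro ⟨o, ho, h4, h5, h6⟩
      refine ⟨h⁻¹ • o, smul_mem_octads hinv ho, ?_, ?_, ?_⟩
      · have := Finset.smul_mem_smul_finset (a := h⁻¹) h4
        simpa using this
      · have := Finset.smul_mem_smul_finset (a := h⁻¹) h5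
        simpa using this
      · rw [← Finset.smul_finset_union] at h6
        have := Finset.smul_finset_subset_smul_finset_iff (a := h⁻¹).mpr h6
        rwa [inv_smul_smul] at this
    · rintro ⟨o, ho, h4, h5, h6⟩
      refine ⟨h • o, smul_mem_octads hh ho, (mem_smul_iff' _ _ _).mpr h4, (mem_smul_iff' _ _ _).mpr h5, ?_⟩
      rw [← Finset.smul_finset_union]
      exact Finset.smul_finset_subset_smul_finset_iff.mpr h6
  have hdj : ∀ x : Finset GolayPt, Disjoint (h • fs 6) (h • x) ↔ Disjoint (fs 6) x := by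
    intro x
    rw [Finset.disjoint_iff_inter_eq_empty, Finset.disjoint_iff_inter_eq_empty, ← Finset.smul_finset_inter]
    simp
  refine ⟨?_, ?_, ?_⟩
  · have e1 := ncard_transport (h := h) hA (fun t => (h (pt 23) ∉ t ∧ h (pt 0) ∉ t) ∧ Disjoint (h • fs 6) t ∧ ∃ o ∈ octads, h (pt 23) ∈ o ∧ h (pt 0) ∈ o ∧ h • fs 6 ∪ t ⊆ o)
    simp only [Set.mem_ofPred_eq, mem_smul_iff', hsp, hdj] at e1
    have e2 : {t : Finset GolayPt | (t.card = 2 ∧ h (pt 23) ∉ t ∧ h (pt 0) ∉ t) ∧ Disjoint (h • fs 6) t ∧ ∃ o ∈ octads, h (pt 23) ∈ o ∧ h (pt 0) ∈ o ∧ h • fs 6 ∪ t ⊆ o} =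
        {t : Finset GolayPt | t.card = 2 ∧ (h (pt 23) ∉ t ∧ h (pt 0) ∉ t) ∧ Disjoint (h • fs 6) t ∧ ∃ o ∈ octads, h (pt 23) ∈ o ∧ h (pt 0) ∈ o ∧ h • fs 6 ∪ t ⊆ o} := by
      ext t; simp only [Set.mem_ofPred_eq, and_assoc]
    rw [e2, e1, ncard_ksub test1_iff, c1]
  · have e1 := ncard_transport (h := h) hA (fun t => (h (pt 23) ∉ t ∧ h (pt 0) ∉ t) ∧ Disjoint (h • fs 6) t ∧ ¬ ∃ o ∈ octads, h (pt 23) ∈ o ∧ h (pt 0) ∈ o ∧ h • fs 6 ∪ t ⊆ o)
    simp only [Set.mem_ofPred_eq, mem_smul_iff', hsp, hdj] at e1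
    have e2 : {t : Finset GolayPt | (t.card = 2 ∧ h (pt 23) ∉ t ∧ h (pt 0) ∉ t) ∧ Disjoint (h • fs 6) t ∧ ¬ ∃ o ∈ octads, h (pt 23) ∈ o ∧ h (pt 0) ∈ o ∧ h • fs 6 ∪ t ⊆ o} =
        {t : Finset GolayPt | t.card = 2 ∧ (h (pt 23) ∉ t ∧ h (pt 0) ∉ t) ∧ Disjoint (h • fs 6) t ∧ ¬ ∃ o ∈ octads, h (pt 23) ∈ o ∧ h (pt 0) ∈ o ∧ h • fs 6 ∪ t ⊆ o} := by
      ext t; simp only [Set.mem_ofPred_eq, and_assoc]
    rw [e2, e1, ncard_ksub test0_iff, c0]
  · rintro t t' ⟨ht, htp, htq⟩ ⟨ht', htp', htq'⟩ hne hne' hi hiff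
    have ha : (h⁻¹ • t).card = 2 := by rw [Finset.card_smul_finset]; exact ht
    have hb : (h⁻¹ • t').card = 2 := by rw [Finset.card_smul_finset]; exact ht'
    obtain ⟨ma, hma, hfa⟩ := (mem_card_iff_ksub _).mp ha
    obtain ⟨mb, hmb, hfb⟩ := (mem_card_iff_ksub _).mp hb
    have et : t = h • fs ma := by rw [hfa, smul_inv_smul]
    have et' : t' = h • fs mb := by rw [hfb, smul_inv_smul]
    subst et et'
    rw [mem_smul_iff'] at htp htq htp' htq'
    rw [card_smul_inter, card_smul_inter] at hi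
    have hspab := hsp (fs ma)
    have hspab' := hsp (fs mb)
    rw [hspab, hspab', special_iff (mem_ksub24.mp hma).1, special_iff (mem_ksub24.mp hmb).1] at hiff
    have hfs : ∀ {m : ℕ}, (fs 6 ∩ fs m).card = popc (Nat.land 6 m) := fun {m} => card_fs_inter (by norm_num)
    rw [hfs, hfs] at hi
    have hk : key38 ma = key38 mb := by
      unfold key38
      rw [hi]
      congr 1
      by_cases h0 : sp38 ma = 0
      · have : sp38 mb = 0 := by
          by_contra hc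
          exact (hiff.mpr hc) h0
        rw [h0, this]
      · have : sp38 mb ≠ 0 := hiff.mp h0
        rw [if_neg h0, if_neg this]
    have hLm : ∀ {m : ℕ}, m ∈ ksub 24 2 → pt 23 ∉ fs m → pt 0 ∉ fs m → fs m ≠ fs 6 → m ∈ L1638 := by
      intro m hm h4 h5 h6
      refine List.mem_filter.mpr ⟨hm, ?_⟩
      have h7 := (mem_pt_fs (m := m) (i := 23) (by norm_num)).not.mp h4
      have h8 := (mem_pt_fs (m := m) (i := 0) (by norm_num)).not.mp h5
      have h9 : Nat.beq m 6 = false := by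
        cases hb : Nat.beq m 6 with
        | false => rfl
        | true => exact absurd (by rw [Nat.eq_of_beq_eq_true hb]) h6
      simp [h7, h8, h9]
    have hna : fs ma ≠ fs 6 := fun e => hne (by rw [e])
    have hnb : fs mb ≠ fs 6 := fun e => hne' (by rw [e])
    obtain ⟨g, hg, hgm⟩ := exists_smul_mask₂ (H := H38) (test := t38) (rep := fun k => r1638.getD k 0) (key := key38)
      hH38 zip38 (hLm hma htp htq hna) (hLm hmb htp' htq' hnb) hk
    refine ⟨h * g * h⁻¹, conj_mem hh hg.1.1.1, conj_pt h g hg.1.1.2, conj_pt h g hg.1.2, ?_, ?_⟩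
    · rw [conj_smul, hg.2]
    · rw [conj_smul, hgm]

end Cfsg.Agent.S1638
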