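import Cfsg.Statements.S1639
import Mathlib
import Cfsg.Agent.Lib.H07.GolayFlag

set_option autoImplicit false
open scoped Pointwise
open Cfsg

set_option maxRecDepth 100000

namespace Cfsg.Agent.S1639

open Cfsg.Agent.H27.Golay Cfsg.Agent.H07.Orb
open scoped Pointwise

def ptsD : List ℕ := (List.range 24).filter (fun i => bitb D0 i)

theorem mem_ptsD {p : GolayPt} (h : p ∈ fs D0) : idx p ∈ ptsD := by
  rw [ptsD, List.mem_filter, List.mem_range]
  exact ⟨idx_lt p, by rw [bitb_eq]; exact mem_fs.mp h⟩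

def tD (π : ℕ) : Bool := Nat.beq (am π D0) D0
def tDw (π : ℕ) : Bool := tD π && Nat.beq (pa π w0) w0

abbrev HD : Subgroup (Equiv.Perm GolayPt) := M24 ⊓ MulAction.stabilizer (Equiv.Perm GolayPt) (fs D0)
abbrev HDw : Subgroup (Equiv.Perm GolayPt) := HD ⊓ MulAction.stabilizer (Equiv.Perm GolayPt) (pt w0)

theorem w0_lt : w0 < 24 := by decide +kernel

theorem hHD : ∀ π, isM24 π = true → tD π = true → P π ∈ HD :=
  fun _ h1 h2 => ⟨P_mem_M24 h1, P_smul_fs h1 h2⟩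

theorem hHDw : ∀ π, isM24 π = true → tDw π = true → P π ∈ HDw := by
  intro π h1 h2
  rw [tDw, Bool.and_eq_true] at h2
  exact ⟨hHD π h1 h2.1, P_fix_pt h1 w0_lt h2.2⟩

theorem zipDin : zipOK (fun i π => isM24 π && (tD π && Nat.beq (pa π w0) i)) ptsD TDin = true := by decide +kernel

theorem flag_D {x : GolayPt} {d : Finset GolayPt} (hd : d ∈ dodecads) (hx : x ∈ d) :
    ∃ h ∈ M24, h • fs D0 = d ∧ h (pt w0) = x := by
  obtain ⟨h1, hh1, rfl⟩ := exists_smul_D0 hd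
  have hx1 : h1⁻¹ x ∈ fs D0 := by
    have := Finset.smul_mem_smul_finset (a := h1⁻¹) hx
    rwa [inv_smul_smul] at this
  obtain ⟨g, hg, hgx⟩ := exists_pt_table hHD w0_lt zipDin (mem_ptsD hx1)
  refine ⟨h1 * g, M24.mul_mem hh1 hg.1, ?_, ?_⟩
  · rw [mul_smul, hg.2]
  · rw [Equiv.Perm.mul_apply, hgx, pt_idx]
    simp

def L1639 : List ℕ := dodecadL.filter (fun m => bitb m w0)

theorem zip1639 : zipOK (fun m π => isM24 π && (tDw π && Nat.beq (am π (r1639.getD (keyD m) 0)) m)) L1639 T1639 = true := by decide +kernel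

theorem c4 : countL (fun m => bitb m w0 && Nat.beq (keyD m) 4) dodecadL = 165 := by decide +kernel
theorem c8 : countL (fun m => bitb m w0 && Nat.beq (keyD m) 8) dodecadL = 330 := by decide +kernel
theorem c6 : countL (fun m => bitb m w0 && Nat.beq (keyD m) 6) dodecadL = 792 := by decide +kernel

theorem test_iff (k : ℕ) : ∀ m ∈ dodecadL, (bitb m w0 && Nat.beq (keyD m) k) = true ↔ (pt w0 ∈ fs m ∧ (fs D0 ∩ fs m).card = k) := by
  intro m _
  rw [Bool.and_eq_true, mem_pt_fs w0_lt, beq_iff, keyD_eq]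


/-- The point stabiliser acts on the 1288 dodecads through the point with rank 4 and subdegrees 1, 165, 330, 792, distinguished by intersection 4, 8, 6 with the fixed dodecad. -/
theorem result (x : Cfsg.GolayPt) (d : Finset Cfsg.GolayPt) (hd : d ∈ Cfsg.dodecads) (hx : x ∈ d) : {d' : Finset Cfsg.GolayPt | d' ∈ Cfsg.dodecads ∧ x ∈ d' ∧ (d ∩ d').card = 4}.ncard = 165 ∧ {d' : Finset Cfsg.GolayPt | d' ∈ Cfsg.dodecads ∧ x ∈ d' ∧ (d ∩ d').card = 8}.ncard = 330 ∧ {d' : Finset Cfsg.GolayPt | d' ∈ Cfsg.dodecads ∧ x ∈ d' ∧ (d ∩ d').card = 6}.ncard = 792 ∧ ∀ d' d'' : Finset Cfsg.GolayPt, d' ∈ Cfsg.dodecads → d'' ∈ Cfsg.dodecads → x ∈ d' → x ∈ d'' → (d ∩ d').card = (d ∩ d'').card → ∃ g : Equiv.Perm Cfsg.GolayPt, g ∈ Cfsg.M24 ∧ g x = x ∧ g • d = d ∧ g • d' = d'' := by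
  obtain ⟨h, hh, rfl, rfl⟩ := flag_D hd hx
  have hcnt : ∀ k, {o' : Finset GolayPt | o' ∈ dodecads ∧ h (pt w0) ∈ o' ∧ (h • fs D0 ∩ o').card = k}.ncard =
      countL (fun m => bitb m w0 && Nat.beq (keyD m) k) dodecadL := by
    intro k
    rw [ncard_transport (h := h) (dodecads_iff_smul hh)]
    simp only [mem_smul_iff', card_smul_inter]
    exact ncard_dodecads (test_iff k)
  refine ⟨by rw [hcnt, c4], by rw [hcnt, c8], by rw [hcnt, c6], ?_⟩
  intro o' o'' ho' ho'' hx' hx'' hi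
  have hinv := M24.inv_mem hh
  obtain ⟨ma, hma, hfa⟩ := (mem_dodecads_iff_list _).mp (smul_mem_dodecads hinv ho')
  obtain ⟨mb, hmb, hfb⟩ := (mem_dodecads_iff_list _).mp (smul_mem_dodecads hinv ho'')
  have eo' : o' = h • fs ma := by rw [hfa, smul_inv_smul]
  have eo'' : o'' = h • fs mb := by rw [hfb, smul_inv_smul]
  subst eo' eo''
  rw [mem_smul_iff'] at hx' hx''
  rw [card_smul_inter, card_smul_inter, ← keyD_eq, ← keyD_eq] at hi
  have hLa : ma ∈ L1639 := List.mem_filter.mpr ⟨hma, (mem_pt_fs w0_lt).mp hx'⟩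
  have hLb : mb ∈ L1639 := List.mem_filter.mpr ⟨hmb, (mem_pt_fs w0_lt).mp hx''⟩
  obtain ⟨g, hg, hgm⟩ := exists_smul_mask₂ (H := HDw) (test := tDw) (rep := fun k => r1639.getD k 0) (key := keyD)
    hHDw zip1639 hLa hLb hi
  refine ⟨h * g * h⁻¹, conj_mem hh hg.1.1, conj_pt h g hg.2, ?_, ?_⟩
  · rw [conj_smul, hg.1.2]
  · rw [conj_smul, hgm]

end Cfsg.Agent.S1639
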