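import Cfsg.Statements.S1680
import Cfsg.Agent.Lib.H16.CE.S1680.C0
import Cfsg.Agent.Lib.H16.CE.S1680.R1
import Cfsg.Agent.Lib.H16.CE.S1680.O2

set_option autoImplicit false
open Cfsg

namespace Cfsg.Agent.S1680

open Cfsg.Agent.H16.CosetEnum Cfsg.Agent.H16.CE.S1680

def code (x : Cfsg.Spor.Suz.Gen × Bool) : ℕ :=
  match x.1 with
  | .a => 0
  | .b => 1
  | .c => 2
  | .d => 3
  | .e => 4
  | .f => 5
  | .g => 6


def gs (a : ℕ) : Cfsg.Spor.Suz.Gen × Bool :=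
  match a with
  | 0 => (.a, true)
  | 1 => (.b, true)
  | 2 => (.c, true)
  | 3 => (.d, true)
  | 4 => (.e, true)
  | 5 => (.f, true)
  | 6 => (.g, true)
  | _ => (.a, true)

abbrev R : Set (FreeGroup Cfsg.Spor.Suz.Gen) := Cfsg.Spor.coxRelators Cfsg.Spor.Suz.edges ∪ {r | r ∈ Cfsg.Spor.Suz.extra}
abbrev S : Set (FreeGroup Cfsg.Spor.Suz.Gen) := {Cfsg.Spor.Suz.a, Cfsg.Spor.Suz.b, Cfsg.Spor.Suz.c, Cfsg.Spor.Suz.d, Cfsg.Spor.Suz.e, Cfsg.Spor.Suz.f}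
def SL : List (FreeGroup Cfsg.Spor.Suz.Gen) := [Cfsg.Spor.Suz.a, Cfsg.Spor.Suz.b, Cfsg.Spor.Suz.c, Cfsg.Spor.Suz.d, Cfsg.Spor.Suz.e, Cfsg.Spor.Suz.f]
noncomputable def dd : D := ⟨F, PL, iv, 7, rlT, hwT⟩

theorem hW1 : ((coxList Cfsg.Spor.Suz.edges Cfsg.Spor.Suz.extra).map (letters code)).all (fun w => decide (w ∈ WL0)) = true := by decide +kernel
theorem hW2 : WL0.all (fun w => decide (w ∈ (coxList Cfsg.Spor.Suz.edges Cfsg.Spor.Suz.extra).map (letters code))) = true := by decide +kernel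
theorem hder : ∀ W ∈ rlT.words, derivedOK iv WL0 W = true := by decide +kernel
theorem hhw : hwL = SL.map (letters code) := by decide +kernel
theorem hsub : ∀ W ∈ WL0, W ∈ WLc := by decide +kernel
theorem hivw : ∀ a < 7, [a, iv a] ∈ WLc := by decide +kernel

theorem base : Base R S gs code 7 dd SL WL0 :=
  base_of (by rintro ⟨g, b⟩; cases g <;> cases b <;> decide) (by decide) rfl
    (by rintro ⟨g, b⟩; cases g <;> cases b <;> rfl) (fun _ h => h)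
    (by intro s; simp [S, SL]) hW1 hW2 hder (hwT_words.trans hhw)

theorem facts : ∀ m < 33479, FactTrue (subH R S) (lt R gs 7) dd m := by
  have h0 := (fact_start (R := R) (S := S) (gs := gs) (k := 7) (d := dd))
  have h1 : ∀ m < 33479, FactTrue (subH R S) (lt R gs 7) dd m := base.extend h0 hc0 ht0
  exact h1
theorem cosets : ∀ i < 1782, allAt LL i = true := by
  have h0 := range_start (P := allAt LL)
  have h1 : ∀ i < 1225, allAt LL i = true := range_step h0 hr0 rfl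
  have h2 : ∀ i < 1782, allAt LL i = true := range_step h1 hr1 rfl
  exact h2

instance instNZ : NeZero 1782 := ⟨by norm_num⟩

theorem hfix' : ∀ W ∈ dd.hw.words, Cfsg.Agent.H16.Enum.walk tt 0 W = 0 := by
  intro W hW
  have e : dd.hw.words = hwL := hwT_words
  rw [e] at hW
  exact hfix W hW

theorem main : ∃ act : PresentedGroup R →* (Equiv.Perm (Fin 1782))ᵐᵒᵖ,
      TableOK (subH R S) (lt R gs 7) tt 7 1782 (fun i => rep (lt R gs 7) dd (AA i)) act tp ta ∧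
      ∀ (r : FreeGroup Cfsg.Spor.Suz.Gen) (i : Fin 1782), (ract act (PresentedGroup.mk R r) i : ℕ) = Cfsg.Agent.H16.Enum.walk tt i (letters code r) :=
  base.tableOK (M := 33479) facts (EF := EF) (A := AA) (L := LL) (WLc := WLc) hL cosets hsub hivw hA0 hfix'


/-- In the presented sporadic Suzuki group, let H be the subgroup generated by the images of a, …, f. Then H has index 1782, H has orbits of sizes 416 and 1365 on the cosets of H other than H itself (with the index 1782 this makes the action rank 3). -/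
theorem result : (((Subgroup.closure ({Cfsg.Spor.Suz.a, Cfsg.Spor.Suz.b, Cfsg.Spor.Suz.c, Cfsg.Spor.Suz.d, Cfsg.Spor.Suz.e, Cfsg.Spor.Suz.f} : Set (FreeGroup Cfsg.Spor.Suz.Gen))).map (PresentedGroup.mk (Cfsg.Spor.coxRelators Cfsg.Spor.Suz.edges ∪ {r | r ∈ Cfsg.Spor.Suz.extra})))).index = 1782 ∧ ∃ q₁ q₂ : Cfsg.Spor.Suz ⧸ (((Subgroup.closure ({Cfsg.Spor.Suz.a, Cfsg.Spor.Suz.b, Cfsg.Spor.Suz.c, Cfsg.Spor.Suz.d, Cfsg.Spor.Suz.e, Cfsg.Spor.Suz.f} : Set (FreeGroup Cfsg.Spor.Suz.Gen))).map (PresentedGroup.mk (Cfsg.Spor.coxRelators Cfsg.Spor.Suz.edges ∪ {r | r ∈ Cfsg.Spor.Suz.extra})))), (MulAction.orbit (((Subgroup.closure ({Cfsg.Spor.Suz.a, Cfsg.Spor.Suz.b, Cfsg.Spor.Suz.c, Cfsg.Spor.Suz.d, Cfsg.Spor.Suz.e, Cfsg.Spor.Suz.f} : Set (FreeGroup Cfsg.Spor.Suz.Gen))).map (PresentedGroup.mk (Cfsg.Spor.coxRelators Cfsg.Spor.Suz.edges ∪ {r | r ∈ Cfsg.Spor.Suz.extra})))) q₁).ncard = 416 ∧ (MulAction.orbit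 (((Subgroup.closure ({Cfsg.Spor.Suz.a, Cfsg.Spor.Suz.b, Cfsg.Spor.Suz.c, Cfsg.Spor.Suz.d, Cfsg.Spor.Suz.e, Cfsg.Spor.Suz.f} : Set (FreeGroup Cfsg.Spor.Suz.Gen))).map (PresentedGroup.mk (Cfsg.Spor.coxRelators Cfsg.Spor.Suz.edges ∪ {r | r ∈ Cfsg.Spor.Suz.extra})))) q₂).ncard = 1365 := by
  obtain ⟨act, T, hact⟩ := main
  refine ⟨T.index, ?_⟩
  have hS : ∀ s, s ∈ S ↔ s ∈ SL := by intro s; simp [S, SL]
  have o1 := T.orbit_card hact hS hhw (j := 47) (by norm_num) hb0 hc0' hm0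
  have o2 := T.orbit_card hact hS hhw (j := 1) (by norm_num) hb1 hc1' hm1
  exact ⟨lc _ _ 47, lc _ _ 1, o1.2, o2.2⟩

end Cfsg.Agent.S1680
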