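import Cfsg.Statements.S1681
import Cfsg.Agent.Lib.H16.CE.S1681.C0
import Cfsg.Agent.Lib.H16.CE.S1681.R1
import Cfsg.Agent.Lib.H16.CE.S1681.R2
import Cfsg.Agent.Lib.H16.CE.S1681.R3

set_option autoImplicit false
open Cfsg

namespace Cfsg.Agent.S1681

open Cfsg.Agent.H16.CosetEnum Cfsg.Agent.H16.CE.S1681

def code (x : Cfsg.Spor.Suz.Gen × Bool) : ℕ :=
  match x.1 with
  | .a => 0
  | .b => 1
  | .c => 2
  | .d => 3
  | .e => 4
  | .f => 5
  | .g => 6


def gs (a : ℕ) : Cfsg.Spor.Suz.Gen × Bool :=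
  match a with
  | 0 => (.a, true)
  | 1 => (.b, true)
  | 2 => (.c, true)
  | 3 => (.d, true)
  | 4 => (.e, true)
  | 5 => (.f, true)
  | 6 => (.g, true)
  | _ => (.a, true)

abbrev R : Set (FreeGroup Cfsg.Spor.Suz.Gen) := Cfsg.Spor.coxRelators Cfsg.Spor.Suz.edges ∪ {r | r ∈ Cfsg.Spor.Suz.extra}
abbrev S : Set (FreeGroup Cfsg.Spor.Suz.Gen) := {Cfsg.Spor.Suz.a, Cfsg.Spor.Suz.b, Cfsg.Spor.Suz.c, Cfsg.Spor.Suz.d, Cfsg.Spor.Suz.f, Cfsg.Spor.Suz.g}
def SL : List (FreeGroup Cfsg.Spor.Suz.Gen) := [Cfsg.Spor.Suz.a, Cfsg.Spor.Suz.b, Cfsg.Spor.Suz.c, Cfsg.Spor.Suz.d, Cfsg.Spor.Suz.f, Cfsg.Spor.Suz.g]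
noncomputable def dd : D := ⟨F, PL, iv, 7, rlT, hwT⟩

theorem hW1 : ((coxList Cfsg.Spor.Suz.edges Cfsg.Spor.Suz.extra).map (letters code)).all (fun w => decide (w ∈ WL0)) = true := by decide +kernel
theorem hW2 : WL0.all (fun w => decide (w ∈ (coxList Cfsg.Spor.Suz.edges Cfsg.Spor.Suz.extra).map (letters code))) = true := by decide +kernel
theorem hder : ∀ W ∈ rlT.words, derivedOK iv WL0 W = true := by decide +kernel
theorem hhw : hwL = SL.map (letters code) := by decide +kernel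
theorem hsub : ∀ W ∈ WL0, W ∈ WLc := by decide +kernel
theorem hivw : ∀ a < 7, [a, iv a] ∈ WLc := by decide +kernel

theorem base : Base R S gs code 7 dd SL WL0 :=
  base_of (by rintro ⟨g, b⟩; cases g <;> cases b <;> decide) (by decide) rfl
    (by rintro ⟨g, b⟩; cases g <;> cases b <;> rfl) (fun _ h => h)
    (by intro s; simp [S, SL]) hW1 hW2 hder (hwT_words.trans hhw)

theorem facts : ∀ m < 108428, FactTrue (subH R S) (lt R gs 7) dd m := by
  have h0 := (fact_start (R := R) (S := S) (gs := gs) (k := 7) (d := dd))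
  have h1 : ∀ m < 47680, FactTrue (subH R S) (lt R gs 7) dd m := base.extend h0 hc0 ht0
  have h2 : ∀ m < 84384, FactTrue (subH R S) (lt R gs 7) dd m := base.extend h1 hc1 ht1
  have h3 : ∀ m < 108428, FactTrue (subH R S) (lt R gs 7) dd m := base.extend h2 hc2 ht2
  exact h3
theorem cosets : ∀ i < 22880, allAt LL i = true := by
  have h0 := range_start (P := allAt LL)
  have h1 : ∀ i < 1225, allAt LL i = true := range_step h0 hr0 rfl
  have h2 : ∀ i < 2450, allAt LL i = true := range_step h1 hr1 rfl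
  have h3 : ∀ i < 3675, allAt LL i = true := range_step h2 hr2 rfl
  have h4 : ∀ i < 4900, allAt LL i = true := range_step h3 hr3 rfl
  have h5 : ∀ i < 6125, allAt LL i = true := range_step h4 hr4 rfl
  have h6 : ∀ i < 7350, allAt LL i = true := range_step h5 hr5 rfl
  have h7 : ∀ i < 8575, allAt LL i = true := range_step h6 hr6 rfl
  have h8 : ∀ i < 9800, allAt LL i = true := range_step h7 hr7 rfl
  have h9 : ∀ i < 11025, allAt LL i = true := range_step h8 hr8 rfl
  have h10 : ∀ i < 12250, allAt LL i = true := range_step h9 hr9 rfl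
  have h11 : ∀ i < 13475, allAt LL i = true := range_step h10 hr10 rfl
  have h12 : ∀ i < 14700, allAt LL i = true := range_step h11 hr11 rfl
  have h13 : ∀ i < 15925, allAt LL i = true := range_step h12 hr12 rfl
  have h14 : ∀ i < 17150, allAt LL i = true := range_step h13 hr13 rfl
  have h15 : ∀ i < 18375, allAt LL i = true := range_step h14 hr14 rfl
  have h16 : ∀ i < 19600, allAt LL i = true := range_step h15 hr15 rfl
  have h17 : ∀ i < 20825, allAt LL i = true := range_step h16 hr16 rfl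
  have h18 : ∀ i < 22050, allAt LL i = true := range_step h17 hr17 rfl
  have h19 : ∀ i < 22880, allAt LL i = true := range_step h18 hr18 rfl
  exact h19

instance instNZ : NeZero 22880 := ⟨by norm_num⟩

theorem hfix' : ∀ W ∈ dd.hw.words, Cfsg.Agent.H16.Enum.walk tt 0 W = 0 := by
  intro W hW
  have e : dd.hw.words = hwL := hwT_words
  rw [e] at hW
  exact hfix W hW

theorem main : ∃ act : PresentedGroup R →* (Equiv.Perm (Fin 22880))ᵐᵒᵖ,
      TableOK (subH R S) (lt R gs 7) tt 7 22880 (fun i => rep (lt R gs 7) dd (AA i)) act tp ta ∧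
      ∀ (r : FreeGroup Cfsg.Spor.Suz.Gen) (i : Fin 22880), (ract act (PresentedGroup.mk R r) i : ℕ) = Cfsg.Agent.H16.Enum.walk tt i (letters code r) :=
  base.tableOK (M := 108428) facts (EF := EF) (A := AA) (L := LL) (WLc := WLc) hL cosets hsub hivw hA0 hfix'


/-- In the presented sporadic Suzuki group (generators a, …, g), the subgroup generated by the images of a, b, c, d, f, g has index 22880. -/
theorem result : (((Subgroup.closure ({Cfsg.Spor.Suz.a, Cfsg.Spor.Suz.b, Cfsg.Spor.Suz.c, Cfsg.Spor.Suz.d, Cfsg.Spor.Suz.f, Cfsg.Spor.Suz.g} : Set (FreeGroup Cfsg.Spor.Suz.Gen))).map (PresentedGroup.mk (Cfsg.Spor.coxRelators Cfsg.Spor.Suz.edges ∪ {r | r ∈ Cfsg.Spor.Suz.extra})))).index = 22880 := by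
  obtain ⟨act, T, hact⟩ := main
  exact T.index

end Cfsg.Agent.S1681
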