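import Cfsg.Statements.S1685
import Cfsg.Agent.Lib.H16.CE.S1685.C0
import Cfsg.Agent.Lib.H16.CE.S1685.R1
import Cfsg.Agent.Lib.H16.CE.S1685.R2
import Cfsg.Agent.Lib.H16.CE.S1685.R3

set_option autoImplicit false
open Cfsg

namespace Cfsg.Agent.S1685

open Cfsg.Agent.H16.CosetEnum Cfsg.Agent.H16.CE.S1685

def code (x : Cfsg.Spor.Fi22.Gen × Bool) : ℕ :=
  match x.1 with
  | .a => 0
  | .b => 1
  | .c => 2
  | .d => 3
  | .e => 4
  | .f => 5
  | .g => 6
  | .h => 7
  | .i => 8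


def gs (a : ℕ) : Cfsg.Spor.Fi22.Gen × Bool :=
  match a with
  | 0 => (.a, true)
  | 1 => (.b, true)
  | 2 => (.c, true)
  | 3 => (.d, true)
  | 4 => (.e, true)
  | 5 => (.f, true)
  | 6 => (.g, true)
  | 7 => (.h, true)
  | 8 => (.i, true)
  | _ => (.a, true)

abbrev R : Set (FreeGroup Cfsg.Spor.Fi22.Gen) := Cfsg.Spor.coxRelators Cfsg.Spor.Fi22.edges ∪ {r | r ∈ Cfsg.Spor.Fi22.extra}
abbrev S : Set (FreeGroup Cfsg.Spor.Fi22.Gen) := {Cfsg.Spor.Fi22.b, Cfsg.Spor.Fi22.c, Cfsg.Spor.Fi22.d, Cfsg.Spor.Fi22.e, Cfsg.Spor.Fi22.f, Cfsg.Spor.Fi22.g, Cfsg.Spor.Fi22.h, Cfsg.Spor.Fi22.i}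
def SL : List (FreeGroup Cfsg.Spor.Fi22.Gen) := [Cfsg.Spor.Fi22.b, Cfsg.Spor.Fi22.c, Cfsg.Spor.Fi22.d, Cfsg.Spor.Fi22.e, Cfsg.Spor.Fi22.f, Cfsg.Spor.Fi22.g, Cfsg.Spor.Fi22.h, Cfsg.Spor.Fi22.i]
noncomputable def dd : D := ⟨F, PL, iv, 9, rlT, hwT⟩

theorem hW1 : ((coxList Cfsg.Spor.Fi22.edges Cfsg.Spor.Fi22.extra).map (letters code)).all (fun w => decide (w ∈ WL0)) = true := by decide +kernel
theorem hW2 : WL0.all (fun w => decide (w ∈ (coxList Cfsg.Spor.Fi22.edges Cfsg.Spor.Fi22.extra).map (letters code))) = true := by decide +kernel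
theorem hder : ∀ W ∈ rlT.words, derivedOK iv WL0 W = true := by decide +kernel
theorem hhw : hwL = SL.map (letters code) := by decide +kernel
theorem hsub : ∀ W ∈ WL0, W ∈ WLc := by decide +kernel
theorem hivw : ∀ a < 9, [a, iv a] ∈ WLc := by decide +kernel

theorem base : Base R S gs code 9 dd SL WL0 :=
  base_of (by rintro ⟨g, b⟩; cases g <;> cases b <;> decide) (by decide) rfl
    (by rintro ⟨g, b⟩; cases g <;> cases b <;> rfl) (fun _ h => h)
    (by intro s; simp [S, SL]) hW1 hW2 hder (hwT_words.trans hhw)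

theorem facts : ∀ m < 83815, FactTrue (subH R S) (lt R gs 9) dd m := by
  have h0 := (fact_start (R := R) (S := S) (gs := gs) (k := 9) (d := dd))
  have h1 : ∀ m < 43488, FactTrue (subH R S) (lt R gs 9) dd m := base.extend h0 hc0 ht0
  have h2 : ∀ m < 76320, FactTrue (subH R S) (lt R gs 9) dd m := base.extend h1 hc1 ht1
  have h3 : ∀ m < 83815, FactTrue (subH R S) (lt R gs 9) dd m := base.extend h2 hc2 ht2
  exact h3
theorem cosets : ∀ i < 14080, allAt LL i = true := by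
  have h0 := range_start (P := allAt LL)
  have h1 : ∀ i < 829, allAt LL i = true := range_step h0 hr0 rfl
  have h2 : ∀ i < 1658, allAt LL i = true := range_step h1 hr1 rfl
  have h3 : ∀ i < 2487, allAt LL i = true := range_step h2 hr2 rfl
  have h4 : ∀ i < 3316, allAt LL i = true := range_step h3 hr3 rfl
  have h5 : ∀ i < 4145, allAt LL i = true := range_step h4 hr4 rfl
  have h6 : ∀ i < 4974, allAt LL i = true := range_step h5 hr5 rfl
  have h7 : ∀ i < 5803, allAt LL i = true := range_step h6 hr6 rfl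
  have h8 : ∀ i < 6632, allAt LL i = true := range_step h7 hr7 rfl
  have h9 : ∀ i < 7461, allAt LL i = true := range_step h8 hr8 rfl
  have h10 : ∀ i < 8290, allAt LL i = true := range_step h9 hr9 rfl
  have h11 : ∀ i < 9119, allAt LL i = true := range_step h10 hr10 rfl
  have h12 : ∀ i < 9948, allAt LL i = true := range_step h11 hr11 rfl
  have h13 : ∀ i < 10777, allAt LL i = true := range_step h12 hr12 rfl
  have h14 : ∀ i < 11606, allAt LL i = true := range_step h13 hr13 rfl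
  have h15 : ∀ i < 12435, allAt LL i = true := range_step h14 hr14 rfl
  have h16 : ∀ i < 13264, allAt LL i = true := range_step h15 hr15 rfl
  have h17 : ∀ i < 14080, allAt LL i = true := range_step h16 hr16 rfl
  exact h17

instance instNZ : NeZero 14080 := ⟨by norm_num⟩

theorem hfix' : ∀ W ∈ dd.hw.words, Cfsg.Agent.H16.Enum.walk tt 0 W = 0 := by
  intro W hW
  have e : dd.hw.words = hwL := hwT_words
  rw [e] at hW
  exact hfix W hW

theorem main : ∃ act : PresentedGroup R →* (Equiv.Perm (Fin 14080))ᵐᵒᵖ,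
      TableOK (subH R S) (lt R gs 9) tt 9 14080 (fun i => rep (lt R gs 9) dd (AA i)) act tp ta ∧
      ∀ (r : FreeGroup Cfsg.Spor.Fi22.Gen) (i : Fin 14080), (ract act (PresentedGroup.mk R r) i : ℕ) = Cfsg.Agent.H16.Enum.walk tt i (letters code r) :=
  base.tableOK (M := 83815) facts (EF := EF) (A := AA) (L := LL) (WLc := WLc) hL cosets hsub hivw hA0 hfix'


/-- In the presented Fischer group Fi₂₂ (generators a, …, i), the subgroup generated by the images of b, c, d, e, f, g, h, i has index 14080. -/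
theorem result : (((Subgroup.closure ({Cfsg.Spor.Fi22.b, Cfsg.Spor.Fi22.c, Cfsg.Spor.Fi22.d, Cfsg.Spor.Fi22.e, Cfsg.Spor.Fi22.f, Cfsg.Spor.Fi22.g, Cfsg.Spor.Fi22.h, Cfsg.Spor.Fi22.i} : Set (FreeGroup Cfsg.Spor.Fi22.Gen))).map (PresentedGroup.mk (Cfsg.Spor.coxRelators Cfsg.Spor.Fi22.edges ∪ {r | r ∈ Cfsg.Spor.Fi22.extra})))).index = 14080 := by
  obtain ⟨act, T, hact⟩ := main
  exact T.index

end Cfsg.Agent.S1685
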