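import Cfsg.Statements.S1686
import Cfsg.Agent.Lib.H16.O73.Surj
import Cfsg.Agent.S1685

set_option autoImplicit false
open Cfsg

namespace Cfsg.Agent.S1686
open Cfsg.Agent.H16.O73

abbrev RO : Set (FreeGroup Cfsg.Spor.Fi22.Gen) := Cfsg.Spor.coxRelators Cfsg.Spor.Fi22.edges ∪ {r | r ∈ Cfsg.Spor.Fi22.extra}

/-- The generators of `P` inside those of `Fi₂₂`. -/
def gmap : Gen → Cfsg.Spor.Fi22.Gen
  | .b => .b
  | .c => .c
  | .d => .d
  | .e => .e
  | .f => .f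
  | .g => .g
  | .h => .h
  | .i => .i

/-- The images of the generators in `Fi₂₂`. -/
def oi (x : Gen) : Cfsg.Spor.Fi22 := PresentedGroup.of (gmap x)

theorem oi_rel : ∀ r ∈ Cfsg.Spor.coxRelators edges ∪ {r | r ∈ extra}, FreeGroup.lift oi r = 1 := by
  rintro r (hr | hr)
  · exact Cfsg.Agent.H16.CoxBound.cox_lift edges Cfsg.Spor.Fi22.edges Set.subset_union_left gmap
      (by intro x _; cases x <;> decide)
      (by intro x y; cases x <;> cases y <;> rfl) r hr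
  · have hr' : r = (d * c * b * d * e * f * d * h * i) ^ 10 ∨ r = (b * c * d * e * f * g * h) ^ 9 := by
      simpa [extra] using hr
    rcases hr' with rfl | rfl
    · simp only [map_pow, map_mul, FreeGroup.lift_apply_of, oi, gmap]
      exact PresentedGroup.one_of_mem (rels := RO)
        (x := (Cfsg.Spor.Fi22.d * Cfsg.Spor.Fi22.c * Cfsg.Spor.Fi22.b * Cfsg.Spor.Fi22.d * Cfsg.Spor.Fi22.e * Cfsg.Spor.Fi22.f * Cfsg.Spor.Fi22.d * Cfsg.Spor.Fi22.h * Cfsg.Spor.Fi22.i) ^ 10)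
        (Or.inr (by simp [Cfsg.Spor.Fi22.extra]))
    · simp only [map_pow, map_mul, FreeGroup.lift_apply_of, oi, gmap]
      exact PresentedGroup.one_of_mem (rels := RO)
        (x := (Cfsg.Spor.Fi22.b * Cfsg.Spor.Fi22.c * Cfsg.Spor.Fi22.d * Cfsg.Spor.Fi22.e * Cfsg.Spor.Fi22.f * Cfsg.Spor.Fi22.g * Cfsg.Spor.Fi22.h) ^ 9)
        (Or.inr (by simp [Cfsg.Spor.Fi22.extra]))

/-- The map from `P` to `Fi₂₂`. -/
noncomputable def pio : P →* Cfsg.Spor.Fi22 := PresentedGroup.toGroup oi_rel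

theorem pio_of (x : Gen) : pio (PresentedGroup.of x) = oi x := PresentedGroup.toGroup.of oi_rel

/-- The subgroup `H` of the statement. -/
abbrev HH : Subgroup Cfsg.Spor.Fi22 := (Subgroup.closure ({Cfsg.Spor.Fi22.b, Cfsg.Spor.Fi22.c, Cfsg.Spor.Fi22.d, Cfsg.Spor.Fi22.e, Cfsg.Spor.Fi22.f, Cfsg.Spor.Fi22.g, Cfsg.Spor.Fi22.h, Cfsg.Spor.Fi22.i} : Set (FreeGroup Cfsg.Spor.Fi22.Gen))).map (PresentedGroup.mk RO)

theorem oi_mem (x : Gen) : oi x ∈ HH := by
  refine ⟨FreeGroup.of (gmap x), Subgroup.subset_closure ?_, rfl⟩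
  cases x <;> simp [gmap]

theorem pio_le : pio.range ≤ HH := by
  have : pio.range = (⊤ : Subgroup P).map pio := MonoidHom.range_eq_map pio
  rw [this, ← PresentedGroup.closure_range_of, MonoidHom.map_closure, Subgroup.closure_le]
  rintro _ ⟨_, ⟨x, rfl⟩, rfl⟩
  rw [pio_of]
  exact oi_mem x

theorem le_pio : HH ≤ pio.range := by
  show Subgroup.map _ _ ≤ _
  rw [Subgroup.map_le_iff_le_comap, Subgroup.closure_le]
  intro s hs
  have hs' : s = Cfsg.Spor.Fi22.b ∨ s = Cfsg.Spor.Fi22.c ∨ s = Cfsg.Spor.Fi22.d ∨ s = Cfsg.Spor.Fi22.e ∨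
      s = Cfsg.Spor.Fi22.f ∨ s = Cfsg.Spor.Fi22.g ∨ s = Cfsg.Spor.Fi22.h ∨ s = Cfsg.Spor.Fi22.i := by simpa using hs
  rcases hs' with rfl | rfl | rfl | rfl | rfl | rfl | rfl | rfl
  · exact ⟨PresentedGroup.of .b, pio_of .b⟩
  · exact ⟨PresentedGroup.of .c, pio_of .c⟩
  · exact ⟨PresentedGroup.of .d, pio_of .d⟩
  · exact ⟨PresentedGroup.of .e, pio_of .e⟩
  · exact ⟨PresentedGroup.of .f, pio_of .f⟩
  · exact ⟨PresentedGroup.of .g, pio_of .g⟩
  · exact ⟨PresentedGroup.of .h, pio_of .h⟩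
  · exact ⟨PresentedGroup.of .i, pio_of .i⟩

/-- The map onto `H`. -/
noncomputable def pit : P →* HH := pio.codRestrict HH (fun p => pio_le ⟨p, rfl⟩)

theorem pit_surj : Function.Surjective pit := by
  rintro ⟨y, hy⟩
  obtain ⟨p, rfl⟩ := le_pio hy
  exact ⟨p, Subtype.ext rfl⟩

/-- The map is not trivial: otherwise the whole group is trivial. -/
theorem pit_nontrivial : pit.ker ≠ ⊤ := by
  intro htop
  have hg : ∀ x : Gen, oi x = 1 := by
    intro x
    have h1 : (PresentedGroup.of x : P) ∈ pit.ker := by rw [htop]; trivial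
    have h2 := congrArg Subtype.val (MonoidHom.mem_ker.1 h1)
    have h3 : pio (PresentedGroup.of x) = 1 := h2
    rwa [pio_of] at h3
  have hb : (PresentedGroup.of Cfsg.Spor.Fi22.Gen.b : Cfsg.Spor.Fi22) = 1 := hg .b
  have ha : (PresentedGroup.of Cfsg.Spor.Fi22.Gen.a : Cfsg.Spor.Fi22) = 1 := by
    have h1 := PresentedGroup.one_of_mem (rels := RO) (x := (FreeGroup.of Cfsg.Spor.Fi22.Gen.a * FreeGroup.of Cfsg.Spor.Fi22.Gen.a) ^ 1)
      (Or.inl ⟨.a, by decide, .a, by decide, rfl⟩)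
    have h2 := PresentedGroup.one_of_mem (rels := RO) (x := (FreeGroup.of Cfsg.Spor.Fi22.Gen.a * FreeGroup.of Cfsg.Spor.Fi22.Gen.b) ^ 3)
      (Or.inl ⟨.a, by decide, .b, by decide, rfl⟩)
    simp only [pow_one, map_mul, map_pow] at h1 h2
    have e : PresentedGroup.mk RO (FreeGroup.of Cfsg.Spor.Fi22.Gen.b) = 1 := hb
    rw [e, mul_one] at h2
    have e3 : (PresentedGroup.mk RO (FreeGroup.of Cfsg.Spor.Fi22.Gen.a)) ^ 3 = PresentedGroup.mk RO (FreeGroup.of Cfsg.Spor.Fi22.Gen.a) * (PresentedGroup.mk RO (FreeGroup.of Cfsg.Spor.Fi22.Gen.a) * PresentedGroup.mk RO (FreeGroup.of Cfsg.Spor.Fi22.Gen.a)) := by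
      simp only [pow_succ, pow_zero, one_mul, mul_assoc]
    rw [e3, h1, mul_one] at h2
    exact h2
  have hall : ∀ x : Cfsg.Spor.Fi22, x = 1 := by
    intro x
    have hx : x ∈ (⊤ : Subgroup Cfsg.Spor.Fi22) := trivial
    rw [← PresentedGroup.closure_range_of] at hx
    have hle : Subgroup.closure (Set.range (PresentedGroup.of (rels := RO))) ≤ ⊥ := by
      rw [Subgroup.closure_le]
      rintro _ ⟨y, rfl⟩
      simp only [Subgroup.coe_bot, Set.mem_singleton_iff]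
      cases y
      · exact ha
      · exact hg .b
      · exact hg .c
      · exact hg .d
      · exact hg .e
      · exact hg .f
      · exact hg .g
      · exact hg .h
      · exact hg .i
    exact Subgroup.mem_bot.1 (hle hx)
  have h := Cfsg.Agent.S1685.result
  have htop' : (Subgroup.map (PresentedGroup.mk RO) (Subgroup.closure ({Cfsg.Spor.Fi22.b, Cfsg.Spor.Fi22.c, Cfsg.Spor.Fi22.d, Cfsg.Spor.Fi22.e, Cfsg.Spor.Fi22.f, Cfsg.Spor.Fi22.g, Cfsg.Spor.Fi22.h, Cfsg.Spor.Fi22.i} : Set (FreeGroup Cfsg.Spor.Fi22.Gen)))) = ⊤ := by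
    rw [eq_top_iff]
    intro x _
    rw [hall x]
    exact Subgroup.one_mem _
  rw [htop', Subgroup.index_top] at h
  omega

theorem pit_inj : Function.Injective pit := by
  haveI := simple_P
  rw [← MonoidHom.ker_eq_bot_iff]
  exact (IsSimpleGroup.eq_bot_or_eq_top_of_normal _ (MonoidHom.normal_ker pit)).resolve_right pit_nontrivial


/-- In the presented Fischer group Fi₂₂, the subgroup generated by the images of b, …, i is isomorphic to PΩ(7, 3), the commutator subgroup of the isometry group of the quadratic form x₀² + x₁y₁ + x₂y₂ + x₃y₃ over the integers mod 3, modulo its centre. -/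
theorem result : Nonempty ((((Subgroup.closure ({Cfsg.Spor.Fi22.b, Cfsg.Spor.Fi22.c, Cfsg.Spor.Fi22.d, Cfsg.Spor.Fi22.e, Cfsg.Spor.Fi22.f, Cfsg.Spor.Fi22.g, Cfsg.Spor.Fi22.h, Cfsg.Spor.Fi22.i} : Set (FreeGroup Cfsg.Spor.Fi22.Gen))).map (PresentedGroup.mk (Cfsg.Spor.coxRelators Cfsg.Spor.Fi22.edges ∪ {r | r ∈ Cfsg.Spor.Fi22.extra})))) ≃* Cfsg.POmega (ZMod 3) (Cfsg.quadFormOdd 3 (ZMod 3))) := by
  exact ⟨(MulEquiv.ofBijective pit ⟨pit_inj, pit_surj⟩).symm.trans thEquiv⟩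

end Cfsg.Agent.S1686
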