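import Cfsg.Statements.S1690
import Cfsg.Agent.Lib.H16.CE.S1690.C0
import Cfsg.Agent.Lib.H16.CE.S1690.C1
import Cfsg.Agent.Lib.H16.CE.S1690.C2
import Cfsg.Agent.Lib.H16.CE.S1690.C3
import Cfsg.Agent.Lib.H16.CE.S1690.C4
import Cfsg.Agent.Lib.H16.CE.S1690.C5
import Cfsg.Agent.Lib.H16.CE.S1690.C6
import Cfsg.Agent.Lib.H16.CE.S1690.C7
import Cfsg.Agent.Lib.H16.CE.S1690.R8
import Cfsg.Agent.Lib.H16.CE.S1690.R9
import Cfsg.Agent.Lib.H16.CE.S1690.R10
import Cfsg.Agent.Lib.H16.CE.S1690.R11
import Cfsg.Agent.Lib.H16.CE.S1690.R12
import Cfsg.Agent.Lib.H16.CE.S1690.R13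
import Cfsg.Agent.Lib.H16.CE.S1690.R14
import Cfsg.Agent.Lib.H16.CE.S1690.R15
import Cfsg.Agent.Lib.H16.CE.S1690.R16
import Cfsg.Agent.Lib.H16.CE.S1690.R17
import Cfsg.Agent.Lib.H16.CE.S1690.R18
import Cfsg.Agent.Lib.H16.CE.S1690.R19
import Cfsg.Agent.Lib.H16.CE.S1690.R20
import Cfsg.Agent.Lib.H16.CE.S1690.R21
import Cfsg.Agent.Lib.H16.CE.S1690.R22
import Cfsg.Agent.Lib.H16.CE.S1690.R23
import Cfsg.Agent.Lib.H16.CE.S1690.R24
import Cfsg.Agent.Lib.H16.CE.S1690.R25
import Cfsg.Agent.Lib.H16.CE.S1690.R26
import Cfsg.Agent.Lib.H16.CE.S1690.R27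
import Cfsg.Agent.Lib.H16.CE.S1690.R28
import Cfsg.Agent.Lib.H16.CE.S1690.R29
import Cfsg.Agent.Lib.H16.CE.S1690.R30
import Cfsg.Agent.Lib.H16.CE.S1690.R31
import Cfsg.Agent.Lib.H16.CE.S1690.R32
import Cfsg.Agent.Lib.H16.CE.S1690.R33
import Cfsg.Agent.Lib.H16.CE.S1690.R34
import Cfsg.Agent.Lib.H16.CE.S1690.R35
import Cfsg.Agent.Lib.H16.CE.S1690.R36
import Cfsg.Agent.Lib.H16.CE.S1690.R37
import Cfsg.Agent.Lib.H16.CE.S1690.R38
import Cfsg.Agent.Lib.H16.CE.S1690.R39
import Cfsg.Agent.Lib.H16.CE.S1690.R40
import Cfsg.Agent.Lib.H16.CE.S1690.R41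
import Cfsg.Agent.Lib.H16.CE.S1690.R42
import Cfsg.Agent.Lib.H16.CE.S1690.R43
import Cfsg.Agent.Lib.H16.CE.S1690.R44
import Cfsg.Agent.Lib.H16.CE.S1690.R45
import Cfsg.Agent.Lib.H16.CE.S1690.R46
import Cfsg.Agent.Lib.H16.CE.S1690.R47
import Cfsg.Agent.Lib.H16.CE.S1690.R48
import Cfsg.Agent.Lib.H16.CE.S1690.R49
import Cfsg.Agent.Lib.H16.CE.S1690.R50
import Cfsg.Agent.Lib.H16.CE.S1690.R51
import Cfsg.Agent.Lib.H16.CE.S1690.R52
import Cfsg.Agent.Lib.H16.CE.S1690.R53
import Cfsg.Agent.Lib.H16.CE.S1690.R54
import Cfsg.Agent.Lib.H16.CE.S1690.R55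
import Cfsg.Agent.Lib.H16.CE.S1690.R56
import Cfsg.Agent.Lib.H16.CE.S1690.R57
import Cfsg.Agent.Lib.H16.CE.S1690.R58
import Cfsg.Agent.Lib.H16.CE.S1690.R59
import Cfsg.Agent.Lib.H16.CE.S1690.R60
import Cfsg.Agent.Lib.H16.CE.S1690.R61
import Cfsg.Agent.Lib.H16.CE.S1690.R62
import Cfsg.Agent.Lib.H16.CE.S1690.R63
import Cfsg.Agent.Lib.H16.CE.S1690.R64
import Cfsg.Agent.Lib.H16.CE.S1690.R65
import Cfsg.Agent.Lib.H16.CE.S1690.R66
import Cfsg.Agent.Lib.H16.CE.S1690.R67
import Cfsg.Agent.Lib.H16.CE.S1690.R68
import Cfsg.Agent.Lib.H16.CE.S1690.R69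
import Cfsg.Agent.Lib.H16.CE.S1690.R70
import Cfsg.Agent.Lib.H16.CE.S1690.R71
import Cfsg.Agent.Lib.H16.CE.S1690.R72
import Cfsg.Agent.Lib.H16.CE.S1690.R73
import Cfsg.Agent.Lib.H16.CE.S1690.R74
import Cfsg.Agent.Lib.H16.CE.S1690.R75
import Cfsg.Agent.Lib.H16.CE.S1690.R76
import Cfsg.Agent.Lib.H16.CE.S1690.R77
import Cfsg.Agent.Lib.H16.CE.S1690.R78
import Cfsg.Agent.Lib.H16.CE.S1690.R79
import Cfsg.Agent.Lib.H16.CE.S1690.R80
import Cfsg.Agent.Lib.H16.CE.S1690.R81

set_option autoImplicit false
open Cfsg

namespace Cfsg.Agent.S1690

open Cfsg.Agent.H16.CosetEnum Cfsg.Agent.H16.CE.S1690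

def code (x : Cfsg.Spor.Fi24.Gen × Bool) : ℕ :=
  match x.1 with
  | .l => 0
  | .k => 1
  | .a => 2
  | .b => 3
  | .c => 4
  | .d => 5
  | .e => 6
  | .f => 7
  | .g => 8
  | .j => 9
  | .h => 10
  | .i => 11


def gs (a : ℕ) : Cfsg.Spor.Fi24.Gen × Bool :=
  match a with
  | 0 => (.l, true)
  | 1 => (.k, true)
  | 2 => (.a, true)
  | 3 => (.b, true)
  | 4 => (.c, true)
  | 5 => (.d, true)
  | 6 => (.e, true)
  | 7 => (.f, true)
  | 8 => (.g, true)
  | 9 => (.j, true)
  | 10 => (.h, true)
  | 11 => (.i, true)
  | _ => (.l, true)

abbrev R : Set (FreeGroup Cfsg.Spor.Fi24.Gen) := Cfsg.Spor.coxRelators Cfsg.Spor.Fi24.edges ∪ {r | r ∈ Cfsg.Spor.Fi24.extra}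
abbrev S : Set (FreeGroup Cfsg.Spor.Fi24.Gen) := {Cfsg.Spor.Fi24.a, Cfsg.Spor.Fi24.b, Cfsg.Spor.Fi24.c, Cfsg.Spor.Fi24.d, Cfsg.Spor.Fi24.e, Cfsg.Spor.Fi24.f, Cfsg.Spor.Fi24.g, Cfsg.Spor.Fi24.h, Cfsg.Spor.Fi24.i, Cfsg.Spor.Fi24.j, Cfsg.Spor.Fi24.l}
def SL : List (FreeGroup Cfsg.Spor.Fi24.Gen) := [Cfsg.Spor.Fi24.a, Cfsg.Spor.Fi24.b, Cfsg.Spor.Fi24.c, Cfsg.Spor.Fi24.d, Cfsg.Spor.Fi24.e, Cfsg.Spor.Fi24.f, Cfsg.Spor.Fi24.g, Cfsg.Spor.Fi24.h, Cfsg.Spor.Fi24.i, Cfsg.Spor.Fi24.j, Cfsg.Spor.Fi24.l]
noncomputable def dd : D := ⟨F, PL, iv, 12, rlT, hwT⟩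

theorem hW1 : ((coxList Cfsg.Spor.Fi24.edges Cfsg.Spor.Fi24.extra).map (letters code)).all (fun w => decide (w ∈ WL0)) = true := by decide +kernel
theorem hW2 : WL0.all (fun w => decide (w ∈ (coxList Cfsg.Spor.Fi24.edges Cfsg.Spor.Fi24.extra).map (letters code))) = true := by decide +kernel
theorem hder : ∀ W ∈ rlT.words, derivedOK iv WL0 W = true := by decide +kernel
theorem hhw : hwL = SL.map (letters code) := by decide +kernel
theorem hsub : ∀ W ∈ WL0, W ∈ WLc := by decide +kernel
theorem hivw : ∀ a < 12, [a, iv a] ∈ WLc := by decide +kernel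

theorem base : Base R S gs code 12 dd SL WL0 :=
  base_of (by rintro ⟨g, b⟩; cases g <;> cases b <;> decide) (by decide) rfl
    (by rintro ⟨g, b⟩; cases g <;> cases b <;> rfl) (fun _ h => h)
    (by intro s; simp [S, SL]) hW1 hW2 hder (hwT_words.trans hhw)

theorem facts : ∀ m < 2291781, FactTrue (subH R S) (lt R gs 12) dd m := by
  have h0 := (fact_start (R := R) (S := S) (gs := gs) (k := 12) (d := dd))
  have h1 : ∀ m < 40320, FactTrue (subH R S) (lt R gs 12) dd m := base.extend h0 hc0 ht0
  have h2 : ∀ m < 81952, FactTrue (subH R S) (lt R gs 12) dd m := base.extend h1 hc1 ht1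
  have h3 : ∀ m < 122816, FactTrue (subH R S) (lt R gs 12) dd m := base.extend h2 hc2 ht2
  have h4 : ∀ m < 164416, FactTrue (subH R S) (lt R gs 12) dd m := base.extend h3 hc3 ht3
  have h5 : ∀ m < 206336, FactTrue (subH R S) (lt R gs 12) dd m := base.extend h4 hc4 ht4
  have h6 : ∀ m < 248832, FactTrue (subH R S) (lt R gs 12) dd m := base.extend h5 hc5 ht5
  have h7 : ∀ m < 292032, FactTrue (subH R S) (lt R gs 12) dd m := base.extend h6 hc6 ht6
  have h8 : ∀ m < 334624, FactTrue (subH R S) (lt R gs 12) dd m := base.extend h7 hc7 ht7
  have h9 : ∀ m < 378592, FactTrue (subH R S) (lt R gs 12) dd m := base.extend h8 hc8 ht8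
  have h10 : ∀ m < 421248, FactTrue (subH R S) (lt R gs 12) dd m := base.extend h9 hc9 ht9
  have h11 : ∀ m < 465280, FactTrue (subH R S) (lt R gs 12) dd m := base.extend h10 hc10 ht10
  have h12 : ∀ m < 507840, FactTrue (subH R S) (lt R gs 12) dd m := base.extend h11 hc11 ht11
  have h13 : ∀ m < 550816, FactTrue (subH R S) (lt R gs 12) dd m := base.extend h12 hc12 ht12
  have h14 : ∀ m < 594560, FactTrue (subH R S) (lt R gs 12) dd m := base.extend h13 hc13 ht13
  have h15 : ∀ m < 642144, FactTrue (subH R S) (lt R gs 12) dd m := base.extend h14 hc14 ht14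
  have h16 : ∀ m < 691424, FactTrue (subH R S) (lt R gs 12) dd m := base.extend h15 hc15 ht15
  have h17 : ∀ m < 739168, FactTrue (subH R S) (lt R gs 12) dd m := base.extend h16 hc16 ht16
  have h18 : ∀ m < 778304, FactTrue (subH R S) (lt R gs 12) dd m := base.extend h17 hc17 ht17
  have h19 : ∀ m < 818912, FactTrue (subH R S) (lt R gs 12) dd m := base.extend h18 hc18 ht18
  have h20 : ∀ m < 857472, FactTrue (subH R S) (lt R gs 12) dd m := base.extend h19 hc19 ht19
  have h21 : ∀ m < 896576, FactTrue (subH R S) (lt R gs 12) dd m := base.extend h20 hc20 ht20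
  have h22 : ∀ m < 937184, FactTrue (subH R S) (lt R gs 12) dd m := base.extend h21 hc21 ht21
  have h23 : ∀ m < 975296, FactTrue (subH R S) (lt R gs 12) dd m := base.extend h22 hc22 ht22
  have h24 : ∀ m < 1014496, FactTrue (subH R S) (lt R gs 12) dd m := base.extend h23 hc23 ht23
  have h25 : ∀ m < 1055232, FactTrue (subH R S) (lt R gs 12) dd m := base.extend h24 hc24 ht24
  have h26 : ∀ m < 1093376, FactTrue (subH R S) (lt R gs 12) dd m := base.extend h25 hc25 ht25
  have h27 : ∀ m < 1132096, FactTrue (subH R S) (lt R gs 12) dd m := base.extend h26 hc26 ht26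
  have h28 : ∀ m < 1171968, FactTrue (subH R S) (lt R gs 12) dd m := base.extend h27 hc27 ht27
  have h29 : ∀ m < 1211584, FactTrue (subH R S) (lt R gs 12) dd m := base.extend h28 hc28 ht28
  have h30 : ∀ m < 1249696, FactTrue (subH R S) (lt R gs 12) dd m := base.extend h29 hc29 ht29
  have h31 : ∀ m < 1289248, FactTrue (subH R S) (lt R gs 12) dd m := base.extend h30 hc30 ht30
  have h32 : ∀ m < 1330176, FactTrue (subH R S) (lt R gs 12) dd m := base.extend h31 hc31 ht31
  have h33 : ∀ m < 1368320, FactTrue (subH R S) (lt R gs 12) dd m := base.extend h32 hc32 ht32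
  have h34 : ∀ m < 1406944, FactTrue (subH R S) (lt R gs 12) dd m := base.extend h33 hc33 ht33
  have h35 : ∀ m < 1446112, FactTrue (subH R S) (lt R gs 12) dd m := base.extend h34 hc34 ht34
  have h36 : ∀ m < 1487072, FactTrue (subH R S) (lt R gs 12) dd m := base.extend h35 hc35 ht35
  have h37 : ∀ m < 1524480, FactTrue (subH R S) (lt R gs 12) dd m := base.extend h36 hc36 ht36
  have h38 : ∀ m < 1562944, FactTrue (subH R S) (lt R gs 12) dd m := base.extend h37 hc37 ht37
  have h39 : ∀ m < 1601984, FactTrue (subH R S) (lt R gs 12) dd m := base.extend h38 hc38 ht38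
  have h40 : ∀ m < 1642112, FactTrue (subH R S) (lt R gs 12) dd m := base.extend h39 hc39 ht39
  have h41 : ∀ m < 1679776, FactTrue (subH R S) (lt R gs 12) dd m := base.extend h40 hc40 ht40
  have h42 : ∀ m < 1717440, FactTrue (subH R S) (lt R gs 12) dd m := base.extend h41 hc41 ht41
  have h43 : ∀ m < 1755264, FactTrue (subH R S) (lt R gs 12) dd m := base.extend h42 hc42 ht42
  have h44 : ∀ m < 1793920, FactTrue (subH R S) (lt R gs 12) dd m := base.extend h43 hc43 ht43
  have h45 : ∀ m < 1831648, FactTrue (subH R S) (lt R gs 12) dd m := base.extend h44 hc44 ht44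
  have h46 : ∀ m < 1868096, FactTrue (subH R S) (lt R gs 12) dd m := base.extend h45 hc45 ht45
  have h47 : ∀ m < 1904512, FactTrue (subH R S) (lt R gs 12) dd m := base.extend h46 hc46 ht46
  have h48 : ∀ m < 1940352, FactTrue (subH R S) (lt R gs 12) dd m := base.extend h47 hc47 ht47
  have h49 : ∀ m < 1977696, FactTrue (subH R S) (lt R gs 12) dd m := base.extend h48 hc48 ht48
  have h50 : ∀ m < 2010976, FactTrue (subH R S) (lt R gs 12) dd m := base.extend h49 hc49 ht49
  have h51 : ∀ m < 2043200, FactTrue (subH R S) (lt R gs 12) dd m := base.extend h50 hc50 ht50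
  have h52 : ∀ m < 2076064, FactTrue (subH R S) (lt R gs 12) dd m := base.extend h51 hc51 ht51
  have h53 : ∀ m < 2109184, FactTrue (subH R S) (lt R gs 12) dd m := base.extend h52 hc52 ht52
  have h54 : ∀ m < 2137152, FactTrue (subH R S) (lt R gs 12) dd m := base.extend h53 hc53 ht53
  have h55 : ∀ m < 2163776, FactTrue (subH R S) (lt R gs 12) dd m := base.extend h54 hc54 ht54
  have h56 : ∀ m < 2191424, FactTrue (subH R S) (lt R gs 12) dd m := base.extend h55 hc55 ht55
  have h57 : ∀ m < 2215040, FactTrue (subH R S) (lt R gs 12) dd m := base.extend h56 hc56 ht56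
  have h58 : ∀ m < 2236448, FactTrue (subH R S) (lt R gs 12) dd m := base.extend h57 hc57 ht57
  have h59 : ∀ m < 2256288, FactTrue (subH R S) (lt R gs 12) dd m := base.extend h58 hc58 ht58
  have h60 : ∀ m < 2271936, FactTrue (subH R S) (lt R gs 12) dd m := base.extend h59 hc59 ht59
  have h61 : ∀ m < 2285248, FactTrue (subH R S) (lt R gs 12) dd m := base.extend h60 hc60 ht60
  have h62 : ∀ m < 2291781, FactTrue (subH R S) (lt R gs 12) dd m := base.extend h61 hc61 ht61
  exact h62
theorem cosets : ∀ i < 306936, allAt LL i = true := by
  have h0 := range_start (P := allAt LL)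
  have h1 : ∀ i < 519, allAt LL i = true := range_step h0 hr0 rfl
  have h2 : ∀ i < 1038, allAt LL i = true := range_step h1 hr1 rfl
  have h3 : ∀ i < 1557, allAt LL i = true := range_step h2 hr2 rfl
  have h4 : ∀ i < 2076, allAt LL i = true := range_step h3 hr3 rfl
  have h5 : ∀ i < 2595, allAt LL i = true := range_step h4 hr4 rfl
  have h6 : ∀ i < 3114, allAt LL i = true := range_step h5 hr5 rfl
  have h7 : ∀ i < 3633, allAt LL i = true := range_step h6 hr6 rfl
  have h8 : ∀ i < 4152, allAt LL i = true := range_step h7 hr7 rfl
  have h9 : ∀ i < 4671, allAt LL i = true := range_step h8 hr8 rfl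
  have h10 : ∀ i < 5190, allAt LL i = true := range_step h9 hr9 rfl
  have h11 : ∀ i < 5709, allAt LL i = true := range_step h10 hr10 rfl
  have h12 : ∀ i < 6228, allAt LL i = true := range_step h11 hr11 rfl
  have h13 : ∀ i < 6747, allAt LL i = true := range_step h12 hr12 rfl
  have h14 : ∀ i < 7266, allAt LL i = true := range_step h13 hr13 rfl
  have h15 : ∀ i < 7785, allAt LL i = true := range_step h14 hr14 rfl
  have h16 : ∀ i < 8304, allAt LL i = true := range_step h15 hr15 rfl
  have h17 : ∀ i < 8823, allAt LL i = true := range_step h16 hr16 rfl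
  have h18 : ∀ i < 9342, allAt LL i = true := range_step h17 hr17 rfl
  have h19 : ∀ i < 9861, allAt LL i = true := range_step h18 hr18 rfl
  have h20 : ∀ i < 10380, allAt LL i = true := range_step h19 hr19 rfl
  have h21 : ∀ i < 10899, allAt LL i = true := range_step h20 hr20 rfl
  have h22 : ∀ i < 11418, allAt LL i = true := range_step h21 hr21 rfl
  have h23 : ∀ i < 11937, allAt LL i = true := range_step h22 hr22 rfl
  have h24 : ∀ i < 12456, allAt LL i = true := range_step h23 hr23 rfl
  have h25 : ∀ i < 12975, allAt LL i = true := range_step h24 hr24 rfl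
  have h26 : ∀ i < 13494, allAt LL i = true := range_step h25 hr25 rfl
  have h27 : ∀ i < 14013, allAt LL i = true := range_step h26 hr26 rfl
  have h28 : ∀ i < 14532, allAt LL i = true := range_step h27 hr27 rfl
  have h29 : ∀ i < 15051, allAt LL i = true := range_step h28 hr28 rfl
  have h30 : ∀ i < 15570, allAt LL i = true := range_step h29 hr29 rfl
  have h31 : ∀ i < 16089, allAt LL i = true := range_step h30 hr30 rfl
  have h32 : ∀ i < 16608, allAt LL i = true := range_step h31 hr31 rfl
  have h33 : ∀ i < 17127, allAt LL i = true := range_step h32 hr32 rfl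
  have h34 : ∀ i < 17646, allAt LL i = true := range_step h33 hr33 rfl
  have h35 : ∀ i < 18165, allAt LL i = true := range_step h34 hr34 rfl
  have h36 : ∀ i < 18684, allAt LL i = true := range_step h35 hr35 rfl
  have h37 : ∀ i < 19203, allAt LL i = true := range_step h36 hr36 rfl
  have h38 : ∀ i < 19722, allAt LL i = true := range_step h37 hr37 rfl
  have h39 : ∀ i < 20241, allAt LL i = true := range_step h38 hr38 rfl
  have h40 : ∀ i < 20760, allAt LL i = true := range_step h39 hr39 rfl
  have h41 : ∀ i < 21279, allAt LL i = true := range_step h40 hr40 rfl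
  have h42 : ∀ i < 21798, allAt LL i = true := range_step h41 hr41 rfl
  have h43 : ∀ i < 22317, allAt LL i = true := range_step h42 hr42 rfl
  have h44 : ∀ i < 22836, allAt LL i = true := range_step h43 hr43 rfl
  have h45 : ∀ i < 23355, allAt LL i = true := range_step h44 hr44 rfl
  have h46 : ∀ i < 23874, allAt LL i = true := range_step h45 hr45 rfl
  have h47 : ∀ i < 24393, allAt LL i = true := range_step h46 hr46 rfl
  have h48 : ∀ i < 24912, allAt LL i = true := range_step h47 hr47 rfl
  have h49 : ∀ i < 25431, allAt LL i = true := range_step h48 hr48 rfl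
  have h50 : ∀ i < 25950, allAt LL i = true := range_step h49 hr49 rfl
  have h51 : ∀ i < 26469, allAt LL i = true := range_step h50 hr50 rfl
  have h52 : ∀ i < 26988, allAt LL i = true := range_step h51 hr51 rfl
  have h53 : ∀ i < 27507, allAt LL i = true := range_step h52 hr52 rfl
  have h54 : ∀ i < 28026, allAt LL i = true := range_step h53 hr53 rfl
  have h55 : ∀ i < 28545, allAt LL i = true := range_step h54 hr54 rfl
  have h56 : ∀ i < 29064, allAt LL i = true := range_step h55 hr55 rfl
  have h57 : ∀ i < 29583, allAt LL i = true := range_step h56 hr56 rfl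
  have h58 : ∀ i < 30102, allAt LL i = true := range_step h57 hr57 rfl
  have h59 : ∀ i < 30621, allAt LL i = true := range_step h58 hr58 rfl
  have h60 : ∀ i < 31140, allAt LL i = true := range_step h59 hr59 rfl
  have h61 : ∀ i < 31659, allAt LL i = true := range_step h60 hr60 rfl
  have h62 : ∀ i < 32178, allAt LL i = true := range_step h61 hr61 rfl
  have h63 : ∀ i < 32697, allAt LL i = true := range_step h62 hr62 rfl
  have h64 : ∀ i < 33216, allAt LL i = true := range_step h63 hr63 rfl
  have h65 : ∀ i < 33735, allAt LL i = true := range_step h64 hr64 rfl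
  have h66 : ∀ i < 34254, allAt LL i = true := range_step h65 hr65 rfl
  have h67 : ∀ i < 34773, allAt LL i = true := range_step h66 hr66 rfl
  have h68 : ∀ i < 35292, allAt LL i = true := range_step h67 hr67 rfl
  have h69 : ∀ i < 35811, allAt LL i = true := range_step h68 hr68 rfl
  have h70 : ∀ i < 36330, allAt LL i = true := range_step h69 hr69 rfl
  have h71 : ∀ i < 36849, allAt LL i = true := range_step h70 hr70 rfl
  have h72 : ∀ i < 37368, allAt LL i = true := range_step h71 hr71 rfl
  have h73 : ∀ i < 37887, allAt LL i = true := range_step h72 hr72 rfl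
  have h74 : ∀ i < 38406, allAt LL i = true := range_step h73 hr73 rfl
  have h75 : ∀ i < 38925, allAt LL i = true := range_step h74 hr74 rfl
  have h76 : ∀ i < 39444, allAt LL i = true := range_step h75 hr75 rfl
  have h77 : ∀ i < 39963, allAt LL i = true := range_step h76 hr76 rfl
  have h78 : ∀ i < 40482, allAt LL i = true := range_step h77 hr77 rfl
  have h79 : ∀ i < 41001, allAt LL i = true := range_step h78 hr78 rfl
  have h80 : ∀ i < 41520, allAt LL i = true := range_step h79 hr79 rfl
  have h81 : ∀ i < 42039, allAt LL i = true := range_step h80 hr80 rfl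
  have h82 : ∀ i < 42558, allAt LL i = true := range_step h81 hr81 rfl
  have h83 : ∀ i < 43077, allAt LL i = true := range_step h82 hr82 rfl
  have h84 : ∀ i < 43596, allAt LL i = true := range_step h83 hr83 rfl
  have h85 : ∀ i < 44115, allAt LL i = true := range_step h84 hr84 rfl
  have h86 : ∀ i < 44634, allAt LL i = true := range_step h85 hr85 rfl
  have h87 : ∀ i < 45153, allAt LL i = true := range_step h86 hr86 rfl
  have h88 : ∀ i < 45672, allAt LL i = true := range_step h87 hr87 rfl
  have h89 : ∀ i < 46191, allAt LL i = true := range_step h88 hr88 rfl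
  have h90 : ∀ i < 46710, allAt LL i = true := range_step h89 hr89 rfl
  have h91 : ∀ i < 47229, allAt LL i = true := range_step h90 hr90 rfl
  have h92 : ∀ i < 47748, allAt LL i = true := range_step h91 hr91 rfl
  have h93 : ∀ i < 48267, allAt LL i = true := range_step h92 hr92 rfl
  have h94 : ∀ i < 48786, allAt LL i = true := range_step h93 hr93 rfl
  have h95 : ∀ i < 49305, allAt LL i = true := range_step h94 hr94 rfl
  have h96 : ∀ i < 49824, allAt LL i = true := range_step h95 hr95 rfl
  have h97 : ∀ i < 50343, allAt LL i = true := range_step h96 hr96 rfl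
  have h98 : ∀ i < 50862, allAt LL i = true := range_step h97 hr97 rfl
  have h99 : ∀ i < 51381, allAt LL i = true := range_step h98 hr98 rfl
  have h100 : ∀ i < 51900, allAt LL i = true := range_step h99 hr99 rfl
  have h101 : ∀ i < 52419, allAt LL i = true := range_step h100 hr100 rfl
  have h102 : ∀ i < 52938, allAt LL i = true := range_step h101 hr101 rfl
  have h103 : ∀ i < 53457, allAt LL i = true := range_step h102 hr102 rfl
  have h104 : ∀ i < 53976, allAt LL i = true := range_step h103 hr103 rfl
  have h105 : ∀ i < 54495, allAt LL i = true := range_step h104 hr104 rfl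
  have h106 : ∀ i < 55014, allAt LL i = true := range_step h105 hr105 rfl
  have h107 : ∀ i < 55533, allAt LL i = true := range_step h106 hr106 rfl
  have h108 : ∀ i < 56052, allAt LL i = true := range_step h107 hr107 rfl
  have h109 : ∀ i < 56571, allAt LL i = true := range_step h108 hr108 rfl
  have h110 : ∀ i < 57090, allAt LL i = true := range_step h109 hr109 rfl
  have h111 : ∀ i < 57609, allAt LL i = true := range_step h110 hr110 rfl
  have h112 : ∀ i < 58128, allAt LL i = true := range_step h111 hr111 rfl
  have h113 : ∀ i < 58647, allAt LL i = true := range_step h112 hr112 rfl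
  have h114 : ∀ i < 59166, allAt LL i = true := range_step h113 hr113 rfl
  have h115 : ∀ i < 59685, allAt LL i = true := range_step h114 hr114 rfl
  have h116 : ∀ i < 60204, allAt LL i = true := range_step h115 hr115 rfl
  have h117 : ∀ i < 60723, allAt LL i = true := range_step h116 hr116 rfl
  have h118 : ∀ i < 61242, allAt LL i = true := range_step h117 hr117 rfl
  have h119 : ∀ i < 61761, allAt LL i = true := range_step h118 hr118 rfl
  have h120 : ∀ i < 62280, allAt LL i = true := range_step h119 hr119 rfl
  have h121 : ∀ i < 62799, allAt LL i = true := range_step h120 hr120 rfl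
  have h122 : ∀ i < 63318, allAt LL i = true := range_step h121 hr121 rfl
  have h123 : ∀ i < 63837, allAt LL i = true := range_step h122 hr122 rfl
  have h124 : ∀ i < 64356, allAt LL i = true := range_step h123 hr123 rfl
  have h125 : ∀ i < 64875, allAt LL i = true := range_step h124 hr124 rfl
  have h126 : ∀ i < 65394, allAt LL i = true := range_step h125 hr125 rfl
  have h127 : ∀ i < 65913, allAt LL i = true := range_step h126 hr126 rfl
  have h128 : ∀ i < 66432, allAt LL i = true := range_step h127 hr127 rfl
  have h129 : ∀ i < 66951, allAt LL i = true := range_step h128 hr128 rfl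
  have h130 : ∀ i < 67470, allAt LL i = true := range_step h129 hr129 rfl
  have h131 : ∀ i < 67989, allAt LL i = true := range_step h130 hr130 rfl
  have h132 : ∀ i < 68508, allAt LL i = true := range_step h131 hr131 rfl
  have h133 : ∀ i < 69027, allAt LL i = true := range_step h132 hr132 rfl
  have h134 : ∀ i < 69546, allAt LL i = true := range_step h133 hr133 rfl
  have h135 : ∀ i < 70065, allAt LL i = true := range_step h134 hr134 rfl
  have h136 : ∀ i < 70584, allAt LL i = true := range_step h135 hr135 rfl
  have h137 : ∀ i < 71103, allAt LL i = true := range_step h136 hr136 rfl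
  have h138 : ∀ i < 71622, allAt LL i = true := range_step h137 hr137 rfl
  have h139 : ∀ i < 72141, allAt LL i = true := range_step h138 hr138 rfl
  have h140 : ∀ i < 72660, allAt LL i = true := range_step h139 hr139 rfl
  have h141 : ∀ i < 73179, allAt LL i = true := range_step h140 hr140 rfl
  have h142 : ∀ i < 73698, allAt LL i = true := range_step h141 hr141 rfl
  have h143 : ∀ i < 74217, allAt LL i = true := range_step h142 hr142 rfl
  have h144 : ∀ i < 74736, allAt LL i = true := range_step h143 hr143 rfl
  have h145 : ∀ i < 75255, allAt LL i = true := range_step h144 hr144 rfl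
  have h146 : ∀ i < 75774, allAt LL i = true := range_step h145 hr145 rfl
  have h147 : ∀ i < 76293, allAt LL i = true := range_step h146 hr146 rfl
  have h148 : ∀ i < 76812, allAt LL i = true := range_step h147 hr147 rfl
  have h149 : ∀ i < 77331, allAt LL i = true := range_step h148 hr148 rfl
  have h150 : ∀ i < 77850, allAt LL i = true := range_step h149 hr149 rfl
  have h151 : ∀ i < 78369, allAt LL i = true := range_step h150 hr150 rfl
  have h152 : ∀ i < 78888, allAt LL i = true := range_step h151 hr151 rfl
  have h153 : ∀ i < 79407, allAt LL i = true := range_step h152 hr152 rfl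
  have h154 : ∀ i < 79926, allAt LL i = true := range_step h153 hr153 rfl
  have h155 : ∀ i < 80445, allAt LL i = true := range_step h154 hr154 rfl
  have h156 : ∀ i < 80964, allAt LL i = true := range_step h155 hr155 rfl
  have h157 : ∀ i < 81483, allAt LL i = true := range_step h156 hr156 rfl
  have h158 : ∀ i < 82002, allAt LL i = true := range_step h157 hr157 rfl
  have h159 : ∀ i < 82521, allAt LL i = true := range_step h158 hr158 rfl
  have h160 : ∀ i < 83040, allAt LL i = true := range_step h159 hr159 rfl
  have h161 : ∀ i < 83559, allAt LL i = true := range_step h160 hr160 rfl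
  have h162 : ∀ i < 84078, allAt LL i = true := range_step h161 hr161 rfl
  have h163 : ∀ i < 84597, allAt LL i = true := range_step h162 hr162 rfl
  have h164 : ∀ i < 85116, allAt LL i = true := range_step h163 hr163 rfl
  have h165 : ∀ i < 85635, allAt LL i = true := range_step h164 hr164 rfl
  have h166 : ∀ i < 86154, allAt LL i = true := range_step h165 hr165 rfl
  have h167 : ∀ i < 86673, allAt LL i = true := range_step h166 hr166 rfl
  have h168 : ∀ i < 87192, allAt LL i = true := range_step h167 hr167 rfl
  have h169 : ∀ i < 87711, allAt LL i = true := range_step h168 hr168 rfl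
  have h170 : ∀ i < 88230, allAt LL i = true := range_step h169 hr169 rfl
  have h171 : ∀ i < 88749, allAt LL i = true := range_step h170 hr170 rfl
  have h172 : ∀ i < 89268, allAt LL i = true := range_step h171 hr171 rfl
  have h173 : ∀ i < 89787, allAt LL i = true := range_step h172 hr172 rfl
  have h174 : ∀ i < 90306, allAt LL i = true := range_step h173 hr173 rfl
  have h175 : ∀ i < 90825, allAt LL i = true := range_step h174 hr174 rfl
  have h176 : ∀ i < 91344, allAt LL i = true := range_step h175 hr175 rfl
  have h177 : ∀ i < 91863, allAt LL i = true := range_step h176 hr176 rfl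
  have h178 : ∀ i < 92382, allAt LL i = true := range_step h177 hr177 rfl
  have h179 : ∀ i < 92901, allAt LL i = true := range_step h178 hr178 rfl
  have h180 : ∀ i < 93420, allAt LL i = true := range_step h179 hr179 rfl
  have h181 : ∀ i < 93939, allAt LL i = true := range_step h180 hr180 rfl
  have h182 : ∀ i < 94458, allAt LL i = true := range_step h181 hr181 rfl
  have h183 : ∀ i < 94977, allAt LL i = true := range_step h182 hr182 rfl
  have h184 : ∀ i < 95496, allAt LL i = true := range_step h183 hr183 rfl
  have h185 : ∀ i < 96015, allAt LL i = true := range_step h184 hr184 rfl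
  have h186 : ∀ i < 96534, allAt LL i = true := range_step h185 hr185 rfl
  have h187 : ∀ i < 97053, allAt LL i = true := range_step h186 hr186 rfl
  have h188 : ∀ i < 97572, allAt LL i = true := range_step h187 hr187 rfl
  have h189 : ∀ i < 98091, allAt LL i = true := range_step h188 hr188 rfl
  have h190 : ∀ i < 98610, allAt LL i = true := range_step h189 hr189 rfl
  have h191 : ∀ i < 99129, allAt LL i = true := range_step h190 hr190 rfl
  have h192 : ∀ i < 99648, allAt LL i = true := range_step h191 hr191 rfl
  have h193 : ∀ i < 100167, allAt LL i = true := range_step h192 hr192 rfl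
  have h194 : ∀ i < 100686, allAt LL i = true := range_step h193 hr193 rfl
  have h195 : ∀ i < 101205, allAt LL i = true := range_step h194 hr194 rfl
  have h196 : ∀ i < 101724, allAt LL i = true := range_step h195 hr195 rfl
  have h197 : ∀ i < 102243, allAt LL i = true := range_step h196 hr196 rfl
  have h198 : ∀ i < 102762, allAt LL i = true := range_step h197 hr197 rfl
  have h199 : ∀ i < 103281, allAt LL i = true := range_step h198 hr198 rfl
  have h200 : ∀ i < 103800, allAt LL i = true := range_step h199 hr199 rfl
  have h201 : ∀ i < 104319, allAt LL i = true := range_step h200 hr200 rfl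
  have h202 : ∀ i < 104838, allAt LL i = true := range_step h201 hr201 rfl
  have h203 : ∀ i < 105357, allAt LL i = true := range_step h202 hr202 rfl
  have h204 : ∀ i < 105876, allAt LL i = true := range_step h203 hr203 rfl
  have h205 : ∀ i < 106395, allAt LL i = true := range_step h204 hr204 rfl
  have h206 : ∀ i < 106914, allAt LL i = true := range_step h205 hr205 rfl
  have h207 : ∀ i < 107433, allAt LL i = true := range_step h206 hr206 rfl
  have h208 : ∀ i < 107952, allAt LL i = true := range_step h207 hr207 rfl
  have h209 : ∀ i < 108471, allAt LL i = true := range_step h208 hr208 rfl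
  have h210 : ∀ i < 108990, allAt LL i = true := range_step h209 hr209 rfl
  have h211 : ∀ i < 109509, allAt LL i = true := range_step h210 hr210 rfl
  have h212 : ∀ i < 110028, allAt LL i = true := range_step h211 hr211 rfl
  have h213 : ∀ i < 110547, allAt LL i = true := range_step h212 hr212 rfl
  have h214 : ∀ i < 111066, allAt LL i = true := range_step h213 hr213 rfl
  have h215 : ∀ i < 111585, allAt LL i = true := range_step h214 hr214 rfl
  have h216 : ∀ i < 112104, allAt LL i = true := range_step h215 hr215 rfl
  have h217 : ∀ i < 112623, allAt LL i = true := range_step h216 hr216 rfl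
  have h218 : ∀ i < 113142, allAt LL i = true := range_step h217 hr217 rfl
  have h219 : ∀ i < 113661, allAt LL i = true := range_step h218 hr218 rfl
  have h220 : ∀ i < 114180, allAt LL i = true := range_step h219 hr219 rfl
  have h221 : ∀ i < 114699, allAt LL i = true := range_step h220 hr220 rfl
  have h222 : ∀ i < 115218, allAt LL i = true := range_step h221 hr221 rfl
  have h223 : ∀ i < 115737, allAt LL i = true := range_step h222 hr222 rfl
  have h224 : ∀ i < 116256, allAt LL i = true := range_step h223 hr223 rfl
  have h225 : ∀ i < 116775, allAt LL i = true := range_step h224 hr224 rfl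
  have h226 : ∀ i < 117294, allAt LL i = true := range_step h225 hr225 rfl
  have h227 : ∀ i < 117813, allAt LL i = true := range_step h226 hr226 rfl
  have h228 : ∀ i < 118332, allAt LL i = true := range_step h227 hr227 rfl
  have h229 : ∀ i < 118851, allAt LL i = true := range_step h228 hr228 rfl
  have h230 : ∀ i < 119370, allAt LL i = true := range_step h229 hr229 rfl
  have h231 : ∀ i < 119889, allAt LL i = true := range_step h230 hr230 rfl
  have h232 : ∀ i < 120408, allAt LL i = true := range_step h231 hr231 rfl
  have h233 : ∀ i < 120927, allAt LL i = true := range_step h232 hr232 rfl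
  have h234 : ∀ i < 121446, allAt LL i = true := range_step h233 hr233 rfl
  have h235 : ∀ i < 121965, allAt LL i = true := range_step h234 hr234 rfl
  have h236 : ∀ i < 122484, allAt LL i = true := range_step h235 hr235 rfl
  have h237 : ∀ i < 123003, allAt LL i = true := range_step h236 hr236 rfl
  have h238 : ∀ i < 123522, allAt LL i = true := range_step h237 hr237 rfl
  have h239 : ∀ i < 124041, allAt LL i = true := range_step h238 hr238 rfl
  have h240 : ∀ i < 124560, allAt LL i = true := range_step h239 hr239 rfl
  have h241 : ∀ i < 125079, allAt LL i = true := range_step h240 hr240 rfl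
  have h242 : ∀ i < 125598, allAt LL i = true := range_step h241 hr241 rfl
  have h243 : ∀ i < 126117, allAt LL i = true := range_step h242 hr242 rfl
  have h244 : ∀ i < 126636, allAt LL i = true := range_step h243 hr243 rfl
  have h245 : ∀ i < 127155, allAt LL i = true := range_step h244 hr244 rfl
  have h246 : ∀ i < 127674, allAt LL i = true := range_step h245 hr245 rfl
  have h247 : ∀ i < 128193, allAt LL i = true := range_step h246 hr246 rfl
  have h248 : ∀ i < 128712, allAt LL i = true := range_step h247 hr247 rfl
  have h249 : ∀ i < 129231, allAt LL i = true := range_step h248 hr248 rfl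
  have h250 : ∀ i < 129750, allAt LL i = true := range_step h249 hr249 rfl
  have h251 : ∀ i < 130269, allAt LL i = true := range_step h250 hr250 rfl
  have h252 : ∀ i < 130788, allAt LL i = true := range_step h251 hr251 rfl
  have h253 : ∀ i < 131307, allAt LL i = true := range_step h252 hr252 rfl
  have h254 : ∀ i < 131826, allAt LL i = true := range_step h253 hr253 rfl
  have h255 : ∀ i < 132345, allAt LL i = true := range_step h254 hr254 rfl
  have h256 : ∀ i < 132864, allAt LL i = true := range_step h255 hr255 rfl
  have h257 : ∀ i < 133383, allAt LL i = true := range_step h256 hr256 rfl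
  have h258 : ∀ i < 133902, allAt LL i = true := range_step h257 hr257 rfl
  have h259 : ∀ i < 134421, allAt LL i = true := range_step h258 hr258 rfl
  have h260 : ∀ i < 134940, allAt LL i = true := range_step h259 hr259 rfl
  have h261 : ∀ i < 135459, allAt LL i = true := range_step h260 hr260 rfl
  have h262 : ∀ i < 135978, allAt LL i = true := range_step h261 hr261 rfl
  have h263 : ∀ i < 136497, allAt LL i = true := range_step h262 hr262 rfl
  have h264 : ∀ i < 137016, allAt LL i = true := range_step h263 hr263 rfl
  have h265 : ∀ i < 137535, allAt LL i = true := range_step h264 hr264 rfl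
  have h266 : ∀ i < 138054, allAt LL i = true := range_step h265 hr265 rfl
  have h267 : ∀ i < 138573, allAt LL i = true := range_step h266 hr266 rfl
  have h268 : ∀ i < 139092, allAt LL i = true := range_step h267 hr267 rfl
  have h269 : ∀ i < 139611, allAt LL i = true := range_step h268 hr268 rfl
  have h270 : ∀ i < 140130, allAt LL i = true := range_step h269 hr269 rfl
  have h271 : ∀ i < 140649, allAt LL i = true := range_step h270 hr270 rfl
  have h272 : ∀ i < 141168, allAt LL i = true := range_step h271 hr271 rfl
  have h273 : ∀ i < 141687, allAt LL i = true := range_step h272 hr272 rfl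
  have h274 : ∀ i < 142206, allAt LL i = true := range_step h273 hr273 rfl
  have h275 : ∀ i < 142725, allAt LL i = true := range_step h274 hr274 rfl
  have h276 : ∀ i < 143244, allAt LL i = true := range_step h275 hr275 rfl
  have h277 : ∀ i < 143763, allAt LL i = true := range_step h276 hr276 rfl
  have h278 : ∀ i < 144282, allAt LL i = true := range_step h277 hr277 rfl
  have h279 : ∀ i < 144801, allAt LL i = true := range_step h278 hr278 rfl
  have h280 : ∀ i < 145320, allAt LL i = true := range_step h279 hr279 rfl
  have h281 : ∀ i < 145839, allAt LL i = true := range_step h280 hr280 rfl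
  have h282 : ∀ i < 146358, allAt LL i = true := range_step h281 hr281 rfl
  have h283 : ∀ i < 146877, allAt LL i = true := range_step h282 hr282 rfl
  have h284 : ∀ i < 147396, allAt LL i = true := range_step h283 hr283 rfl
  have h285 : ∀ i < 147915, allAt LL i = true := range_step h284 hr284 rfl
  have h286 : ∀ i < 148434, allAt LL i = true := range_step h285 hr285 rfl
  have h287 : ∀ i < 148953, allAt LL i = true := range_step h286 hr286 rfl
  have h288 : ∀ i < 149472, allAt LL i = true := range_step h287 hr287 rfl
  have h289 : ∀ i < 149991, allAt LL i = true := range_step h288 hr288 rfl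
  have h290 : ∀ i < 150510, allAt LL i = true := range_step h289 hr289 rfl
  have h291 : ∀ i < 151029, allAt LL i = true := range_step h290 hr290 rfl
  have h292 : ∀ i < 151548, allAt LL i = true := range_step h291 hr291 rfl
  have h293 : ∀ i < 152067, allAt LL i = true := range_step h292 hr292 rfl
  have h294 : ∀ i < 152586, allAt LL i = true := range_step h293 hr293 rfl
  have h295 : ∀ i < 153105, allAt LL i = true := range_step h294 hr294 rfl
  have h296 : ∀ i < 153624, allAt LL i = true := range_step h295 hr295 rfl
  have h297 : ∀ i < 154143, allAt LL i = true := range_step h296 hr296 rfl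
  have h298 : ∀ i < 154662, allAt LL i = true := range_step h297 hr297 rfl
  have h299 : ∀ i < 155181, allAt LL i = true := range_step h298 hr298 rfl
  have h300 : ∀ i < 155700, allAt LL i = true := range_step h299 hr299 rfl
  have h301 : ∀ i < 156219, allAt LL i = true := range_step h300 hr300 rfl
  have h302 : ∀ i < 156738, allAt LL i = true := range_step h301 hr301 rfl
  have h303 : ∀ i < 157257, allAt LL i = true := range_step h302 hr302 rfl
  have h304 : ∀ i < 157776, allAt LL i = true := range_step h303 hr303 rfl
  have h305 : ∀ i < 158295, allAt LL i = true := range_step h304 hr304 rfl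
  have h306 : ∀ i < 158814, allAt LL i = true := range_step h305 hr305 rfl
  have h307 : ∀ i < 159333, allAt LL i = true := range_step h306 hr306 rfl
  have h308 : ∀ i < 159852, allAt LL i = true := range_step h307 hr307 rfl
  have h309 : ∀ i < 160371, allAt LL i = true := range_step h308 hr308 rfl
  have h310 : ∀ i < 160890, allAt LL i = true := range_step h309 hr309 rfl
  have h311 : ∀ i < 161409, allAt LL i = true := range_step h310 hr310 rfl
  have h312 : ∀ i < 161928, allAt LL i = true := range_step h311 hr311 rfl
  have h313 : ∀ i < 162447, allAt LL i = true := range_step h312 hr312 rfl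
  have h314 : ∀ i < 162966, allAt LL i = true := range_step h313 hr313 rfl
  have h315 : ∀ i < 163485, allAt LL i = true := range_step h314 hr314 rfl
  have h316 : ∀ i < 164004, allAt LL i = true := range_step h315 hr315 rfl
  have h317 : ∀ i < 164523, allAt LL i = true := range_step h316 hr316 rfl
  have h318 : ∀ i < 165042, allAt LL i = true := range_step h317 hr317 rfl
  have h319 : ∀ i < 165561, allAt LL i = true := range_step h318 hr318 rfl
  have h320 : ∀ i < 166080, allAt LL i = true := range_step h319 hr319 rfl
  have h321 : ∀ i < 166599, allAt LL i = true := range_step h320 hr320 rfl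
  have h322 : ∀ i < 167118, allAt LL i = true := range_step h321 hr321 rfl
  have h323 : ∀ i < 167637, allAt LL i = true := range_step h322 hr322 rfl
  have h324 : ∀ i < 168156, allAt LL i = true := range_step h323 hr323 rfl
  have h325 : ∀ i < 168675, allAt LL i = true := range_step h324 hr324 rfl
  have h326 : ∀ i < 169194, allAt LL i = true := range_step h325 hr325 rfl
  have h327 : ∀ i < 169713, allAt LL i = true := range_step h326 hr326 rfl
  have h328 : ∀ i < 170232, allAt LL i = true := range_step h327 hr327 rfl
  have h329 : ∀ i < 170751, allAt LL i = true := range_step h328 hr328 rfl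
  have h330 : ∀ i < 171270, allAt LL i = true := range_step h329 hr329 rfl
  have h331 : ∀ i < 171789, allAt LL i = true := range_step h330 hr330 rfl
  have h332 : ∀ i < 172308, allAt LL i = true := range_step h331 hr331 rfl
  have h333 : ∀ i < 172827, allAt LL i = true := range_step h332 hr332 rfl
  have h334 : ∀ i < 173346, allAt LL i = true := range_step h333 hr333 rfl
  have h335 : ∀ i < 173865, allAt LL i = true := range_step h334 hr334 rfl
  have h336 : ∀ i < 174384, allAt LL i = true := range_step h335 hr335 rfl
  have h337 : ∀ i < 174903, allAt LL i = true := range_step h336 hr336 rfl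
  have h338 : ∀ i < 175422, allAt LL i = true := range_step h337 hr337 rfl
  have h339 : ∀ i < 175941, allAt LL i = true := range_step h338 hr338 rfl
  have h340 : ∀ i < 176460, allAt LL i = true := range_step h339 hr339 rfl
  have h341 : ∀ i < 176979, allAt LL i = true := range_step h340 hr340 rfl
  have h342 : ∀ i < 177498, allAt LL i = true := range_step h341 hr341 rfl
  have h343 : ∀ i < 178017, allAt LL i = true := range_step h342 hr342 rfl
  have h344 : ∀ i < 178536, allAt LL i = true := range_step h343 hr343 rfl
  have h345 : ∀ i < 179055, allAt LL i = true := range_step h344 hr344 rfl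
  have h346 : ∀ i < 179574, allAt LL i = true := range_step h345 hr345 rfl
  have h347 : ∀ i < 180093, allAt LL i = true := range_step h346 hr346 rfl
  have h348 : ∀ i < 180612, allAt LL i = true := range_step h347 hr347 rfl
  have h349 : ∀ i < 181131, allAt LL i = true := range_step h348 hr348 rfl
  have h350 : ∀ i < 181650, allAt LL i = true := range_step h349 hr349 rfl
  have h351 : ∀ i < 182169, allAt LL i = true := range_step h350 hr350 rfl
  have h352 : ∀ i < 182688, allAt LL i = true := range_step h351 hr351 rfl
  have h353 : ∀ i < 183207, allAt LL i = true := range_step h352 hr352 rfl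
  have h354 : ∀ i < 183726, allAt LL i = true := range_step h353 hr353 rfl
  have h355 : ∀ i < 184245, allAt LL i = true := range_step h354 hr354 rfl
  have h356 : ∀ i < 184764, allAt LL i = true := range_step h355 hr355 rfl
  have h357 : ∀ i < 185283, allAt LL i = true := range_step h356 hr356 rfl
  have h358 : ∀ i < 185802, allAt LL i = true := range_step h357 hr357 rfl
  have h359 : ∀ i < 186321, allAt LL i = true := range_step h358 hr358 rfl
  have h360 : ∀ i < 186840, allAt LL i = true := range_step h359 hr359 rfl
  have h361 : ∀ i < 187359, allAt LL i = true := range_step h360 hr360 rfl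
  have h362 : ∀ i < 187878, allAt LL i = true := range_step h361 hr361 rfl
  have h363 : ∀ i < 188397, allAt LL i = true := range_step h362 hr362 rfl
  have h364 : ∀ i < 188916, allAt LL i = true := range_step h363 hr363 rfl
  have h365 : ∀ i < 189435, allAt LL i = true := range_step h364 hr364 rfl
  have h366 : ∀ i < 189954, allAt LL i = true := range_step h365 hr365 rfl
  have h367 : ∀ i < 190473, allAt LL i = true := range_step h366 hr366 rfl
  have h368 : ∀ i < 190992, allAt LL i = true := range_step h367 hr367 rfl
  have h369 : ∀ i < 191511, allAt LL i = true := range_step h368 hr368 rfl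
  have h370 : ∀ i < 192030, allAt LL i = true := range_step h369 hr369 rfl
  have h371 : ∀ i < 192549, allAt LL i = true := range_step h370 hr370 rfl
  have h372 : ∀ i < 193068, allAt LL i = true := range_step h371 hr371 rfl
  have h373 : ∀ i < 193587, allAt LL i = true := range_step h372 hr372 rfl
  have h374 : ∀ i < 194106, allAt LL i = true := range_step h373 hr373 rfl
  have h375 : ∀ i < 194625, allAt LL i = true := range_step h374 hr374 rfl
  have h376 : ∀ i < 195144, allAt LL i = true := range_step h375 hr375 rfl
  have h377 : ∀ i < 195663, allAt LL i = true := range_step h376 hr376 rfl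
  have h378 : ∀ i < 196182, allAt LL i = true := range_step h377 hr377 rfl
  have h379 : ∀ i < 196701, allAt LL i = true := range_step h378 hr378 rfl
  have h380 : ∀ i < 197220, allAt LL i = true := range_step h379 hr379 rfl
  have h381 : ∀ i < 197739, allAt LL i = true := range_step h380 hr380 rfl
  have h382 : ∀ i < 198258, allAt LL i = true := range_step h381 hr381 rfl
  have h383 : ∀ i < 198777, allAt LL i = true := range_step h382 hr382 rfl
  have h384 : ∀ i < 199296, allAt LL i = true := range_step h383 hr383 rfl
  have h385 : ∀ i < 199815, allAt LL i = true := range_step h384 hr384 rfl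
  have h386 : ∀ i < 200334, allAt LL i = true := range_step h385 hr385 rfl
  have h387 : ∀ i < 200853, allAt LL i = true := range_step h386 hr386 rfl
  have h388 : ∀ i < 201372, allAt LL i = true := range_step h387 hr387 rfl
  have h389 : ∀ i < 201891, allAt LL i = true := range_step h388 hr388 rfl
  have h390 : ∀ i < 202410, allAt LL i = true := range_step h389 hr389 rfl
  have h391 : ∀ i < 202929, allAt LL i = true := range_step h390 hr390 rfl
  have h392 : ∀ i < 203448, allAt LL i = true := range_step h391 hr391 rfl
  have h393 : ∀ i < 203967, allAt LL i = true := range_step h392 hr392 rfl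
  have h394 : ∀ i < 204486, allAt LL i = true := range_step h393 hr393 rfl
  have h395 : ∀ i < 205005, allAt LL i = true := range_step h394 hr394 rfl
  have h396 : ∀ i < 205524, allAt LL i = true := range_step h395 hr395 rfl
  have h397 : ∀ i < 206043, allAt LL i = true := range_step h396 hr396 rfl
  have h398 : ∀ i < 206562, allAt LL i = true := range_step h397 hr397 rfl
  have h399 : ∀ i < 207081, allAt LL i = true := range_step h398 hr398 rfl
  have h400 : ∀ i < 207600, allAt LL i = true := range_step h399 hr399 rfl
  have h401 : ∀ i < 208119, allAt LL i = true := range_step h400 hr400 rfl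
  have h402 : ∀ i < 208638, allAt LL i = true := range_step h401 hr401 rfl
  have h403 : ∀ i < 209157, allAt LL i = true := range_step h402 hr402 rfl
  have h404 : ∀ i < 209676, allAt LL i = true := range_step h403 hr403 rfl
  have h405 : ∀ i < 210195, allAt LL i = true := range_step h404 hr404 rfl
  have h406 : ∀ i < 210714, allAt LL i = true := range_step h405 hr405 rfl
  have h407 : ∀ i < 211233, allAt LL i = true := range_step h406 hr406 rfl
  have h408 : ∀ i < 211752, allAt LL i = true := range_step h407 hr407 rfl
  have h409 : ∀ i < 212271, allAt LL i = true := range_step h408 hr408 rfl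
  have h410 : ∀ i < 212790, allAt LL i = true := range_step h409 hr409 rfl
  have h411 : ∀ i < 213309, allAt LL i = true := range_step h410 hr410 rfl
  have h412 : ∀ i < 213828, allAt LL i = true := range_step h411 hr411 rfl
  have h413 : ∀ i < 214347, allAt LL i = true := range_step h412 hr412 rfl
  have h414 : ∀ i < 214866, allAt LL i = true := range_step h413 hr413 rfl
  have h415 : ∀ i < 215385, allAt LL i = true := range_step h414 hr414 rfl
  have h416 : ∀ i < 215904, allAt LL i = true := range_step h415 hr415 rfl
  have h417 : ∀ i < 216423, allAt LL i = true := range_step h416 hr416 rfl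
  have h418 : ∀ i < 216942, allAt LL i = true := range_step h417 hr417 rfl
  have h419 : ∀ i < 217461, allAt LL i = true := range_step h418 hr418 rfl
  have h420 : ∀ i < 217980, allAt LL i = true := range_step h419 hr419 rfl
  have h421 : ∀ i < 218499, allAt LL i = true := range_step h420 hr420 rfl
  have h422 : ∀ i < 219018, allAt LL i = true := range_step h421 hr421 rfl
  have h423 : ∀ i < 219537, allAt LL i = true := range_step h422 hr422 rfl
  have h424 : ∀ i < 220056, allAt LL i = true := range_step h423 hr423 rfl
  have h425 : ∀ i < 220575, allAt LL i = true := range_step h424 hr424 rfl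
  have h426 : ∀ i < 221094, allAt LL i = true := range_step h425 hr425 rfl
  have h427 : ∀ i < 221613, allAt LL i = true := range_step h426 hr426 rfl
  have h428 : ∀ i < 222132, allAt LL i = true := range_step h427 hr427 rfl
  have h429 : ∀ i < 222651, allAt LL i = true := range_step h428 hr428 rfl
  have h430 : ∀ i < 223170, allAt LL i = true := range_step h429 hr429 rfl
  have h431 : ∀ i < 223689, allAt LL i = true := range_step h430 hr430 rfl
  have h432 : ∀ i < 224208, allAt LL i = true := range_step h431 hr431 rfl
  have h433 : ∀ i < 224727, allAt LL i = true := range_step h432 hr432 rfl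
  have h434 : ∀ i < 225246, allAt LL i = true := range_step h433 hr433 rfl
  have h435 : ∀ i < 225765, allAt LL i = true := range_step h434 hr434 rfl
  have h436 : ∀ i < 226284, allAt LL i = true := range_step h435 hr435 rfl
  have h437 : ∀ i < 226803, allAt LL i = true := range_step h436 hr436 rfl
  have h438 : ∀ i < 227322, allAt LL i = true := range_step h437 hr437 rfl
  have h439 : ∀ i < 227841, allAt LL i = true := range_step h438 hr438 rfl
  have h440 : ∀ i < 228360, allAt LL i = true := range_step h439 hr439 rfl
  have h441 : ∀ i < 228879, allAt LL i = true := range_step h440 hr440 rfl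
  have h442 : ∀ i < 229398, allAt LL i = true := range_step h441 hr441 rfl
  have h443 : ∀ i < 229917, allAt LL i = true := range_step h442 hr442 rfl
  have h444 : ∀ i < 230436, allAt LL i = true := range_step h443 hr443 rfl
  have h445 : ∀ i < 230955, allAt LL i = true := range_step h444 hr444 rfl
  have h446 : ∀ i < 231474, allAt LL i = true := range_step h445 hr445 rfl
  have h447 : ∀ i < 231993, allAt LL i = true := range_step h446 hr446 rfl
  have h448 : ∀ i < 232512, allAt LL i = true := range_step h447 hr447 rfl
  have h449 : ∀ i < 233031, allAt LL i = true := range_step h448 hr448 rfl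
  have h450 : ∀ i < 233550, allAt LL i = true := range_step h449 hr449 rfl
  have h451 : ∀ i < 234069, allAt LL i = true := range_step h450 hr450 rfl
  have h452 : ∀ i < 234588, allAt LL i = true := range_step h451 hr451 rfl
  have h453 : ∀ i < 235107, allAt LL i = true := range_step h452 hr452 rfl
  have h454 : ∀ i < 235626, allAt LL i = true := range_step h453 hr453 rfl
  have h455 : ∀ i < 236145, allAt LL i = true := range_step h454 hr454 rfl
  have h456 : ∀ i < 236664, allAt LL i = true := range_step h455 hr455 rfl
  have h457 : ∀ i < 237183, allAt LL i = true := range_step h456 hr456 rfl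
  have h458 : ∀ i < 237702, allAt LL i = true := range_step h457 hr457 rfl
  have h459 : ∀ i < 238221, allAt LL i = true := range_step h458 hr458 rfl
  have h460 : ∀ i < 238740, allAt LL i = true := range_step h459 hr459 rfl
  have h461 : ∀ i < 239259, allAt LL i = true := range_step h460 hr460 rfl
  have h462 : ∀ i < 239778, allAt LL i = true := range_step h461 hr461 rfl
  have h463 : ∀ i < 240297, allAt LL i = true := range_step h462 hr462 rfl
  have h464 : ∀ i < 240816, allAt LL i = true := range_step h463 hr463 rfl
  have h465 : ∀ i < 241335, allAt LL i = true := range_step h464 hr464 rfl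
  have h466 : ∀ i < 241854, allAt LL i = true := range_step h465 hr465 rfl
  have h467 : ∀ i < 242373, allAt LL i = true := range_step h466 hr466 rfl
  have h468 : ∀ i < 242892, allAt LL i = true := range_step h467 hr467 rfl
  have h469 : ∀ i < 243411, allAt LL i = true := range_step h468 hr468 rfl
  have h470 : ∀ i < 243930, allAt LL i = true := range_step h469 hr469 rfl
  have h471 : ∀ i < 244449, allAt LL i = true := range_step h470 hr470 rfl
  have h472 : ∀ i < 244968, allAt LL i = true := range_step h471 hr471 rfl
  have h473 : ∀ i < 245487, allAt LL i = true := range_step h472 hr472 rfl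
  have h474 : ∀ i < 246006, allAt LL i = true := range_step h473 hr473 rfl
  have h475 : ∀ i < 246525, allAt LL i = true := range_step h474 hr474 rfl
  have h476 : ∀ i < 247044, allAt LL i = true := range_step h475 hr475 rfl
  have h477 : ∀ i < 247563, allAt LL i = true := range_step h476 hr476 rfl
  have h478 : ∀ i < 248082, allAt LL i = true := range_step h477 hr477 rfl
  have h479 : ∀ i < 248601, allAt LL i = true := range_step h478 hr478 rfl
  have h480 : ∀ i < 249120, allAt LL i = true := range_step h479 hr479 rfl
  have h481 : ∀ i < 249639, allAt LL i = true := range_step h480 hr480 rfl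
  have h482 : ∀ i < 250158, allAt LL i = true := range_step h481 hr481 rfl
  have h483 : ∀ i < 250677, allAt LL i = true := range_step h482 hr482 rfl
  have h484 : ∀ i < 251196, allAt LL i = true := range_step h483 hr483 rfl
  have h485 : ∀ i < 251715, allAt LL i = true := range_step h484 hr484 rfl
  have h486 : ∀ i < 252234, allAt LL i = true := range_step h485 hr485 rfl
  have h487 : ∀ i < 252753, allAt LL i = true := range_step h486 hr486 rfl
  have h488 : ∀ i < 253272, allAt LL i = true := range_step h487 hr487 rfl
  have h489 : ∀ i < 253791, allAt LL i = true := range_step h488 hr488 rfl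
  have h490 : ∀ i < 254310, allAt LL i = true := range_step h489 hr489 rfl
  have h491 : ∀ i < 254829, allAt LL i = true := range_step h490 hr490 rfl
  have h492 : ∀ i < 255348, allAt LL i = true := range_step h491 hr491 rfl
  have h493 : ∀ i < 255867, allAt LL i = true := range_step h492 hr492 rfl
  have h494 : ∀ i < 256386, allAt LL i = true := range_step h493 hr493 rfl
  have h495 : ∀ i < 256905, allAt LL i = true := range_step h494 hr494 rfl
  have h496 : ∀ i < 257424, allAt LL i = true := range_step h495 hr495 rfl
  have h497 : ∀ i < 257943, allAt LL i = true := range_step h496 hr496 rfl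
  have h498 : ∀ i < 258462, allAt LL i = true := range_step h497 hr497 rfl
  have h499 : ∀ i < 258981, allAt LL i = true := range_step h498 hr498 rfl
  have h500 : ∀ i < 259500, allAt LL i = true := range_step h499 hr499 rfl
  have h501 : ∀ i < 260019, allAt LL i = true := range_step h500 hr500 rfl
  have h502 : ∀ i < 260538, allAt LL i = true := range_step h501 hr501 rfl
  have h503 : ∀ i < 261057, allAt LL i = true := range_step h502 hr502 rfl
  have h504 : ∀ i < 261576, allAt LL i = true := range_step h503 hr503 rfl
  have h505 : ∀ i < 262095, allAt LL i = true := range_step h504 hr504 rfl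
  have h506 : ∀ i < 262614, allAt LL i = true := range_step h505 hr505 rfl
  have h507 : ∀ i < 263133, allAt LL i = true := range_step h506 hr506 rfl
  have h508 : ∀ i < 263652, allAt LL i = true := range_step h507 hr507 rfl
  have h509 : ∀ i < 264171, allAt LL i = true := range_step h508 hr508 rfl
  have h510 : ∀ i < 264690, allAt LL i = true := range_step h509 hr509 rfl
  have h511 : ∀ i < 265209, allAt LL i = true := range_step h510 hr510 rfl
  have h512 : ∀ i < 265728, allAt LL i = true := range_step h511 hr511 rfl
  have h513 : ∀ i < 266247, allAt LL i = true := range_step h512 hr512 rfl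
  have h514 : ∀ i < 266766, allAt LL i = true := range_step h513 hr513 rfl
  have h515 : ∀ i < 267285, allAt LL i = true := range_step h514 hr514 rfl
  have h516 : ∀ i < 267804, allAt LL i = true := range_step h515 hr515 rfl
  have h517 : ∀ i < 268323, allAt LL i = true := range_step h516 hr516 rfl
  have h518 : ∀ i < 268842, allAt LL i = true := range_step h517 hr517 rfl
  have h519 : ∀ i < 269361, allAt LL i = true := range_step h518 hr518 rfl
  have h520 : ∀ i < 269880, allAt LL i = true := range_step h519 hr519 rfl
  have h521 : ∀ i < 270399, allAt LL i = true := range_step h520 hr520 rfl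
  have h522 : ∀ i < 270918, allAt LL i = true := range_step h521 hr521 rfl
  have h523 : ∀ i < 271437, allAt LL i = true := range_step h522 hr522 rfl
  have h524 : ∀ i < 271956, allAt LL i = true := range_step h523 hr523 rfl
  have h525 : ∀ i < 272475, allAt LL i = true := range_step h524 hr524 rfl
  have h526 : ∀ i < 272994, allAt LL i = true := range_step h525 hr525 rfl
  have h527 : ∀ i < 273513, allAt LL i = true := range_step h526 hr526 rfl
  have h528 : ∀ i < 274032, allAt LL i = true := range_step h527 hr527 rfl
  have h529 : ∀ i < 274551, allAt LL i = true := range_step h528 hr528 rfl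
  have h530 : ∀ i < 275070, allAt LL i = true := range_step h529 hr529 rfl
  have h531 : ∀ i < 275589, allAt LL i = true := range_step h530 hr530 rfl
  have h532 : ∀ i < 276108, allAt LL i = true := range_step h531 hr531 rfl
  have h533 : ∀ i < 276627, allAt LL i = true := range_step h532 hr532 rfl
  have h534 : ∀ i < 277146, allAt LL i = true := range_step h533 hr533 rfl
  have h535 : ∀ i < 277665, allAt LL i = true := range_step h534 hr534 rfl
  have h536 : ∀ i < 278184, allAt LL i = true := range_step h535 hr535 rfl
  have h537 : ∀ i < 278703, allAt LL i = true := range_step h536 hr536 rfl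
  have h538 : ∀ i < 279222, allAt LL i = true := range_step h537 hr537 rfl
  have h539 : ∀ i < 279741, allAt LL i = true := range_step h538 hr538 rfl
  have h540 : ∀ i < 280260, allAt LL i = true := range_step h539 hr539 rfl
  have h541 : ∀ i < 280779, allAt LL i = true := range_step h540 hr540 rfl
  have h542 : ∀ i < 281298, allAt LL i = true := range_step h541 hr541 rfl
  have h543 : ∀ i < 281817, allAt LL i = true := range_step h542 hr542 rfl
  have h544 : ∀ i < 282336, allAt LL i = true := range_step h543 hr543 rfl
  have h545 : ∀ i < 282855, allAt LL i = true := range_step h544 hr544 rfl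
  have h546 : ∀ i < 283374, allAt LL i = true := range_step h545 hr545 rfl
  have h547 : ∀ i < 283893, allAt LL i = true := range_step h546 hr546 rfl
  have h548 : ∀ i < 284412, allAt LL i = true := range_step h547 hr547 rfl
  have h549 : ∀ i < 284931, allAt LL i = true := range_step h548 hr548 rfl
  have h550 : ∀ i < 285450, allAt LL i = true := range_step h549 hr549 rfl
  have h551 : ∀ i < 285969, allAt LL i = true := range_step h550 hr550 rfl
  have h552 : ∀ i < 286488, allAt LL i = true := range_step h551 hr551 rfl
  have h553 : ∀ i < 287007, allAt LL i = true := range_step h552 hr552 rfl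
  have h554 : ∀ i < 287526, allAt LL i = true := range_step h553 hr553 rfl
  have h555 : ∀ i < 288045, allAt LL i = true := range_step h554 hr554 rfl
  have h556 : ∀ i < 288564, allAt LL i = true := range_step h555 hr555 rfl
  have h557 : ∀ i < 289083, allAt LL i = true := range_step h556 hr556 rfl
  have h558 : ∀ i < 289602, allAt LL i = true := range_step h557 hr557 rfl
  have h559 : ∀ i < 290121, allAt LL i = true := range_step h558 hr558 rfl
  have h560 : ∀ i < 290640, allAt LL i = true := range_step h559 hr559 rfl
  have h561 : ∀ i < 291159, allAt LL i = true := range_step h560 hr560 rfl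
  have h562 : ∀ i < 291678, allAt LL i = true := range_step h561 hr561 rfl
  have h563 : ∀ i < 292197, allAt LL i = true := range_step h562 hr562 rfl
  have h564 : ∀ i < 292716, allAt LL i = true := range_step h563 hr563 rfl
  have h565 : ∀ i < 293235, allAt LL i = true := range_step h564 hr564 rfl
  have h566 : ∀ i < 293754, allAt LL i = true := range_step h565 hr565 rfl
  have h567 : ∀ i < 294273, allAt LL i = true := range_step h566 hr566 rfl
  have h568 : ∀ i < 294792, allAt LL i = true := range_step h567 hr567 rfl
  have h569 : ∀ i < 295311, allAt LL i = true := range_step h568 hr568 rfl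
  have h570 : ∀ i < 295830, allAt LL i = true := range_step h569 hr569 rfl
  have h571 : ∀ i < 296349, allAt LL i = true := range_step h570 hr570 rfl
  have h572 : ∀ i < 296868, allAt LL i = true := range_step h571 hr571 rfl
  have h573 : ∀ i < 297387, allAt LL i = true := range_step h572 hr572 rfl
  have h574 : ∀ i < 297906, allAt LL i = true := range_step h573 hr573 rfl
  have h575 : ∀ i < 298425, allAt LL i = true := range_step h574 hr574 rfl
  have h576 : ∀ i < 298944, allAt LL i = true := range_step h575 hr575 rfl
  have h577 : ∀ i < 299463, allAt LL i = true := range_step h576 hr576 rfl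
  have h578 : ∀ i < 299982, allAt LL i = true := range_step h577 hr577 rfl
  have h579 : ∀ i < 300501, allAt LL i = true := range_step h578 hr578 rfl
  have h580 : ∀ i < 301020, allAt LL i = true := range_step h579 hr579 rfl
  have h581 : ∀ i < 301539, allAt LL i = true := range_step h580 hr580 rfl
  have h582 : ∀ i < 302058, allAt LL i = true := range_step h581 hr581 rfl
  have h583 : ∀ i < 302577, allAt LL i = true := range_step h582 hr582 rfl
  have h584 : ∀ i < 303096, allAt LL i = true := range_step h583 hr583 rfl
  have h585 : ∀ i < 303615, allAt LL i = true := range_step h584 hr584 rfl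
  have h586 : ∀ i < 304134, allAt LL i = true := range_step h585 hr585 rfl
  have h587 : ∀ i < 304653, allAt LL i = true := range_step h586 hr586 rfl
  have h588 : ∀ i < 305172, allAt LL i = true := range_step h587 hr587 rfl
  have h589 : ∀ i < 305691, allAt LL i = true := range_step h588 hr588 rfl
  have h590 : ∀ i < 306210, allAt LL i = true := range_step h589 hr589 rfl
  have h591 : ∀ i < 306729, allAt LL i = true := range_step h590 hr590 rfl
  have h592 : ∀ i < 306936, allAt LL i = true := range_step h591 hr591 rfl
  exact h592

instance instNZ : NeZero 306936 := ⟨by norm_num⟩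

theorem hfix' : ∀ W ∈ dd.hw.words, Cfsg.Agent.H16.Enum.walk tt 0 W = 0 := by
  intro W hW
  have e : dd.hw.words = hwL := hwT_words
  rw [e] at hW
  exact hfix W hW

theorem main : ∃ act : PresentedGroup R →* (Equiv.Perm (Fin 306936))ᵐᵒᵖ,
      TableOK (subH R S) (lt R gs 12) tt 12 306936 (fun i => rep (lt R gs 12) dd (AA i)) act tp ta ∧
      ∀ (r : FreeGroup Cfsg.Spor.Fi24.Gen) (i : Fin 306936), (ract act (PresentedGroup.mk R r) i : ℕ) = Cfsg.Agent.H16.Enum.walk tt i (letters code r) :=
  base.tableOK (M := 2291781) facts (EF := EF) (A := AA) (L := LL) (WLc := WLc) hL cosets hsub hivw hA0 hfix'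


/-- In the presented group Fi₂₄ = Fi₂₄′:2, the subgroup generated by the images of a, b, c, d, e, f, g, h, i, j and l (every generator but k) has index 306936. -/
theorem result : (((Subgroup.closure ({Cfsg.Spor.Fi24.a, Cfsg.Spor.Fi24.b, Cfsg.Spor.Fi24.c, Cfsg.Spor.Fi24.d, Cfsg.Spor.Fi24.e, Cfsg.Spor.Fi24.f, Cfsg.Spor.Fi24.g, Cfsg.Spor.Fi24.h, Cfsg.Spor.Fi24.i, Cfsg.Spor.Fi24.j, Cfsg.Spor.Fi24.l} : Set (FreeGroup Cfsg.Spor.Fi24.Gen))).map (PresentedGroup.mk (Cfsg.Spor.coxRelators Cfsg.Spor.Fi24.edges ∪ {r | r ∈ Cfsg.Spor.Fi24.extra})))).index = 306936 := by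
  obtain ⟨act, T, hact⟩ := main
  exact T.index

end Cfsg.Agent.S1690
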