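import Cfsg.Statements.S1691
import Mathlib
-- import your own Cfsg.Agent.* helpers here

set_option autoImplicit false
open Cfsg

namespace Cfsg.Agent.S1691

open Cfsg.Spor Cfsg.Spor.Fi24
open scoped commutatorElement

/-- The parity homomorphism on the free group. -/
def parity : FreeGroup Gen →* Multiplicative (ZMod 2) :=
  FreeGroup.lift fun _ => Multiplicative.ofAdd 1

theorem parity_of (x : Gen) : parity (FreeGroup.of x) = Multiplicative.ofAdd 1 := by
  simp [parity]

theorem parity_two (x y : Gen) : parity (FreeGroup.of x * FreeGroup.of y) = 1 := by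
  rw [map_mul, parity_of, parity_of]
  decide

/-- The parity homomorphism on the presented group. -/
def sign : Cfsg.Spor.Fi24 →* Multiplicative (ZMod 2) :=
  PresentedGroup.toGroup (f := fun _ => Multiplicative.ofAdd 1) (by
    intro r hr
    rcases hr with ⟨x, _, y, _, rfl⟩ | hr
    · have : FreeGroup.lift (fun _ : Gen => (Multiplicative.ofAdd 1 : Multiplicative (ZMod 2)))
          ((FreeGroup.of x * FreeGroup.of y) ^ coxLabel edges x y) =
          (parity (FreeGroup.of x * FreeGroup.of y)) ^ coxLabel edges x y := by
        rw [map_pow]; rfl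
      rw [this, parity_two, one_pow]
    · simp only [extra, Set.mem_ofPred_eq, List.mem_cons, List.not_mem_nil, or_false] at hr
      rcases hr with rfl | rfl
      · simp only [map_mul, map_inv, map_pow, FreeGroup.lift_apply_of, l, a, b, c, d, e, f, h]
        decide
      · simp only [map_mul, map_pow, FreeGroup.lift_apply_of, l, k, a, b, c, d, e, f, g, j, h, i]
        decide)

abbrev gen (x : Gen) : Cfsg.Spor.Fi24 := PresentedGroup.of x

theorem sign_gen (x : Gen) : sign (gen x) = Multiplicative.ofAdd 1 := by
  simp [sign, gen, PresentedGroup.toGroup.of]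

theorem rel (x y : Gen) (hx : x ∈ coxNodes edges) (hy : y ∈ coxNodes edges) :
    (gen x * gen y) ^ coxLabel edges x y = 1 := by
  have : ((FreeGroup.of x * FreeGroup.of y) ^ coxLabel edges x y : FreeGroup Gen) ∈
      coxRelators edges ∪ {r | r ∈ extra} := Or.inl ⟨x, hx, y, hy, rfl⟩
  have h1 := PresentedGroup.one_of_mem this
  rw [map_pow, map_mul] at h1
  exact h1

theorem gen_sq (x : Gen) (hx : x ∈ coxNodes edges) : gen x * gen x = 1 := by
  have h := rel x x hx hx
  have h2 : coxLabel edges x x = 1 := by simp [coxLabel]
  rwa [h2, pow_one] at h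

/-- Adjacent generators agree in the abelianization. -/
theorem gen_eq (x y : Gen) (hx : x ∈ coxNodes edges) (hy : y ∈ coxNodes edges)
    (hl : coxLabel edges x y = 3) :
    QuotientGroup.mk' (commutator Cfsg.Spor.Fi24) (gen x) =
      QuotientGroup.mk' (commutator Cfsg.Spor.Fi24) (gen y) := by
  set φ := QuotientGroup.mk' (commutator Cfsg.Spor.Fi24) with hφ
  have hcomm : ∀ u v : Cfsg.Spor.Fi24, φ u * φ v = φ v * φ u := by
    intro u v
    rw [← map_mul, ← map_mul, hφ, QuotientGroup.mk'_apply, QuotientGroup.mk'_apply, QuotientGroup.eq]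
    have : (u * v)⁻¹ * (v * u) = ⁅v⁻¹, u⁻¹⁆ := by
      simp [commutatorElement_def, mul_assoc]
    rw [this]
    exact Subgroup.commutator_mem_commutator (Subgroup.mem_top _) (Subgroup.mem_top _)
  have h3 : (φ (gen x) * φ (gen y)) ^ 3 = 1 := by
    have := congrArg φ (rel x y hx hy)
    rw [hl, map_pow, map_mul, map_one] at this
    exact this
  have hxx : φ (gen x) * φ (gen x) = 1 := by
    rw [← map_mul, gen_sq x hx, map_one]
  have hyy : φ (gen y) * φ (gen y) = 1 := by
    rw [← map_mul, gen_sq y hy, map_one]
  have h2 : (φ (gen x) * φ (gen y)) * (φ (gen x) * φ (gen y)) = 1 := by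
    calc (φ (gen x) * φ (gen y)) * (φ (gen x) * φ (gen y))
        = φ (gen x) * (φ (gen y) * φ (gen x)) * φ (gen y) := by group
      _ = φ (gen x) * (φ (gen x) * φ (gen y)) * φ (gen y) := by rw [hcomm (gen y) (gen x)]
      _ = (φ (gen x) * φ (gen x)) * (φ (gen y) * φ (gen y)) := by group
      _ = 1 := by rw [hxx, hyy, one_mul]
  have h1 : φ (gen x) * φ (gen y) = 1 := by
    have h4 : (φ (gen x) * φ (gen y)) ^ 3 = ((φ (gen x) * φ (gen y)) * (φ (gen x) * φ (gen y))) * (φ (gen x) * φ (gen y)) := by
      rw [pow_succ, pow_two]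
    rw [h3, h2, one_mul] at h4
    exact h4.symm
  calc φ (gen x) = φ (gen x) * (φ (gen y) * φ (gen y)) := by rw [hyy, mul_one]
    _ = (φ (gen x) * φ (gen y)) * φ (gen y) := by group
    _ = φ (gen y) := by rw [h1, one_mul]

/-- The commutator subgroup of the presented group Fi₂₄ has index 2 (the presented group is Fi₂₄′:2 with Fi₂₄′ its derived subgroup). -/
theorem result : (commutator Cfsg.Spor.Fi24).index = 2 := by
  set φ := QuotientGroup.mk' (commutator Cfsg.Spor.Fi24) with hφ
  have hall : ∀ x : Gen, φ (gen x) = φ (gen Gen.a) := by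
    have e : ∀ x y : Gen, x ∈ coxNodes edges → y ∈ coxNodes edges → coxLabel edges x y = 3 →
        φ (gen x) = φ (gen y) := gen_eq
    have hka := e .k .a (by decide) (by decide) (by decide)
    have hlk := e .l .k (by decide) (by decide) (by decide)
    have hab := e .a .b (by decide) (by decide) (by decide)
    have hbc := e .b .c (by decide) (by decide) (by decide)
    have hcd := e .c .d (by decide) (by decide) (by decide)
    have hde := e .d .e (by decide) (by decide) (by decide)
    have hdh := e .d .h (by decide) (by decide) (by decide)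
    have hef := e .e .f (by decide) (by decide) (by decide)
    have hfg := e .f .g (by decide) (by decide) (by decide)
    have hgj := e .g .j (by decide) (by decide) (by decide)
    have hhi := e .h .i (by decide) (by decide) (by decide)
    intro x
    cases x
    · exact hlk.trans hka
    · exact hka
    · rfl
    · exact hab.symm
    · exact hbc.symm.trans hab.symm
    · exact hcd.symm.trans (hbc.symm.trans hab.symm)
    · exact hde.symm.trans (hcd.symm.trans (hbc.symm.trans hab.symm))
    · exact hef.symm.trans (hde.symm.trans (hcd.symm.trans (hbc.symm.trans hab.symm)))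
    · exact hfg.symm.trans (hef.symm.trans (hde.symm.trans (hcd.symm.trans (hbc.symm.trans hab.symm))))
    · exact hgj.symm.trans (hfg.symm.trans (hef.symm.trans (hde.symm.trans (hcd.symm.trans (hbc.symm.trans hab.symm)))))
    · exact hdh.symm.trans (hcd.symm.trans (hbc.symm.trans hab.symm))
    · exact hhi.symm.trans (hdh.symm.trans (hcd.symm.trans (hbc.symm.trans hab.symm)))
  have haa : φ (gen Gen.a) * φ (gen Gen.a) = 1 := by
    rw [← map_mul, gen_sq Gen.a (by decide), map_one]
  -- every element is `1` or the image of `a`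
  let H : Subgroup Cfsg.Spor.Fi24 :=
    { carrier := {g | φ g = 1 ∨ φ g = φ (gen Gen.a)}
      one_mem' := Or.inl (map_one φ)
      mul_mem' := by
        rintro u v (hu | hu) (hv | hv)
        · left; rw [map_mul, hu, hv, one_mul]
        · right; rw [map_mul, hu, hv, one_mul]
        · right; rw [map_mul, hu, hv, mul_one]
        · left; rw [map_mul, hu, hv, haa]
      inv_mem' := by
        rintro u (hu | hu)
        · left; rw [map_inv, hu, inv_one]
        · right
          rw [map_inv, hu]
          exact inv_eq_of_mul_eq_one_right haa }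
  have hmem : ∀ g : Cfsg.Spor.Fi24, φ g = 1 ∨ φ g = φ (gen Gen.a) := by
    intro g
    exact PresentedGroup.generated_by _ H (fun j => Or.inr (hall j)) g
  have hker : ∀ g ∈ commutator Cfsg.Spor.Fi24, sign g = 1 := by
    intro g hg
    have : commutator Cfsg.Spor.Fi24 ≤ sign.ker := by
      rw [commutator_def, Subgroup.commutator_le]
      intro u _ v _
      rw [MonoidHom.mem_ker, map_commutatorElement]
      simp [commutatorElement_def]
    exact this hg
  rw [Subgroup.index_eq_two_iff]
  refine ⟨gen Gen.a, fun b => ?_⟩
  have hs : sign (gen Gen.a) = Multiplicative.ofAdd 1 := sign_gen _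
  have hmemN : ∀ g : Cfsg.Spor.Fi24, φ g = 1 ↔ g ∈ commutator Cfsg.Spor.Fi24 := by
    intro g
    rw [hφ, QuotientGroup.mk'_apply, QuotientGroup.eq_one_iff]
  by_cases hb : b ∈ commutator Cfsg.Spor.Fi24
  · right
    refine ⟨hb, ?_⟩
    intro hba
    have h1 := hker _ hba
    rw [map_mul, hker b hb, one_mul, hs] at h1
    revert h1
    decide
  · left
    refine ⟨?_, hb⟩
    rcases hmem b with h | h
    · exact absurd ((hmemN b).mp h) hb
    · rw [← hmemN, map_mul, h, haa]

end Cfsg.Agent.S1691
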