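import Cfsg.Statements.S1692
import Cfsg.Agent.Lib.H16.CE.S1692.C0
import Cfsg.Agent.Lib.H16.CE.S1692.C1
import Cfsg.Agent.Lib.H16.CE.S1692.C2
import Cfsg.Agent.Lib.H16.CE.S1692.R3
import Cfsg.Agent.Lib.H16.CE.S1692.R4
import Cfsg.Agent.Lib.H16.CE.S1692.R5
import Cfsg.Agent.Lib.H16.CE.S1692.R6
import Cfsg.Agent.Lib.H16.CE.S1692.R7
import Cfsg.Agent.Lib.H16.CE.S1692.R8
import Cfsg.Agent.Lib.H16.CE.S1692.R9
import Cfsg.Agent.Lib.H16.CE.S1692.R10
import Cfsg.Agent.Lib.H16.CE.S1692.R11
import Cfsg.Agent.Lib.H16.CE.S1692.R12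

set_option autoImplicit false
open Cfsg

namespace Cfsg.Agent.S1692

open Cfsg.Agent.H16.CosetEnum Cfsg.Agent.H16.CE.S1692

def code (x : Cfsg.Spor.ON.Gen × Bool) : ℕ :=
  match x.1, x.2 with
  | .a, _ => 0
  | .b, _ => 1
  | .c, _ => 2
  | .d, _ => 3
  | .e, _ => 4
  | .f, _ => 5
  | .g, true => 6
  | .g, false => 7


def gs (a : ℕ) : Cfsg.Spor.ON.Gen × Bool :=
  match a with
  | 0 => (.a, true)
  | 1 => (.b, true)
  | 2 => (.c, true)
  | 3 => (.d, true)
  | 4 => (.e, true)
  | 5 => (.f, true)
  | 6 => (.g, true)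
  | 7 => (.g, false)
  | _ => (.a, true)

abbrev R : Set (FreeGroup Cfsg.Spor.ON.Gen) := Cfsg.Spor.coxRelators Cfsg.Spor.ON.edges ∪ {r | r ∈ Cfsg.Spor.ON.extra}
abbrev S : Set (FreeGroup Cfsg.Spor.ON.Gen) := {Cfsg.Spor.ON.a, Cfsg.Spor.ON.b, Cfsg.Spor.ON.c, Cfsg.Spor.ON.d, Cfsg.Spor.ON.e, Cfsg.Spor.ON.f}
def SL : List (FreeGroup Cfsg.Spor.ON.Gen) := [Cfsg.Spor.ON.a, Cfsg.Spor.ON.b, Cfsg.Spor.ON.c, Cfsg.Spor.ON.d, Cfsg.Spor.ON.e, Cfsg.Spor.ON.f]
noncomputable def dd : D := ⟨F, PL, iv, 8, rlT, hwT⟩

theorem hW1 : ((coxList Cfsg.Spor.ON.edges Cfsg.Spor.ON.extra).map (letters code)).all (fun w => decide (w ∈ WL0)) = true := by decide +kernel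
theorem hW2 : WL0.all (fun w => decide (w ∈ (coxList Cfsg.Spor.ON.edges Cfsg.Spor.ON.extra).map (letters code))) = true := by decide +kernel
theorem hder : ∀ W ∈ rlT.words, derivedOK iv WL0 W = true := by decide +kernel
theorem hhw : hwL = SL.map (letters code) := by decide +kernel
theorem hsub : ∀ W ∈ WL0, W ∈ WLc := by decide +kernel
theorem hivw : ∀ a < 8, [a, iv a] ∈ WLc := by decide +kernel

theorem base : Base R S gs code 8 dd SL WL0 :=
  base_of (by rintro ⟨g, b⟩; cases g <;> cases b <;> decide) (by decide) rfl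
    (by rintro ⟨g, b⟩; cases g <;> cases b <;> rfl) (fun a h => by
      have h6 : Nat.beq a 6 = false := by
        cases e : Nat.beq a 6
        · rfl
        · have := Nat.eq_of_beq_eq_true e; omega
      have h7 : Nat.beq a 7 = false := by
        cases e : Nat.beq a 7
        · rfl
        · have := Nat.eq_of_beq_eq_true e; omega
      show 8 ≤ (Bool.rec (Bool.rec a 6 (Nat.beq a 7)) 7 (Nat.beq a 6) : ℕ)
      rw [h6, h7]; exact h)
    (by intro s; simp [S, SL]) hW1 hW2 hder (hwT_words.trans hhw)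

theorem facts : ∀ m < 834637, FactTrue (subH R S) (lt R gs 8) dd m := by
  have h0 := (fact_start (R := R) (S := S) (gs := gs) (k := 8) (d := dd))
  have h1 : ∀ m < 42624, FactTrue (subH R S) (lt R gs 8) dd m := base.extend h0 hc0 ht0
  have h2 : ∀ m < 84096, FactTrue (subH R S) (lt R gs 8) dd m := base.extend h1 hc1 ht1
  have h3 : ∀ m < 125824, FactTrue (subH R S) (lt R gs 8) dd m := base.extend h2 hc2 ht2
  have h4 : ∀ m < 167680, FactTrue (subH R S) (lt R gs 8) dd m := base.extend h3 hc3 ht3
  have h5 : ∀ m < 210336, FactTrue (subH R S) (lt R gs 8) dd m := base.extend h4 hc4 ht4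
  have h6 : ∀ m < 251104, FactTrue (subH R S) (lt R gs 8) dd m := base.extend h5 hc5 ht5
  have h7 : ∀ m < 291008, FactTrue (subH R S) (lt R gs 8) dd m := base.extend h6 hc6 ht6
  have h8 : ∀ m < 331296, FactTrue (subH R S) (lt R gs 8) dd m := base.extend h7 hc7 ht7
  have h9 : ∀ m < 372960, FactTrue (subH R S) (lt R gs 8) dd m := base.extend h8 hc8 ht8
  have h10 : ∀ m < 413280, FactTrue (subH R S) (lt R gs 8) dd m := base.extend h9 hc9 ht9
  have h11 : ∀ m < 455232, FactTrue (subH R S) (lt R gs 8) dd m := base.extend h10 hc10 ht10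
  have h12 : ∀ m < 504704, FactTrue (subH R S) (lt R gs 8) dd m := base.extend h11 hc11 ht11
  have h13 : ∀ m < 554048, FactTrue (subH R S) (lt R gs 8) dd m := base.extend h12 hc12 ht12
  have h14 : ∀ m < 594336, FactTrue (subH R S) (lt R gs 8) dd m := base.extend h13 hc13 ht13
  have h15 : ∀ m < 621152, FactTrue (subH R S) (lt R gs 8) dd m := base.extend h14 hc14 ht14
  have h16 : ∀ m < 650176, FactTrue (subH R S) (lt R gs 8) dd m := base.extend h15 hc15 ht15
  have h17 : ∀ m < 678752, FactTrue (subH R S) (lt R gs 8) dd m := base.extend h16 hc16 ht16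
  have h18 : ∀ m < 706176, FactTrue (subH R S) (lt R gs 8) dd m := base.extend h17 hc17 ht17
  have h19 : ∀ m < 732832, FactTrue (subH R S) (lt R gs 8) dd m := base.extend h18 hc18 ht18
  have h20 : ∀ m < 758656, FactTrue (subH R S) (lt R gs 8) dd m := base.extend h19 hc19 ht19
  have h21 : ∀ m < 783936, FactTrue (subH R S) (lt R gs 8) dd m := base.extend h20 hc20 ht20
  have h22 : ∀ m < 808160, FactTrue (subH R S) (lt R gs 8) dd m := base.extend h21 hc21 ht21
  have h23 : ∀ m < 831328, FactTrue (subH R S) (lt R gs 8) dd m := base.extend h22 hc22 ht22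
  have h24 : ∀ m < 834637, FactTrue (subH R S) (lt R gs 8) dd m := base.extend h23 hc23 ht23
  exact h24
theorem cosets : ∀ i < 122760, allAt LL i = true := by
  have h0 := range_start (P := allAt LL)
  have h1 : ∀ i < 1689, allAt LL i = true := range_step h0 hr0 rfl
  have h2 : ∀ i < 3378, allAt LL i = true := range_step h1 hr1 rfl
  have h3 : ∀ i < 5067, allAt LL i = true := range_step h2 hr2 rfl
  have h4 : ∀ i < 6756, allAt LL i = true := range_step h3 hr3 rfl
  have h5 : ∀ i < 8445, allAt LL i = true := range_step h4 hr4 rfl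
  have h6 : ∀ i < 10134, allAt LL i = true := range_step h5 hr5 rfl
  have h7 : ∀ i < 11823, allAt LL i = true := range_step h6 hr6 rfl
  have h8 : ∀ i < 13512, allAt LL i = true := range_step h7 hr7 rfl
  have h9 : ∀ i < 15201, allAt LL i = true := range_step h8 hr8 rfl
  have h10 : ∀ i < 16890, allAt LL i = true := range_step h9 hr9 rfl
  have h11 : ∀ i < 18579, allAt LL i = true := range_step h10 hr10 rfl
  have h12 : ∀ i < 20268, allAt LL i = true := range_step h11 hr11 rfl
  have h13 : ∀ i < 21957, allAt LL i = true := range_step h12 hr12 rfl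
  have h14 : ∀ i < 23646, allAt LL i = true := range_step h13 hr13 rfl
  have h15 : ∀ i < 25335, allAt LL i = true := range_step h14 hr14 rfl
  have h16 : ∀ i < 27024, allAt LL i = true := range_step h15 hr15 rfl
  have h17 : ∀ i < 28713, allAt LL i = true := range_step h16 hr16 rfl
  have h18 : ∀ i < 30402, allAt LL i = true := range_step h17 hr17 rfl
  have h19 : ∀ i < 32091, allAt LL i = true := range_step h18 hr18 rfl
  have h20 : ∀ i < 33780, allAt LL i = true := range_step h19 hr19 rfl
  have h21 : ∀ i < 35469, allAt LL i = true := range_step h20 hr20 rfl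
  have h22 : ∀ i < 37158, allAt LL i = true := range_step h21 hr21 rfl
  have h23 : ∀ i < 38847, allAt LL i = true := range_step h22 hr22 rfl
  have h24 : ∀ i < 40536, allAt LL i = true := range_step h23 hr23 rfl
  have h25 : ∀ i < 42225, allAt LL i = true := range_step h24 hr24 rfl
  have h26 : ∀ i < 43914, allAt LL i = true := range_step h25 hr25 rfl
  have h27 : ∀ i < 45603, allAt LL i = true := range_step h26 hr26 rfl
  have h28 : ∀ i < 47292, allAt LL i = true := range_step h27 hr27 rfl
  have h29 : ∀ i < 48981, allAt LL i = true := range_step h28 hr28 rfl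
  have h30 : ∀ i < 50670, allAt LL i = true := range_step h29 hr29 rfl
  have h31 : ∀ i < 52359, allAt LL i = true := range_step h30 hr30 rfl
  have h32 : ∀ i < 54048, allAt LL i = true := range_step h31 hr31 rfl
  have h33 : ∀ i < 55737, allAt LL i = true := range_step h32 hr32 rfl
  have h34 : ∀ i < 57426, allAt LL i = true := range_step h33 hr33 rfl
  have h35 : ∀ i < 59115, allAt LL i = true := range_step h34 hr34 rfl
  have h36 : ∀ i < 60804, allAt LL i = true := range_step h35 hr35 rfl
  have h37 : ∀ i < 62493, allAt LL i = true := range_step h36 hr36 rfl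
  have h38 : ∀ i < 64182, allAt LL i = true := range_step h37 hr37 rfl
  have h39 : ∀ i < 65871, allAt LL i = true := range_step h38 hr38 rfl
  have h40 : ∀ i < 67560, allAt LL i = true := range_step h39 hr39 rfl
  have h41 : ∀ i < 69249, allAt LL i = true := range_step h40 hr40 rfl
  have h42 : ∀ i < 70938, allAt LL i = true := range_step h41 hr41 rfl
  have h43 : ∀ i < 72627, allAt LL i = true := range_step h42 hr42 rfl
  have h44 : ∀ i < 74316, allAt LL i = true := range_step h43 hr43 rfl
  have h45 : ∀ i < 76005, allAt LL i = true := range_step h44 hr44 rfl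
  have h46 : ∀ i < 77694, allAt LL i = true := range_step h45 hr45 rfl
  have h47 : ∀ i < 79383, allAt LL i = true := range_step h46 hr46 rfl
  have h48 : ∀ i < 81072, allAt LL i = true := range_step h47 hr47 rfl
  have h49 : ∀ i < 82761, allAt LL i = true := range_step h48 hr48 rfl
  have h50 : ∀ i < 84450, allAt LL i = true := range_step h49 hr49 rfl
  have h51 : ∀ i < 86139, allAt LL i = true := range_step h50 hr50 rfl
  have h52 : ∀ i < 87828, allAt LL i = true := range_step h51 hr51 rfl
  have h53 : ∀ i < 89517, allAt LL i = true := range_step h52 hr52 rfl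
  have h54 : ∀ i < 91206, allAt LL i = true := range_step h53 hr53 rfl
  have h55 : ∀ i < 92895, allAt LL i = true := range_step h54 hr54 rfl
  have h56 : ∀ i < 94584, allAt LL i = true := range_step h55 hr55 rfl
  have h57 : ∀ i < 96273, allAt LL i = true := range_step h56 hr56 rfl
  have h58 : ∀ i < 97962, allAt LL i = true := range_step h57 hr57 rfl
  have h59 : ∀ i < 99651, allAt LL i = true := range_step h58 hr58 rfl
  have h60 : ∀ i < 101340, allAt LL i = true := range_step h59 hr59 rfl
  have h61 : ∀ i < 103029, allAt LL i = true := range_step h60 hr60 rfl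
  have h62 : ∀ i < 104718, allAt LL i = true := range_step h61 hr61 rfl
  have h63 : ∀ i < 106407, allAt LL i = true := range_step h62 hr62 rfl
  have h64 : ∀ i < 108096, allAt LL i = true := range_step h63 hr63 rfl
  have h65 : ∀ i < 109785, allAt LL i = true := range_step h64 hr64 rfl
  have h66 : ∀ i < 111474, allAt LL i = true := range_step h65 hr65 rfl
  have h67 : ∀ i < 113163, allAt LL i = true := range_step h66 hr66 rfl
  have h68 : ∀ i < 114852, allAt LL i = true := range_step h67 hr67 rfl
  have h69 : ∀ i < 116541, allAt LL i = true := range_step h68 hr68 rfl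
  have h70 : ∀ i < 118230, allAt LL i = true := range_step h69 hr69 rfl
  have h71 : ∀ i < 119919, allAt LL i = true := range_step h70 hr70 rfl
  have h72 : ∀ i < 121608, allAt LL i = true := range_step h71 hr71 rfl
  have h73 : ∀ i < 122760, allAt LL i = true := range_step h72 hr72 rfl
  exact h73

instance instNZ : NeZero 122760 := ⟨by norm_num⟩

theorem hfix' : ∀ W ∈ dd.hw.words, Cfsg.Agent.H16.Enum.walk tt 0 W = 0 := by
  intro W hW
  have e : dd.hw.words = hwL := hwT_words
  rw [e] at hW
  exact hfix W hW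

theorem main : ∃ act : PresentedGroup R →* (Equiv.Perm (Fin 122760))ᵐᵒᵖ,
      TableOK (subH R S) (lt R gs 8) tt 8 122760 (fun i => rep (lt R gs 8) dd (AA i)) act tp ta ∧
      ∀ (r : FreeGroup Cfsg.Spor.ON.Gen) (i : Fin 122760), (ract act (PresentedGroup.mk R r) i : ℕ) = Cfsg.Agent.H16.Enum.walk tt i (letters code r) :=
  base.tableOK (M := 834637) facts (EF := EF) (A := AA) (L := LL) (WLc := WLc) hL cosets hsub hivw hA0 hfix'


/-- In the presented O'Nan group (generators g, a, b, c, d, e, f), the subgroup generated by the images of a, …, f has index 122760. -/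
theorem result : (((Subgroup.closure ({Cfsg.Spor.ON.a, Cfsg.Spor.ON.b, Cfsg.Spor.ON.c, Cfsg.Spor.ON.d, Cfsg.Spor.ON.e, Cfsg.Spor.ON.f} : Set (FreeGroup Cfsg.Spor.ON.Gen))).map (PresentedGroup.mk (Cfsg.Spor.coxRelators Cfsg.Spor.ON.edges ∪ {r | r ∈ Cfsg.Spor.ON.extra})))).index = 122760 := by
  obtain ⟨act, T, hact⟩ := main
  exact T.index

end Cfsg.Agent.S1692
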