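import Cfsg.Statements.S1693
import Cfsg.Agent.Lib.H16.ON6.Surj
import Cfsg.Agent.Lib.H16.SDInj
import Cfsg.Agent.S1692

set_option autoImplicit false
open Cfsg

namespace Cfsg.Agent.S1693
open Cfsg.Agent.H16.ON6

abbrev RO : Set (FreeGroup Cfsg.Spor.ON.Gen) := Cfsg.Spor.coxRelators Cfsg.Spor.ON.edges ∪ {r | r ∈ Cfsg.Spor.ON.extra}

/-- The generators of `P` inside those of O'N. -/
def gmap : Gen → Cfsg.Spor.ON.Gen
  | .a => .a
  | .b => .b
  | .c => .c
  | .d => .d
  | .e => .e
  | .f => .f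

theorem label_eq (x y : Gen) :
    Cfsg.Spor.coxLabel edges x y = Cfsg.Spor.coxLabel Cfsg.Spor.ON.edges (gmap x) (gmap y) := by
  cases x <;> cases y <;> rfl

theorem gmap_nodes (x : Gen) : gmap x ∈ Cfsg.Spor.coxNodes Cfsg.Spor.ON.edges := by
  cases x <;> decide

/-- The images of the generators in O'N. -/
def oi (x : Gen) : Cfsg.Spor.ON := PresentedGroup.of (gmap x)

theorem oi_eq (x : Gen) : oi x = PresentedGroup.mk RO (FreeGroup.of (gmap x)) := rfl

theorem oi_rel : ∀ r ∈ Cfsg.Spor.coxRelators edges ∪ {r | r ∈ extra}, FreeGroup.lift oi r = 1 := by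
  rintro r (⟨x, -, y, -, rfl⟩ | hr)
  · simp only [map_pow, map_mul, FreeGroup.lift_apply_of]
    rw [label_eq, oi_eq, oi_eq, ← map_mul, ← map_pow]
    apply PresentedGroup.one_of_mem
    exact Or.inl ⟨_, gmap_nodes x, _, gmap_nodes y, rfl⟩
  · have hr' : r = (a * f) * (((c * d) ^ 4)⁻¹) := by simpa [extra] using hr
    subst hr'
    simp only [map_pow, map_mul, map_inv, FreeGroup.lift_apply_of]
    rw [oi_eq, oi_eq, oi_eq, oi_eq, ← map_mul, ← map_mul, ← map_pow, ← map_inv, ← map_mul]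
    apply PresentedGroup.one_of_mem
    apply Or.inr
    simp [Cfsg.Spor.ON.extra, gmap]

/-- The map from `P` to O'N. -/
noncomputable def pio : P →* Cfsg.Spor.ON := PresentedGroup.toGroup oi_rel

theorem pio_of (x : Gen) : pio (PresentedGroup.of x) = oi x := PresentedGroup.toGroup.of oi_rel

/-- The subgroup `H` of the statement. -/
abbrev HH : Subgroup Cfsg.Spor.ON := (Subgroup.closure ({Cfsg.Spor.ON.a, Cfsg.Spor.ON.b, Cfsg.Spor.ON.c, Cfsg.Spor.ON.d, Cfsg.Spor.ON.e, Cfsg.Spor.ON.f} : Set (FreeGroup Cfsg.Spor.ON.Gen))).map (PresentedGroup.mk RO)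

theorem oi_mem (x : Gen) : oi x ∈ HH := by
  refine ⟨FreeGroup.of (gmap x), Subgroup.subset_closure ?_, rfl⟩
  cases x <;> simp [gmap]

theorem pio_le : pio.range ≤ HH := by
  have : pio.range = (⊤ : Subgroup P).map pio := MonoidHom.range_eq_map pio
  rw [this, ← PresentedGroup.closure_range_of, MonoidHom.map_closure, Subgroup.closure_le]
  rintro _ ⟨_, ⟨x, rfl⟩, rfl⟩
  rw [pio_of]
  exact oi_mem x

theorem le_pio : HH ≤ pio.range := by
  show Subgroup.map _ _ ≤ _
  rw [Subgroup.map_le_iff_le_comap, Subgroup.closure_le]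
  intro s hs
  have hs' : s = Cfsg.Spor.ON.a ∨ s = Cfsg.Spor.ON.b ∨ s = Cfsg.Spor.ON.c ∨ s = Cfsg.Spor.ON.d ∨
      s = Cfsg.Spor.ON.e ∨ s = Cfsg.Spor.ON.f := by simpa using hs
  rcases hs' with rfl | rfl | rfl | rfl | rfl | rfl
  · exact ⟨PresentedGroup.of .a, pio_of .a⟩
  · exact ⟨PresentedGroup.of .b, pio_of .b⟩
  · exact ⟨PresentedGroup.of .c, pio_of .c⟩
  · exact ⟨PresentedGroup.of .d, pio_of .d⟩
  · exact ⟨PresentedGroup.of .e, pio_of .e⟩
  · exact ⟨PresentedGroup.of .f, pio_of .f⟩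

/-- The map onto `H`. -/
noncomputable def pit : P →* HH := pio.codRestrict HH (fun p => pio_le ⟨p, rfl⟩)

theorem pit_surj : Function.Surjective pit := by
  rintro ⟨y, hy⟩
  obtain ⟨p, rfl⟩ := le_pio hy
  exact ⟨p, Subtype.ext rfl⟩

/-- The isomorphism `P ≃ PSL₃(7) : 2`. -/
noncomputable def Th : P ≃* Gam := MulEquiv.ofBijective theta theta_bij

/-- The map to `H`. -/
noncomputable def pig : Gam →* HH := pit.comp Th.symm.toMonoidHom

theorem pig_surj : Function.Surjective pig := pit_surj.comp Th.symm.surjective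

instance simplePS : IsSimpleGroup PS := Cfsg.Agent.Lead.PSL_simple (by simp)

theorem one_of_all_eq (t : Cfsg.Spor.ON) (ht : ∀ x, oi x = t) : False := by
  have ha := ht .a
  have hb := ht .b
  have hc := ht .c
  have hd := ht .d
  have he := ht .e
  have hf := ht .f
  simp only [oi, gmap] at ha hb hc hd he hf
  have hinv : t * t = 1 := by
    have := PresentedGroup.one_of_mem (rels := RO) (x := (FreeGroup.of Cfsg.Spor.ON.Gen.a * FreeGroup.of Cfsg.Spor.ON.Gen.a) ^ 1)
      (Or.inl ⟨.a, by decide, .a, by decide, rfl⟩)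
    simp only [pow_one, map_mul] at this
    rw [← ha]; exact this
  obtain ⟨g, hg⟩ : ∃ g : Cfsg.Spor.ON, g = PresentedGroup.of Cfsg.Spor.ON.Gen.g := ⟨_, rfl⟩
  have h1 := PresentedGroup.one_of_mem (rels := RO) (x := (Cfsg.Spor.ON.a * Cfsg.Spor.ON.f) * ((Cfsg.Spor.ON.g ^ 2)⁻¹))
    (Or.inr (by simp [Cfsg.Spor.ON.extra]))
  have h5 := PresentedGroup.one_of_mem (rels := RO) (x := (Cfsg.Spor.ON.b * Cfsg.Spor.ON.c * Cfsg.Spor.ON.d * Cfsg.Spor.ON.g) ^ 5)
    (Or.inr (by simp [Cfsg.Spor.ON.extra]))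
  have h6 := PresentedGroup.one_of_mem (rels := RO) (x := Cfsg.Spor.ON.g * Cfsg.Spor.ON.b * (Cfsg.Spor.ON.c⁻¹ * Cfsg.Spor.ON.g * Cfsg.Spor.ON.c) * (Cfsg.Spor.ON.b⁻¹ * Cfsg.Spor.ON.g * Cfsg.Spor.ON.b) * (Cfsg.Spor.ON.c⁻¹ * Cfsg.Spor.ON.g * Cfsg.Spor.ON.c))
    (Or.inr (by simp [Cfsg.Spor.ON.extra]))
  simp only [map_mul, map_inv, map_pow] at h1 h5 h6
  have ea : PresentedGroup.mk RO Cfsg.Spor.ON.a = t := ha
  have eb : PresentedGroup.mk RO Cfsg.Spor.ON.b = t := hb
  have ec : PresentedGroup.mk RO Cfsg.Spor.ON.c = t := hc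
  have ed : PresentedGroup.mk RO Cfsg.Spor.ON.d = t := hd
  have ef : PresentedGroup.mk RO Cfsg.Spor.ON.f = t := hf
  have eg : PresentedGroup.mk RO Cfsg.Spor.ON.g = g := hg.symm
  rw [ea, ef, eg] at h1
  rw [eb, ec, ed, eg] at h5
  rw [eb, ec, eg] at h6
  have g2 : g * g = 1 := by
    rw [hinv, one_mul, inv_eq_one] at h1
    rw [← pow_two]; exact h1
  have tinv : t⁻¹ = t := inv_eq_of_mul_eq_one_left hinv
  have t1 : t = 1 := by
    have : g * t * (t⁻¹ * g * t) * (t⁻¹ * g * t) * (t⁻¹ * g * t) = (g * g) * (g * g) * t := by group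
    rw [this, g2] at h6
    simpa using h6
  have g1 : g = 1 := by
    rw [t1] at h5
    have : (1 * 1 * 1 * g) ^ 5 = (g * g) * (g * g) * g := by
      simp only [one_mul, pow_succ, pow_zero, mul_assoc]
    rw [this, g2] at h5
    simpa using h5
  -- everything is trivial
  have hall : ∀ x : Cfsg.Spor.ON, x = 1 := by
    intro x
    have hx : x ∈ (⊤ : Subgroup Cfsg.Spor.ON) := trivial
    rw [← PresentedGroup.closure_range_of] at hx
    have hle : Subgroup.closure (Set.range (PresentedGroup.of (rels := RO))) ≤ ⊥ := by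
      rw [Subgroup.closure_le]
      rintro _ ⟨y, rfl⟩
      simp only [Subgroup.coe_bot, Set.mem_singleton_iff]
      cases y
      · rw [← hg]; exact g1
      · rw [ha, t1]
      · rw [hb, t1]
      · rw [hc, t1]
      · rw [hd, t1]
      · rw [he, t1]
      · rw [hf, t1]
    exact Subgroup.mem_bot.1 (hle hx)
  have h := Cfsg.Agent.S1692.result
  have htop : (Subgroup.map (PresentedGroup.mk RO) (Subgroup.closure ({Cfsg.Spor.ON.a, Cfsg.Spor.ON.b, Cfsg.Spor.ON.c, Cfsg.Spor.ON.d, Cfsg.Spor.ON.e, Cfsg.Spor.ON.f} : Set (FreeGroup Cfsg.Spor.ON.Gen)))) = ⊤ := by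
    rw [eq_top_iff]
    intro x _
    rw [hall x]
    exact Subgroup.one_mem _
  rw [htop, Subgroup.index_top] at h
  omega

theorem pig_nontrivial : ∃ s, pig (SemidirectProduct.inl s) ≠ 1 := by
  by_contra hcon
  push Not at hcon
  have hpair : ∀ x y : Gen, oi x * oi y = 1 := by
    intro x y
    have h1 := hcon (QuotientGroup.mk (A x * B y))
    rw [← gen_mul] at h1
    have h2 : Th.symm (gen x * gen y) = PresentedGroup.of x * PresentedGroup.of y := by
      rw [MulEquiv.symm_apply_eq]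
      change gen x * gen y = theta (PresentedGroup.of x * PresentedGroup.of y)
      rw [map_mul, theta_of, theta_of]
    have h3 : pit (PresentedGroup.of x * PresentedGroup.of y) = 1 := by
      rw [← h2]; exact h1
    have h4 := congrArg Subtype.val h3
    have h5 : pio (PresentedGroup.of x * PresentedGroup.of y) = 1 := h4
    rwa [map_mul, pio_of, pio_of] at h5
  apply one_of_all_eq (oi .a)
  intro x
  have h1 := hpair x .a
  have h2 := hpair .a .a
  exact mul_right_cancel (h1.trans h2.symm)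

/-! ### Inverse transpose is not inner -/

def E1 : SL3 := ⟨!![1,1,0;0,1,0;0,0,1], by rw [Matrix.det_fin_three]; decide +kernel⟩
def F1 : SL3 := ⟨!![1,0,0;-1,1,0;0,0,1], by rw [Matrix.det_fin_three]; decide +kernel⟩
def E2 : SL3 := ⟨!![1,0,0;0,1,1;0,0,1], by rw [Matrix.det_fin_three]; decide +kernel⟩
def F2 : SL3 := ⟨!![1,0,0;0,1,0;0,-1,1], by rw [Matrix.det_fin_three]; decide +kernel⟩

theorem tau_E1 : tau E1 = F1 := by
  rw [tau_apply]
  apply inv_eq_of_mul_eq_one_right
  apply Subtype.ext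
  decide +kernel

theorem tau_E2 : tau E2 = F2 := by
  rw [tau_apply]
  apply inv_eq_of_mul_eq_one_right
  apply Subtype.ext
  decide +kernel

theorem aux_zero {r x : ZMod 7} (hr : r ≠ 1) (h : x = x * r) : x = 0 := by
  have h2 : x * (1 - r) = 0 := by linear_combination h
  rcases mul_eq_zero.1 h2 with h3 | h3
  · exact h3
  · exact absurd (sub_eq_zero.1 h3).symm hr

theorem eq_of_commute {X E F : SL3} (hF : tau E = F)
    (h : (QuotientGroup.mk X : PS) * tauBar (QuotientGroup.mk E) = QuotientGroup.mk E * QuotientGroup.mk X) :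
    ∃ r : ZMod 7, ∀ i j, (E.1 * X.1) i j = (X.1 * F.1) i j * r := by
  rw [tauBar_mk, hF, ← QuotientGroup.mk_mul, ← QuotientGroup.mk_mul, QuotientGroup.eq,
    Matrix.SpecialLinearGroup.mem_center_iff] at h
  obtain ⟨r, -, hr⟩ := h
  refine ⟨r, fun i j => ?_⟩
  have h1 : E * X = X * F * ((X * F)⁻¹ * (E * X)) := by group
  have h2 : (E.1 * X.1) = (X.1 * F.1) * Matrix.scalar (Fin 3) r := by
    rw [hr]
    have := congrArg Subtype.val h1
    simpa using this
  rw [h2, Matrix.scalar_apply, Matrix.mul_diagonal]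

theorem no_commute (X : SL3)
    (h1 : (QuotientGroup.mk X : PS) * tauBar (QuotientGroup.mk E1) = QuotientGroup.mk E1 * QuotientGroup.mk X)
    (h2 : (QuotientGroup.mk X : PS) * tauBar (QuotientGroup.mk E2) = QuotientGroup.mk E2 * QuotientGroup.mk X) : False := by
  obtain ⟨r, hr⟩ := eq_of_commute tau_E1 h1
  obtain ⟨s, hs⟩ := eq_of_commute tau_E2 h2
  have hdet : X.1.det = 1 := X.2
  rw [Matrix.det_fin_three] at hdet
  generalize hx : X.1 = Y at *
  have e1 : ∀ i j, (E1.1 * Y) i j = Y i j + (if i = 0 then Y 1 j else 0) := by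
    intro i j
    rw [Matrix.mul_apply, Fin.sum_univ_three]
    fin_cases i <;> simp [E1]
  have e2 : ∀ i j, (E2.1 * Y) i j = Y i j + (if i = 1 then Y 2 j else 0) := by
    intro i j
    rw [Matrix.mul_apply, Fin.sum_univ_three]
    fin_cases i <;> simp [E2]
  have f1 : ∀ i j, (Y * F1.1) i j = Y i j - (if j = 0 then Y i 1 else 0) := by
    intro i j
    rw [Matrix.mul_apply, Fin.sum_univ_three]
    fin_cases j <;> simp [F1] <;> ring
  have f2 : ∀ i j, (Y * F2.1) i j = Y i j - (if j = 1 then Y i 2 else 0) := by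
    intro i j
    rw [Matrix.mul_apply, Fin.sum_univ_three]
    fin_cases j <;> simp [F2] <;> ring
  simp only [e1, f1] at hr
  simp only [e2, f2] at hs
  have r10 := hr 1 0
  have r11 := hr 1 1
  have r12 := hr 1 2
  have r20 := hr 2 0
  have r02 := hr 0 2
  have s00 := hs 0 0
  have s01 := hs 0 1
  have s02 := hs 0 2
  have s21 := hs 2 1
  simp at r10 r11 r12 r20 r02 s00 s01 s02 s21
  by_cases hr1 : r = 1
  · subst hr1
    by_cases hs1 : s = 1
    · subst hs1
      simp at r10 r20 r02 s21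
      have b11 : Y 1 1 = 0 := by linear_combination r10
      have b21 : Y 2 1 = 0 := by linear_combination r20
      have b22 : Y 2 2 = 0 := by linear_combination s21
      rw [b11, r02, b21, b22] at hdet
      simp at hdet
    · have a0 := aux_zero hs1 s00
      have a2 := aux_zero hs1 s02
      have a1 : Y 0 1 = 0 := by
        rw [a2] at s01
        exact aux_zero hs1 (by simpa using s01)
      rw [a0, a1, a2] at hdet
      simp at hdet
  · have a1 := aux_zero hr1 r11
    have a2 := aux_zero hr1 r12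
    have a0 : Y 1 0 = 0 := by
      rw [a1] at r10
      exact aux_zero hr1 (by simpa using r10)
    rw [a0, a1, a2] at hdet
    simp at hdet

theorem pig_faithful (k : Gam) (hk : k.right ≠ 1) : ∃ s, k * SemidirectProduct.inl s ≠ SemidirectProduct.inl s * k := by
  by_contra hcon
  push Not at hcon
  have hom : k.right = om := (c2_cases _).resolve_left hk
  obtain ⟨X, hX⟩ := QuotientGroup.mk_surjective k.left
  have key : ∀ s : PS, (QuotientGroup.mk X : PS) * tauBar s = s * QuotientGroup.mk X := by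
    intro s
    have := congrArg SemidirectProduct.left (hcon s)
    simp only [SemidirectProduct.mul_left, SemidirectProduct.left_inl, SemidirectProduct.right_inl,
      map_one, MulAut.one_apply, hom, phi_om] at this
    rwa [hX]
  exact no_commute X (key _) (key _)

theorem pig_inj : Function.Injective pig :=
  Cfsg.Agent.H16.SDInj.sd_inj pig pig_nontrivial pig_faithful


/-- In the presented O'Nan group, the subgroup H generated by the images of a, …, f has a normal subgroup of index 2 isomorphic to PSL(3, 7). -/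
theorem result : ∃ N : Subgroup (((Subgroup.closure ({Cfsg.Spor.ON.a, Cfsg.Spor.ON.b, Cfsg.Spor.ON.c, Cfsg.Spor.ON.d, Cfsg.Spor.ON.e, Cfsg.Spor.ON.f} : Set (FreeGroup Cfsg.Spor.ON.Gen))).map (PresentedGroup.mk (Cfsg.Spor.coxRelators Cfsg.Spor.ON.edges ∪ {r | r ∈ Cfsg.Spor.ON.extra})))), N.Normal ∧ N.index = 2 ∧ Nonempty (N ≃* Matrix.ProjectiveSpecialLinearGroup (Fin 3) (ZMod 7)) := by
  exact Cfsg.Agent.H16.SDInj.sd_conclusion (by simp [C2]) (MulEquiv.ofBijective pig ⟨pig_inj, pig_surj⟩)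

end Cfsg.Agent.S1693
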