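import Cfsg.Statements.S1717
import Cfsg.Agent.Lib.Lead.CardSL
-- import your own Cfsg.Agent.* helpers here

set_option autoImplicit false
open Cfsg

namespace Cfsg.Agent.S1717

abbrev SL5 := Matrix.SpecialLinearGroup (Fin 5) (ZMod 2)

def pos : Fin 5 → ℕ := ![0, 4, 1, 2, 3]

theorem pos_inj : Function.Injective pos := by decide

def PP (M : Matrix (Fin 5) (Fin 5) (ZMod 2)) : Prop :=
  (∀ i j, pos j < pos i → M i j = 0) ∧ ∀ i, M i i = 1

theorem PP_one : PP 1 := by
  refine ⟨fun i j h => ?_, fun i => by simp⟩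
  rw [Matrix.one_apply_ne]
  rintro rfl
  exact lt_irrefl _ h

theorem PP_mul {M N : Matrix (Fin 5) (Fin 5) (ZMod 2)} (hM : PP M) (hN : PP N) : PP (M * N) := by
  refine ⟨fun i j h => ?_, fun i => ?_⟩
  · rw [Matrix.mul_apply]
    refine Finset.sum_eq_zero fun k _ => ?_
    rcases lt_or_ge (pos k) (pos i) with h1 | h1
    · rw [hM.1 i k h1, zero_mul]
    · rw [hN.1 k j (lt_of_lt_of_le h h1), mul_zero]
  · rw [Matrix.mul_apply, Finset.sum_eq_single i]
    · rw [hM.2, hN.2, one_mul]
    · intro k _ hk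
      have hne : pos k ≠ pos i := fun h => hk (pos_inj h)
      rcases lt_or_gt_of_ne hne with h1 | h1
      · rw [hM.1 i k h1, zero_mul]
      · rw [hN.1 k i h1, mul_zero]
    · intro h; exact absurd (Finset.mem_univ i) h

def posPerm : Equiv.Perm (Fin 5) :=
  ⟨![0, 2, 3, 4, 1], ![0, 4, 1, 2, 3], by decide, by decide⟩

theorem pos_posPerm : ∀ k : Fin 5, pos (posPerm k) = (k : ℕ) := by decide

theorem PP_det {M : Matrix (Fin 5) (Fin 5) (ZMod 2)} (hM : PP M) : M.det = 1 := by
  rw [← Matrix.det_submatrix_equiv_self posPerm M]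
  rw [Matrix.det_of_upperTriangular]
  · exact Finset.prod_eq_one fun i _ => hM.2 _
  · intro a b hab
    exact hM.1 _ _ (by rw [pos_posPerm, pos_posPerm]; exact hab)

def SS : Subgroup SL5 where
  carrier := {g | PP (g : Matrix (Fin 5) (Fin 5) (ZMod 2))}
  one_mem' := PP_one
  mul_mem' := fun ha hb => PP_mul ha hb
  inv_mem' := by
    intro g hg
    have hpow : ∀ n : ℕ, PP ((g ^ n : SL5) : Matrix (Fin 5) (Fin 5) (ZMod 2)) := by
      intro n
      induction n with
      | zero => exact PP_one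
      | succ n ih =>
        rw [pow_succ]
        exact PP_mul ih hg
    have h1 : g⁻¹ = g ^ (orderOf g - 1) := by
      apply inv_eq_of_mul_eq_one_right
      rw [← pow_succ', Nat.sub_add_cancel (orderOf_pos g), pow_orderOf_eq_one]
    show PP ((g⁻¹ : SL5) : Matrix (Fin 5) (Fin 5) (ZMod 2))
    rw [h1]
    exact hpow _

theorem mem_SS {g : SL5} : g ∈ SS ↔ PP (g : Matrix (Fin 5) (Fin 5) (ZMod 2)) := Iff.rfl

abbrev II := {p : Fin 5 × Fin 5 // pos p.1 < pos p.2}

theorem card_II : Fintype.card II = 10 := by decide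

def mkM (a : II → ZMod 2) : Matrix (Fin 5) (Fin 5) (ZMod 2) := fun i j =>
  if i = j then 1 else if h : pos i < pos j then a ⟨(i, j), h⟩ else 0

theorem PP_mkM (a : II → ZMod 2) : PP (mkM a) := by
  refine ⟨fun i j h => ?_, fun i => by simp [mkM]⟩
  have hne : i ≠ j := by
    rintro rfl
    exact lt_irrefl _ h
  have hnlt : ¬ pos i < pos j := not_lt.2 h.le
  simp [mkM, hne, hnlt]

theorem card_SS : Nat.card SS = 2 ^ 10 := by
  have hc : Nat.card (II → ZMod 2) = 2 ^ 10 := by
    rw [Nat.card_eq_fintype_card, Fintype.card_fun, card_II, ZMod.card]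
  apply le_antisymm
  · rw [← hc]
    let f : SS → (II → ZMod 2) := fun g p => ((g : SL5) : Matrix (Fin 5) (Fin 5) (ZMod 2)) p.1.1 p.1.2
    refine Nat.card_le_card_of_injective f ?_
    intro g h hgh
    apply Subtype.ext
    apply Subtype.ext
    ext i j
    have hg : PP _ := g.2
    have hh : PP _ := h.2
    rcases lt_trichotomy (pos i) (pos j) with h1 | h1 | h1
    · exact congrFun hgh ⟨(i, j), h1⟩
    · have : i = j := pos_inj h1
      subst this
      rw [hg.2, hh.2]
    · rw [hg.1 i j h1, hh.1 i j h1]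
  · rw [← hc]
    let f : (II → ZMod 2) → SS := fun a => ⟨⟨mkM a, PP_det (PP_mkM a)⟩, PP_mkM a⟩
    refine Nat.card_le_card_of_injective f ?_
    intro a b hab
    funext p
    have h1 : mkM a = mkM b := congrArg (fun g : SS => ((g : SL5) : Matrix (Fin 5) (Fin 5) (ZMod 2))) hab
    have h2 := congrFun (congrFun h1 p.1.1) p.1.2
    have hne : p.1.1 ≠ p.1.2 := by
      intro h
      have := p.2
      rw [h] at this
      exact lt_irrefl _ this
    simpa [mkM, hne, p.2] using h2

theorem card_SL5 : Nat.card SL5 = 9999360 := by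
  have h := Cfsg.Agent.Lead.card_SL (F := ZMod 2) 5 (by norm_num)
  rw [ZMod.card] at h
  have h2 : (∏ i : Fin 5, ((2:ℕ) ^ 5 - 2 ^ (i:ℕ))) = 9999360 := by
    rw [Fin.prod_univ_five]; norm_num [Fin.val_succ]
  rw [h2] at h
  have h3 : (2 - 1) * Nat.card SL5 = 1 * Nat.card SL5 := rfl
  rw [one_mul] at h3
  rw [← h3]
  exact h

theorem PP_comm {M : Matrix (Fin 5) (Fin 5) (ZMod 2)} (hM : PP M) :
    M * Matrix.transvection 0 1 1 = Matrix.transvection 0 1 1 * M := by
  have key : M * Matrix.single 0 1 1 = Matrix.single 0 1 1 * M := by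
    ext k l
    by_cases hk : k = 0 <;> by_cases hl : l = 1
    · subst hk hl
      rw [Matrix.mul_single_apply_same, Matrix.single_mul_apply_same, hM.2, hM.2]
    · subst hk
      have hp : ∀ l : Fin 5, l ≠ 1 → pos l < pos 1 := by decide
      rw [Matrix.mul_single_apply_of_ne _ _ _ _ _ hl, Matrix.single_mul_apply_same, hM.1 _ _ (hp l hl),
        mul_zero]
    · subst hl
      have hp : ∀ k : Fin 5, k ≠ 0 → pos 0 < pos k := by decide
      rw [Matrix.mul_single_apply_same, Matrix.single_mul_apply_of_ne _ _ _ _ _ hk, hM.1 _ _ (hp k hk),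
        zero_mul]
    · rw [Matrix.mul_single_apply_of_ne _ _ _ _ _ hl, Matrix.single_mul_apply_of_ne _ _ _ _ _ hk]
  simp [Matrix.transvection, mul_add, add_mul, key]

theorem PP_transvection {i j : Fin 5} (h : pos i < pos j) :
    PP (Matrix.transvection i j (1 : ZMod 2)) := by
  have hne : i ≠ j := by
    rintro rfl
    exact lt_irrefl _ h
  refine ⟨fun a b hab => ?_, fun a => ?_⟩
  · have hab' : a ≠ b := by
      rintro rfl
      exact lt_irrefl _ hab
    rw [Matrix.transvection, Matrix.add_apply, Matrix.one_apply_ne hab', zero_add,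
      Matrix.single_apply_of_ne]
    rintro ⟨rfl, rfl⟩
    exact lt_asymm h hab
  · rw [Matrix.transvection, Matrix.add_apply, Matrix.one_apply_eq, Matrix.single_apply_of_ne, add_zero]
    rintro ⟨rfl, rfl⟩
    exact hne rfl

theorem comm_left {g : Matrix (Fin 5) (Fin 5) (ZMod 2)} {i j : Fin 5}
    (h : g * Matrix.transvection i j 1 = Matrix.transvection i j 1 * g) {k : Fin 5} (hk : k ≠ i) :
    g k i = 0 := by
  have h1 : g * Matrix.single i j 1 = Matrix.single i j 1 * g := by
    simpa [Matrix.transvection, mul_add, add_mul] using h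
  have h2 := congrFun (congrFun h1 k) j
  rw [Matrix.mul_single_apply_same, Matrix.single_mul_apply_of_ne _ _ _ _ _ hk] at h2
  simpa using h2

theorem comm_right {g : Matrix (Fin 5) (Fin 5) (ZMod 2)} {i j : Fin 5}
    (h : g * Matrix.transvection i j 1 = Matrix.transvection i j 1 * g) {l : Fin 5} (hl : l ≠ j) :
    g j l = 0 := by
  have h1 : g * Matrix.single i j 1 = Matrix.single i j 1 * g := by
    simpa [Matrix.transvection, mul_add, add_mul] using h
  have h2 := congrFun (congrFun h1 i) l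
  rw [Matrix.mul_single_apply_of_ne _ _ _ _ _ hl, Matrix.single_mul_apply_same] at h2
  simpa using h2.symm

theorem center_SS (s : SL5) (hs : (s : Matrix (Fin 5) (Fin 5) (ZMod 2)) = Matrix.transvection 0 1 1)
    {w : SL5} (hw : w ∈ SS) (hc : ∀ y ∈ SS, w * y = y * w) : w = 1 ∨ w = s := by
  have hcomm : ∀ i j : Fin 5, pos i < pos j →
      (w : Matrix (Fin 5) (Fin 5) (ZMod 2)) * Matrix.transvection i j 1
        = Matrix.transvection i j 1 * (w : Matrix (Fin 5) (Fin 5) (ZMod 2)) := by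
    intro i j hij
    have hy : (⟨Matrix.transvection i j 1, PP_det (PP_transvection hij)⟩ : SL5) ∈ SS :=
      PP_transvection hij
    have := hc _ hy
    exact congrArg (fun g : SL5 => (g : Matrix (Fin 5) (Fin 5) (ZMod 2))) this
  have hoff : ∀ k l : Fin 5, k ≠ l → ¬ (k = 0 ∧ l = 1) →
      (w : Matrix (Fin 5) (Fin 5) (ZMod 2)) k l = 0 := by
    intro k l hkl h01
    by_cases hl : l = 1
    · subst hl
      have hk0 : k ≠ 0 := fun h => h01 ⟨h, rfl⟩
      have hp : ∀ k : Fin 5, k ≠ 0 → pos 0 < pos k := by decide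
      exact comm_right (hcomm 0 k (hp k hk0)) (Ne.symm hkl)
    · have hp : ∀ l : Fin 5, l ≠ 1 → pos l < pos 1 := by decide
      exact comm_left (hcomm l 1 (hp l hl)) hkl
  have hdiag : ∀ k, (w : Matrix (Fin 5) (Fin 5) (ZMod 2)) k k = 1 := hw.2
  have h2 : ∀ a : ZMod 2, a = 0 ∨ a = 1 := by decide
  rcases h2 ((w : Matrix (Fin 5) (Fin 5) (ZMod 2)) 0 1) with h0 | h0
  · left
    apply Subtype.ext
    ext k l
    rw [Matrix.SpecialLinearGroup.coe_one]
    by_cases hkl : k = l
    · subst hkl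
      rw [hdiag, Matrix.one_apply_eq]
    · rw [Matrix.one_apply_ne hkl]
      by_cases h01 : k = 0 ∧ l = 1
      · rw [h01.1, h01.2, h0]
      · exact hoff k l hkl h01
  · right
    apply Subtype.ext
    rw [hs]
    ext k l
    rw [Matrix.transvection, Matrix.add_apply]
    by_cases hkl : k = l
    · subst hkl
      rw [hdiag, Matrix.one_apply_eq, Matrix.single_apply_of_ne, add_zero]
      rintro ⟨rfl, h⟩
      exact absurd h (by decide)
    · rw [Matrix.one_apply_ne hkl, zero_add]
      by_cases h01 : k = 0 ∧ l = 1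
      · rw [h01.1, h01.2, h0, Matrix.single_apply_same]
      · rw [hoff k l hkl h01, Matrix.single_apply_of_ne]
        rintro ⟨rfl, rfl⟩
        exact h01 ⟨rfl, rfl⟩

theorem central_sylow (s : SL5) (hs : (s : Matrix (Fin 5) (Fin 5) (ZMod 2)) = Matrix.transvection 0 1 1)
    (CC : Subgroup SL5) (hCC : CC = Subgroup.centralizer ({s} : Set SL5))
    (R : Sylow 2 CC)
    (w : CC) (hw : w ∈ R) (hc : ∀ y ∈ R, w * y = y * w) :
    (w : SL5) = 1 ∨ (w : SL5) = s := by
  classical
  have hle : SS ≤ CC := by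
    intro y hy
    rw [hCC, Subgroup.mem_centralizer_singleton_iff]
    apply Subtype.ext
    show ((y : Matrix (Fin 5) (Fin 5) (ZMod 2)) * (s : Matrix (Fin 5) (Fin 5) (ZMod 2)))
      = (s : Matrix (Fin 5) (Fin 5) (ZMod 2)) * (y : Matrix (Fin 5) (Fin 5) (ZMod 2))
    rw [hs]
    exact PP_comm hy
  let S₀ : Subgroup CC := SS.subgroupOf CC
  have hcard : Nat.card S₀ = 2 ^ 10 := by
    rw [Nat.card_congr (Subgroup.subgroupOfEquivOfLe hle).toEquiv, card_SS]
  have hP : IsPGroup 2 S₀ := IsPGroup.of_card hcard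
  obtain ⟨Q, hQ⟩ := hP.exists_le_sylow
  have hQeq : S₀ = (Q : Subgroup CC) := by
    apply Subgroup.eq_of_le_of_card_ge hQ
    obtain ⟨k, hk⟩ := (IsPGroup.iff_card.1 Q.isPGroup')
    have h1 : Nat.card Q ∣ Nat.card CC := Subgroup.card_subgroup_dvd_card _
    have h2 : Nat.card CC ∣ Nat.card SL5 := Subgroup.card_subgroup_dvd_card _
    have h3 : 2 ^ k ∣ 9999360 := by
      rw [← hk, ← card_SL5]
      exact h1.trans h2
    have hk10 : k ≤ 10 := by
      by_contra hcon
      push Not at hcon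
      have h4 : 2 ^ 11 ∣ 2 ^ k := pow_dvd_pow 2 hcon
      have h5 := h4.trans h3
      omega
    rw [hcard, hk]
    exact Nat.pow_le_pow_right (by norm_num) hk10
  obtain ⟨c, hcQ⟩ := MulAction.exists_smul_eq CC Q R
  have hmemR : ∀ y : CC, y ∈ R ↔ c⁻¹ * y * c ∈ (Q : Subgroup CC) := by
    intro y
    rw [← hcQ]
    show y ∈ ((c • Q : Sylow 2 CC) : Subgroup CC) ↔ _
    rw [Sylow.smul_def, Sylow.pointwise_smul_def, Subgroup.mem_pointwise_smul_iff_inv_smul_mem]
    have : (MulAut.conj c)⁻¹ • y = c⁻¹ * y * c := by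
      rw [MulAut.smul_def, MulAut.conj_inv_apply]
    rw [this]
  have hmem : ∀ y : CC, y ∈ (Q : Subgroup CC) → c * y * c⁻¹ ∈ R := by
    intro y hy
    rw [hmemR]
    have : c⁻¹ * (c * y * c⁻¹) * c = y := by group
    rw [this]
    exact hy
  have hmem' : c⁻¹ * w * c ∈ (Q : Subgroup CC) := (hmemR w).1 hw
  have hxS : ((c⁻¹ * w * c : CC) : SL5) ∈ SS := by
    have : (c⁻¹ * w * c : CC) ∈ S₀ := by rw [hQeq]; exact hmem'
    exact this
  have hxc : ∀ y ∈ SS, ((c⁻¹ * w * c : CC) : SL5) * y = y * ((c⁻¹ * w * c : CC) : SL5) := by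
    intro y hy
    let ŷ : CC := ⟨y, hle hy⟩
    have hŷ : ŷ ∈ (Q : Subgroup CC) := by
      rw [← hQeq]
      exact hy
    have h1 := hc _ (hmem ŷ hŷ)
    have h2 : (c⁻¹ * w * c) * ŷ = ŷ * (c⁻¹ * w * c) := by
      calc c⁻¹ * w * c * ŷ = c⁻¹ * (w * (c * ŷ * c⁻¹)) * c := by group
        _ = c⁻¹ * ((c * ŷ * c⁻¹) * w) * c := by rw [h1]
        _ = ŷ * (c⁻¹ * w * c) := by group
    exact congrArg (fun g : CC => (g : SL5)) h2
  have hw' : w = c * (c⁻¹ * w * c) * c⁻¹ := by group
  have hcs : ∀ v : CC, s * (v : SL5) = (v : SL5) * s := by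
    intro v
    have h : (v : SL5) ∈ Subgroup.centralizer ({s} : Set SL5) := hCC ▸ v.2
    rw [Subgroup.mem_centralizer_singleton_iff] at h
    exact h.symm
  rcases center_SS s hs hxS hxc with h1 | h1
  · left
    have : (c⁻¹ * w * c : CC) = 1 := Subtype.ext h1
    rw [hw', this]
    simp
  · right
    rw [hw']
    show ((c : SL5) * ((c⁻¹ * w * c : CC) : SL5) * ((c : SL5))⁻¹) = s
    rw [h1, ← hcs c]
    group

theorem abstract_step {G : Type*} [Group G] [Finite G] (z : G) (hz : orderOf z = 2)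
    (C : Subgroup G) (hC : C = Subgroup.centralizer ({z} : Set G))
    (T : Sylow 2 C) (T' : Subgroup G) (hT' : T' = (T : Subgroup C).map C.subtype)
    (hzT : z ∈ T')
    (hcenter : ∀ w : G, w ∈ T' → (∀ t ∈ T', w * t = t * w) → w = 1 ∨ w = z) :
    ¬ 2 ∣ T'.index := by
  intro h2
  have hT'p : IsPGroup 2 T' := hT' ▸ T.isPGroup'.map C.subtype
  obtain ⟨P, hP⟩ := hT'p.exists_le_sylow
  have hne : T' ≠ P := by
    intro h
    rw [h] at h2
    exact P.not_dvd_index h2
  have hlt : T' < P := lt_of_le_of_ne hP hne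
  haveI : Group.IsNilpotent (P : Subgroup G) := P.isPGroup'.isNilpotent
  have hltP : T'.subgroupOf (P : Subgroup G) < ⊤ := by
    rw [lt_top_iff_ne_top]
    intro h
    rw [Subgroup.subgroupOf_eq_top] at h
    exact hne (le_antisymm hP h)
  have hnc := normalizerCondition_of_isNilpotent (G := (P : Subgroup G)) _ hltP
  obtain ⟨x, hx, hxT⟩ := SetLike.exists_of_lt hnc
  have hxinv : x⁻¹ ∈ Subgroup.normalizer (T'.subgroupOf (P : Subgroup G)) :=
    inv_mem hx
  have hconj : ∀ t ∈ T', (x : G) * t * (x : G)⁻¹ ∈ T' := by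
    intro t ht
    have := (Subgroup.mem_normalizer_iff.1 hx ⟨t, hP ht⟩).1 ht
    exact this
  have hconj' : ∀ t ∈ T', (x : G)⁻¹ * t * (x : G) ∈ T' := by
    intro t ht
    have := (Subgroup.mem_normalizer_iff.1 hxinv ⟨t, hP ht⟩).1 ht
    have h3 : ((x⁻¹ * ⟨t, hP ht⟩ * x⁻¹⁻¹ : (P : Subgroup G)) : G) ∈ T' := this
    simpa using h3
  have hT'C : ∀ t ∈ T', t * z = z * t := by
    intro t ht
    rw [hT'] at ht
    obtain ⟨t₁, -, rfl⟩ := ht
    have h : (t₁ : G) ∈ Subgroup.centralizer ({z} : Set G) := hC ▸ t₁.2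
    rw [Subgroup.mem_centralizer_singleton_iff] at h
    exact h
  have key := hcenter ((x : G) * z * (x : G)⁻¹) (hconj z hzT) (by
    intro t ht
    have h1 := hT'C _ (hconj' t ht)
    calc (x : G) * z * (x : G)⁻¹ * t = (x : G) * (z * ((x : G)⁻¹ * t * (x : G))) * (x : G)⁻¹ := by group
      _ = (x : G) * (((x : G)⁻¹ * t * (x : G)) * z) * (x : G)⁻¹ := by rw [h1]
      _ = t * ((x : G) * z * (x : G)⁻¹) := by group)
  have hz1 : z ≠ 1 := by
    rintro rfl
    simp at hz
  rcases key with h1 | h1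
  · apply hz1
    have : (x : G) * z * (x : G)⁻¹ = (x : G) * 1 * (x : G)⁻¹ := by rw [h1]; group
    simpa using this
  · have hxC : (x : G) ∈ C := by
      rw [hC, Subgroup.mem_centralizer_singleton_iff]
      calc (x : G) * z = ((x : G) * z * (x : G)⁻¹) * x := by group
        _ = z * x := by rw [h1]
    have hPC : IsPGroup 2 ((P : Subgroup G).subgroupOf C) :=
      P.isPGroup'.comap_of_injective C.subtype C.subtype_injective
    have hle : (T : Subgroup C) ≤ (P : Subgroup G).subgroupOf C := by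
      intro t ht
      apply hP
      rw [hT']
      exact ⟨t, ht, rfl⟩
    have hQ := T.is_maximal' hPC hle
    have hx2 : (⟨x, hxC⟩ : C) ∈ (T : Subgroup C) := by
      rw [← hQ]
      exact x.2
    apply hxT
    show (x : G) ∈ T'
    rw [hT']
    exact ⟨⟨x, hxC⟩, hx2, rfl⟩


/-- Let G be a finite group with an involution z whose centraliser C is isomorphic to the centraliser of a transvection of SL(5, 2). Then a Sylow 2-subgroup of C, viewed in G, is a Sylow 2-subgroup of G (its index in G is odd). -/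
theorem result {G : Type*} [Group G] [Finite G] (s : Matrix.SpecialLinearGroup (Fin 5) (ZMod 2)) (hs : (s : Matrix (Fin 5) (Fin 5) (ZMod 2)) = Matrix.transvection 0 1 1) (z : G) (hz : orderOf z = 2) (e : (Subgroup.centralizer ({z} : Set G)) ≃* Subgroup.centralizer ({s} : Set (Matrix.SpecialLinearGroup (Fin 5) (ZMod 2)))) (T : Sylow 2 (Subgroup.centralizer ({z} : Set G))) : ¬ 2 ∣ ((T : Subgroup (Subgroup.centralizer ({z} : Set G))).map (Subgroup.subtype (Subgroup.centralizer ({z} : Set G)))).index := by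
  classical
have hzC : z ∈ Subgroup.centralizer ({z} : Set G) := by
  rw [Subgroup.mem_centralizer_singleton_iff]
let zz : Subgroup.centralizer ({z} : Set G) := ⟨z, hzC⟩
have hzzcentral : ∀ g : Subgroup.centralizer ({z} : Set G), zz * g = g * zz := by
  intro g
  apply Subtype.ext
  exact ((Subgroup.mem_centralizer_singleton_iff).1 g.2).symm
have hzz1 : zz ≠ 1 := by
  intro h
  have : z = 1 := congrArg Subtype.val h
  rw [this] at hz
  simp at hz
have hzzT : zz ∈ (T : Subgroup (Subgroup.centralizer ({z} : Set G))) := by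
  have hN : (Subgroup.zpowers zz).Normal := by
    constructor
    intro n hn g
    obtain ⟨k, rfl⟩ := Subgroup.mem_zpowers_iff.1 hn
    have : g * zz ^ k * g⁻¹ = zz ^ k := by
      have h1 : Commute g zz := (hzzcentral g).symm
      rw [(h1.zpow_right k).eq]
      group
    rw [this]
    exact Subgroup.zpow_mem_zpowers _ _
  have hP : IsPGroup 2 (Subgroup.zpowers zz) := by
    apply IsPGroup.of_card (n := 1)
    rw [Nat.card_zpowers, pow_one]
    have : orderOf zz = orderOf z := Subgroup.orderOf_mk z hzC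
    rw [this, hz]
  exact hP.le_sylow_of_normal T (Subgroup.mem_zpowers zz)
let R : Sylow 2 (Subgroup.centralizer ({s} : Set (Matrix.SpecialLinearGroup (Fin 5) (ZMod 2)))) :=
  Sylow.mapSurjective (f := (e : (Subgroup.centralizer ({z} : Set G)) →* Subgroup.centralizer ({s} : Set (Matrix.SpecialLinearGroup (Fin 5) (ZMod 2))))) e.surjective T
have hRmem : ∀ t ∈ (T : Subgroup (Subgroup.centralizer ({z} : Set G))), e t ∈ (R : Subgroup _) := by
  intro t ht
  exact ⟨t, ht, rfl⟩
have hRmem' : ∀ y ∈ (R : Subgroup _), ∃ t ∈ (T : Subgroup (Subgroup.centralizer ({z} : Set G))), e t = y := by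
  intro y hy
  exact hy
have hcen : ∀ t ∈ (T : Subgroup (Subgroup.centralizer ({z} : Set G))),
    (∀ u ∈ (T : Subgroup (Subgroup.centralizer ({z} : Set G))), t * u = u * t) → t = 1 ∨ t = zz := by
  have hmain : ∀ t ∈ (T : Subgroup (Subgroup.centralizer ({z} : Set G))),
    (∀ u ∈ (T : Subgroup (Subgroup.centralizer ({z} : Set G))), t * u = u * t) →
      e t = 1 ∨ ((e t : _) : Matrix.SpecialLinearGroup (Fin 5) (ZMod 2)) = s := by
    intro t ht hc
    have := central_sylow s hs _ rfl R (e t) (hRmem t ht) (by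
      intro y hy
      obtain ⟨u, hu, rfl⟩ := hRmem' y hy
      rw [← map_mul, ← map_mul, hc u hu])
    rcases this with h1 | h1
    · left; exact Subtype.ext h1
    · right; exact h1
  intro t ht hc
  have hz2 : ((e zz : _) : Matrix.SpecialLinearGroup (Fin 5) (ZMod 2)) = s := by
    rcases hmain zz hzzT (fun u _ => hzzcentral u) with h1 | h1
    · exact absurd ((map_eq_one_iff e e.injective).1 h1) hzz1
    · exact h1
  rcases hmain t ht hc with h1 | h1
  · left; exact (map_eq_one_iff e e.injective).1 h1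
  · right
    apply e.injective
    apply Subtype.ext
    rw [h1, hz2]
refine abstract_step z hz _ rfl T _ rfl ⟨zz, hzzT, rfl⟩ ?_
rintro w ⟨t, ht, rfl⟩ hw
have h1 := hcen t ht (by
  intro u hu
  have := hw u ⟨u, hu, rfl⟩
  exact Subtype.ext this)
rcases h1 with rfl | rfl
· left; rfl
· right; rfl

end Cfsg.Agent.S1717
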