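import Cfsg.Statements.S1753
import Mathlib
-- import your own Cfsg.Agent.* helpers here

set_option autoImplicit false
universe u
open Cfsg

namespace Cfsg.Agent.S1753

/-- A section of a proper subgroup of a finite group is smaller than the group. -/
theorem card_section_lt {G : Type u} [Group G] [Finite G] (H : Subgroup G) (hH : H ≠ ⊤)
    (H' : Subgroup H) (N : Subgroup H') [N.Normal] : Nat.card (H' ⧸ N) < Nat.card G := by
  have h1 : Nat.card (H' ⧸ N) ≤ Nat.card H' := by
    have := Subgroup.card_eq_card_quotient_mul_card_subgroup N
    have hpos : 0 < Nat.card N := Nat.card_pos
    nlinarith
  have h2 : Nat.card H' ≤ Nat.card H := Subgroup.card_le_card_group H'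
  have h3 : Nat.card H < Nat.card G := by
    have hlt : H.index ≠ 1 := by
      intro h
      exact hH (Subgroup.index_eq_one.mp h)
    have hi := H.card_mul_index
    have hp : 0 < Nat.card H := Nat.card_pos
    have hindex : H.index ≠ 0 := Subgroup.index_ne_zero_of_finite
    have : 2 ≤ H.index := by omega
    nlinarith
  omega

/-- Let K be any property of groups. (1) If G is a minimal counterexample relative to K — a finite non-abelian simple group not satisfying K such that every finite non-abelian simple group of smaller order satisfies K — then every proper subgroup of G is a K-group (all its non-abelian simple sections satisfy K), since such sections have smaller order than G. (2) Consequently (induction on the order), if every finite non-abelian simple group all of whose proper subgroups are K-groups satisfies K, then every finite non-abelian simple group satisfies K. -/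
theorem result (K : ∀ (X : Type u) [Group X], Prop) :
    (∀ (G : Type u) [Group G], Cfsg.IsMinCounterexampleWith K G → Cfsg.IsKProperWith K G) ∧
      ((∀ (X : Type u) [Group X] [Finite X], IsSimpleGroup X → ¬ IsMulCommutative X → Cfsg.IsKProperWith K X → K X) →
        ∀ (G : Type u) [Group G] [Finite G], IsSimpleGroup G → ¬ IsMulCommutative G → K G) := by
  constructor
  · rintro G _ ⟨hfin, hs, hc, hK, hmin⟩ H hH H' N _ hsimple hnc
    haveI := hfin
    exact hmin _ hsimple hnc (card_section_lt H hH H' N)
  · intro hyp G
    induction hn : Nat.card G using Nat.strong_induction_on generalizing G with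
    | _ n ih =>
      intro _ _ hs hc
      refine hyp G hs hc ?_
      intro H hH H' N _ hsimple hnc
      have hlt := card_section_lt H hH H' N
      exact ih _ (hn ▸ hlt) (H' ⧸ N) rfl hsimple hnc

end Cfsg.Agent.S1753
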