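import Cfsg.Statements.S1754
import Mathlib
import Cfsg.Agent.Lib.H07.FStar
-- import your own Cfsg.Agent.* helpers here

set_option autoImplicit false
open Cfsg

namespace Cfsg.Agent.S1754

/-- Let A be a standard subgroup of the finite group G (A quasisimple, C_G(A) tightly embedded of even order, A commuting elementwise with no other conjugate of itself, and N_G(A) = N_G(C_G(A))), and let t be an involution of G centralizing A. Then the centralizer of t lies in the normalizer of A; in particular A, viewed inside C_G(t), is a component of C_G(t). -/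
theorem result {G : Type*} [Group G] [Finite G]
    (A : Subgroup G) (hA : Cfsg.IsStandardSubgroup A) (t : G) (ht : orderOf t = 2) (htA : t ∈ Subgroup.centralizer (A : Set G)) :
    Subgroup.centralizer ({t} : Set G) ≤ Subgroup.normalizer (A : Set G) ∧
      Cfsg.IsComponent (A.subgroupOf (Subgroup.centralizer ({t} : Set G))) := by
  obtain ⟨hq, hti, -, hnorm⟩ := hA
  have hCN : Subgroup.centralizer ({t} : Set G) ≤ Subgroup.normalizer (A : Set G) := by
    intro g hg
    rw [hnorm]
    by_contra hgN
    have hodd := hti.2 g hgN
    have hgt : g * t = t * g := Subgroup.mem_centralizer_singleton_iff.mp hg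
    have hmem : t ∈ Subgroup.centralizer (A : Set G) ⊓
        (Subgroup.centralizer (A : Set G)).map (MulAut.conj g).toMonoidHom := by
      refine ⟨htA, t, htA, ?_⟩
      show g * t * g⁻¹ = t
      rw [hgt]; group
    have h2 : orderOf t ∣ Nat.card ↥(Subgroup.centralizer (A : Set G) ⊓
        (Subgroup.centralizer (A : Set G)).map (MulAut.conj g).toMonoidHom) :=
      Subgroup.orderOf_dvd_natCard _ hmem
    rw [ht] at h2
    exact (Nat.not_even_iff_odd.mpr hodd) (even_iff_two_dvd.mpr h2)
  refine ⟨hCN, ?_, ?_⟩
  · apply Subgroup.Normal.isSubnormal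
    constructor
    intro n hn g
    rw [Subgroup.mem_subgroupOf] at hn ⊢
    exact (Subgroup.mem_normalizer_iff.mp (hCN g.2) _).mp hn
  · have hle : A ≤ Subgroup.centralizer ({t} : Set G) := by
      intro a ha
      rw [Subgroup.mem_centralizer_singleton_iff]
      exact (Subgroup.mem_centralizer_iff.mp htA a ha)
    exact Cfsg.Agent.H07.isQuasisimple_of_mulEquiv (Subgroup.subgroupOfEquivOfLe hle).symm hq

end Cfsg.Agent.S1754
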