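import Cfsg.Statements.S1755
import Mathlib
import Cfsg.Prelude.Def_ClassificationK
import Cfsg.Agent.Lib.H07.FStar
-- import your own Cfsg.Agent.* helpers here

set_option autoImplicit false
open Cfsg

namespace Cfsg.Agent.S1755

open Cfsg.Agent.H07

theorem invol_unique_of_cyclic {T : Type*} [Group T] [Finite T] (A : Subgroup T) [IsCyclic A]
    {x y : T} (hx : x ∈ A) (hy : y ∈ A) (hx2 : x ^ 2 = 1) (hy2 : y ^ 2 = 1) (hx1 : x ≠ 1)
    (hy1 : y ≠ 1) : x = y := by
  classical
  by_contra hxy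
  haveI := Fintype.ofFinite A
  have h := IsCyclic.card_pow_eq_one_le (α := A) (n := 2) (by norm_num)
  have hsub : ({1, ⟨x, hx⟩, ⟨y, hy⟩} : Finset A) ⊆ Finset.univ.filter (fun a : A => a ^ 2 = 1) := by
    intro a ha
    simp only [Finset.mem_insert, Finset.mem_singleton] at ha
    simp only [Finset.mem_filter, Finset.mem_univ, true_and]
    rcases ha with rfl | rfl | rfl
    · simp
    · exact Subtype.ext hx2
    · exact Subtype.ext hy2
  have hcard : ({1, ⟨x, hx⟩, ⟨y, hy⟩} : Finset A).card = 3 := by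
    rw [Finset.card_eq_three]
    refine ⟨1, ⟨x, hx⟩, ⟨y, hy⟩, ?_, ?_, ?_, rfl⟩
    · intro h; exact hx1 (congrArg Subtype.val h).symm
    · intro h; exact hy1 (congrArg Subtype.val h).symm
    · intro h; exact hxy (congrArg Subtype.val h)
  have := Finset.card_le_card hsub
  omega

/-- The subgroup of central elements squaring to one. -/
def omegaCenter (T : Type*) [Group T] : Subgroup T where
  carrier := {x | x ∈ Subgroup.center T ∧ x ^ 2 = 1}
  one_mem' := ⟨Subgroup.one_mem _, by simp⟩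
  mul_mem' := by
    rintro x y ⟨hx, hx2⟩ ⟨hy, hy2⟩
    refine ⟨Subgroup.mul_mem _ hx hy, ?_⟩
    have hc : x * y = y * x := (Subgroup.mem_center_iff.mp hy x)
    rw [sq, mul_assoc, ← mul_assoc y x y, ← hc, mul_assoc, ← sq, hy2, mul_one, ← sq, hx2]
  inv_mem' := by
    rintro x ⟨hx, hx2⟩
    refine ⟨Subgroup.inv_mem _ hx, ?_⟩
    simp [inv_pow, hx2]

theorem omegaCenter_characteristic (T : Type*) [Group T] : (omegaCenter T).Characteristic := by
  rw [Subgroup.characteristic_iff_map_le]
  rintro φ _ ⟨x, ⟨hx, hx2⟩, rfl⟩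
  refine ⟨?_, ?_⟩
  · rw [Subgroup.mem_center_iff] at *
    intro k
    obtain ⟨k', rfl⟩ := φ.surjective k
    show φ k' * φ x = φ x * φ k'
    rw [← map_mul, ← map_mul, hx k']
  · show (φ x) ^ 2 = 1
    rw [← map_pow, hx2, map_one]

theorem omegaCenter_comm (T : Type*) [Group T] : IsMulCommutative (omegaCenter T) := by
  refine ⟨⟨?_⟩⟩
  rintro ⟨x, hx, _⟩ ⟨y, hy, _⟩
  apply Subtype.ext
  exact (Subgroup.mem_center_iff.mp hx y).symm

/-- In a finite 2-group of symplectic type with a central involution `z`, any nontrivial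
characteristic abelian subgroup contains `z` as its unique involution. -/
theorem invol_eq_of_char {T : Type*} [Group T] [Finite T] (hT : IsOfSymplecticType T)
    (z : T) (hzc : z ∈ Subgroup.center T) (hz2 : z ^ 2 = 1) (hz1 : z ≠ 1)
    (B : Subgroup T) (hBc : B.Characteristic) (hBa : IsMulCommutative B) (hB : B ≠ ⊥) :
    z ∈ B ∧ ∀ y ∈ B, y ^ 2 = 1 → y ≠ 1 → y = z := by
  classical
  haveI : IsCyclic B := hT.2 B hBc hBa
  haveI : Fact (Nat.Prime 2) := ⟨Nat.prime_two⟩
  have hBp : IsPGroup 2 B := hT.1.to_subgroup B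
  have hBcard : Nat.card B ≠ 1 := by
    intro h
    apply hB
    exact (Subgroup.card_eq_one).mp h
  have h2dvd : 2 ∣ Nat.card B := (hBp.card_eq_or_dvd).resolve_left hBcard
  obtain ⟨t, ht⟩ := exists_prime_orderOf_dvd_card' 2 h2dvd
  have htB : (t : T) ∈ B := t.2
  have ht2 : (t : T) ^ 2 = 1 := by
    have : t ^ 2 = 1 := by rw [← ht]; exact pow_orderOf_eq_one t
    exact_mod_cast congrArg Subtype.val this
  have ht1 : (t : T) ≠ 1 := by
    intro h
    have : t = 1 := Subtype.ext h
    rw [this, orderOf_one] at ht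
    omega
  have hN : B.Normal := Subgroup.normal_of_characteristic B
  have htc : (t : T) ∈ Subgroup.center T := by
    rw [Subgroup.mem_center_iff]
    intro q
    have h1 : q * (t : T) * q⁻¹ ∈ B := hN.conj_mem _ htB q
    have h2 : (q * (t : T) * q⁻¹) ^ 2 = 1 := by
      rw [sq]
      have : q * (t : T) * q⁻¹ * (q * (t : T) * q⁻¹) = q * ((t : T) ^ 2) * q⁻¹ := by
        rw [sq]; group
      rw [this, ht2]; group
    have h3 : q * (t : T) * q⁻¹ ≠ 1 := by
      intro h
      apply ht1
      have : (t : T) = q⁻¹ * (q * (t : T) * q⁻¹) * q := by group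
      rw [this, h]; group
    have h4 := invol_unique_of_cyclic B h1 htB h2 ht2 h3 ht1
    calc q * (t : T) = (q * (t : T) * q⁻¹) * q := by group
      _ = (t : T) * q := by rw [h4]
  haveI : IsCyclic (omegaCenter T) :=
    hT.2 _ (omegaCenter_characteristic T) (omegaCenter_comm T)
  have hteq : (t : T) = z :=
    invol_unique_of_cyclic (omegaCenter T) ⟨htc, ht2⟩ ⟨hzc, hz2⟩ ht2 hz2 ht1 hz1
  refine ⟨hteq ▸ htB, ?_⟩
  intro y hy hy2 hy1
  rw [← hteq]
  exact invol_unique_of_cyclic B hy htB hy2 ht2 hy1 ht1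

/-- A nontrivial element killed by a power of two has an involution among its powers. -/
theorem exists_invol_pow {T : Type*} [Group T] (x : T) (k : ℕ) (hk : x ^ (2 ^ k) = 1) (hx : x ≠ 1) :
    ∃ j : ℕ, (x ^ (2 ^ j)) ^ 2 = 1 ∧ x ^ (2 ^ j) ≠ 1 := by
  induction k with
  | zero => simp at hk; exact absurd hk hx
  | succ n ih =>
    by_cases h : x ^ (2 ^ n) = 1
    · exact ih h
    · exact ⟨n, by rw [← pow_mul, ← pow_succ]; exact hk, h⟩

set_option linter.style.haveILetI false in
theorem core {G : Type*} [Group G] [Finite G] (z : G) (hz : orderOf z = 2)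
    (Q : Subgroup ↥(Subgroup.centralizer ({z} : Set G))) (hQN : Q.Normal)
    (hzQ : (⟨z, Subgroup.mem_centralizer_singleton_iff.mpr rfl⟩ :
      ↥(Subgroup.centralizer ({z} : Set G))) ∈ Q)
    (hzcent : (⟨z, Subgroup.mem_centralizer_singleton_iff.mpr rfl⟩ :
      ↥(Subgroup.centralizer ({z} : Set G))) ∈ Subgroup.center ↥(Subgroup.centralizer ({z} : Set G)))
    (hQ : IsOfSymplecticType ↥Q) (B : Subgroup ↥Q) (hBc : B.Characteristic)
    (hBa : IsMulCommutative ↥B) (g : G) :
    ((B.map Q.subtype).map (Subgroup.centralizer ({z} : Set G)).subtype).map (MulAut.conj g).toMonoidHom =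
        (B.map Q.subtype).map (Subgroup.centralizer ({z} : Set G)).subtype ∨
      ((B.map Q.subtype).map (Subgroup.centralizer ({z} : Set G)).subtype).map (MulAut.conj g).toMonoidHom ⊓
        (B.map Q.subtype).map (Subgroup.centralizer ({z} : Set G)).subtype = ⊥ := by
  classical
  have hz2 : z ^ 2 = 1 := by rw [← hz]; exact pow_orderOf_eq_one z
  have hz1 : z ≠ 1 := by
    intro h
    rw [h, orderOf_one] at hz
    omega
  let zC : ↥(Subgroup.centralizer ({z} : Set G)) := ⟨z, Subgroup.mem_centralizer_singleton_iff.mpr rfl⟩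
  let zQ : Q := ⟨zC, hzQ⟩
  have hzQc : zQ ∈ Subgroup.center Q := by
    rw [Subgroup.mem_center_iff]
    intro c
    apply Subtype.ext
    exact Subgroup.mem_center_iff.mp hzcent _
  by_cases hB : B = ⊥
  · left
    subst hB
    simp
  obtain ⟨h1, h2⟩ := invol_eq_of_char hQ zQ hzQc (Subtype.ext (Subtype.ext hz2))
    (fun h => hz1 (congrArg (fun w : Q => ((w : ↥(Subgroup.centralizer ({z} : Set G))) : G)) h)) B hBc hBa hB
  set Bt : Subgroup G := (B.map Q.subtype).map (Subgroup.centralizer ({z} : Set G)).subtype with hBt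
  have hmem : ∀ x ∈ Bt, ∃ b : Q, b ∈ B ∧ ((b : ↥(Subgroup.centralizer ({z} : Set G))) : G) = x := by
    rintro x ⟨c, ⟨b, hb, rfl⟩, rfl⟩
    exact ⟨b, hb, rfl⟩
  have hmem' : ∀ b : Q, b ∈ B → ((b : ↥(Subgroup.centralizer ({z} : Set G))) : G) ∈ Bt := by
    intro b hb
    exact ⟨b, ⟨b, hb, rfl⟩, rfl⟩
  have hinv : ∀ x ∈ Bt, x ^ 2 = 1 → x ≠ 1 → x = z := by
    intro x hx hx2 hx1
    obtain ⟨b, hb, rfl⟩ := hmem x hx
    have := h2 b hb (Subtype.ext (Subtype.ext hx2)) (fun h => hx1 (by rw [h]; rfl))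
    rw [this]
  have hconj : ∀ c : ↥(Subgroup.centralizer ({z} : Set G)), ∀ x ∈ Bt, (c : G) * x * (c : G)⁻¹ ∈ Bt := by
    intro c x hx
    obtain ⟨b, hb, rfl⟩ := hmem x hx
    haveI : Q.Normal := hQN
    let ψ : Q ≃* Q := MulAut.conjNormal c
    have hψ : ψ b ∈ B := by
      have := (Subgroup.characteristic_iff_map_le.mp hBc) ψ
      exact this ⟨b, hb, rfl⟩
    have := hmem' _ hψ
    have e : (((ψ b : Q) : ↥(Subgroup.centralizer ({z} : Set G))) : G) =
        (c : G) * ((b : ↥(Subgroup.centralizer ({z} : Set G))) : G) * (c : G)⁻¹ := by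
      simp [ψ, MulAut.conjNormal_apply]
    rwa [e] at this
  by_cases hbot : Bt.map (MulAut.conj g).toMonoidHom ⊓ Bt = ⊥
  · right
    exact hbot
  left
  rcases Subgroup.bot_or_exists_ne_one (Bt.map (MulAut.conj g).toMonoidHom ⊓ Bt) with h | ⟨x, ⟨hxg, hxB⟩, hx1⟩
  · exact absurd h hbot
  -- power to an involution
  obtain ⟨b, hb, rfl⟩ := hmem x hxB
  obtain ⟨k, hk⟩ := hQ.1 b
  have hk' : ((b : ↥(Subgroup.centralizer ({z} : Set G))) : G) ^ (2 ^ k) = 1 := by
    have := congrArg (fun w : Q => ((w : ↥(Subgroup.centralizer ({z} : Set G))) : G)) hk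
    simpa using this
  obtain ⟨j, hj2, hj1⟩ := exists_invol_pow _ k hk' hx1
  set y : G := ((b : ↥(Subgroup.centralizer ({z} : Set G))) : G) ^ (2 ^ j) with hy
  have hyB : y ∈ Bt := Subgroup.pow_mem _ hxB _
  have hyg : y ∈ Bt.map (MulAut.conj g).toMonoidHom := Subgroup.pow_mem _ hxg _
  have hyz : y = z := hinv y hyB hj2 hj1
  obtain ⟨w, hw, hwy⟩ := hyg
  have hwy' : g * w * g⁻¹ = y := hwy
  have hw2 : w ^ 2 = 1 := by
    have h3 : w = g⁻¹ * y * g := by rw [← hwy']; group
    rw [h3, sq]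
    have : g⁻¹ * y * g * (g⁻¹ * y * g) = g⁻¹ * (y ^ 2) * g := by rw [sq]; group
    rw [this, hj2]; group
  have hw1 : w ≠ 1 := by
    intro h
    rw [h] at hwy'
    apply hj1
    rw [← hwy']; group
  have hwz : w = z := hinv w hw hw2 hw1
  have hgz : g * z * g⁻¹ = z := by
    rw [hwz, hyz] at hwy'
    exact hwy'
  have hgC : g ∈ Subgroup.centralizer ({z} : Set G) := by
    rw [Subgroup.mem_centralizer_singleton_iff]
    calc g * z = (g * z * g⁻¹) * g := by group
      _ = z * g := by rw [hgz]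
  apply le_antisymm
  · rintro _ ⟨v, hv, rfl⟩
    exact hconj ⟨g, hgC⟩ v hv
  · intro v hv
    refine ⟨g⁻¹ * v * g, ?_, ?_⟩
    · have := hconj (⟨g, hgC⟩ : ↥(Subgroup.centralizer ({z} : Set G)))⁻¹ v hv
      simpa using this
    · show g * (g⁻¹ * v * g) * g⁻¹ = v
      group

/-- Let G be a finite group and let z be an involution of G such that Q, the generalized Fitting subgroup of the centralizer C of z, is a 2-group of symplectic type (every characteristic abelian subgroup of Q is cyclic). Let B be a characteristic abelian subgroup of Q, viewed as a subgroup of G. Then for every g in G, the conjugate of B by g either equals B or meets B trivially. -/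
theorem result {G : Type*} [Group G] [Finite G] (z : G) (hz : orderOf z = 2) (hQ : Cfsg.IsOfSymplecticType ↥(Cfsg.generalizedFittingSubgroup ↥(Subgroup.centralizer ({z} : Set G))))
    (B : Subgroup ↥(Cfsg.generalizedFittingSubgroup ↥(Subgroup.centralizer ({z} : Set G)))) (hBc : B.Characteristic) (hBa : IsMulCommutative ↥B) (g : G) :
    ((B.map (Cfsg.generalizedFittingSubgroup ↥(Subgroup.centralizer ({z} : Set G))).subtype).map (Subgroup.centralizer ({z} : Set G)).subtype).map (MulAut.conj g).toMonoidHom =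
        (B.map (Cfsg.generalizedFittingSubgroup ↥(Subgroup.centralizer ({z} : Set G))).subtype).map (Subgroup.centralizer ({z} : Set G)).subtype ∨
      ((B.map (Cfsg.generalizedFittingSubgroup ↥(Subgroup.centralizer ({z} : Set G))).subtype).map (Subgroup.centralizer ({z} : Set G)).subtype).map (MulAut.conj g).toMonoidHom ⊓
        (B.map (Cfsg.generalizedFittingSubgroup ↥(Subgroup.centralizer ({z} : Set G))).subtype).map (Subgroup.centralizer ({z} : Set G)).subtype = ⊥ := by
  have hzC : (⟨z, Subgroup.mem_centralizer_singleton_iff.mpr rfl⟩ :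
      ↥(Subgroup.centralizer ({z} : Set G))) ∈ Subgroup.center ↥(Subgroup.centralizer ({z} : Set G)) := by
    rw [Subgroup.mem_center_iff]
    intro c
    apply Subtype.ext
    exact Subgroup.mem_centralizer_singleton_iff.mp c.2
  exact core z hz _ (generalizedFitting_normal _) (fitting_le_generalized _ (center_le_fitting _ hzC))
    hzC hQ B hBc hBa g

end Cfsg.Agent.S1755
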