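import Cfsg.Statements.S1756
import Mathlib
-- import your own Cfsg.Agent.* helpers here

set_option autoImplicit false
open Cfsg

namespace Cfsg.Agent.S1756

set_option linter.style.haveILetI false
open scoped commutatorElement IsMulCommutative

/-- Commutator form used below. -/
def comm' {Q : Type*} [Group Q] (q u : Q) : Q := q⁻¹ * u⁻¹ * q * u

theorem comm'_mem_center {Q : Type*} [Group Q] (hc : commutator Q = Subgroup.center Q) (q u : Q) :
    comm' q u ∈ Subgroup.center Q := by
  rw [← hc]
  have : comm' q u = ⁅q⁻¹, u⁻¹⁆ := by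
    simp [comm', commutatorElement_def]
  rw [this]
  exact Subgroup.commutator_mem_commutator (Subgroup.mem_top _) (Subgroup.mem_top _)

/-- The commutator map, as a homomorphism into the centre. -/
def commHom {Q : Type*} [Group Q] (hc : commutator Q = Subgroup.center Q) (u : Q) :
    Q →* Subgroup.center Q where
  toFun q := ⟨comm' q u, comm'_mem_center hc q u⟩
  map_one' := by
    apply Subtype.ext
    simp [comm']
  map_mul' a b := by
    apply Subtype.ext
    show comm' (a * b) u = comm' a u * comm' b u
    have h1 : comm' (a * b) u = b⁻¹ * comm' a u * (u⁻¹ * b * u) := by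
      simp only [comm']; group
    have h2 : b⁻¹ * comm' a u = comm' a u * b⁻¹ :=
      (Subgroup.mem_center_iff.mp (comm'_mem_center hc a u) b⁻¹)
    rw [h1, h2]
    simp only [comm']; group

/-- In a finite group with `Q' = Z(Q)` and `|Z(Q)| = 2`, every homomorphism `Q → Z(Q)` which kills
the centre is of the form `q ↦ q⁻¹ u⁻¹ q u`. -/
theorem exists_inner {Q : Type*} [Group Q] [Finite Q] (hc : commutator Q = Subgroup.center Q)
    (hZ : Nat.card (Subgroup.center Q) = 2) (f : Q →* Subgroup.center Q)
    (hf : ∀ z ∈ Subgroup.center Q, f z = 1) :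
    ∃ u : Q, ∀ q : Q, comm' q u = (f q : Q) := by
  classical
  -- the quotient is commutative
  letI hE : CommGroup (Q ⧸ Subgroup.center Q) :=
    { (inferInstance : Group (Q ⧸ Subgroup.center Q)) with
      mul_comm := by
        intro a b
        induction a using QuotientGroup.induction_on with | _ a => ?_
        induction b using QuotientGroup.induction_on with | _ b => ?_
        rw [← QuotientGroup.mk_mul, ← QuotientGroup.mk_mul, QuotientGroup.eq]
        rw [← hc]
        have : (a * b)⁻¹ * (b * a) = ⁅b⁻¹, a⁻¹⁆ := by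
          simp [commutatorElement_def, mul_assoc]
        rw [this]
        exact Subgroup.commutator_mem_commutator (Subgroup.mem_top _) (Subgroup.mem_top _) }
  -- a faithful character of the centre
  obtain ⟨x, y, hxy, huniv⟩ := Nat.card_eq_two_iff.mp hZ
  obtain ⟨z, hz1, hzall⟩ : ∃ z : Subgroup.center Q, z ≠ 1 ∧ ∀ w : Subgroup.center Q, w = 1 ∨ w = z := by
    have hall : ∀ w : Subgroup.center Q, w = x ∨ w = y := by
      intro w
      have : w ∈ ({x, y} : Set _) := by rw [huniv]; trivial
      simpa using this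
    by_cases hx1 : x = 1
    · refine ⟨y, ?_, ?_⟩
      · intro h; exact hxy (hx1.trans h.symm)
      · intro w
        rcases hall w with h | h
        · left; rw [h, hx1]
        · right; exact h
    · refine ⟨x, hx1, ?_⟩
      intro w
      rcases hall w with h | h
      · right; exact h
      · left
        rw [h]
        rcases hall 1 with h1 | h1
        · exact absurd h1.symm hx1
        · exact h1.symm
  haveI hne : NeZero (Monoid.exponent (Subgroup.center Q)) := ⟨Monoid.exponent_ne_zero_of_finite⟩
  haveI hne2 : NeZero ((Monoid.exponent (Subgroup.center Q) : ℕ) : ℂ) :=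
    ⟨by exact_mod_cast hne.out⟩
  obtain ⟨χ, hχ⟩ := CommGroup.exists_apply_ne_one_of_hasEnoughRootsOfUnity
    (Subgroup.center Q) ℂ (a := z) hz1
  have hχinj : Function.Injective χ := by
    intro a b hab
    have : χ (a * b⁻¹) = 1 := by rw [map_mul, map_inv, hab]; simp
    rcases hzall (a * b⁻¹) with h | h
    · exact mul_inv_eq_one.mp h
    · rw [h] at this
      exact absurd this hχ
  -- characters of the quotient
  let Ψ : Q → ((Q ⧸ Subgroup.center Q) →* ℂˣ) := fun u =>
    QuotientGroup.lift (Subgroup.center Q) (χ.comp (commHom hc u)) (by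
      intro w hw
      have : commHom hc u w = 1 := by
        apply Subtype.ext
        show comm' w u = 1
        have h1 : u⁻¹ * w = w * u⁻¹ := Subgroup.mem_center_iff.mp hw u⁻¹
        simp only [comm']
        calc w⁻¹ * u⁻¹ * w * u = w⁻¹ * (u⁻¹ * w) * u := by group
          _ = w⁻¹ * (w * u⁻¹) * u := by rw [h1]
          _ = 1 := by group
      simp [this])
  let g : (Q ⧸ Subgroup.center Q) →* ℂˣ :=
    QuotientGroup.lift (Subgroup.center Q) (χ.comp f) (by
      intro w hw
      simp [hf w hw])
  let Φ : (Q ⧸ Subgroup.center Q) → ((Q ⧸ Subgroup.center Q) →* ℂˣ) := fun e => Ψ e.out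
  have hΨ : ∀ u q : Q, Ψ u (q : Q ⧸ Subgroup.center Q) = χ (commHom hc u q) := fun u q => rfl
  have hΦinj : Function.Injective Φ := by
    intro e e' h
    have hall : ∀ q : Q, comm' q e.out = comm' q e'.out := by
      intro q
      have h1 := congrArg (fun φ => φ (q : Q ⧸ Subgroup.center Q)) h
      simp only [Φ, hΨ] at h1
      have h2 := hχinj h1
      exact congrArg Subtype.val h2
    have hcen : e'.out * e.out⁻¹ ∈ Subgroup.center Q := by
      rw [Subgroup.mem_center_iff]
      intro q
      have h1 : e.out⁻¹ * q * e.out = e'.out⁻¹ * q * e'.out := by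
        have := hall q
        simp only [comm'] at this
        have h2 : q⁻¹ * (e.out⁻¹ * q * e.out) = q⁻¹ * (e'.out⁻¹ * q * e'.out) := by
          simpa [mul_assoc] using this
        exact mul_left_cancel h2
      calc q * (e'.out * e.out⁻¹) = e'.out * (e'.out⁻¹ * q * e'.out) * e.out⁻¹ := by group
        _ = e'.out * (e.out⁻¹ * q * e.out) * e.out⁻¹ := by rw [h1]
        _ = e'.out * e.out⁻¹ * q := by group
    have he : (e'.out : Q ⧸ Subgroup.center Q) = e.out := by
      rw [eq_comm, QuotientGroup.eq]
      have : (e.out)⁻¹ * e'.out = e.out⁻¹ * (e'.out * e.out⁻¹) * e.out := by group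
      rw [this]
      have h5 : e.out⁻¹ * (e'.out * e.out⁻¹) = (e'.out * e.out⁻¹) * e.out⁻¹ :=
        Subgroup.mem_center_iff.mp hcen e.out⁻¹
      rw [h5]
      simpa using hcen
    simpa using he.symm
  haveI hne3 : NeZero (Monoid.exponent (Q ⧸ Subgroup.center Q)) :=
    ⟨Monoid.exponent_ne_zero_of_finite⟩
  haveI hne4 : NeZero ((Monoid.exponent (Q ⧸ Subgroup.center Q) : ℕ) : ℂ) :=
    ⟨by exact_mod_cast hne3.out⟩
  have hcard := CommGroup.card_monoidHom_of_hasEnoughRootsOfUnity (Q ⧸ Subgroup.center Q) ℂ
  haveI hfin : Finite ((Q ⧸ Subgroup.center Q) →* ℂˣ) := by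
    apply Nat.finite_of_card_ne_zero
    rw [hcard]
    exact Nat.card_pos.ne'
  have hsurj : Function.Surjective Φ := (hΦinj.bijective_of_nat_card_le hcard.le).2
  obtain ⟨e, he⟩ := hsurj g
  refine ⟨e.out, fun q => ?_⟩
  have h1 := congrArg (fun φ => φ (q : Q ⧸ Subgroup.center Q)) he
  simp only [Φ, hΨ] at h1
  have h2 : χ (commHom hc e.out q) = χ (f q) := h1
  exact congrArg Subtype.val (hχinj h2)

/-- Main lemma: an involutory automorphism of `Q` with fixed points of index at most two
is inner. -/
theorem exists_inner_of_fixed {Q : Type*} [Group Q] [Finite Q] (hp : IsPGroup 2 Q)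
    (hc : commutator Q = Subgroup.center Q) (hZ : Nat.card (Subgroup.center Q) = 2)
    (τ : Q →* Q) (hτ : ∀ q, τ (τ q) = q) (A : Subgroup Q) (hA : ∀ q, q ∈ A ↔ τ q = q)
    (hi : A.index ≤ 2) : ∃ u : Q, ∀ q : Q, τ q = u⁻¹ * q * u := by
  classical
  have hi0 : A.index ≠ 0 := Subgroup.index_ne_zero_of_finite
  by_cases hi1 : A.index = 1
  · refine ⟨1, fun q => ?_⟩
    have : q ∈ A := by rw [Subgroup.index_eq_one.mp hi1]; trivial
    rw [(hA q).mp this]
    simp
  have hi2 : A.index = 2 := by omega
  haveI hAn : A.Normal := Subgroup.normal_of_index_eq_two hi2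
  have hAtop : A ≠ ⊤ := fun h => hi1 (Subgroup.index_eq_one.mpr h)
  obtain ⟨x, hx⟩ : ∃ x, x ∉ A := by
    by_contra h
    push Not at h
    exact hAtop (eq_top_iff.mpr fun y _ => h y)
  set y : Q := x⁻¹ * τ x with hy
  have hx' : τ x = x * y := by simp [hy]
  have hy1 : y ≠ 1 := by
    intro h
    apply hx
    rw [hA, hx', h, mul_one]
  -- elements outside `A`
  have hout : ∀ q, q ∉ A → q⁻¹ * τ q = y := by
    intro q hq
    have h1 : q * x⁻¹ ∈ A := by
      rw [Subgroup.mul_mem_iff_of_index_two hi2]
      simp [hq, hx]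
    have h2 : τ (q * x⁻¹) = q * x⁻¹ := (hA _).mp h1
    rw [map_mul, map_inv] at h2
    have h3 : τ q = q * x⁻¹ * τ x := by
      rw [← h2]; group
    rw [h3, hy]; group
  have hcommA : ∀ a ∈ A, y * a = a * y := by
    intro a ha
    have h1 : x * a ∉ A := by
      intro h
      rw [Subgroup.mul_mem_iff_of_index_two hi2] at h
      simp [hx, ha] at h
    have h2 := hout _ h1
    rw [map_mul, (hA a).mp ha, hx'] at h2
    have h3 : a⁻¹ * (x⁻¹ * (x * y * a)) = y := by
      have : (x * a)⁻¹ * (x * y * a) = a⁻¹ * (x⁻¹ * (x * y * a)) := by group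
      rw [← this]; exact h2
    have h4 : y * a = a * y := by
      have h5 : a⁻¹ * (y * a) = y := by
        have h6 : a⁻¹ * (x⁻¹ * (x * y * a)) = a⁻¹ * (y * a) := by group
        rw [← h6]; exact h3
      calc y * a = a * (a⁻¹ * (y * a)) := by group
        _ = a * y := by rw [h5]
    exact h4
  have hτy : τ y = y⁻¹ := by
    have h1 : τ (x * y) = x := by rw [← hx']; exact hτ x
    rw [map_mul, hx'] at h1
    have h2 : y * τ y = 1 := by
      have : x * (y * τ y) = x * 1 := by rw [mul_one, ← mul_assoc]; exact h1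
      exact mul_left_cancel this
    exact eq_inv_of_mul_eq_one_right h2
  have hyA : y ∈ A := by
    by_contra h
    have h1 := hout y h
    rw [hτy] at h1
    -- `y⁻¹ * y⁻¹ = y`, so `y ^ 3 = 1`
    have h3 : y ^ 3 = 1 := by
      have : y * (y⁻¹ * y⁻¹) = y * y := by rw [h1]
      have h4 : y⁻¹ = y * y := by simpa using this
      rw [pow_succ, pow_two]
      calc y * y * y = y⁻¹ * y := by rw [← h4]
        _ = 1 := by simp
    obtain ⟨k, hk⟩ := hp y
    have hcop : Nat.Coprime (2 ^ k) 3 := Nat.Coprime.pow_left k (by norm_num)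
    apply hy1
    have hg := pow_gcd_eq_one.mpr ⟨hk, h3⟩
    rwa [hcop.gcd_eq_one, pow_one] at hg
  have hy2 : y⁻¹ = y := by
    have := (hA y).mp hyA
    rw [← hτy, this]
  have hxy : y * x = x * y := by
    have h1 : x * x ∈ A := by
      rw [Subgroup.mul_mem_iff_of_index_two hi2]
    have h2 := (hA _).mp h1
    rw [map_mul, hx'] at h2
    have h3 : x * y * x * y = x * x := by
      calc x * y * x * y = x * y * (x * y) := by group
        _ = x * x := h2
    have h4 : y * x * y = x := by
      have : x * (y * x * y) = x * x := by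
        rw [← h3]; group
      exact mul_left_cancel this
    calc y * x = y * x * y * y⁻¹ := by group
      _ = x * y⁻¹ := by rw [h4]
      _ = x * y := by rw [hy2]
  have hyc : y ∈ Subgroup.center Q := by
    rw [Subgroup.mem_center_iff]
    intro q
    by_cases hq : q ∈ A
    · exact (hcommA q hq).symm
    · have h1 : x⁻¹ * q ∈ A := by
        rw [Subgroup.mul_mem_iff_of_index_two hi2]
        simp [hq, hx]
      have h2 := hcommA _ h1
      calc q * y = x * (x⁻¹ * q * y) := by group
        _ = x * (y * (x⁻¹ * q)) := by rw [← h2]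
        _ = (x * y) * (x⁻¹ * q) := by group
        _ = (y * x) * (x⁻¹ * q) := by rw [hxy]
        _ = y * q := by group
  -- the homomorphism
  have hfc : ∀ q, q⁻¹ * τ q ∈ Subgroup.center Q := by
    intro q
    by_cases hq : q ∈ A
    · rw [(hA q).mp hq]; simp
    · rw [hout q hq]; exact hyc
  let f : Q →* Subgroup.center Q :=
    { toFun := fun q => ⟨q⁻¹ * τ q, hfc q⟩
      map_one' := by
        apply Subtype.ext
        simp
      map_mul' := by
        intro a b
        apply Subtype.ext
        show (a * b)⁻¹ * τ (a * b) = (a⁻¹ * τ a) * (b⁻¹ * τ b)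
        rw [map_mul]
        have h1 : b⁻¹ * (a⁻¹ * τ a) = (a⁻¹ * τ a) * b⁻¹ :=
          Subgroup.mem_center_iff.mp (hfc a) b⁻¹
        calc (a * b)⁻¹ * (τ a * τ b) = (b⁻¹ * (a⁻¹ * τ a)) * τ b := by group
          _ = (a⁻¹ * τ a) * b⁻¹ * τ b := by rw [h1]
          _ = (a⁻¹ * τ a) * (b⁻¹ * τ b) := by group }
  -- the centre is fixed
  have hfix : ∀ z ∈ Subgroup.center Q, f z = 1 := by
    intro z hz
    apply Subtype.ext
    show z⁻¹ * τ z = 1
    by_contra hne
    -- `z` is not fixed; then `τ z` is the other central element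
    by_cases hzA : z ∈ A
    · apply hne
      rw [(hA z).mp hzA]; simp
    · -- all of the centre is `{1, y}`; hence `z = y ∈ A`
      have hz1 : z ≠ 1 := by
        intro h
        apply hzA
        rw [h]; exact A.one_mem
      obtain ⟨x', y', hxy', huniv⟩ := Nat.card_eq_two_iff.mp hZ
      have hall : ∀ w : Subgroup.center Q, w = x' ∨ w = y' := by
        intro w
        have : w ∈ ({x', y'} : Set _) := by rw [huniv]; trivial
        simpa using this
      have hthree : ∀ a b : Subgroup.center Q, a ≠ 1 → b ≠ 1 → a = b := by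
        intro a b ha hb
        rcases hall a with h | h <;> rcases hall b with h' | h' <;> rcases hall 1 with h1 | h1
        · rw [h, h']
        · rw [h, h']
        · exact absurd (h.trans h1.symm) ha
        · exact absurd (h'.trans h1.symm) hb
        · exact absurd (h'.trans h1.symm) hb
        · exact absurd (h.trans h1.symm) ha
        · rw [h, h']
        · rw [h, h']
      have := hthree ⟨z, hz⟩ ⟨y, hyc⟩
        (fun h => hz1 (congrArg Subtype.val h)) (fun h => hy1 (congrArg Subtype.val h))
      have hzy : z = y := congrArg Subtype.val this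
      exact hzA (hzy ▸ hyA)
  obtain ⟨u, hu⟩ := exists_inner hc hZ f hfix
  refine ⟨u, fun q => ?_⟩
  have h1 := hu q
  have h2 : q⁻¹ * (u⁻¹ * q * u) = q⁻¹ * τ q := by
    have : q⁻¹ * (u⁻¹ * q * u) = comm' q u := by simp only [comm']; group
    rw [this, h1]
    rfl
  exact (mul_left_cancel h2).symm

/-- Let Q be an extraspecial 2-subgroup of the finite group G (special with centre of order 2) and t an involution of G normalizing Q such that the centralizer of t in Q has index at most 2 in Q. Then t lies in the product of Q with the centralizer of Q. -/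
theorem result {G : Type*} [Group G] [Finite G] (Q : Subgroup G)
    (hQ : Cfsg.IsExtraspecial 2 ↥Q) (t : G) (ht : orderOf t = 2) (htN : t ∈ Subgroup.normalizer (Q : Set G))
    (hi : (Subgroup.centralizer ({t} : Set G) ⊓ Q).relIndex Q ≤ 2) :
    t ∈ Q ⊔ Subgroup.centralizer (Q : Set G) := by
  classical
  have hmemQ : ∀ q ∈ Q, t * q * t⁻¹ ∈ Q := fun q hq =>
    (Subgroup.mem_normalizer_iff.mp htN q).mp hq
  have ht2 : t * t = 1 := by
    have : t ^ 2 = 1 := by rw [← ht]; exact pow_orderOf_eq_one t
    rwa [sq] at this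
  have hcommQ : commutator Q = Subgroup.center Q := hQ.1.2.2
  let τ : Q →* Q :=
    { toFun := fun q => ⟨t * q * t⁻¹, hmemQ q q.2⟩
      map_one' := by
        apply Subtype.ext
        simp
      map_mul' := by
        intro a b
        apply Subtype.ext
        show t * (a * b) * t⁻¹ = (t * a * t⁻¹) * (t * b * t⁻¹)
        group }
  have hτ : ∀ q, τ (τ q) = q := by
    intro q
    apply Subtype.ext
    show t * (t * q * t⁻¹) * t⁻¹ = q
    have h : t⁻¹ = t := (eq_inv_of_mul_eq_one_left ht2).symm
    calc t * (t * q * t⁻¹) * t⁻¹ = (t * t) * q * (t⁻¹ * t⁻¹) := by group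
      _ = q := by rw [h, ht2]; simp
  let A : Subgroup Q := (Subgroup.centralizer ({t} : Set G)).subgroupOf Q
  have hA : ∀ q, q ∈ A ↔ τ q = q := by
    intro q
    rw [Subgroup.mem_subgroupOf, Subgroup.mem_centralizer_singleton_iff]
    constructor
    · intro h
      apply Subtype.ext
      show t * q * t⁻¹ = q
      rw [← h]; group
    · intro h
      have h' : t * q * t⁻¹ = q := congrArg Subtype.val h
      calc (q : G) * t = t * q * t⁻¹ * t := by rw [h']
        _ = t * q := by group
  have hAindex : A.index ≤ 2 := by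
    have : A = (Subgroup.centralizer ({t} : Set G) ⊓ Q).subgroupOf Q := by
      ext q
      simp [A, Subgroup.mem_subgroupOf]
    rw [this]
    exact hi
  obtain ⟨u, hu⟩ := exists_inner_of_fixed hQ.1.1 hcommQ hQ.2 τ hτ A hA hAindex
  -- `u t` centralizes `Q`
  have hut : (u : G) * t ∈ Subgroup.centralizer (Q : Set G) := by
    rw [Subgroup.mem_centralizer_iff]
    intro q hq
    have h1 := congrArg Subtype.val (hu ⟨q, hq⟩)
    have h2 : t * q * t⁻¹ = (u : G)⁻¹ * q * u := h1
    have h3 : t * q = (u : G)⁻¹ * q * u * t := by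
      rw [← h2]; group
    calc q * (u * t) = u * ((u : G)⁻¹ * q * u * t) := by group
      _ = u * (t * q) := by rw [h3]
      _ = u * t * q := by group
  have : t = (u : G)⁻¹ * ((u : G) * t) := by group
  rw [this]
  exact Subgroup.mul_mem _ ((le_sup_left : Q ≤ _) (Q.inv_mem u.2)) ((le_sup_right : _ ≤ Q ⊔ _) hut)

end Cfsg.Agent.S1756
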