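import Cfsg.Statements.S1757
import Mathlib
-- import your own Cfsg.Agent.* helpers here

set_option autoImplicit false
open Cfsg

namespace Cfsg.Agent.S1757

/-- Let p be a prime and A, B p-subgroups of the finite group G, each of which meets every conjugate of itself other than itself trivially. Suppose the order of A is at most that of B, A and B intersect trivially, and B normalizes A. Then A and B commute elementwise. -/
theorem result {G : Type*} [Group G] [Finite G] (p : ℕ) [Fact p.Prime] (A B : Subgroup G)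
    (hA : IsPGroup p ↥A) (hB : IsPGroup p ↥B)
    (hAti : ∀ g : G, A.map (MulAut.conj g).toMonoidHom = A ∨ A.map (MulAut.conj g).toMonoidHom ⊓ A = ⊥)
    (hBti : ∀ g : G, B.map (MulAut.conj g).toMonoidHom = B ∨ B.map (MulAut.conj g).toMonoidHom ⊓ B = ⊥)
    (hle : Nat.card ↥A ≤ Nat.card ↥B) (hAB : A ⊓ B = ⊥) (hN : B ≤ Subgroup.normalizer (A : Set G)) : ⁅A, B⁆ = ⊥ := by
  classical
  by_contra hne
  have hbA : ∀ b ∈ B, ∀ a ∈ A, b * a * b⁻¹ ∈ A := fun b hb a ha =>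
    (Subgroup.mem_normalizer_iff.mp (hN hb) a).mp ha
  let C0 : Subgroup G := A ⊓ Subgroup.centralizer (B : Set G)
  have hC0A : C0 ≤ A := inf_le_left
  have hC0c : ∀ c ∈ C0, ∀ b ∈ B, b * c = c * b := fun c hc b hb =>
    (Subgroup.mem_centralizer_iff.mp hc.2 b hb)
  -- elements of `B ⊔ C0`
  let Q0 : Subgroup G :=
    { carrier := {x | ∃ b ∈ B, ∃ c ∈ C0, x = b * c}
      one_mem' := ⟨1, B.one_mem, 1, C0.one_mem, by simp⟩
      mul_mem' := by
        rintro x y ⟨b, hb, c, hc, rfl⟩ ⟨b', hb', c', hc', rfl⟩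
        refine ⟨b * b', B.mul_mem hb hb', c * c', C0.mul_mem hc hc', ?_⟩
        have : c * b' = b' * c := (hC0c c hc b' hb').symm
        calc b * c * (b' * c') = b * (c * b') * c' := by group
          _ = b * (b' * c) * c' := by rw [this]
          _ = b * b' * (c * c') := by group
      inv_mem' := by
        rintro x ⟨b, hb, c, hc, rfl⟩
        refine ⟨b⁻¹, B.inv_mem hb, c⁻¹, C0.inv_mem hc, ?_⟩
        have h1 : c⁻¹ * b⁻¹ = b⁻¹ * c⁻¹ := by
          have : b * c = c * b := hC0c c hc b hb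
          calc c⁻¹ * b⁻¹ = (b * c)⁻¹ := by group
            _ = (c * b)⁻¹ := by rw [this]
            _ = b⁻¹ * c⁻¹ := by group
        simp [mul_inv_rev, h1] }
  -- elements of `A ⊔ B`
  let P0 : Subgroup G :=
    { carrier := {x | ∃ a ∈ A, ∃ b ∈ B, x = a * b}
      one_mem' := ⟨1, A.one_mem, 1, B.one_mem, by simp⟩
      mul_mem' := by
        rintro x y ⟨a, ha, b, hb, rfl⟩ ⟨a', ha', b', hb', rfl⟩
        refine ⟨a * (b * a' * b⁻¹), A.mul_mem ha (hbA b hb a' ha'), b * b', B.mul_mem hb hb', ?_⟩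
        group
      inv_mem' := by
        rintro x ⟨a, ha, b, hb, rfl⟩
        refine ⟨b⁻¹ * a⁻¹ * b, ?_, b⁻¹, B.inv_mem hb, by group⟩
        have := hbA b⁻¹ (B.inv_mem hb) a⁻¹ (A.inv_mem ha)
        simpa using this }
  have hAP : A ≤ P0 := fun a ha => ⟨a, ha, 1, B.one_mem, by simp⟩
  have hBP : B ≤ P0 := fun b hb => ⟨1, A.one_mem, b, hb, by simp⟩
  have hP0 : P0 = B ⊔ A := by
    apply le_antisymm
    · rintro x ⟨a, ha, b, hb, rfl⟩
      have h1 : a ∈ B ⊔ A := (le_sup_right : A ≤ B ⊔ A) ha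
      have h2 : b ∈ B ⊔ A := (le_sup_left : B ≤ B ⊔ A) hb
      exact Subgroup.mul_mem _ h1 h2
    · exact sup_le hBP hAP
  have hPp : IsPGroup p P0 := by
    rw [hP0]
    exact IsPGroup.to_sup_of_normal_right' hB hA hN
  have hQP : Q0 ≤ P0 := by
    rintro x ⟨b, hb, c, hc, rfl⟩
    exact P0.mul_mem (hBP hb) (hAP (hC0A hc))
  have hBQ : B ≤ Q0 := fun b hb => ⟨b, hb, 1, C0.one_mem, by simp⟩
  have hC0Q : C0 ≤ Q0 := fun c hc => ⟨1, B.one_mem, c, hc, by simp⟩
  -- commutation from being in the normalizer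
  have hnorm_comm : ∀ a ∈ A, ∀ b ∈ B, a * b * a⁻¹ ∈ B → a * b = b * a := by
    intro a ha b hb h
    have h1 : a * b * a⁻¹ * b⁻¹ ∈ B := B.mul_mem h (B.inv_mem hb)
    have h2 : a * b * a⁻¹ * b⁻¹ ∈ A := by
      have := A.mul_mem ha (hbA b hb a⁻¹ (A.inv_mem ha))
      simpa [mul_assoc] using this
    have h3 : a * b * a⁻¹ * b⁻¹ ∈ A ⊓ B := ⟨h2, h1⟩
    rw [hAB, Subgroup.mem_bot] at h3
    have : a * b * a⁻¹ = b := by
      calc a * b * a⁻¹ = (a * b * a⁻¹ * b⁻¹) * b := by group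
        _ = b := by rw [h3, one_mul]
    calc a * b = (a * b * a⁻¹) * a := by group
      _ = b * a := by rw [this]
  -- `A` is not inside `Q0`
  have hAC : ¬ A ≤ C0 := by
    intro hle'
    apply hne
    rw [Subgroup.commutator_eq_bot_iff_le_centralizer]
    intro a ha
    exact (hle' ha).2
  have hAQ : ¬ A ≤ Q0 := by
    intro hle'
    apply hAC
    intro a ha
    obtain ⟨b, hb, c, hc, rfl⟩ := hle' ha
    have hbA' : b ∈ A := by
      have := A.mul_mem ha (A.inv_mem (hC0A hc))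
      simpa using this
    have : b ∈ A ⊓ B := ⟨hbA', hb⟩
    rw [hAB, Subgroup.mem_bot] at this
    subst this
    simpa using hc
  -- the normalizer condition in `P0`
  haveI : Group.IsNilpotent P0 := hPp.isNilpotent
  have hnc := Group.normalizerCondition_of_isNilpotent (G := P0)
  have hHlt : Q0.subgroupOf P0 < ⊤ := by
    rw [lt_top_iff_ne_top]
    intro htop
    apply hAQ
    intro a ha
    have : (⟨a, hAP ha⟩ : P0) ∈ Q0.subgroupOf P0 := by rw [htop]; trivial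
    exact this
  obtain ⟨x, hxN, hxH⟩ := SetLike.exists_of_lt (hnc _ hHlt)
  obtain ⟨a, ha, b', hb', hxe⟩ := x.2
  have hb'P : b' ∈ P0 := hBP hb'
  have haP : a ∈ P0 := hAP ha
  have hxa : x = (⟨a, haP⟩ : P0) * ⟨b', hb'P⟩ := Subtype.ext hxe
  -- `a` normalizes `Q0`
  have hb'N : (⟨b', hb'P⟩ : P0) ∈ Subgroup.normalizer ((Q0.subgroupOf P0 : Subgroup P0) : Set P0) := by
    apply Subgroup.le_normalizer
    exact hBQ hb'
  have haN : (⟨a, haP⟩ : P0) ∈ Subgroup.normalizer ((Q0.subgroupOf P0 : Subgroup P0) : Set P0) := by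
    have : (⟨a, haP⟩ : P0) = x * (⟨b', hb'P⟩ : P0)⁻¹ := by rw [hxa]; group
    rw [this]
    exact Subgroup.mul_mem _ hxN (Subgroup.inv_mem _ hb'N)
  have haQ : a ∉ Q0 := by
    intro h
    apply hxH
    show (x : G) ∈ Q0
    rw [hxe]
    exact Q0.mul_mem h (hBQ hb')
  have haC : a ∉ C0 := fun h => haQ (hC0Q h)
  have haconj : ∀ b ∈ B, a * b * a⁻¹ ∈ Q0 := by
    intro b hb
    have h1 : (⟨b, hBP hb⟩ : P0) ∈ Q0.subgroupOf P0 := hBQ hb
    have h2 := (Subgroup.mem_normalizer_iff.mp haN _).mp h1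
    exact h2
  -- `a` does not normalize `B`
  have hneB : B.map (MulAut.conj a).toMonoidHom ≠ B := by
    intro heq
    apply haC
    refine ⟨ha, Subgroup.mem_centralizer_iff.mpr ?_⟩
    intro b hb
    have : a * b * a⁻¹ ∈ B := by
      rw [← heq]
      exact ⟨b, hb, by simp⟩
    exact (hnorm_comm a ha b hb this).symm
  have hti : B.map (MulAut.conj a).toMonoidHom ⊓ B = ⊥ := (hBti a).resolve_left hneB
  have hdecomp : ∀ b ∈ B, b⁻¹ * (a * b * a⁻¹) ∈ C0 := by
    intro b hb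
    obtain ⟨b₁, hb₁, c₁, hc₁, he⟩ := haconj b hb
    have h1 : a * b * a⁻¹ * b⁻¹ ∈ A := by
      have := A.mul_mem ha (hbA b hb a⁻¹ (A.inv_mem ha))
      simpa [mul_assoc] using this
    have h2 : b₁ * b⁻¹ ∈ A := by
      have h3 : c₁⁻¹ * (a * b * a⁻¹ * b⁻¹) ∈ A := A.mul_mem (A.inv_mem (hC0A hc₁)) h1
      have h4 : c₁⁻¹ * (a * b * a⁻¹ * b⁻¹) = b₁ * b⁻¹ := by
        rw [he]
        have : b₁ * c₁ = c₁ * b₁ := hC0c c₁ hc₁ b₁ hb₁
        rw [this]
        group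
      rwa [h4] at h3
    have h5 : b₁ * b⁻¹ ∈ A ⊓ B := ⟨h2, B.mul_mem hb₁ (B.inv_mem hb)⟩
    rw [hAB, Subgroup.mem_bot] at h5
    have h6 : b₁ = b := by
      calc b₁ = b₁ * b⁻¹ * b := by group
        _ = b := by rw [h5, one_mul]
    subst h6
    rw [he]
    simpa using hc₁
  let f : B → C0 := fun b => ⟨(b : G)⁻¹ * (a * b * a⁻¹), hdecomp b b.2⟩
  have hfinj : Function.Injective f := by
    rintro ⟨b, hb⟩ ⟨b', hb'⟩ h
    have h1 : b⁻¹ * (a * b * a⁻¹) = b'⁻¹ * (a * b' * a⁻¹) := congrArg Subtype.val h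
    have hcm : b⁻¹ * (a * b * a⁻¹) ∈ C0 := hdecomp b hb
    -- `a (b b'⁻¹) a⁻¹ = b b'⁻¹`
    have h2 : a * (b * b'⁻¹) * a⁻¹ = b * b'⁻¹ := by
      have e1 : a * b * a⁻¹ = b * (b⁻¹ * (a * b * a⁻¹)) := by group
      have e2 : a * b' * a⁻¹ = b' * (b⁻¹ * (a * b * a⁻¹)) := by
        rw [h1]; group
      calc a * (b * b'⁻¹) * a⁻¹ = (a * b * a⁻¹) * (a * b' * a⁻¹)⁻¹ := by group
        _ = b * b'⁻¹ := by
          rw [e2, e1]
          simp only [mul_inv_rev]
          group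
    have h3 : b * b'⁻¹ ∈ B.map (MulAut.conj a).toMonoidHom ⊓ B := by
      refine ⟨⟨b * b'⁻¹, B.mul_mem hb (B.inv_mem hb'), ?_⟩, B.mul_mem hb (B.inv_mem hb')⟩
      simpa using h2
    rw [hti, Subgroup.mem_bot] at h3
    apply Subtype.ext
    show b = b'
    calc b = b * b'⁻¹ * b' := by group
      _ = b' := by rw [h3, one_mul]
  have hcard : Nat.card B ≤ Nat.card C0 := Nat.card_le_card_of_injective f hfinj
  have hAC' : C0 = A := Subgroup.eq_of_le_of_card_ge hC0A (hle.trans hcard)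
  exact hAC (hAC'.ge)

end Cfsg.Agent.S1757
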