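import Cfsg.Statements.S1780
import Mathlib
-- import your own Cfsg.Agent.* helpers here

set_option autoImplicit false
open Cfsg

namespace Cfsg.Agent.S1780


/-- the operator `t - 1` in multiplicative notation -/
def opN {A : Type*} [CommGroup A] (t : MulAut A) (v : A) : A := t v * v⁻¹

theorem opN_sq {A : Type*} [CommGroup A] (t : MulAut A) {v : A} (hv : v ^ 2 = 1) :
    (opN t v) ^ 2 = 1 := by
  have h : (t v) ^ 2 = 1 := by rw [← map_pow, hv, map_one]
  rw [opN, mul_pow, h, inv_pow, hv]; simp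

theorem iter_opN {A : Type*} [CommGroup A] (t : MulAut A) (i : ℕ) :
    ∀ v : A, v ^ 2 = 1 → (opN t)^[2 ^ i] v = (t ^ (2 ^ i)) v * v⁻¹ := by
  induction i with
  | zero =>
    intro v _
    simp [opN]
  | succ i ih =>
    intro v hv
    have e : 2 ^ (i + 1) = 2 ^ i + 2 ^ i := by ring
    rw [e, Function.iterate_add_apply, ih v hv]
    obtain ⟨s, hs⟩ : ∃ s : MulAut A, s = t ^ (2 ^ i) := ⟨_, rfl⟩
    rw [← hs]
    have hsv : (s v) ^ 2 = 1 := by rw [← map_pow, hv, map_one]
    have hu : (s v * v⁻¹) ^ 2 = 1 := by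
      rw [mul_pow, hsv, inv_pow, hv]; simp
    rw [ih _ hu, ← hs, pow_add, ← hs]
    simp only [MulAut.mul_apply, map_mul, map_inv, mul_inv_rev, inv_inv]
    have h1 : (s v)⁻¹ = s v := by
      rw [inv_eq_iff_mul_eq_one, ← sq, hsv]
    have h2 : v⁻¹ = v := by
      rw [inv_eq_iff_mul_eq_one, ← sq, hv]
    rw [h1, h2]
    calc s (s v) * s v * (v * s v) = s (s v) * v * (s v * s v) := by
          simp only [mul_assoc, mul_comm, mul_left_comm]
      _ = s (s v) * v := by rw [← sq, hsv, mul_one]

theorem fix_of_sq {A : Type*} [CommGroup A] (t : MulAut A) (ht : ∃ k : ℕ, orderOf t = 2 ^ k)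
    (hC : ∀ a : A, t (t a) = a → t a = a) (v : A) (hv : v ^ 2 = 1) : t v = v := by
  have step : ∀ u : A, u ^ 2 = 1 → opN t (opN t u) = 1 → opN t u = 1 := by
    intro u hu h
    have h1 : (t u) ^ 2 = 1 := by rw [← map_pow, hu, map_one]
    have h2 : t (t u) = u := by
      have e : opN t (opN t u) = t (t u) * u * ((t u) ^ 2)⁻¹ := by
        simp only [opN, map_mul, map_inv, mul_inv_rev, inv_inv]
        rw [sq, mul_inv_rev]
        simp only [mul_assoc, mul_comm, mul_left_comm]
      rw [e, h1, inv_one, mul_one] at h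
      have h7 : u⁻¹ = u := by rw [inv_eq_iff_mul_eq_one, ← sq, hu]
      exact (eq_inv_of_mul_eq_one_left h).trans h7
    rw [opN, hC u h2, mul_inv_cancel]
  have desc : ∀ j : ℕ, ∀ u : A, u ^ 2 = 1 → (opN t)^[j + 1] u = 1 → opN t u = 1 := by
    intro j
    induction j with
    | zero => intro u _ h; simpa using h
    | succ j ih =>
      intro u hu h
      rw [Function.iterate_succ_apply] at h
      have h3 := ih _ (opN_sq t hu) h
      exact step u hu h3
  obtain ⟨k, hk⟩ := ht
  have ht1 : t ^ (2 ^ k) = 1 := by rw [← hk]; exact pow_orderOf_eq_one t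
  have h4 := iter_opN t k v hv
  rw [ht1] at h4
  have h5 : (opN t)^[2 ^ k] v = 1 := by rw [h4]; simp
  obtain ⟨m, hm⟩ : ∃ m, 2 ^ k = m + 1 := ⟨2 ^ k - 1, by have := Nat.one_le_two_pow (n := k); omega⟩
  rw [hm] at h5
  have h6 := desc m v hv h5
  rw [opN, mul_inv_eq_one] at h6
  exact h6


/-- Let A be a finite abelian 2-group and t an automorphism of A whose order is a power of 2. If every element of A fixed by t² is fixed by t, then t fixes every element of A. -/
theorem result {A : Type*} [CommGroup A] [Finite A]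
    (hA : IsPGroup 2 A) (t : MulAut A) (ht : ∃ k : ℕ, orderOf t = 2 ^ k) (hC : ∀ a : A, t (t a) = a → t a = a) :
    ∀ a : A, t a = a := by
  have key : ∀ n : ℕ, ∀ a : A, a ^ (2 ^ n) = 1 → t a = a := by
    intro n
    induction n with
    | zero => intro a h; simp at h; simp [h]
    | succ n ih =>
      intro a h
      have h1 : (a ^ 2) ^ (2 ^ n) = 1 := by rw [← pow_mul, ← pow_succ', h]
      have h2 := ih _ h1
      rw [map_pow] at h2
      have hw : (t a * a⁻¹) ^ 2 = 1 := by rw [mul_pow, h2, inv_pow]; simp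
      have h3 := fix_of_sq t ht hC _ hw
      rw [map_mul, map_inv, mul_inv_eq_iff_eq_mul] at h3
      apply hC
      have h4 : t (t a) = t a * a⁻¹ * t a := by simpa using h3
      rw [h4]
      calc t a * a⁻¹ * t a = (t a) ^ 2 * a⁻¹ := by
            rw [sq]; simp only [mul_assoc, mul_comm, mul_left_comm]
        _ = a := by rw [h2, sq]; simp
  intro a
  obtain ⟨n, hn⟩ := hA a
  exact key n a hn

end Cfsg.Agent.S1780
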