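import Cfsg.Statements.S1781
import Mathlib
import Cfsg.Agent.S1780
import Cfsg.Agent.Lib.H13.Basic
-- import your own Cfsg.Agent.* helpers here

set_option autoImplicit false
open Cfsg

namespace Cfsg.Agent.S1781


theorem core {G : Type*} [Group G] [Finite G] (U W : Subgroup G) (hW2 : IsPGroup 2 W)
    (hWa : IsMulCommutative W)
    (hinf : ∀ x, x ∈ U → x ∈ W → x = 1)
    (hTI : ∀ x ∈ U, x ≠ 1 → ∀ h : G, h * x * h⁻¹ ∈ U → ∀ u ∈ U, h * u * h⁻¹ ∈ U)
    (b : G) (hbU : b ∈ U) (hbN : b ∈ Subgroup.normalizer (W : Set G)) (hb2 : b ^ 2 ≠ 1)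
    (hb2p : ∃ k : ℕ, b ^ (2 ^ k) = 1) :
    ∀ w ∈ W, b * w * b⁻¹ = w := by
  classical
  letI : CommGroup W := { (inferInstance : Group W) with mul_comm := fun a b => hWa.is_comm.comm a b }
  let t : MulAut W := W.normalizerMonoidHom ⟨b, hbN⟩
  have tapp : ∀ w : W, ((t w : W) : G) = b * w * b⁻¹ := fun w => rfl
  have ht : ∃ k : ℕ, orderOf t = 2 ^ k := by
    obtain ⟨k, hk⟩ := hb2p
    have h1 : t ^ (2 ^ k) = 1 := by
      have h2 : (⟨b, hbN⟩ : Subgroup.normalizer (W : Set G)) ^ (2 ^ k) = 1 := by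
        ext; simpa using hk
      show (W.normalizerMonoidHom ⟨b, hbN⟩) ^ (2 ^ k) = 1
      rw [← map_pow, h2, map_one]
    obtain ⟨j, _, hj⟩ := (Nat.dvd_prime_pow Nat.prime_two).1 (orderOf_dvd_of_pow_eq_one h1)
    exact ⟨j, hj⟩
  have hC : ∀ a : W, t (t a) = a → t a = a := by
    intro a ha
    have h1 : b * (b * (a : G) * b⁻¹) * b⁻¹ = a := by
      have := congrArg (Subtype.val) ha
      rwa [tapp, tapp] at this
    have h2 : (a : G) * b ^ 2 * (a : G)⁻¹ = b ^ 2 := by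
      rw [sq]
      rw [mul_inv_eq_iff_eq_mul]
      calc (a : G) * (b * b) = (b * (b * (a : G) * b⁻¹) * b⁻¹) * (b * b) := by rw [h1]
        _ = b * b * a := by group
    have h3 := hTI (b ^ 2) (U.pow_mem hbU 2) hb2 (a : G) (by rw [h2]; exact U.pow_mem hbU 2)
    have h4 : (a : G) * b * (a : G)⁻¹ * b⁻¹ = 1 := by
      apply hinf
      · exact U.mul_mem (h3 b hbU) (U.inv_mem hbU)
      · have h5 : b * (a : G)⁻¹ * b⁻¹ ∈ W :=
          (Subgroup.mem_normalizer_iff.1 hbN _).1 (W.inv_mem a.2)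
        have h6 : (a : G) * b * (a : G)⁻¹ * b⁻¹ = (a : G) * (b * (a : G)⁻¹ * b⁻¹) := by group
        rw [h6]
        exact W.mul_mem a.2 h5
    apply Subtype.ext
    rw [tapp]
    have h7 : (a : G) * b = b * a := by
      have := mul_inv_eq_one.1 h4
      exact mul_inv_eq_iff_eq_mul.1 this
    rw [← h7]; group
  have hfix := S1780.result hW2 t ht hC
  intro w hw
  have := congrArg Subtype.val (hfix ⟨w, hw⟩)
  rwa [tapp] at this


/-- Let A be an abelian 2-subgroup of the finite group G such that every conjugate of A equals A or meets A trivially, and let g ∈ G with g A g⁻¹ ≠ A. Then either the subgroup of those elements of A that normalize g A g⁻¹ is an elementary abelian 2-group, or A and g A g⁻¹ commute elementwise. -/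
theorem result {G : Type*} [Group G] [Finite G] (A : Subgroup G)
    (hA2 : IsPGroup 2 ↥A) (hAa : IsMulCommutative ↥A)
    (hti : ∀ h : G, A.map (MulAut.conj h).toMonoidHom = A ∨ A.map (MulAut.conj h).toMonoidHom ⊓ A = ⊥)
    (g : G) (hg : A.map (MulAut.conj g).toMonoidHom ≠ A) :
    Cfsg.IsElementaryAbelian 2 (A ⊓ Subgroup.normalizer ((A.map (MulAut.conj g).toMonoidHom : Subgroup G) : Set G)) ∨
      ⁅A, A.map (MulAut.conj g).toMonoidHom⁆ = ⊥ := by
  classical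
  by_contra hcon
  rw [not_or] at hcon
  obtain ⟨h1, h2⟩ := hcon
  obtain ⟨V, hV⟩ : ∃ V, V = A.map (MulAut.conj g).toMonoidHom := ⟨_, rfl⟩
  rw [← hV] at h1 h2 hg
  -- a nontrivial element of the normalizer
  have hbex : ∃ b ∈ A, b ∈ Subgroup.normalizer (V : Set G) ∧ b ^ 2 ≠ 1 := by
    by_contra hno
    push Not at hno
    apply h1
    refine ⟨⟨⟨fun a b => ?_⟩⟩, fun a ha => hno a ha.1 ha.2⟩
    have := hAa.is_comm.comm ⟨a.1, a.2.1⟩ ⟨b.1, b.2.1⟩
    apply Subtype.ext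
    exact (congrArg Subtype.val this :)
  obtain ⟨b, hbA, hbN, hb2⟩ := hbex
  have hVA : V ⊓ A = ⊥ := by
    rcases hti g with h | h
    · exact absurd (hV.trans h) hg
    · rw [hV]; exact h
  have hinf : ∀ x, x ∈ A → x ∈ V → x = 1 := fun x h3 h4 => by
    have : x ∈ V ⊓ A := ⟨h4, h3⟩
    rw [hVA] at this
    exact this
  have hTIA : ∀ x ∈ A, x ≠ 1 → ∀ h : G, h * x * h⁻¹ ∈ A → ∀ u ∈ A, h * u * h⁻¹ ∈ A := by
    intro x hx hx1 h hh u hu
    rcases hti h with e | e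
    · rw [← e]; exact Cfsg.Agent.H13.conj_mem_map_conj hu
    · have : h * x * h⁻¹ ∈ A.map (MulAut.conj h).toMonoidHom ⊓ A :=
        ⟨Cfsg.Agent.H13.conj_mem_map_conj hx, hh⟩
      rw [e] at this
      have h5 : h * x * h⁻¹ = 1 := this
      exact absurd (by simpa using h5) hx1
  have hTIV : ∀ x ∈ V, x ≠ 1 → ∀ h : G, h * x * h⁻¹ ∈ V → ∀ u ∈ V, h * u * h⁻¹ ∈ V := by
    intro x hx hx1 h hh u hu
    rw [hV, Cfsg.Agent.H13.mem_map_conj] at hx hh hu ⊢
    have h6 := hTIA _ hx (by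
      intro h7
      apply hx1
      have : x = g * (g⁻¹ * x * g) * g⁻¹ := by group
      rw [this, h7]; simp) (g⁻¹ * h * g) (by
        have e : g⁻¹ * h * g * (g⁻¹ * x * g) * (g⁻¹ * h * g)⁻¹ = g⁻¹ * (h * x * h⁻¹) * g := by group
        rw [e]; exact hh) _ hu
    have e : g⁻¹ * h * g * (g⁻¹ * u * g) * (g⁻¹ * h * g)⁻¹ = g⁻¹ * (h * u * h⁻¹) * g := by group
    rwa [e] at h6
  have hVconj : ∀ a ∈ A, g * a * g⁻¹ ∈ V := fun a ha => by
    rw [hV]; exact Cfsg.Agent.H13.conj_mem_map_conj ha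
  have hVback : ∀ v ∈ V, g⁻¹ * v * g ∈ A := fun v hv => by
    rw [hV] at hv; exact Cfsg.Agent.H13.mem_map_conj.1 hv
  have hV2 : IsPGroup 2 V := by
    rw [hV]; exact hA2.map _
  have hA_c : ∀ x ∈ A, ∀ y ∈ A, x * y = y * x := fun x hx y hy => by
    have := hAa.is_comm.comm ⟨x, hx⟩ ⟨y, hy⟩
    exact congrArg Subtype.val this
  have hVa : IsMulCommutative V := by
    refine ⟨⟨fun x y => ?_⟩⟩
    have h9 := hA_c _ (hVback x x.2) _ (hVback y y.2)
    apply Subtype.ext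
    show (x : G) * y = y * x
    have e1 : (x : G) * y = g * ((g⁻¹ * x * g) * (g⁻¹ * y * g)) * g⁻¹ := by group
    have e2 : (y : G) * x = g * ((g⁻¹ * y * g) * (g⁻¹ * x * g)) * g⁻¹ := by group
    rw [e1, h9, ← e2]
  have hb2p : ∃ k : ℕ, b ^ (2 ^ k) = 1 := by
    obtain ⟨k, hk⟩ := hA2 ⟨b, hbA⟩
    exact ⟨k, by simpa using congrArg Subtype.val hk⟩
  have hbcen := core A V hV2 hVa hinf hTIA b hbA hbN hb2 hb2p
  -- V normalizes A
  have hb1 : b ≠ 1 := by
    intro h; apply hb2; rw [h]; simp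
  have hVN : ∀ v ∈ V, ∀ a ∈ A, v * a * v⁻¹ ∈ A := by
    intro v hv a ha
    refine hTIA b hbA hb1 v ?_ a ha
    have h3 := hbcen v hv
    have h4 : v * b * v⁻¹ = b := by
      have h5 : b * v = v * b := by
        rw [mul_inv_eq_iff_eq_mul] at h3; exact h3
      rw [← h5]; group
    rw [h4]; exact hbA
  -- the conjugate of b in V
  have hv0 : g * b * g⁻¹ ∈ V := hVconj b hbA
  have hv02 : (g * b * g⁻¹) ^ 2 ≠ 1 := by
    rw [conj_pow]
    intro h
    apply hb2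
    have : b ^ 2 = g⁻¹ * (g * b ^ 2 * g⁻¹) * g := by group
    rw [this, h]; simp
  have hv0N : g * b * g⁻¹ ∈ Subgroup.normalizer (A : Set G) := by
    rw [Subgroup.mem_normalizer_iff]
    intro a
    constructor
    · intro ha; exact hVN _ hv0 a ha
    · intro ha
      have h6 := hVN _ (V.inv_mem hv0) _ ha
      have e : (g * b * g⁻¹)⁻¹ * (g * b * g⁻¹ * a * (g * b * g⁻¹)⁻¹) * (g * b * g⁻¹)⁻¹⁻¹ = a := by group
      rwa [e] at h6
  have hv0p : ∃ k : ℕ, (g * b * g⁻¹) ^ (2 ^ k) = 1 := by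
    obtain ⟨k, hk⟩ := hb2p
    exact ⟨k, by rw [conj_pow, hk]; simp⟩
  have hv0cen := core V A hA2 hAa (fun x h3 h4 => hinf x h4 h3) hTIV _ hv0 hv0N hv02 hv0p
  have hv01 : g * b * g⁻¹ ≠ 1 := by
    intro h; apply hv02; rw [h]; simp
  have hAN : ∀ a ∈ A, ∀ v ∈ V, a * v * a⁻¹ ∈ V := by
    intro a ha v hv
    refine hTIV _ hv0 hv01 a ?_ v hv
    have h3 := hv0cen a ha
    have h4 : a * (g * b * g⁻¹) * a⁻¹ = g * b * g⁻¹ := by
      have h5 : (g * b * g⁻¹) * a = a * (g * b * g⁻¹) := by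
        rw [mul_inv_eq_iff_eq_mul] at h3; exact h3
      rw [← h5]; group
    rw [h4]; exact hv0
  apply h2
  rw [eq_bot_iff, Subgroup.commutator_le]
  intro a ha v hv
  have h7 : a * v * a⁻¹ * v⁻¹ = 1 := by
    apply hinf
    · have e : a * v * a⁻¹ * v⁻¹ = a * (v * a⁻¹ * v⁻¹) := by group
      rw [e]; exact A.mul_mem ha (hVN v hv _ (A.inv_mem ha))
    · exact V.mul_mem (hAN a ha v hv) (V.inv_mem hv)
  rw [Subgroup.mem_bot]
  exact h7

end Cfsg.Agent.S1781
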