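import Cfsg.Statements.S1782
import Mathlib
import Cfsg.Agent.Lib.H01.Basic
import Cfsg.Agent.Lib.H01.Coprime
import Cfsg.Agent.Lib.H08.StrongEmb
-- import your own Cfsg.Agent.* helpers here

set_option autoImplicit false
open Cfsg

namespace Cfsg.Agent.S1782

set_option linter.style.haveILetI false

section core
variable {S : Type*} [Group S]

/-- the half hypothesis -/
def HH (R T : Subgroup S) : Prop :=
  (∀ x, x ∈ R → x ∈ T → x = 1) ∧
  (∀ t ∈ T, t ∉ Subgroup.normalizer (R : Set S) → ∀ a ∈ R, ∀ b ∈ R, a * (t * b * t⁻¹) = (t * b * t⁻¹) * a) ∧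
  (∀ t ∈ T, t ∉ Subgroup.normalizer (R : Set S) → ∀ a ∈ R, ∀ b ∈ R, a = t * b * t⁻¹ → a = 1)

theorem i1 {R T : Subgroup S} (h : HH R T) {x t : S} (hx : x ∈ R) (ht : t ∈ T)
    (htn : t ∉ Subgroup.normalizer (R : Set S)) :
    (x⁻¹ * t * x * t⁻¹) ^ 2 = x⁻¹ ^ 2 * (t * x ^ 2 * t⁻¹) := by
  have hc : Commute x⁻¹ (t * x * t⁻¹) := h.2.1 t ht htn _ (R.inv_mem hx) _ hx
  have e : x⁻¹ * t * x * t⁻¹ = x⁻¹ * (t * x * t⁻¹) := by group
  rw [e, hc.mul_pow, conj_pow]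

theorem i2 {R T : Subgroup S} (h' : HH T R) {x t : S} (hx : x ∈ R) (ht : t ∈ T)
    (hxn : x ∉ Subgroup.normalizer (T : Set S)) :
    (x⁻¹ * t * x * t⁻¹) ^ 2 = (x⁻¹ * t ^ 2 * x) * t⁻¹ ^ 2 := by
  have hxn' : x⁻¹ ∉ Subgroup.normalizer (T : Set S) := fun h1 => hxn (by simpa using Subgroup.inv_mem _ h1)
  have hc : Commute t⁻¹ (x⁻¹ * t * x⁻¹⁻¹) := h'.2.1 x⁻¹ (R.inv_mem hx) hxn' _ (T.inv_mem ht) _ ht
  have e : x⁻¹ * t * x * t⁻¹ = (x⁻¹ * t * x⁻¹⁻¹) * t⁻¹ := by group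
  rw [e, (hc.symm).mul_pow, conj_pow]
  simp

theorem lemA {R T : Subgroup S} (h : HH R T) (h' : HH T R) {x t : S} (hx : x ∈ R)
    (hxn : x ∉ Subgroup.normalizer (T : Set S)) (hx2 : x ^ 2 ∈ Subgroup.normalizer (T : Set S))
    (ht : t ∈ T) (htn : t ∉ Subgroup.normalizer (R : Set S)) (ht2 : t ^ 2 ∈ Subgroup.normalizer (R : Set S)) :
    x ^ 2 = 1 ∧ t ^ 2 = 1 := by
  have e1 := i1 h hx ht htn
  have e2 := i2 h' hx ht hxn
  have hyT : (x⁻¹ * t * x * t⁻¹) ^ 2 ∈ T := by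
    rw [e1]
    have e3 : x⁻¹ ^ 2 * (t * x ^ 2 * t⁻¹) = ((x ^ 2)⁻¹ * t * (x ^ 2)⁻¹⁻¹) * t⁻¹ := by
      rw [inv_pow]; group
    rw [e3]
    exact T.mul_mem ((Subgroup.mem_normalizer_iff.1 (Subgroup.inv_mem _ hx2) t).1 ht) (T.inv_mem ht)
  have hyR : (x⁻¹ * t * x * t⁻¹) ^ 2 ∈ R := by
    rw [e2]
    have e3 : (x⁻¹ * t ^ 2 * x) * t⁻¹ ^ 2 = x⁻¹ * (t ^ 2 * x * (t ^ 2)⁻¹) := by
      rw [inv_pow]; group
    rw [e3]
    exact R.mul_mem (R.inv_mem hx) ((Subgroup.mem_normalizer_iff.1 ht2 x).1 hx)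
  have hy1 := h.1 _ hyR hyT
  constructor
  · rw [e1, inv_pow] at hy1
    have h3 : x ^ 2 = t * x ^ 2 * t⁻¹ := (inv_mul_eq_one.1 hy1)
    exact h.2.2 t ht htn _ (R.pow_mem hx 2) _ (R.pow_mem hx 2) h3
  · rw [e2, inv_pow] at hy1
    have h3 : x⁻¹ * t ^ 2 * x = t ^ 2 := mul_inv_eq_one.1 hy1
    have hxn' : x⁻¹ ∉ Subgroup.normalizer (T : Set S) := fun h1 => hxn (by simpa using Subgroup.inv_mem _ h1)
    refine h'.2.2 x⁻¹ (R.inv_mem hx) hxn' _ (T.pow_mem ht 2) _ (T.pow_mem ht 2) ?_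
    rw [inv_inv]; exact h3.symm

theorem lemB {R T : Subgroup S} (h : HH R T) (h' : HH T R) {x t₀ : S} (hx : x ∈ R)
    (hxn : x ∉ Subgroup.normalizer (T : Set S))
    (ht : t₀ ∈ T) (htn : t₀ ∉ Subgroup.normalizer (R : Set S)) (ht2 : t₀ ^ 2 = 1) : x ^ 2 = 1 := by
  have e1 := i1 h hx ht htn
  have e2 := i2 h' hx ht hxn
  have hy1 : (x⁻¹ * t₀ * x * t₀⁻¹) ^ 2 = 1 := by
    rw [e2, ht2, inv_pow, ht2]; group
  rw [e1, inv_pow] at hy1
  have h3 : x ^ 2 = t₀ * x ^ 2 * t₀⁻¹ := (inv_mul_eq_one.1 hy1)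
  exact h.2.2 t₀ ht htn _ (R.pow_mem hx 2) _ (R.pow_mem hx 2) h3

theorem exists_sq_mem (W : Subgroup S) (x : S) (n : ℕ) (hn : x ^ (2 ^ n) = 1) (hx : x ∉ W) :
    ∃ m : ℕ, x ^ m ∉ W ∧ (x ^ m) ^ 2 ∈ W := by
  induction n generalizing x with
  | zero => simp at hn; exact absurd (hn ▸ W.one_mem) hx
  | succ n ih =>
    by_cases h : x ^ 2 ∈ W
    · exact ⟨1, by simpa using hx, by simpa using h⟩
    · obtain ⟨m, hm1, hm2⟩ := ih (x ^ 2) (by rw [← pow_mul, ← pow_succ']; exact hn) h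
      refine ⟨2 * m, ?_, ?_⟩
      · rwa [pow_mul]
      · rwa [pow_mul]

theorem lemStep {R T : Subgroup S} (h : HH R T) (h' : HH T R) {k t₀ x₀ : S} (hkR : k ∈ R)
    (hkN : k ∈ Subgroup.normalizer (T : Set S)) (hk2 : k ^ 2 ≠ 1)
    (ht : t₀ ∈ T) (htn : t₀ ∉ Subgroup.normalizer (R : Set S)) (ht2 : t₀ ^ 2 = 1)
    (hx : x₀ ∈ R) (hxn : x₀ ∉ Subgroup.normalizer (T : Set S)) (hx2 : x₀ ^ 2 = 1) :
    (k ^ 2) ^ 2 ≠ 1 := by
  obtain ⟨y, hy⟩ : ∃ y, y = k⁻¹ * t₀ * k * t₀⁻¹ := ⟨_, rfl⟩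
  have hyT : y ∈ T := by
    rw [hy]
    have e : k⁻¹ * t₀ * k * t₀⁻¹ = (k⁻¹ * t₀ * k⁻¹⁻¹) * t₀⁻¹ := by group
    rw [e]
    exact T.mul_mem ((Subgroup.mem_normalizer_iff.1 (Subgroup.inv_mem _ hkN) t₀).1 ht) (T.inv_mem ht)
  have e1 := i1 h hkR ht htn
  rw [← hy] at e1
  have hy2 : y ^ 2 ≠ 1 := by
    intro h1
    rw [e1, inv_pow] at h1
    have h3 : k ^ 2 = t₀ * k ^ 2 * t₀⁻¹ := (inv_mul_eq_one.1 h1)
    exact hk2 (h.2.2 t₀ ht htn _ (R.pow_mem hkR 2) _ (R.pow_mem hkR 2) h3)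
  have hyN : y ∈ Subgroup.normalizer (R : Set S) := by
    by_contra hyn
    exact hy2 (lemB h' h hyT hyn hx hxn hx2)
  have hkx : (k * x₀) ^ 2 = 1 := by
    refine lemB h h' (R.mul_mem hkR hx) ?_ ht htn ht2
    intro h1
    apply hxn
    have := Subgroup.mul_mem _ (Subgroup.inv_mem _ hkN) h1
    simpa using this
  have hx₀inv : x₀⁻¹ = x₀ := by rw [inv_eq_iff_mul_eq_one, ← sq, hx2]
  have hinv : x₀ * k⁻¹ * x₀⁻¹ = k := by
    rw [hx₀inv]
    have h4 : k * x₀ * (k * x₀) = 1 := by rw [← sq]; exact hkx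
    have h5 : x₀ * k * x₀ = k⁻¹ := by
      have h6 : k * (x₀ * k * x₀) = 1 := by rw [← h4]; group
      exact eq_inv_of_mul_eq_one_right h6
    have h7 : (x₀ * k * x₀)⁻¹ = k := by rw [h5, inv_inv]
    have h8 : (x₀ * k * x₀)⁻¹ = x₀ * k⁻¹ * x₀ := by
      simp only [mul_inv_rev, hx₀inv]; group
    rw [← h8]; exact h7
  obtain ⟨w, hw⟩ : ∃ w, w = t₀ * k * t₀⁻¹ := ⟨_, rfl⟩
  have hyw : y = k⁻¹ * w := by rw [hy, hw]; group
  have hx₀w : x₀ * w * x₀⁻¹ = w := by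
    have := h.2.1 t₀ ht htn x₀ hx k hkR
    rw [← hw] at this
    rw [this]; group
  have hk2w : k ^ 2 * w = w * k ^ 2 := by
    have := h.2.1 t₀ ht htn (k ^ 2) (R.pow_mem hkR 2) k hkR
    rwa [← hw] at this
  have hz : y⁻¹ * x₀ * y * x₀⁻¹ = k ^ 2 := by
    have h9 : x₀ * y * x₀⁻¹ = k * w := by
      rw [hyw]
      calc x₀ * (k⁻¹ * w) * x₀⁻¹ = (x₀ * k⁻¹ * x₀⁻¹) * (x₀ * w * x₀⁻¹) := by group
        _ = k * w := by rw [hinv, hx₀w]
    calc y⁻¹ * x₀ * y * x₀⁻¹ = y⁻¹ * (x₀ * y * x₀⁻¹) := by group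
      _ = y⁻¹ * (k * w) := by rw [h9]
      _ = w⁻¹ * k * (k * w) := by rw [hyw]; group
      _ = w⁻¹ * (k ^ 2 * w) := by rw [sq]; group
      _ = w⁻¹ * (w * k ^ 2) := by rw [hk2w]
      _ = k ^ 2 := by group
  have e3 := i1 h' hyT hx hxn
  rw [hz] at e3
  intro h1
  rw [h1, inv_pow] at e3
  have h3 : y ^ 2 = x₀ * y ^ 2 * x₀⁻¹ := by
    have := e3.symm
    exact inv_mul_eq_one.1 this
  exact hy2 (h'.2.2 x₀ hx hxn _ (T.pow_mem hyT 2) _ (T.pow_mem hyT 2) h3)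

theorem core_exp2 [Finite S] {R T : Subgroup S} (h : HH R T) (h' : HH T R) (hR2 : IsPGroup 2 R) (hT2 : IsPGroup 2 T)
    {x₁ t₁ : S} (hx₁ : x₁ ∈ R) (hx₁n : x₁ ∉ Subgroup.normalizer (T : Set S))
    (ht₁ : t₁ ∈ T) (ht₁n : t₁ ∉ Subgroup.normalizer (R : Set S)) : ∀ r ∈ R, r ^ 2 = 1 := by
  have hR2' : ∀ r ∈ R, ∃ n : ℕ, r ^ (2 ^ n) = 1 := fun r hr => by
    obtain ⟨n, hn⟩ := hR2 ⟨r, hr⟩
    exact ⟨n, congrArg Subtype.val hn⟩
  have hT2' : ∀ r ∈ T, ∃ n : ℕ, r ^ (2 ^ n) = 1 := fun r hr => by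
    obtain ⟨n, hn⟩ := hT2 ⟨r, hr⟩
    exact ⟨n, congrArg Subtype.val hn⟩
  obtain ⟨n₁, hn₁⟩ := hR2' _ hx₁
  obtain ⟨m₁, hm₁⟩ := hT2' _ ht₁
  obtain ⟨a, ha1, ha2⟩ := exists_sq_mem _ x₁ n₁ hn₁ hx₁n
  obtain ⟨b, hb1, hb2⟩ := exists_sq_mem _ t₁ m₁ hm₁ ht₁n
  obtain ⟨hx2, ht2⟩ := lemA h h' (R.pow_mem hx₁ a) ha1 ha2 (T.pow_mem ht₁ b) hb1 hb2
  intro r hr
  by_cases hrN : r ∈ Subgroup.normalizer (T : Set S)
  · by_contra hr2
    have hall : ∀ n : ℕ, (r ^ (2 ^ n)) ^ 2 ≠ 1 := by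
      intro n
      induction n with
      | zero => simpa using hr2
      | succ n ih =>
        have := lemStep h h' (R.pow_mem hr (2 ^ n)) (Subgroup.pow_mem _ hrN _) ih
          (T.pow_mem ht₁ b) hb1 ht2 (R.pow_mem hx₁ a) ha1 hx2
        have e : (r ^ 2 ^ (n + 1)) ^ 2 = ((r ^ 2 ^ n) ^ 2) ^ 2 := by
          rw [← pow_mul, ← pow_mul, ← pow_mul]; congr 1; ring
        rw [e]; exact this
    obtain ⟨n, hn⟩ := hR2' _ hr
    apply hall n
    rw [hn]; simp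
  · exact lemB h h' hr hrN (T.pow_mem ht₁ b) hb1 ht2

end core

theorem frattini_bot_of_exp2 {R : Type*} [Group R] [Finite R] (h : ∀ r : R, r ^ 2 = 1) : frattini R = ⊥ := by
  haveI : Fact (Nat.Prime 2) := ⟨Nat.prime_two⟩
  rw [eq_bot_iff]
  apply Cfsg.Agent.H01.frattini_le_of_comm_pow (p := 2) (⊥ : Subgroup R)
  · rw [commutator_def, Subgroup.commutator_le]
    intro a _ b _
    rw [Subgroup.mem_bot]
    have hinv : ∀ r : R, r⁻¹ = r := fun r => by
      rw [inv_eq_iff_mul_eq_one, ← sq, h]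
    have h1 : a * b * (a * b) = 1 := by rw [← sq, h]
    rw [commutatorElement_def, hinv a, hinv b, mul_assoc (a * b)]
    exact h1
  · intro x
    rw [h x]; exact one_mem _

theorem exists_normal_between {S : Type*} [Group S] [Finite S] (hS : IsPGroup 2 S) {R L : Subgroup S} (hRL : R < L) :
    ∃ M : Subgroup S, R ≤ M ∧ M < L ∧ L ≤ Subgroup.normalizer (M : Set S) := by
  classical
  haveI : Fact (Nat.Prime 2) := ⟨Nat.prime_two⟩
  let X : Set (Subgroup S) := {M | R ≤ M ∧ M < L}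
  have hne : X.Nonempty := ⟨R, le_rfl, hRL⟩
  obtain ⟨M, hM⟩ := (Set.toFinite X).exists_maximal hne
  obtain ⟨⟨hRM, hML⟩, hmax⟩ := hM
  refine ⟨M, hRM, hML, ?_⟩
  obtain ⟨x, hxL, hxM, hxN⟩ := Cfsg.Agent.H08.exists_mem_normalizer_of_lt (hS.to_subgroup L) hML
  by_contra hcon
  have hlt : M ⊔ Subgroup.zpowers x < L := by
    refine lt_of_le_of_ne (sup_le hML.le ((Subgroup.zpowers_le).2 hxL)) ?_
    intro he
    apply hcon
    rw [← he]
    refine sup_le Subgroup.le_normalizer ?_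
    exact (Subgroup.zpowers_le).2 hxN
  have h1 : M ⊔ Subgroup.zpowers x ≤ M :=
    hmax ⟨hRM.trans le_sup_left, hlt⟩ le_sup_left
  exact hxM (h1 (Subgroup.mem_sup_right (Subgroup.mem_zpowers x)))

theorem order_contra {S : Type*} [Group S] [Finite S] {R T M : Subgroup S} (hord : Nat.card R = Nat.card T)
    (hRT : R ≤ Subgroup.normalizer (T : Set S)) (hML : M < T ⊔ R) (hRM : R ≤ M)
    (hMn : T ⊔ R ≤ Subgroup.normalizer (M : Set S)) (h : HH R T)
    {t : S} (ht : t ∈ T) (htn : t ∉ Subgroup.normalizer (R : Set S)) : False := by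
  classical
  have h1 : Nat.card (T ⊔ R : Subgroup S) ≤ Nat.card T * Nat.card R := by
    rw [← Nat.card_prod]
    refine Nat.card_le_card_of_surjective
      (fun p : T × R => (⟨(p.1 : S) * p.2, Subgroup.mul_mem _ (Subgroup.mem_sup_left p.1.2) (Subgroup.mem_sup_right p.2.2)⟩ : (T ⊔ R : Subgroup S))) ?_
    rintro ⟨x, hx⟩
    obtain ⟨n, hn, a, ha, rfl⟩ := Cfsg.Agent.H01.exists_mul_of_mem_sup hRT hx
    exact ⟨(⟨n, hn⟩, ⟨a, ha⟩), rfl⟩
  have h2 : Nat.card R * Nat.card R ≤ Nat.card M := by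
    rw [← Nat.card_prod]
    have htL : t ∈ T ⊔ R := Subgroup.mem_sup_left ht
    have hmem : ∀ a : R, ∀ b : R, (a : S) * (t * b * t⁻¹) ∈ M := by
      intro a b
      exact M.mul_mem (hRM a.2) ((Subgroup.mem_normalizer_iff.1 (hMn htL) b).1 (hRM b.2))
    refine Nat.card_le_card_of_injective
      (fun p : R × R => (⟨(p.1 : S) * (t * p.2 * t⁻¹), hmem p.1 p.2⟩ : M)) ?_
    rintro ⟨a, b⟩ ⟨a', b'⟩ he
    have he' : (a : S) * (t * b * t⁻¹) = a' * (t * b' * t⁻¹) := congrArg Subtype.val he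
    have h3 : (a' : S)⁻¹ * a = t * ((b' : S) * (b : S)⁻¹) * t⁻¹ := by
      calc (a' : S)⁻¹ * a = (a' : S)⁻¹ * (a * (t * b * t⁻¹)) * (t * b * t⁻¹)⁻¹ := by group
        _ = (a' : S)⁻¹ * (a' * (t * b' * t⁻¹)) * (t * b * t⁻¹)⁻¹ := by rw [he']
        _ = _ := by group
    have h4 := h.2.2 t ht htn _ (R.mul_mem (R.inv_mem a'.2) a.2) _ (R.mul_mem b'.2 (R.inv_mem b.2)) h3
    have h5 : (a : S) = a' := (inv_mul_eq_one.1 h4).symm
    rw [h5] at he'
    have h6 := mul_left_cancel he'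
    have h7 : (b : S) = b' := mul_left_cancel (mul_right_cancel h6)
    exact Prod.ext (Subtype.ext h5) (Subtype.ext h7)
  have h3 : Nat.card M < Nat.card (T ⊔ R : Subgroup S) := by
    refine lt_of_le_of_ne (Subgroup.card_le_of_le hML.le) ?_
    intro he
    exact hML.ne (Subgroup.eq_of_le_of_card_ge hML.le he.ge)
  rw [← hord] at h1
  omega


/-- Let S be a finite 2-group and Δ a set of subgroups of S closed under conjugation by S, all of the same order, each with nontrivial Frattini subgroup, and such that two distinct members of Δ meet trivially. Then any two distinct members of Δ commute elementwise. -/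
theorem result {S : Type*} [Group S] [Finite S] (hS : IsPGroup 2 S)
    (Δ : Set (Subgroup S)) (hinv : ∀ s : S, ∀ R ∈ Δ, R.map (MulAut.conj s).toMonoidHom ∈ Δ)
    (hΦ : ∀ R ∈ Δ, frattini ↥R ≠ ⊥) (hord : ∀ R ∈ Δ, ∀ T ∈ Δ, Nat.card ↥R = Nat.card ↥T)
    (hti : ∀ R ∈ Δ, ∀ T ∈ Δ, R = T ∨ R ⊓ T = ⊥) :
    ∀ R ∈ Δ, ∀ T ∈ Δ, R ≠ T → ⁅R, T⁆ = ⊥ := by
  classical
  haveI : Fact (Nat.Prime 2) := ⟨Nat.prime_two⟩
  have htiE : ∀ R ∈ Δ, ∀ T ∈ Δ, R ≠ T → ∀ x, x ∈ R → x ∈ T → x = 1 := by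
    intro R hR T hT hne x hx hx'
    rcases hti R hR T hT with h | h
    · exact absurd h hne
    · have : x ∈ R ⊓ T := ⟨hx, hx'⟩
      rw [h] at this
      exact this
  have hlt : ∀ R ∈ Δ, ∀ T ∈ Δ, R ≠ T → R < T ⊔ R := by
    intro R hR T hT hne
    refine lt_of_le_of_ne le_sup_right ?_
    intro he
    have hTR : T ≤ R := by rw [he]; exact le_sup_left
    exact hne (Subgroup.eq_of_le_of_card_ge hTR (by rw [hord R hR T hT])).symm
  have main : ∀ n : ℕ, ∀ R ∈ Δ, ∀ T ∈ Δ, R ≠ T → Nat.card ↥(R ⊔ T) = n → ⁅R, T⁆ = ⊥ := by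
    intro n
    induction n using Nat.strong_induction_on with
    | _ n ih =>
    intro R hR T hT hne hcard
    -- the half hypothesis
    have half : ∀ R ∈ Δ, ∀ T ∈ Δ, R ≠ T → Nat.card ↥(R ⊔ T) = n →
        (∃ M : Subgroup S, R ≤ M ∧ M < T ⊔ R ∧ T ⊔ R ≤ Subgroup.normalizer (M : Set S)) ∧ HH R T := by
      intro R hR T hT hne hcard
      obtain ⟨M, hRM, hML, hMn⟩ := exists_normal_between hS (hlt R hR T hT hne)
      refine ⟨⟨M, hRM, hML, hMn⟩, htiE R hR T hT hne, ?_, ?_⟩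
      · intro t ht htn a ha b hb
        have hR' : R.map (MulAut.conj t).toMonoidHom ∈ Δ := hinv t R hR
        have hne' : R ≠ R.map (MulAut.conj t).toMonoidHom := by
          intro he
          apply htn
          rw [Subgroup.mem_normalizer_iff]
          intro z
          have hinj : Nat.card (R.map (MulAut.conj t).toMonoidHom) = Nat.card R :=
            Subgroup.card_map_of_injective (MulAut.conj t).injective
          constructor
          · intro hz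
            rw [he]
            exact ⟨z, hz, rfl⟩
          · intro hz
            rw [he] at hz
            obtain ⟨w, hw, hwe⟩ := hz
            have hwe' : t * w * t⁻¹ = t * z * t⁻¹ := hwe
            have : w = z := mul_left_cancel (mul_right_cancel hwe')
            rwa [← this]
        have hR'M : R.map (MulAut.conj t).toMonoidHom ≤ M := by
          rintro _ ⟨w, hw, rfl⟩
          exact (Subgroup.mem_normalizer_iff.1 (hMn (Subgroup.mem_sup_left ht)) w).1 (hRM hw)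
        have hsupM : R ⊔ R.map (MulAut.conj t).toMonoidHom ≤ M := sup_le hRM hR'M
        have hcard' : Nat.card ↥(R ⊔ R.map (MulAut.conj t).toMonoidHom) < n := by
          rw [← hcard, sup_comm R T]
          refine lt_of_le_of_lt (Subgroup.card_le_of_le hsupM) ?_
          refine lt_of_le_of_ne (Subgroup.card_le_of_le hML.le) ?_
          intro he
          exact hML.ne (Subgroup.eq_of_le_of_card_ge hML.le he.ge)
        have hcomm := ih _ hcard' R hR _ hR' hne' rfl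
        rw [Subgroup.commutator_eq_bot_iff_le_centralizer] at hcomm
        have := Subgroup.mem_centralizer_iff.1 (hcomm ha) (t * b * t⁻¹) ⟨b, hb, rfl⟩
        exact this.symm
      · intro t ht htn a ha b hb hab
        have hR' : R.map (MulAut.conj t).toMonoidHom ∈ Δ := hinv t R hR
        have hne' : R ≠ R.map (MulAut.conj t).toMonoidHom := by
          intro he
          apply htn
          rw [Subgroup.mem_normalizer_iff]
          intro z
          constructor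
          · intro hz
            rw [he]
            exact ⟨z, hz, rfl⟩
          · intro hz
            rw [he] at hz
            obtain ⟨w, hw, hwe⟩ := hz
            have hwe' : t * w * t⁻¹ = t * z * t⁻¹ := hwe
            have : w = z := mul_left_cancel (mul_right_cancel hwe')
            rwa [← this]
        exact htiE R hR _ hR' hne' a ha (by rw [hab]; exact ⟨b, hb, rfl⟩)
    obtain ⟨⟨M, hRM, hML, hMn⟩, h⟩ := half R hR T hT hne hcard
    obtain ⟨⟨M', hRM', hML', hMn'⟩, h'⟩ := half T hT R hR hne.symm (by rw [sup_comm]; exact hcard)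
    by_cases hTN : T ≤ Subgroup.normalizer (R : Set S)
    · by_cases hRN : R ≤ Subgroup.normalizer (T : Set S)
      · -- both normalize
        rw [eq_bot_iff, Subgroup.commutator_le]
        intro a ha b hb
        rw [Subgroup.mem_bot]
        apply h.1
        · rw [commutatorElement_def]
          have e : a * b * a⁻¹ * b⁻¹ = a * (b * a⁻¹ * b⁻¹) := by group
          rw [e]
          exact R.mul_mem ha ((Subgroup.mem_normalizer_iff.1 (hTN hb) _).1 (R.inv_mem ha))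
        · rw [commutatorElement_def]
          exact T.mul_mem ((Subgroup.mem_normalizer_iff.1 (hRN ha) _).1 hb) (T.inv_mem hb)
      · exfalso
        -- T normalizes R, R does not normalize T
        obtain ⟨x, hx, hxn⟩ := Set.not_subset.1 hRN
        exact order_contra (hord T hT R hR) hTN hML' hRM' hMn' h' hx hxn
    · exfalso
      obtain ⟨t, ht, htn⟩ := Set.not_subset.1 hTN
      by_cases hRN : R ≤ Subgroup.normalizer (T : Set S)
      · exact order_contra (hord R hR T hT) hRN hML hRM hMn h ht htn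
      · obtain ⟨x, hx, hxn⟩ := Set.not_subset.1 hRN
        have hexp := core_exp2 h h' (hS.to_subgroup R) (hS.to_subgroup T) hx hxn ht htn
        apply hΦ R hR
        exact frattini_bot_of_exp2 (fun r => Subtype.ext (hexp r r.2))
  intro R hR T hT hne
  exact main _ R hR T hT hne rfl

end Cfsg.Agent.S1782
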