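import Cfsg.Statements.S1783
import Cfsg.Agent.Lib.H28.TIsq3

set_option autoImplicit false
open Cfsg

namespace Cfsg.Agent.S1783

/-- Let X be a finite group whose generalized Fitting subgroup equals its largest normal 2-subgroup Q, and let A be an abelian 2-subgroup of X such that every conjugate of A equals A or meets A trivially. Let B be the subgroup generated by the squares of the elements of A. Then B lies in Q, and if B is not an elementary abelian 2-group then the normal closure of B in X is commutative. -/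
theorem result {X : Type*} [Group X] [Finite X]
    (hX : Cfsg.generalizedFittingSubgroup X = Cfsg.pCore 2 X) (A : Subgroup X) (hA2 : IsPGroup 2 ↥A) (hAa : IsMulCommutative ↥A)
    (hti : ∀ h : X, A.map (MulAut.conj h).toMonoidHom = A ∨ A.map (MulAut.conj h).toMonoidHom ⊓ A = ⊥) :
    Subgroup.closure ((fun a : X => a ^ 2) '' (A : Set X)) ≤ Cfsg.pCore 2 X ∧
      (¬ Cfsg.IsElementaryAbelian 2 (Subgroup.closure ((fun a : X => a ^ 2) '' (A : Set X))) →
        IsMulCommutative ↥(Subgroup.normalClosure ((fun a : X => a ^ 2) '' (A : Set X)))) := by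
  classical
  have hcomm : ∀ x ∈ A, ∀ y ∈ A, x * y = y * x := by
    intro x hx y hy
    have := hAa.is_comm.comm ⟨x, hx⟩ ⟨y, hy⟩
    simpa using congrArg Subtype.val this
  have hTI : H28.TIsq.TIc A := H28.TIsq.tic_of hti
  have hR := H28.TIsq.normalClosure_sq_pGroup hX hA2 hTI hcomm
  have hRle : Subgroup.normalClosure ((fun a : X => a ^ 2) '' (A : Set X)) ≤ Cfsg.pCore 2 X :=
    Cfsg.Agent.H01.le_pCore Subgroup.normalClosure_normal hR
  refine ⟨(Subgroup.closure_le_normalClosure).trans hRle, ?_⟩
  intro hne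
  have hex : ∃ a₁ ∈ A, a₁ ^ 4 ≠ 1 := by
    by_contra hcon
    push Not at hcon
    apply hne
    have hBA : Subgroup.closure ((fun a : X => a ^ 2) '' (A : Set X)) ≤ A := by
      apply (Subgroup.closure_le _).mpr
      rintro _ ⟨a, ha, rfl⟩
      exact A.pow_mem ha 2
    refine ⟨⟨⟨fun x y => Subtype.ext (hcomm _ (hBA x.2) _ (hBA y.2))⟩⟩, ?_⟩
    intro b hb
    induction hb using Subgroup.closure_induction with
    | mem x hx =>
      obtain ⟨a, ha, rfl⟩ := hx
      have := hcon a ha
      simp only
      rw [← pow_mul]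
      exact this
    | one => simp
    | mul x y hx hy h1 h2 =>
      rw [pow_two, mul_assoc, ← mul_assoc y, ← hcomm x (hBA hx) y (hBA hy), mul_assoc, ← pow_two, h2,
        mul_one, ← pow_two, h1]
    | inv x _ h1 => simpa using h1
  obtain ⟨a₁, ha₁, ha₁4⟩ := hex
  have := H28.TIsq.normalClosure_sq_comm hti hcomm hR ha₁ ha₁4
  exact ⟨⟨fun x y => Subtype.ext (this _ x.2 _ y.2)⟩⟩

end Cfsg.Agent.S1783
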