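import Cfsg.Statements.S1784
import Mathlib
import Cfsg.Agent.Lib.H08.Extraspecial
import Cfsg.Agent.Lib.H08.FStarQuot
import Cfsg.Agent.Lib.H01.Basic
-- import your own Cfsg.Agent.* helpers here

set_option autoImplicit false
open Cfsg

namespace Cfsg.Agent.S1784

set_option linter.style.haveILetI false

open Cfsg Cfsg.Agent.H05 Cfsg.Agent.H08.Extra Subgroup


/-- Let G be a finite group and let z be an involution of G such that Q, the generalized Fitting subgroup of the centralizer C of z, is a 2-group of symplectic type (every characteristic abelian subgroup of Q is cyclic); suppose Q is extraspecial, and view Q inside G. Let α be an involution of C that is not in Q, and let Q₀ be the subgroup of those q ∈ Q whose commutator with α lies in the subgroup generated by z. Then (a) the subgroup generated by the commutators α q α⁻¹ q⁻¹, q ∈ Q, equals the centre of Q₀; and (b) if Q₀ is not contained in the product of the centralizer of α in Q with the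 subgroup generated by z, then some element of Q conjugates α to α z. -/
theorem result {G : Type*} [Group G] [Finite G] (z : G) (hz : orderOf z = 2) (hQ : Cfsg.IsOfSymplecticType ↥(Cfsg.generalizedFittingSubgroup ↥(Subgroup.centralizer ({z} : Set G)))) (hE : Cfsg.IsExtraspecial 2 ↥(Cfsg.generalizedFittingSubgroup ↥(Subgroup.centralizer ({z} : Set G))))
    (α : G) (hα : orderOf α = 2) (hαC : α ∈ Subgroup.centralizer ({z} : Set G)) (hαQ : α ∉ (Cfsg.generalizedFittingSubgroup ↥(Subgroup.centralizer ({z} : Set G))).map (Subgroup.centralizer ({z} : Set G)).subtype)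
    (Q₀ : Subgroup G) (hQ₀ : ∀ q : G, q ∈ Q₀ ↔ (q ∈ (Cfsg.generalizedFittingSubgroup ↥(Subgroup.centralizer ({z} : Set G))).map (Subgroup.centralizer ({z} : Set G)).subtype ∧ α * q * α⁻¹ * q⁻¹ ∈ Subgroup.zpowers z)) :
    Subgroup.closure ((fun q : G => α * q * α⁻¹ * q⁻¹) '' ((Cfsg.generalizedFittingSubgroup ↥(Subgroup.centralizer ({z} : Set G))).map (Subgroup.centralizer ({z} : Set G)).subtype : Set G)) = (Subgroup.center ↥Q₀).map Q₀.subtype ∧
      (¬ Q₀ ≤ ((Cfsg.generalizedFittingSubgroup ↥(Subgroup.centralizer ({z} : Set G))).map (Subgroup.centralizer ({z} : Set G)).subtype ⊓ Subgroup.centralizer ({α} : Set G)) ⊔ Subgroup.zpowers z →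
        ∃ q ∈ (Cfsg.generalizedFittingSubgroup ↥(Subgroup.centralizer ({z} : Set G))).map (Subgroup.centralizer ({z} : Set G)).subtype, q * α * q⁻¹ = α * z) := by
  classical
  set C := centralizer ({z} : Set G) with hC
  have hCmem : ∀ g : G, g ∈ C ↔ g * z = z * g := fun g => mem_centralizer_singleton_iff
  haveI hFn := Cfsg.Agent.H07.generalizedFitting_normal C
  set Qc := generalizedFittingSubgroup C with hQc
  set Q := Qc.map C.subtype with hQdef
  haveI : Fact (Nat.Prime 2) := ⟨Nat.prime_two⟩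
  have hz1 : z ≠ 1 := by
    rintro rfl
    simp at hz
  have hz2 : z * z = 1 := by rw [← sq, ← hz, pow_orderOf_eq_one]
  have hα1 : α * α = 1 := by rw [← sq, ← hα, pow_orderOf_eq_one]
  have hzC : z ∈ C := (hCmem z).2 rfl
  have hzcen : (⟨z, hzC⟩ : C) ∈ center C := by
    rw [mem_center_iff]
    intro g
    exact Subtype.ext ((hCmem _).1 g.2)
  have hzQc : (⟨z, hzC⟩ : C) ∈ Qc :=
    Cfsg.Agent.H07.fitting_le_generalized C (Cfsg.Agent.H07.center_le_fitting C hzcen)
  have hzQ : z ∈ Q := ⟨_, hzQc, rfl⟩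
  obtain ⟨⟨hp, hfr, hcm⟩, hcard⟩ := hE
  -- the centre of `Qc`
  have hzZ : (⟨⟨z, hzC⟩, hzQc⟩ : Qc) ∈ center Qc := by
    rw [mem_center_iff]
    intro g
    apply Subtype.ext
    exact (mem_center_iff.1 hzcen) g
  have hzne : (⟨⟨z, hzC⟩, hzQc⟩ : Qc) ≠ 1 := by
    intro h
    apply hz1
    have := congrArg (fun t : Qc => ((t : C) : G)) h
    simpa using this
  have hZc : ∀ w : Qc, w ∈ center Qc → w = 1 ∨ w = ⟨⟨z, hzC⟩, hzQc⟩ := by
    intro w hw
    by_cases hw1 : w = 1
    · exact Or.inl hw1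
    · right
      obtain ⟨y, -, huniq⟩ := (Nat.card_eq_two_iff' (1 : center Qc)).1 hcard
      have h1 : (⟨w, hw⟩ : center Qc) = y := huniq _ (fun h => hw1 (congrArg Subtype.val h))
      have h2 : (⟨⟨⟨z, hzC⟩, hzQc⟩, hzZ⟩ : center Qc) = y := huniq _ (fun h => hzne (congrArg Subtype.val h))
      have h3 := h1.trans h2.symm
      exact congrArg Subtype.val h3
  have hval : ∀ w : Qc, w ∈ center Qc → ((w : C) : G) = 1 ∨ ((w : C) : G) = z := by
    intro w hw
    rcases hZc w hw with h | h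
    · left; rw [h]; rfl
    · right; rw [h]
  have hαz : α * z = z * α := (hCmem α).1 hαC
  have hform : Form Q z := by
    refine ⟨hz1, hz2, hzQ, ?_, ?_⟩
    · rintro _ ⟨q, -, rfl⟩
      exact (hCmem _).1 q.2
    · rintro _ ⟨a, ha, rfl⟩ _ ⟨b, hb, rfl⟩
      have h1 : (⟨a, ha⟩ : Qc) * ⟨b, hb⟩ * (⟨a, ha⟩ : Qc)⁻¹ * (⟨b, hb⟩ : Qc)⁻¹ ∈ center Qc := by
        rw [← hcm, _root_.commutator_def]
        exact Subgroup.commutator_mem_commutator (mem_top _) (mem_top _)
      have h2 := hval _ h1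
      simp only [Subgroup.coe_mul, Subgroup.coe_inv] at h2
      rcases h2 with h2 | h2
      · left
        have h3 := mul_inv_eq_one.1 h2
        exact mul_inv_eq_iff_eq_mul.1 h3
      · right
        have h3 := mul_inv_eq_iff_eq_mul.1 h2
        have h4 := mul_inv_eq_iff_eq_mul.1 h3
        simp only [coe_subtype]
        rw [h4, mul_assoc]
  have hZ : ∀ q ∈ Q, (∀ s ∈ Q, q * s = s * q) → q = 1 ∨ q = z := by
    rintro _ ⟨q, hq, rfl⟩ hc
    have h1 : (⟨q, hq⟩ : Qc) ∈ center Qc := by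
      rw [mem_center_iff]
      intro g
      apply Subtype.ext
      apply Subtype.ext
      exact (hc _ ⟨g, g.2, rfl⟩).symm
    exact hval _ h1
  have hsq : ∀ a ∈ Q, a * a = 1 ∨ a * a = z := by
    rintro _ ⟨a, ha, rfl⟩
    have h1 : (⟨a, ha⟩ : Qc) ^ 2 ∈ center Qc := by
      rw [← hfr]
      exact Cfsg.Agent.H01.pow_mem_frattini_of_isPGroup hp _
    have h2 := hval _ h1
    simpa [sq] using h2
  let α' : C := ⟨α, hαC⟩
  have hαQ' : ∀ q ∈ Q, α * q * α⁻¹ ∈ Q := by
    rintro _ ⟨q, hq, rfl⟩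
    exact ⟨α' * q * α'⁻¹, hFn.conj_mem q hq α', rfl⟩
  have hnt : ∃ q ∈ Q, α * q ≠ q * α := by
    by_contra hcon
    push Not at hcon
    apply hαQ
    have h1 : α' ∈ centralizer (Qc : Set C) := by
      rw [mem_centralizer_iff]
      intro q hq
      apply Subtype.ext
      exact (hcon _ ⟨q, hq, rfl⟩).symm
    exact ⟨α', centralizer_fstar_le h1, rfl⟩
  refine ⟨extra_main hform hZ hsq hαz hα1 hαQ' hnt Q₀ hQ₀, ?_⟩
  intro hnot
  obtain ⟨q₀, hq₀, hq₀n⟩ := SetLike.not_le_iff_exists.1 hnot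
  obtain ⟨hq₀Q, hq₀c⟩ := (hQ₀ q₀).1 hq₀
  refine ⟨q₀, hq₀Q, ?_⟩
  have hzi : z⁻¹ = z := inv_eq_of_mul_eq_one_left hz2
  have hzcases : α * q₀ * α⁻¹ * q₀⁻¹ = 1 ∨ α * q₀ * α⁻¹ * q₀⁻¹ = z := by
    obtain ⟨i, hi⟩ := mem_zpowers_iff.1 hq₀c
    have hz2' : z ^ (2 : ℤ) = 1 := by
      rw [zpow_two]; exact hz2
    rcases Int.even_or_odd i with ⟨j, rfl⟩ | ⟨j, rfl⟩
    · left
      rw [← hi, ← two_mul, zpow_mul, hz2', one_zpow]
    · right
      rw [← hi, zpow_add, zpow_mul, hz2', one_zpow, one_mul, zpow_one]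
  rcases hzcases with h1 | h1
  · exfalso
    apply hq₀n
    apply mem_sup_left
    refine ⟨hq₀Q, ?_⟩
    show q₀ ∈ centralizer ({α} : Set G)
    rw [mem_centralizer_singleton_iff]
    have h2 := mul_inv_eq_one.1 h1
    have h3 := mul_inv_eq_iff_eq_mul.1 h2
    exact h3.symm
  · have h2 : q₀ * α⁻¹ * q₀⁻¹ = α⁻¹ * z := by
      rw [← h1]; group
    have h3 : q₀ * α * q₀⁻¹ = (q₀ * α⁻¹ * q₀⁻¹)⁻¹ := by group
    rw [h3, h2, mul_inv_rev, inv_inv, hzi, hαz]

end Cfsg.Agent.S1784
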