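import Cfsg.Statements.S1785
import Mathlib
import Cfsg.Agent.Lib.H01.Basic
import Cfsg.Agent.Lib.H01.Coprime
-- import your own Cfsg.Agent.* helpers here

set_option autoImplicit false
open Cfsg

namespace Cfsg.Agent.S1785

set_option linter.style.haveILetI false

section
variable {X : Type*} [Group X]

theorem comm_of_ea {H : Subgroup X} (hH : Cfsg.IsElementaryAbelian 2 H) {a b : X} (ha : a ∈ H) (hb : b ∈ H) :
    a * b = b * a := congrArg Subtype.val (hH.1.is_comm.comm ⟨a, ha⟩ ⟨b, hb⟩)

theorem ea_mono {H K : Subgroup X} (hH : Cfsg.IsElementaryAbelian 2 H) (hK : K ≤ H) :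
    Cfsg.IsElementaryAbelian 2 K :=
  ⟨⟨⟨fun a b => Subtype.ext (comm_of_ea hH (hK a.2) (hK b.2))⟩⟩, fun a ha => hH.2 a (hK ha)⟩

theorem ea_pgroup [Finite X] {H : Subgroup X} (hH : Cfsg.IsElementaryAbelian 2 H) : IsPGroup 2 H := by
  intro x
  refine ⟨1, ?_⟩
  apply Subtype.ext
  simpa using hH.2 x x.2

/-- The quadratic bound for fixed points. -/
theorem cent_sq_le [Finite X] {E F : Subgroup X} (hE : Cfsg.IsElementaryAbelian 2 E) (hFE : F ≤ E) (a : X) (ha : a ^ 2 = 1)
    (hnorm : ∀ f ∈ F, a * f * a⁻¹ ∈ F) :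
    Nat.card F ≤ (Nat.card (F ⊓ Subgroup.centralizer ({a} : Set X) : Subgroup X)) ^ 2 := by
  classical
  have hcomm : ∀ x ∈ F, ∀ y ∈ F, x * y = y * x := fun x hx y hy => comm_of_ea hE (hFE hx) (hFE hy)
  have hainv : a⁻¹ = a := by rw [inv_eq_iff_mul_eq_one, ← sq, ha]
  have hsq : ∀ x ∈ F, x * x = 1 := fun x hx => by rw [← sq]; exact hE.2 x (hFE hx)
  have hinv : ∀ x ∈ F, x⁻¹ = x := fun x hx => inv_eq_of_mul_eq_one_left (hsq x hx)
  let φ : F →* X :=
    { toFun := fun f => a * f * a⁻¹ * (f : X)⁻¹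
      map_one' := by simp
      map_mul' := fun f g => by
        have h1 := hcomm _ (hnorm g g.2) _ f.2
        have h2 := hcomm _ (F.inv_mem g.2) _ f.2
        simp only [Subgroup.coe_mul]
        have h3 := hcomm _ (F.inv_mem f.2) _ (F.inv_mem g.2)
        calc a * (f * g) * a⁻¹ * ((f : X) * g)⁻¹
            = (a * f * a⁻¹) * ((a * g * a⁻¹) * ((g : X)⁻¹ * (f : X)⁻¹)) := by group
          _ = (a * f * a⁻¹) * ((a * g * a⁻¹) * ((f : X)⁻¹ * (g : X)⁻¹)) := by rw [h3]
          _ = (a * f * a⁻¹) * (((a * g * a⁻¹) * (f : X)⁻¹) * (g : X)⁻¹) := by group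
          _ = (a * f * a⁻¹) * (((f : X)⁻¹ * (a * g * a⁻¹)) * (g : X)⁻¹) := by
              rw [hcomm _ (hnorm g g.2) _ (F.inv_mem f.2)]
          _ = _ := by group }
  have hφ : ∀ f : F, φ f = a * f * a⁻¹ * (f : X)⁻¹ := fun _ => rfl
  have hker : ∀ f : F, f ∈ φ.ker ↔ (f : X) ∈ F ⊓ Subgroup.centralizer ({a} : Set X) := by
    intro f
    rw [MonoidHom.mem_ker, hφ]
    constructor
    · intro h
      refine ⟨f.2, ?_⟩
      show (f : X) ∈ Subgroup.centralizer ({a} : Set X)
      rw [Subgroup.mem_centralizer_singleton_iff]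
      have h1 := mul_inv_eq_one.1 h
      have h2 := mul_inv_eq_iff_eq_mul.1 h1
      exact h2.symm
    · rintro ⟨_, h⟩
      have h1 : (f : X) * a = a * f := Subgroup.mem_centralizer_singleton_iff.1 h
      rw [← h1]; group
  have hrange : ∀ y ∈ φ.range, y ∈ F ⊓ Subgroup.centralizer ({a} : Set X) := by
    rintro _ ⟨f, rfl⟩
    rw [hφ]
    have hm : a * f * a⁻¹ * (f : X)⁻¹ ∈ F := F.mul_mem (hnorm f f.2) (F.inv_mem f.2)
    refine ⟨hm, ?_⟩
    show _ ∈ Subgroup.centralizer ({a} : Set X)
    rw [Subgroup.mem_centralizer_singleton_iff]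
    -- a inverts the image
    have h1 : a * (a * f * a⁻¹ * (f : X)⁻¹) * a⁻¹ = f * (a * (f : X)⁻¹ * a⁻¹) := by
      have : a * a = 1 := by rw [← sq, ha]
      calc a * (a * f * a⁻¹ * (f : X)⁻¹) * a⁻¹ = (a * a) * f * a⁻¹ * (f : X)⁻¹ * a⁻¹ := by group
        _ = f * (a⁻¹ * (f : X)⁻¹ * a⁻¹) := by rw [this]; group
        _ = f * (a * (f : X)⁻¹ * a⁻¹) := by rw [hainv]
    have h3 : a * (a * f * a⁻¹ * (f : X)⁻¹) * a⁻¹ = a * f * a⁻¹ * (f : X)⁻¹ := by
      rw [h1, hinv f f.2]
      have h4 : a * (f : X) * a⁻¹ ∈ F := hnorm f f.2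
      rw [hcomm _ f.2 _ h4]
    have h5 := mul_inv_eq_iff_eq_mul.1 h3
    exact h5.symm
  have hcard : Nat.card φ.ker * Nat.card φ.range = Nat.card F := by
    rw [← Subgroup.index_ker, mul_comm]
    exact Subgroup.index_mul_card _
  rw [← hcard, sq]
  apply Nat.mul_le_mul
  · refine Nat.card_le_card_of_injective (fun f : φ.ker => (⟨(f : F), (hker _).1 f.2⟩ :
      (F ⊓ Subgroup.centralizer ({a} : Set X) : Subgroup X))) ?_
    intro f g h
    have h' : ((f : F) : X) = ((g : F) : X) := congrArg (fun z : (F ⊓ Subgroup.centralizer ({a} : Set X) : Subgroup X) => (z : X)) h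
    exact Subtype.ext (Subtype.ext h')
  · exact Nat.card_le_card_of_injective (fun y : φ.range => (⟨(y : X), hrange _ y.2⟩ :
      (F ⊓ Subgroup.centralizer ({a} : Set X) : Subgroup X)))
      (fun f g h => Subtype.ext (congrArg (fun z : (F ⊓ Subgroup.centralizer ({a} : Set X) : Subgroup X) => (z : X)) h))

/-- A subgroup of index two above a given proper subgroup. -/
theorem exists_index_two [Finite X] {W H : Subgroup X} (hH : IsPGroup 2 H) (hWH : W < H) :
    ∃ (H' : Subgroup X) (a : X), W ≤ H' ∧ H' ≤ H ∧ a ∈ H ∧ a ∉ H' ∧ 2 * Nat.card H' = Nat.card H ∧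
      ∀ h ∈ H, h ∈ H' ∨ h * a⁻¹ ∈ H' := by
  classical
  haveI : Fact (Nat.Prime 2) := ⟨Nat.prime_two⟩
  have hne : W.subgroupOf H ≠ ⊤ := by
    intro h
    rw [Subgroup.subgroupOf_eq_top] at h
    exact absurd h (not_le_of_gt hWH)
  obtain ⟨M, hM, hWM⟩ := (eq_top_or_exists_le_coatom (W.subgroupOf H)).resolve_left hne
  obtain ⟨_, hidx⟩ := Cfsg.Agent.H01.isCoatom_normal_index hH hM
  obtain ⟨⟨a, haH⟩, haM⟩ : ∃ a : H, a ∉ M := by
    by_contra hcon
    push Not at hcon
    exact hM.1 (eq_top_iff.2 fun x _ => hcon x)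
  refine ⟨M.map H.subtype, a, ?_, ?_, haH, ?_, ?_, ?_⟩
  · intro w hw
    exact ⟨⟨w, hWH.le hw⟩, hWM (by rw [Subgroup.mem_subgroupOf]; exact hw), rfl⟩
  · rintro _ ⟨m, _, rfl⟩
    exact m.2
  · rintro ⟨m, hm, he⟩
    apply haM
    have : m = ⟨a, haH⟩ := Subtype.ext he
    rwa [← this]
  · rw [Subgroup.card_map_of_injective (Subgroup.subtype_injective _), ← hidx, mul_comm]
    exact Subgroup.card_mul_index _
  · intro h hh
    by_cases hmem : (⟨h, hh⟩ : H) ∈ M
    · exact Or.inl ⟨_, hmem, rfl⟩
    · right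
      have h1 := (Subgroup.mul_mem_iff_of_index_two hidx (a := ⟨h, hh⟩) (b := (⟨a, haH⟩ : H)⁻¹)).2 (by
        constructor
        · intro h2; exact absurd h2 hmem
        · intro h2; exact absurd (by simpa using h2) haM)
      exact ⟨_, h1, rfl⟩

/-- Adding a commuting involution. -/
theorem add_elem [Finite X] {H : Subgroup X} (hH : Cfsg.IsElementaryAbelian 2 H) {e : X} (he : e ^ 2 = 1) (heH : e ∉ H)
    (hc : ∀ h ∈ H, h * e = e * h) :
    Cfsg.IsElementaryAbelian 2 (H ⊔ Subgroup.zpowers e) ∧ Nat.card (H ⊔ Subgroup.zpowers e : Subgroup X) = 2 * Nat.card H := by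
  classical
  have hN : Subgroup.zpowers e ≤ Subgroup.normalizer (H : Set X) := by
    rw [Subgroup.zpowers_le, Subgroup.mem_normalizer_iff]
    intro z
    have : ∀ z ∈ H, e * z * e⁻¹ = z := fun z hz => by
      rw [← hc z hz]; group
    constructor
    · intro hz; rw [this z hz]; exact hz
    · intro hz
      have h1 := this _ hz
      have h2 : e * (e * z * e⁻¹) * e⁻¹ = e * z * e⁻¹ := h1
      have h3 : e * e = 1 := by rw [← sq, he]
      have h4 : e * (e * z * e⁻¹) * e⁻¹ = z := by
        have h5 : e⁻¹ = e := inv_eq_of_mul_eq_one_left h3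
        rw [h5]
        calc e * (e * z * e) * e = (e * e) * z * (e * e) := by group
          _ = z := by rw [h3]; group
      rw [h2] at h4
      rw [h4] at hz
      exact hz
  have hz : ∀ z ∈ Subgroup.zpowers e, z = 1 ∨ z = e := by
    intro z hz
    obtain ⟨i, rfl⟩ := Subgroup.mem_zpowers_iff.1 hz
    rcases Int.even_or_odd i with ⟨j, rfl⟩ | ⟨j, rfl⟩
    · left
      rw [← two_mul, zpow_mul]
      have : e ^ (2 : ℤ) = 1 := by exact_mod_cast he
      rw [this, one_zpow]
    · right
      rw [zpow_add, zpow_mul]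
      have : e ^ (2 : ℤ) = 1 := by exact_mod_cast he
      rw [this, one_zpow]; simp
  have hdec : ∀ x ∈ H ⊔ Subgroup.zpowers e, ∃ h ∈ H, x = h ∨ x = h * e := by
    intro x hx
    obtain ⟨h, hh, z, hzz, rfl⟩ := Cfsg.Agent.H01.exists_mul_of_mem_sup hN hx
    rcases hz z hzz with rfl | rfl
    · exact ⟨h, hh, Or.inl (by simp)⟩
    · exact ⟨h, hh, Or.inr rfl⟩
  have hcomm : ∀ x ∈ H ⊔ Subgroup.zpowers e, ∀ y ∈ H ⊔ Subgroup.zpowers e, x * y = y * x := by
    intro x hx y hy
    obtain ⟨h, hh, hx'⟩ := hdec x hx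
    obtain ⟨k, hk, hy'⟩ := hdec y hy
    have hhk := comm_of_ea hH hh hk
    have hhe := hc h hh
    have hke := hc k hk
    rcases hx' with hx' | hx' <;> rcases hy' with hy' | hy' <;> rw [hx', hy']
    · exact hhk
    · calc h * (k * e) = (h * k) * e := by group
        _ = (k * h) * e := by rw [hhk]
        _ = k * (h * e) := by group
        _ = k * (e * h) := by rw [hhe]
        _ = k * e * h := by group
    · calc h * e * k = h * (e * k) := by group
        _ = h * (k * e) := by rw [hke]
        _ = (h * k) * e := by group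
        _ = (k * h) * e := by rw [hhk]
        _ = k * (h * e) := by group
    · calc h * e * (k * e) = h * (e * k) * e := by group
        _ = h * (k * e) * e := by rw [hke]
        _ = (h * k) * e * e := by group
        _ = (k * h) * e * e := by rw [hhk]
        _ = k * (h * e) * e := by group
        _ = k * (e * h) * e := by rw [hhe]
        _ = k * e * (h * e) := by group
  refine ⟨⟨⟨⟨fun a b => Subtype.ext (hcomm a a.2 b b.2)⟩⟩, ?_⟩, ?_⟩
  · intro x hx
    obtain ⟨h, hh, hx'⟩ := hdec x hx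
    rcases hx' with hx' | hx' <;> rw [hx']
    · exact hH.2 h hh
    · have : Commute h e := hc h hh
      rw [this.mul_pow, hH.2 h hh, he, one_mul]
  · -- counting
    let f : H × Bool → (H ⊔ Subgroup.zpowers e : Subgroup X) := fun p =>
      if p.2 then ⟨(p.1 : X) * e, Subgroup.mul_mem _ (Subgroup.mem_sup_left p.1.2)
        (Subgroup.mem_sup_right (Subgroup.mem_zpowers e))⟩ else ⟨(p.1 : X), Subgroup.mem_sup_left p.1.2⟩
    have hbij : Function.Bijective f := by
      constructor
      · rintro ⟨a, b⟩ ⟨a', b'⟩ hh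
        have hv := congrArg Subtype.val hh
        cases b <;> cases b' <;> simp only [f, if_true, if_false, Bool.false_eq_true] at hv
        · simp [Subtype.ext hv]
        · exfalso
          apply heH
          have : e = (a' : X)⁻¹ * a := by rw [hv]; group
          rw [this]
          exact H.mul_mem (H.inv_mem a'.2) a.2
        · exfalso
          apply heH
          have : e = (a : X)⁻¹ * a' := by rw [← hv]; group
          rw [this]
          exact H.mul_mem (H.inv_mem a.2) a'.2
        · have : (a : X) = a' := mul_right_cancel hv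
          simp [Subtype.ext this]
      · rintro ⟨x, hx⟩
        obtain ⟨h, hh, hx' | hx'⟩ := hdec x hx
        · exact ⟨(⟨h, hh⟩, false), by simp [f, hx']⟩
        · exact ⟨(⟨h, hh⟩, true), by simp [f, hx']⟩
    have := Nat.card_congr (Equiv.ofBijective f hbij)
    rw [← this, Nat.card_prod]
    simp [mul_comm]

/-- The main counting estimate. -/
theorem card_le_cent_pow [Finite X] {E : Subgroup X} [E.Normal] (hE : Cfsg.IsElementaryAbelian 2 E) (k : ℕ) :
    ∀ H : Subgroup X, Cfsg.IsElementaryAbelian 2 H → Nat.card H = 2 ^ k * Nat.card (H ⊓ E : Subgroup X) →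
      Nat.card E ≤ (Nat.card (E ⊓ Subgroup.centralizer (H : Set X) : Subgroup X)) ^ (2 ^ k) := by
  classical
  haveI : Fact (Nat.Prime 2) := ⟨Nat.prime_two⟩
  induction k with
  | zero =>
    intro H hH hcard
    have hle : H ≤ E := by
      have h1 : (H ⊓ E : Subgroup X) = H :=
        Subgroup.eq_of_le_of_card_ge inf_le_left (by rw [hcard]; simp)
      exact inf_eq_left.1 h1
    have : E ⊓ Subgroup.centralizer (H : Set X) = E := by
      apply inf_eq_left.2
      intro e he
      rw [Subgroup.mem_centralizer_iff]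
      intro h hh
      exact comm_of_ea hE (hle hh) he
    rw [this]; simp
  | succ k ih =>
    intro H hH hcard
    have hlt : H ⊓ E < H := by
      refine lt_of_le_of_ne inf_le_left ?_
      intro h1
      rw [h1, pow_succ] at hcard
      have hpos : 0 < Nat.card H := Nat.card_pos
      have : 0 < 2 ^ k := by positivity
      nlinarith
    obtain ⟨H', a, hWH', hH'H, haH, haH', hc2, hdec⟩ := exists_index_two (ea_pgroup hH) hlt
    have hinf : H' ⊓ E = H ⊓ E := by
      apply le_antisymm
      · exact inf_le_inf_right _ hH'H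
      · exact le_inf hWH' inf_le_right
    have hEA' : Cfsg.IsElementaryAbelian 2 H' := ea_mono hH hH'H
    have hih := ih H' hEA' (by
      rw [hinf]
      rw [hcard, pow_succ] at hc2
      have : Nat.card H' = 2 ^ k * Nat.card (H ⊓ E : Subgroup X) := by
        have h2 : 2 * Nat.card H' = 2 * (2 ^ k * Nat.card (H ⊓ E : Subgroup X)) := by
          rw [hc2]; ring
        exact Nat.eq_of_mul_eq_mul_left (by norm_num) h2
      exact this)
    set F : Subgroup X := E ⊓ Subgroup.centralizer (H' : Set X) with hF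
    have ha2 : a ^ 2 = 1 := hH.2 a haH
    have hnorm : ∀ f ∈ F, a * f * a⁻¹ ∈ F := by
      intro f hf
      refine ⟨(inferInstance : E.Normal).conj_mem f hf.1 a, ?_⟩
      show _ ∈ Subgroup.centralizer (H' : Set X)
      rw [Subgroup.mem_centralizer_iff]
      intro h hh
      have h1 : h * f = f * h := (Subgroup.mem_centralizer_iff.1 hf.2) h hh
      have h2 : h * a = a * h := comm_of_ea hH (hH'H hh) haH
      have h3 : h * a⁻¹ = a⁻¹ * h := by
        rw [eq_inv_mul_iff_mul_eq]
        calc a * (h * a⁻¹) = (a * h) * a⁻¹ := by group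
          _ = (h * a) * a⁻¹ := by rw [h2]
          _ = h := by group
      calc h * (a * f * a⁻¹) = (h * a) * f * a⁻¹ := by group
        _ = a * (h * f) * a⁻¹ := by rw [h2]; group
        _ = a * f * (h * a⁻¹) := by rw [h1]; group
        _ = a * f * (a⁻¹ * h) := by rw [h3]
        _ = a * f * a⁻¹ * h := by group
    have hsq := cent_sq_le hE (inf_le_left : F ≤ E) a ha2 hnorm
    have hFa : (F ⊓ Subgroup.centralizer ({a} : Set X) : Subgroup X) = E ⊓ Subgroup.centralizer (H : Set X) := by
      ext x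
      constructor
      · rintro ⟨⟨hxE, hxc⟩, hxa⟩
        refine ⟨hxE, ?_⟩
        show x ∈ Subgroup.centralizer (H : Set X)
        rw [Subgroup.mem_centralizer_iff]
        intro h hh
        have hca : a * x = x * a := by
          have hxa' : x ∈ Subgroup.centralizer ({a} : Set X) := hxa
          rw [Subgroup.mem_centralizer_iff] at hxa'
          exact hxa' a (by simp)
        have hxc' : x ∈ Subgroup.centralizer (H' : Set X) := hxc
        rw [Subgroup.mem_centralizer_iff] at hxc'
        rcases hdec h hh with h1 | h1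
        · exact hxc' h h1
        · have h2 := hxc' _ h1
          calc h * x = (h * a⁻¹) * (a * x) := by group
            _ = (h * a⁻¹) * (x * a) := by rw [hca]
            _ = ((h * a⁻¹) * x) * a := by group
            _ = (x * (h * a⁻¹)) * a := by rw [h2]
            _ = x * h := by group
      · rintro ⟨hxE, hxc⟩
        have hxc' : x ∈ Subgroup.centralizer (H : Set X) := hxc
        rw [Subgroup.mem_centralizer_iff] at hxc'
        refine ⟨⟨hxE, ?_⟩, ?_⟩
        · show x ∈ Subgroup.centralizer (H' : Set X)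
          rw [Subgroup.mem_centralizer_iff]
          intro h hh
          exact hxc' h (hH'H hh)
        · show x ∈ Subgroup.centralizer ({a} : Set X)
          rw [Subgroup.mem_centralizer_iff]
          intro h hh
          have : h = a := by simpa using hh
          rw [this]
          exact hxc' a haH
    rw [hFa] at hsq
    calc Nat.card E ≤ Nat.card F ^ (2 ^ k) := hih
      _ ≤ ((Nat.card (E ⊓ Subgroup.centralizer (H : Set X) : Subgroup X)) ^ 2) ^ (2 ^ k) :=
          Nat.pow_le_pow_left hsq _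
      _ = _ := by rw [← pow_mul, pow_succ, mul_comm]

/-- If the bound fails, a new element of `E` centralises `H`. -/
theorem exists_new_elem [Finite X] {E : Subgroup X} [E.Normal] (hE : Cfsg.IsElementaryAbelian 2 E)
    (hE32 : 32 ≤ Nat.card E) (k : ℕ) (H : Subgroup X) (hH : Cfsg.IsElementaryAbelian 2 H)
    (hcard : Nat.card H = 2 ^ k * Nat.card (H ⊓ E : Subgroup X))
    (hlt : (Nat.card (H ⊓ E : Subgroup X)) ^ (2 ^ k) < 32) :
    ∃ e ∈ E, e ∉ H ∧ ∀ h ∈ H, h * e = e * h := by
  by_contra hcon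
  push Not at hcon
  have h1 := card_le_cent_pow hE k H hH hcard
  have hle : (E ⊓ Subgroup.centralizer (H : Set X) : Subgroup X) ≤ H ⊓ E := by
    rintro x ⟨hxE, hxc⟩
    refine ⟨?_, hxE⟩
    by_contra hxH
    obtain ⟨h, hh, hne⟩ := hcon x hxE hxH
    exact hne ((Subgroup.mem_centralizer_iff.1 hxc) h hh)
  have h2 := Nat.card_le_card_of_injective _ (Subgroup.inclusion_injective hle)
  have h3 := Nat.pow_le_pow_left h2 (2 ^ k)
  omega

end

section
variable {X : Type*} [Group X]

/-- The chain relation. -/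
def ChainRel (C D : Subgroup X) : Prop :=
  Cfsg.IsElementaryAbelian 2 C ∧ Nat.card ↥C = 8 ∧ Cfsg.IsElementaryAbelian 2 D ∧ Nat.card ↥D = 8 ∧ ⁅C, D⁆ = ⊥

theorem chainRel_symm {C D : Subgroup X} : ChainRel C D → ChainRel D C := by
  rintro ⟨h1, h2, h3, h4, h5⟩
  exact ⟨h3, h4, h1, h2, by rwa [Subgroup.commutator_comm]⟩

theorem chain_rev {C D : Subgroup X} (h : Relation.ReflTransGen ChainRel C D) :
    Relation.ReflTransGen ChainRel D C := by
  induction h with
  | refl => exact Relation.ReflTransGen.refl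
  | tail _ hrel ih => exact ih.head (chainRel_symm hrel)

theorem chain_to_E [Finite X] (E : Subgroup X) [E.Normal] (hE : Cfsg.IsElementaryAbelian 2 E) (hE32 : 32 ≤ Nat.card ↥E) :
    ∀ n : ℕ, ∀ A : Subgroup X, Cfsg.IsElementaryAbelian 2 A → Nat.card A = 8 → 8 - Nat.card (A ⊓ E : Subgroup X) ≤ n →
      ∃ A' : Subgroup X, A' ≤ E ∧ Cfsg.IsElementaryAbelian 2 A' ∧ Nat.card A' = 8 ∧ Relation.ReflTransGen ChainRel A A' := by
  classical
  haveI : Fact (Nat.Prime 2) := ⟨Nat.prime_two⟩
  intro n
  induction n with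
  | zero =>
    intro A hA hc hn
    have hle : 8 ≤ Nat.card (A ⊓ E : Subgroup X) := by omega
    have h1 : (A ⊓ E : Subgroup X) = A := Subgroup.eq_of_le_of_card_ge inf_le_left (by omega)
    exact ⟨A, inf_eq_left.1 h1, hA, hc, Relation.ReflTransGen.refl⟩
  | succ n ih =>
    intro A hA hc hn
    by_cases hAE : A ≤ E
    · exact ⟨A, hAE, hA, hc, Relation.ReflTransGen.refl⟩
    have hlt : A ⊓ E < A := lt_of_le_of_ne inf_le_left (fun h => hAE (inf_eq_left.1 h))
    have hdvd : Nat.card (A ⊓ E : Subgroup X) ∣ 2 ^ 3 := by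
      have := Subgroup.card_dvd_of_le (inf_le_left : A ⊓ E ≤ A)
      rw [hc] at this
      exact this
    obtain ⟨j, hj, hW⟩ := (Nat.dvd_prime_pow Nat.prime_two).1 hdvd
    have hne : Nat.card (A ⊓ E : Subgroup X) ≠ 8 := by
      intro h
      exact hAE (inf_eq_left.1 (Subgroup.eq_of_le_of_card_ge inf_le_left (by omega)))
    have hex : ∃ e ∈ E, e ∉ A ∧ ∀ h ∈ A, h * e = e * h := by
      interval_cases j
      · exact exists_new_elem hE hE32 3 A hA (by rw [hW, hc]; norm_num) (by rw [hW]; norm_num)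
      · exact exists_new_elem hE hE32 2 A hA (by rw [hW, hc]; norm_num) (by rw [hW]; norm_num)
      · exact exists_new_elem hE hE32 1 A hA (by rw [hW, hc]; norm_num) (by rw [hW]; norm_num)
      · exact absurd hW hne
    obtain ⟨e, heE, heA, hcomm⟩ := hex
    obtain ⟨H', a, hWH', hH'A, haA, haH', hc2, -⟩ := exists_index_two (ea_pgroup hA) hlt
    have hH'4 : Nat.card H' = 4 := by omega
    have heH' : e ∉ H' := fun h => heA (hH'A h)
    have hEA' := ea_mono hA hH'A
    obtain ⟨hB, hcB⟩ := add_elem hEA' (hE.2 e heE) heH' (fun h hh => hcomm h (hH'A hh))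
    have hcB8 : Nat.card (H' ⊔ Subgroup.zpowers e : Subgroup X) = 8 := by omega
    have hrel : ChainRel A (H' ⊔ Subgroup.zpowers e) := by
      refine ⟨hA, hc, hB, hcB8, ?_⟩
      rw [Subgroup.commutator_eq_bot_iff_le_centralizer]
      intro x hx
      rw [Subgroup.mem_centralizer_iff]
      intro y hy
      have hsup : (H' ⊔ Subgroup.zpowers e : Subgroup X) ≤ Subgroup.centralizer (A : Set X) := by
        apply sup_le
        · intro z hz
          rw [Subgroup.mem_centralizer_iff]
          intro w hw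
          exact comm_of_ea hA hw (hH'A hz)
        · rw [Subgroup.zpowers_le, Subgroup.mem_centralizer_iff]
          exact hcomm
      have := hsup hy
      rw [Subgroup.mem_centralizer_iff] at this
      exact (this x hx).symm
    have hgt : Nat.card (A ⊓ E : Subgroup X) < Nat.card ((H' ⊔ Subgroup.zpowers e) ⊓ E : Subgroup X) := by
      have hltB : A ⊓ E < (H' ⊔ Subgroup.zpowers e) ⊓ E := by
        refine lt_of_le_of_ne (le_inf (hWH'.trans le_sup_left) inf_le_right) ?_
        intro h
        have he1 : e ∈ (H' ⊔ Subgroup.zpowers e) ⊓ E :=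
          ⟨Subgroup.mem_sup_right (Subgroup.mem_zpowers e), heE⟩
        rw [← h] at he1
        exact heA he1.1
      exact lt_of_not_ge fun hge => hltB.ne (Subgroup.eq_of_le_of_card_ge hltB.le hge)
    have hle8 : Nat.card ((H' ⊔ Subgroup.zpowers e) ⊓ E : Subgroup X) ≤ 8 := by
      rw [← hcB8]
      exact Subgroup.card_le_of_le inf_le_left
    obtain ⟨A', hA'E, hA', hcA', hchain⟩ := ih _ hB hcB8 (by omega)
    exact ⟨A', hA'E, hA', hcA', Relation.ReflTransGen.head hrel hchain⟩

end


/-- Let X be a finite 2-group having a normal elementary abelian subgroup of order at least 32. Then (a) for any two elementary abelian subgroups A, B of X of order 8 there is a chain A = A₁, A₂, …, Aₙ = B of elementary abelian subgroups of order 8 in which consecutive members commute elementwise; and (b) every elementary abelian subgroup of X of order 4 is contained in an elementary abelian subgroup of order 8. -/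
theorem result {X : Type*} [Group X] [Finite X]
    (hX : IsPGroup 2 X) (E : Subgroup X) [E.Normal] (hE : Cfsg.IsElementaryAbelian 2 E) (hE32 : 32 ≤ Nat.card ↥E) :
    (∀ A B : Subgroup X, Cfsg.IsElementaryAbelian 2 A → Nat.card ↥A = 8 → Cfsg.IsElementaryAbelian 2 B → Nat.card ↥B = 8 →
        Relation.ReflTransGen
          (fun C D : Subgroup X => Cfsg.IsElementaryAbelian 2 C ∧ Nat.card ↥C = 8 ∧ Cfsg.IsElementaryAbelian 2 D ∧ Nat.card ↥D = 8 ∧ ⁅C, D⁆ = ⊥)
          A B) ∧
      (∀ V : Subgroup X, Cfsg.IsElementaryAbelian 2 V → Nat.card ↥V = 4 →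
        ∃ A : Subgroup X, V ≤ A ∧ Cfsg.IsElementaryAbelian 2 A ∧ Nat.card ↥A = 8) := by
  classical
  constructor
  · intro A B hA hAc hB hBc
    obtain ⟨A', hA'E, hA', hcA', hchA⟩ := chain_to_E E hE hE32 _ A hA hAc le_rfl
    obtain ⟨B', hB'E, hB', hcB', hchB⟩ := chain_to_E E hE hE32 _ B hB hBc le_rfl
    have hrel : ChainRel A' B' := by
      refine ⟨hA', hcA', hB', hcB', ?_⟩
      rw [Subgroup.commutator_eq_bot_iff_le_centralizer]
      intro x hx
      rw [Subgroup.mem_centralizer_iff]
      intro y hy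
      exact comm_of_ea hE (hB'E hy) (hA'E hx)
    exact (hchA.tail hrel).trans (chain_rev hchB)
  · intro V hV hVc
    haveI : Fact (Nat.Prime 2) := ⟨Nat.prime_two⟩
    have hdvd : Nat.card (V ⊓ E : Subgroup X) ∣ 2 ^ 2 := by
      have := Subgroup.card_dvd_of_le (inf_le_left : V ⊓ E ≤ V)
      rw [hVc] at this
      exact this
    obtain ⟨j, hj, hW⟩ := (Nat.dvd_prime_pow Nat.prime_two).1 hdvd
    have hex : ∃ e ∈ E, e ∉ V ∧ ∀ h ∈ V, h * e = e * h := by
      interval_cases j
      · exact exists_new_elem hE hE32 2 V hV (by rw [hW, hVc]; norm_num) (by rw [hW]; norm_num)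
      · exact exists_new_elem hE hE32 1 V hV (by rw [hW, hVc]; norm_num) (by rw [hW]; norm_num)
      · exact exists_new_elem hE hE32 0 V hV (by rw [hW, hVc]; norm_num) (by rw [hW]; norm_num)
    obtain ⟨e, heE, heV, hcomm⟩ := hex
    obtain ⟨hB, hcB⟩ := add_elem hV (hE.2 e heE) heV hcomm
    exact ⟨_, le_sup_left, hB, by omega⟩

end Cfsg.Agent.S1785
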