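import Cfsg.Statements.S1850
import Cfsg.Agent.Lib.H13.CharP
-- import your own Cfsg.Agent.* helpers here

set_option autoImplicit false
open Cfsg

namespace Cfsg.Agent.S1850


lemma cent_le_norm {G : Type*} [Group G] (R : Subgroup G) :
    Subgroup.centralizer (R : Set G) ≤ Subgroup.normalizer (R : Set G) := by
  intro c hc
  rw [Subgroup.mem_normalizer_iff]
  intro h
  have hcc := Subgroup.mem_centralizer_iff.mp hc
  constructor
  · intro hh
    have e : c * h * c⁻¹ = h := by
      rw [← hcc h hh, mul_assoc, mul_inv_cancel, mul_one]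
    rw [e]
    exact hh
  · intro hh
    have e1 := hcc _ hh
    have e2 : h = c * h * c⁻¹ := by
      have e3 : c * h * c⁻¹ * c = c * h := by group
      rw [e3] at e1
      exact (mul_left_cancel e1)
    rw [e2]
    exact hh

open Cfsg in
/-- Going up normalizer towers. -/
theorem charP_tower {G : Type*} [Group G] [Finite G] {U : Subgroup G} (hU : IsPGroup 2 U) :
    ∀ (n : ℕ) (R : Subgroup G), R ≤ U → Nat.card U - Nat.card R ≤ n →
      Cfsg.Agent.H13.IsCharP 2 (Subgroup.normalizer (R : Set G)) →
      Cfsg.Agent.H13.IsCharP 2 (Subgroup.normalizer (U : Set G)) := by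
  haveI : Fact (Nat.Prime 2) := ⟨Nat.prime_two⟩
  intro n
  induction n with
  | zero =>
    intro R hR hn hc
    have : R = U := by
      apply Subgroup.eq_of_le_of_card_ge hR
      omega
    rwa [← this]
  | succ n ih =>
    intro R hR hn hc
    by_cases hRU : R = U
    · rwa [← hRU]
    -- the normalizer of `R` in `U`
    set R' : Subgroup G := U ⊓ Subgroup.normalizer (R : Set G) with hR'
    have hRR' : R ≤ R' := le_inf hR Subgroup.le_normalizer
    have hlt : R ≠ R' := by
      intro he
      have hpg : IsPGroup 2 U := hU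
      haveI : Group.IsNilpotent U := hpg.isNilpotent
      have hne : R.subgroupOf U ≠ ⊤ := by
        intro h
        apply hRU
        apply le_antisymm hR
        intro u hu
        have : (⟨u, hu⟩ : U) ∈ R.subgroupOf U := by rw [h]; trivial
        exact Subgroup.mem_subgroupOf.mp this
      have hnc := normalizerCondition_of_isNilpotent (G := U) (R.subgroupOf U) (lt_top_iff_ne_top.mpr hne)
      obtain ⟨y, hy, hyn⟩ := SetLike.exists_of_lt hnc
      apply hyn
      rw [Subgroup.mem_subgroupOf]
      have hyR' : (y : G) ∈ R' := by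
        refine ⟨y.2, Subgroup.mem_normalizer_iff.mpr ?_⟩
        intro h
        constructor
        · intro hh
          have hhU : h ∈ U := hR hh
          have h1 := (Subgroup.mem_normalizer_iff.mp hy ⟨h, hhU⟩).mp
            (by rw [Subgroup.mem_subgroupOf]; exact hh)
          rw [Subgroup.mem_subgroupOf] at h1
          exact h1
        · intro hh
          have hhU : h ∈ U := by
            have h1 : (y : G) * h * (y : G)⁻¹ ∈ U := hR hh
            have h2 : h = (y : G)⁻¹ * ((y : G) * h * (y : G)⁻¹) * y := by group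
            rw [h2]
            exact U.mul_mem (U.mul_mem (U.inv_mem y.2) h1) y.2
          have h1 := (Subgroup.mem_normalizer_iff.mp hy ⟨h, hhU⟩).mpr
            (by rw [Subgroup.mem_subgroupOf]; exact hh)
          rw [Subgroup.mem_subgroupOf] at h1
          exact h1
      rw [he]
      exact hyR'
    have hR'p : IsPGroup 2 R' := hU.to_le inf_le_left
    have h1 : Cfsg.Agent.H13.IsCharP 2 (Subgroup.normalizer (R' : Set G)) := by
      apply Cfsg.Agent.H13.isCharP_normalizer hc inf_le_right hR'p
      intro c hc'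
      exact cent_le_norm R (Subgroup.centralizer_le hRR' hc')
    refine ih R' inf_le_left ?_ h1
    have hcard : Nat.card R < Nat.card R' := by
      by_contra hcon
      exact hlt (Subgroup.eq_of_le_of_card_ge hRR' (by omega))
    have hcardU : Nat.card R' ≤ Nat.card U := Subgroup.card_le_of_le inf_le_left
    omega


/-- Let G be a non-abelian finite simple QTKE-group and T a Sylow 2-subgroup of G. If U is a nontrivial 2-subgroup of G with U ∩ Z(T) ≠ 1, then F*(N_G(U)) = O₂(N_G(U)). -/
theorem result {G : Type*} [Group G] [Finite G] [IsSimpleGroup G]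
    (hG : ¬ IsMulCommutative G) (hQ : Cfsg.IsQTKE G) (T : Sylow 2 G) (U : Subgroup G)
    (hU : IsPGroup 2 ↥U) (hZ : U ⊓ ((T : Subgroup G) ⊓ Subgroup.centralizer ((T : Subgroup G) : Set G)) ≠ ⊥) :
    Subgroup.normalizer (U : Set G) ∈ Cfsg.calHe G := by
  classical
  haveI : Fact (Nat.Prime 2) := ⟨Nat.prime_two⟩
  obtain ⟨z, hz, hz1⟩ := (Subgroup.bot_or_exists_ne_one _).resolve_left hZ
  obtain ⟨hzU, hzT, hzC⟩ := hz
  have hzp : IsPGroup 2 (Subgroup.zpowers z) := hU.to_le (Subgroup.zpowers_le.mpr hzU)
  have hzne : Subgroup.zpowers z ≠ ⊥ := by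
    intro h
    exact hz1 (Subgroup.zpowers_eq_bot.mp h)
  have hlocal : Cfsg.IsTwoLocal (Subgroup.normalizer ((Subgroup.zpowers z : Subgroup G) : Set G)) :=
    ⟨_, hzp, hzne, rfl⟩
  have hTN : (T : Subgroup G) ≤ Subgroup.normalizer ((Subgroup.zpowers z : Subgroup G) : Set G) := by
    intro t ht
    apply cent_le_norm
    rw [Subgroup.mem_centralizer_iff]
    rintro h ⟨k, rfl⟩
    have h1 := (Subgroup.mem_centralizer_iff.mp hzC) t ht
    have h2 : Commute t z := h1
    exact (h2.symm.zpow_left k)
  have hchar := hQ.2.2 _ hlocal ⟨T, hTN⟩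
  have h1 := charP_tower hU _ (Subgroup.zpowers z) (Subgroup.zpowers_le.mpr hzU) le_rfl hchar
  exact (Cfsg.Agent.H13.fstar_eq_pCore_iff).mpr h1

end Cfsg.Agent.S1850
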