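import Cfsg.Statements.S1851
import Cfsg.Agent.Lib.H13.CharP
import Cfsg.Agent.Lib.H12.Subnormal
import Cfsg.Agent.Lib.H05.Comp
-- import your own Cfsg.Agent.* helpers here

set_option autoImplicit false
open Cfsg

namespace Cfsg.Agent.S1851


open scoped commutatorElement

lemma eq_one_of_conj_mul {G : Type*} [Group G] {g a c : G} (hg : Odd (orderOf g))
    (hc : g * a * g⁻¹ = a * c) (hcg : g * c * g⁻¹ = c) (hcc : c ^ 2 = 1) : c = 1 := by
  have h1 : ∀ i : ℕ, g ^ i * a * (g ^ i)⁻¹ = a * c ^ i := by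
    intro i
    induction i with
    | zero => simp
    | succ i ih =>
      calc g ^ (i + 1) * a * (g ^ (i + 1))⁻¹ = g * (g ^ i * a * (g ^ i)⁻¹) * g⁻¹ := by
            rw [pow_succ']; group
        _ = g * (a * c ^ i) * g⁻¹ := by rw [ih]
        _ = (g * a * g⁻¹) * (g * c ^ i * g⁻¹) := by group
        _ = (a * c) * c ^ i := by
            rw [hc]
            congr 1
            have : g * c ^ i * g⁻¹ = (g * c * g⁻¹) ^ i := by
              rw [conj_pow]
            rw [this, hcg]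
        _ = a * c ^ (i + 1) := by rw [pow_succ']; group
  have h2 := h1 (orderOf g)
  rw [pow_orderOf_eq_one] at h2
  simp only [one_mul, inv_one, mul_one] at h2
  have h3 : c ^ orderOf g = 1 := by
    have h4 : a * c ^ orderOf g = a * 1 := by rw [← h2, mul_one]
    exact mul_left_cancel h4
  obtain ⟨m, hm⟩ := hg
  rw [hm, pow_succ, pow_mul, hcc, one_pow, one_mul] at h3
  exact h3

lemma normal_of_sn {H : Type*} [Group H] [Finite H] {L Q : Subgroup H} (hQ : Q.Normal)
    (hQp : IsPGroup 2 Q) (hLQ : L ⊔ Q = ⊤)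
    (hodd : Subgroup.closure {x | x ∈ L ∧ Odd (orderOf x)} = L) (hs : L.IsSubnormal) : L.Normal := by
  classical
  have key : ∀ K : Subgroup H, K.IsSubnormal → L ≤ K → (L.subgroupOf K).Normal → L.Normal := by
    intro K hK
    induction hK with
    | top =>
      intro _ h
      refine ⟨fun x hx g => ?_⟩
      have := h.conj_mem ⟨x, trivial⟩ (by simpa [Subgroup.mem_subgroupOf] using hx) ⟨g, trivial⟩
      simpa [Subgroup.mem_subgroupOf] using this
    | step K K' hle hK' hN ih =>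
      intro hLK hLn
      apply ih (hLK.trans hle)
      -- elements of odd order in `K` lie in `L`
      have hoddK : ∀ u, u ∈ K → Odd (orderOf u) → u ∈ L := by
        intro u hu huo
        have hu2 : u ∈ ((L ⊔ Q : Subgroup H) : Set H) := by
          rw [hLQ]
          trivial
        rw [Subgroup.mul_normal] at hu2
        obtain ⟨l, hl, q, hq, rfl⟩ := Set.mem_mul.mp hu2
        have hqK : q ∈ K := by
          have e : q = l⁻¹ * (l * q) := by group
          rw [e]
          exact K.mul_mem (K.inv_mem (hLK hl)) hu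
        let φ := QuotientGroup.mk' (L.subgroupOf K)
        obtain ⟨c, hc⟩ := hQp ⟨q, hq⟩
        have hc' : q ^ 2 ^ c = 1 := congrArg Subtype.val hc
        have e1 : φ ⟨l * q, hu⟩ = φ ⟨q, hqK⟩ := by
          have e2 : (⟨l * q, hu⟩ : K) = ⟨l, hLK hl⟩ * ⟨q, hqK⟩ := rfl
          rw [e2, map_mul]
          have e3 : φ ⟨l, hLK hl⟩ = 1 := by
            apply (QuotientGroup.eq_one_iff _).mpr
            exact hl
          rw [e3, one_mul]
        have h1 : (φ ⟨l * q, hu⟩) ^ 2 ^ c = 1 := by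
          rw [e1, ← map_pow]
          have : (⟨q, hqK⟩ : K) ^ 2 ^ c = 1 := Subtype.ext hc'
          rw [this, map_one]
        have h2 := orderOf_dvd_of_pow_eq_one h1
        have h3 := orderOf_map_dvd φ (⟨l * q, hu⟩ : K)
        rw [Subgroup.orderOf_mk] at h3
        have h4 : (orderOf (l * q)).Coprime (2 ^ c) :=
          (Nat.Coprime.pow_right c (Nat.coprime_two_right.mpr huo))
        have h5 : orderOf (φ ⟨l * q, hu⟩) = 1 :=
          Nat.Coprime.eq_one_of_dvd (h4.coprime_dvd_left h3) h2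
        have h6 := orderOf_eq_one_iff.mp h5
        have h7 := (QuotientGroup.eq_one_iff _).mp h6
        exact h7
      refine ⟨?_⟩
      rintro ⟨x, hxK⟩ hx ⟨y, hy⟩
      have hxL : x ∈ L := hx
      rw [Subgroup.mem_subgroupOf]
      change y * x * y⁻¹ ∈ L
      have hle2 : L ≤ L.comap (MulAut.conj y).toMonoidHom := by
        conv_lhs => rw [← hodd]
        rw [Subgroup.closure_le]
        rintro u ⟨hu, huo⟩
        change y * u * y⁻¹ ∈ L
        apply hoddK
        · have h1 := hN.conj_mem ⟨u, hle (hLK hu)⟩ (by rw [Subgroup.mem_subgroupOf]; exact hLK hu) ⟨y, hy⟩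
          rw [Subgroup.mem_subgroupOf] at h1
          exact h1
        · have : orderOf (y * u * y⁻¹) = orderOf u := by
            have := orderOf_injective (MulAut.conj y).toMonoidHom (MulAut.conj y).injective u
            simpa using this
          rw [this]
          exact huo
      exact hle2 hxL
  have hnorm := key L hs le_rfl (by
    refine ⟨fun x hx g => ?_⟩
    rw [Subgroup.mem_subgroupOf] at hx ⊢
    exact L.mul_mem (L.mul_mem g.2 hx) (L.inv_mem g.2))
  exact hnorm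

open Cfsg in
lemma cent_conj_mem {G : Type*} [Group G] {R : Subgroup G} {y x : G}
    (hy : y ∈ Subgroup.normalizer (R : Set G)) (hx : x ∈ Subgroup.centralizer (R : Set G)) :
    y * x * y⁻¹ ∈ Subgroup.centralizer (R : Set G) := by
  rw [Subgroup.mem_centralizer_iff] at hx ⊢
  intro r hr
  have h1 : y⁻¹ * r * y ∈ R := by
    have := (Subgroup.mem_normalizer_iff.mp (Subgroup.inv_mem _ hy) r).mp hr
    simpa using this
  have h2 := hx _ h1
  calc r * (y * x * y⁻¹) = y * ((y⁻¹ * r * y) * x) * y⁻¹ := by group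
    _ = y * (x * (y⁻¹ * r * y)) * y⁻¹ := by rw [h2]
    _ = y * x * y⁻¹ * r := by group

open Cfsg in
theorem moduleV_step {G : Type*} [Group G] [Finite G] {L K : Subgroup G} (hLK : L ≤ K)
    (hQL : pCoreTwoOf K ≤ Subgroup.normalizer (L : Set G))
    (hC : K ⊓ Subgroup.centralizer (pCoreTwoOf K : Set G) ≤ pCoreTwoOf K)
    (hodd : oddGenerated L = L) (hW : moduleV K = ⊥) : moduleV L = ⊥ := by
  classical
  haveI : Fact (Nat.Prime 2) := ⟨Nat.prime_two⟩
  set Q : Subgroup G := pCoreTwoOf K with hQ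
  set R : Subgroup G := pCoreTwoOf L with hR
  have hQp : IsPGroup 2 Q := Cfsg.Agent.H13.isPGroup_pCoreOf K
  have hRp : IsPGroup 2 R := Cfsg.Agent.H13.isPGroup_pCoreOf L
  have hKQ : K ≤ Subgroup.normalizer (Q : Set G) := Cfsg.Agent.H13.pCoreOf_normalized K
  have hLQ : L ≤ Subgroup.normalizer (Q : Set G) := hLK.trans hKQ
  have hRL : R ≤ L := Cfsg.Agent.H13.pCoreOf_le L
  have hLR : L ≤ Subgroup.normalizer (R : Set G) := Cfsg.Agent.H13.pCoreOf_normalized L
  have hQR : Q ≤ Subgroup.normalizer (R : Set G) :=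
    hQL.trans (Cfsg.Agent.H13.normalizer_le_normalizer_pCoreOf L)
  have hDR : L ⊓ Q ≤ R := by
    apply Cfsg.Agent.H13.le_pCoreOf inf_le_left (hQp.to_le inf_le_right)
    intro x hx
    rw [Subgroup.mem_normalizer_iff]
    intro h
    constructor
    · rintro ⟨h1, h2⟩
      exact ⟨L.mul_mem (L.mul_mem hx h1) (L.inv_mem hx),
        (Subgroup.mem_normalizer_iff.mp (hLQ hx) h).mp h2⟩
    · rintro ⟨h1, h2⟩
      refine ⟨?_, (Subgroup.mem_normalizer_iff.mp (hLQ hx) h).mpr h2⟩
      have e : h = x⁻¹ * (x * h * x⁻¹) * x := by group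
      rw [e]
      exact L.mul_mem (L.mul_mem (L.inv_mem hx) h1) hx
  set V : Subgroup G := omegaOne 2 (R ⊓ Subgroup.centralizer (R : Set G)) with hV
  have hVprop : ∀ v ∈ V, v ∈ R ∧ v ∈ Subgroup.centralizer (R : Set G) ∧ v ^ 2 = 1 := by
    intro v hv
    induction hv using Subgroup.closure_induction with
    | mem x hx => exact ⟨hx.1.1, hx.1.2, hx.2⟩
    | one => exact ⟨R.one_mem, Subgroup.one_mem _, one_pow _⟩
    | mul x y _ _ hx hy =>
      refine ⟨R.mul_mem hx.1 hy.1, Subgroup.mul_mem _ hx.2.1 hy.2.1, ?_⟩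
      have hcomm : x * y = y * x := ((Subgroup.mem_centralizer_iff.mp hx.2.1) y hy.1).symm
      have : Commute x y := hcomm
      rw [this.mul_pow, hx.2.2, hy.2.2, one_mul]
    | inv x _ hx =>
      refine ⟨R.inv_mem hx.1, Subgroup.inv_mem _ hx.2.1, ?_⟩
      rw [inv_pow, hx.2.2, inv_one]
  have hVn : ∀ y ∈ Subgroup.normalizer (R : Set G), ∀ v ∈ V, y * v * y⁻¹ ∈ V := by
    intro y hy v hv
    induction hv using Subgroup.closure_induction with
    | mem x hx =>
      apply Subgroup.subset_closure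
      refine ⟨⟨(Subgroup.mem_normalizer_iff.mp hy x).mp hx.1.1, cent_conj_mem hy hx.1.2⟩, ?_⟩
      rw [conj_pow, hx.2]
      group
    | one => simp
    | mul a b _ _ ha hb =>
      have e : y * (a * b) * y⁻¹ = (y * a * y⁻¹) * (y * b * y⁻¹) := by group
      rw [e]
      exact V.mul_mem ha hb
    | inv a _ ha =>
      have e : y * a⁻¹ * y⁻¹ = (y * a * y⁻¹)⁻¹ := by group
      rw [e]
      exact V.inv_mem ha
  -- the key computation
  have hcomm : ∀ x ∈ L, ∀ v ∈ V, ∀ q ∈ Q, x * (q * v * q⁻¹ * v⁻¹) * x⁻¹ = q * v * q⁻¹ * v⁻¹ →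
      q * (v⁻¹ * (x * v * x⁻¹)) * q⁻¹ = v⁻¹ * (x * v * x⁻¹) := by
    intro x hx v hv q hq hb
    have hd : q⁻¹ * (x⁻¹ * q * x) ∈ L ⊓ Q := by
      constructor
      · have h1 : q⁻¹ * x⁻¹ * q⁻¹⁻¹ ∈ L :=
          (Subgroup.mem_normalizer_iff.mp (Subgroup.inv_mem _ (hQL hq)) x⁻¹).mp (L.inv_mem hx)
        have e : q⁻¹ * (x⁻¹ * q * x) = (q⁻¹ * x⁻¹ * q⁻¹⁻¹) * x := by group
        rw [e]
        exact L.mul_mem h1 hx
      · have h1 : x⁻¹ * q * x⁻¹⁻¹ ∈ Q :=
          (Subgroup.mem_normalizer_iff.mp (Subgroup.inv_mem _ (hLQ hx)) q).mp hq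
        rw [inv_inv] at h1
        exact Q.mul_mem (Q.inv_mem hq) h1
    set d := q⁻¹ * (x⁻¹ * q * x) with hddef
    have hdv : d * v = v * d := (Subgroup.mem_centralizer_iff.mp (hVprop v hv).2.1) d (hDR hd)
    set b := q * v * q⁻¹ * v⁻¹ with hbdef
    have h1 : q * v * q⁻¹ = b * v := by rw [hbdef]; group
    have h2 : q * (x * v * x⁻¹) * q⁻¹ = b * (x * v * x⁻¹) := by
      have e1 : q * x = x * q * d := by rw [hddef]; group
      have e2 : q * (x * v * x⁻¹) * q⁻¹ = x * q * (d * v * d⁻¹) * q⁻¹ * x⁻¹ := by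
        calc q * (x * v * x⁻¹) * q⁻¹ = (q * x) * v * (q * x)⁻¹ := by group
          _ = (x * q * d) * v * (x * q * d)⁻¹ := by rw [e1]
          _ = _ := by group
      have e3 : d * v * d⁻¹ = v := by rw [hdv]; group
      rw [e2, e3]
      calc x * q * v * q⁻¹ * x⁻¹ = x * (q * v * q⁻¹) * x⁻¹ := by group
        _ = x * (b * v) * x⁻¹ := by rw [h1]
        _ = (x * b * x⁻¹) * (x * v * x⁻¹) := by group
        _ = _ := by rw [hb]
    calc q * (v⁻¹ * (x * v * x⁻¹)) * q⁻¹ = (q * v * q⁻¹)⁻¹ * (q * (x * v * x⁻¹) * q⁻¹) := by group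
      _ = (b * v)⁻¹ * (b * (x * v * x⁻¹)) := by rw [h1, h2]
      _ = _ := by group
  -- step 1: `L` centralizes `V ∩ Q`
  have hstep1 : ∀ g ∈ L, Odd (orderOf g) → ∀ a ∈ V, a ∈ Q → g * a * g⁻¹ = a := by
    intro g hg hgo
    have hnil : Group.IsNilpotent Q := hQp.isNilpotent
    obtain ⟨n, hn⟩ := Group.IsNilpotent.nilpotent (G := Q)
    have hind : ∀ (m : ℕ) (a : Q), a ∈ Subgroup.upperCentralSeries Q m → (a : G) ∈ V →
        g * (a : G) * g⁻¹ = a := by
      intro m
      induction m with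
      | zero =>
        intro a ha _
        have : a = 1 := by
          rw [Subgroup.upperCentralSeries_zero] at ha
          exact Subgroup.mem_bot.mp ha
        rw [this]
        simp
      | succ m ih =>
        intro a ha haV
        have hfix : ∀ q ∈ Q, g * ((q : G) * a * q⁻¹ * (a : G)⁻¹) * g⁻¹ = q * a * q⁻¹ * (a : G)⁻¹ := by
          intro q hq
          have h1 := (Subgroup.mem_upperCentralSeries_succ_iff (G := Q) (n := m) (x := a)).mp ha ⟨q, hq⟩
          have h2 : ((a : G) * q * (a : G)⁻¹ * q⁻¹) ∈ V := by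
            have h3 : q * (a : G)⁻¹ * q⁻¹ ∈ V := hVn q (hQR hq) _ (V.inv_mem haV)
            have e : (a : G) * q * (a : G)⁻¹ * q⁻¹ = a * (q * (a : G)⁻¹ * q⁻¹) := by group
            rw [e]
            exact V.mul_mem haV h3
          have h4 : g * ((a : G) * q * (a : G)⁻¹ * q⁻¹) * g⁻¹ = (a : G) * q * (a : G)⁻¹ * q⁻¹ :=
            ih _ h1 h2
          have e : (q : G) * a * q⁻¹ * (a : G)⁻¹ = ((a : G) * q * (a : G)⁻¹ * q⁻¹)⁻¹ := by group
          rw [e]
          have e2 : g * ((a : G) * q * (a : G)⁻¹ * q⁻¹)⁻¹ * g⁻¹ =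
              (g * ((a : G) * q * (a : G)⁻¹ * q⁻¹) * g⁻¹)⁻¹ := by group
          rw [e2, h4]
        set c : G := (a : G)⁻¹ * (g * a * g⁻¹) with hc
        have hga : g * (a : G) * g⁻¹ ∈ V := hVn g (hLR hg) _ haV
        have hcV : c ∈ V := V.mul_mem (V.inv_mem haV) hga
        have hcQ : c ∈ Q := Q.mul_mem (Q.inv_mem a.2)
          ((Subgroup.mem_normalizer_iff.mp (hLQ hg) a).mp a.2)
        have hcC : c ∈ Subgroup.centralizer (Q : Set G) := by
          rw [Subgroup.mem_centralizer_iff]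
          intro q hq
          have := hcomm g hg a haV q hq (hfix q hq)
          calc q * c = (q * c * q⁻¹) * q := by group
            _ = c * q := by rw [hc, this]
        have hcW : c ∈ omegaOne 2 (Q ⊓ Subgroup.centralizer (Q : Set G)) := Subgroup.subset_closure ⟨⟨hcQ, hcC⟩, (hVprop c hcV).2.2⟩
        have hcg : g * c * g⁻¹ = c := by
          have h1 : ⁅c, g⁆ ∈ moduleV K := Subgroup.commutator_mem_commutator hcW (hLK hg)
          rw [hW] at h1
          have h2 := Subgroup.mem_bot.mp h1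
          rw [commutatorElement_eq_one_iff_mul_comm] at h2
          rw [← h2]
          group
        have hc1 : c = 1 := eq_one_of_conj_mul hgo (a := (a : G)) (by rw [hc]; group) hcg (hVprop c hcV).2.2
        have : (a : G)⁻¹ * (g * a * g⁻¹) = 1 := hc1
        have h5 := inv_mul_eq_one.mp this
        exact h5.symm
    intro a haV haQ
    refine hind n ⟨a, haQ⟩ ?_ haV
    rw [hn]
    trivial
  have hAcent : ∀ a ∈ V, a ∈ Q → ∀ x ∈ L, x * a * x⁻¹ = a := by
    intro a haV haQ x hx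
    have hle : oddGenerated L ≤ Subgroup.centralizer ({a} : Set G) := by
      rw [oddGenerated, Subgroup.closure_le]
      rintro g ⟨hg, hgo⟩
      rw [SetLike.mem_coe, Subgroup.mem_centralizer_singleton_iff]
      have := hstep1 g hg hgo a haV haQ
      calc g * a = (g * a * g⁻¹) * g := by group
        _ = a * g := by rw [this]
    rw [hodd] at hle
    have h1 := Subgroup.mem_centralizer_singleton_iff.mp (hle hx)
    rw [h1]
    group
  -- step 2
  have hstep2 : ∀ x ∈ L, ∀ v ∈ V, x * (v⁻¹ * (x * v * x⁻¹)) * x⁻¹ = v⁻¹ * (x * v * x⁻¹) ∧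
      (∀ y ∈ L, y * (v⁻¹ * (x * v * x⁻¹)) * y⁻¹ = v⁻¹ * (x * v * x⁻¹)) := by
    intro x hx v hv
    have hxv : x * v * x⁻¹ ∈ V := hVn x (hLR hx) _ hv
    set c : G := v⁻¹ * (x * v * x⁻¹) with hc
    have hcV : c ∈ V := V.mul_mem (V.inv_mem hv) hxv
    have hcC : c ∈ Subgroup.centralizer (Q : Set G) := by
      rw [Subgroup.mem_centralizer_iff]
      intro q hq
      have hbV : q * v * q⁻¹ * v⁻¹ ∈ V := V.mul_mem (hVn q (hQR hq) v hv) (V.inv_mem hv)
      have hbQ : q * v * q⁻¹ * v⁻¹ ∈ Q := by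
        have h1 : v * q⁻¹ * v⁻¹ ∈ Q :=
          (Subgroup.mem_normalizer_iff.mp (hLQ (hRL (hVprop v hv).1)) _).mp (Q.inv_mem hq)
        have e : q * v * q⁻¹ * v⁻¹ = q * (v * q⁻¹ * v⁻¹) := by group
        rw [e]
        exact Q.mul_mem hq h1
      have := hcomm x hx v hv q hq (hAcent _ hbV hbQ x hx)
      calc q * c = (q * c * q⁻¹) * q := by group
        _ = c * q := by rw [hc, this]
    have hcQ : c ∈ Q := hC ⟨hLK (hRL (hVprop c hcV).1), hcC⟩
    exact ⟨hAcent c hcV hcQ x hx, fun y hy => hAcent c hcV hcQ y hy⟩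
  have hfinal : L ≤ Subgroup.centralizer (V : Set G) := by
    have hle : oddGenerated L ≤ Subgroup.centralizer (V : Set G) := by
      rw [oddGenerated, Subgroup.closure_le]
      rintro g ⟨hg, hgo⟩
      rw [SetLike.mem_coe, Subgroup.mem_centralizer_iff]
      intro v hv
      obtain ⟨h1, -⟩ := hstep2 g hg v hv
      have hcV : v⁻¹ * (g * v * g⁻¹) ∈ V := V.mul_mem (V.inv_mem hv) (hVn g (hLR hg) v hv)
      have hc1 := eq_one_of_conj_mul hgo (a := v) (c := v⁻¹ * (g * v * g⁻¹)) (by group) h1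
        (hVprop _ hcV).2.2
      have h2 := inv_mul_eq_one.mp hc1
      calc v * g = (g * v * g⁻¹) * g := by rw [← h2]
        _ = g * v := by group
    rwa [hodd] at hle
  rw [moduleV, ← hV]
  rw [eq_bot_iff, Subgroup.commutator_le]
  intro v hv x hx
  have := (Subgroup.mem_centralizer_iff.mp (hfinal hx)) v hv
  rw [commutatorElement_eq_one_iff_mul_comm.mpr this]
  exact Subgroup.one_mem _

open Cfsg in
lemma oddGenerated_of_perfect {G : Type*} [Group G] [Finite G] {K : Subgroup G} (hK : ⁅K, K⁆ = K) :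
    oddGenerated K = K := by
  classical
  have hNK : oddGenerated K ≤ K := by
    rw [oddGenerated, Subgroup.closure_le]
    exact fun x hx => hx.1
  refine le_antisymm hNK ?_
  set N := oddGenerated K with hN
  have hnorm : (N.subgroupOf K).Normal := by
    rw [Subgroup.normal_subgroupOf_iff_le_normalizer hNK]
    intro k hk
    apply Cfsg.Agent.H13.mem_normalizer_of_map_conj_le
    rw [hN, oddGenerated, MonoidHom.map_closure, Subgroup.closure_le]
    rintro _ ⟨x, ⟨hx1, hx2⟩, rfl⟩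
    apply Subgroup.subset_closure
    refine ⟨K.mul_mem (K.mul_mem hk hx1) (K.inv_mem hk), ?_⟩
    have : orderOf (k * x * k⁻¹) = orderOf x := by
      have := orderOf_injective (MulAut.conj k).toMonoidHom (MulAut.conj k).injective x
      simpa using this
    change Odd (orderOf (k * x * k⁻¹))
    rw [this]
    exact hx2
  have hp : IsPGroup 2 (↥K ⧸ N.subgroupOf K) := by
    intro x
    obtain ⟨⟨k, hk⟩, rfl⟩ := QuotientGroup.mk'_surjective _ x
    obtain ⟨c, m₀, hm₀, hc⟩ := Nat.exists_eq_pow_mul_and_not_dvd (orderOf_pos k).ne' 2 (by norm_num)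
    refine ⟨c, ?_⟩
    rw [← map_pow]
    apply (QuotientGroup.eq_one_iff _).mpr
    rw [Subgroup.mem_subgroupOf]
    apply Subgroup.subset_closure
    refine ⟨K.pow_mem hk _, ?_⟩
    have h1 : (k ^ 2 ^ c) ^ m₀ = 1 := by
      rw [← pow_mul, ← hc, pow_orderOf_eq_one]
    have h2 := orderOf_dvd_of_pow_eq_one h1
    have h3 : Odd m₀ := Nat.odd_iff.mpr (by omega)
    exact Odd.of_dvd_nat h3 h2
  haveI hperf : Group.IsPerfect K := Subgroup.isPerfect_iff.mpr hK
  haveI : Group.IsNilpotent (↥K ⧸ N.subgroupOf K) := hp.isNilpotent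
  have hsub : Subsingleton (↥K ⧸ N.subgroupOf K) := by
    by_contra hnt
    rw [not_subsingleton_iff_nontrivial] at hnt
    exact Group.IsPerfect.not_isSolvable (G := ↥K ⧸ N.subgroupOf K) inferInstance
  intro k hk
  have h1 : (QuotientGroup.mk (⟨k, hk⟩ : K) : ↥K ⧸ N.subgroupOf K) = 1 := Subsingleton.elim _ _
  have h2 := (QuotientGroup.eq_one_iff _).mp h1
  exact h2

open Cfsg in
lemma calL_data {G : Type*} [Group G] {S L : Subgroup G} (h : L ∈ calL S) :
    L ≠ ⊥ ∧ ⁅L, L⁆ = L ∧ (L.subgroupOf (L ⊔ S)).IsSubnormal := by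
  obtain ⟨⟨h1, h2, h3, -⟩, -, -⟩ := h
  refine ⟨?_, ?_, h3⟩
  · rintro rfl
    exact h1 (Subgroup.bot_subgroupOf _)
  · have h4 := congrArg (Subgroup.map (L ⊔ S).subtype) h2
    rw [Subgroup.map_commutator, Subgroup.map_subgroupOf_eq_of_le le_sup_left] at h4
    exact h4

open Cfsg in
lemma charP_of_calL {G : Type*} [Group G] [Finite G] {T : Sylow 2 G} {K : Subgroup G}
    (hE : IsOfEvenCharacteristic G) (hK : K ∈ calL (T : Subgroup G)) :
    Cfsg.Agent.H13.IsCharP 2 K ∧ pCoreTwoOf K ≤ (T : Subgroup G) := by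
  classical
  haveI : Fact (Nat.Prime 2) := ⟨Nat.prime_two⟩
  obtain ⟨hKne, hKp, hs⟩ := calL_data hK
  obtain ⟨-, ⟨P, hP⟩, hO⟩ := hK
  have hTM : (T : Subgroup G) ≤ (K ⊔ (T : Subgroup G)) := le_sup_right
  have hKM : K ≤ (K ⊔ (T : Subgroup G)) := le_sup_left
  set R₀ : Subgroup G := Cfsg.pCoreOf 2 (K ⊔ (T : Subgroup G)) with hR₀
  have hR₀ne : R₀ ≠ ⊥ := by
    intro h
    apply hO
    have h2 : (pCore 2 ↥(K ⊔ (T : Subgroup G))).map (K ⊔ (T : Subgroup G)).subtype = ⊥ := h
    exact (Subgroup.map_eq_bot_iff_of_injective _ (K ⊔ (T : Subgroup G)).subtype_injective).mp h2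
  have hMA : (K ⊔ (T : Subgroup G)) ≤ Subgroup.normalizer (R₀ : Set G) := Cfsg.Agent.H13.pCoreOf_normalized (K ⊔ (T : Subgroup G))
  have hTA : (T : Subgroup G) ≤ Subgroup.normalizer (R₀ : Set G) := hTM.trans hMA
  have hA : Cfsg.Agent.H13.IsCharP 2 (Subgroup.normalizer (R₀ : Set G)) :=
    hE _ ⟨R₀, Cfsg.Agent.H13.isPGroup_pCoreOf (K ⊔ (T : Subgroup G)), hR₀ne, rfl⟩ ⟨T, hTA⟩
  have hOT : Cfsg.pCoreOf 2 (Subgroup.normalizer (R₀ : Set G)) ≤ (T : Subgroup G) := by
    rintro _ ⟨y, hy, rfl⟩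
    have h1 := Cfsg.Agent.H13.pCore_le_sylow (T.subtype hTA) hy
    rw [Sylow.coe_subtype] at h1
    exact h1
  have hMc : Cfsg.Agent.H13.IsCharP 2 ↥(K ⊔ (T : Subgroup G)) :=
    Cfsg.Agent.H13.isCharP_of_le hA hMA (hOT.trans (hTM.trans Subgroup.le_normalizer))
  have hK1 := Cfsg.Agent.H13.isCharP_of_subnormal hMc (K.subgroupOf (K ⊔ (T : Subgroup G))) hs
  refine ⟨Cfsg.Agent.H13.charP_of_mulEquiv (Subgroup.subgroupOfEquivOfLe hKM) hK1, ?_⟩
  have hQK : pCoreTwoOf K ≤ K := Cfsg.Agent.H13.pCoreOf_le K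
  have hKQ : K ≤ Subgroup.normalizer (pCoreTwoOf K : Set G) := Cfsg.Agent.H13.pCoreOf_normalized K
  have hQp : IsPGroup 2 (pCoreTwoOf K) := Cfsg.Agent.H13.isPGroup_pCoreOf K
  set A' : Subgroup ↥(K ⊔ (T : Subgroup G)) := (pCoreTwoOf K).subgroupOf (K ⊔ (T : Subgroup G)) with hA'
  have hA'J : A' ≤ K.subgroupOf (K ⊔ (T : Subgroup G)) := by
    intro x hx
    rw [Subgroup.mem_subgroupOf] at hx ⊢
    exact hQK hx
  have hA'n : (A'.subgroupOf (K.subgroupOf (K ⊔ (T : Subgroup G)))).Normal := by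
    rw [Subgroup.normal_subgroupOf_iff_le_normalizer hA'J]
    intro m hm
    rw [Subgroup.mem_subgroupOf] at hm
    rw [Subgroup.mem_normalizer_iff]
    intro h
    change (h : G) ∈ pCoreTwoOf K ↔ (m : G) * h * (m : G)⁻¹ ∈ pCoreTwoOf K
    exact Subgroup.mem_normalizer_iff.mp (hKQ hm) _
  have hA's : A'.IsSubnormal :=
    (Subgroup.Normal.isSubnormal hA'n).trans hA'J hs
  have hA'p : IsPGroup 2 A' := hQp.comap_of_injective (K ⊔ (T : Subgroup G)).subtype Subtype.val_injective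
  have h3 := Cfsg.Agent.H12.le_pCore_of_isSubnormal hA's hA'p
  intro q hq
  have h4 : (⟨q, hKM (hQK hq)⟩ : ↥(K ⊔ (T : Subgroup G))) ∈ A' := by
    rw [hA', Subgroup.mem_subgroupOf]
    exact hq
  have h5 := Cfsg.Agent.H13.pCore_le_sylow P (h3 h4)
  rw [hP, Subgroup.mem_subgroupOf] at h5
  exact h5


/-- Let G be a non-abelian finite simple QTKE-group and T a Sylow 2-subgroup of G, and let L be a member of ℒ_f(G, T) (a member of ℒ(G, T) that lies in 𝒳 — L ≠ 1, L = O²(L), F*(L) = O₂(L) — and acts nontrivially on Ω₁(Z(O₂(L)))). Then (1) every member K of ℒ(G, T) containing L is again in ℒ_f(G, T) (a sharper form of (1) also compares the modules [Ω₁(Z(R)), L] and [Ω₁(Z(R')), K] for suitable 2-subgroups R, R'; that comparison is not included); and (2) if L is maximal under inclusion among the members of ℒ_f(G, T), then L is a maximal member of ℒ(G, T), hence a member of ℒ_f*(G, T). -/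
theorem result {G : Type*} [Group G] [Finite G] [IsSimpleGroup G]
    (hG : ¬ IsMulCommutative G) (hQ : Cfsg.IsQTKE G) (T : Sylow 2 G) (L : Subgroup G)
    (hL : L ∈ Cfsg.calLf (T : Subgroup G)) :
    (∀ K ∈ Cfsg.calL (T : Subgroup G), L ≤ K → K ∈ Cfsg.calLf (T : Subgroup G)) ∧
    ((∀ K ∈ Cfsg.calLf (T : Subgroup G), L ≤ K → K = L) → L ∈ Cfsg.calLfMax (T : Subgroup G)) := by
  classical
  haveI : Fact (Nat.Prime 2) := ⟨Nat.prime_two⟩
  have hE := hQ.2.2
  have part1 : ∀ K ∈ Cfsg.calL (T : Subgroup G), L ≤ K → K ∈ Cfsg.calLf (T : Subgroup G) := by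
    intro K hK hLK
    obtain ⟨hKne, hKp, -⟩ := calL_data hK
    obtain ⟨hKc, hQT⟩ := charP_of_calL hE hK
    obtain ⟨hLne, hLp, hLs⟩ := calL_data hL.1
    have hLodd := oddGenerated_of_perfect hLp
    refine ⟨hK, ⟨hKne, oddGenerated_of_perfect hKp, (Cfsg.Agent.H13.fstar_eq_pCore_iff).mpr hKc⟩, ?_⟩
    intro hV
    apply hL.2.2
    refine moduleV_step hLK ?_ ((Cfsg.Agent.H13.isCharP_subgroup_iff K).mp hKc) hLodd hV
    -- `O_2(K)` normalizes `L`
    set Q : Subgroup G := Cfsg.pCoreTwoOf K with hQdef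
    have hQp : IsPGroup 2 Q := Cfsg.Agent.H13.isPGroup_pCoreOf K
    have hKQ : K ≤ Subgroup.normalizer (Q : Set G) := Cfsg.Agent.H13.pCoreOf_normalized K
    set X : Subgroup G := L ⊔ Q with hX
    have hXle : X ≤ L ⊔ (T : Subgroup G) := sup_le le_sup_left (hQT.trans le_sup_right)
    have hs : (L.subgroupOf X).IsSubnormal := Cfsg.Agent.H05.sn_restrict hXle hLs
    have hLX : L ≤ X := le_sup_left
    have hQX : Q ≤ X := le_sup_right
    have hQn : (Q.subgroupOf X).Normal :=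
      (Subgroup.normal_subgroupOf_iff_le_normalizer hQX).mpr
        (sup_le (hLK.trans hKQ) Subgroup.le_normalizer)
    have hQp' : IsPGroup 2 (Q.subgroupOf X) := hQp.comap_of_injective X.subtype Subtype.val_injective
    have hsup : L.subgroupOf X ⊔ Q.subgroupOf X = ⊤ := by
      apply Subgroup.map_injective X.subtype_injective
      rw [Subgroup.map_sup, Subgroup.map_subgroupOf_eq_of_le hLX,
        Subgroup.map_subgroupOf_eq_of_le hQX, ← MonoidHom.range_eq_map, Subgroup.range_subtype]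
    have hodd' : Subgroup.closure {x | x ∈ L.subgroupOf X ∧ Odd (orderOf x)} = L.subgroupOf X := by
      apply Subgroup.map_injective X.subtype_injective
      rw [MonoidHom.map_closure, Subgroup.map_subgroupOf_eq_of_le hLX]
      have e : X.subtype '' {x | x ∈ L.subgroupOf X ∧ Odd (orderOf x)} =
          {x | x ∈ L ∧ Odd (orderOf x)} := by
        ext y
        constructor
        · rintro ⟨z, ⟨hz1, hz2⟩, rfl⟩
          exact ⟨hz1, by rw [Subgroup.coe_subtype, Subgroup.orderOf_coe]; exact hz2⟩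
        · rintro ⟨hy1, hy2⟩
          refine ⟨⟨y, hLX hy1⟩, ⟨hy1, ?_⟩, rfl⟩
          rw [Subgroup.orderOf_mk]
          exact hy2
      rw [e]
      exact hLodd
    have hLn := normal_of_sn hQn hQp' hsup hodd' hs
    exact hQX.trans ((Subgroup.normal_subgroupOf_iff_le_normalizer hLX).mp hLn)
  refine ⟨part1, fun hmax => ⟨⟨hL.1, fun K hK hLK => hmax K (part1 K hK hLK) hLK⟩, hL.2⟩⟩

end Cfsg.Agent.S1851
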