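import Cfsg.Statements.S1958
import Cfsg.Agent.Lib.H01.Coprime4
import Cfsg.Agent.Lib.H06.CoprimeCoset
import Cfsg.Agent.Lib.H06.PSolvable
import Cfsg.Agent.Lib.H06.FittingHall
import Cfsg.Agent.Lib.H08.HallHigman
import Cfsg.Agent.Lib.H08.PCoreL
import Cfsg.Agent.Lib.H01.Fitting
import Cfsg.Agent.Lib.H03.PConstr

set_option autoImplicit false
open Cfsg

namespace Cfsg.Agent.S1958

/-- Let `G` be a finite group, `p` a prime, and `x, y` commuting elements of order `p` whose centralizers `C_G(x)` and `C_G(y)` are both solvable. Then `O_{p'}(C_G(x)) ∩ C_G(y) = O_{p'}(C_G(y)) ∩ C_G(x)` (balance). -/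
theorem result {G : Type*} [Group G] [Finite G]
    (p : ℕ) [Fact p.Prime] (x y : G) (hx : orderOf x = p) (hy : orderOf y = p) (hxy : x * y = y * x)
    (hCx : Group.IsSolvable ↥(Subgroup.centralizer ({x} : Set G))) (hCy : Group.IsSolvable ↥(Subgroup.centralizer ({y} : Set G))) :
    Cfsg.centralizerPPrimeCore p x ⊓ Subgroup.centralizer {y} = Cfsg.centralizerPPrimeCore p y ⊓ Subgroup.centralizer {x} := by
  have key : ∀ (x y : G), orderOf x = p → orderOf y = p → x * y = y * x →
      Group.IsSolvable ↥(Subgroup.centralizer ({y} : Set G)) →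
      Cfsg.centralizerPPrimeCore p x ⊓ Subgroup.centralizer {y} ≤ Cfsg.centralizerPPrimeCore p y := by
    clear hx hy hxy hCx hCy x y
    intro x y hx hy hxy hCy
    classical
    set C := Subgroup.centralizer ({y} : Set G) with hC
    haveI : Group.IsSolvable C := hCy
    set N := Cfsg.pPrimeCore p C with hN
    haveI hNn : N.Normal := Cfsg.Agent.H03.pPrimeCore_normal'
    have hNc : (Nat.card N).Coprime p := Cfsg.Agent.H06.coprime_card_pPrimeCore p
    let π := QuotientGroup.mk' N
    have hπs : Function.Surjective π := QuotientGroup.mk'_surjective _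
    have hker : π.ker = N := QuotientGroup.ker_mk' _
    have hbot : Cfsg.pPrimeCore p (C ⧸ N) = ⊥ := Cfsg.Agent.H08.pPrimeCore_quotient_eq_bot p
    haveI : Group.IsSolvable (C ⧸ N) := inferInstance
    have hsol := Cfsg.Agent.H06.isPSolvable_of_isSolvable p (C ⧸ N)
    have hhh := Cfsg.Agent.H08.hall_higman hsol hbot
    set U := Cfsg.pCore p (C ⧸ N) with hU
    haveI hUn : U.Normal := Cfsg.Agent.H01.pCore_normal p
    have hUp : IsPGroup p U := Cfsg.Agent.H01.pCore_isPGroup p
    -- the images
    have hyC : ∀ z : G, z ∈ C ↔ z * y = y * z := by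
      intro z
      rw [hC, Subgroup.mem_centralizer_singleton_iff]
    let x' : C := ⟨x, (hyC x).2 hxy⟩
    set X := Subgroup.centralizer ({x} : Set G) with hX
    haveI hXn : (Cfsg.pPrimeCore p X).Normal := Cfsg.Agent.H03.pPrimeCore_normal'
    have hXc : (Nat.card (Cfsg.pPrimeCore p X)).Coprime p := Cfsg.Agent.H06.coprime_card_pPrimeCore p
    set Ox := Cfsg.centralizerPPrimeCore p x with hOx
    have hOxX : Ox ≤ X := Subgroup.map_subtype_le _
    have hxX : ∀ z : G, z ∈ X ↔ z * x = x * z := by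
      intro z
      rw [hX, Subgroup.mem_centralizer_singleton_iff]
    have hOxc : (Nat.card Ox).Coprime p := by
      rw [hOx, Cfsg.centralizerPPrimeCore, Subgroup.card_map_of_injective (Subgroup.subtype_injective _)]
      exact hXc
    have hOxconj : ∀ q ∈ X, ∀ d ∈ Ox, q * d * q⁻¹ ∈ Ox := by
      intro q hq d hd
      obtain ⟨d', hd', rfl⟩ := hd
      have := hXn.conj_mem d' hd' ⟨q, hq⟩
      exact ⟨_, this, rfl⟩
    -- the image of `D`
    let D' : Subgroup C := (Ox ⊓ C).subgroupOf C
    let Db : Subgroup (C ⧸ N) := D'.map π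
    have hD'c : (Nat.card D').Coprime p := by
      have h1 : Nat.card D' ∣ Nat.card Ox := by
        have h2 : Nat.card D' = Nat.card (D'.map C.subtype) :=
          (Subgroup.card_map_of_injective (Subgroup.subtype_injective _)).symm
        rw [h2]
        refine Subgroup.card_dvd_of_le ?_
        rintro _ ⟨z, hz, rfl⟩
        exact (Subgroup.mem_subgroupOf.1 hz).1
      exact Nat.Coprime.coprime_dvd_left h1 hOxc
    have hDbc : (Nat.card Db).Coprime p := by
      have h1 : Nat.card Db ∣ Nat.card D' := Subgroup.card_map_dvd _ _ 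
      exact Nat.Coprime.coprime_dvd_left h1 hD'c
    have hp : p.Prime := Fact.out
    have hxbar : (π x') ^ p = 1 := by
      rw [← map_pow]
      have : x' ^ p = 1 := by
        apply Subtype.ext
        show x ^ p = 1
        rw [← hx]
        exact pow_orderOf_eq_one x
      rw [this, map_one]
    have hZp : IsPGroup p (Subgroup.zpowers (π x')) := by
      rw [IsPGroup.iff_orderOf]
      rintro ⟨z, hz⟩
      rw [Subgroup.orderOf_mk]
      obtain ⟨k, rfl⟩ := Subgroup.mem_zpowers_iff.1 hz
      have h1 : (π x' ^ k) ^ p = 1 := by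
        rw [← zpow_natCast, ← zpow_mul, mul_comm, zpow_mul, zpow_natCast, hxbar, one_zpow]
      obtain ⟨m, -, hm⟩ := (Nat.dvd_prime_pow hp).1 (orderOf_dvd_of_pow_eq_one (by simpa using h1) :
        orderOf (π x' ^ k) ∣ p ^ 1)
      exact ⟨m, hm⟩
    have hDcomm : ∀ d ∈ Db, d * π x' = π x' * d := by
      rintro _ ⟨z, hz, rfl⟩
      have h1 := (Subgroup.mem_subgroupOf.1 hz).1
      have h2 : (z : G) * x = x * z := (hxX _).1 (hOxX h1)
      rw [← map_mul, ← map_mul]
      congr 1
      exact Subtype.ext h2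
    have hinter : ∀ z, z ∈ Db ⊓ U → z = 1 := by
      intro z hz
      obtain ⟨k, hk⟩ := hUp ⟨z, hz.2⟩
      have h1 : z ^ p ^ k = 1 := congrArg Subtype.val hk
      have h2 : z ^ Nat.card Db = 1 := by
        have := pow_card_eq_one' (x := (⟨z, hz.1⟩ : Db))
        exact congrArg Subtype.val this
      have h3 : orderOf z ∣ Nat.gcd (p ^ k) (Nat.card Db) :=
        Nat.dvd_gcd (orderOf_dvd_of_pow_eq_one h1) (orderOf_dvd_of_pow_eq_one h2)
      have h4 : Nat.gcd (p ^ k) (Nat.card Db) = 1 :=
        Nat.Coprime.pow_left k hDbc.symm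
      rw [h4, Nat.dvd_one, orderOf_eq_one_iff] at h3
      exact h3
    have hmain : Db ≤ Subgroup.centralizer (U : Set (C ⧸ N)) := by
      refine Cfsg.Agent.H01.thompson_PxQ p (Subgroup.zpowers (π x')) Db U hZp hDbc hUp ?_ ?_ ?_ ?_
      · intro z hz
        rw [Subgroup.mem_centralizer_iff]
        intro d hd
        obtain ⟨k, rfl⟩ := Subgroup.mem_zpowers_iff.1 hz
        exact ((show Commute d (π x') from hDcomm d hd).zpow_right k)
      · rw [Subgroup.normalizer_eq_top]; exact le_top
      · rw [Subgroup.normalizer_eq_top]; exact le_top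
      · rintro qb ⟨hqU, hqc⟩
        rw [Subgroup.mem_centralizer_iff]
        rintro _ ⟨d, hd, rfl⟩
        obtain ⟨q, rfl⟩ := hπs qb
        have hcomm1 : π q * π x' = π x' * π q :=
          (Subgroup.mem_centralizer_iff.1 hqc (π x') (Subgroup.mem_zpowers _)).symm
        have hw : q⁻¹ * (x' * q * x'⁻¹) ∈ N := by
          rw [← hker, MonoidHom.mem_ker, map_mul, map_mul, map_mul, map_inv, map_inv, ← hcomm1]
          group
        have hordx : orderOf x' = p := by
          rw [← hx]
          exact Subgroup.orderOf_mk x _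
        obtain ⟨n, hn, hcomm⟩ := Cfsg.Agent.H06.exists_fixed_of_coset (g := x')
          (fun a ha => hNn.conj_mem a ha x') (by rw [hordx]; exact hNc.symm) hw
        have hq1 : π (q * n) = π q := by
          rw [map_mul]
          have : π n = 1 := by rw [← MonoidHom.mem_ker, hker]; exact hn
          rw [this, mul_one]
        have hq1x : ((q * n : C) : G) ∈ X := (hxX _).2 (congrArg Subtype.val hcomm)
        have hd1 := Subgroup.mem_subgroupOf.1 hd
        have hcD : d * ((q * n) * d⁻¹ * (q * n)⁻¹) ∈ D' := by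
          rw [Subgroup.mem_subgroupOf]
          refine ⟨Ox.mul_mem hd1.1 ?_, (d * ((q * n) * d⁻¹ * (q * n)⁻¹)).2⟩
          exact hOxconj _ hq1x _ (Ox.inv_mem hd1.1)
        have hcU : π (d * ((q * n) * d⁻¹ * (q * n)⁻¹)) ∈ U := by
          rw [map_mul, map_mul, map_mul, map_inv, map_inv, hq1]
          have h3 := hUn.conj_mem _ hqU (π d)
          have e : π d * (π q * (π d)⁻¹ * (π q)⁻¹) = π d * π q * (π d)⁻¹ * (π q)⁻¹ := by group
          rw [e]
          exact U.mul_mem h3 (U.inv_mem hqU)
        have hc1 : π (d * ((q * n) * d⁻¹ * (q * n)⁻¹)) = 1 := hinter _ ⟨⟨_, hcD, rfl⟩, hcU⟩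
        rw [map_mul, map_mul, map_mul, map_inv, map_inv, hq1] at hc1
        have : π d * π q = π q * π d := by
          have h5 : π d * (π q * (π d)⁻¹ * (π q)⁻¹) * (π q * π d) = 1 * (π q * π d) := by rw [hc1]
          simpa [mul_assoc] using h5
        exact this
    intro d hd
    have hdC : d ∈ C := hd.2
    have hm : π ⟨d, hdC⟩ ∈ Db := ⟨⟨d, hdC⟩, Subgroup.mem_subgroupOf.2 hd, rfl⟩
    have h1 : π ⟨d, hdC⟩ = 1 := hinter _ ⟨hm, hhh (hmain hm)⟩
    rw [← MonoidHom.mem_ker, hker] at h1
    exact ⟨_, h1, rfl⟩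
  refine le_antisymm (le_inf (key x y hx hy hxy hCy) (inf_le_left.trans ?_))
    (le_inf (key y x hy hx hxy.symm hCx) (inf_le_left.trans ?_))
  · exact Subgroup.map_subtype_le _
  · exact Subgroup.map_subtype_le _

end Cfsg.Agent.S1958
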