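import Cfsg.Statements.S1959
import Cfsg.Agent.Lib.H09.ConjFam

set_option autoImplicit false
open Cfsg

namespace Cfsg.Agent.S1959

/-- Let p be a prime, G a finite group with Sylow p-subgroup S, and 𝓦 a set of conjugacy functors for p on G. Suppose that 𝓦 controls strong fusion in N_G(T) for every nonidentity subgroup T of S for which N_S(T) is a Sylow p-subgroup of N_G(T). Then 𝓦 controls strong fusion in G. (A set of functors controls strong fusion in a subgroup H when, for a Sylow p-subgroup T' of H, every conjugation of a tuple of elements of T' into T' by an element of H is a composite of conjugations inside the normalizers N_H(W(T')), W ∈ 𝓦, all intermediate tuples staying in T'.) -/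
theorem result {G : Type*} [Group G] [Finite G] {p : ℕ} [Fact p.Prime] (S : Sylow p G) (𝓦 : Set (Subgroup G → Subgroup G)) (h𝓦 : ∀ W ∈ 𝓦, Cfsg.IsConjugacyFunctor p W) (hloc : ∀ T : Subgroup G, T ≤ (S : Subgroup G) → T ≠ ⊥ → ¬ p ∣ ((S : Subgroup G) ⊓ Subgroup.normalizer ((T : Subgroup G) : Set G)).relIndex (Subgroup.normalizer ((T : Subgroup G) : Set G)) → Cfsg.FamilyControlsStrongFusionIn p 𝓦 (Subgroup.normalizer ((T : Subgroup G) : Set G))) : Cfsg.FamilyControlsStrongFusionIn p 𝓦 ⊤ := by
  classical
  have hC := H09.agreeCtl_sys (H09.fStep_sys 𝓦 (⊤ : Subgroup G) (S : Subgroup G))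
  have hmain := H09.engine_main S (H09.placedFamily_fullyNormalized S) hC 𝓦 h𝓦
    (by
      intro W hW z hz B hB hzB
      refine ⟨z, H09.Chain.single ⟨hB, hzB, W, hW, Subgroup.mem_inf.2 ⟨Subgroup.mem_top _, hz⟩⟩,
        fun a _ => rfl⟩)
    (by
      intro T hT hTne hh x hx A hA hxA
      have hRp : IsPGroup p ((S : Subgroup G) ⊓ Subgroup.normalizer (T : Set G) : Subgroup G) :=
        H09.isPGroup_inf_left S _
      obtain ⟨c, hc, hag⟩ := H09.familyControls_any h𝓦 (hloc T hT.1 hTne hT.2) inf_le_right hRp hT.2 hx hA hxA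
      refine H09.AgreeCtl.congr ?_ hag
      clear hag
      induction hc with
      | nil => exact ⟨1, H09.Chain.nil, fun a _ => rfl⟩
      | @snoc c y _ hy ih =>
        obtain ⟨h1, h2, W, hW, hyW⟩ := hy
        exact hC.comp ih (hh W hW y hyW _ h1 h2))
  refine ⟨S, le_top, S.isPGroup', ?_, ?_⟩
  · rw [Subgroup.relIndex_top_right]
    exact S.not_dvd_index
  · intro A h _ hA hhA
    obtain ⟨c, hc, hag⟩ := hmain A h hA hhA
    obtain ⟨n, c', h0, hstep, him, hlast⟩ := H09.familyData_of_chain hA hc
    exact ⟨n, c', h0, hstep, him, fun a ha => by rw [hlast]; exact hag a ha⟩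

end Cfsg.Agent.S1959
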