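import Cfsg.Statements.S1961
import Cfsg.Agent.Lib.H09.ConjFam

set_option autoImplicit false
open Cfsg

namespace Cfsg.Agent.S1961

/-- Local-to-global control of strong fusion through well-placed subgroups. Let p be a prime, G a finite group with Sylow p-subgroup S, and W a conjugacy functor for p on G. If W controls strong fusion in N_G(T) for every nonidentity subgroup T of S that is well placed in S with respect to W, then W controls strong fusion in G. -/
theorem result {G : Type*} [Group G] [Finite G] {p : ℕ} [Fact p.Prime] (S : Sylow p G) (W : Subgroup G → Subgroup G) (hW : Cfsg.IsConjugacyFunctor p W) (hloc : ∀ T : Subgroup G, T ≠ ⊥ → Cfsg.IsWellPlaced p W (S : Subgroup G) T → Cfsg.ControlsStrongFusionIn p W (Subgroup.normalizer ((T : Subgroup G) : Set G))) : Cfsg.ControlsStrongFusionIn p W ⊤ := by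
  classical
  set X : Subgroup G := Subgroup.normalizer (((W (S : Subgroup G)) : Subgroup G) : Set G) with hX
  let Ctl : Set G → G → Prop := fun A g => ∃ x ∈ X, ∀ a ∈ A, x * a * x⁻¹ = g * a * g⁻¹
  have hC : H09.CtlSys Ctl := by
    refine ⟨?_, ?_, ?_, ?_⟩
    · intro A g hA
      refine ⟨1, X.one_mem, ?_⟩
      intro a ha
      have : a = 1 := hA ha
      simp [this]
    · rintro A B g hBA ⟨x, hx, hag⟩
      exact ⟨x, hx, fun a ha => hag a (hBA ha)⟩
    · rintro A g h ⟨x, hx, hag⟩ ⟨y, hy, hag2⟩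
      refine ⟨y * x, X.mul_mem hy hx, ?_⟩
      intro a ha
      have h1 := hag2 _ (H09.conj_mem_cjs (g := g) ha)
      have h2 := hag a ha
      calc (y * x) * a * (y * x)⁻¹ = y * (x * a * x⁻¹) * y⁻¹ := by group
        _ = y * (g * a * g⁻¹) * y⁻¹ := by rw [h2]
        _ = h * (g * a * g⁻¹) * h⁻¹ := h1
        _ = (h * g) * a * (h * g)⁻¹ := by group
    · rintro A g ⟨x, hx, hag⟩
      refine ⟨x⁻¹, X.inv_mem hx, ?_⟩
      rintro _ ⟨a, ha, rfl⟩
      have h2 := hag a ha
      show x⁻¹ * (g * a * g⁻¹) * x⁻¹⁻¹ = g⁻¹ * (g * a * g⁻¹) * g⁻¹⁻¹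
      rw [← h2]
      calc x⁻¹ * (x * a * x⁻¹) * x⁻¹⁻¹ = a := by group
        _ = g⁻¹ * (g * a * g⁻¹) * g⁻¹⁻¹ := by group
        _ = g⁻¹ * (x * a * x⁻¹) * g⁻¹⁻¹ := by rw [h2]
  have hmain := H09.engine_main S (H09.placedFamily_wellPlaced S W hW) hC {W}
    (by rintro W' rfl; exact hW)
    (by
      rintro W' rfl z hz B _ _
      exact ⟨z, hz, fun a _ => rfl⟩)
    (by
      intro T hT hTne hh x hx A hA hxA
      have hRp : IsPGroup p ((S : Subgroup G) ⊓ Subgroup.normalizer (T : Set G) : Subgroup G) :=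
        H09.isPGroup_inf_left S _
      obtain ⟨y, hy, hag⟩ := H09.controls_any hW (hloc T hTne hT) inf_le_right hRp (hT.2 0) hx hA hxA
      have hyA : H09.cjs y A = H09.cjs x A := H09.cjs_eq_of_agree hag
      obtain ⟨z, hz, hag2⟩ := hh W rfl y hy A hA (by rw [hyA]; exact hxA)
      exact ⟨z, hz, fun a ha => (hag2 a ha).trans (hag a ha)⟩)
  refine ⟨S, le_top, S.isPGroup', ?_, ?_⟩
  · rw [Subgroup.relIndex_top_right]
    exact S.not_dvd_index
  · intro A h _ hA hhA
    obtain ⟨x, hx, hag⟩ := hmain A h hA hhA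
    exact ⟨x, Subgroup.mem_inf.2 ⟨Subgroup.mem_top _, hx⟩, hag⟩

end Cfsg.Agent.S1961
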