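import Cfsg.Statements.S1962
import Cfsg.Agent.Lib.H09.Focal

set_option autoImplicit false
open Cfsg

namespace Cfsg.Agent.S1962

/-- Local-to-global control of transfer through well-placed subgroups. Let p be a prime, G a finite group with Sylow p-subgroup S, and W a conjugacy functor for p on G. If W controls transfer in N_G(T) for every nonidentity subgroup T of S that is well placed in S with respect to W, then W controls transfer in G: S ∩ G' = S ∩ (N_G(W(S)))'. -/
theorem result {G : Type*} [Group G] [Finite G] {p : ℕ} [Fact p.Prime] (S : Sylow p G) (W : Subgroup G → Subgroup G) (hW : Cfsg.IsConjugacyFunctor p W) (hloc : ∀ T : Subgroup G, T ≠ ⊥ → Cfsg.IsWellPlaced p W (S : Subgroup G) T → Cfsg.ControlsTransferIn p W (Subgroup.normalizer ((T : Subgroup G) : Set G))) : Cfsg.ControlsTransferIn p W ⊤ := by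
  classical
  have hmain := H09.transfer_engine S (H09.placedFamily_wellPlaced S W hW) {W}
    (by rintro W' rfl; exact hW)
    (by
      intro T hT hTne
      have hRp : IsPGroup p ((S : Subgroup G) ⊓ Subgroup.normalizer (T : Set G) : Subgroup G) :=
        H09.isPGroup_inf_left S _
      rw [iSup_singleton]
      exact (H09.controlsTransfer_any hW (hloc T hTne hT) inf_le_right hRp (hT.2 0)).le)
  rw [iSup_singleton] at hmain
  refine ⟨S, le_top, S.isPGroup', ?_, ?_⟩
  · rw [Subgroup.relIndex_top_right]
    exact S.not_dvd_index
  · refine le_antisymm hmain ?_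
    exact inf_le_inf_left _ (Subgroup.commutator_mono inf_le_left inf_le_left)

end Cfsg.Agent.S1962
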