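import Cfsg.Statements.S1966
import Cfsg.Agent.Lib.H09.Conj
import Cfsg.Agent.Lib.H01.Fitting

set_option autoImplicit false
open Cfsg

namespace Cfsg.Agent.S1966

/-- Let p be a prime, G a finite group with Sylow p-subgroup S and 𝓕 a conjugation family for S in G. Then the members of 𝓕 containing O_p(G) still form a conjugation family for S in G. -/
theorem result {G : Type*} [Group G] [Finite G] {p : ℕ} [Fact p.Prime] (S : Sylow p G) (𝓕 : Set (Subgroup G)) (h : Cfsg.IsConjugationFamily 𝓕 (S : Subgroup G)) : Cfsg.IsConjugationFamily {T : Subgroup G | T ∈ 𝓕 ∧ Cfsg.pCore p G ≤ T} (S : Subgroup G) := by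
  classical
  have hPS : Cfsg.pCore p G ≤ (S : Subgroup G) := H01.pCore_le_sylow p S
  have hn : (Cfsg.pCore p G).Normal := H01.pCore_normal p
  refine ⟨fun T hT => h.1 T hT.1, ?_⟩
  intro A g hne hA hAg
  have hA' : A ∪ (Cfsg.pCore p G : Set G) ⊆ (S : Subgroup G) :=
    Set.union_subset hA hPS
  have hAg' : (fun a => g⁻¹ * a * g) '' (A ∪ (Cfsg.pCore p G : Set G)) ⊆ ((S : Subgroup G) : Set G) := by
    rw [Set.image_union]
    refine Set.union_subset hAg ?_
    rintro _ ⟨a, ha, rfl⟩
    apply hPS
    have := hn.conj_mem a ha g⁻¹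
    simpa using this
  obtain ⟨n, T, x, hprod, hT, hx, h0, hi⟩ :=
    h.2 (A ∪ (Cfsg.pCore p G : Set G)) g (hne.mono Set.subset_union_left) hA' hAg'
  refine ⟨n, T, x, hprod, fun i => ⟨hT i, ?_⟩, hx,
    fun h' => Set.subset_union_left.trans (h0 h'), fun i h' => ?_⟩
  · -- every T i contains O_p(G)
    rcases i with ⟨i, hin⟩
    cases i with
    | zero =>
      exact fun y hy => h0 hin (Or.inr hy)
    | succ j =>
      intro y hy
      have hj : j < n := by omega
      have := hi ⟨j, hj⟩ hin
      set w := ((List.ofFn x).take (j + 1)).prod with hw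
      apply this
      refine ⟨w * y * w⁻¹, Or.inr (hn.conj_mem y hy w), ?_⟩
      show w⁻¹ * (w * y * w⁻¹) * w = y
      group
  · exact (Set.image_mono Set.subset_union_left).trans (hi i h')

end Cfsg.Agent.S1966
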