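import Cfsg.Statements.S1967
import Cfsg.Agent.Lib.H09.Conj

set_option autoImplicit false
open Cfsg

namespace Cfsg.Agent.S1967

/-- Let p be a prime, G a finite group with Sylow p-subgroup S and W a conjugacy functor for p on G. Then W controls strong fusion in G if and only if, whenever T ≤ S and g ∈ G satisfy gTg⁻¹ ≤ S, one can write g = n c with n ∈ N_G(W(S)) and c ∈ C_G(T). -/
theorem result {G : Type*} [Group G] [Finite G] {p : ℕ} [Fact p.Prime] (S : Sylow p G) (W : Subgroup G → Subgroup G) (hW : Cfsg.IsConjugacyFunctor p W) : Cfsg.ControlsStrongFusionIn p W ⊤ ↔ ∀ (T : Subgroup G) (g : G), T ≤ (S : Subgroup G) → T.map (MulAut.conj g).toMonoidHom ≤ (S : Subgroup G) → ∃ n ∈ Subgroup.normalizer ((W (S : Subgroup G) : Subgroup G) : Set G), ∃ c ∈ Subgroup.centralizer (T : Set G), g = n * c := by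
  classical
  constructor
  · rintro ⟨T0, -, hT0p, hT0i, hT0⟩ T g hTS hgT
    rw [Subgroup.relIndex_top_right] at hT0i
    obtain ⟨w, hw⟩ := H09.conj_of_not_dvd_index S hT0p hT0i
    -- transport
    have hA : ((T.map (MulAut.conj w).toMonoidHom : Subgroup G) : Set G) ⊆ T0 := by
      rw [hw]
      exact H09.map_conj_mono hTS w
    have hh : (fun a => (w * g * w⁻¹) * a * (w * g * w⁻¹)⁻¹) ''
        ((T.map (MulAut.conj w).toMonoidHom : Subgroup G) : Set G) ⊆ T0 := by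
      rintro _ ⟨a, ha, rfl⟩
      rw [SetLike.mem_coe, H09.mem_map_conj] at ha
      rw [hw, SetLike.mem_coe, H09.mem_map_conj]
      have h1 : g * (w⁻¹ * a * w) * g⁻¹ ∈ (S : Subgroup G) := H09.map_conj_le_iff.1 hgT _ ha
      have e : w⁻¹ * (w * g * w⁻¹ * a * (w * g * w⁻¹)⁻¹) * w = g * (w⁻¹ * a * w) * g⁻¹ := by group
      rw [e]; exact h1
    obtain ⟨x, hx, hxa⟩ := hT0 _ (w * g * w⁻¹) (Subgroup.mem_top _) hA hh
    have hxN : x ∈ Subgroup.normalizer ((W T0 : Subgroup G) : Set G) := (Subgroup.mem_inf.1 hx).2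
    have hWT0 : W T0 = (W (S : Subgroup G)).map (MulAut.conj w).toMonoidHom := by
      rw [hw]; exact ((hW _ S.isPGroup').2.2 w)
    refine ⟨w⁻¹ * x * w, ?_, (w⁻¹ * x * w)⁻¹ * g, ?_, by group⟩
    · rw [hWT0, H09.normalizer_map_conj, H09.mem_map_conj] at hxN
      exact hxN
    · rw [Subgroup.mem_centralizer_iff]
      intro t ht
      have h2 := hxa (w * t * w⁻¹) (H09.conj_mem_map w ht)
      have h3 : (w⁻¹ * x * w) * t * (w⁻¹ * x * w)⁻¹ = g * t * g⁻¹ := by
        have e1 : (w⁻¹ * x * w) * t * (w⁻¹ * x * w)⁻¹ = w⁻¹ * (x * (w * t * w⁻¹) * x⁻¹) * w := by group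
        rw [e1, h2]; group
      have h4 : ((w⁻¹ * x * w)⁻¹ * g) * t = t * ((w⁻¹ * x * w)⁻¹ * g) := by
        have h5 : (w⁻¹ * x * w)⁻¹ * (g * t * g⁻¹) * (w⁻¹ * x * w) = t := by
          rw [← h3]; group
        calc ((w⁻¹ * x * w)⁻¹ * g) * t = ((w⁻¹ * x * w)⁻¹ * (g * t * g⁻¹) * (w⁻¹ * x * w)) * ((w⁻¹ * x * w)⁻¹ * g) := by group
          _ = t * ((w⁻¹ * x * w)⁻¹ * g) := by rw [h5]
      exact h4.symm
  · intro h
    refine ⟨S, le_top, S.isPGroup', ?_, ?_⟩
    · rw [Subgroup.relIndex_top_right]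
      exact S.not_dvd_index
    · intro A g _ hA hgA
      have hT : Subgroup.closure A ≤ (S : Subgroup G) := (Subgroup.closure_le _).2 hA
      have hgT : (Subgroup.closure A).map (MulAut.conj g).toMonoidHom ≤ (S : Subgroup G) := by
        rw [MonoidHom.map_closure, Subgroup.closure_le]
        rintro _ ⟨a, ha, rfl⟩
        exact hgA ⟨a, ha, rfl⟩
      obtain ⟨n, hn, c, hc, rfl⟩ := h _ g hT hgT
      refine ⟨n, Subgroup.mem_inf.2 ⟨Subgroup.mem_top _, hn⟩, ?_⟩
      intro a ha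
      have h1 : c * a = a * c :=
        (Subgroup.mem_centralizer_iff.1 hc a (Subgroup.subset_closure ha)).symm
      calc n * a * n⁻¹ = n * (a * c) * c⁻¹ * n⁻¹ := by group
        _ = n * (c * a) * c⁻¹ * n⁻¹ := by rw [h1]
        _ = n * c * a * (n * c)⁻¹ := by group

end Cfsg.Agent.S1967
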