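import Cfsg.Statements.S1968
import Cfsg.Agent.Lib.H09.ConjFam

set_option autoImplicit false
open Cfsg

namespace Cfsg.Agent.S1968

/-- Let p be a prime, G a finite group with Sylow p-subgroup S and W a conjugacy functor for p on G with Z(P) ≤ W(P) for every p-subgroup P. Let A be a subgroup of Z(S) normalized by N_G(W(S)) that is not weakly closed in S with respect to G. Then there is a subgroup T of S, well placed in S with respect to W, such that: A ≤ T; N_G(W(N_S(T))) normalizes A; N_S(T) is a Sylow p-subgroup of N_G(T); A ≤ Z(N_S(T)); and A is not weakly closed in N_S(T) with respect to N_G(T), that is, some N_G(T)-conjugate of A other than A lies in N_S(T). -/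
theorem result {G : Type*} [Group G] [Finite G] {p : ℕ} [Fact p.Prime] (S : Sylow p G) (W : Subgroup G → Subgroup G) (hW : Cfsg.IsConjugacyFunctor p W) (hWZ : ∀ P : Subgroup G, IsPGroup p ↥P → P ⊓ Subgroup.centralizer (P : Set G) ≤ W P) (A : Subgroup G) (hAZ : A ≤ (S : Subgroup G) ⊓ Subgroup.centralizer ((S : Subgroup G) : Set G)) (hAN : Subgroup.normalizer ((W (S : Subgroup G) : Subgroup G) : Set G) ≤ Subgroup.normalizer ((A : Subgroup G) : Set G)) (hnwc : ¬ Cfsg.IsWeaklyClosed A (S : Subgroup G)) : ∃ T : Subgroup G, Cfsg.IsWellPlaced p W (S : Subgroup G) T ∧ A ≤ T ∧ Subgroup.normalizer ((W ((S : Subgroup G) ⊓ Subgroup.normalizer ((T : Subgroup G) : Set G)) : Subgroup G) : Set G) ≤ Subgroup.normalizer ((A : Subgroup G) : Set G) ∧ ¬ p ∣ ((S : Subgroup G) ⊓ Subgroup.normalizer ((T : Subgroup G) : Set G)).relIndex (Subgroup.normalizer ((T : Subgroup G) : Set G)) ∧ A ≤ Subgroup.centralizer (((S : Subgroup G) ⊓ Subgroup.normalizer ((T : Subgroup G) : Set G) : Subgroup G) : Set G) ∧ ∃ g ∈ Subgroup.normalizer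 ((T : Subgroup G) : Set G), A.map (MulAut.conj g).toMonoidHom ≤ (S : Subgroup G) ⊓ Subgroup.normalizer ((T : Subgroup G) : Set G) ∧ A.map (MulAut.conj g).toMonoidHom ≠ A := by
  classical
  set S' : Subgroup G := (S : Subgroup G) with hS'
  have hSp : IsPGroup p S' := S.isPGroup'
  -- the set of candidates
  let 𝒮 : Set (Subgroup G) := {T | IsWellPlaced p W S' T ∧ A ≤ T ∧
    ∃ g ∈ Subgroup.normalizer (T : Set G), A.map (MulAut.conj g).toMonoidHom ≤ S' ⊓ Subgroup.normalizer (T : Set G) ∧
      A.map (MulAut.conj g).toMonoidHom ≠ A}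
  have hAS : A ≤ S' := hAZ.trans inf_le_left
  -- nonempty, by the conjugation family
  have hne : 𝒮.Nonempty := by
    by_contra hemp
    rw [Set.not_nonempty_iff_eq_empty] at hemp
    have hch := H09.chain_of_placed S {T | IsWellPlaced p W S' T} (fun U hU => hU.1)
      (by
        intro T hT
        obtain ⟨g, hg⟩ := H09.exists_wellPlaced S W hW T hT
        exact ⟨_, hg, ⟨g, rfl⟩, hg.2 0⟩)
    have hfix : ∀ c : G, H09.Chain (H09.CStep {T | IsWellPlaced p W S' T}) (A : Set G) c →
        H09.cjs c (A : Set G) = A := by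
      intro c hc
      induction hc with
      | nil => exact H09.cjs_one _
      | @snoc c y _ hy ih =>
        rw [ih] at hy
        obtain ⟨T, hT, hyT, hsub⟩ := hy
        rw [H09.cjs_mul, ih]
        by_contra hne'
        have hmem : T ∈ 𝒮 := by
          refine ⟨hT, hsub, y, hyT, ?_, ?_⟩
          · rw [H09.map_conj_le_iff]
            intro a ha
            have h1 : y * a * y⁻¹ ∈ T := H09.cjs_subset_of_mem_normalizer hyT hsub (H09.conj_mem_cjs ha)
            exact H09.le_inf_normalizer hT.1 h1
          · intro heq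
            apply hne'
            rw [H09.cjs_coe, heq]
        rw [hemp] at hmem
        exact hmem
    apply hnwc
    refine ⟨hAS, ?_⟩
    intro g hg
    have hgA : H09.cjs g (A : Set G) ⊆ S' := by
      rw [H09.cjs_coe]
      exact hg
    have := hfix g (hch _ _ hAS hgA)
    rw [H09.cjs_coe] at this
    exact SetLike.coe_injective this
  -- choose a candidate with largest normalizer in `S`
  obtain ⟨T, hT, hmax⟩ : ∃ T ∈ 𝒮, ∀ T' ∈ 𝒮,
      Nat.card ↥(S' ⊓ Subgroup.normalizer (T' : Set G)) ≤ Nat.card ↥(S' ⊓ Subgroup.normalizer (T : Set G)) := by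
    have hfin : 𝒮.Finite := Set.toFinite _
    obtain ⟨T, hT, hm⟩ := Set.exists_max_image 𝒮
      (fun T : Subgroup G => Nat.card ↥(S' ⊓ Subgroup.normalizer (T : Set G))) hfin hne
    exact ⟨T, hT, hm⟩
  obtain ⟨hTw, hAT, g, hg, hgle, hgne⟩ := hT
  have hTS : T ≤ S' := hTw.1
  have hAC : A ≤ Subgroup.centralizer ((S' ⊓ Subgroup.normalizer (T : Set G) : Subgroup G) : Set G) := by
    intro a ha
    have h1 := (Subgroup.mem_inf.1 (hAZ ha)).2
    rw [Subgroup.mem_centralizer_iff] at h1 ⊢
    intro s hs
    exact h1 s (Subgroup.mem_inf.1 hs).1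
  refine ⟨T, hTw, hAT, ?_, hTw.2 0, hAC, g, hg, hgle, hgne⟩
  -- the normalizer property
  set R : Subgroup G := S' ⊓ Subgroup.normalizer (T : Set G) with hR
  have hRp : IsPGroup p R := H09.isPGroup_inf_left S _
  rcases eq_or_lt_of_le (inf_le_left : R ≤ S') with hRS | hRS
  · have hRS' : R = S' := hRS
    rw [hRS']
    exact hAN
  · by_contra hcon
    set U := W R with hU
    have hfun := hW R hRp
    have hUS : U ≤ S' := hfun.1.trans inf_le_left
    have hUwp : IsWellPlaced p W S' U := H09.wellPlaced_tail hTw hUS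
    have hAU : A ≤ U := by
      refine le_trans ?_ (hWZ R hRp)
      refine le_inf (hAT.trans (H09.le_inf_normalizer hTS)) ?_
      intro a ha
      have h1 := hAC ha
      rw [Subgroup.mem_centralizer_iff] at h1 ⊢
      exact h1
    -- an element of N(U) moving A
    obtain ⟨x, hxU, hxA⟩ : ∃ x ∈ Subgroup.normalizer (U : Set G), x ∉ Subgroup.normalizer (A : Set G) := by
      by_contra hno
      apply hcon
      intro x hx
      by_contra hx'
      exact hno ⟨x, hx, hx'⟩
    have hUmem : U ∈ 𝒮 := by
      refine ⟨hUwp, hAU, x, hxU, ?_, ?_⟩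
      · rw [H09.map_conj_le_iff]
        intro a ha
        have h1 : x * a * x⁻¹ ∈ U :=
          H09.cjs_subset_of_mem_normalizer hxU (A := (A : Set G)) hAU (H09.conj_mem_cjs ha)
        exact H09.le_inf_normalizer hUS h1
      · intro heq
        exact hxA (H09.mem_normalizer_of_map_conj_eq heq)
    have hle := hmax U hUmem
    have hlt : R < S' ⊓ Subgroup.normalizer (U : Set G) :=
      lt_of_lt_of_le (H09.lt_inf_normalizer hSp hRS)
        (inf_le_inf_left _ (H09.inf_normalizer_le_functor hW hRp))
    exact absurd hle (not_le.2 (H09.card_lt_of_lt' hlt))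

end Cfsg.Agent.S1968
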