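import Cfsg.Statements.S1969
import Cfsg.Agent.Lib.H09.SectMain

set_option autoImplicit false
universe u
open Cfsg

namespace Cfsg.Agent.S1969

/-- Let p be a prime, G a finite group and W an isomorphism-invariant p-group functor (W assigns to every group Q a subgroup W(Q), nontrivial whenever Q is a nontrivial finite p-group, and every isomorphism from a finite p-group Q onto a group R carries W(Q) onto W(R)). Suppose that W(S*) is normal in G* whenever G* = K/R is a section of G with C_{G*}(O_p(G*)) ≤ O_p(G*) and S* is a Sylow p-subgroup of G*. Then W controls strong fusion in every section of G: for every section K/R and every Sylow p-subgroup T of K/R, the subgroup W(T) controls strong fusion in K/R. -/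
theorem result {G : Type u} [Group G] [Finite G] {p : ℕ} [Fact p.Prime] (W : ∀ (Q : Type u) [Group Q], Subgroup Q) (hW : Cfsg.IsCharPFunctor.{u} p W) (hloc : ∀ (K R : Subgroup G) [hR : (R.subgroupOf K).Normal], Subgroup.centralizer ((Cfsg.pCore p (↥K ⧸ R.subgroupOf K) : Subgroup (↥K ⧸ R.subgroupOf K)) : Set (↥K ⧸ R.subgroupOf K)) ≤ Cfsg.pCore p (↥K ⧸ R.subgroupOf K) → ∀ T : Sylow p (↥K ⧸ R.subgroupOf K), (Cfsg.inducedFunctor (G := (↥K ⧸ R.subgroupOf K)) W ((T : Subgroup (↥K ⧸ R.subgroupOf K)))).Normal) : ∀ (K R : Subgroup G) [hR : (R.subgroupOf K).Normal], ∀ T : Sylow p (↥K ⧸ R.subgroupOf K), Cfsg.ControlsStrongFusion p (Cfsg.inducedFunctor (G := (↥K ⧸ R.subgroupOf K)) W ((T : Subgroup (↥K ⧸ R.subgroupOf K)))) := by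
  classical
  intro K R hR T
  have h𝓦 : ∀ W' ∈ ({W} : Set (∀ (Q : Type u) [Group Q], Subgroup Q)), Cfsg.IsCharPFunctor.{u} p W' := by
    rintro _ rfl
    exact hW
  have hbase : Cfsg.FamilyControlsStrongFusionIn p
      (H09.indF ({W} : Set (∀ (Q : Type u) [Group Q], Subgroup Q)) (↥K ⧸ R.subgroupOf K)) ⊤ := by
    refine H09.sect_main_sections h𝓦 ?_ _ (H09.involves_section K R)
    intro K' R' hR' hcon
    obtain ⟨S⟩ : Nonempty (Sylow p (↥K' ⧸ R'.subgroupOf K')) := inferInstance
    have hn := hloc K' R' hcon S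
    refine H09.familyControls_of_sctl S ?_
    intro A g hA hgA
    refine ⟨g, H09.Chain.single ⟨hA, hgA, _, ⟨W, rfl, rfl⟩, Subgroup.mem_inf.2 ⟨Subgroup.mem_top _, ?_⟩⟩, fun a _ => rfl⟩
    rw [H09.normalizer_eq_top_of_normal hn]
    exact Subgroup.mem_top _
  refine ⟨T, (H09.ind_conj_functor hW _ T.isPGroup').1, fun A hA => ⟨hA, fun g hg => ?_⟩⟩
  obtain ⟨c, hc, hag⟩ := H09.familyControls_any (H09.indF_conj h𝓦) hbase le_top T.isPGroup'
    (by rw [Subgroup.relIndex_top_right]; exact T.not_dvd_index) (Subgroup.mem_top g) hA hg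
  refine ⟨c, ?_, fun a ha => (hag a ha).symm⟩
  clear hag
  induction hc with
  | nil => exact Subgroup.one_mem _
  | @snoc c y _ hy ih =>
    obtain ⟨h1, h2, _, ⟨W', hW', rfl⟩, hyW⟩ := hy
    obtain rfl : W' = W := hW'
    exact Subgroup.mul_mem _ (Subgroup.mem_inf.1 hyW).2 ih

end Cfsg.Agent.S1969
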