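import Cfsg.Statements.S1970
import Cfsg.Agent.Lib.H09.SectTransfer

set_option autoImplicit false
universe u
open Cfsg

namespace Cfsg.Agent.S1970

/-- Let p be a prime, G a finite group and W an isomorphism-invariant p-group functor (W assigns to every group Q a subgroup W(Q), nontrivial whenever Q is a nontrivial finite p-group, and every isomorphism from a finite p-group Q onto a group R carries W(Q) onto W(R)). Suppose that for every section G* = K/R of G with C_{G*}(O_p(G*)) ≤ O_p(G*) and every Sylow p-subgroup S* of G*, one has O_p(G*) ∩ (G*)' = O_p(G*) ∩ (N_{G*}(W(S*)))'. Then W controls transfer in every section G* of G: S* ∩ (G*)' = S* ∩ (N_{G*}(W(S*)))' for a Sylow p-subgroup S* of G*. -/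
theorem result {G : Type u} [Group G] [Finite G] {p : ℕ} [Fact p.Prime] (W : ∀ (Q : Type u) [Group Q], Subgroup Q) (hW : Cfsg.IsCharPFunctor.{u} p W) (hloc : ∀ (K R : Subgroup G) [hR : (R.subgroupOf K).Normal], Subgroup.centralizer ((Cfsg.pCore p (↥K ⧸ R.subgroupOf K) : Subgroup (↥K ⧸ R.subgroupOf K)) : Set (↥K ⧸ R.subgroupOf K)) ≤ Cfsg.pCore p (↥K ⧸ R.subgroupOf K) → ∀ T : Sylow p (↥K ⧸ R.subgroupOf K), Cfsg.pCore p (↥K ⧸ R.subgroupOf K) ⊓ commutator (↥K ⧸ R.subgroupOf K) = Cfsg.pCore p (↥K ⧸ R.subgroupOf K) ⊓ ⁅Subgroup.normalizer ((Cfsg.inducedFunctor (G := (↥K ⧸ R.subgroupOf K)) W ((T : Subgroup (↥K ⧸ R.subgroupOf K))) : Subgroup (↥K ⧸ R.subgroupOf K)) : Set (↥K ⧸ R.subgroupOf K)), Subgroup.normalizer ((Cfsg.inducedFunctor (G := (↥K ⧸ R.subgroupOf K)) W ((T : Subgroup (↥K ⧸ R.subgroupOf K))) : Subgroup (↥K ⧸ R.subgroupOf K)) : Set (↥K ⧸ R.subgroupOf K))⁆) : ∀ (K R : Subgroup G) [hR : (R.subgroupOf K).Normal],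 Cfsg.ControlsTransferIn p (Cfsg.inducedFunctor (G := (↥K ⧸ R.subgroupOf K)) W) ⊤ := by
  classical
  intro K R hR
  have h𝓦 : ∀ W' ∈ ({W} : Set (∀ (Q : Type u) [Group Q], Subgroup Q)), Cfsg.IsCharPFunctor.{u} p W' := by
    rintro _ rfl
    exact hW
  refine H09.controlsTransfer_of_family ?_
  refine H09.sect_transfer_sections h𝓦 ?_ _ (H09.involves_section K R)
  intro K' R' hR' hcon T hTp hTi x hx
  have h1 := hloc K' R' hcon (hTp.toSylow hTi)
  have h2 : x ∈ Cfsg.pCore p (↥K' ⧸ R'.subgroupOf K') ⊓ commutator (↥K' ⧸ R'.subgroupOf K') := hx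
  rw [h1] at h2
  obtain ⟨h3, h4⟩ := Subgroup.mem_inf.1 h2
  have hW' : Cfsg.inducedFunctor (G := (↥K' ⧸ R'.subgroupOf K')) W ∈
      H09.indF ({W} : Set (∀ (Q : Type u) [Group Q], Subgroup Q)) (↥K' ⧸ R'.subgroupOf K') :=
    ⟨W, rfl, rfl⟩
  refine H09.term_le_TD hW' T (Subgroup.mem_inf.2 ⟨H01.pCore_le_sylow p (hTp.toSylow hTi) h3, ?_⟩)
  rw [top_inf_eq]
  exact h4

end Cfsg.Agent.S1970
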