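import Cfsg.Statements.S1972
import Cfsg.Agent.Lib.H09.MinFail

set_option autoImplicit false
universe u
open Cfsg

namespace Cfsg.Agent.S1972

/-- Let p be a prime, G a finite group and W an isomorphism-invariant p-group functor (W assigns to every group Q a subgroup W(Q), nontrivial whenever Q is a nontrivial finite p-group, and every isomorphism from a finite p-group Q onto a group R carries W(Q) onto W(R)). Suppose that whenever G* = K/R is a section of G with C_{G*}(O_p(G*)) ≤ O_p(G*) and S* is a Sylow p-subgroup of G* with W(S*) not normal in G*, there is an element g of S* outside O_p(G*) such that [X, g, …, g] ≤ Y with p − 1 entries g, for every chief factor X/Y of G* with X ≤ O_p(G*). Then W controls transfer in every section of G. -/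
theorem result {G : Type u} [Group G] [Finite G] {p : ℕ} [Fact p.Prime] (W : ∀ (Q : Type u) [Group Q], Subgroup Q) (hW : Cfsg.IsCharPFunctor.{u} p W) (hloc : ∀ (K R : Subgroup G) [hR : (R.subgroupOf K).Normal], Subgroup.centralizer ((Cfsg.pCore p (↥K ⧸ R.subgroupOf K) : Subgroup (↥K ⧸ R.subgroupOf K)) : Set (↥K ⧸ R.subgroupOf K)) ≤ Cfsg.pCore p (↥K ⧸ R.subgroupOf K) → ∀ T : Sylow p (↥K ⧸ R.subgroupOf K), ¬ (Cfsg.inducedFunctor (G := (↥K ⧸ R.subgroupOf K)) W ((T : Subgroup (↥K ⧸ R.subgroupOf K)))).Normal → ∃ g : (↥K ⧸ R.subgroupOf K), g ∈ (T : Subgroup (↥K ⧸ R.subgroupOf K)) ∧ g ∉ Cfsg.pCore p (↥K ⧸ R.subgroupOf K) ∧ ∀ U V : Subgroup (↥K ⧸ R.subgroupOf K), Cfsg.IsChiefFactor U V → U ≤ Cfsg.pCore p (↥K ⧸ R.subgroupOf K) → Cfsg.iterCommutator U (Subgroup.zpowers g) (p - 1) ≤ V) : ∀ (K R : Subgroup G) [hR : (R.subgroupOf K).Normal], Cfsg.ControlsTransferIn p (Cfsg.inducedFunctor (G := (↥K ⧸ R.subgroupOf K)) W) ⊤ := by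
  classical
  intro K R hR
  have h𝓦 : ∀ W' ∈ ({W} : Set (∀ (Q : Type u) [Group Q], Subgroup Q)), Cfsg.IsCharPFunctor.{u} p W' := by
    rintro _ rfl
    exact hW
  refine H09.controlsTransfer_of_family ?_
  refine H09.sect_transfer_sections' h𝓦 ?_ _ (H09.involves_section K R)
  intro K' R' hR' hcon hprop T hTp hTi
  have hW' : Cfsg.inducedFunctor (G := (↥K' ⧸ R'.subgroupOf K')) W ∈
      H09.indF ({W} : Set (∀ (Q : Type u) [Group Q], Subgroup Q)) (↥K' ⧸ R'.subgroupOf K') :=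
    ⟨W, rfl, rfl⟩
  by_cases hn : (Cfsg.inducedFunctor (G := (↥K' ⧸ R'.subgroupOf K')) W T).Normal
  · refine le_trans ?_ (H09.term_le_TD hW' T)
    rw [H09.normalizer_eq_top_of_normal hn, inf_top_eq]
    exact inf_le_inf_right _ (H01.pCore_le_sylow p (hTp.toSylow hTi))
  · obtain ⟨g, hgT, hgO, hg⟩ := hloc K' R' hcon (hTp.toSylow hTi) hn
    refine H09.short_core hTp hTi (H01.pCore_normal p) (H01.pCore_le_sylow p (hTp.toSylow hTi))
      (fun V h1 h2 => H01.le_pCore h1 h2) (H09.TD_le_left _ _) ?_ hgT hgO hg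
    intro K1 hTK1 hK1
    exact H09.transfer_over h𝓦 (hTp.toSylow hTi) K1 hTK1 (hprop K1 hK1)

end Cfsg.Agent.S1972
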