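import Cfsg.Statements.S1978
import Cfsg.Agent.Lib.H09.KSeq2

set_option autoImplicit false
open Cfsg

namespace Cfsg.Agent.S1978

/-- Let P be a finite p-group. Each of the two K-infinity subgroups of P contains its own centralizer in P, which in turn contains Z(P); in particular both are nontrivial when P is. -/
theorem result {P : Type*} [Group P] [Finite P] {p : ℕ} [Fact p.Prime] (hP : IsPGroup p P) : Subgroup.centralizer (Cfsg.kInfLower P : Set P) ≤ Cfsg.kInfLower P ∧ Subgroup.center P ≤ Subgroup.centralizer (Cfsg.kInfLower P : Set P) ∧ Subgroup.centralizer (Cfsg.kInfUpper P : Set P) ≤ Cfsg.kInfUpper P ∧ Subgroup.center P ≤ Subgroup.centralizer (Cfsg.kInfUpper P : Set P) := by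
  have hlow : Subgroup.centralizer (kInfLower P : Set P) ≤ kInfLower P := by
    refine H09.centralizer_sSup_le_of_family hP (kLowerStarFamily (kSeqOdd P 0))
      ⟨⊥, H09.bot_mem_kLower _⟩ ?_ (kInfLower P) ?_
    · intro B hB x hx hT
      exact H09.supZpowers_mem_kLower B x hx hB hT
    · exact le_iSup (fun k => kSeqEven P k) 0
  have hup : Subgroup.centralizer (kInfUpper P : Set P) ≤ kInfUpper P := by
    obtain ⟨m, hm⟩ := H09.exists_kSeq_stable (P := P)
    refine H09.centralizer_sSup_le_of_family hP (kUpperStarFamily (kSeqEven P m))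
      ⟨⊥, H09.bot_mem_kUpper _⟩ ?_ (kInfUpper P) ?_
    · intro B hB x hx hT
      exact H09.supZpowers_mem_kUpper B x hx hB hT
    · rw [← (hm (m + 1) (Nat.le_succ m)).2]
      exact le_rfl
  refine ⟨hlow, ?_, hup, ?_⟩ <;>
  · intro z hz
    rw [Subgroup.mem_centralizer_iff]
    intro g _
    exact (Subgroup.mem_center_iff.1 hz g)

end Cfsg.Agent.S1978
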