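import Cfsg.Statements.S1979
import Cfsg.Agent.Lib.H09.KSub

set_option autoImplicit false
open Cfsg

namespace Cfsg.Agent.S1979

/-- Let P be a finite p-group and Q a subgroup of P containing every term of the K-sequence of P of nonnegative index (every even-indexed term and every odd-indexed term after the initial term P). Then the K-infinity subgroups of Q, computed in Q and viewed in P, equal those of P. -/
theorem result {P : Type*} [Group P] [Finite P] {p : ℕ} [Fact p.Prime] (hP : IsPGroup p P) (Q : Subgroup P) (hQ : ∀ n : ℕ, Cfsg.kSeqEven P n ≤ Q ∧ Cfsg.kSeqOdd P (n + 1) ≤ Q) : (Cfsg.kInfLower ↥Q).map Q.subtype = Cfsg.kInfLower P ∧ (Cfsg.kInfUpper ↥Q).map Q.subtype = Cfsg.kInfUpper P := by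
  classical
  have hE : ∀ n, kSeqEven P n ≤ Q := fun n => (hQ n).1
  have hO : ∀ n, kSeqOdd P (n + 1) ≤ Q := fun n => (hQ n).2
  have c1 : ∀ n, (kSeqOdd ↥Q n).map Q.subtype ≤ kSeqOdd P n ∧
      kSeqEven P n ≤ (kSeqEven ↥Q n).map Q.subtype := by
    intro n
    induction n with
    | zero =>
      exact ⟨le_top, H09.sSup_kLower_le_map Q (X := kSeqOdd P 0) le_top (hE 0)⟩
    | succ n ih =>
      have h1 : (kSeqOdd ↥Q (n + 1)).map Q.subtype ≤ kSeqOdd P (n + 1) :=
        H09.map_sSup_kUpper_le Q (Q0 := kSeqEven ↥Q n) (X := kSeqEven P n) ih.2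
      exact ⟨h1, H09.sSup_kLower_le_map Q (X := kSeqOdd P (n + 1)) h1 (hE (n + 1))⟩
  obtain ⟨N, hN⟩ := H09.exists_kSeq_stable (P := P)
  have hKE : kSeqEven P N = kInfLower P := (hN N le_rfl).1
  have hKO : kSeqOdd P N = kInfUpper P := (hN N le_rfl).2
  have hKO' : kSeqOdd P (N + 1) = kInfUpper P := (hN (N + 1) (Nat.le_succ N)).2
  have hLK : sSup (kLowerStarFamily (kInfUpper P)) = kInfLower P := by
    rw [← hKE, ← hKO]; rfl
  have hUK : sSup (kUpperStarFamily (kInfLower P)) = kInfUpper P := by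
    rw [← hKO', ← hKE]; rfl
  have hKQ : kInfUpper P ≤ Q := hKO' ▸ hO N
  have c2 : ∀ n, kInfUpper P ≤ (kSeqOdd ↥Q n).map Q.subtype ∧
      (kSeqEven ↥Q n).map Q.subtype ≤ kInfLower P := by
    intro n
    induction n with
    | zero =>
      have h0 : kInfUpper P ≤ (kSeqOdd ↥Q 0).map Q.subtype := by
        rw [H09.kSeqOdd_zero', ← MonoidHom.range_eq_map, Subgroup.range_subtype]; exact hKQ
      exact ⟨h0, hLK ▸ H09.map_sSup_kLower_le Q (Q0 := kSeqOdd ↥Q 0) h0⟩
    | succ n ih =>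
      have h1 : kInfUpper P ≤ (kSeqOdd ↥Q (n + 1)).map Q.subtype := by
        have := H09.sSup_kUpper_le_map Q (Q0 := kSeqEven ↥Q n) (X := kInfLower P) ih.2
          (by rw [hUK]; exact hKQ)
        rwa [hUK] at this
      exact ⟨h1, hLK ▸ H09.map_sSup_kLower_le Q (Q0 := kSeqOdd ↥Q (n + 1)) h1⟩
  obtain ⟨M, hM⟩ := H09.exists_kSeq_stable (P := ↥Q)
  set L := max N M with hL
  have hLN : N ≤ L := le_max_left _ _
  have hLM : M ≤ L := le_max_right _ _
  rw [← (hM L hLM).1, ← (hM L hLM).2]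
  refine ⟨le_antisymm (c2 L).2 ?_, le_antisymm ?_ (c2 L).1⟩
  · rw [← (hN L hLN).1]; exact (c1 L).2
  · rw [← (hN L hLN).2]; exact (c1 L).1

end Cfsg.Agent.S1979
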