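import Cfsg.Statements.S1981
import Cfsg.Agent.Lib.H09.KSeq

set_option autoImplicit false
open Cfsg

namespace Cfsg.Agent.S1981

/-- Let P be a finite p-group generated by its abelian normal subgroups. Then both K-infinity subgroups of P equal P. -/
theorem result {P : Type*} [Group P] [Finite P] {p : ℕ} [Fact p.Prime] (hP : IsPGroup p P) (hgen : ⨆ A ∈ {A : Subgroup P | A.Normal ∧ IsMulCommutative ↥A}, A = ⊤) : Cfsg.kInfLower P = ⊤ ∧ Cfsg.kInfUpper P = ⊤ := by
  have hE : ∀ n, kSeqEven P n = ⊤ := by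
    intro n
    rw [eq_top_iff, ← hgen]
    refine iSup₂_le ?_
    rintro A ⟨hn, hc⟩
    haveI := hn
    exact le_sSup (H09.abelian_normal_mem_kLower A hc _)
  have hO : ∀ n, kSeqOdd P n = ⊤ := by
    intro n
    cases n with
    | zero => exact H09.kSeqOdd_zero'
    | succ n =>
      rw [H09.kSeqOdd_succ_eq, eq_top_iff, ← hgen]
      refine iSup₂_le ?_
      rintro A ⟨hn, hc⟩
      haveI := hn
      exact le_sSup (H09.abelian_normal_mem_kUpper A hc _)
  constructor
  · rw [eq_top_iff]
    calc ⊤ = kSeqEven P 0 := (hE 0).symm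
      _ ≤ kInfLower P := le_iSup (fun k => kSeqEven P k) 0
  · rw [eq_top_iff]
    exact le_iInf fun k => (hO k).ge

end Cfsg.Agent.S1981
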