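import Cfsg.Statements.S1988
import Cfsg.Agent.Lib.H09.ThApp

set_option autoImplicit false
universe u
open Cfsg

namespace Cfsg.Agent.S1988

/-- Let p be an odd prime, G a finite group with Sylow p-subgroup S and K the lower K-infinity subgroup of S. If N_G(K) has a normal p-complement, or if N_G(K)/C_G(K) is a p-group (every element of N_G(K) of order prime to p centralizes K), then G has a normal p-complement. -/
theorem result {G : Type u} [Group G] [Finite G] {p : ℕ} [Fact p.Prime] (hp : p ≠ 2) (S : Sylow p G) (h : Cfsg.HasNormalPComplement p ↥(Subgroup.normalizer ((Cfsg.inducedFunctor Cfsg.kInfLower (S : Subgroup G) : Subgroup G) : Set G)) ∨ ∀ g ∈ Subgroup.normalizer ((Cfsg.inducedFunctor Cfsg.kInfLower (S : Subgroup G) : Subgroup G) : Set G), (orderOf g).Coprime p → g ∈ Subgroup.centralizer ((Cfsg.inducedFunctor Cfsg.kInfLower (S : Subgroup G) : Subgroup G) : Set G)) : Cfsg.HasNormalPComplement p G := by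
  have hN : Cfsg.HasNormalPComplement p ↥(Subgroup.normalizer ((Cfsg.inducedFunctor Cfsg.kInfLower (S : Subgroup G) : Subgroup G) : Set G)) := by
    rcases h with h | h
    · exact h
    · exact Cfsg.Agent.H09.npc_normalizer_kinf S h
  refine Cfsg.Agent.H09.thompson_npc (Cfsg.Agent.H09.isCharPFunctor_kInfLower p)
    (Cfsg.Agent.H09.th_hfin_short ?_) S hN
  intro Y _ _ _ hcon T hn
  exact Cfsg.Agent.H09.kinf_short hp Y hcon T hn

end Cfsg.Agent.S1988
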