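import Mathlib
import Cfsg.Statements.S1989
import Cfsg.Agent.Lib.H14.QdInv
-- import your own Cfsg.Agent.* helpers here

set_option autoImplicit false
universe u
open Cfsg

namespace Cfsg.Agent.S1989


/-- Let p be an odd prime and G a finite group. Then Qd(p) (the natural semidirect product of an elementary abelian group of order p² by SL₂(p)) is not involved in G if and only if, in every section K/R of G and for every Sylow p-subgroup T of K/R, the lower K-infinity subgroup of T controls strong fusion in K/R. -/
theorem result {G : Type u} [Group G] [Finite G] {p : ℕ} [Fact p.Prime] (hp : p ≠ 2) : ¬ Cfsg.Involves ↥(Cfsg.qd p) G ↔ ∀ (K R : Subgroup G) [hR : (R.subgroupOf K).Normal], ∀ T : Sylow p (↥K ⧸ R.subgroupOf K), Cfsg.ControlsStrongFusion p (Cfsg.inducedFunctor (G := (↥K ⧸ R.subgroupOf K)) Cfsg.kInfLower (T : Subgroup (↥K ⧸ R.subgroupOf K))) := by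
  constructor
  · intro hfree K R hR T
    refine Cfsg.Agent.H09.strongFusion_of_normal Cfsg.kInfLower
      (Cfsg.Agent.H09.isCharPFunctor_kInfLower p) ?_ (K ⧸ R.subgroupOf K)
      (Cfsg.Agent.H09.involves_section K R) T
    intro Y _ _ hY hc T'
    have hst : ∀ (K' R' : Subgroup G) [hR' : (R'.subgroupOf K').Normal],
        Cfsg.IsNormalizerPStable p (↥K' ⧸ R'.subgroupOf K') := by
      intro K' R' hR'
      apply Cfsg.Agent.H14.stable_of_not_involves hp
      intro h
      exact hfree (Cfsg.Agent.H09.Involves.trans' h (Cfsg.Agent.H09.involves_section K' R'))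
    exact (Cfsg.Agent.H09.kinf_normal_of_stable hst Y hY hc T').1
  · rintro h ⟨K, R, hR, ⟨e⟩⟩
    haveI := hR
    haveI : Finite (K ⧸ R.subgroupOf K) := inferInstance
    let T : Sylow p (K ⧸ R.subgroupOf K) := default
    exact Cfsg.Agent.H14.not_controls_functor Cfsg.kInfLower
      (Cfsg.Agent.H09.isCharPFunctor_kInfLower p) e T (h K R T)

end Cfsg.Agent.S1989
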