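import Cfsg.Statements.S1992
import Cfsg.Agent.Lib.H09.KNorm
import Cfsg.Agent.Lib.Lead.Burnside

set_option autoImplicit false
open Cfsg

namespace Cfsg.Agent.S1992

/-- Let G be a finite group in which, for every prime q dividing the order of G, every Sylow q-subgroup is its own normalizer. Then the order of G is a power of a single prime (G is a q-group for some prime q; for G trivial any prime works). -/
theorem result {G : Type*} [Group G] [Finite G] (h : ∀ q : ℕ, q.Prime → q ∣ Nat.card G → ∀ Q : Sylow q G, Subgroup.normalizer ((Q : Subgroup G) : Set G) = Q) : ∃ q : ℕ, q.Prime ∧ IsPGroup q G := by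
  classical
  by_contra hcon
  push Not at hcon
  -- no normal subgroup of prime index
  have hnoidx : ∀ (N : Subgroup G) (r : ℕ), r.Prime → N.Normal → N.index = r → False := by
    intro N r hr hN hi
    haveI := hN
    have hnotr := hcon r hr
    -- a prime different from `r`
    obtain ⟨q, hq, hqr, hqd⟩ : ∃ q : ℕ, q.Prime ∧ q ≠ r ∧ q ∣ Nat.card G := by
      by_contra hno
      push Not at hno
      apply hnotr
      have hcard : Nat.card G = r ^ (Nat.card G).primeFactorsList.length :=
        Nat.eq_prime_pow_of_unique_prime_dvd Nat.card_pos.ne' (fun {d} hd hdd => by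
          by_contra hne
          exact hno d hd hne hdd)
      exact IsPGroup.of_card hcard
    haveI : Fact q.Prime := ⟨hq⟩
    obtain ⟨Q⟩ : Nonempty (Sylow q G) := inferInstance
    have hQN : (Q : Subgroup G) ≤ N := by
      intro x hx
      obtain ⟨k, hk⟩ := (IsPGroup.iff_orderOf.1 Q.isPGroup') ⟨x, hx⟩
      have hk' : orderOf x = q ^ k := by rw [← Subgroup.orderOf_mk x hx]; exact hk
      have h1 : orderOf (QuotientGroup.mk' N x) ∣ q ^ k := by
        rw [← hk']; exact orderOf_map_dvd _ x
      have h2 : orderOf (QuotientGroup.mk' N x) ∣ r := by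
        rw [← hi, Subgroup.index_eq_card]
        exact orderOf_dvd_natCard _
      have h3 : Nat.Coprime (q ^ k) r :=
        Nat.Coprime.pow_left k ((Nat.coprime_primes hq hr).2 hqr)
      have h4 : orderOf (QuotientGroup.mk' N x) = 1 :=
        Nat.eq_one_of_dvd_coprimes h3 h1 h2
      rw [orderOf_eq_one_iff] at h4
      exact (QuotientGroup.eq_one_iff x).1 h4
    have hF : Subgroup.normalizer (((Q : Subgroup G) : Subgroup G) : Set G) ⊔ N = ⊤ :=
      Sylow.normalizer_sup_eq_top' Q hQN
    rw [h q hq hqd Q, sup_eq_right.2 hQN] at hF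
    rw [hF, Subgroup.index_top] at hi
    exact hr.one_lt.ne hi
  by_cases hbig : ∃ p : ℕ, p.Prime ∧ 5 ≤ p ∧ p ∣ Nat.card G
  · obtain ⟨p, hp, hp5, hpd⟩ := hbig
    haveI : Fact p.Prime := ⟨hp⟩
    obtain ⟨S⟩ : Nonempty (Sylow p G) := inferInstance
    have hS : (S : Subgroup G) ≠ ⊥ := by
      intro hb
      have h1 := S.card_eq_multiplicity
      rw [hb, Subgroup.card_bot] at h1
      have h2 := Nat.Prime.factorization_pos_of_dvd hp Nat.card_pos.ne' hpd
      have h3 : 1 < p ^ (Nat.card G).factorization p := Nat.one_lt_pow h2.ne' hp.one_lt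
      omega
    have hN : ∀ g ∈ Subgroup.normalizer (((S : Subgroup G) : Subgroup G) : Set G), (orderOf g).Coprime p →
        g ∈ Subgroup.centralizer ((S : Subgroup G) : Set G) := by
      intro g hg hgc
      rw [h p hp hpd S] at hg
      obtain ⟨k, hk⟩ := (IsPGroup.iff_orderOf.1 S.isPGroup') ⟨g, hg⟩
      have hk' : orderOf g = p ^ k := by rw [← Subgroup.orderOf_mk g hg]; exact hk
      rw [hk'] at hgc
      have : k = 0 := by
        by_contra hk0
        have h3 := Nat.Coprime.eq_one_of_dvd hgc.symm (dvd_pow_self p hk0)
        exact hp.one_lt.ne' h3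
      have h4 : g = 1 := by
        rw [this, pow_zero, orderOf_eq_one_iff] at hk'
        exact hk'
      rw [h4]
      exact Subgroup.one_mem _
    obtain ⟨N, hN1, hN2⟩ := Cfsg.Agent.H09.exists_index_of_control (G := G) Cfsg.kInfLower
      (Cfsg.Agent.H09.isCharPFunctor_kInfLower p)
      (fun K R _ => Cfsg.Agent.H09.kinf_transfer_lower hp5 _) S hS hN
    exact hnoidx N p hp hN1 hN2
  · -- a `{2,3}`-group
    push Not at hbig
    have hsolv : Group.IsSolvable G := by
      obtain ⟨a, m, hm, he⟩ := Nat.exists_eq_pow_mul_and_not_dvd (Nat.card_pos (α := G)).ne' 2 (by norm_num)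
      have hm0 : m ≠ 0 := by
        rintro rfl
        exact hm (dvd_zero 2)
      obtain ⟨b, m', hm', he'⟩ := Nat.exists_eq_pow_mul_and_not_dvd hm0 3 (by norm_num)
      have hm1 : m' = 1 := by
        by_contra hne
        obtain ⟨t, ht, htd⟩ := Nat.exists_prime_and_dvd hne
        have htG : t ∣ Nat.card G := by
          rw [he, he']
          exact Dvd.dvd.mul_left (Dvd.dvd.mul_left htd _) _
        have ht5 : t < 5 := by
          by_contra h5
          exact hbig t ht (by omega) htG
        interval_cases t
        · exact absurd ht (by norm_num)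
        · exact absurd ht (by norm_num)
        · apply hm
          rw [he']
          exact Dvd.dvd.mul_left htd _
        · exact hm' htd
        · exact absurd ht (by norm_num)
      rw [hm1, mul_one] at he'
      rw [he'] at he
      exact Cfsg.Agent.Lead.burnside_two_prime 2 3 a b (by norm_num) (by norm_num) he
    by_cases htriv : Nontrivial G
    · have hlt : commutator G < ⊤ := Group.IsSolvable.commutator_lt_top_of_nontrivial G
      have hA : Nat.card (G ⧸ commutator G) ≠ 1 := by
        intro h1
        have h2 : (commutator G).index = 1 := by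
          rw [Subgroup.index_eq_card]; exact h1
        rw [Subgroup.index_eq_one] at h2
        exact hlt.ne h2
      obtain ⟨r, hr, hrd⟩ := Nat.exists_prime_and_dvd hA
      haveI : Fact r.Prime := ⟨hr⟩
      obtain ⟨T⟩ : Nonempty (Sylow r (G ⧸ commutator G)) := inferInstance
      obtain ⟨S, hS⟩ := Sylow.mapSurjective_surjective (QuotientGroup.mk'_surjective (commutator G)) r T
      have hnotle : ¬ (S : Subgroup G) ≤ commutator G := by
        intro hle
        have h1 : (T : Subgroup (G ⧸ commutator G)) = ⊥ := by
          rw [← hS, Sylow.coe_mapSurjective, eq_bot_iff]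
          rintro _ ⟨s, hs, rfl⟩
          exact (QuotientGroup.eq_one_iff s).2 (hle hs)
        have h2 := T.card_eq_multiplicity
        rw [h1, Subgroup.card_bot] at h2
        have h3 := Nat.Prime.factorization_pos_of_dvd hr Nat.card_pos.ne' hrd
        have h4 : 1 < r ^ (Nat.card (G ⧸ commutator G)).factorization r := Nat.one_lt_pow h3.ne' hr.one_lt
        omega
      obtain ⟨N, hN1, hN2⟩ := Cfsg.Agent.H09.exists_index_prime_of_not_le_comm S.isPGroup' hnotle
      exact hnoidx N r hr hN1 hN2
    · have hsub : Subsingleton G := not_nontrivial_iff_subsingleton.1 htriv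
      exact hcon 2 (by norm_num) (IsPGroup.of_card (n := 0) (by simp [Nat.card_unique]))

end Cfsg.Agent.S1992
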