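import Cfsg.Statements.S1996
import Cfsg.Agent.Lib.H09.SectMain

set_option autoImplicit false
universe u
open Cfsg

namespace Cfsg.Agent.S1996

/-- Let p be a prime, G a finite group and W₁, W₂ two isomorphism-invariant p-group functors (W assigns to every group Q a subgroup W(Q), nontrivial whenever Q is a nontrivial finite p-group, and every isomorphism from a finite p-group Q onto a group R carries W(Q) onto W(R)). Suppose that G* = N_{G*}(W₁(S*)) N_{G*}(W₂(S*)) whenever G* = K/R is a section of G with C_{G*}(O_p(G*)) ≤ O_p(G*) and S* is a Sylow p-subgroup of G*. Then the pair {W₁, W₂} controls strong fusion in G. -/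
theorem result {G : Type u} [Group G] [Finite G] {p : ℕ} [Fact p.Prime] (W₁ W₂ : ∀ (Q : Type u) [Group Q], Subgroup Q) (hW₁ : Cfsg.IsCharPFunctor.{u} p W₁) (hW₂ : Cfsg.IsCharPFunctor.{u} p W₂) (hfac : ∀ (K R : Subgroup G) [hR : (R.subgroupOf K).Normal], Subgroup.centralizer ((Cfsg.pCore p (↥K ⧸ R.subgroupOf K) : Subgroup (↥K ⧸ R.subgroupOf K)) : Set (↥K ⧸ R.subgroupOf K)) ≤ Cfsg.pCore p (↥K ⧸ R.subgroupOf K) → ∀ T : Sylow p (↥K ⧸ R.subgroupOf K), ∀ x : (↥K ⧸ R.subgroupOf K), ∃ a ∈ Subgroup.normalizer ((Cfsg.inducedFunctor (G := (↥K ⧸ R.subgroupOf K)) W₁ (T : Subgroup (↥K ⧸ R.subgroupOf K)) : Subgroup (↥K ⧸ R.subgroupOf K)) : Set (↥K ⧸ R.subgroupOf K)), ∃ b ∈ Subgroup.normalizer ((Cfsg.inducedFunctor (G := (↥K ⧸ R.subgroupOf K)) W₂ (T : Subgroup (↥K ⧸ R.subgroupOf K)) : Subgroup (↥K ⧸ R.subgroupOf K)) : Set (↥K ⧸ R.subgroupOf K)), x = a * b) : Cfsg.FamilyControlsStrongFusionIn p {Cfsg.inducedFunctor (G := G)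 W₁, Cfsg.inducedFunctor (G := G) W₂} ⊤ := by
  classical
  have h𝓦 : ∀ W' ∈ ({W₁, W₂} : Set (∀ (Q : Type u) [Group Q], Subgroup Q)), Cfsg.IsCharPFunctor.{u} p W' := by
    rintro W' (rfl | rfl)
    · exact hW₁
    · exact hW₂
  have hmain : Cfsg.FamilyControlsStrongFusionIn p
      (H09.indF ({W₁, W₂} : Set (∀ (Q : Type u) [Group Q], Subgroup Q)) G) ⊤ := by
    refine H09.sect_main_sections h𝓦 ?_ G H09.involves_self
    intro K R hR hcon
    obtain ⟨S⟩ : Nonempty (Sylow p (↥K ⧸ R.subgroupOf K)) := inferInstance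
    have hf := hfac K R hcon S
    refine H09.familyControls_of_sctl S ?_
    intro A g hA hgA
    have h1 : Cfsg.inducedFunctor (G := (↥K ⧸ R.subgroupOf K)) W₁ ∈
        H09.indF ({W₁, W₂} : Set (∀ (Q : Type u) [Group Q], Subgroup Q)) (↥K ⧸ R.subgroupOf K) :=
      ⟨W₁, Or.inl rfl, rfl⟩
    have h2 : Cfsg.inducedFunctor (G := (↥K ⧸ R.subgroupOf K)) W₂ ∈
        H09.indF ({W₁, W₂} : Set (∀ (Q : Type u) [Group Q], Subgroup Q)) (↥K ⧸ R.subgroupOf K) :=
      ⟨W₂, Or.inr rfl, rfl⟩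
    exact H09.pair_of_factor (H09.ind_conj_functor hW₁) (H09.ind_conj_functor hW₂) h1 h2 S hf hA hgA
  have e : H09.indF ({W₁, W₂} : Set (∀ (Q : Type u) [Group Q], Subgroup Q)) G =
      {Cfsg.inducedFunctor (G := G) W₁, Cfsg.inducedFunctor (G := G) W₂} := Set.image_pair _ _ _
  rwa [e] at hmain

end Cfsg.Agent.S1996
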