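import Cfsg.Statements.S2007
import Cfsg.Agent.Lib.H09.SylowIn
import Cfsg.Agent.Lib.H13.Residual

set_option autoImplicit false
open Cfsg

namespace Cfsg.Agent.S2007

/-- Let p be a prime, G a finite group with Sylow p-subgroup S, and T a normal subgroup of S containing C_S(T). If N_G(T)/C_G(T) is a p-group (every element of N_G(T) of order prime to p centralizes T), then N_G(T) has a normal p-complement. -/
theorem result {G : Type*} [Group G] [Finite G] {p : ℕ} [Fact p.Prime] (S : Sylow p G) (T : Subgroup G) (hTS : T ≤ (S : Subgroup G)) (hTn : (S : Subgroup G) ≤ Subgroup.normalizer ((T : Subgroup G) : Set G)) (hC : (S : Subgroup G) ⊓ Subgroup.centralizer ((T : Subgroup G) : Set G) ≤ T) (hN : ∀ g ∈ Subgroup.normalizer ((T : Subgroup G) : Set G), (orderOf g).Coprime p → g ∈ Subgroup.centralizer ((T : Subgroup G) : Set G)) : Cfsg.HasNormalPComplement p ↥(Subgroup.normalizer ((T : Subgroup G) : Set G)) := by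
  classical
  set N : Subgroup G := Subgroup.normalizer ((T : Subgroup G) : Set G) with hNdef
  let PS : Subgroup N := (S : Subgroup G).subgroupOf N
  have hSN : (S : Subgroup G) ≤ N := hTn
  have hPSp : IsPGroup p PS := IsPGroup.comap_of_injective S.isPGroup' _ (Subgroup.subtype_injective N)
  have hPSi : ¬ p ∣ PS.index := by
    intro hd
    apply S.not_dvd_index
    have h1 : PS.index = (S : Subgroup G).relIndex N := rfl
    rw [h1] at hd
    exact hd.trans (Subgroup.relIndex_dvd_index_of_le hSN |>.trans (by rfl))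
  let P : Sylow p N := hPSp.toSylow hPSi
  let K : Subgroup N := Cfsg.pResidual p N
  have hKn : K.Normal := H13.pResidual_normal'
  -- K centralizes T
  have hKC : ∀ x : N, x ∈ K → (x : G) ∈ Subgroup.centralizer ((T : Subgroup G) : Set G) := by
    intro x hx
    have : K ≤ (Subgroup.centralizer ((T : Subgroup G) : Set G)).subgroupOf N := by
      show Subgroup.closure _ ≤ _
      rw [Subgroup.closure_le]
      intro g hg
      have hg' : Nat.Coprime (orderOf g) p := hg
      have : Nat.Coprime (orderOf (g : G)) p := by rwa [Subgroup.orderOf_coe]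
      exact hN _ g.2 this
    exact this hx
  -- Sylow of K
  obtain ⟨Q, hQ⟩ := H13.exists_sylow_inf_normal P K
  -- Q is central in K
  have hQcent : ∀ q : K, q ∈ (Q : Subgroup K) → ∀ k : K, k * q = q * k := by
    intro q hq k
    have h1 : (q : N) ∈ (P : Subgroup N) ⊓ K := by
      rw [← hQ]; exact ⟨q, hq, rfl⟩
    have h2 : ((q : N) : G) ∈ (S : Subgroup G) := (Subgroup.mem_inf.1 h1).1
    have h3 : ((q : N) : G) ∈ T :=
      hC (Subgroup.mem_inf.2 ⟨h2, hKC _ q.2⟩)
    have h4 := Subgroup.mem_centralizer_iff.1 (hKC _ k.2) _ h3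
    apply Subtype.ext
    apply Subtype.ext
    exact h4.symm
  have hNC : Subgroup.normalizer ((Q : Subgroup K) : Set K) ≤
      Subgroup.centralizer ((Q : Subgroup K) : Set K) := by
    intro x _
    rw [Subgroup.mem_centralizer_iff]
    intro q hq
    exact (hQcent q hq x).symm
  -- Burnside
  have hcompl := MonoidHom.ker_transferSylow_isComplement' Q hNC
  set L := (MonoidHom.transferSylow Q hNC).ker with hL
  have hLtop : L = ⊤ := by
    rw [eq_top_iff]
    -- each generator lies in L
    have hgen : ∀ x : K, Nat.Coprime (orderOf x) p → x ∈ L := by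
      intro x hx
      rw [hL, MonoidHom.mem_ker]
      have h1 : orderOf (MonoidHom.transferSylow Q hNC x) ∣ orderOf x :=
        orderOf_map_dvd _ x
      have hpg : IsPGroup p (Q : Subgroup K) := Q.isPGroup'
      obtain ⟨k, hk⟩ := hpg (MonoidHom.transferSylow Q hNC x)
      have h2 : orderOf (MonoidHom.transferSylow Q hNC x) ∣ p ^ k := orderOf_dvd_of_pow_eq_one hk
      have h3 : Nat.Coprime (orderOf (MonoidHom.transferSylow Q hNC x)) (p ^ k) :=
        (Nat.Coprime.coprime_dvd_left h1 hx).pow_right k
      have h4 : orderOf (MonoidHom.transferSylow Q hNC x) = 1 := by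
        exact Nat.Coprime.eq_one_of_dvd h3 h2
      exact orderOf_eq_one_iff.1 h4
    intro x _
    have hxK : (x : N) ∈ K := x.2
    have h5 : K ≤ L.map K.subtype := by
      show Subgroup.closure _ ≤ _
      rw [Subgroup.closure_le]
      intro g hg
      have hg' : Nat.Coprime (orderOf g) p := hg
      have hgK : g ∈ K := Subgroup.subset_closure hg
      refine ⟨⟨g, hgK⟩, hgen _ ?_, rfl⟩
      rwa [Subgroup.orderOf_mk]
    obtain ⟨y, hy, hyx⟩ := h5 hxK
    have : y = x := Subtype.ext hyx
    rw [← this]; exact hy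
  have hQbot : (Q : Subgroup K) = ⊥ := by
    rw [hLtop] at hcompl
    have h6 := hcompl.card_mul
    rw [Subgroup.card_top] at h6
    have h7 : Nat.card (Q : Subgroup K) = 1 := by
      have h8 : 0 < Nat.card K := Nat.card_pos
      nlinarith
    exact Subgroup.eq_bot_of_card_eq _ h7
  have hcop : Nat.Coprime (Nat.card K) p := by
    rw [Nat.coprime_comm, Nat.Prime.coprime_iff_not_dvd Fact.out]
    intro hd
    have := Q.not_dvd_index
    rw [hQbot, Subgroup.index_bot] at this
    exact this hd
  refine ⟨P, K, hKn, ?_⟩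
  -- complement
  have hsup := H13.sylow_sup_pResidual (p := p) P
  apply Subgroup.isComplement'_of_disjoint_and_mul_eq_univ
  · rw [Subgroup.disjoint_def]
    intro x hxK hxP
    obtain ⟨k, hk⟩ := P.isPGroup' ⟨x, hxP⟩
    have h1 : x ^ p ^ k = 1 := by
      have := congrArg Subtype.val hk
      simpa using this
    have h2 : orderOf x ∣ p ^ k := orderOf_dvd_of_pow_eq_one h1
    have h3 : orderOf (⟨x, hxK⟩ : K) ∣ Nat.card K := orderOf_dvd_natCard _
    rw [Subgroup.orderOf_mk] at h3
    have h4 : Nat.Coprime (orderOf x) (p ^ k) :=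
      (Nat.Coprime.coprime_dvd_left h3 hcop).pow_right k
    have h5 := Nat.Coprime.eq_one_of_dvd h4 h2
    exact orderOf_eq_one_iff.1 h5
  · ext x
    simp only [Set.mem_mul, Set.mem_univ, iff_true]
    have hmem : x ∈ (P : Subgroup N) ⊔ K := by rw [hsup]; exact Subgroup.mem_top x
    obtain ⟨u, hu, o, ho, huo⟩ := Subgroup.mem_sup_of_normal_right.1 hmem
    refine ⟨u * o * u⁻¹, hKn.conj_mem o ho u, u, hu, ?_⟩
    rw [← huo]; group

end Cfsg.Agent.S2007
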