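import Cfsg.Statements.S2008
import Cfsg.Agent.Lib.H09.KleinInv

set_option autoImplicit false
open Cfsg

namespace Cfsg.Agent.S2008

/-- Let H be a finite group and z an involution such that every proper normal subgroup of H meets the centralizer of z trivially, and suppose z lies in a Klein four-subgroup E of H all three of whose involutions are conjugate to z in H. Then H has no non-trivial abelian normal subgroup. -/
theorem result {H : Type*} [Group H] [Finite H] (z : H) (hz : orderOf z = 2) (hN : ∀ N : Subgroup H, N.Normal → N ≠ ⊤ → N ⊓ Subgroup.centralizer ({z} : Set H) = ⊥) (E : Subgroup H) (hE : IsKleinFour ↥E) (hzE : z ∈ E) (hc : ∀ e ∈ E, e ≠ 1 → IsConj z e) (N : Subgroup H) [N.Normal] (hab : IsMulCommutative ↥N) : N = ⊥ := by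
  classical
  by_cases hne : N = ⊤
  · exfalso
    subst hne
    have hab : ∀ a b : H, a * b = b * a := fun a b => by
      have := hab.is_comm.comm ⟨a, Subgroup.mem_top a⟩ ⟨b, Subgroup.mem_top b⟩
      simpa [Subtype.ext_iff] using this
    have hcomm : ∀ e ∈ E, e ≠ 1 → e = z := by
      intro e he he1
      obtain ⟨c, rfl⟩ := isConj_iff.1 (hc e he he1)
      rw [hab c z]; group
    have hcard : Nat.card E = 4 := hE.card_four
    haveI : Fintype E := Fintype.ofFinite _
    have hsub : (Finset.univ : Finset E) ⊆ {1, ⟨z, hzE⟩} := by
      intro e _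
      by_cases he1 : (e : H) = 1
      · have : e = 1 := Subtype.ext he1
        simp [this]
      · have : e = ⟨z, hzE⟩ := Subtype.ext (hcomm e e.2 he1)
        simp [this]
    have h2 := Finset.card_le_card hsub
    rw [Finset.card_univ, ← Nat.card_eq_fintype_card, hcard] at h2
    have h3 : ({1, ⟨z, hzE⟩} : Finset E).card ≤ 2 := Finset.card_le_two
    omega
  · exact H09.normal_eq_bot_of_klein z hz hN E hE hzE hc N hne

end Cfsg.Agent.S2008
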