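import Cfsg.Statements.S2034
import Cfsg.Agent.Lib.H09.M11Mult

set_option autoImplicit false
open Cfsg

namespace Cfsg.Agent.S2034

open Cfsg.Agent.H07.Orb Cfsg.Agent.H09.M11 Cfsg.Agent.H19

/-- Isomorphism invariance of a trivial multiplier. -/
theorem mult_one_congr {G H : Type} [Group G] [Group H] [Finite G] [Finite H] (e : G ≃* H)
    (h : Cfsg.HasCyclicSchurMultiplier G 1) : Cfsg.HasCyclicSchurMultiplier H 1 := by
  rw [Hopf.hasCyclic_one_iff] at h ⊢
  intro Δ _ _ τ hτ
  have hk : (e.symm.toMonoidHom.comp τ).ker = τ.ker := by
    ext x
    simp [MonoidHom.mem_ker]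
  have := h Δ (e.symm.toMonoidHom.comp τ) ⟨e.symm.surjective.comp hτ.1, by rw [hk]; exact hτ.2.1,
    by rw [hk]; exact hτ.2.2⟩
  rwa [hk] at this

/-- The Schur multiplier of the Mathieu group M₁₁ (the stabiliser of a dodecad and one of its points in the automorphism group of the length-24 binary code) is trivial; here the Schur multiplier is described through stem extensions, as in the definitions: surjective homomorphisms onto the group from a finite group, whose kernel is central in that finite group and contained in that finite group's commutator subgroup. -/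
theorem result : Cfsg.HasCyclicSchurMultiplier ↥Cfsg.Spor.M11 1 := by
  obtain ⟨k, _, e, _⟩ := exists_iso
  exact mult_one_congr e HD1_mult

end Cfsg.Agent.S2034
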