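import Cfsg.Statements.S2037
import Cfsg.Agent.Lib.H09.DC3
import Cfsg.Agent.Lib.H09.GolayLoc
import Cfsg.Agent.Lib.H09.M23Data
import Cfsg.Agent.Lib.H02.Gol3

set_option autoImplicit false
set_option linter.unusedSectionVars false
set_option linter.unusedVariables false
set_option linter.style.haveILetI false
set_option maxRecDepth 100000
open Cfsg

namespace Cfsg.Agent.S2037

open Cfsg.Agent.H09 Cfsg.Agent.H09.DC Cfsg.Agent.H09.M23 Cfsg.Agent.H27.Golay Cfsg.Agent.H07.Orb
open scoped Pointwise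

abbrev Q := ↥Cfsg.Spor.M23

def is23 (c : ℕ) : Bool := isM24 c && Nat.beq (pa c 23) 23

theorem none_eq : (none : GolayPt) = pt 23 := rfl

theorem hin : ∀ c, is23 c = true → P c ∈ Cfsg.Spor.M23 ∧ permOK c = true := by
  intro c h
  rw [is23, Bool.and_eq_true] at h
  have hok := isM24_permOK h.1
  refine ⟨⟨P_mem_M24 h.1, ?_⟩, hok⟩
  show P c none = none
  rw [none_eq, P_pt hok (by norm_num), Nat.eq_of_beq_eq_true h.2]

theorem hS : CodeSub is23 cV where
  mem := by decide +kernel
  one := by decide +kernel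
  mul := by decide +kernel
  inv := by decide +kernel

theorem h_e1 : is23 cE1 = true := by decide +kernel
theorem h_e2 : is23 cE2 = true := by decide +kernel
theorem h_e3 : is23 cE3 = true := by decide +kernel

noncomputable abbrev e1 : Q := mk hin cE1 h_e1
noncomputable abbrev e2 : Q := mk hin cE2 h_e2
noncomputable abbrev e3 : Q := mk hin cE3 h_e3
noncomputable abbrev VV : Subgroup Q := Vs hS hin

theorem ok1 : permOK cE1 = true := (hin cE1 h_e1).2
theorem ok2 : permOK cE2 = true := (hin cE2 h_e2).2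
theorem ok3 : permOK cE3 = true := (hin cE3 h_e3).2

theorem mk_ne {c : ℕ} (hc : permOK c = true) (h : pEq c idCode = false) : P c ≠ 1 := by
  intro e
  rw [← P_idCode] at e
  rw [(pEq_iff hc idc_ok).2 e] at h
  cases h

theorem hd : VData VV e1 e2 e3 where
  sq := Vs_sq hin hS
  cj := Vs_cj hin hS h_e1 (K := cK) (by decide +kernel)
  m1 := ⟨cE1, by decide +kernel, rfl⟩
  m2 := ⟨cE2, by decide +kernel, rfl⟩
  m3 := ⟨cE3, by decide +kernel, rfl⟩
  n1 := fun h => mk_ne ok1 (by decide +kernel) (congrArg Subtype.val h)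
  n2 := fun h => mk_ne ok2 (by decide +kernel) (congrArg Subtype.val h)
  n3 := fun h => mk_ne ok3 (by decide +kernel) (congrArg Subtype.val h)
  n12 := fun h => by
    have h1 : P cE1 * P cE2 = 1 := congrArg Subtype.val h
    rw [← P_pcomp ok1 ok2] at h1
    exact mk_ne (permOK_pcomp ok1 ok2) (by decide +kernel) h1
  n13 := fun h => by
    have h1 : P cE1 * P cE3 = 1 := congrArg Subtype.val h
    rw [← P_pcomp ok1 ok3] at h1
    exact mk_ne (permOK_pcomp ok1 ok3) (by decide +kernel) h1
  n23 := fun h => by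
    have h1 : P cE2 * P cE3 = 1 := congrArg Subtype.val h
    rw [← P_pcomp ok2 ok3] at h1
    exact mk_ne (permOK_pcomp ok2 ok3) (by decide +kernel) h1
  n123 := fun h => by
    have h1 : P cE1 * (P cE2 * P cE3) = 1 := congrArg Subtype.val h
    rw [← P_pcomp ok2 ok3, ← P_pcomp ok1 (permOK_pcomp ok2 ok3)] at h1
    exact mk_ne (permOK_pcomp ok1 (permOK_pcomp ok2 ok3)) (by decide +kernel) h1

theorem card_VV : Nat.card VV = 16 := by
  have := card_Vs hin hS (by decide +kernel) (by decide +kernel)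
  rw [this]
  rfl

theorem hcard : Nat.card Q = 10200960 := by
  have h1 := Cfsg.Agent.H02.Gol.card_point_stab none
  rw [← h1]
  refine Nat.card_congr ⟨fun x => ⟨⟨x.1, x.2.1⟩, x.2.2⟩, fun y => ⟨y.1.1, ⟨y.1.2, y.2⟩⟩, fun x => rfl, fun y => rfl⟩

/-- Total versions of the generators of the chain. -/
theorem allT : allL is23 cT = true := by decide +kernel

theorem h_id : is23 idCode = true := by decide +kernel

theorem getD_is23 (i : ℕ) : is23 (cT.getD i idCode) = true := by
  by_cases hi : i < cT.length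
  · apply allL_spec allT
    rw [List.getD_eq_getElem _ _ hi]
    exact List.getElem_mem hi
  · rw [List.getD_eq_default _ _ (by omega)]
    exact h_id

noncomputable def tt (i : ℕ) : Q := mk hin (cT.getD i idCode) (getD_is23 i)

theorem good_all : allL (goodChk cV) cT = true := by decide +kernel

theorem hg : ∀ i ≤ 6, Good VV (tt i) := by
  intro i hi
  apply good_of_chk hin hS
  apply allL_spec good_all
  have hl : i < cT.length := by
    have : cT.length = 7 := by decide
    omega
  rw [List.getD_eq_getElem _ _ hl]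
  exact List.getElem_mem hl

theorem ok_T (i : ℕ) : permOK (cT.getD i idCode) = true := (hin _ (getD_is23 i)).2

theorem chain_chk : ∀ i : Fin 6, pEq (pcomp (cT.getD i idCode) (cT.getD (i + 1) idCode))
    (pcomp (cT.getD (i + 1) idCode) (cT.getD i idCode)) = true := by decide +kernel

theorem hch : ∀ i < 6, tt i * tt (i + 1) = tt (i + 1) * tt i := by
  intro i hi
  apply Subtype.ext
  show P _ * P _ = P _ * P _
  rw [← P_pcomp (ok_T i) (ok_T (i + 1)), ← P_pcomp (ok_T (i + 1)) (ok_T i)]
  exact (pEq_iff (permOK_pcomp (ok_T i) (ok_T (i + 1))) (permOK_pcomp (ok_T (i + 1)) (ok_T i))).1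
    (chain_chk ⟨i, hi⟩)

theorem h_a : is23 cA = true := by decide +kernel
theorem h_b : is23 cB = true := by decide +kernel
theorem ok_a : permOK cA = true := (hin cA h_a).2
theorem ok_b : permOK cB = true := (hin cB h_b).2

noncomputable abbrev aa : Q := mk hin cA h_a
noncomputable abbrev bb : Q := mk hin cB h_b

/-- The code of the square of the product. -/
def cU : ℕ := pcomp (pcomp cA cB) (pcomp cA cB)

theorem ok_u : permOK cU = true := permOK_pcomp (permOK_pcomp ok_a ok_b) (permOK_pcomp ok_a ok_b)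

theorem coe_u : (((aa * bb) ^ 2 : Q) : Equiv.Perm GolayPt) = P cU := by
  rw [cU, P_pcomp (permOK_pcomp ok_a ok_b) (permOK_pcomp ok_a ok_b), P_pcomp ok_a ok_b, pow_two]
  rfl

/-- Conjugates in the group. -/
theorem isConj_of_code {e x k : ℕ} (he : is23 e = true) (hk : is23 k = true) (g : Q)
    (hg : (g : Equiv.Perm GolayPt) = P x) (hx : permOK x = true) (h : pEq (pconj k e) x = true) :
    IsConj (mk hin e he) g := by
  have hk' := (hin k hk).2
  have he' := (hin e he).2
  rw [isConj_iff]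
  refine ⟨mk hin k hk, Subtype.ext ?_⟩
  have h3 := (pEq_iff (permOK_pconj hk' he') hx).1 h
  rw [P_pconj hk' he'] at h3
  show P k * P e * (P k)⁻¹ = _
  rw [h3, hg]

theorem ha : IsConj e1 aa :=
  isConj_of_code h_e1 (k := kA) (by decide +kernel) aa rfl ok_a (by decide +kernel)
theorem hb : IsConj e1 bb :=
  isConj_of_code h_e1 (k := kB) (by decide +kernel) bb rfl ok_b (by decide +kernel)
theorem hu : IsConj e1 ((aa * bb) ^ 2) :=
  isConj_of_code h_e1 (k := kU) (by decide +kernel) _ coe_u ok_u (by decide +kernel)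

theorem tt_mem (i : ℕ) (hi : i ≤ 6) : tt i ∈ Subgroup.closure (tt '' {i | i ≤ 6}) :=
  Subgroup.subset_closure ⟨i, hi, rfl⟩

theorem hNa : aa ∈ Subgroup.closure (tt '' {i | i ≤ 6}) := by
  have e : aa = tt 4 * tt 6 := by
    apply Subtype.ext
    show P cA = P _ * P _
    rw [← P_pcomp (ok_T 4) (ok_T 6)]
    exact (pEq_iff ok_a (permOK_pcomp (ok_T 4) (ok_T 6))).1 (by decide +kernel)
  rw [e]
  exact Subgroup.mul_mem _ (tt_mem 4 (by norm_num)) (tt_mem 6 (by norm_num))

theorem hNb : bb ∈ Subgroup.closure (tt '' {i | i ≤ 6}) := by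
  have e : bb = tt 2 * tt 0 := by
    apply Subtype.ext
    show P cB = P _ * P _
    rw [← P_pcomp (ok_T 2) (ok_T 0)]
    exact (pEq_iff ok_b (permOK_pcomp (ok_T 2) (ok_T 0))).1 (by decide +kernel)
  rw [e]
  exact Subgroup.mul_mem _ (tt_mem 2 (by norm_num)) (tt_mem 0 (by norm_num))

/-- The order of the subgroup of odd index. -/
theorem hP : 128 ≤ Nat.card ↥(VV ⊔ Subgroup.zpowers ((aa * bb) ^ 2) ⊔ Subgroup.zpowers aa ⊔ Subgroup.zpowers bb) := by
  have hV1 : ∀ m, allL (fun c => Nat.beq (am c m) m) cV = true → VV ≤ maskSub _ m := by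
    rintro m h v ⟨c, hc, e⟩
    exact mem_maskSub_code e (hin c (allL_spec hS.mem c hc)).2
      (Nat.eq_of_beq_eq_true (allL_spec h c hc))
  -- first step
  have s1 : (aa * bb) ^ 2 ∉ VV := by
    intro hm
    have h1 := hV1 4 (by decide +kernel) hm
    exact not_mem_maskSub_code coe_u ok_u (m := 4) (by decide +kernel) (by decide +kernel) (by decide +kernel) h1
  have s2 : aa ∉ VV ⊔ Subgroup.zpowers ((aa * bb) ^ 2) := by
    intro hm
    have hle : VV ⊔ Subgroup.zpowers ((aa * bb) ^ 2) ≤ maskSub _ 2048 := by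
      refine sup_le (hV1 2048 (by decide +kernel)) ?_
      rw [Subgroup.zpowers_le]
      exact mem_maskSub_code coe_u ok_u (by decide +kernel)
    exact not_mem_maskSub_code (g := aa) rfl ok_a (m := 2048) (by decide +kernel) (by decide +kernel)
      (by decide +kernel) (hle hm)
  have s3 : bb ∉ VV ⊔ Subgroup.zpowers ((aa * bb) ^ 2) ⊔ Subgroup.zpowers aa := by
    intro hm
    have hle : VV ⊔ Subgroup.zpowers ((aa * bb) ^ 2) ⊔ Subgroup.zpowers aa ≤ maskSub _ 260 := by
      refine sup_le (sup_le (hV1 260 (by decide +kernel)) ?_) ?_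
      · rw [Subgroup.zpowers_le]
        exact mem_maskSub_code coe_u ok_u (by decide +kernel)
      · rw [Subgroup.zpowers_le]
        exact mem_maskSub_code (g := aa) rfl ok_a (by decide +kernel)
    exact not_mem_maskSub_code (g := bb) rfl ok_b (m := 260) (by decide +kernel) (by decide +kernel)
      (by decide +kernel) (hle hm)
  have c1 := strict_step s1
  have c2 := strict_step s2
  have c3 := strict_step s3
  rw [card_VV] at c1
  omega

theorem two_case {Δ : Type} [Group Δ] [Finite Δ] (τ : Δ →* Q) (hτ : Cfsg.IsStemExtension τ)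
    (hc : Nat.card τ.ker = 2) : False :=
  two_part_D8 τ hτ hc hd tt 6 hg hch ha hb hu hNa hNb card_VV (m := 79695) (by rw [hcard]) (by decide) hP

theorem h_a3 : is23 cA3 = true := by decide +kernel
theorem h_b3 : is23 cB3 = true := by decide +kernel
theorem h_g3 : is23 cG3 = true := by decide +kernel
theorem ok_a3 : permOK cA3 = true := (hin cA3 h_a3).2
theorem ok_b3 : permOK cB3 = true := (hin cB3 h_b3).2
theorem ok_g3 : permOK cG3 = true := (hin cG3 h_g3).2

noncomputable abbrev a3 : Q := mk hin cA3 h_a3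
noncomputable abbrev b3 : Q := mk hin cB3 h_b3
noncomputable abbrev g3 : Q := mk hin cG3 h_g3

theorem cube_of_code {c : ℕ} (hc : permOK c = true) (h : pEq (pcomp c (pcomp c c)) idCode = true) : P c ^ 3 = 1 := by
  have h1 := (pEq_iff (permOK_pcomp hc (permOK_pcomp hc hc)) idc_ok).1 h
  rw [P_pcomp hc (permOK_pcomp hc hc), P_pcomp hc hc, P_idCode] at h1
  rw [pow_succ', pow_two]
  exact h1

theorem a33 : a3 ^ 3 = 1 := Subtype.ext (cube_of_code ok_a3 (by decide +kernel))
theorem b33 : b3 ^ 3 = 1 := Subtype.ext (cube_of_code ok_b3 (by decide +kernel))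
theorem a3_ne : a3 ≠ 1 := fun h => mk_ne ok_a3 (by decide +kernel) (congrArg Subtype.val h)

theorem ab3 : a3 * b3 = b3 * a3 := by
  apply Subtype.ext
  show P cA3 * P cB3 = P cB3 * P cA3
  rw [← P_pcomp ok_a3 ok_b3, ← P_pcomp ok_b3 ok_a3]
  exact (pEq_iff (permOK_pcomp ok_a3 ok_b3) (permOK_pcomp ok_b3 ok_a3)).1 (by decide +kernel)

theorem ga3 : g3 * a3 * g3⁻¹ = a3 := by
  apply Subtype.ext
  show P cG3 * P cA3 * (P cG3)⁻¹ = P cA3
  rw [← P_pconj ok_g3 ok_a3]
  exact (pEq_iff (permOK_pconj ok_g3 ok_a3) ok_a3).1 (by decide +kernel)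

theorem gb3 : g3 * b3 * g3⁻¹ = b3⁻¹ := by
  apply Subtype.ext
  show P cG3 * P cB3 * (P cG3)⁻¹ = (P cB3)⁻¹
  rw [← P_pconj ok_g3 ok_b3, ← P_pinv ok_b3]
  exact (pEq_iff (permOK_pconj ok_g3 ok_b3) (permOK_pinv ok_b3)).1 (by decide +kernel)

theorem b3_not : b3 ∉ Subgroup.zpowers a3 := by
  intro h
  obtain ⟨k, hk⟩ := Subgroup.mem_zpowers_iff.mp h
  have h1 : ((a3 ^ k : Q) : Equiv.Perm GolayPt) = P cB3 := congrArg Subtype.val hk
  have h2 : (P cA3) ^ k = P cB3 := by
    rw [← h1]
    rfl
  have hf : P cA3 (pt 2) = pt 2 := by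
    rw [P_pt ok_a3 (by norm_num)]
    have : pa cA3 2 = 2 := by decide +kernel
    rw [this]
  have h3 := Equiv.Perm.zpow_apply_eq_self_of_apply_eq_self hf k
  rw [h2, P_pt ok_b3 (by norm_num)] at h3
  have h4 := congrArg idx h3
  rw [idx_pt' (pa_lt ok_b3 (by norm_num)), idx_pt' (by norm_num)] at h4
  have h5 : pa cB3 2 ≠ 2 := by decide +kernel
  exact h5 h4

/-- The Schur multiplier of the Mathieu group M₂₃ (the stabiliser of a point in the automorphism group of the length-24 binary code) is trivial; here the Schur multiplier is described through stem extensions, as in the definitions: surjective homomorphisms onto the group from a finite group, whose kernel is central in that finite group and contained in that finite group's commutator subgroup. -/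
theorem result : Cfsg.HasCyclicSchurMultiplier ↥Cfsg.Spor.M23 1 := by
  rw [Cfsg.Agent.H19.Hopf.hasCyclic_one_iff]
  intro Δ _ _ τ hτ
  refine Cfsg.Agent.H09.ker_eq_bot_of_prime ?_ τ hτ
  intro Δ _ _ τ hτ r hr hc
  by_cases hr2 : r = 2
  · subst hr2
    exact two_case τ hτ hc
  obtain ⟨z, hzk, hzo⟩ := exists_of_card_prime τ hr hc
  by_cases hr3 : r = 3
  · subst hr3
    exact three_part τ hτ a33 a3_ne b33 ab3 b3_not ga3 gb3 (m := 1133440) (by rw [hcard]) (by decide) hzk hzo
  refine odd_part τ hτ hr ?_ hzk hzo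
  rw [hcard]
  intro hd
  have h1 : Nat.Coprime r 1152 := by
    have e : (1152 : ℕ) = 2 ^ 7 * 3 ^ 2 := by norm_num
    rw [e]
    apply Nat.Coprime.mul_right
    · exact Nat.Coprime.pow_right _ ((Nat.coprime_primes hr Nat.prime_two).2 hr2)
    · exact Nat.Coprime.pow_right _ ((Nat.coprime_primes hr Nat.prime_three).2 hr3)
  have h2 : r ^ 2 ∣ 8855 := by
    have e : (10200960 : ℕ) = 1152 * 8855 := by norm_num
    rw [e] at hd
    exact (Nat.Coprime.pow_left 2 h1).dvd_of_dvd_mul_left hd
  have h3 : r ^ 2 ≤ 8855 := Nat.le_of_dvd (by norm_num) h2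
  have h4 : r ≤ 94 := by nlinarith
  have hall : ∀ r ≤ 94, 1 < r → ¬ r ^ 2 ∣ 8855 := by decide
  exact hall r h4 hr.one_lt h2

end Cfsg.Agent.S2037
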