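import Cfsg.Statements.S2038
import Cfsg.Agent.Lib.H09.DC4
import Cfsg.Agent.Lib.H09.DC5
import Cfsg.Agent.Lib.H09.GolayLoc
import Cfsg.Agent.Lib.H09.M23Data
import Cfsg.Agent.Lib.H09.M24Data
import Cfsg.Agent.Lib.H27.GolayTrans

set_option autoImplicit false
set_option linter.unusedSectionVars false
set_option linter.unusedVariables false
set_option linter.style.haveILetI false
set_option maxRecDepth 100000
open Cfsg

namespace Cfsg.Agent.S2038

open Cfsg.Agent.H09 Cfsg.Agent.H09.DC Cfsg.Agent.H09.M24D Cfsg.Agent.H27.Golay Cfsg.Agent.H07.Orb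
open Cfsg.Agent.H09.M23 (cV cK cE1 cE2 cE3)
open scoped Pointwise commutatorElement

abbrev Q := ↥Cfsg.M24

theorem hin : ∀ c, isM24 c = true → P c ∈ Cfsg.M24 ∧ permOK c = true := by
  intro c h
  exact ⟨P_mem_M24 h, isM24_permOK h⟩

theorem hS : CodeSub isM24 cV where
  mem := by decide +kernel
  one := by decide +kernel
  mul := by decide +kernel
  inv := by decide +kernel

theorem h_e1 : isM24 cE1 = true := by decide +kernel
theorem h_e2 : isM24 cE2 = true := by decide +kernel
theorem h_e3 : isM24 cE3 = true := by decide +kernel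

noncomputable abbrev e1 : Q := mk hin cE1 h_e1
noncomputable abbrev e2 : Q := mk hin cE2 h_e2
noncomputable abbrev e3 : Q := mk hin cE3 h_e3
noncomputable abbrev VV : Subgroup Q := Vs hS hin

theorem ok1 : permOK cE1 = true := (hin cE1 h_e1).2
theorem ok2 : permOK cE2 = true := (hin cE2 h_e2).2
theorem ok3 : permOK cE3 = true := (hin cE3 h_e3).2

theorem mk_ne {c : ℕ} (hc : permOK c = true) (h : pEq c idCode = false) : P c ≠ 1 := by
  intro e
  rw [← P_idCode] at e
  rw [(pEq_iff hc idc_ok).2 e] at h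
  cases h

theorem hd : VData VV e1 e2 e3 where
  sq := Vs_sq hin hS
  cj := Vs_cj hin hS h_e1 (K := cK) (by decide +kernel)
  m1 := ⟨cE1, by decide +kernel, rfl⟩
  m2 := ⟨cE2, by decide +kernel, rfl⟩
  m3 := ⟨cE3, by decide +kernel, rfl⟩
  n1 := fun h => mk_ne ok1 (by decide +kernel) (congrArg Subtype.val h)
  n2 := fun h => mk_ne ok2 (by decide +kernel) (congrArg Subtype.val h)
  n3 := fun h => mk_ne ok3 (by decide +kernel) (congrArg Subtype.val h)
  n12 := fun h => by
    have h1 : P cE1 * P cE2 = 1 := congrArg Subtype.val h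
    rw [← P_pcomp ok1 ok2] at h1
    exact mk_ne (permOK_pcomp ok1 ok2) (by decide +kernel) h1
  n13 := fun h => by
    have h1 : P cE1 * P cE3 = 1 := congrArg Subtype.val h
    rw [← P_pcomp ok1 ok3] at h1
    exact mk_ne (permOK_pcomp ok1 ok3) (by decide +kernel) h1
  n23 := fun h => by
    have h1 : P cE2 * P cE3 = 1 := congrArg Subtype.val h
    rw [← P_pcomp ok2 ok3] at h1
    exact mk_ne (permOK_pcomp ok2 ok3) (by decide +kernel) h1
  n123 := fun h => by
    have h1 : P cE1 * (P cE2 * P cE3) = 1 := congrArg Subtype.val h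
    rw [← P_pcomp ok2 ok3, ← P_pcomp ok1 (permOK_pcomp ok2 ok3)] at h1
    exact mk_ne (permOK_pcomp ok1 (permOK_pcomp ok2 ok3)) (by decide +kernel) h1

theorem card_VV : Nat.card VV = 16 := by
  have := card_Vs hin hS (by decide +kernel) (by decide +kernel)
  rw [this]
  rfl

theorem hcard : Nat.card Q = 244823040 := Cfsg.Agent.H27.Golay.card_M24

/-- Total versions of the generators of the chain. -/
theorem allT : allL isM24 cTc = true := by decide +kernel

theorem h_id : isM24 idCode = true := idCode_spec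

theorem getD_in (i : ℕ) : isM24 (cTc.getD i idCode) = true := by
  by_cases hi : i < cTc.length
  · apply allL_spec allT
    rw [List.getD_eq_getElem _ _ hi]
    exact List.getElem_mem hi
  · rw [List.getD_eq_default _ _ (by omega)]
    exact h_id

noncomputable def tt (i : ℕ) : Q := mk hin (cTc.getD i idCode) (getD_in i)

theorem good_all : allL (goodChk cV) cTc = true := by decide +kernel

theorem hg : ∀ i ≤ 11, Good VV (tt i) := by
  intro i hi
  apply good_of_chk hin hS
  apply allL_spec good_all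
  have hl : i < cTc.length := by
    have : cTc.length = 12 := by decide
    omega
  rw [List.getD_eq_getElem _ _ hl]
  exact List.getElem_mem hl

theorem ok_T (i : ℕ) : permOK (cTc.getD i idCode) = true := (hin _ (getD_in i)).2

theorem chain_chk : ∀ i : Fin 11, pEq (pcomp (cTc.getD i idCode) (cTc.getD (i + 1) idCode))
    (pcomp (cTc.getD (i + 1) idCode) (cTc.getD i idCode)) = true := by decide +kernel

theorem hch : ∀ i < 11, tt i * tt (i + 1) = tt (i + 1) * tt i := by
  intro i hi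
  apply Subtype.ext
  show P _ * P _ = P _ * P _
  rw [← P_pcomp (ok_T i) (ok_T (i + 1)), ← P_pcomp (ok_T (i + 1)) (ok_T i)]
  exact (pEq_iff (permOK_pcomp (ok_T i) (ok_T (i + 1))) (permOK_pcomp (ok_T (i + 1)) (ok_T i))).1
    (chain_chk ⟨i, hi⟩)

theorem h_a : isM24 cA = true := by decide +kernel
theorem h_b : isM24 cB = true := by decide +kernel
theorem h_c : isM24 cC = true := by decide +kernel
theorem ok_a : permOK cA = true := (hin cA h_a).2
theorem ok_b : permOK cB = true := (hin cB h_b).2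
theorem ok_c : permOK cC = true := (hin cC h_c).2

noncomputable abbrev aa : Q := mk hin cA h_a
noncomputable abbrev bb : Q := mk hin cB h_b
noncomputable abbrev cc : Q := mk hin cC h_c

/-- Squares of products of two involutions. -/
def sqc (x y : ℕ) : ℕ := pcomp (pcomp x y) (pcomp x y)

theorem ok_sqc {x y : ℕ} (hx : permOK x = true) (hy : permOK y = true) : permOK (sqc x y) = true :=
  permOK_pcomp (permOK_pcomp hx hy) (permOK_pcomp hx hy)

theorem P_sqc {x y : ℕ} (hx : permOK x = true) (hy : permOK y = true) : P (sqc x y) = (P x * P y) ^ 2 := by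
  rw [sqc, P_pcomp (permOK_pcomp hx hy) (permOK_pcomp hx hy), P_pcomp hx hy, pow_two]

def cD : ℕ := sqc cA cB
def cE : ℕ := sqc cB cC
def cF : ℕ := sqc cD cC

theorem ok_d : permOK cD = true := ok_sqc ok_a ok_b
theorem ok_e : permOK cE = true := ok_sqc ok_b ok_c
theorem ok_f : permOK cF = true := ok_sqc ok_d ok_c

noncomputable abbrev dd : Q := (aa * bb) ^ 2
noncomputable abbrev ee : Q := (bb * cc) ^ 2
noncomputable abbrev ff : Q := (dd * cc) ^ 2

theorem coe_d : (dd : Equiv.Perm GolayPt) = P cD := by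
  rw [cD, P_sqc ok_a ok_b]
  rfl

theorem coe_e : (ee : Equiv.Perm GolayPt) = P cE := by
  rw [cE, P_sqc ok_b ok_c]
  rfl

theorem coe_f : (ff : Equiv.Perm GolayPt) = P cF := by
  rw [cF, P_sqc ok_d ok_c]
  show ((dd * cc) ^ 2 : Q).val = _
  rw [Subgroup.coe_pow, Subgroup.coe_mul, coe_d]
  rfl

/-- Conjugates in the group. -/
theorem isConj_of_code {e x k : ℕ} (he : isM24 e = true) (hk : isM24 k = true) (g : Q)
    (hg : (g : Equiv.Perm GolayPt) = P x) (hx : permOK x = true) (h : pEq (pconj k e) x = true) :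
    IsConj (mk hin e he) g := by
  have hk' := (hin k hk).2
  have he' := (hin e he).2
  rw [isConj_iff]
  refine ⟨mk hin k hk, Subtype.ext ?_⟩
  have h3 := (pEq_iff (permOK_pconj hk' he') hx).1 h
  rw [P_pconj hk' he'] at h3
  show P k * P e * (P k)⁻¹ = _
  rw [h3, hg]

theorem ca : IsConj e1 aa :=
  isConj_of_code h_e1 (k := kA) (by decide +kernel) aa rfl ok_a (by decide +kernel)
theorem cb : IsConj e1 bb :=
  isConj_of_code h_e1 (k := kB) (by decide +kernel) bb rfl ok_b (by decide +kernel)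
theorem cc' : IsConj e1 cc :=
  isConj_of_code h_e1 (k := kC) (by decide +kernel) cc rfl ok_c (by decide +kernel)
theorem cd : IsConj e1 dd :=
  isConj_of_code h_e1 (k := kD) (by decide +kernel) dd coe_d ok_d (by decide +kernel)
theorem ce : IsConj e1 ee :=
  isConj_of_code h_e1 (k := kE) (by decide +kernel) ee coe_e ok_e (by decide +kernel)
theorem cf : IsConj e1 ff :=
  isConj_of_code h_e1 (k := kF) (by decide +kernel) ff coe_f ok_f (by decide +kernel)
theorem cac : IsConj e1 (aa * cc) :=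
  isConj_of_code h_e1 (k := kAC) (by decide +kernel) (aa * cc)
    (by
      show (aa : Equiv.Perm GolayPt) * (cc : Equiv.Perm GolayPt) = _
      rw [P_pcomp ok_a ok_c, coe_mk, coe_mk])
    (permOK_pcomp ok_a ok_c) (x := pcomp cA cC) (by decide +kernel)
theorem cad : IsConj e1 (aa * dd) :=
  isConj_of_code h_e1 (k := kAD) (by decide +kernel) (aa * dd)
    (by
      show (aa : Equiv.Perm GolayPt) * (dd : Equiv.Perm GolayPt) = _
      rw [P_pcomp ok_a ok_d, coe_mk, coe_d])
    (permOK_pcomp ok_a ok_d) (x := pcomp cA cD) (by decide +kernel)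
theorem cbd : IsConj e1 (bb * dd) :=
  isConj_of_code h_e1 (k := kBD) (by decide +kernel) (bb * dd)
    (by
      show (bb : Equiv.Perm GolayPt) * (dd : Equiv.Perm GolayPt) = _
      rw [P_pcomp ok_b ok_d, coe_mk, coe_d])
    (permOK_pcomp ok_b ok_d) (x := pcomp cB cD) (by decide +kernel)
theorem cbe : IsConj e1 (bb * ee) :=
  isConj_of_code h_e1 (k := kBE) (by decide +kernel) (bb * ee)
    (by
      show (bb : Equiv.Perm GolayPt) * (ee : Equiv.Perm GolayPt) = _
      rw [P_pcomp ok_b ok_e, coe_mk, coe_e])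
    (permOK_pcomp ok_b ok_e) (x := pcomp cB cE) (by decide +kernel)
theorem cce : IsConj e1 (cc * ee) :=
  isConj_of_code h_e1 (k := kCE) (by decide +kernel) (cc * ee)
    (by
      show (cc : Equiv.Perm GolayPt) * (ee : Equiv.Perm GolayPt) = _
      rw [P_pcomp ok_c ok_e, coe_mk, coe_e])
    (permOK_pcomp ok_c ok_e) (x := pcomp cC cE) (by decide +kernel)
theorem cde : IsConj e1 (dd * ee) :=
  isConj_of_code h_e1 (k := kDE) (by decide +kernel) (dd * ee)
    (by
      show (dd : Equiv.Perm GolayPt) * (ee : Equiv.Perm GolayPt) = _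
      rw [P_pcomp ok_d ok_e, coe_d, coe_e])
    (permOK_pcomp ok_d ok_e) (x := pcomp cD cE) (by decide +kernel)
theorem caf : IsConj e1 (aa * ff) :=
  isConj_of_code h_e1 (k := kAF) (by decide +kernel) (aa * ff)
    (by
      show (aa : Equiv.Perm GolayPt) * (ff : Equiv.Perm GolayPt) = _
      rw [P_pcomp ok_a ok_f, coe_mk, coe_f])
    (permOK_pcomp ok_a ok_f) (x := pcomp cA cF) (by decide +kernel)
theorem cbf : IsConj e1 (bb * ff) :=
  isConj_of_code h_e1 (k := kBF) (by decide +kernel) (bb * ff)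
    (by
      show (bb : Equiv.Perm GolayPt) * (ff : Equiv.Perm GolayPt) = _
      rw [P_pcomp ok_b ok_f, coe_mk, coe_f])
    (permOK_pcomp ok_b ok_f) (x := pcomp cB cF) (by decide +kernel)
theorem ccf : IsConj e1 (cc * ff) :=
  isConj_of_code h_e1 (k := kCF) (by decide +kernel) (cc * ff)
    (by
      show (cc : Equiv.Perm GolayPt) * (ff : Equiv.Perm GolayPt) = _
      rw [P_pcomp ok_c ok_f, coe_mk, coe_f])
    (permOK_pcomp ok_c ok_f) (x := pcomp cC cF) (by decide +kernel)
theorem cdf : IsConj e1 (dd * ff) :=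
  isConj_of_code h_e1 (k := kDF) (by decide +kernel) (dd * ff)
    (by
      show (dd : Equiv.Perm GolayPt) * (ff : Equiv.Perm GolayPt) = _
      rw [P_pcomp ok_d ok_f, coe_d, coe_f])
    (permOK_pcomp ok_d ok_f) (x := pcomp cD cF) (by decide +kernel)
theorem cef : IsConj e1 (ee * ff) :=
  isConj_of_code h_e1 (k := kEF) (by decide +kernel) (ee * ff)
    (by
      show (ee : Equiv.Perm GolayPt) * (ff : Equiv.Perm GolayPt) = _
      rw [P_pcomp ok_e ok_f, coe_e, coe_f])
    (permOK_pcomp ok_e ok_f) (x := pcomp cE cF) (by decide +kernel)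

theorem tt_mem (i : ℕ) (hi : i ≤ 11) : tt i ∈ Subgroup.closure (tt '' {i | i ≤ 11}) :=
  Subgroup.subset_closure ⟨i, hi, rfl⟩

/-- A product of four of the elements of the chain. -/
theorem word_mem {x : ℕ} (hx : isM24 x = true) (i j k l : ℕ) (hi : i ≤ 11) (hj : j ≤ 11) (hk : k ≤ 11) (hl : l ≤ 11)
    (h : pEq x (pcomp (pcomp (cTc.getD i idCode) (cTc.getD j idCode)) (pcomp (cTc.getD k idCode) (cTc.getD l idCode))) = true) :
    mk hin x hx ∈ Subgroup.closure (tt '' {i | i ≤ 11}) := by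
  have e : mk hin x hx = tt i * tt j * (tt k * tt l) := by
    apply Subtype.ext
    show P x = P _ * P _ * (P _ * P _)
    rw [← P_pcomp (ok_T i) (ok_T j), ← P_pcomp (ok_T k) (ok_T l),
      ← P_pcomp (permOK_pcomp (ok_T i) (ok_T j)) (permOK_pcomp (ok_T k) (ok_T l))]
    exact (pEq_iff (hin x hx).2 (permOK_pcomp (permOK_pcomp (ok_T i) (ok_T j)) (permOK_pcomp (ok_T k) (ok_T l)))).1 h
  rw [e]
  exact Subgroup.mul_mem _ (Subgroup.mul_mem _ (tt_mem i hi) (tt_mem j hj)) (Subgroup.mul_mem _ (tt_mem k hk) (tt_mem l hl))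

theorem hNa : aa ∈ Subgroup.closure (tt '' {i | i ≤ 11}) :=
  word_mem h_a 0 2 9 3 (by norm_num) (by norm_num) (by norm_num) (by norm_num) (by decide +kernel)
theorem hNb : bb ∈ Subgroup.closure (tt '' {i | i ≤ 11}) :=
  word_mem h_b 4 6 11 7 (by norm_num) (by norm_num) (by norm_num) (by norm_num) (by decide +kernel)
theorem hNc : cc ∈ Subgroup.closure (tt '' {i | i ≤ 11}) :=
  word_mem h_c 8 10 9 11 (by norm_num) (by norm_num) (by norm_num) (by norm_num) (by decide +kernel)

/-- The chain used to bound the order from below. -/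
noncomputable abbrev x1 : Q := aa * cc
noncomputable abbrev x2 : Q := bb * aa * cc * bb
noncomputable abbrev x3 : Q := aa * bb * aa * cc * bb * aa
noncomputable abbrev x4 : Q := bb
noncomputable abbrev x5 : Q := cc * bb * aa
noncomputable abbrev x6 : Q := aa

def cX1 : ℕ := pcomp cA cC
def cX2 : ℕ := pcomp (pcomp (pcomp cB cA) cC) cB
def cX3' : ℕ := pcomp (pcomp (pcomp (pcomp (pcomp cA cB) cA) cC) cB) cA
def cX4 : ℕ := cB
def cX5 : ℕ := pcomp (pcomp cC cB) cA
def cX6 : ℕ := cA

theorem ok_x1 : permOK cX1 = true := permOK_pcomp ok_a ok_c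
theorem ok_x2 : permOK cX2 = true := permOK_pcomp (permOK_pcomp (permOK_pcomp ok_b ok_a) ok_c) ok_b
theorem ok_x3 : permOK cX3' = true :=
  permOK_pcomp (permOK_pcomp (permOK_pcomp (permOK_pcomp (permOK_pcomp ok_a ok_b) ok_a) ok_c) ok_b) ok_a
theorem ok_x5 : permOK cX5 = true := permOK_pcomp (permOK_pcomp ok_c ok_b) ok_a

theorem coe_x1 : (x1 : Equiv.Perm GolayPt) = P cX1 := by
  rw [cX1, P_pcomp ok_a ok_c]
  rfl
theorem coe_x2 : (x2 : Equiv.Perm GolayPt) = P cX2 := by
  rw [cX2, P_pcomp (permOK_pcomp (permOK_pcomp ok_b ok_a) ok_c) ok_b, P_pcomp (permOK_pcomp ok_b ok_a) ok_c, P_pcomp ok_b ok_a]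
  rfl
theorem coe_x3 : (x3 : Equiv.Perm GolayPt) = P cX3' := by
  rw [cX3', P_pcomp (permOK_pcomp (permOK_pcomp (permOK_pcomp (permOK_pcomp ok_a ok_b) ok_a) ok_c) ok_b) ok_a,
    P_pcomp (permOK_pcomp (permOK_pcomp (permOK_pcomp ok_a ok_b) ok_a) ok_c) ok_b,
    P_pcomp (permOK_pcomp (permOK_pcomp ok_a ok_b) ok_a) ok_c, P_pcomp (permOK_pcomp ok_a ok_b) ok_a, P_pcomp ok_a ok_b]
  rfl
theorem coe_x5 : (x5 : Equiv.Perm GolayPt) = P cX5 := by
  rw [cX5, P_pcomp (permOK_pcomp ok_c ok_b) ok_a, P_pcomp ok_c ok_b]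
  rfl

theorem hV1 : ∀ m, allL (fun c => Nat.beq (am c m) m) cV = true → VV ≤ maskSub _ m := by
  rintro m h v ⟨c, hc, e⟩
  exact mem_maskSub_code e (hin c (allL_spec hS.mem c hc)).2
    (Nat.eq_of_beq_eq_true (allL_spec h c hc))

theorem zle {m c : ℕ} {g : Q} (hg : (g : Equiv.Perm GolayPt) = P c) (hc : permOK c = true) (h : am c m = m) :
    Subgroup.zpowers g ≤ maskSub _ m := by
  rw [Subgroup.zpowers_le]
  exact mem_maskSub_code hg hc h

theorem hP0 : 1024 ≤ Nat.card ↥(VV ⊔ Subgroup.zpowers x1 ⊔ Subgroup.zpowers x2 ⊔ Subgroup.zpowers x3 ⊔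
    Subgroup.zpowers x4 ⊔ Subgroup.zpowers x5 ⊔ Subgroup.zpowers x6) := by
  have s1 : x1 ∉ VV := fun hm =>
    not_mem_maskSub_code coe_x1 ok_x1 (m := 256) (by decide +kernel) (by decide +kernel) (by decide +kernel)
      (hV1 256 (by decide +kernel) hm)
  have s2 : x2 ∉ VV ⊔ Subgroup.zpowers x1 := fun hm =>
    not_mem_maskSub_code coe_x2 ok_x2 (m := 4) (by decide +kernel) (by decide +kernel) (by decide +kernel)
      ((sup_le (hV1 4 (by decide +kernel)) (zle coe_x1 ok_x1 (by decide +kernel))) hm)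
  have s3 : x3 ∉ VV ⊔ Subgroup.zpowers x1 ⊔ Subgroup.zpowers x2 := fun hm =>
    not_mem_maskSub_code coe_x3 ok_x3 (m := 512) (by decide +kernel) (by decide +kernel) (by decide +kernel)
      ((sup_le (sup_le (hV1 512 (by decide +kernel)) (zle coe_x1 ok_x1 (by decide +kernel)))
        (zle coe_x2 ok_x2 (by decide +kernel))) hm)
  have s4 : x4 ∉ VV ⊔ Subgroup.zpowers x1 ⊔ Subgroup.zpowers x2 ⊔ Subgroup.zpowers x3 := fun hm =>
    not_mem_maskSub_code (g := x4) rfl ok_b (m := 1028) (by decide +kernel) (by decide +kernel) (by decide +kernel)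
      ((sup_le (sup_le (sup_le (hV1 1028 (by decide +kernel)) (zle coe_x1 ok_x1 (by decide +kernel)))
        (zle coe_x2 ok_x2 (by decide +kernel))) (zle coe_x3 ok_x3 (by decide +kernel))) hm)
  have s5 : x5 ∉ VV ⊔ Subgroup.zpowers x1 ⊔ Subgroup.zpowers x2 ⊔ Subgroup.zpowers x3 ⊔ Subgroup.zpowers x4 := fun hm =>
    not_mem_maskSub_code coe_x5 ok_x5 (m := 4194816) (by decide +kernel) (by decide +kernel) (by decide +kernel)
      ((sup_le (sup_le (sup_le (sup_le (hV1 4194816 (by decide +kernel)) (zle coe_x1 ok_x1 (by decide +kernel)))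
        (zle coe_x2 ok_x2 (by decide +kernel))) (zle coe_x3 ok_x3 (by decide +kernel)))
        (zle (g := x4) rfl ok_b (by decide +kernel))) hm)
  have s6 : x6 ∉ VV ⊔ Subgroup.zpowers x1 ⊔ Subgroup.zpowers x2 ⊔ Subgroup.zpowers x3 ⊔ Subgroup.zpowers x4 ⊔
      Subgroup.zpowers x5 := fun hm =>
    not_mem_maskSub_code (g := x6) rfl ok_a (m := 3332) (by decide +kernel) (by decide +kernel) (by decide +kernel)
      ((sup_le (sup_le (sup_le (sup_le (sup_le (hV1 3332 (by decide +kernel)) (zle coe_x1 ok_x1 (by decide +kernel)))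
        (zle coe_x2 ok_x2 (by decide +kernel))) (zle coe_x3 ok_x3 (by decide +kernel)))
        (zle (g := x4) rfl ok_b (by decide +kernel))) (zle coe_x5 ok_x5 (by decide +kernel))) hm)
  have c1 := strict_step s1
  have c2 := strict_step s2
  have c3 := strict_step s3
  have c4 := strict_step s4
  have c5 := strict_step s5
  have c6 := strict_step s6
  rw [card_VV] at c1
  omega

theorem sup_bound {G : Type*} [Group G] {V : Subgroup G} {a b c d e f : G} :
    V ⊔ Subgroup.zpowers (a * c) ⊔ Subgroup.zpowers (b * a * c * b) ⊔ Subgroup.zpowers (a * b * a * c * b * a) ⊔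
    Subgroup.zpowers b ⊔ Subgroup.zpowers (c * b * a) ⊔ Subgroup.zpowers a ≤
    V ⊔ Subgroup.zpowers f ⊔ Subgroup.zpowers e ⊔ Subgroup.zpowers d ⊔
    Subgroup.zpowers a ⊔ Subgroup.zpowers c ⊔ Subgroup.zpowers b := by
  generalize hR : V ⊔ Subgroup.zpowers f ⊔ Subgroup.zpowers e ⊔ Subgroup.zpowers d ⊔
    Subgroup.zpowers a ⊔ Subgroup.zpowers c ⊔ Subgroup.zpowers b = R
  have mb : b ∈ R := by
    rw [← hR]
    exact (le_sup_right : Subgroup.zpowers b ≤ _) (Subgroup.mem_zpowers b)
  have mc : c ∈ R := by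
    rw [← hR]
    exact (le_sup_of_le_left le_sup_right : Subgroup.zpowers c ≤ _) (Subgroup.mem_zpowers c)
  have ma : a ∈ R := by
    rw [← hR]
    exact (le_sup_of_le_left (le_sup_of_le_left le_sup_right) : Subgroup.zpowers a ≤ _) (Subgroup.mem_zpowers a)
  have mV : V ≤ R := by
    rw [← hR]
    exact le_sup_of_le_left (le_sup_of_le_left (le_sup_of_le_left (le_sup_of_le_left (le_sup_of_le_left le_sup_left))))
  refine sup_le (sup_le (sup_le (sup_le (sup_le (sup_le mV ?_) ?_) ?_) ?_) ?_) ?_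
  · rw [Subgroup.zpowers_le]
    exact R.mul_mem ma mc
  · rw [Subgroup.zpowers_le]
    exact R.mul_mem (R.mul_mem (R.mul_mem mb ma) mc) mb
  · rw [Subgroup.zpowers_le]
    exact R.mul_mem (R.mul_mem (R.mul_mem (R.mul_mem (R.mul_mem ma mb) ma) mc) mb) ma
  · rw [Subgroup.zpowers_le]
    exact mb
  · rw [Subgroup.zpowers_le]
    exact R.mul_mem (R.mul_mem mc mb) ma
  · rw [Subgroup.zpowers_le]
    exact ma

theorem hP : 1024 ≤ Nat.card ↥(VV ⊔ Subgroup.zpowers ff ⊔ Subgroup.zpowers ee ⊔ Subgroup.zpowers dd ⊔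
    Subgroup.zpowers aa ⊔ Subgroup.zpowers cc ⊔ Subgroup.zpowers bb) :=
  hP0.trans (Subgroup.card_le_of_le sup_bound)

theorem two_case {Δ : Type} [Group Δ] [Finite Δ] (τ : Δ →* Q) (hτ : Cfsg.IsStemExtension τ)
    (hc : Nat.card τ.ker = 2) : False :=
  two_part_UT4 τ hτ hc hd tt 11 hg hch (a := aa) (b := bb) (c := cc) (d := dd) (e := ee) (f := ff) rfl rfl rfl
    ca cb cc' cd ce cf cac cad cbd cbe cce cde caf cbf ccf cdf cef hNa hNb hNc card_VV (m := 239085)
    (by rw [hcard]) (by decide) hP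

theorem h_x3 : isM24 cX3 = true := by decide +kernel
theorem h_y3 : isM24 cY3 = true := by decide +kernel
theorem h_w3 : isM24 cW3 = true := by decide +kernel
theorem h_g1 : isM24 cG1 = true := by decide +kernel
theorem h_g2 : isM24 cG2 = true := by decide +kernel
theorem ok_x : permOK cX3 = true := (hin _ h_x3).2
theorem ok_y : permOK cY3 = true := (hin _ h_y3).2
theorem ok_w : permOK cW3 = true := (hin _ h_w3).2
theorem ok_g1 : permOK cG1 = true := (hin _ h_g1).2
theorem ok_g2 : permOK cG2 = true := (hin _ h_g2).2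

noncomputable abbrev xx : Q := mk hin cX3 h_x3
noncomputable abbrev yy : Q := mk hin cY3 h_y3
noncomputable abbrev ww : Q := mk hin cW3 h_w3
noncomputable abbrev g1 : Q := mk hin cG1 h_g1
noncomputable abbrev g2 : Q := mk hin cG2 h_g2

theorem cube_of_code {c : ℕ} (hc : permOK c = true) (h : pEq (pcomp c (pcomp c c)) idCode = true) : P c ^ 3 = 1 := by
  have h1 := (pEq_iff (permOK_pcomp hc (permOK_pcomp hc hc)) idc_ok).1 h
  rw [P_pcomp hc (permOK_pcomp hc hc), P_pcomp hc hc, P_idCode] at h1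
  rw [pow_succ', pow_two]
  exact h1

theorem x33 : xx ^ 3 = 1 := Subtype.ext (cube_of_code ok_x (by decide +kernel))
theorem y33 : yy ^ 3 = 1 := Subtype.ext (cube_of_code ok_y (by decide +kernel))
theorem w33 : ww ^ 3 = 1 := Subtype.ext (cube_of_code ok_w (by decide +kernel))
theorem w1 : ww ≠ 1 := fun h => mk_ne ok_w (by decide +kernel) (congrArg Subtype.val h)

theorem hw_comm : ww = ⁅xx, yy⁆ := by
  apply Subtype.ext
  rw [commutatorElement_def]
  show P cW3 = P cX3 * P cY3 * (P cX3)⁻¹ * (P cY3)⁻¹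
  rw [← P_pinv ok_x, ← P_pinv ok_y, ← P_pcomp ok_x ok_y, ← P_pcomp (permOK_pcomp ok_x ok_y) (permOK_pinv ok_x),
    ← P_pcomp (permOK_pcomp (permOK_pcomp ok_x ok_y) (permOK_pinv ok_x)) (permOK_pinv ok_y)]
  exact (pEq_iff ok_w (permOK_pcomp (permOK_pcomp (permOK_pcomp ok_x ok_y) (permOK_pinv ok_x)) (permOK_pinv ok_y))).1
    (by decide +kernel)

theorem comm_code {c d : ℕ} (hc : permOK c = true) (hd : permOK d = true)
    (h : pEq (pcomp c d) (pcomp d c) = true) : P c * P d = P d * P c := by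
  rw [← P_pcomp hc hd, ← P_pcomp hd hc]
  exact (pEq_iff (permOK_pcomp hc hd) (permOK_pcomp hd hc)).1 h

theorem xw : xx * ww = ww * xx := Subtype.ext (comm_code ok_x ok_w (by decide +kernel))
theorem yw : yy * ww = ww * yy := Subtype.ext (comm_code ok_y ok_w (by decide +kernel))

theorem conj_fix {k c : ℕ} (hk : permOK k = true) (hc : permOK c = true) (h : pEq (pconj k c) c = true) :
    P k * P c * (P k)⁻¹ = P c := by
  rw [← P_pconj hk hc]
  exact (pEq_iff (permOK_pconj hk hc) hc).1 h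

theorem conj_inv {k c : ℕ} (hk : permOK k = true) (hc : permOK c = true) (h : pEq (pconj k c) (pinv c) = true) :
    P k * P c * (P k)⁻¹ = (P c)⁻¹ := by
  rw [← P_pconj hk hc, ← P_pinv hc]
  exact (pEq_iff (permOK_pconj hk hc) (permOK_pinv hc)).1 h

theorem g1x : g1 * xx * g1⁻¹ = xx := Subtype.ext (conj_fix ok_g1 ok_x (by decide +kernel))
theorem g1y : g1 * yy * g1⁻¹ = yy⁻¹ := Subtype.ext (conj_inv ok_g1 ok_y (by decide +kernel))
theorem g2x : g2 * xx * g2⁻¹ = xx⁻¹ := Subtype.ext (conj_inv ok_g2 ok_x (by decide +kernel))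
theorem g2y : g2 * yy * g2⁻¹ = yy := Subtype.ext (conj_fix ok_g2 ok_y (by decide +kernel))

theorem hnx : xx ∉ Subgroup.zpowers ww := fun hm =>
  not_mem_maskSub_code (g := xx) rfl ok_x (m := 131072) (by decide +kernel) (by decide +kernel) (by decide +kernel)
    ((zle (g := ww) rfl ok_w (by decide +kernel)) hm)

theorem hny : yy ∉ Subgroup.zpowers ww ⊔ Subgroup.zpowers xx := fun hm =>
  not_mem_maskSub_code (g := yy) rfl ok_y (m := 2) (by decide +kernel) (by decide +kernel) (by decide +kernel)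
    ((sup_le (zle (g := ww) rfl ok_w (by decide +kernel)) (zle (g := xx) rfl ok_x (by decide +kernel))) hm)

theorem card_T : Nat.card (Subgroup.closure ({xx, yy} : Set Q)) = 27 :=
  card_extra x33 y33 w33 w1 hw_comm xw yw hnx hny

theorem index_T : ¬ 3 ∣ (Subgroup.closure ({xx, yy} : Set Q)).index := by
  have h := Subgroup.card_mul_index (Subgroup.closure ({xx, yy} : Set Q))
  rw [card_T, hcard] at h
  have : (Subgroup.closure ({xx, yy} : Set Q)).index = 9067520 := by omega
  rw [this]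
  decide

/-- The Schur multiplier of the Mathieu group M₂₄ (the automorphism group of the length-24 binary code) is trivial; here the Schur multiplier is described through stem extensions, as in the definitions: surjective homomorphisms onto the group from a finite group, whose kernel is central in that finite group and contained in that finite group's commutator subgroup. -/
theorem result : Cfsg.HasCyclicSchurMultiplier ↥Cfsg.M24 1 := by
  rw [Cfsg.Agent.H19.Hopf.hasCyclic_one_iff]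
  intro Δ _ _ τ hτ
  refine Cfsg.Agent.H09.ker_eq_bot_of_prime ?_ τ hτ
  intro Δ _ _ τ hτ r hr hc
  by_cases hr2 : r = 2
  · subst hr2
    exact two_case τ hτ hc
  obtain ⟨z, hzk, hzo⟩ := exists_of_card_prime τ hr hc
  by_cases hr3 : r = 3
  · subst hr3
    exact three_part_ext τ hτ hc x33 hw_comm w1 w33 xw yw g1x g1y g2x g2y index_T hzk hzo
  refine odd_part τ hτ hr ?_ hzk hzo
  rw [hcard]
  intro hd
  have h1 : Nat.Coprime r 27648 := by
    have e : (27648 : ℕ) = 2 ^ 10 * 3 ^ 3 := by norm_num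
    rw [e]
    apply Nat.Coprime.mul_right
    · exact Nat.Coprime.pow_right _ ((Nat.coprime_primes hr Nat.prime_two).2 hr2)
    · exact Nat.Coprime.pow_right _ ((Nat.coprime_primes hr Nat.prime_three).2 hr3)
  have h2 : r ^ 2 ∣ 8855 := by
    have e : (244823040 : ℕ) = 27648 * 8855 := by norm_num
    rw [e] at hd
    exact (Nat.Coprime.pow_left 2 h1).dvd_of_dvd_mul_left hd
  have h3 : r ^ 2 ≤ 8855 := Nat.le_of_dvd (by norm_num) h2
  have h4 : r ≤ 94 := by nlinarith
  have hall : ∀ r ≤ 94, 1 < r → ¬ r ^ 2 ∣ 8855 := by decide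
  exact hall r h4 hr.one_lt h2

end Cfsg.Agent.S2038
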