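import Mathlib
import Cfsg.Statements.S2111
import Cfsg.Agent.Lib.H10.SzMult
import Cfsg.Agent.Lib.H10.SzBridge

set_option autoImplicit false

open Cfsg

namespace Cfsg.Agent.S2111

theorem result {F : Type*} [Field F] [Fintype F] {m : ℕ} (hm : 2 ≤ m) (hF : Fintype.card F = 2 ^ (2 * m + 1)) : Cfsg.HasCyclicSchurMultiplier ↥(Cfsg.Lie.Sz F (2 ^ (m + 1))) 1 := by
  haveI := H10.sz_charP hF
  have hm1 : 1 ≤ m := by omega
  haveI : Finite ↥(Cfsg.Lie.Sz F (2 ^ (m + 1))) := Finite.of_equiv _ (H10.szEquiv hm1 hF).toEquiv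
  rw [H19.Hopf.hasCyclic_one_iff]
  intro Δ _ _ τ hτ
  let e := H10.szEquiv (F := F) hm1 hF
  let τ' : Δ →* ↥(Cfsg.Sz F m) := e.symm.toMonoidHom.comp τ
  have hτ' : Cfsg.IsStemExtension τ' := by
    refine ⟨e.symm.surjective.comp hτ.1, ?_, ?_⟩
    · intro x hx
      apply hτ.2.1
      rw [MonoidHom.mem_ker] at hx ⊢
      exact e.symm.injective (by rw [map_one]; exact hx)
    · intro x hx
      apply hτ.2.2
      rw [MonoidHom.mem_ker] at hx ⊢
      exact e.symm.injective (by rw [map_one]; exact hx)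
  have h := H10.sz_ker_eq_bot hm hF τ' hτ'
  rw [eq_bot_iff]
  intro x hx
  have h1 : x ∈ τ'.ker := by
    rw [MonoidHom.mem_ker] at hx ⊢
    show e.symm (τ x) = 1
    rw [hx, map_one]
  rw [h] at h1
  exact h1

end Cfsg.Agent.S2111
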