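import Mathlib
import Cfsg.Statements.S2113
import Cfsg.Agent.Lib.H10.ReeMult3

set_option autoImplicit false

open Cfsg

namespace Cfsg.Agent.S2113

theorem result {K : Type*} [Field K] [Fintype K] {m : ℕ} (hm : 1 ≤ m) (hK : Fintype.card K = 3 ^ (2 * m + 1)) : Cfsg.HasCyclicSchurMultiplier ↥(Cfsg.Lie.twistedG2 K (3 ^ m)) 1 := by
  have := H10.ree_charP hK
  haveI := H10.t_finite hK
  rw [H19.Hopf.hasCyclic_one_iff]
  intro Δ _ _ τ hτ
  exact H10.ree_ker_eq_bot hK hm τ hτ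

end Cfsg.Agent.S2113
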