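import Mathlib
import Cfsg.Statements.S2126
import Cfsg.Agent.Lib.H10.SzAut2

set_option autoImplicit false

open Cfsg

namespace Cfsg.Agent.S2126

theorem result {F : Type*} [Field F] [Fintype F] {m : ℕ} (hm : 1 ≤ m) (hF : Fintype.card F = 2 ^ (2 * m + 1)) : Nat.card (Cfsg.Out ↥(Cfsg.Lie.Sz F (2 ^ (m + 1)))) = 2 * m + 1 := by
  haveI := H10.sz_charP hF
  rw [← H10.card_out_congr (H10.szEquiv hm hF)]
  exact H10.card_out_Sz hm hF

end Cfsg.Agent.S2126
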