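import Mathlib
import Cfsg.Statements.S2131
import Cfsg.Agent.Lib.H17.J1Cent

set_option autoImplicit false
set_option linter.style.haveILetI false
open Cfsg

namespace Cfsg.Agent.S2131

open Cfsg.Agent.H17.J1

/-! ### generic part -/

section generic

variable {H A : Type} [Group H] [Group A]

/-- the map on the group of order two -/
def pT (t : H) (e : Multiplicative (ZMod 2)) : H := if e = 1 then 1 else t

lemma two_cases (e : Multiplicative (ZMod 2)) : e = 1 ∨ e = Multiplicative.ofAdd 1 := by
  revert e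
  decide

lemma two_ne : (Multiplicative.ofAdd 1 : Multiplicative (ZMod 2)) ≠ 1 := by decide

lemma pT_one (t : H) : pT t 1 = 1 := if_pos rfl

lemma pT_ofAdd (t : H) : pT t (Multiplicative.ofAdd 1) = t := if_neg two_ne

lemma pT_mul (t : H) (ht : t * t = 1) (e f : Multiplicative (ZMod 2)) :
    pT t (e * f) = pT t e * pT t f := by
  rcases two_cases e with rfl | rfl <;> rcases two_cases f with rfl | rfl
  · simp [pT_one]
  · simp [pT_one]
  · simp [pT_one]
  · have : (Multiplicative.ofAdd 1 * Multiplicative.ofAdd 1 : Multiplicative (ZMod 2)) = 1 := by decide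
    rw [this, pT_one, pT_ofAdd, ht]

lemma pT_comm (t : H) (x : H) (hc : t * x = x * t) (e : Multiplicative (ZMod 2)) :
    pT t e * x = x * pT t e := by
  rcases two_cases e with rfl | rfl
  · simp [pT_one]
  · rw [pT_ofAdd, hc]

lemma pT_mem (t : H) (e : Multiplicative (ZMod 2)) (x : H) (hx : t * x = x * t) :
    pT t e * x ∈ Subgroup.centralizer ({t} : Set H) := by
  rw [Subgroup.mem_centralizer_singleton_iff]
  rcases two_cases e with rfl | rfl
  · rw [pT_one, one_mul]
    exact hx.symm
  · rw [pT_ofAdd, mul_assoc, ← hx]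

theorem iso_of [Finite H] [Finite A] (t : H) (ht : t * t = 1) (ell : A →* H)
    (hc : ∀ σ, t * ell σ = ell σ * t) (hinj : ∀ σ, ell σ = 1 → σ = 1) (hinj2 : ∀ σ, t * ell σ ≠ 1)
    (hcard : Nat.card (Subgroup.centralizer ({t} : Set H)) ≤ 2 * Nat.card A) :
    Nonempty (↥(Subgroup.centralizer ({t} : Set H)) ≃* Multiplicative (ZMod 2) × A) := by
  let Psi : Multiplicative (ZMod 2) × A →* ↥(Subgroup.centralizer ({t} : Set H)) :=
    { toFun := fun p => ⟨pT t p.1 * ell p.2, pT_mem t p.1 _ (hc p.2)⟩
      map_one' := by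
        apply Subtype.ext
        simp [pT_one]
      map_mul' := by
        rintro ⟨e, σ⟩ ⟨f, τ⟩
        apply Subtype.ext
        show pT t (e * f) * ell (σ * τ) = (pT t e * ell σ) * (pT t f * ell τ)
        rw [pT_mul t ht, map_mul]
        calc pT t e * pT t f * (ell σ * ell τ) = pT t e * (pT t f * ell σ) * ell τ := by group
          _ = pT t e * (ell σ * pT t f) * ell τ := by rw [pT_comm t _ (hc σ)]
          _ = _ := by group }
  have hPsi : Function.Injective Psi := by
    rw [injective_iff_map_eq_one]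
    rintro ⟨e, σ⟩ h
    have h1 : pT t e * ell σ = 1 := congrArg Subtype.val h
    rcases two_cases e with rfl | rfl
    · rw [pT_one, one_mul] at h1
      rw [hinj σ h1]
      rfl
    · rw [pT_ofAdd] at h1
      exact absurd h1 (hinj2 σ)
  have hb : Function.Bijective Psi := by
    apply hPsi.bijective_of_nat_card_le
    rw [Nat.card_prod]
    have h2 : Nat.card (Multiplicative (ZMod 2)) = 2 := by
      rw [Nat.card_congr (Multiplicative.toAdd (α := ZMod 2)), Nat.card_zmod]
    rw [h2]
    exact hcard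
  exact ⟨(MulEquiv.ofBijective Psi hb).symm⟩

end generic

/-! ### the group -/

def gW : List Bool → G
  | [] => 1
  | b :: l => (if b then gX else gY) * gW l

lemma phi_gW (l : List Bool) : phi (gW l) = toM (evalW l) := by
  induction l with
  | nil => simp [gW, evalW, toM_cI]
  | cons b l ih =>
    cases b
    · simp only [gW, evalW, map_mul, toM_mulD, ih, if_false, Bool.false_eq_true, phi_gY]
    · simp only [gW, evalW, map_mul, toM_mulD, ih, if_true, phi_gX]

def ellF (σ : alternatingGroup (Fin 5)) : G := gW (wA5 σ)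

lemma phi_ellF (σ : alternatingGroup (Fin 5)) : phi (ellF σ) = toM (fA5 σ) := by
  rw [ellF, phi_gW, fA5_word]

def ell : alternatingGroup (Fin 5) →* G :=
  MonoidHom.mk' ellF (by
    intro σ τ
    apply phi_inj
    rw [map_mul, phi_ellF, phi_ellF, phi_ellF, fA5_mul, toM_mulD])

lemma phi_ell (σ : alternatingGroup (Fin 5)) : phi (ell σ) = toM (fA5 σ) := phi_ellF σ

lemma ell_comm (σ : alternatingGroup (Fin 5)) : e2 * ell σ = ell σ * e2 := by
  apply phi_inj
  rw [map_mul, map_mul, phi_e2, phi_ell, ← toM_mulD, ← toM_mulD, fA5_comm]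

lemma ell_inj (σ : alternatingGroup (Fin 5)) (h : ell σ = 1) : σ = 1 := by
  by_contra hne
  have h1 := ne_one_of _ (fA5_ne σ hne)
  apply h1
  rw [← phi_ell, h, map_one]

lemma ell_inj2 (σ : alternatingGroup (Fin 5)) : e2 * ell σ ≠ 1 := by
  intro h
  have h1 := ne_one_of _ (fA5_ne2 σ)
  apply h1
  rw [toM_mulD, ← phi_e2, ← phi_ell, ← map_mul, h, map_one]

lemma e2_sq : e2 * e2 = 1 := t1_sq

theorem cent2 (y : G) (hy : y * e2 = e2 * y) : ∃ c ∈ cGood, phi y = toM c := by
  obtain ⟨u, hu, a, ha, e⟩ := cover y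
  have hu' : u ∈ cTu.map Prod.fst := by rw [cTu_fst]; exact hu
  have ha' : a ∈ cTa.map Prod.fst := by rw [cTa_fst]; exact ha
  obtain ⟨pu, hpu, rfl⟩ := List.mem_map.mp hu'
  obtain ⟨pa, hpa, rfl⟩ := List.mem_map.mp ha'
  have ku := List.all_eq_true.mp cTu_ok pu hpu
  have ka := List.all_eq_true.mp cTa_ok pa hpa
  simp only [Bool.and_eq_true] at ku ka
  obtain ⟨u1, u2⟩ := ku
  obtain ⟨a1, a2⟩ := ka
  have u1' := Nat.eq_of_beq_eq_true u1
  have u2' := Nat.eq_of_beq_eq_true u2
  have a1' := Nat.eq_of_beq_eq_true a1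
  have a2' := Nat.eq_of_beq_eq_true a2
  have hU : (toM pu.1).transpose * toM pu.1 = 1 := by
    have h1 := List.all_eq_true.mp Us_orth _ hu
    have h2 : ttD pu.1 = cI := Nat.eq_of_beq_eq_true h1
    rw [← toM_ttD, h2, toM_cI]
  have hA : (toM pa.1).transpose * toM pa.1 = 1 := by
    have h1 := List.all_eq_true.mp As_orth _ ha
    have h2 : ttD pa.1 = cI := Nat.eq_of_beq_eq_true h1
    rw [← toM_ttD, h2, toM_cI]
  have hA' : toM pa.1 * (toM pa.1).transpose = 1 := mul_eq_one_comm.mp hA
  have t1 : toM pu.1 * toM pa.1 * toM w2 = toM w2 * (toM pu.1 * toM pa.1) := by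
    rw [← e, ← phi_e2, ← map_mul, hy, map_mul]
  have t2 : toM w2 * toM pu.1 = toM pu.1 * toM pu.2 := by
    rw [← toM_mulD, u1', toM_mulD]
  have t3 : toM pa.1 * toM w2 = toM pa.2 * toM pa.1 := by
    rw [← toM_mulD, a1', toM_mulD]
  have t4 : toM pu.1 * toM pa.2 * toM pa.1 = toM pu.1 * toM pu.2 * toM pa.1 := by
    calc toM pu.1 * toM pa.2 * toM pa.1 = toM pu.1 * (toM pa.2 * toM pa.1) := by rw [mul_assoc]
      _ = toM pu.1 * (toM pa.1 * toM w2) := by rw [t3]
      _ = toM pu.1 * toM pa.1 * toM w2 := by rw [mul_assoc]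
      _ = toM w2 * (toM pu.1 * toM pa.1) := t1
      _ = toM w2 * toM pu.1 * toM pa.1 := by rw [mul_assoc]
      _ = _ := by rw [t2]
  have t5 : toM pa.2 = toM pu.2 := by
    have h1 : (toM pu.1).transpose * (toM pu.1 * toM pa.2 * toM pa.1) * (toM pa.1).transpose =
        (toM pu.1).transpose * (toM pu.1 * toM pu.2 * toM pa.1) * (toM pa.1).transpose := by rw [t4]
    have h2 : ∀ X : Mat, (toM pu.1).transpose * (toM pu.1 * X * toM pa.1) * (toM pa.1).transpose = X := by
      intro X
      calc (toM pu.1).transpose * (toM pu.1 * X * toM pa.1) * (toM pa.1).transpose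
          = ((toM pu.1).transpose * toM pu.1) * X * (toM pa.1 * (toM pa.1).transpose) := by
            simp only [mul_assoc]
        _ = X := by rw [hU, hA', one_mul, mul_one]
    rwa [h2, h2] at h1
  have t6 : pa.2 = pu.2 := by
    have : mulD cI pa.2 = mulD cI pu.2 := by
      apply mulD_inj
      rw [toM_mulD, toM_mulD, t5]
    rwa [a2', u2'] at this
  have hrun := List.all_eq_true.mp (List.all_eq_true.mp cRun pu hpu) pa hpa
  simp only [Bool.or_eq_true] at hrun
  rcases hrun with h | h
  · exfalso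
    have : Nat.beq pu.2 pa.2 = true := by rw [t6, Nat.beq_eq]
    rw [this] at h
    simp at h
  · refine ⟨mulD pu.1 pa.1, elemN_mem _ _ h, ?_⟩
    rw [toM_mulD, e]

theorem card_cent : Nat.card (Subgroup.centralizer ({e2} : Set G)) ≤ 120 := by
  classical
  let F : Finset Mat := cGood.toFinset.image toM
  have hF : ∀ y : Subgroup.centralizer ({e2} : Set G), phi y.1 ∈ F := by
    intro y
    have h1 : y.1 * e2 = e2 * y.1 := by
      have := (Subgroup.mem_centralizer_singleton_iff.mp y.2)
      exact this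
    obtain ⟨c, hc, e⟩ := cent2 y.1 h1
    rw [e]
    exact Finset.mem_image.mpr ⟨c, List.mem_toFinset.mpr hc, rfl⟩
  have h1 : Nat.card (Subgroup.centralizer ({e2} : Set G)) ≤ Nat.card F := by
    apply Nat.card_le_card_of_injective (fun y => (⟨phi y.1, hF y⟩ : F))
    intro a b h
    exact Subtype.ext (phi_inj (congrArg Subtype.val h))
  have h2 : Nat.card F = F.card := by simp
  have h3 : F.card ≤ 120 := by
    calc F.card ≤ cGood.toFinset.card := Finset.card_image_le
      _ ≤ cGood.length := List.toFinset_card_le _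
      _ = 120 := cGood_len
  omega

/-- The Janko group J₁ (the group generated by two explicit 7 × 7 matrices over the integers modulo 11) has an involution whose centraliser is isomorphic to the direct product of a group of order 2 with the alternating group of degree 5. -/
theorem result : ∃ t : ↥Cfsg.Spor.J1, orderOf t = 2 ∧ Nonempty (↥(Subgroup.centralizer ({t} : Set ↥Cfsg.Spor.J1)) ≃* Multiplicative (ZMod 2) × ↥(alternatingGroup (Fin 5))) := by
  haveI : Finite G := Nat.finite_of_card_ne_zero (by rw [card_G]; norm_num)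
  refine ⟨e2, order_e2, iso_of e2 e2_sq ell ell_comm ell_inj ell_inj2 ?_⟩
  have : Nat.card (alternatingGroup (Fin 5)) = 60 := by
    rw [Nat.card_eq_fintype_card]
    decide
  rw [this]
  exact card_cent

end Cfsg.Agent.S2131
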