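import Mathlib
import Cfsg.Statements.S2298
import Cfsg.Agent.Lib.H10.PS

set_option autoImplicit false

open Cfsg

namespace Cfsg.Agent.S2298

theorem result {F : Type*} [Field F] [Fintype F] :
    (∀ χ : Matrix.GeneralLinearGroup (Fin 2) F → ℂ, Cfsg.IsIrrCharacter (Matrix.GeneralLinearGroup (Fin 2) F) χ →
      χ 1 = 1 ∨ χ 1 = (Fintype.card F : ℂ) - 1 ∨ χ 1 = (Fintype.card F : ℂ) ∨ χ 1 = (Fintype.card F : ℂ) + 1) ∧
    (3 ≤ Fintype.card F →
      Nat.card {χ : Cfsg.IrrCharacter (Matrix.GeneralLinearGroup (Fin 2) F) // (χ : Matrix.GeneralLinearGroup (Fin 2) F → ℂ) 1 = 1} = Fintype.card F - 1 ∧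
      Nat.card {χ : Cfsg.IrrCharacter (Matrix.GeneralLinearGroup (Fin 2) F) // (χ : Matrix.GeneralLinearGroup (Fin 2) F → ℂ) 1 = (Fintype.card F : ℂ)} = Fintype.card F - 1 ∧
      Nat.card {χ : Cfsg.IrrCharacter (Matrix.GeneralLinearGroup (Fin 2) F) // (χ : Matrix.GeneralLinearGroup (Fin 2) F → ℂ) 1 = (Fintype.card F : ℂ) + 1} = (Fintype.card F - 1) * (Fintype.card F - 2) / 2 ∧
      Nat.card {χ : Cfsg.IrrCharacter (Matrix.GeneralLinearGroup (Fin 2) F) // (χ : Matrix.GeneralLinearGroup (Fin 2) F → ℂ) 1 = (Fintype.card F : ℂ) - 1} = Fintype.card F * (Fintype.card F - 1) / 2) := by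
  classical
  have : Fintype (Matrix.GeneralLinearGroup (Fin 2) F) := Fintype.ofFinite _
  have hqC : ((Fintype.card F : ℕ) : ℂ) ≠ 0 := by
    have : Fintype.card F ≠ 0 := Fintype.card_ne_zero
    exact_mod_cast this
  have hq1 : 1 < Fintype.card F := Fintype.one_lt_card
  have h1ne2 : (1 : ℂ) ≠ 0 := one_ne_zero
  have h2ne : (2 : ℂ) ≠ 0 := two_ne_zero
  constructor
  · intro χ hχ
    rcases Cfsg.Agent.H10.irr_classify ⟨χ, hχ⟩ with ⟨l, hl⟩ | ⟨l, hl⟩ | ⟨α, β, hab, hl⟩ | ⟨hc, hc1⟩
    · simp only at hl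
      rw [hl]
      exact Or.inl (Cfsg.Agent.H10.detChar_one l)
    · simp only at hl
      rw [hl]
      exact Or.inr (Or.inr (Or.inl (Cfsg.Agent.H10.st_one l)))
    · simp only at hl
      rw [hl]
      exact Or.inr (Or.inr (Or.inr (Cfsg.Agent.H10.ps_one α β)))
    · exact Or.inr (Or.inl hc1)
  · intro hq3
    have hq2 : (Fintype.card F : ℂ) ≠ 2 := by
      intro h
      have : Fintype.card F = 2 := by exact_mod_cast h
      omega
    have hq1' : (Fintype.card F : ℂ) ≠ 1 := by
      intro h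
      have : Fintype.card F = 1 := by exact_mod_cast h
      omega
    refine ⟨?_, ?_, ?_, ?_⟩
    · rw [← Cfsg.Agent.H10.card_mulChar]
      symm
      refine Nat.card_congr (Equiv.ofBijective
        (fun l => ⟨⟨Cfsg.Agent.H10.detChar l, Cfsg.Agent.H10.detChar_irr l⟩, Cfsg.Agent.H10.detChar_one l⟩) ⟨?_, ?_⟩)
      · intro l l' h
        exact Cfsg.Agent.H10.detChar_inj (congrArg (fun x => x.1.1) h)
      · rintro ⟨χ, hd⟩
        rcases Cfsg.Agent.H10.irr_classify χ with ⟨l, hl⟩ | ⟨l, hl⟩ | ⟨α, β, hab, hl⟩ | ⟨hc, hc1⟩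
        · exact ⟨l, Subtype.ext (Subtype.ext hl.symm)⟩
        · rw [hl, Cfsg.Agent.H10.st_one] at hd
          exact absurd hd hq1'
        · exfalso
          rw [hl, Cfsg.Agent.H10.ps_one] at hd
          exact hqC (by linear_combination hd)
        · exfalso
          rw [hc1] at hd
          exact hq2 (by linear_combination hd)
    · rw [← Cfsg.Agent.H10.card_mulChar]
      symm
      refine Nat.card_congr (Equiv.ofBijective
        (fun l => ⟨⟨Cfsg.Agent.H10.st l, Cfsg.Agent.H10.st_irr l⟩, Cfsg.Agent.H10.st_one l⟩) ⟨?_, ?_⟩)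
      · intro l l' h
        exact Cfsg.Agent.H10.st_inj (congrArg (fun x => x.1.1) h)
      · rintro ⟨χ, hd⟩
        rcases Cfsg.Agent.H10.irr_classify χ with ⟨l, hl⟩ | ⟨l, hl⟩ | ⟨α, β, hab, hl⟩ | ⟨hc, hc1⟩
        · rw [hl, Cfsg.Agent.H10.detChar_one] at hd
          exact absurd hd.symm hq1'
        · exact ⟨l, Subtype.ext (Subtype.ext hl.symm)⟩
        · exfalso
          rw [hl, Cfsg.Agent.H10.ps_one] at hd
          exact h1ne2 (by linear_combination hd)
        · exfalso
          rw [hc1] at hd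
          exact h1ne2 (by linear_combination -hd)
    · have e : (Fintype.card F - 1) * (Fintype.card F - 2) / 2 =
          (Fintype.card F - 1).choose 2 := by
        rw [Nat.choose_two_right]
        congr 2
      have e2 : Nat.card {z : Sym2 (MulChar F ℂ) // ¬ z.IsDiag} = (Fintype.card F - 1).choose 2 := by
        rw [Nat.card_eq_fintype_card, Sym2.card_subtype_not_diag, ← Nat.card_eq_fintype_card,
          Cfsg.Agent.H10.card_mulChar]
      rw [e, ← e2]
      symm
      refine Nat.card_congr (Equiv.ofBijective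
        (fun z => ⟨⟨Cfsg.Agent.H10.psS z.1, Cfsg.Agent.H10.psS_irr z⟩, Cfsg.Agent.H10.psS_one z⟩) ⟨?_, ?_⟩)
      · intro z z' h
        exact Cfsg.Agent.H10.psS_inj (congrArg (fun x => x.1.1) h)
      · rintro ⟨χ, hd⟩
        rcases Cfsg.Agent.H10.irr_classify χ with ⟨l, hl⟩ | ⟨l, hl⟩ | ⟨α, β, hab, hl⟩ | ⟨hc, hc1⟩
        · exfalso
          rw [hl, Cfsg.Agent.H10.detChar_one] at hd
          exact hqC (by linear_combination -hd)
        · exfalso
          rw [hl, Cfsg.Agent.H10.st_one] at hd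
          exact h1ne2 (by linear_combination -hd)
        · refine ⟨⟨s(α, β), by simpa using hab⟩, Subtype.ext (Subtype.ext hl.symm)⟩
        · exfalso
          rw [hc1] at hd
          exact h2ne (by linear_combination -hd)
    · have e : Nat.card {χ : Cfsg.IrrCharacter (Matrix.GeneralLinearGroup (Fin 2) F) // (χ : Matrix.GeneralLinearGroup (Fin 2) F → ℂ) 1 = (Fintype.card F : ℂ) - 1} =
          Nat.card {χ : Cfsg.IrrCharacter (Matrix.GeneralLinearGroup (Fin 2) F) // ∀ α β, Cfsg.classInner χ.1 (Cfsg.Agent.H10.ps α β) = 0} := by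
        refine Nat.card_congr (Equiv.subtypeEquivRight ?_)
        intro χ
        constructor
        · intro hd
          rcases Cfsg.Agent.H10.irr_classify χ with ⟨l, hl⟩ | ⟨l, hl⟩ | ⟨α, β, hab, hl⟩ | ⟨hc, hc1⟩
          · exfalso
            rw [hl, Cfsg.Agent.H10.detChar_one] at hd
            exact hq2 (by linear_combination -hd)
          · exfalso
            rw [hl, Cfsg.Agent.H10.st_one] at hd
            exact h1ne2 (by linear_combination hd)
          · exfalso
            rw [hl, Cfsg.Agent.H10.ps_one] at hd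
            exact h2ne (by linear_combination hd)
          · exact hc
        · intro hc
          rcases Cfsg.Agent.H10.irr_classify χ with ⟨l, hl⟩ | ⟨l, hl⟩ | ⟨α, β, hab, hl⟩ | ⟨-, hc1⟩
          · exact absurd hc ((Cfsg.Agent.H10.not_mem_range_cuspidal χ).not.mpr (by
              intro h'
              exact h' ⟨Sum.inl l, Subtype.ext hl.symm⟩))
          · exact absurd hc ((Cfsg.Agent.H10.not_mem_range_cuspidal χ).not.mpr (by
              intro h'
              exact h' ⟨Sum.inr (Sum.inl l), Subtype.ext hl.symm⟩))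
          · refine absurd hc ((Cfsg.Agent.H10.not_mem_range_cuspidal χ).not.mpr (by
              intro h'
              refine h' ⟨Sum.inr (Sum.inr ⟨s(α, β), ?_⟩), Subtype.ext hl.symm⟩
              simpa using hab))
          · exact hc1
      rw [e, Cfsg.Agent.H10.card_cusp]

end Cfsg.Agent.S2298
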