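import Mathlib
import Cfsg.Statements.S2299
import Cfsg.Agent.Lib.H10.PS1Table

set_option autoImplicit false

open Cfsg

namespace Cfsg.Agent.S2299

theorem result {F : Type*} [Field F] [Fintype F] (hodd : Odd (Fintype.card F)) :
    (∀ χ : Matrix.SpecialLinearGroup (Fin 2) F → ℂ, Cfsg.IsIrrCharacter (Matrix.SpecialLinearGroup (Fin 2) F) χ →
      χ 1 = 1 ∨ χ 1 = (Fintype.card F : ℂ) ∨ χ 1 = (Fintype.card F : ℂ) + 1 ∨ χ 1 = (Fintype.card F : ℂ) - 1 ∨
        χ 1 = (((Fintype.card F + 1) / 2 : ℕ) : ℂ) ∨ χ 1 = (((Fintype.card F - 1) / 2 : ℕ) : ℂ)) ∧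
    (5 ≤ Fintype.card F →
      Nat.card {χ : Cfsg.IrrCharacter (Matrix.SpecialLinearGroup (Fin 2) F) // (χ : Matrix.SpecialLinearGroup (Fin 2) F → ℂ) 1 = 1} = 1 ∧
      Nat.card {χ : Cfsg.IrrCharacter (Matrix.SpecialLinearGroup (Fin 2) F) // (χ : Matrix.SpecialLinearGroup (Fin 2) F → ℂ) 1 = (Fintype.card F : ℂ)} = 1 ∧
      Nat.card {χ : Cfsg.IrrCharacter (Matrix.SpecialLinearGroup (Fin 2) F) // (χ : Matrix.SpecialLinearGroup (Fin 2) F → ℂ) 1 = (Fintype.card F : ℂ) + 1} = (Fintype.card F - 3) / 2 ∧
      Nat.card {χ : Cfsg.IrrCharacter (Matrix.SpecialLinearGroup (Fin 2) F) // (χ : Matrix.SpecialLinearGroup (Fin 2) F → ℂ) 1 = (Fintype.card F : ℂ) - 1} = (Fintype.card F - 1) / 2 ∧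
      Nat.card {χ : Cfsg.IrrCharacter (Matrix.SpecialLinearGroup (Fin 2) F) // (χ : Matrix.SpecialLinearGroup (Fin 2) F → ℂ) 1 = (((Fintype.card F + 1) / 2 : ℕ) : ℂ)} = 2 ∧
      Nat.card {χ : Cfsg.IrrCharacter (Matrix.SpecialLinearGroup (Fin 2) F) // (χ : Matrix.SpecialLinearGroup (Fin 2) F → ℂ) 1 = (((Fintype.card F - 1) / 2 : ℕ) : ℂ)} = 2) := by
  classical
  letI : Fintype (Matrix.SpecialLinearGroup (Fin 2) F) := Fintype.ofFinite _
  have hodd' := hodd
  obtain ⟨m, hm⟩ := hodd
  have hq2 : 2 ≤ Fintype.card F := Fintype.one_lt_card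
  have e1 : (Fintype.card F + 1) / 2 = m + 1 := by omega
  have e2 : (Fintype.card F - 1) / 2 = m := by omega
  have e3 : (Fintype.card F - 3) / 2 = m - 1 := by omega
  have hqc := Cfsg.Agent.H10.cast_card_sub_one (F := F)
  have hqc1 : (Fintype.card F : ℂ) + 1 = ((Fintype.card F + 1 : ℕ) : ℂ) := by push_cast; rfl
  have hdeg : ∀ χ : Cfsg.IrrCharacter (Matrix.SpecialLinearGroup (Fin 2) F),
      χ.1 1 = (charDegree χ.1 : ℂ) := fun χ =>
    Cfsg.Agent.H21.one_eq_charDegree (Cfsg.Agent.H21.isCharacter_of_irr χ.2)
  obtain ⟨χ₁, χ₂, hp⟩ := Cfsg.Agent.H10.exists_halfPair (F := F)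
  have hirr := Cfsg.Agent.H10.irr_cases_odd hodd' m hm hp
  rw [e1, e2, e3]
  refine ⟨?_, ?_⟩
  · intro χ hχ
    have hd := hdeg ⟨χ, hχ⟩
    simp only at hd
    rcases hirr ⟨χ, hχ⟩ with h | h | h | h | h | h | h
    · left
      rw [hd, h.2]; simp
    · right; left
      rw [hd, h.2, hm]
    · right; right; left
      rw [hd, h.2, hqc1, hm]
    · right; right; right; right; left
      rw [hd, h.2]
    · right; right; right; right; left
      rw [hd, h.2]
    · right; right; right; right; right
      rw [hd, h.2]
    · right; right; right; left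
      rw [← hqc, hd, h.2]
      congr 1
      omega
  · intro hq5
    have hm2 : 2 ≤ m := by omega
    have c1 : ∀ (P : Cfsg.IrrCharacter (Matrix.SpecialLinearGroup (Fin 2) F) → Prop) [DecidablePred P] (n : ℕ), (∀ χ, charDegree χ.1 = n ↔ P χ) →
        Nat.card {χ : Cfsg.IrrCharacter (Matrix.SpecialLinearGroup (Fin 2) F) // χ.1 1 = (n : ℂ)} = (Finset.univ.filter P).card := by
      intro P _ n h
      rw [Cfsg.Agent.H10.card_degree]
      congr 1
      ext χ
      simp only [Finset.mem_filter, Finset.mem_univ, true_and]
      exact h χ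
    have hcc := Cfsg.Agent.H10.card_cusp_half_full hodd' m hm hp
    refine ⟨?_, ?_, ?_, ?_, ?_, ?_⟩
    · have := c1 (fun χ => χ = Cfsg.Agent.H10.oneIrr) 1 (by
        intro χ
        constructor
        · intro h
          rcases hirr χ with h1 | h1 | h1 | h1 | h1 | h1 | h1
          · exact h1.1
          all_goals omega
        · rintro rfl
          exact Cfsg.Agent.H10.oneIrr_degree)
      rw [Finset.filter_eq' Finset.univ, if_pos (Finset.mem_univ _), Finset.card_singleton] at this
      simpa using this
    · have := c1 (fun χ => χ = Cfsg.Agent.H10.stIrr) (Fintype.card F) (by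
        intro χ
        constructor
        · intro h
          rcases hirr χ with h1 | h1 | h1 | h1 | h1 | h1 | h1
          · omega
          · exact h1.1
          all_goals omega
        · rintro rfl
          exact Cfsg.Agent.H10.stIrr_degree)
      rw [Finset.filter_eq' Finset.univ, if_pos (Finset.mem_univ _), Finset.card_singleton] at this
      exact this
    · have := c1 (fun χ => χ ∈ Cfsg.Agent.H10.Tset F) (Fintype.card F + 1) (by
        intro χ
        constructor
        · intro h
          rcases hirr χ with h1 | h1 | h1 | h1 | h1 | h1 | h1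
          · omega
          · omega
          · exact h1.1
          all_goals omega
        · intro h
          exact Cfsg.Agent.H10.Tset_degree h)
      rw [Finset.filter_mem_eq_inter, Finset.univ_inter] at this
      rw [hqc1, this]
      have := Cfsg.Agent.H10.card_T_odd hodd' m hm
      omega
    · have := c1 (fun χ => Cfsg.Agent.H10.IsCusp1 χ ∧ charDegree χ.1 = 2 * m) (Fintype.card F - 1) (by
        intro χ
        constructor
        · intro h
          rcases hirr χ with h1 | h1 | h1 | h1 | h1 | h1 | h1
          · omega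
          · omega
          · omega
          · omega
          · omega
          · omega
          · exact h1
        · intro h
          omega)
      rw [← hqc, this]
      have h3 := hcc.2
      unfold Cfsg.Agent.H10.CuspS at h3
      rw [Finset.filter_filter] at h3
      exact h3
    · have := c1 (fun χ => χ = χ₁ ∨ χ = χ₂) (m + 1) (by
        intro χ
        constructor
        · intro h
          rcases hirr χ with h1 | h1 | h1 | h1 | h1 | h1 | h1
          · omega
          · omega
          · omega
          · exact Or.inl h1.1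
          · exact Or.inr h1.1
          · omega
          · omega
        · rintro (rfl | rfl)
          · have := Cfsg.Agent.H10.half_degree hodd' hp
            omega
          · have := Cfsg.Agent.H10.half_degree hodd' hp.symm
            omega)
      rw [this]
      refine Eq.trans ?_ (Finset.card_pair hp.1)
      congr 1
      ext χ
      simp
    · have := c1 (fun χ => Cfsg.Agent.H10.IsCusp1 χ ∧ charDegree χ.1 = m) m (by
        intro χ
        constructor
        · intro h
          rcases hirr χ with h1 | h1 | h1 | h1 | h1 | h1 | h1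
          · omega
          · omega
          · omega
          · omega
          · omega
          · exact h1
          · omega
        · intro h
          omega)
      rw [this]
      have h3 := hcc.1
      unfold Cfsg.Agent.H10.CuspS at h3
      rw [Finset.filter_filter] at h3
      exact h3

end Cfsg.Agent.S2299
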