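import Mathlib
import Cfsg.Statements.S2300
import Cfsg.Agent.Lib.H10.PS1Even

set_option autoImplicit false

open Cfsg

namespace Cfsg.Agent.S2300

theorem result {F : Type*} [Field F] [Fintype F] [CharP F 2] :
    (∀ χ : Matrix.SpecialLinearGroup (Fin 2) F → ℂ, Cfsg.IsIrrCharacter (Matrix.SpecialLinearGroup (Fin 2) F) χ →
      χ 1 = 1 ∨ χ 1 = (Fintype.card F : ℂ) - 1 ∨ χ 1 = (Fintype.card F : ℂ) ∨ χ 1 = (Fintype.card F : ℂ) + 1) ∧
    (4 ≤ Fintype.card F →
      Nat.card {χ : Cfsg.IrrCharacter (Matrix.SpecialLinearGroup (Fin 2) F) // (χ : Matrix.SpecialLinearGroup (Fin 2) F → ℂ) 1 = 1} = 1 ∧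
      Nat.card {χ : Cfsg.IrrCharacter (Matrix.SpecialLinearGroup (Fin 2) F) // (χ : Matrix.SpecialLinearGroup (Fin 2) F → ℂ) 1 = (Fintype.card F : ℂ)} = 1 ∧
      Nat.card {χ : Cfsg.IrrCharacter (Matrix.SpecialLinearGroup (Fin 2) F) // (χ : Matrix.SpecialLinearGroup (Fin 2) F → ℂ) 1 = (Fintype.card F : ℂ) + 1} = (Fintype.card F - 2) / 2 ∧
      Nat.card {χ : Cfsg.IrrCharacter (Matrix.SpecialLinearGroup (Fin 2) F) // (χ : Matrix.SpecialLinearGroup (Fin 2) F → ℂ) 1 = (Fintype.card F : ℂ) - 1} = Fintype.card F / 2) := by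
  classical
  letI : Fintype (Matrix.SpecialLinearGroup (Fin 2) F) := Fintype.ofFinite _
  have hq2 : 2 ≤ Fintype.card F := Fintype.one_lt_card
  have hqc : ((Fintype.card F - 1 : ℕ) : ℂ) = (Fintype.card F : ℂ) - 1 := by
    rw [Nat.cast_sub (by omega)]; simp
  have hdeg : ∀ χ : Cfsg.IrrCharacter (Matrix.SpecialLinearGroup (Fin 2) F),
      χ.1 1 = (charDegree χ.1 : ℂ) := fun χ =>
    Cfsg.Agent.H21.one_eq_charDegree (Cfsg.Agent.H21.isCharacter_of_irr χ.2)
  refine ⟨?_, ?_⟩
  · intro χ hχ
    have hd := hdeg ⟨χ, hχ⟩
    simp only at hd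
    rcases Cfsg.Agent.H10.irr_classify_even ⟨χ, hχ⟩ with h | h | h | ⟨h1, h2⟩
    · left
      have : χ = Cfsg.Agent.H10.one1 := congrArg Subtype.val h
      rw [hd]
      rw [this]
      have := Cfsg.Agent.H10.oneIrr_degree (F := F)
      simp only [Cfsg.Agent.H10.oneIrr] at this
      rw [this]; simp
    · right; right; left
      have : χ = Cfsg.Agent.H10.st1 := congrArg Subtype.val h
      rw [hd, this]
      have := Cfsg.Agent.H10.stIrr_degree (F := F)
      simp only [Cfsg.Agent.H10.stIrr] at this
      rw [this]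
    · right; right; right
      have := Cfsg.Agent.H10.Tset_degree h
      simp only at this
      rw [hd, this]; push_cast; ring
    · right; left
      simp only at h2
      rw [hd, h2, hqc]
  · intro hq4
    have hT := Cfsg.Agent.H10.two_mul_T_even (F := F)
    have hirr : ∀ χ : Cfsg.IrrCharacter (Matrix.SpecialLinearGroup (Fin 2) F),
        (χ = Cfsg.Agent.H10.oneIrr ∧ charDegree χ.1 = 1) ∨
        (χ = Cfsg.Agent.H10.stIrr ∧ charDegree χ.1 = Fintype.card F) ∨
        (χ ∈ Cfsg.Agent.H10.Tset F ∧ charDegree χ.1 = Fintype.card F + 1) ∨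
        (Cfsg.Agent.H10.IsCusp1 χ ∧ charDegree χ.1 = Fintype.card F - 1) := by
      intro χ
      rcases Cfsg.Agent.H10.irr_classify_even χ with h | h | h | h
      · left; refine ⟨h, ?_⟩; rw [h]; exact Cfsg.Agent.H10.oneIrr_degree
      · right; left; refine ⟨h, ?_⟩; rw [h]; exact Cfsg.Agent.H10.stIrr_degree
      · right; right; left; exact ⟨h, Cfsg.Agent.H10.Tset_degree h⟩
      · right; right; right; exact h
    have c1 : ∀ (P : Cfsg.IrrCharacter (Matrix.SpecialLinearGroup (Fin 2) F) → Prop) [DecidablePred P] (n : ℕ), (∀ χ, charDegree χ.1 = n ↔ P χ) →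
        Nat.card {χ : Cfsg.IrrCharacter (Matrix.SpecialLinearGroup (Fin 2) F) // χ.1 1 = (n : ℂ)} = (Finset.univ.filter P).card := by
      intro P _ n h
      rw [Cfsg.Agent.H10.card_degree]
      congr 1
      ext χ
      simp only [Finset.mem_filter, Finset.mem_univ, true_and]
      exact h χ
    refine ⟨?_, ?_, ?_, ?_⟩
    · have := c1 (fun χ => χ = Cfsg.Agent.H10.oneIrr) 1 (by
        intro χ
        constructor
        · intro h
          rcases hirr χ with h1 | h1 | h1 | h1
          · exact h1.1
          · omega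
          · omega
          · omega
        · rintro rfl
          exact Cfsg.Agent.H10.oneIrr_degree)
      rw [Finset.filter_eq' Finset.univ, if_pos (Finset.mem_univ _), Finset.card_singleton] at this
      simpa using this
    · have := c1 (fun χ => χ = Cfsg.Agent.H10.stIrr) (Fintype.card F) (by
        intro χ
        constructor
        · intro h
          rcases hirr χ with h1 | h1 | h1 | h1
          · omega
          · exact h1.1
          · omega
          · omega
        · rintro rfl
          exact Cfsg.Agent.H10.stIrr_degree)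
      rw [Finset.filter_eq' Finset.univ, if_pos (Finset.mem_univ _), Finset.card_singleton] at this
      exact this
    · have := c1 (fun χ => χ ∈ Cfsg.Agent.H10.Tset F) (Fintype.card F + 1) (by
        intro χ
        constructor
        · intro h
          rcases hirr χ with h1 | h1 | h1 | h1
          · omega
          · omega
          · exact h1.1
          · omega
        · intro h
          exact Cfsg.Agent.H10.Tset_degree h)
      rw [Finset.filter_mem_eq_inter, Finset.univ_inter] at this
      push_cast at this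
      rw [this]
      omega
    · have := c1 (fun χ => Cfsg.Agent.H10.IsCusp1 χ) (Fintype.card F - 1) (by
        intro χ
        constructor
        · intro h
          rcases hirr χ with h1 | h1 | h1 | h1
          · omega
          · omega
          · omega
          · exact h1.1
        · intro h
          exact Cfsg.Agent.H10.cusp_degree_even χ h)
      rw [hqc, Cfsg.Agent.H10.card_cusp_even] at this
      exact this

end Cfsg.Agent.S2300
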