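import Mathlib
import Cfsg.Statements.S2301
import Cfsg.Agent.Lib.H10.SL2Unip

set_option autoImplicit false

open Cfsg

namespace Cfsg.Agent.S2301

open Cfsg.Agent.H10

theorem result {F : Type*} [Field F] [Fintype F] (p : ℕ) [Fact p.Prime] [CharP F p] (hp : p ≠ 2) :
    Nat.card {C : ConjClasses (Matrix.SpecialLinearGroup (Fin 2) F) // ∃ g : Matrix.SpecialLinearGroup (Fin 2) F, orderOf g = p ∧ ConjClasses.mk g = C} = 2 ∧
    (∀ g : Matrix.SpecialLinearGroup (Fin 2) F, orderOf g = p → Nat.card (ConjClasses.mk g).carrier = (Fintype.card F ^ 2 - 1) / 2) ∧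
    ∀ g h : Matrix.SpecialLinearGroup (Fin 2) F, (g : Matrix (Fin 2) (Fin 2) F) 0 0 = 1 → (g : Matrix (Fin 2) (Fin 2) F) 1 1 = 1 → (g : Matrix (Fin 2) (Fin 2) F) 1 0 = 0 → (g : Matrix (Fin 2) (Fin 2) F) 0 1 ≠ 0 →
      (h : Matrix (Fin 2) (Fin 2) F) 0 0 = 1 → (h : Matrix (Fin 2) (Fin 2) F) 1 1 = 1 → (h : Matrix (Fin 2) (Fin 2) F) 1 0 = 0 → (h : Matrix (Fin 2) (Fin 2) F) 0 1 ≠ 0 →
      (IsConj g h ↔ IsSquare ((g : Matrix (Fin 2) (Fin 2) F) 0 1 * (h : Matrix (Fin 2) (Fin 2) F) 0 1)) := by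
  classical
  have hpp : p.Prime := Fact.out
  have hch : ringChar F = p := ringChar.eq F p
  have hch2 : ringChar F ≠ 2 := by rw [hch]; exact hp
  have h2 : (2 : F) ≠ 0 := Ring.two_ne_zero hch2
  obtain ⟨ν, hν⟩ := FiniteField.exists_nonsquare hch2
  have hν0 : ν ≠ 0 := by
    rintro rfl
    exact hν IsSquare.zero
  refine ⟨?_, ?_, ?_⟩
  · rw [Nat.card_eq_two_iff]
    refine ⟨⟨ConjClasses.mk (uSL 1), uSL 1, orderOf_uSL p 1 one_ne_zero, rfl⟩,
      ⟨ConjClasses.mk (uSL ν), uSL ν, orderOf_uSL p ν hν0, rfl⟩, ?_, ?_⟩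
    · intro h
      have h3 : IsConj (uSL (1 : F)) (uSL ν) :=
        ConjClasses.mk_eq_mk_iff_isConj.mp (congrArg Subtype.val h)
      rw [uSL_isConj_iff _ _ one_ne_zero hν0, one_mul] at h3
      exact hν h3
    · ext ⟨C, g, hg, rfl⟩
      simp only [Set.mem_insert_iff, Set.mem_singleton_iff, Set.mem_univ, iff_true, Subtype.mk.injEq]
      obtain ⟨b, hb, hc⟩ := isConj_uSL_of_order p g hg
      by_cases hsq : IsSquare b
      · left
        refine ConjClasses.mk_eq_mk_iff_isConj.mpr (hc.symm.trans ?_)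
        rw [uSL_isConj_iff _ _ hb one_ne_zero, mul_one]
        exact hsq
      · right
        refine ConjClasses.mk_eq_mk_iff_isConj.mpr (hc.symm.trans ?_)
        rw [uSL_isConj_iff _ _ hb hν0]
        have h3 := quadraticChar_neg_one_iff_not_isSquare.mpr hsq
        have h4 := quadraticChar_neg_one_iff_not_isSquare.mpr hν
        rw [← quadraticChar_one_iff_isSquare (mul_ne_zero hb hν0), map_mul, h3, h4]
        norm_num
  · intro g hg
    obtain ⟨b, hb, hc⟩ := isConj_uSL_of_order p g hg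
    have h3 := card_carrier_mul_centralizer (uSL b)
    rw [card_SL_two, card_centralizer_uSL b hb, card_sq_eq_one_of_ne_two h2] at h3
    have h4 : ConjClasses.mk g = ConjClasses.mk (uSL b) :=
      ConjClasses.mk_eq_mk_iff_isConj.mpr hc.symm
    rw [h4]
    have hq : 0 < Fintype.card F := Fintype.card_pos
    have h5 : Nat.card (ConjClasses.mk (uSL b)).carrier * 2 = Fintype.card F ^ 2 - 1 := by
      apply Nat.eq_of_mul_eq_mul_right hq
      rw [mul_assoc, h3, mul_comm]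
    rw [← h5]
    simp
  · intro g h h00 h11 h10 h01 h00' h11' h10' h01'
    rw [uSL_eq_of_entries g h00 h11 h10, uSL_eq_of_entries h h00' h11' h10']
    simp only [uSL_coe]
    simpa using uSL_isConj_iff _ _ h01 h01'

end Cfsg.Agent.S2301
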