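import Mathlib
import Cfsg.Statements.S2302
import Cfsg.Agent.Lib.H10.SL2Unip

set_option autoImplicit false

open Cfsg

namespace Cfsg.Agent.S2302

open Cfsg.Agent.H10

theorem result {F : Type*} [Field F] [Fintype F] [CharP F 2] (g h : Matrix.SpecialLinearGroup (Fin 2) F) (hg : orderOf g = 2) (hh : orderOf h = 2) :
    IsConj g h ∧ Nat.card (ConjClasses.mk g).carrier = Fintype.card F ^ 2 - 1 := by
  have hchar : ringChar F = 2 := ringChar.eq F 2
  haveI : Fact (Nat.Prime 2) := ⟨Nat.prime_two⟩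
  obtain ⟨b, hb, hcb⟩ := isConj_uSL_of_order 2 g hg
  obtain ⟨b', hb', hcb'⟩ := isConj_uSL_of_order 2 h hh
  have h1 : IsConj g h := by
    refine hcb.symm.trans (IsConj.trans ?_ hcb')
    rw [uSL_isConj_iff b b' hb hb']
    exact FiniteField.isSquare_of_char_two hchar _
  refine ⟨h1, ?_⟩
  have h2 := card_carrier_mul_centralizer (uSL b)
  rw [card_SL_two, card_centralizer_uSL b hb, card_sq_eq_one_of_char_two, one_mul] at h2
  have h3 : ConjClasses.mk g = ConjClasses.mk (uSL b) :=
    ConjClasses.mk_eq_mk_iff_isConj.mpr hcb.symm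
  rw [h3]
  have hq : 0 < Fintype.card F := Fintype.card_pos
  rw [mul_comm (Fintype.card F)] at h2
  exact Nat.eq_of_mul_eq_mul_right hq h2

end Cfsg.Agent.S2302
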