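import Mathlib
import Cfsg.Statements.S2303
import Cfsg.Agent.Lib.H10.GL2

set_option autoImplicit false

open Cfsg

namespace Cfsg.Agent.S2303

open Cfsg.Agent.H10

variable {F : Type*} [Field F]

/-- Anything commuting with a non-scalar matrix is a polynomial in it. -/
lemma commute_nonscalar (g X : Matrix (Fin 2) (Fin 2) F)
    (hg : ¬ ∃ a : F, g = a • (1 : Matrix (Fin 2) (Fin 2) F)) (h : X * g = g * X) :
    ∃ a b : F, X = a • (1 : Matrix (Fin 2) (Fin 2) F) + b • g := by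
  obtain ⟨P, hP, e⟩ := exists_cyclic g hg
  have hu : IsUnit P.det := isUnit_iff_ne_zero.mpr hP
  have hinv : P * P⁻¹ = 1 := Matrix.mul_nonsing_inv P hu
  have hinv' : P⁻¹ * P = 1 := Matrix.nonsing_inv_mul P hu
  have e' : comp2 g.trace g.det = P⁻¹ * g * P := by
    rw [mul_assoc, e, ← mul_assoc, hinv', one_mul]
  have hY : (P⁻¹ * X * P) * comp2 g.trace g.det = comp2 g.trace g.det * (P⁻¹ * X * P) := by
    rw [e']
    calc P⁻¹ * X * P * (P⁻¹ * g * P) = P⁻¹ * X * (P * P⁻¹) * g * P := by noncomm_ring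
      _ = P⁻¹ * (X * g) * P := by rw [hinv]; noncomm_ring
      _ = P⁻¹ * (g * X) * P := by rw [h]
      _ = P⁻¹ * g * (P * P⁻¹) * X * P := by rw [hinv]; noncomm_ring
      _ = P⁻¹ * g * P * (P⁻¹ * X * P) := by noncomm_ring
  have hZ := commute_comp2 _ _ _ hY
  refine ⟨(P⁻¹ * X * P) 0 0, (P⁻¹ * X * P) 1 0, ?_⟩
  generalize (P⁻¹ * X * P) 0 0 = a at hZ ⊢
  generalize (P⁻¹ * X * P) 1 0 = b at hZ ⊢
  have h1 : X = P * (P⁻¹ * X * P) * P⁻¹ := by
    calc X = (P * P⁻¹) * X * (P * P⁻¹) := by rw [hinv]; simp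
      _ = _ := by noncomm_ring
  rw [hZ, e', mul_add, add_mul] at h1
  have h2 : P * (P⁻¹ * g * P) * P⁻¹ = g := by
    calc P * (P⁻¹ * g * P) * P⁻¹ = (P * P⁻¹) * g * (P * P⁻¹) := by noncomm_ring
      _ = g := by rw [hinv]; simp
  rw [mul_smul_comm, smul_mul_assoc, mul_one, mul_smul_comm, smul_mul_assoc, h2, hinv] at h1
  exact h1

/-- centralizer of a diagonal element -/
noncomputable def diagEquiv (g : GL (Fin 2) F)
    (h01 : (g : Matrix (Fin 2) (Fin 2) F) 0 1 = 0) (h10 : (g : Matrix (Fin 2) (Fin 2) F) 1 0 = 0)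
    (hne : (g : Matrix (Fin 2) (Fin 2) F) 0 0 ≠ (g : Matrix (Fin 2) (Fin 2) F) 1 1) :
    Fˣ × Fˣ ≃ Subgroup.centralizer ({g} : Set (GL (Fin 2) F)) := by
  have hd (x : Fˣ × Fˣ) : (!![(x.1 : F), 0; 0, (x.2 : F)]).det ≠ 0 := by
    simp [Matrix.det_fin_two]
  refine Equiv.ofBijective (fun x => ⟨Matrix.GeneralLinearGroup.mkOfDetNeZero _ (hd x), ?_⟩) ⟨?_, ?_⟩
  · rw [Subgroup.mem_centralizer_singleton_iff]
    apply Units.ext
    ext i j
    fin_cases i <;> fin_cases j <;>
      simp [Matrix.GeneralLinearGroup.mkOfDetNeZero, Matrix.mul_apply, Fin.sum_univ_two, h01, h10, mul_comm]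
  · rintro ⟨a, b⟩ ⟨a', b'⟩ h
    have h1 := congrArg (fun x : Subgroup.centralizer ({g} : Set (GL (Fin 2) F)) =>
      (((x : GL (Fin 2) F) : Matrix (Fin 2) (Fin 2) F))) h
    have h00 := congrFun (congrFun h1 0) 0
    have h11 := congrFun (congrFun h1 1) 1
    simp [Matrix.GeneralLinearGroup.mkOfDetNeZero] at h00 h11
    rw [Units.ext h00, Units.ext h11]
  · rintro ⟨X, hX⟩
    rw [Subgroup.mem_centralizer_singleton_iff] at hX
    have hX' := congrArg (fun x : GL (Fin 2) F => (x : Matrix (Fin 2) (Fin 2) F)) hX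
    simp only [Units.val_mul] at hX'
    have e01 := congrFun (congrFun hX' 0) 1
    have e10 := congrFun (congrFun hX' 1) 0
    simp [Matrix.mul_apply, Fin.sum_univ_two, h01, h10] at e01 e10
    have hsub : (g : Matrix (Fin 2) (Fin 2) F) 0 0 - (g : Matrix (Fin 2) (Fin 2) F) 1 1 ≠ 0 := sub_ne_zero.mpr hne
    have x01 : (X : Matrix (Fin 2) (Fin 2) F) 0 1 = 0 := by
      apply mul_right_cancel₀ hsub
      linear_combination -e01
    have x10 : (X : Matrix (Fin 2) (Fin 2) F) 1 0 = 0 := by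
      apply mul_right_cancel₀ hsub
      linear_combination e10
    have hdX : (X : Matrix (Fin 2) (Fin 2) F).det ≠ 0 :=
      ((Matrix.isUnit_iff_isUnit_det _).mp X.isUnit).ne_zero
    rw [Matrix.det_fin_two, x01, x10] at hdX
    simp only [mul_zero, sub_zero] at hdX
    refine ⟨(Units.mk0 _ (left_ne_zero_of_mul hdX), Units.mk0 _ (right_ne_zero_of_mul hdX)), ?_⟩
    apply Subtype.ext
    apply Units.ext
    ext i j
    fin_cases i <;> fin_cases j <;>
      simp [Matrix.GeneralLinearGroup.mkOfDetNeZero, x01, x10]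

/-- centralizer of an element without eigenvector -/
noncomputable def noEigEquiv (g : GL (Fin 2) F)
    (hg : ∀ (c : F) (v : Fin 2 → F), v ≠ 0 → (g : Matrix (Fin 2) (Fin 2) F).mulVec v ≠ c • v) :
    {x : F × F // x ≠ 0} ≃ Subgroup.centralizer ({g} : Set (GL (Fin 2) F)) := by
  have hns : ¬ ∃ a : F, (g : Matrix (Fin 2) (Fin 2) F) = a • (1 : Matrix (Fin 2) (Fin 2) F) := by
    rintro ⟨a, ha⟩
    refine hg a (fun _ => 1) ?_ ?_
    · intro h
      have := congrFun h 0
      simp at this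
    · rw [ha]
      ext i
      simp [Matrix.smul_mulVec]
  have hd (x : {x : F × F // x ≠ 0}) :
      (x.1.1 • (1 : Matrix (Fin 2) (Fin 2) F) + x.1.2 • (g : Matrix (Fin 2) (Fin 2) F)).det ≠ 0 := by
    intro h0
    obtain ⟨v, hv, e⟩ := Matrix.exists_mulVec_eq_zero_iff.mpr h0
    rw [Matrix.add_mulVec, Matrix.smul_mulVec, Matrix.smul_mulVec, Matrix.one_mulVec] at e
    by_cases hb : x.1.2 = 0
    · rw [hb, zero_smul, add_zero] at e
      have ha : x.1.1 = 0 := by
        by_contra ha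
        exact hv ((smul_eq_zero.mp e).resolve_left ha)
      exact x.2 (Prod.ext ha hb)
    · refine hg (-(x.1.1 / x.1.2)) v hv ?_
      have h5 : x.1.2 • (g : Matrix (Fin 2) (Fin 2) F).mulVec v = -(x.1.1 • v) := by
        rw [eq_neg_iff_add_eq_zero, add_comm]
        exact e
      have h6 : (g : Matrix (Fin 2) (Fin 2) F).mulVec v = x.1.2⁻¹ • (x.1.2 • (g : Matrix (Fin 2) (Fin 2) F).mulVec v) := by
        rw [smul_smul, inv_mul_cancel₀ hb, one_smul]
      rw [h6, h5, smul_neg, smul_smul, neg_smul]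
      congr 2
      field_simp
  refine Equiv.ofBijective (fun x => ⟨Matrix.GeneralLinearGroup.mkOfDetNeZero _ (hd x), ?_⟩) ⟨?_, ?_⟩
  · rw [Subgroup.mem_centralizer_singleton_iff]
    apply Units.ext
    change (x.1.1 • (1 : Matrix (Fin 2) (Fin 2) F) + x.1.2 • (g : Matrix (Fin 2) (Fin 2) F)) * g =
      g * (x.1.1 • (1 : Matrix (Fin 2) (Fin 2) F) + x.1.2 • (g : Matrix (Fin 2) (Fin 2) F))
    simp [add_mul, mul_add]
  · rintro ⟨⟨a, b⟩, hx⟩ ⟨⟨a', b'⟩, hx'⟩ h
    have h1 : a • (1 : Matrix (Fin 2) (Fin 2) F) + b • (g : Matrix (Fin 2) (Fin 2) F) =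
        a' • (1 : Matrix (Fin 2) (Fin 2) F) + b' • (g : Matrix (Fin 2) (Fin 2) F) := by
      have h2 := congrArg (fun x : Subgroup.centralizer ({g} : Set (GL (Fin 2) F)) =>
        (((x : GL (Fin 2) F) : Matrix (Fin 2) (Fin 2) F))) h
      exact h2
    have hbb : b = b' := by
      by_contra hne
      apply hns
      refine ⟨(a' - a) / (b - b'), ?_⟩
      have h7 : (b - b') • (g : Matrix (Fin 2) (Fin 2) F) = (a' - a) • (1 : Matrix (Fin 2) (Fin 2) F) := by
        rw [sub_smul, sub_smul]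
        have := h1
        rw [← sub_eq_zero] at this ⊢
        rw [← this]
        abel
      have h8 : (g : Matrix (Fin 2) (Fin 2) F) = (b - b')⁻¹ • ((b - b') • (g : Matrix (Fin 2) (Fin 2) F)) := by
        rw [smul_smul, inv_mul_cancel₀ (sub_ne_zero.mpr hne), one_smul]
      rw [h8, h7, smul_smul]
      congr 1
      field_simp
    subst hbb
    have h9 : a • (1 : Matrix (Fin 2) (Fin 2) F) = a' • (1 : Matrix (Fin 2) (Fin 2) F) :=
      add_right_cancel h1
    have h10 := congrFun (congrFun h9 0) 0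
    simp at h10
    subst h10
    rfl
  · rintro ⟨X, hX⟩
    rw [Subgroup.mem_centralizer_singleton_iff] at hX
    have hX' : (X : Matrix (Fin 2) (Fin 2) F) * g = g * X :=
      congrArg (fun x : GL (Fin 2) F => (x : Matrix (Fin 2) (Fin 2) F)) hX
    obtain ⟨a, b, hab⟩ := commute_nonscalar _ _ hns hX'
    have hne : (a, b) ≠ (0 : F × F) := by
      intro h
      have ha : a = 0 := congrArg Prod.fst h
      have hb : b = 0 := congrArg Prod.snd h
      have hdX : (X : Matrix (Fin 2) (Fin 2) F).det ≠ 0 :=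
        ((Matrix.isUnit_iff_isUnit_det _).mp X.isUnit).ne_zero
      apply hdX
      rw [hab, ha, hb]
      simp
    refine ⟨⟨(a, b), hne⟩, ?_⟩
    apply Subtype.ext
    apply Units.ext
    exact hab.symm

theorem result {F : Type*} [Field F] [Fintype F] (g : Matrix.GeneralLinearGroup (Fin 2) F) :
    ((g : Matrix (Fin 2) (Fin 2) F) 0 1 = 0 → (g : Matrix (Fin 2) (Fin 2) F) 1 0 = 0 → (g : Matrix (Fin 2) (Fin 2) F) 0 0 ≠ (g : Matrix (Fin 2) (Fin 2) F) 1 1 →
      Nat.card (Subgroup.centralizer ({g} : Set (Matrix.GeneralLinearGroup (Fin 2) F))) = (Fintype.card F - 1) ^ 2) ∧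
    ((∀ (c : F) (v : Fin 2 → F), v ≠ 0 → (g : Matrix (Fin 2) (Fin 2) F).mulVec v ≠ c • v) →
      Nat.card (Subgroup.centralizer ({g} : Set (Matrix.GeneralLinearGroup (Fin 2) F))) = Fintype.card F ^ 2 - 1) := by
  classical
  constructor
  · intro h01 h10 hne
    rw [← Nat.card_congr (diagEquiv g h01 h10 hne)]
    simp [Nat.card_eq_fintype_card, Fintype.card_units, sq]
  · intro hg
    rw [← Nat.card_congr (noEigEquiv g hg), Nat.card_eq_fintype_card]
    simp [Fintype.card_subtype_compl, Fintype.card_prod, sq]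

end Cfsg.Agent.S2303
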