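import Mathlib
import Cfsg.Statements.S2305
import Cfsg.Agent.Lib.H10.PS

set_option autoImplicit false

open Cfsg

namespace Cfsg.Agent.S2305

theorem result {F : Type*} [Field F] [Fintype F] [DecidableEq F] (α β α' β' : MulChar F ℂ) :
    Cfsg.indFun (Cfsg.upperTriangularGL 2 F) (fun b => α (((b : Matrix.GeneralLinearGroup (Fin 2) F) : Matrix (Fin 2) (Fin 2) F) 0 0) * β (((b : Matrix.GeneralLinearGroup (Fin 2) F) : Matrix (Fin 2) (Fin 2) F) 1 1)) = Cfsg.indFun (Cfsg.upperTriangularGL 2 F) (fun b => α' (((b : Matrix.GeneralLinearGroup (Fin 2) F) : Matrix (Fin 2) (Fin 2) F) 0 0) * β' (((b : Matrix.GeneralLinearGroup (Fin 2) F) : Matrix (Fin 2) (Fin 2) F) 1 1)) ↔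
      (α = α' ∧ β = β') ∨ (α = β' ∧ β = α') := by
  change (Cfsg.Agent.H10.ps α β : Matrix.GeneralLinearGroup (Fin 2) F → ℂ) = Cfsg.Agent.H10.ps α' β' ↔ _
  constructor
  · intro h
    have h1 := Cfsg.Agent.H10.inner_ps α β α β
    have h2 := Cfsg.Agent.H10.inner_ps α β α' β'
    rw [← h, h1] at h2
    by_cases h3 : α = α' ∧ β = β'
    · exact Or.inl h3
    · by_cases h4 : α = β' ∧ β = α'
      · exact Or.inr h4
      · exfalso
        simp only [h3, h4, if_false, add_zero] at h2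
        by_cases hab : α = β <;> simp [hab] at h2
  · rintro (⟨rfl, rfl⟩ | ⟨rfl, rfl⟩)
    · rfl
    · exact Cfsg.Agent.H10.ps_symm _ _

end Cfsg.Agent.S2305
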