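import Mathlib
import Cfsg.Statements.S2306
import Cfsg.Agent.Lib.H10.PS1

set_option autoImplicit false

open Cfsg

namespace Cfsg.Agent.S2306

theorem result {F : Type*} [Field F] [Fintype F] [DecidableEq F] (α : MulChar F ℂ) :
    Cfsg.IsIrrCharacter (Matrix.SpecialLinearGroup (Fin 2) F) (Cfsg.indFun ((Cfsg.upperTriangularGL 2 F).comap Matrix.SpecialLinearGroup.toGL) (fun b => α (((b : Matrix.SpecialLinearGroup (Fin 2) F) : Matrix (Fin 2) (Fin 2) F) 0 0))) ↔ α ^ 2 ≠ 1 := by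
  change Cfsg.IsIrrCharacter (Matrix.SpecialLinearGroup (Fin 2) F) (Cfsg.Agent.H10.pi1 α) ↔ _
  have key : α ^ 2 = 1 ↔ α = α⁻¹ := by
    rw [sq, ← eq_inv_iff_mul_eq_one]
  rw [ne_eq, key]
  constructor
  · intro h hα
    have h1 := Cfsg.Agent.H21.classInner_self_irr ⟨Cfsg.Agent.H10.pi1 α, h⟩
    simp only at h1
    rw [Cfsg.Agent.H10.inner_pi1, if_pos rfl, if_pos hα] at h1
    norm_num at h1
  · intro h
    exact Cfsg.Agent.H10.pi1_irr α h

end Cfsg.Agent.S2306
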