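import Mathlib
import Cfsg.Statements.S2307
import Cfsg.Agent.Lib.H10.PS1Tau

set_option autoImplicit false

open Cfsg

namespace Cfsg.Agent.S2307

theorem result {F : Type*} [Field F] [Fintype F] [DecidableEq F] (hodd : Odd (Fintype.card F)) (α : MulChar F ℂ)
    (hα : α ^ 2 = 1) (hα1 : α ≠ 1) :
    ∃ χ₁ χ₂ : Matrix.SpecialLinearGroup (Fin 2) F → ℂ, Cfsg.IsIrrCharacter (Matrix.SpecialLinearGroup (Fin 2) F) χ₁ ∧ Cfsg.IsIrrCharacter (Matrix.SpecialLinearGroup (Fin 2) F) χ₂ ∧ χ₁ ≠ χ₂ ∧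
      Cfsg.indFun ((Cfsg.upperTriangularGL 2 F).comap Matrix.SpecialLinearGroup.toGL) (fun b => α (((b : Matrix.SpecialLinearGroup (Fin 2) F) : Matrix (Fin 2) (Fin 2) F) 0 0)) = χ₁ + χ₂ ∧
      χ₁ 1 = (((Fintype.card F + 1) / 2 : ℕ) : ℂ) ∧ χ₂ 1 = (((Fintype.card F + 1) / 2 : ℕ) : ℂ) ∧
      ∃ x : Matrix.GeneralLinearGroup (Fin 2) F, ∀ g h : Matrix.SpecialLinearGroup (Fin 2) F,
        Matrix.SpecialLinearGroup.toGL h = x * Matrix.SpecialLinearGroup.toGL g * x⁻¹ → χ₂ h = χ₁ g := by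
  have he : α = Cfsg.Agent.H10.qc F := Cfsg.Agent.H10.eq_qc_of_sq hodd α hα hα1
  subst he
  obtain ⟨χ₁, χ₂, hp⟩ := Cfsg.Agent.H10.exists_halfPair (F := F)
  obtain ⟨ν, hν⟩ := FiniteField.exists_nonsquare (Cfsg.Agent.S2325.char_ne_two hodd)
  have hν0 : ν ≠ 0 := by
    rintro rfl
    exact hν IsSquare.zero
  have hdeg : ∀ {ψ₁ ψ₂ : Cfsg.IrrCharacter (Matrix.SpecialLinearGroup (Fin 2) F)}, Cfsg.Agent.H10.HalfPair ψ₁ ψ₂ →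
      ψ₁.1 1 = (((Fintype.card F + 1) / 2 : ℕ) : ℂ) := by
    intro ψ₁ ψ₂ h
    have h1 := Cfsg.Agent.H10.half_degree hodd h
    rw [Cfsg.Agent.H21.one_eq_charDegree (Cfsg.Agent.H21.isCharacter_of_irr ψ₁.2)]
    congr 1
    omega
  refine ⟨χ₁.1, χ₂.1, χ₁.2, χ₂.2, fun h => hp.1 (Subtype.ext h), hp.2, hdeg hp, hdeg hp.symm,
    Cfsg.Agent.H10.dg (Units.mk0 ν hν0), ?_⟩
  intro g h e
  have h1 := Cfsg.Agent.H10.half_swap hodd hp (Units.mk0 ν hν0) (by simpa using hν)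
  rw [← h1, Cfsg.Agent.H10.tauIrr_apply, Cfsg.Agent.H10.conjSL_of_eq _ g h e]

end Cfsg.Agent.S2307
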