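import Mathlib
import Cfsg.Statements.S2308
import Cfsg.Agent.Lib.H10.Borel2

set_option autoImplicit false

open Cfsg

namespace Cfsg.Agent.S2308

open Cfsg.Agent.H10

theorem result {F : Type*} [Field F] [Fintype F] (g : Matrix.GeneralLinearGroup (Fin 2) F) :
    ((∃ a : F, (g : Matrix (Fin 2) (Fin 2) F) = a • (1 : Matrix (Fin 2) (Fin 2) F)) → Cfsg.fixedPointCharacter (Cfsg.upperTriangularGL 2 F) g = Fintype.card F + 1) ∧
    ((g : Matrix (Fin 2) (Fin 2) F) 0 1 = 0 → (g : Matrix (Fin 2) (Fin 2) F) 1 0 = 0 → (g : Matrix (Fin 2) (Fin 2) F) 0 0 ≠ (g : Matrix (Fin 2) (Fin 2) F) 1 1 →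
      Cfsg.fixedPointCharacter (Cfsg.upperTriangularGL 2 F) g = 2) ∧
    ((∀ (c : F) (v : Fin 2 → F), v ≠ 0 → (g : Matrix (Fin 2) (Fin 2) F).mulVec v ≠ c • v) → Cfsg.fixedPointCharacter (Cfsg.upperTriangularGL 2 F) g = 0) ∧
    ((g : Matrix (Fin 2) (Fin 2) F) 1 0 = 0 → (g : Matrix (Fin 2) (Fin 2) F) 0 0 = (g : Matrix (Fin 2) (Fin 2) F) 1 1 → (g : Matrix (Fin 2) (Fin 2) F) 0 1 ≠ 0 →
      Cfsg.fixedPointCharacter (Cfsg.upperTriangularGL 2 F) g = 1) := by
  classical
  refine ⟨?_, ?_, ?_, ?_⟩
  · rintro ⟨a, ha⟩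
    rw [fixedPointCharacter_eq]
    have hall : ∀ x : Option F, lineFixed g x := by
      rintro (_ | t)
      · simp [lineFixed, ha]
      · simp [lineFixed, ha]
    have : Nat.card {x : Option F // lineFixed g x} = Fintype.card F + 1 := by
      rw [Nat.card_congr (Equiv.subtypeUnivEquiv hall)]
      simp [Nat.card_eq_fintype_card]
    rw [this]
    push_cast
    rfl
  · intro h01 h10 hne
    rw [fixedPointCharacter_eq]
    have hiff : ∀ x : Option F, lineFixed g x ↔ x = none ∨ x = some 0 := by
      rintro (_ | t)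
      · simp [lineFixed, h10]
      · simp only [lineFixed, h01, h10, zero_mul, add_zero, reduceCtorEq, false_or, Option.some.injEq]
        constructor
        · intro h
          have : ((g : Matrix (Fin 2) (Fin 2) F) 0 0 - (g : Matrix (Fin 2) (Fin 2) F) 1 1) * t = 0 := by
            linear_combination h
          exact (mul_eq_zero.mp this).resolve_left (sub_ne_zero.mpr hne)
        · rintro rfl
          simp
    have : Nat.card {x : Option F // lineFixed g x} = 2 := by
      rw [Nat.card_eq_two_iff]
      refine ⟨⟨none, (hiff _).mpr (Or.inl rfl)⟩, ⟨some 0, (hiff _).mpr (Or.inr rfl)⟩, by simp, ?_⟩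
      ext ⟨x, hx⟩
      simp only [Set.mem_insert_iff, Set.mem_singleton_iff, Set.mem_univ, iff_true, Subtype.mk.injEq]
      exact (hiff x).mp hx
    rw [this]
    norm_num
  · intro hg
    rw [fixedPointCharacter_eq]
    have hnone : ∀ x : Option F, ¬ lineFixed g x := by
      rintro (_ | t) h
      · refine hg ((g : Matrix (Fin 2) (Fin 2) F) 0 0) ![1, 0] ?_ ?_
        · intro h0
          have := congrFun h0 0
          simp at this
        · ext i
          fin_cases i
          · simp [Matrix.mulVec, dotProduct, Fin.sum_univ_two]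
          · have h' : (g : Matrix (Fin 2) (Fin 2) F) 1 0 = 0 := h
            simpa [Matrix.mulVec, dotProduct, Fin.sum_univ_two] using h'
      · refine hg ((g : Matrix (Fin 2) (Fin 2) F) 1 0 * t + (g : Matrix (Fin 2) (Fin 2) F) 1 1) ![t, 1] ?_ ?_
        · intro h0
          have := congrFun h0 1
          simp at this
        · ext i
          fin_cases i
          · have h' : (g : Matrix (Fin 2) (Fin 2) F) 0 0 * t + (g : Matrix (Fin 2) (Fin 2) F) 0 1 =
                ((g : Matrix (Fin 2) (Fin 2) F) 1 0 * t + (g : Matrix (Fin 2) (Fin 2) F) 1 1) * t := h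
            simpa [Matrix.mulVec, dotProduct, Fin.sum_univ_two] using h'
          · simp [Matrix.mulVec, dotProduct, Fin.sum_univ_two]
    have : Nat.card {x : Option F // lineFixed g x} = 0 := by
      have : IsEmpty {x : Option F // lineFixed g x} := ⟨fun x => hnone x.1 x.2⟩
      exact Nat.card_of_isEmpty
    rw [this]
    norm_num
  · intro h10 heq h01
    rw [fixedPointCharacter_eq]
    have hiff : ∀ x : Option F, lineFixed g x ↔ x = none := by
      rintro (_ | t)
      · simp [lineFixed, h10]
      · simp only [lineFixed, h10, zero_mul, zero_add, reduceCtorEq, iff_false]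
        intro h
        apply h01
        rw [← heq] at h
        linear_combination h
    have : Nat.card {x : Option F // lineFixed g x} = 1 := by
      rw [Nat.card_eq_one_iff_unique]
      refine ⟨⟨?_⟩, ⟨⟨none, (hiff _).mpr rfl⟩⟩⟩
      rintro ⟨x, hx⟩ ⟨y, hy⟩
      apply Subtype.ext
      exact ((hiff x).mp hx).trans ((hiff y).mp hy).symm
    rw [this]
    norm_num

end Cfsg.Agent.S2308
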