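import Mathlib
import Cfsg.Statements.S2309
import Cfsg.Agent.Lib.H10.PS

set_option autoImplicit false

open Cfsg

namespace Cfsg.Agent.S2309

theorem result {F : Type*} [Field F] [Fintype F] (χ : Matrix.GeneralLinearGroup (Fin 2) F → ℂ) (hχ : Cfsg.IsIrrCharacter (Matrix.GeneralLinearGroup (Fin 2) F) χ) (g : Matrix.GeneralLinearGroup (Fin 2) F) :
    (χ 1 = (Fintype.card F : ℂ) - 1 → (g : Matrix (Fin 2) (Fin 2) F) 0 1 = 0 → (g : Matrix (Fin 2) (Fin 2) F) 1 0 = 0 → (g : Matrix (Fin 2) (Fin 2) F) 0 0 ≠ (g : Matrix (Fin 2) (Fin 2) F) 1 1 → χ g = 0) ∧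
    (χ 1 = (Fintype.card F : ℂ) + 1 → (∀ (c : F) (v : Fin 2 → F), v ≠ 0 → (g : Matrix (Fin 2) (Fin 2) F).mulVec v ≠ c • v) → χ g = 0) := by
  classical
  obtain ⟨hq1⟩ : Nonempty (1 ≤ Fintype.card F) := ⟨Fintype.card_pos⟩
  have hqC : ((Fintype.card F : ℕ) : ℂ) ≠ 0 := by
    have : Fintype.card F ≠ 0 := Fintype.card_ne_zero
    exact_mod_cast this
  constructor
  · intro hd h01 h10 hne
    obtain ⟨a, d, rfl, ha, hd'⟩ := Cfsg.Agent.H10.borel_of_diag g h01 h10
    have had : a ≠ d := by
      rintro rfl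
      exact hne (ha.symm.trans hd')
    rcases Cfsg.Agent.H10.irr_classify ⟨χ, hχ⟩ with ⟨l, hl⟩ | ⟨l, hl⟩ | ⟨α, β, hab, hl⟩ | ⟨hc, -⟩
    · exfalso
      simp only at hl
      rw [hl, Cfsg.Agent.H10.detChar_one] at hd
      have h2 : (Fintype.card F : ℂ) = 2 := by linear_combination -hd
      have h3 : Fintype.card F = 2 := by exact_mod_cast h2
      have h4 : Fintype.card Fˣ = 1 := by
        rw [Fintype.card_units, h3]
      have h5 : Subsingleton Fˣ := Fintype.card_le_one_iff_subsingleton.mp h4.le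
      exact had (Subsingleton.elim _ _)
    · exfalso
      simp only at hl
      rw [hl, Cfsg.Agent.H10.st_one] at hd
      have : (1 : ℂ) = 0 := by linear_combination hd
      exact one_ne_zero this
    · exfalso
      simp only at hl
      rw [hl, Cfsg.Agent.H10.ps_one] at hd
      have : (2 : ℂ) = 0 := by linear_combination hd
      exact two_ne_zero this
    · exact Cfsg.Agent.H10.cusp_split χ (Cfsg.Agent.H21.isClassFunction_of_isCharacter (Cfsg.Agent.H21.isCharacter_of_irr hχ)) hc a d had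
  · intro hd hg
    rcases Cfsg.Agent.H10.irr_classify ⟨χ, hχ⟩ with ⟨l, hl⟩ | ⟨l, hl⟩ | ⟨α, β, hab, hl⟩ | ⟨-, hc⟩
    · exfalso
      simp only at hl
      rw [hl, Cfsg.Agent.H10.detChar_one] at hd
      exact hqC (by linear_combination -hd)
    · exfalso
      simp only at hl
      rw [hl, Cfsg.Agent.H10.st_one] at hd
      have : (1 : ℂ) = 0 := by linear_combination -hd
      exact one_ne_zero this
    · simp only at hl
      rw [hl]
      exact Cfsg.Agent.H10.ps_no_eig α β g hg
    · exfalso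
      simp only at hc
      rw [hc] at hd
      have : (2 : ℂ) = 0 := by linear_combination -hd
      exact two_ne_zero this

end Cfsg.Agent.S2309
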