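import Mathlib
import Cfsg.Statements.S2310
import Cfsg.Agent.Lib.H10.PS

set_option autoImplicit false

open Cfsg

namespace Cfsg.Agent.S2310

theorem result {F : Type*} [Field F] [Fintype F] (hq : 3 ≤ Fintype.card F) (χ : Matrix.GeneralLinearGroup (Fin 2) F → ℂ) (hχ : Cfsg.IsIrrCharacter (Matrix.GeneralLinearGroup (Fin 2) F) χ)
    (u : Matrix.GeneralLinearGroup (Fin 2) F) (hu : (u : Matrix (Fin 2) (Fin 2) F) = !![1, 1; 0, 1]) :
    (χ 1 = 1 → χ u = 1) ∧ (χ 1 = (Fintype.card F : ℂ) + 1 → χ u = 1) ∧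
    (χ 1 = (Fintype.card F : ℂ) - 1 → χ u = -1) ∧ (χ 1 = (Fintype.card F : ℂ) → χ u = 0) := by
  classical
  have hu' := Cfsg.Agent.H10.borelMk_eq_of_coe u hu
  have hqC : ((Fintype.card F : ℕ) : ℂ) ≠ 0 := by
    have : Fintype.card F ≠ 0 := Fintype.card_ne_zero
    exact_mod_cast this
  have hq2 : (Fintype.card F : ℂ) ≠ 2 := by
    intro h
    have : Fintype.card F = 2 := by exact_mod_cast h
    omega
  have hcl := Cfsg.Agent.H10.irr_classify ⟨χ, hχ⟩
  simp only at hcl
  refine ⟨?_, ?_, ?_, ?_⟩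
  · intro hd
    rcases hcl with ⟨l, hl⟩ | ⟨l, hl⟩ | ⟨α, β, hab, hl⟩ | ⟨hc, hc1⟩
    · rw [hl, hu']
      exact Cfsg.Agent.H10.detChar_unip l
    · exfalso
      rw [hl, Cfsg.Agent.H10.st_one] at hd
      have : Fintype.card F = 1 := by exact_mod_cast hd
      omega
    · exfalso
      rw [hl, Cfsg.Agent.H10.ps_one] at hd
      exact hqC (by linear_combination hd)
    · exfalso
      rw [hc1] at hd
      exact hq2 (by linear_combination hd)
  · intro hd
    rcases hcl with ⟨l, hl⟩ | ⟨l, hl⟩ | ⟨α, β, hab, hl⟩ | ⟨hc, hc1⟩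
    · exfalso
      rw [hl, Cfsg.Agent.H10.detChar_one] at hd
      exact hqC (by linear_combination -hd)
    · exfalso
      rw [hl, Cfsg.Agent.H10.st_one] at hd
      have : (1 : ℂ) = 0 := by linear_combination -hd
      exact one_ne_zero this
    · rw [hl, hu']
      exact Cfsg.Agent.H10.ps_unip α β
    · exfalso
      rw [hc1] at hd
      have : (2 : ℂ) = 0 := by linear_combination -hd
      exact two_ne_zero this
  · intro hd
    rcases hcl with ⟨l, hl⟩ | ⟨l, hl⟩ | ⟨α, β, hab, hl⟩ | ⟨hc, hc1⟩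
    · exfalso
      rw [hl, Cfsg.Agent.H10.detChar_one] at hd
      exact hq2 (by linear_combination -hd)
    · exfalso
      rw [hl, Cfsg.Agent.H10.st_one] at hd
      have : (1 : ℂ) = 0 := by linear_combination hd
      exact one_ne_zero this
    · exfalso
      rw [hl, Cfsg.Agent.H10.ps_one] at hd
      have : (2 : ℂ) = 0 := by linear_combination hd
      exact two_ne_zero this
    · have h1 := Cfsg.Agent.H10.cusp_unip χ (Cfsg.Agent.H21.isClassFunction_of_isCharacter (Cfsg.Agent.H21.isCharacter_of_irr hχ)) hc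
      rw [hc1, ← hu'] at h1
      have hq1 : 1 ≤ Fintype.card F := Fintype.card_pos
      push_cast [Nat.cast_sub hq1] at h1
      have hne : (Fintype.card F : ℂ) - 1 ≠ 0 := by
        intro h
        have h2 : (Fintype.card F : ℂ) = 1 := by linear_combination h
        have : Fintype.card F = 1 := by exact_mod_cast h2
        omega
      have : ((Fintype.card F : ℂ) - 1) * (χ u + 1) = 0 := by linear_combination h1
      have h3 := (mul_eq_zero.mp this).resolve_left hne
      linear_combination h3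
  · intro hd
    rcases hcl with ⟨l, hl⟩ | ⟨l, hl⟩ | ⟨α, β, hab, hl⟩ | ⟨hc, hc1⟩
    · exfalso
      rw [hl, Cfsg.Agent.H10.detChar_one] at hd
      have : Fintype.card F = 1 := by exact_mod_cast hd.symm
      omega
    · rw [hl, hu']
      unfold Cfsg.Agent.H10.st
      simp only [Pi.sub_apply, Cfsg.Agent.H10.ps_unip, Cfsg.Agent.H10.detChar_unip, sub_self]
    · exfalso
      rw [hl, Cfsg.Agent.H10.ps_one] at hd
      have : (1 : ℂ) = 0 := by linear_combination hd
      exact one_ne_zero this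
    · exfalso
      rw [hc1] at hd
      have : (1 : ℂ) = 0 := by linear_combination -hd
      exact one_ne_zero this

end Cfsg.Agent.S2310
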