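import Mathlib
import Cfsg.Statements.S2314
import Cfsg.Agent.Lib.H10.StCount4
import Cfsg.Agent.Lib.H04.Chev.SylowU

set_option autoImplicit false

open Cfsg

namespace Cfsg.Agent.S2314

theorem result {F : Type*} [Field F] [Fintype F] (p : ℕ) [Fact p.Prime] [CharP F p] (D : Cfsg.Lie.ChevalleyDatum) (hD : D ∈ [Cfsg.Lie.chevG2, Cfsg.Lie.chevB2, Cfsg.Lie.chevD4, Cfsg.Lie.chevF4, Cfsg.Lie.chevE6, Cfsg.Lie.chevE7, Cfsg.Lie.chevE8]) :
    Nat.card {g : ↥(D.group F) // ∃ k : ℕ, orderOf g = p ^ k} = Fintype.card F ^ (2 * (D.nroots / 2)) := by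
  obtain ⟨T, U, C, C2, C3⟩ := Cfsg.Agent.H04.Chev.exists_tabs hD
  exact Cfsg.Agent.H10.count_pe C C2 C3 F p (Cfsg.Agent.H04.Chev.exists_sylow_U p D hD)

end Cfsg.Agent.S2314
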