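import Cfsg.Statements.S2315
import Cfsg.Agent.Lib.H29.Fitting
import Cfsg.Agent.Lib.H10.Unipotent
-- import your own Cfsg.Agent.* helpers here

set_option autoImplicit false
open Cfsg

namespace Cfsg.Agent.S2315

open Module Cfsg.Agent.H29.Fit


/-- Steinberg's count of unipotent elements for the general linear group: over a finite field with q elements of characteristic p, the number of elements of GL_n of p-power order (the unipotent matrices) is q^(n(n−1)). -/
theorem result {F : Type*} [Field F] [Fintype F] (p : ℕ) [Fact p.Prime] [CharP F p] (n : ℕ) :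
    Nat.card {g : Matrix.GeneralLinearGroup (Fin n) F // ∃ k : ℕ, orderOf g = p ^ k} = Fintype.card F ^ (n * (n - 1)) := by
  classical
rw [← card_nilpotent F n]
let Ψ : {g : Matrix.GeneralLinearGroup (Fin n) F // ∃ k : ℕ, orderOf g = p ^ k} → {A : Module.End F (Fin n → F) // IsNilpotent A} := fun g =>
  ⟨Matrix.toLin' ((g.1 : Matrix (Fin n) (Fin n) F) - 1), by
    obtain ⟨g, k, hk⟩ := g
    have hgp : (g : Matrix (Fin n) (Fin n) F) ^ (p ^ k) = 1 := by
      rw [← Units.val_pow_eq_pow_val, ← hk, pow_orderOf_eq_one, Units.val_one]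
    have h1 : ((g : Matrix (Fin n) (Fin n) F) - 1) ^ (p ^ k) = 0 := Cfsg.Agent.H10.sub_one_pow_eq_zero p (g : Matrix (Fin n) (Fin n) F) k hgp
    refine ⟨p ^ k, ?_⟩
    have h2 : Matrix.toLin' (((g : Matrix (Fin n) (Fin n) F) - 1) ^ (p ^ k)) = (Matrix.toLin' ((g : Matrix (Fin n) (Fin n) F) - 1)) ^ (p ^ k) :=
      (Matrix.toLinAlgEquiv' (R := F) (n := Fin n)).map_pow _ _
    rw [← h2, h1, map_zero]⟩
have hΨ : Function.Bijective Ψ := by
  constructor
  · rintro ⟨a, ha⟩ ⟨b, hb⟩ h
    have h1 : Matrix.toLin' ((a : Matrix (Fin n) (Fin n) F) - 1) = Matrix.toLin' ((b : Matrix (Fin n) (Fin n) F) - 1) := congrArg Subtype.val h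
    have h2 := Matrix.toLin'.injective h1
    apply Subtype.ext
    apply Units.ext
    exact sub_left_injective h2
  · rintro ⟨N, hN⟩
    have hM : IsNilpotent (LinearMap.toMatrix' N) := by
      obtain ⟨K, hK⟩ := hN
      refine ⟨K, ?_⟩
      apply Matrix.toLin'.injective
      have h2 : Matrix.toLin' ((LinearMap.toMatrix' N) ^ K) = (Matrix.toLin' (LinearMap.toMatrix' N)) ^ K :=
        (Matrix.toLinAlgEquiv' (R := F) (n := Fin n)).map_pow _ _
      rw [h2, Matrix.toLin'_toMatrix', hK, map_zero]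
    obtain ⟨g, hg⟩ := hM.isUnit_add_one
    have hg1 : (g : Matrix (Fin n) (Fin n) F) - 1 = LinearMap.toMatrix' N := by
      rw [hg]
      abel
    have h1 := Cfsg.Agent.H10.orderOf_unipotent_le p n g (by rw [hg1]; exact hM)
    obtain ⟨k, -, hk⟩ := (Nat.dvd_prime_pow (Fact.out : p.Prime)).1 h1
    refine ⟨⟨g, k, hk⟩, ?_⟩
    apply Subtype.ext
    change Matrix.toLin' ((g : Matrix (Fin n) (Fin n) F) - 1) = N
    rw [hg1, Matrix.toLin'_toMatrix']
exact Nat.card_congr (Equiv.ofBijective Ψ hΨ)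

end Cfsg.Agent.S2315
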