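import Cfsg.Statements.S2317
import Cfsg.Agent.Lib.H11.UnipCl
-- import your own Cfsg.Agent.* helpers here

set_option autoImplicit false
open Cfsg

namespace Cfsg.Agent.S2317

open Module Cfsg.Agent.H29 Cfsg.Agent.H11.UnipCl


/-- Over a finite field of characteristic p, the conjugacy classes of GL_n consisting of elements of p-power order (the unipotent classes) are as many as the partitions of n. -/
theorem result {F : Type*} [Field F] [Fintype F] (p : ℕ) [Fact p.Prime] [CharP F p] (n : ℕ) :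
    Nat.card {C : ConjClasses (Matrix.GeneralLinearGroup (Fin n) F) //
      ∃ g : Matrix.GeneralLinearGroup (Fin n) F, (∃ k : ℕ, orderOf g = p ^ k) ∧ ConjClasses.mk g = C} =
      Fintype.card (Nat.Partition n) := by
  classical
have hex : ∀ μ : Nat.Partition n, ∃ g : GL (Fin n) F, (∃ k : ℕ, orderOf g = p ^ k) ∧
    HasJType (Matrix.toLin' ((g : Matrix (Fin n) (Fin n) F) - 1)) ⊤ μ.parts := by
  intro μ
  obtain ⟨N, hN⟩ := exists_nilpotent_of_type (F := F) n μ.parts (fun a ha => μ.parts_pos ha) μ.parts_sum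
  have hNn : N ^ n = 0 := by
    apply LinearMap.ext
    intro v
    have := hN.kill (L := n) (fun a ha => by
      have h1 := Multiset.le_sum_of_mem ha
      rw [μ.parts_sum] at h1
      exact h1) (Submodule.mem_top (x := v))
    simpa using this
  have hM : IsNilpotent (LinearMap.toMatrix' N) := by
    refine ⟨n, ?_⟩
    apply Matrix.toLin'.injective
    rw [toLin_pow, Matrix.toLin'_toMatrix', hNn, map_zero]
  obtain ⟨g, hg⟩ := hM.isUnit_add_one
  have hg1 : (g : Matrix (Fin n) (Fin n) F) - 1 = LinearMap.toMatrix' N := by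
    rw [hg]
    abel
  refine ⟨g, ?_, ?_⟩
  · have h1 := Cfsg.Agent.H10.orderOf_unipotent_le p n g (by rw [hg1]; exact hM)
    obtain ⟨k, -, hk⟩ := (Nat.dvd_prime_pow (Fact.out : p.Prime)).1 h1
    exact ⟨k, hk⟩
  · rw [hg1, Matrix.toLin'_toMatrix']
    exact hN
choose G hG1 hG2 using hex
let Ψ : Nat.Partition n → {C : ConjClasses (GL (Fin n) F) // ∃ g : GL (Fin n) F, (∃ k : ℕ, orderOf g = p ^ k) ∧ ConjClasses.mk g = C} :=
  fun μ => ⟨ConjClasses.mk (G μ), G μ, hG1 μ, rfl⟩
have hΨ : Function.Bijective Ψ := by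
  constructor
  · intro μ ν h
    have h1 : ConjClasses.mk (G μ) = ConjClasses.mk (G ν) := congrArg Subtype.val h
    have h2 := ConjClasses.mk_eq_mk_iff_isConj.1 h1
    have h3 := eq_of_conj _ _ h2 (hG2 μ) (hG2 ν)
    exact Nat.Partition.ext h3
  · rintro ⟨_, g, ⟨k, hk⟩, rfl⟩
    have hgp : (g : Matrix (Fin n) (Fin n) F) ^ (p ^ k) = 1 := by
      rw [← Units.val_pow_eq_pow_val, ← hk, pow_orderOf_eq_one, Units.val_one]
    have h1 : ((g : Matrix (Fin n) (Fin n) F) - 1) ^ (p ^ k) = 0 := Cfsg.Agent.H10.sub_one_pow_eq_zero p (g : Matrix (Fin n) (Fin n) F) k hgp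
    have hNp : (Matrix.toLin' ((g : Matrix (Fin n) (Fin n) F) - 1)) ^ (p ^ k) = 0 := by
      rw [← toLin_pow, h1, map_zero]
    obtain ⟨μ, hμ, -⟩ := exists_hasJType (Matrix.toLin' ((g : Matrix (Fin n) (Fin n) F) - 1)) (p ^ k) _ ⊤ rfl (tStable_top _) (fun v _ => by rw [hNp]; rfl)
    have hsum : μ.sum = n := by
      rw [← hμ.finrank_eq]
      simp
    let ν : Nat.Partition n := ⟨μ, fun {i} hi => hμ.pos i hi, hsum⟩
    refine ⟨ν, ?_⟩
    apply Subtype.ext
    apply ConjClasses.mk_eq_mk_iff_isConj.2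
    exact conj_of_same g _ hμ (hG2 ν)
rw [← Nat.card_eq_fintype_card]
exact (Nat.card_congr (Equiv.ofBijective Ψ hΨ)).symm

end Cfsg.Agent.S2317
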