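import Mathlib
import Cfsg.Statements.S2320
import Cfsg.Agent.Lib.H10.PS

set_option autoImplicit false

open Cfsg

namespace Cfsg.Agent.S2320

theorem result {F : Type*} [Field F] [Fintype F] (χ : Matrix.GeneralLinearGroup (Fin 2) F → ℂ) (hχ : Cfsg.IsIrrCharacter (Matrix.GeneralLinearGroup (Fin 2) F) χ) (hdeg : χ 1 = (Fintype.card F : ℂ)) (g : Matrix.GeneralLinearGroup (Fin 2) F) :
    ((g : Matrix (Fin 2) (Fin 2) F) 0 1 = 0 → (g : Matrix (Fin 2) (Fin 2) F) 1 0 = 0 → (g : Matrix (Fin 2) (Fin 2) F) 0 0 ≠ (g : Matrix (Fin 2) (Fin 2) F) 1 1 → ‖χ g‖ = 1) ∧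
    ((∀ (c : F) (v : Fin 2 → F), v ≠ 0 → (g : Matrix (Fin 2) (Fin 2) F).mulVec v ≠ c • v) → ‖χ g‖ = 1) := by
  classical
  have hqC : ((Fintype.card F : ℕ) : ℂ) ≠ 0 := by
    have : Fintype.card F ≠ 0 := Fintype.card_ne_zero
    exact_mod_cast this
  have hcl := Cfsg.Agent.H10.irr_classify ⟨χ, hχ⟩
  simp only at hcl
  have key : ∃ l, χ = Cfsg.Agent.H10.st l := by
    rcases hcl with ⟨l, hl⟩ | ⟨l, hl⟩ | ⟨α, β, hab, hl⟩ | ⟨hc, hc1⟩
    · exfalso
      rw [hl, Cfsg.Agent.H10.detChar_one] at hdeg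
      have h1 : Fintype.card F = 1 := by exact_mod_cast hdeg.symm
      have h2 : 1 < Fintype.card F := Fintype.one_lt_card
      omega
    · exact ⟨l, hl⟩
    · exfalso
      rw [hl, Cfsg.Agent.H10.ps_one] at hdeg
      have : (1 : ℂ) = 0 := by linear_combination hdeg
      exact one_ne_zero this
    · exfalso
      rw [hc1] at hdeg
      have : (1 : ℂ) = 0 := by linear_combination -hdeg
      exact one_ne_zero this
  obtain ⟨l, rfl⟩ := key
  constructor
  · intro h01 h10 hne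
    obtain ⟨a, d, rfl, ha, hd'⟩ := Cfsg.Agent.H10.borel_of_diag g h01 h10
    have had : a ≠ d := by
      rintro rfl
      exact hne (ha.symm.trans hd')
    unfold Cfsg.Agent.H10.st
    simp only [Pi.sub_apply]
    rw [Cfsg.Agent.H10.ps_split l l a d had, Cfsg.Agent.H10.detChar_borel]
    have e : l (a : F) * l (d : F) + l (d : F) * l (a : F) - l (a : F) * l (d : F) = l (a : F) * l (d : F) := by
      ring
    rw [e, norm_mul, Cfsg.Agent.H10.mulChar_norm, Cfsg.Agent.H10.mulChar_norm, one_mul]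
  · intro hg
    unfold Cfsg.Agent.H10.st
    simp only [Pi.sub_apply]
    rw [Cfsg.Agent.H10.ps_no_eig l l g hg, zero_sub, norm_neg]
    have hdet : (g : Matrix (Fin 2) (Fin 2) F).det ≠ 0 :=
      ((Matrix.isUnit_iff_isUnit_det _).mp g.isUnit).ne_zero
    exact Cfsg.Agent.H10.mulChar_norm l (Units.mk0 _ hdet)

end Cfsg.Agent.S2320
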