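import Mathlib
import Cfsg.Statements.S2321
import Cfsg.Agent.Lib.H10.PS1Table

set_option autoImplicit false

open Cfsg

namespace Cfsg.Agent.S2321

theorem result {F : Type*} [Field F] [Fintype F] (χ : Matrix.SpecialLinearGroup (Fin 2) F → ℂ) (hχ : Cfsg.IsIrrCharacter (Matrix.SpecialLinearGroup (Fin 2) F) χ) (hdeg : χ 1 = (Fintype.card F : ℂ)) (g : Matrix.SpecialLinearGroup (Fin 2) F) :
    ((g : Matrix (Fin 2) (Fin 2) F) 0 1 = 0 → (g : Matrix (Fin 2) (Fin 2) F) 1 0 = 0 → (g : Matrix (Fin 2) (Fin 2) F) 0 0 ^ 2 ≠ 1 → χ g = 1) ∧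
    ((∀ (c : F) (v : Fin 2 → F), v ≠ 0 → (g : Matrix (Fin 2) (Fin 2) F).mulVec v ≠ c • v) → χ g = -1) ∧
    ((g : Matrix (Fin 2) (Fin 2) F) 1 0 = 0 → (g : Matrix (Fin 2) (Fin 2) F) 0 0 = (g : Matrix (Fin 2) (Fin 2) F) 1 1 → (g : Matrix (Fin 2) (Fin 2) F) 0 1 ≠ 0 → χ g = 0) := by
  classical
  letI : Fintype (Matrix.SpecialLinearGroup (Fin 2) F) := Fintype.ofFinite _
  have h1 : (⟨χ, hχ⟩ : Cfsg.IrrCharacter (Matrix.SpecialLinearGroup (Fin 2) F)) = Cfsg.Agent.H10.stIrr :=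
    Cfsg.Agent.H10.eq_st_of_degree _ (Cfsg.Agent.H10.degree_of_value hdeg)
  have h2 : χ = Cfsg.Agent.H10.st1 := congrArg Subtype.val h1
  rw [h2]
  exact Cfsg.Agent.H10.st1_values g

end Cfsg.Agent.S2321
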