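import Mathlib
import Cfsg.Statements.S2322
import Cfsg.Agent.Lib.H10.PS1Zero

set_option autoImplicit false

open Cfsg

namespace Cfsg.Agent.S2322

theorem result {F : Type*} [Field F] [Fintype F] (hodd : Odd (Fintype.card F)) (χ : Matrix.SpecialLinearGroup (Fin 2) F → ℂ) (hχ : Cfsg.IsIrrCharacter (Matrix.SpecialLinearGroup (Fin 2) F) χ) (g : Matrix.SpecialLinearGroup (Fin 2) F) :
    ((χ 1 = (Fintype.card F : ℂ) - 1 ∨ χ 1 = (((Fintype.card F - 1) / 2 : ℕ) : ℂ)) →
      (g : Matrix (Fin 2) (Fin 2) F) 0 1 = 0 → (g : Matrix (Fin 2) (Fin 2) F) 1 0 = 0 → (g : Matrix (Fin 2) (Fin 2) F) 0 0 ^ 2 ≠ 1 → χ g = 0) ∧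
    ((χ 1 = (Fintype.card F : ℂ) + 1 ∨ χ 1 = (((Fintype.card F + 1) / 2 : ℕ) : ℂ)) →
      (∀ (c : F) (v : Fin 2 → F), v ≠ 0 → (g : Matrix (Fin 2) (Fin 2) F).mulVec v ≠ c • v) → χ g = 0) := by
  classical
  letI : Fintype (Matrix.SpecialLinearGroup (Fin 2) F) := Fintype.ofFinite _
  have hodd' := hodd
  obtain ⟨m, hm⟩ := hodd
  have hq2 : 2 ≤ Fintype.card F := Fintype.one_lt_card
  have hm1 : 1 ≤ m := by omega
  have e1 : (Fintype.card F + 1) / 2 = m + 1 := by omega
  have e2 : (Fintype.card F - 1) / 2 = m := by omega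
  have hqc := Cfsg.Agent.H10.cast_card_sub_one (F := F)
  have hqc1 : (Fintype.card F : ℂ) + 1 = ((Fintype.card F + 1 : ℕ) : ℂ) := by push_cast; rfl
  obtain ⟨χ₁, χ₂, hp⟩ := Cfsg.Agent.H10.exists_halfPair (F := F)
  have hirr := Cfsg.Agent.H10.irr_cases_odd hodd' m hm hp ⟨χ, hχ⟩
  simp only at hirr
  rw [e1, e2, ← hqc, hqc1]
  refine ⟨?_, ?_⟩
  · intro hdeg h01 h10 h00
    obtain ⟨a, ha, e⟩ := Cfsg.Agent.H10.b1Mk_of_entries g h10
    rw [h01] at e
    have hm2 : 2 ≤ m := by
      by_contra hcon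
      have hm3 : m = 1 := by omega
      apply h00
      have h3 : Fintype.card F = 3 := by omega
      rw [← ha]
      exact Cfsg.Agent.H10.sq_eq_one_of_three h3 _ a.ne_zero
    have hd : charDegree χ = Fintype.card F - 1 ∨ charDegree χ = m := by
      rcases hdeg with h | h
      · left
        exact Cfsg.Agent.H10.degree_of_value (χ := ⟨χ, hχ⟩) h
      · right
        exact Cfsg.Agent.H10.degree_of_value (χ := ⟨χ, hχ⟩) h
    have hc : Cfsg.Agent.H10.IsCusp1 (⟨χ, hχ⟩ : Cfsg.IrrCharacter (Matrix.SpecialLinearGroup (Fin 2) F)) := by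
      rcases hirr with h | h | h | h | h | h | h
      · omega
      · omega
      · omega
      · omega
      · omega
      · exact h.1
      · exact h.1
    rw [e]
    exact Cfsg.Agent.H10.cusp1_split χ (Cfsg.Agent.H21.isClassFunction_of_isCharacter (Cfsg.Agent.H21.isCharacter_of_irr hχ)) hc a (by rw [ha]; exact h00)
  · intro hdeg hg
    have hd : charDegree χ = Fintype.card F + 1 ∨ charDegree χ = m + 1 := by
      rcases hdeg with h | h
      · left
        exact Cfsg.Agent.H10.degree_of_value (χ := ⟨χ, hχ⟩) h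
      · right
        exact Cfsg.Agent.H10.degree_of_value (χ := ⟨χ, hχ⟩) h
    rcases hirr with h | h | h | h | h | h | h
    · omega
    · omega
    · obtain ⟨α, -, e⟩ := Cfsg.Agent.H10.mem_Tset.mp h.1
      simp only at e
      rw [e]
      exact Cfsg.Agent.H10.pi1_no_eig α g hg
    · have := Cfsg.Agent.H10.half_no_eig hodd' hp g hg
      rw [← h.1] at this
      exact this
    · have := Cfsg.Agent.H10.half_no_eig hodd' hp.symm g hg
      rw [← h.1] at this
      exact this
    · omega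
    · have hm3 : m = 1 := by omega
      have h3 : Fintype.card F = 3 := by omega
      exact Cfsg.Agent.H10.cusp_two_three h3 ⟨χ, hχ⟩ h.1 (by change charDegree χ = 2; omega) g hg

end Cfsg.Agent.S2322
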