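import Mathlib
import Cfsg.Statements.S2323
import Cfsg.Agent.Lib.H10.PS1Table

set_option autoImplicit false

open Cfsg

namespace Cfsg.Agent.S2323

theorem result {F : Type*} [Field F] [Fintype F] (hq : 4 ≤ Fintype.card F) (χ : Matrix.SpecialLinearGroup (Fin 2) F → ℂ) (hχ : Cfsg.IsIrrCharacter (Matrix.SpecialLinearGroup (Fin 2) F) χ)
    (u : Matrix.SpecialLinearGroup (Fin 2) F) (hu : (u : Matrix (Fin 2) (Fin 2) F) = !![1, 1; 0, 1]) :
    (χ 1 = (Fintype.card F : ℂ) + 1 → χ u = 1) ∧ (χ 1 = (Fintype.card F : ℂ) - 1 → χ u = -1) := by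
  classical
  letI : Fintype (Matrix.SpecialLinearGroup (Fin 2) F) := Fintype.ofFinite _
  rw [Cfsg.Agent.H10.u_eq_of_coe u hu]
  have h := Cfsg.Agent.H10.transvection_values hq ⟨χ, hχ⟩
  refine ⟨fun h1 => h.1 (Cfsg.Agent.H10.degree_of_value (by simpa using h1)), fun h1 => h.2 (Cfsg.Agent.H10.degree_of_value ?_)⟩
  rw [Cfsg.Agent.H10.cast_card_sub_one]
  exact h1

end Cfsg.Agent.S2323
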