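import Mathlib
import Cfsg.Statements.S2324
import Cfsg.Agent.Lib.H10.PS1Gauss

set_option autoImplicit false

open Cfsg

namespace Cfsg.Agent.S2324

theorem result {F : Type*} [Field F] [Fintype F] (hodd : Odd (Fintype.card F)) (hq : 5 ≤ Fintype.card F)
    (u : Matrix.SpecialLinearGroup (Fin 2) F) (hu : (u : Matrix (Fin 2) (Fin 2) F) = !![1, 1; 0, 1]) :
    (∀ χ : Matrix.SpecialLinearGroup (Fin 2) F → ℂ, Cfsg.IsIrrCharacter (Matrix.SpecialLinearGroup (Fin 2) F) χ → χ 1 = (((Fintype.card F + 1) / 2 : ℕ) : ℂ) → (2 * χ u - 1) ^ 2 = (-1 : ℂ) ^ ((Fintype.card F - 1) / 2) * (Fintype.card F : ℂ)) ∧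
    (∀ χ : Matrix.SpecialLinearGroup (Fin 2) F → ℂ, Cfsg.IsIrrCharacter (Matrix.SpecialLinearGroup (Fin 2) F) χ → χ 1 = (((Fintype.card F - 1) / 2 : ℕ) : ℂ) → (2 * χ u + 1) ^ 2 = (-1 : ℂ) ^ ((Fintype.card F - 1) / 2) * (Fintype.card F : ℂ)) ∧
    (∀ χ₁ χ₂ : Matrix.SpecialLinearGroup (Fin 2) F → ℂ, Cfsg.IsIrrCharacter (Matrix.SpecialLinearGroup (Fin 2) F) χ₁ → Cfsg.IsIrrCharacter (Matrix.SpecialLinearGroup (Fin 2) F) χ₂ → χ₁ ≠ χ₂ →
      χ₁ 1 = (((Fintype.card F + 1) / 2 : ℕ) : ℂ) → χ₂ 1 = (((Fintype.card F + 1) / 2 : ℕ) : ℂ) → χ₁ u + χ₂ u = 1) ∧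
    (∀ χ₁ χ₂ : Matrix.SpecialLinearGroup (Fin 2) F → ℂ, Cfsg.IsIrrCharacter (Matrix.SpecialLinearGroup (Fin 2) F) χ₁ → Cfsg.IsIrrCharacter (Matrix.SpecialLinearGroup (Fin 2) F) χ₂ → χ₁ ≠ χ₂ →
      χ₁ 1 = (((Fintype.card F - 1) / 2 : ℕ) : ℂ) → χ₂ 1 = (((Fintype.card F - 1) / 2 : ℕ) : ℂ) → χ₁ u + χ₂ u = -1) := by
  classical
  letI : Fintype (Matrix.SpecialLinearGroup (Fin 2) F) := Fintype.ofFinite _
  have hodd' := hodd
  obtain ⟨m, hm⟩ := hodd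
  have hm2 : 2 ≤ m := by omega
  have e1 : (Fintype.card F + 1) / 2 = m + 1 := by omega
  have e2 : (Fintype.card F - 1) / 2 = m := by omega
  obtain ⟨χ₁, χ₂, hp⟩ := Cfsg.Agent.H10.exists_halfPair (F := F)
  obtain ⟨ν, hν⟩ := FiniteField.exists_nonsquare (Cfsg.Agent.S2325.char_ne_two hodd')
  have hν0 : ν ≠ 0 := by
    rintro rfl
    exact hν IsSquare.zero
  set ν' : Fˣ := Units.mk0 ν hν0 with hν'
  have hν1 : ¬ IsSquare ((ν' : Fˣ) : F) := by simpa [hν'] using hν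
  rw [Cfsg.Agent.H10.u_eq_of_coe u hu]
  have hirr := Cfsg.Agent.H10.irr_cases_odd hodd' m hm hp
  have hq : (Fintype.card F : ℂ) = 2 * (m : ℂ) + 1 := by rw [hm]; push_cast; ring
  -- characters of degree (q+1)/2
  have hpair : ∀ χ : Cfsg.IrrCharacter (Matrix.SpecialLinearGroup (Fin 2) F), charDegree χ.1 = m + 1 → χ = χ₁ ∨ χ = χ₂ := by
    intro χ hd
    rcases hirr χ with h | h | h | h | h | h | h
    · omega
    · omega
    · omega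
    · exact Or.inl h.1
    · exact Or.inr h.1
    · omega
    · omega
  have hcuspd : ∀ χ : Cfsg.IrrCharacter (Matrix.SpecialLinearGroup (Fin 2) F), charDegree χ.1 = m → Cfsg.Agent.H10.IsCusp1 χ := by
    intro χ hd
    rcases hirr χ with h | h | h | h | h | h | h
    · omega
    · omega
    · omega
    · omega
    · omega
    · exact h.1
    · omega
  rw [e1, e2]
  refine ⟨?_, ?_, ?_, ?_⟩
  · intro χ hχ hd
    have hd' : charDegree χ = m + 1 := Cfsg.Agent.H10.degree_of_value (χ := ⟨χ, hχ⟩) hd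
    have hP : ∃ χ' : Cfsg.IrrCharacter (Matrix.SpecialLinearGroup (Fin 2) F), Cfsg.Agent.H10.HalfPair ⟨χ, hχ⟩ χ' := by
      rcases hpair ⟨χ, hχ⟩ hd' with h | h
      · rw [h]; exact ⟨χ₂, hp⟩
      · rw [h]; exact ⟨χ₁, hp.symm⟩
    obtain ⟨χ', hP⟩ := hP
    have h1 := Cfsg.Agent.H10.half_unip_add hodd' hP ν' hν1
    simp only at h1
    have h2 := Cfsg.Agent.H10.unip_gauss hodd' χ (Cfsg.Agent.H21.isCharacter_of_irr hχ) ν' hν1 (by
      rw [h1, hd, hq]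
      push_cast
      ring)
    rw [e2] at h2
    rw [← h2]
    congr 1
    linear_combination h1
  · intro χ hχ hd
    have hd' : charDegree χ = m := Cfsg.Agent.H10.degree_of_value (χ := ⟨χ, hχ⟩) hd
    have hc := hcuspd ⟨χ, hχ⟩ hd'
    have h1 := Cfsg.Agent.H10.halfcusp_unip_add hodd' m hm ⟨χ, hχ⟩ hc hd' ν' hν1
    simp only at h1
    have h2 := Cfsg.Agent.H10.unip_gauss hodd' χ (Cfsg.Agent.H21.isCharacter_of_irr hχ) ν' hν1 (by
      rw [h1, hd, hq]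
      ring)
    rw [e2] at h2
    rw [← h2]
    congr 1
    linear_combination h1
  · intro ξ₁ ξ₂ h1 h2 hne d1 d2
    have hd1 : charDegree ξ₁ = m + 1 := Cfsg.Agent.H10.degree_of_value (χ := ⟨ξ₁, h1⟩) d1
    have hd2 : charDegree ξ₂ = m + 1 := Cfsg.Agent.H10.degree_of_value (χ := ⟨ξ₂, h2⟩) d2
    have h3 := Cfsg.Agent.H10.pi1_unip (Cfsg.Agent.H10.qc F) (1 : F) one_ne_zero
    rw [hp.2] at h3
    have h4 : (ξ₁ = χ₁.1 ∧ ξ₂ = χ₂.1) ∨ (ξ₁ = χ₂.1 ∧ ξ₂ = χ₁.1) := by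
      rcases hpair ⟨ξ₁, h1⟩ hd1 with h5 | h5 <;> rcases hpair ⟨ξ₂, h2⟩ hd2 with h6 | h6
      · exfalso
        apply hne
        exact (congrArg Subtype.val h5).trans (congrArg Subtype.val h6).symm
      · exact Or.inl ⟨congrArg Subtype.val h5, congrArg Subtype.val h6⟩
      · exact Or.inr ⟨congrArg Subtype.val h5, congrArg Subtype.val h6⟩
      · exfalso
        apply hne
        exact (congrArg Subtype.val h5).trans (congrArg Subtype.val h6).symm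
    rcases h4 with ⟨rfl, rfl⟩ | ⟨rfl, rfl⟩
    · exact h3
    · rw [add_comm]
      exact h3
  · intro ξ₁ ξ₂ h1 h2 hne d1 d2
    have hd1 : charDegree ξ₁ = m := Cfsg.Agent.H10.degree_of_value (χ := ⟨ξ₁, h1⟩) d1
    have hd2 : charDegree ξ₂ = m := Cfsg.Agent.H10.degree_of_value (χ := ⟨ξ₂, h2⟩) d2
    have hc1 := hcuspd ⟨ξ₁, h1⟩ hd1
    have hc2 := hcuspd ⟨ξ₂, h2⟩ hd2
    have h3 := Cfsg.Agent.H10.halfcusp_swap hodd' m hm ⟨ξ₁, h1⟩ ⟨ξ₂, h2⟩ hc1 hc2 hd1 hd2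
      (fun h => hne (congrArg Subtype.val h)) ν' hν1
    have h4 := Cfsg.Agent.H10.halfcusp_unip_add hodd' m hm ⟨ξ₁, h1⟩ hc1 hd1 ν' hν1
    have h5 := Cfsg.Agent.H10.unip_conj ξ₁ (Cfsg.Agent.H21.isClassFunction_of_isCharacter (Cfsg.Agent.H21.isCharacter_of_irr h1)) ν' hν1
    have h6 : ξ₂ ((Cfsg.Agent.H10.b1Mk 1 1 : Cfsg.Agent.H10.B1 F) : Matrix.SpecialLinearGroup (Fin 2) F) =
        ξ₁ ((Cfsg.Agent.H10.b1Mk 1 (ν' : F) : Cfsg.Agent.H10.B1 F) : Matrix.SpecialLinearGroup (Fin 2) F) := by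
      rw [← h5]
      have := congrArg (fun χ : Cfsg.IrrCharacter (Matrix.SpecialLinearGroup (Fin 2) F) => χ.1 ((Cfsg.Agent.H10.b1Mk 1 1 : Cfsg.Agent.H10.B1 F) : Matrix.SpecialLinearGroup (Fin 2) F)) h3
      exact this.symm
    rw [h6]
    exact h4

end Cfsg.Agent.S2324
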