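import Mathlib
import Cfsg.Statements.S2328
import Cfsg.Agent.Lib.H10.StVan
import Cfsg.Agent.Lib.H04.Chev.SylowU

set_option autoImplicit false

open Cfsg

namespace Cfsg.Agent.S2328

theorem result {F : Type*} [Field F] [Fintype F] (p : ℕ) [Fact p.Prime] [CharP F p] (D : Cfsg.Lie.ChevalleyDatum) (hD : D ∈ [Cfsg.Lie.chevG2, Cfsg.Lie.chevB2, Cfsg.Lie.chevD4, Cfsg.Lie.chevF4, Cfsg.Lie.chevE6, Cfsg.Lie.chevE7, Cfsg.Lie.chevE8]) (g : ↥(D.group F)) (hg : p ∣ orderOf g) :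
    D.steinbergCharacter F g = 0 := by
  obtain ⟨T, U, C, C2, C3⟩ := Cfsg.Agent.H04.Chev.exists_tabs hD
  exact Cfsg.Agent.H10.steinberg_vanish C C2 C3 F p (Cfsg.Agent.H04.Chev.exists_sylow_U p D hD) g hg

end Cfsg.Agent.S2328
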