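import Mathlib
import Cfsg.Statements.S2329
import Cfsg.Agent.Lib.H10.GL2

set_option autoImplicit false

open Cfsg

namespace Cfsg.Agent.S2329

open Cfsg.Agent.H10

lemma key {F : Type*} [Field F] [Fintype F] (p : ℕ) [Fact p.Prime] [CharP F p]
    (g : Matrix.GeneralLinearGroup (Fin 2) F) (hg : orderOf g = p) :
    IsConj (glComp (2 : F) 1) g := by
  have hp : p.Prime := Fact.out
  have h1 : (g : Matrix (Fin 2) (Fin 2) F) ^ p = 1 := by
    have := pow_orderOf_eq_one g
    rw [hg] at this
    rw [← Units.val_pow_eq_pow_val, this, Units.val_one]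
  have hne : (g : Matrix (Fin 2) (Fin 2) F) ≠ 1 := by
    intro h
    have : g = 1 := Units.ext h
    rw [this, orderOf_one] at hg
    exact hp.one_lt.ne hg
  obtain ⟨ht, hd, -, hns⟩ := order_p_facts p _ h1 hne
  obtain ⟨d, hd', hc⟩ := gl_isConj_glComp g hns
  rw [ht] at hc
  have : d = 1 := Units.ext (by rw [hd', hd, Units.val_one])
  rwa [this] at hc

theorem result {F : Type*} [Field F] [Fintype F] (p : ℕ) [Fact p.Prime] [CharP F p] (g h : Matrix.GeneralLinearGroup (Fin 2) F)
    (hg : orderOf g = p) (hh : orderOf h = p) : IsConj g h := by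
  exact (key p g hg).symm.trans (key p h hh)

end Cfsg.Agent.S2329
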