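import Mathlib
import Cfsg.Statements.S2363
import Cfsg.Agent.Lib.H10.LieOrd
import Cfsg.Agent.S0243
import Cfsg.Agent.S0245
import Cfsg.Agent.S0246
import Cfsg.Agent.S0280
import Cfsg.Agent.S0292
import Cfsg.Agent.S0293
import Cfsg.Agent.S0294
import Cfsg.Agent.S1059
import Cfsg.Agent.S1062
import Cfsg.Agent.S1063
import Cfsg.Agent.S1064
import Cfsg.Agent.S1065
import Cfsg.Agent.S1066
import Cfsg.Agent.S1067
import Cfsg.Agent.S1068
import Cfsg.Agent.S1069
import Cfsg.Agent.S1163

set_option autoImplicit false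

open Cfsg

namespace Cfsg.Agent.S2363

open Cfsg.Agent.H10.LieOrd in
theorem result {G : Type*} [Group G] [Finite G] (p : ℕ) (hp : p.Prime) (hG : Cfsg.IsLieTypeChar p G) :
    Nat.card G < p ^ (3 * (Nat.card G).factorization p) ∧
      ((¬ ∃ (F : Type) (_ : Field F) (_ : Fintype F), Fintype.card F = p ^ (Nat.card G).factorization p ∧
          Nonempty (G ≃* Matrix.ProjectiveSpecialLinearGroup (Fin 2) F)) →
        Nat.card G ^ 3 < p ^ (8 * (Nat.card G).factorization p)) := by
  suffices main : Concl p (Nat.card G) ∨ (Nat.card G < p ^ (3 * (Nat.card G).factorization p) ∧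
      ∃ (F : Type) (_ : Field F) (_ : Fintype F), Fintype.card F = p ^ (Nat.card G).factorization p ∧
        Nonempty (G ≃* Matrix.ProjectiveSpecialLinearGroup (Fin 2) F)) by
    rcases main with h | ⟨h1, h2⟩
    · exact ⟨h.1, fun _ => h.2⟩
    · exact ⟨h1, fun h3 => absurd h2 h3⟩
  have hsub : ∀ {f : ℕ}, 1 ≤ f → ¬ p ∣ p ^ f - 1 := fun {f} hf => by
    simpa using nd_sub hp hf (i := 1) le_rfl
  have hadd : ∀ {f : ℕ}, 1 ≤ f → ¬ p ∣ p ^ f + 1 := fun {f} hf => by
    simpa using nd_add hp hf (i := 1) le_rfl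
  rcases hG with ⟨F, _, _, _, n, hn2, hn, ⟨e⟩⟩ | ⟨F, _, _, _, m, hm, hm2, ⟨e⟩⟩ | ⟨F, _, _, _, n, q, hF, hn3, hne, ⟨e⟩⟩ |
    ⟨F, _, _, _, m, hm, hodd, ⟨e⟩⟩ | ⟨F, _, _, _, m, hm, ⟨e⟩⟩ | ⟨F, _, _, _, m, a, b, hm, hab, ⟨e⟩⟩ |
    ⟨F, _, _, _, h⟩ | ⟨K, _, _, _, q, hq, h⟩ | ⟨rfl, F, _, _, m, hm, hF, ⟨e⟩⟩ | ⟨rfl, K, _, _, m, hm, hK, ⟨e⟩⟩ | ⟨rfl, K, _, _, m, hm, hK, ⟨e⟩⟩
  · -- linear groups
    have hc := Nat.card_congr e.toEquiv
    obtain ⟨f, hf, hq⟩ := q_eq (F := F) (p := p) hp (k := 1) (q := Fintype.card F) one_ne_zero (by simp)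
    have h0 := Cfsg.Agent.S0243.result (F := F) hq n hn2
    rw [← hc] at h0
    have hd : ¬ p ∣ Nat.gcd n (p ^ f - 1) := nd_of_dvd (hsub hf) (Nat.gcd_dvd_right _ _)
    by_cases h2 : n = 2
    · subst h2
      obtain ⟨h1, h3⟩ := first_linear_two hp hf hd h0
      exact Or.inr ⟨h1, F, inferInstance, inferInstance, by rw [h3, hq], ⟨e⟩⟩
    · exact Or.inl (concl_linear hp hf (by omega) hd h0)
  · -- symplectic groups
    have hc := Nat.card_congr e.toEquiv
    obtain ⟨f, hf, hq⟩ := q_eq (F := F) (p := p) hp (k := 1) (q := Fintype.card F) one_ne_zero (by simp)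
    have h1 := Cfsg.Agent.S0245.result (F := F) hq m
    have h2 := Cfsg.Agent.S0246.result (F := F) hq m (by omega)
    have h3 := Subgroup.card_eq_card_quotient_mul_card_subgroup (Subgroup.center (Matrix.symplecticGroup (Fin m) F))
    rw [h1, h2, ← hc] at h3
    left
    refine concl_symp hp hf hm (d := Nat.gcd 2 (p ^ f - 1)) (nd_of_dvd (hsub hf) (Nat.gcd_dvd_right _ _)) ?_
    rw [h3]
    ring
  · -- unitary groups
    have hc := Nat.card_congr e.toEquiv
    obtain ⟨f, hf, rfl⟩ := q_eq (F := F) (p := p) hp (k := 2) two_ne_zero hF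
    have h0 := Cfsg.Agent.S0280.result (F := F) hF n (by omega)
    rw [← hc] at h0
    exact Or.inl (concl_unitary hp hf hn3 (nd_of_dvd (hadd hf) (Nat.gcd_dvd_right _ _)) h0)
  · -- odd orthogonal groups
    have hc := Nat.card_congr e.toEquiv
    obtain ⟨f, hf, hq⟩ := q_eq (F := F) (p := p) hp (k := 1) (q := Fintype.card F) one_ne_zero (by simp)
    have hodd' : Odd (p ^ f) := hq ▸ hodd
    have h0 := Cfsg.Agent.S0292.result (F := F) hq hodd' m hm
    rw [← hc] at h0
    have hd : ¬ p ∣ 2 := by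
      intro h2
      have h3 : p = 2 := (Nat.prime_dvd_prime_iff_eq hp Nat.prime_two).mp h2
      rw [h3] at hodd'
      exact (Nat.not_odd_iff_even.mpr ((Nat.even_pow.mpr ⟨even_two, by omega⟩))) hodd'
    exact Or.inl (concl_symp hp hf (by omega) hd h0)
  · -- plus type
    have hc := Nat.card_congr e.toEquiv
    obtain ⟨f, hf, hq⟩ := q_eq (F := F) (p := p) hp (k := 1) (q := Fintype.card F) one_ne_zero (by simp)
    have h0 := Cfsg.Agent.S0293.result (F := F) hq m hm
    rw [← hc] at h0
    exact Or.inl (concl_plus hp hf hm (nd_of_dvd (nd_sub hp hf (by omega)) (Nat.gcd_dvd_right _ _)) h0)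
  · -- minus type
    have hc := Nat.card_congr e.toEquiv
    obtain ⟨f, hf, hq⟩ := q_eq (F := F) (p := p) hp (k := 1) (q := Fintype.card F) one_ne_zero (by simp)
    have h0 := Cfsg.Agent.S0294.result (F := F) hq m hm a b hab
    rw [← hc] at h0
    exact Or.inl (concl_minus hp hf hm (nd_of_dvd (nd_add hp hf (by omega)) (Nat.gcd_dvd_right _ _)) h0)
  · -- exceptional groups
    obtain ⟨f, hf, hq⟩ := q_eq (F := F) (p := p) hp (k := 1) (q := Fintype.card F) one_ne_zero (by simp)
    have hone : ¬ p ∣ 1 := by simpa using hp.one_lt.ne'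
    left
    rcases h with ⟨-, h'⟩ | h' | h' | h' | h' <;> obtain ⟨e⟩ := h'
    · have hc := Nat.card_congr e.toEquiv
      have h0 := Cfsg.Agent.S1059.result (F := F) hq
      rw [← hc] at h0
      refine concl_list hp hf (N := 6) (d := 1) [2, 6] (by simp) (by simp) hone ?_ (by norm_num) (by norm_num)
      simp only [List.map_cons, List.map_nil, List.prod_cons, List.prod_nil, mul_one, one_mul]
      rw [h0]
      ring
    · have hc := Nat.card_congr e.toEquiv
      have h0 := Cfsg.Agent.S1062.result (F := F) hq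
      rw [← hc] at h0
      refine concl_list hp hf (N := 24) (d := 1) [2, 6, 8, 12] (by simp) (by simp) hone ?_ (by norm_num) (by norm_num)
      simp only [List.map_cons, List.map_nil, List.prod_cons, List.prod_nil, mul_one, one_mul]
      rw [h0]
      ring
    · have hc := Nat.card_congr e.toEquiv
      have h0 := Cfsg.Agent.S1063.result (F := F) hq
      rw [← hc] at h0
      refine concl_list hp hf (N := 36) (d := Nat.gcd 3 (p ^ f - 1)) [2, 5, 6, 8, 9, 12] (by simp) (by simp)
        (nd_of_dvd (hsub hf) (Nat.gcd_dvd_right _ _)) ?_ (by norm_num) (by norm_num)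
      simp only [List.map_cons, List.map_nil, List.prod_cons, List.prod_nil, mul_one]
      rw [h0]
      ring
    · have hc := Nat.card_congr e.toEquiv
      have h0 := Cfsg.Agent.S1064.result (F := F) hq
      rw [← hc] at h0
      refine concl_list hp hf (N := 63) (d := Nat.gcd 2 (p ^ f - 1)) [2, 6, 8, 10, 12, 14, 18] (by simp) (by simp)
        (nd_of_dvd (hsub hf) (Nat.gcd_dvd_right _ _)) ?_ (by norm_num) (by norm_num)
      simp only [List.map_cons, List.map_nil, List.prod_cons, List.prod_nil, mul_one]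
      rw [h0]
      ring
    · have hc := Nat.card_congr e.toEquiv
      have h0 := Cfsg.Agent.S1065.result (F := F) hq
      rw [← hc] at h0
      refine concl_list hp hf (N := 120) (d := 1) [2, 8, 12, 14, 18, 20, 24, 30] (by simp) (by simp) hone ?_ (by norm_num) (by norm_num)
      simp only [List.map_cons, List.map_nil, List.prod_cons, List.prod_nil, mul_one, one_mul]
      rw [h0]
      ring
  · -- twisted groups
    left
    rcases h with ⟨hK, ⟨e⟩⟩ | ⟨hK, ⟨e⟩⟩
    · have hc := Nat.card_congr e.toEquiv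
      obtain ⟨f, hf, rfl⟩ := q_eq (F := K) (p := p) hp (k := 2) two_ne_zero hK
      have h0 := Cfsg.Agent.S1066.result (K := K) hq hK
      rw [← hc] at h0
      exact concl_2E6 hp hf (nd_of_dvd (hadd hf) (Nat.gcd_dvd_right _ _)) h0
    · have hc := Nat.card_congr e.toEquiv
      obtain ⟨f, hf, rfl⟩ := q_eq (F := K) (p := p) hp (k := 3) three_ne_zero hK
      have h0 := Cfsg.Agent.S1067.result (K := K) hq hK
      rw [← hc] at h0
      exact concl_3D4 hp hf h0
  · -- Suzuki groups
    left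
    have hc := Nat.card_congr e.toEquiv
    have h0 := (Cfsg.Agent.S1163.result (F := F) hm hF).1
    rw [← hc] at h0
    exact concl_Sz hp (by omega) h0
  · -- the large Ree groups
    left
    have hc := Nat.card_congr e.toEquiv
    have h0 := Cfsg.Agent.S1068.result (K := K) hK
    rw [← hc] at h0
    exact concl_2F4 hp (by omega) h0
  · -- the small Ree groups
    left
    have hc := Nat.card_congr e.toEquiv
    have h0 := Cfsg.Agent.S1069.result (K := K) hK
    rw [← hc] at h0
    exact concl_Ree hp (by omega) h0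

end Cfsg.Agent.S2363
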