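import Mathlib
import Cfsg.Statements.S2364
import Cfsg.Agent.Lib.H10.UnipCent

set_option autoImplicit false

open Cfsg

namespace Cfsg.Agent.S2364

theorem result {F : Type*} [Field F] [Fintype F] (p : ℕ) [Fact p.Prime] [CharP F p] (n : ℕ) (hn : 4 ≤ n)
    (a b : Matrix.ProjectiveSpecialLinearGroup (Fin n) F) (ha : orderOf a = p) (hab : Commute a b) :
    (orderOf b).primeFactors ⊆ (Nat.card (Matrix.SpecialLinearGroup (Fin (n - 2)) F)).primeFactors := by
  classical
  intro r hr'
  rw [Nat.mem_primeFactors] at hr' ⊢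
  obtain ⟨hr, hrb, -⟩ := hr'
  refine ⟨hr, ?_, Nat.card_pos.ne'⟩
  have hp : p.Prime := Fact.out
  have hq : 2 ≤ Fintype.card F := Fintype.one_lt_card
  by_cases hrp : r = p
  · -- the defining characteristic
    subst hrp
    have : Nonempty (Fin (n - 2)) := ⟨⟨0, by omega⟩⟩
    have h1 := Cfsg.Agent.Lead.card_SL (F := F) (n - 2) (by omega)
    have hpq : r ∣ Fintype.card F := (CharP.cast_eq_zero_iff F r _).1 (by simp)
    have h2 : r ∣ ∏ i : Fin (n - 2), (Fintype.card F ^ (n - 2) - Fintype.card F ^ (i : ℕ)) := by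
      have h3 : (⟨1, by omega⟩ : Fin (n - 2)) ∈ (Finset.univ : Finset (Fin (n - 2))) := Finset.mem_univ _
      refine Dvd.dvd.trans ?_ (Finset.dvd_prod_of_mem _ h3)
      simp only [pow_one]
      apply Nat.dvd_sub
      · exact hpq.trans (dvd_pow_self _ (by omega))
      · exact hpq
    rw [← h1] at h2
    rcases (Nat.Prime.dvd_mul hr).1 h2 with h3 | h3
    · exfalso
      have h4 : r ∣ Fintype.card F - (Fintype.card F - 1) := Nat.dvd_sub hpq h3
      have h5 : Fintype.card F - (Fintype.card F - 1) = 1 := by omega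
      rw [h5] at h4
      exact hr.one_lt.ne' (Nat.dvd_one.1 h4)
    · exact h3
  -- lifts
  obtain ⟨a₁, rfl⟩ := QuotientGroup.mk_surjective a
  obtain ⟨b₁, rfl⟩ := QuotientGroup.mk_surjective b
  have hoa : orderOf a₁ ≠ 0 := (orderOf_pos_iff.2 (isOfFinOrder_of_finite a₁)).ne'
  obtain ⟨e, m, hm, hom⟩ := Nat.exists_eq_pow_mul_and_not_dvd hoa p hp.ne_one
  have hcop : Nat.Coprime m p := ((Nat.Prime.coprime_iff_not_dvd hp).2 hm).symm
  obtain ⟨s, -, hs⟩ := Nat.exists_mul_mod_eq_one_of_coprime hcop hp.one_lt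
  let u := a₁ ^ (m * s)
  have hupow : u ^ (p ^ e) = 1 := by
    simp only [u]
    rw [← pow_mul, show m * s * p ^ e = orderOf a₁ * s by rw [hom]; ring, pow_mul, pow_orderOf_eq_one, one_pow]
  have humk : (QuotientGroup.mk u : Matrix.ProjectiveSpecialLinearGroup (Fin n) F) = QuotientGroup.mk a₁ := by
    simp only [u]
    rw [QuotientGroup.mk_pow]
    have := pow_mod_orderOf (QuotientGroup.mk a₁ : Matrix.ProjectiveSpecialLinearGroup (Fin n) F) (m * s)
    rw [ha, hs, pow_one] at this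
    exact this.symm
  have hu1 : u ≠ 1 := by
    intro h
    rw [h] at humk
    have h2 : (QuotientGroup.mk a₁ : Matrix.ProjectiveSpecialLinearGroup (Fin n) F) = 1 := humk.symm
    rw [h2, orderOf_one] at ha
    exact hp.ne_one ha.symm
  -- `b₁` commutes with `u`
  let c := b₁ * u * b₁⁻¹ * u⁻¹
  have hcZ : c ∈ Subgroup.center (Matrix.SpecialLinearGroup (Fin n) F) := by
    rw [← QuotientGroup.eq_one_iff]
    simp only [c]
    rw [QuotientGroup.mk_mul, QuotientGroup.mk_mul, QuotientGroup.mk_mul, QuotientGroup.mk_inv, QuotientGroup.mk_inv,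
      humk]
    have := hab.eq
    rw [mul_inv_eq_one, mul_inv_eq_iff_eq_mul]
    exact this.symm
  have hcu : b₁ * u * b₁⁻¹ = c * u := by
    simp [c]
  have hcpow : c ^ (p ^ e) = 1 := by
    have h1 : (b₁ * u * b₁⁻¹) ^ (p ^ e) = 1 := by
      rw [conj_pow, hupow]
      simp
    rw [hcu] at h1
    have hcomm : Commute c u := (Subgroup.mem_center_iff.1 hcZ u).symm
    rw [hcomm.mul_pow, hupow, mul_one] at h1
    exact h1
  have hc1 : c = 1 := by
    obtain ⟨ζ, -, hζ⟩ := (Matrix.SpecialLinearGroup.mem_center_iff).1 hcZ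
    have h1 : (c ^ (p ^ e)).1 = 1 := by rw [hcpow]; rfl
    rw [Matrix.SpecialLinearGroup.coe_pow, ← hζ, ← map_pow] at h1
    have i₀ : Fin n := ⟨0, by omega⟩
    have h2 : ζ ^ (p ^ e) = 1 := by
      have := congrFun (congrFun h1 i₀) i₀
      simpa using this
    have h3 : (ζ - 1) ^ (p ^ e) = 0 := by
      rw [sub_pow_char_pow, h2, one_pow, sub_self]
    have h4 : ζ = 1 := sub_eq_zero.1 (pow_eq_zero_iff (pow_ne_zero _ hp.ne_zero) |>.1 h3)
    apply Subtype.ext
    rw [← hζ, h4]
    simp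
  have hcomm : b₁ * u = u * b₁ := by
    have h1 : b₁ * u * b₁⁻¹ = u := by rw [hcu, hc1, one_mul]
    rw [mul_inv_eq_iff_eq_mul] at h1
    exact h1
  -- the `r`-part
  have hob : orderOf b₁ ≠ 0 := (orderOf_pos_iff.2 (isOfFinOrder_of_finite b₁)).ne'
  obtain ⟨f, m', hm', hom'⟩ := Nat.exists_eq_pow_mul_and_not_dvd hob r hr.ne_one
  let y := b₁ ^ m'
  have hypow : y ^ (r ^ f) = 1 := by
    simp only [y]
    rw [← pow_mul, show m' * r ^ f = orderOf b₁ by rw [hom']; ring, pow_orderOf_eq_one]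
  have hy1 : y ≠ 1 := by
    intro h
    apply hm'
    have h1 : (QuotientGroup.mk b₁ : Matrix.ProjectiveSpecialLinearGroup (Fin n) F) ^ m' = 1 := by
      rw [← QuotientGroup.mk_pow]
      change QuotientGroup.mk y = 1
      rw [h]
      rfl
    exact hrb.trans (orderOf_dvd_of_pow_eq_one h1)
  have hyu : u * y = y * u := ((Commute.pow_left (show Commute b₁ u from hcomm) m').eq).symm
  have hres := H10.prime_dvd_of_commuting p (by omega : 2 ≤ n) (U := u.1) (Y := y.1) (f := f) (e := e) hr hrp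
    (by
      have := congrArg Subtype.val hupow
      rwa [Matrix.SpecialLinearGroup.coe_pow] at this)
    (fun h => hu1 (Subtype.ext h))
    (by
      have := congrArg Subtype.val hypow
      rwa [Matrix.SpecialLinearGroup.coe_pow] at this)
    (fun h => hy1 (Subtype.ext h))
    (congrArg Subtype.val hyu)
  exact H10.prime_dvd_card_SL hr (by omega) hres

end Cfsg.Agent.S2364
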