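import Mathlib
import Cfsg.Statements.S2367

set_option autoImplicit false

open Cfsg

namespace Cfsg.Agent.S2367

/-- Factorization of a formal product. -/
private lemma factorization_listProd (L : List (ℕ × ℕ)) (hp : ∀ x ∈ L, x.1.Prime) (p : ℕ) :
    ((L.map fun x : ℕ × ℕ => x.1 ^ x.2).prod).factorization p =
      ((L.filter (fun x : ℕ × ℕ => x.1 = p)).map Prod.snd).sum := by
  induction L with
  | nil => simp
  | cons x L ih =>
    have h1 : x.1.Prime := hp x (by simp)
    have h2 : ∀ y ∈ L, y.1.Prime := fun y hy => hp y (by simp [hy])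
    have h3 : (L.map fun x : ℕ × ℕ => x.1 ^ x.2).prod ≠ 0 := by
      rw [Ne, List.prod_eq_zero_iff]
      simp only [List.mem_map, not_exists, not_and]
      intro y hy
      exact pow_ne_zero _ (h2 y hy).ne_zero
    simp only [List.map_cons, List.prod_cons]
    rw [Nat.factorization_mul (pow_ne_zero _ h1.ne_zero) h3, Finsupp.add_apply, ih h2,
      h1.factorization_pow]
    by_cases h : x.1 = p
    · simp [List.filter_cons, h]
    · simp [List.filter_cons, h]

private lemma table_check (L : List (ℕ × ℕ)) (hp : ∀ x ∈ L, x.1.Prime)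
    (hc : ∀ q ∈ L.map Prod.fst, q ≠ 2 → ((L.filter (fun x : ℕ × ℕ => x.1 = q)).map Prod.snd).sum = 3 →
      q ^ 3 < 2 ^ ((L.filter (fun x : ℕ × ℕ => x.1 = 2)).map Prod.snd).sum)
    (N : ℕ) (hN : N = (L.map fun x : ℕ × ℕ => x.1 ^ x.2).prod) (p : ℕ) (hodd : p ≠ 2)
    (h3 : N.factorization p = 3) : p ^ 3 < 2 ^ N.factorization 2 := by
  subst hN
  rw [factorization_listProd L hp] at h3 ⊢
  by_cases hm : p ∈ L.map Prod.fst
  · exact hc p hm hodd h3
  · exfalso
    have : L.filter (fun x : ℕ × ℕ => x.1 = p) = [] := by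
      rw [List.filter_eq_nil_iff]
      intro x hx
      simp only [decide_eq_true_eq]
      rintro rfl
      exact hm (List.mem_map_of_mem hx)
    rw [this] at h3
    simp at h3

private lemma cube_lt (k : ℕ) : k ^ 3 < 4 ^ k := by
  induction k using Nat.strong_induction_on with
  | _ k ih =>
    match k with
    | 0 => norm_num
    | 1 => norm_num
    | 2 => norm_num
    | (k + 3) =>
      have h := ih (k + 2) (by omega)
      have h2 : (k + 3) ^ 3 ≤ 4 * (k + 2) ^ 3 := by
        have e1 : (k + 3) ^ 3 = k ^ 3 + 9 * k ^ 2 + 27 * k + 27 := by ring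
        have e2 : 4 * (k + 2) ^ 3 = 4 * k ^ 3 + 24 * k ^ 2 + 48 * k + 32 := by ring
        rw [e1, e2]
        linarith [Nat.zero_le (k ^ 3), Nat.zero_le (k ^ 2), Nat.zero_le k]
      calc (k + 3) ^ 3 ≤ 4 * (k + 2) ^ 3 := h2
        _ < 4 * 4 ^ (k + 2) := by omega
        _ = 4 ^ (k + 3) := by ring

private lemma three_mul_le (n p : ℕ) (hn : 5 ≤ n) (hp : p.Prime) (hodd : p ≠ 2)
    (h : (n.factorial).factorization p = 3) : 3 * p ≤ n := by
  by_contra hlt
  push Not at hlt
  have hp3 : 3 ≤ p := by
    have := hp.two_le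
    omega
  have hlog : Nat.log p n < 2 := by
    apply Nat.log_lt_of_lt_pow (by omega)
    nlinarith
  rw [Nat.factorization_factorial hp hlog] at h
  simp only [Nat.Ico_succ_singleton, Finset.sum_singleton, pow_one] at h
  have : n / p < 3 := by
    rw [Nat.div_lt_iff_lt_mul hp.pos]
    omega
  omega

private lemma two_part_ge (n p : ℕ) (hp3 : 3 ≤ p) (h : 3 * p ≤ n) :
    2 * p + 1 ≤ (n.factorial).factorization 2 := by
  have hlog : Nat.log 2 n < Nat.log 2 n + 1 := Nat.lt_succ_self _
  rw [Nat.factorization_factorial Nat.prime_two hlog]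
  have h8 : 3 ≤ Nat.log 2 n := by
    apply Nat.le_log_of_pow_le (by norm_num)
    omega
  have hsub : ({1, 2, 3} : Finset ℕ) ⊆ Finset.Ico 1 (Nat.log 2 n + 1) := by
    intro i hi
    simp only [Finset.mem_insert, Finset.mem_singleton] at hi
    rw [Finset.mem_Ico]
    omega
  have hle := Finset.sum_le_sum_of_subset (f := fun i => n / 2 ^ i) hsub
  have e : ∑ i ∈ ({1, 2, 3} : Finset ℕ), n / 2 ^ i = n / 2 + n / 4 + n / 8 := by
    rw [Finset.sum_insert (by decide), Finset.sum_insert (by decide), Finset.sum_singleton]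
    norm_num
    ring
  rw [e] at hle
  omega
theorem result {G : Type*} [Group G] [Finite G] (hG : Cfsg.IsAlternating G ∨ Cfsg.IsSporadic G)
    (p : ℕ) (hp : p.Prime) (hodd : p ≠ 2) (h3 : (Nat.card G).factorization p = 3) :
    p ^ 3 < 2 ^ (Nat.card G).factorization 2 := by
  rcases hG with ⟨n, hn, ⟨e⟩⟩ | hG
  · haveI : Nontrivial (Fin n) := Fin.nontrivial_iff_two_le.mpr (by omega)
    have hcard : 2 * Nat.card G = n.factorial := by
      rw [Nat.card_congr e.toEquiv, Nat.card_eq_fintype_card, two_mul_card_alternatingGroup,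
        Fintype.card_perm, Fintype.card_fin]
    have hne : Nat.card G ≠ 0 := Nat.card_pos.ne'
    have h1 : (n.factorial).factorization p = (Nat.card G).factorization p := by
      rw [← hcard, Nat.factorization_mul (by norm_num) hne, Finsupp.add_apply,
        Nat.Prime.factorization Nat.prime_two, Finsupp.single_apply, if_neg (Ne.symm hodd), zero_add]
    have h2 : (n.factorial).factorization 2 = 1 + (Nat.card G).factorization 2 := by
      rw [← hcard, Nat.factorization_mul (by norm_num) hne, Finsupp.add_apply,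
        Nat.Prime.factorization Nat.prime_two, Finsupp.single_apply, if_pos rfl]
    rw [← h1] at h3
    have h4 := three_mul_le n p hn hp hodd h3
    have hp3 : 3 ≤ p := by
      have := hp.two_le
      omega
    have h5 := two_part_ge n p hp3 h4
    calc p ^ 3 < 4 ^ p := cube_lt p
      _ = 2 ^ (2 * p) := by rw [pow_mul]; norm_num
      _ ≤ 2 ^ (Nat.card G).factorization 2 := Nat.pow_le_pow_right (by norm_num) (by omega)
  · unfold IsSporadic at hG
    rcases hG with ⟨-, hc0⟩ | ⟨-, hc1⟩ | ⟨-, hc2⟩ | ⟨-, hc3⟩ | ⟨-, hc4⟩ | ⟨-, hc5⟩ | ⟨-, hc6⟩ | ⟨-, hc7⟩ | ⟨-, hc8⟩ | ⟨-, hc9⟩ | ⟨-, hc10⟩ | ⟨-, hc11⟩ | ⟨-, hc12⟩ | ⟨-, hc13⟩ | ⟨-, hc14⟩ | ⟨-, hc15⟩ | ⟨-, hc16⟩ | ⟨-, hc17⟩ | ⟨-, hc18⟩ | ⟨-, hc19⟩ | ⟨-, hc20⟩ | ⟨-, hc21⟩ | ⟨-, hc22⟩ | ⟨-, hc23⟩ | ⟨-, hc24⟩ | ⟨-, hc25⟩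
    · rw [hc0] at h3 ⊢
      exact table_check [(2, 4), (3, 2), (5, 1), (11, 1)] (by intro x hx; simp only [List.mem_cons, List.not_mem_nil, or_false] at hx; rcases hx with rfl | rfl | rfl | rfl <;> norm_num) (by decide +kernel) _ (by norm_num) p hodd h3
    · rw [hc1] at h3 ⊢
      exact table_check [(2, 6), (3, 3), (5, 1), (11, 1)] (by intro x hx; simp only [List.mem_cons, List.not_mem_nil, or_false] at hx; rcases hx with rfl | rfl | rfl | rfl <;> norm_num) (by decide +kernel) _ (by norm_num) p hodd h3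
    · rw [hc2] at h3 ⊢
      exact table_check [(2, 7), (3, 2), (5, 1), (7, 1), (11, 1)] (by intro x hx; simp only [List.mem_cons, List.not_mem_nil, or_false] at hx; rcases hx with rfl | rfl | rfl | rfl | rfl <;> norm_num) (by decide +kernel) _ (by norm_num) p hodd h3
    · rw [hc3] at h3 ⊢
      exact table_check [(2, 7), (3, 2), (5, 1), (7, 1), (11, 1), (23, 1)] (by intro x hx; simp only [List.mem_cons, List.not_mem_nil, or_false] at hx; rcases hx with rfl | rfl | rfl | rfl | rfl | rfl <;> norm_num) (by decide +kernel) _ (by norm_num) p hodd h3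
    · rw [hc4] at h3 ⊢
      exact table_check [(2, 10), (3, 3), (5, 1), (7, 1), (11, 1), (23, 1)] (by intro x hx; simp only [List.mem_cons, List.not_mem_nil, or_false] at hx; rcases hx with rfl | rfl | rfl | rfl | rfl | rfl <;> norm_num) (by decide +kernel) _ (by norm_num) p hodd h3
    · rw [hc5] at h3 ⊢
      exact table_check [(2, 3), (3, 1), (5, 1), (7, 1), (11, 1), (19, 1)] (by intro x hx; simp only [List.mem_cons, List.not_mem_nil, or_false] at hx; rcases hx with rfl | rfl | rfl | rfl | rfl | rfl <;> norm_num) (by decide +kernel) _ (by norm_num) p hodd h3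
    · rw [hc6] at h3 ⊢
      exact table_check [(2, 7), (3, 3), (5, 2), (7, 1)] (by intro x hx; simp only [List.mem_cons, List.not_mem_nil, or_false] at hx; rcases hx with rfl | rfl | rfl | rfl <;> norm_num) (by decide +kernel) _ (by norm_num) p hodd h3
    · rw [hc7] at h3 ⊢
      exact table_check [(2, 7), (3, 5), (5, 1), (17, 1), (19, 1)] (by intro x hx; simp only [List.mem_cons, List.not_mem_nil, or_false] at hx; rcases hx with rfl | rfl | rfl | rfl | rfl <;> norm_num) (by decide +kernel) _ (by norm_num) p hodd h3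
    · rw [hc8] at h3 ⊢
      exact table_check [(2, 21), (3, 3), (5, 1), (7, 1), (11, 3), (23, 1), (29, 1), (31, 1), (37, 1), (43, 1)] (by intro x hx; simp only [List.mem_cons, List.not_mem_nil, or_false] at hx; rcases hx with rfl | rfl | rfl | rfl | rfl | rfl | rfl | rfl | rfl | rfl <;> norm_num) (by decide +kernel) _ (by norm_num) p hodd h3
    · rw [hc9] at h3 ⊢
      exact table_check [(2, 21), (3, 9), (5, 4), (7, 2), (11, 1), (13, 1), (23, 1)] (by intro x hx; simp only [List.mem_cons, List.not_mem_nil, or_false] at hx; rcases hx with rfl | rfl | rfl | rfl | rfl | rfl | rfl <;> norm_num) (by decide +kernel) _ (by norm_num) p hodd h3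
    · rw [hc10] at h3 ⊢
      exact table_check [(2, 18), (3, 6), (5, 3), (7, 1), (11, 1), (23, 1)] (by intro x hx; simp only [List.mem_cons, List.not_mem_nil, or_false] at hx; rcases hx with rfl | rfl | rfl | rfl | rfl | rfl <;> norm_num) (by decide +kernel) _ (by norm_num) p hodd h3
    · rw [hc11] at h3 ⊢
      exact table_check [(2, 10), (3, 7), (5, 3), (7, 1), (11, 1), (23, 1)] (by intro x hx; simp only [List.mem_cons, List.not_mem_nil, or_false] at hx; rcases hx with rfl | rfl | rfl | rfl | rfl | rfl <;> norm_num) (by decide +kernel) _ (by norm_num) p hodd h3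
    · rw [hc12] at h3 ⊢
      exact table_check [(2, 17), (3, 9), (5, 2), (7, 1), (11, 1), (13, 1)] (by intro x hx; simp only [List.mem_cons, List.not_mem_nil, or_false] at hx; rcases hx with rfl | rfl | rfl | rfl | rfl | rfl <;> norm_num) (by decide +kernel) _ (by norm_num) p hodd h3
    · rw [hc13] at h3 ⊢
      exact table_check [(2, 18), (3, 13), (5, 2), (7, 1), (11, 1), (13, 1), (17, 1), (23, 1)] (by intro x hx; simp only [List.mem_cons, List.not_mem_nil, or_false] at hx; rcases hx with rfl | rfl | rfl | rfl | rfl | rfl | rfl | rfl <;> norm_num) (by decide +kernel) _ (by norm_num) p hodd h3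
    · rw [hc14] at h3 ⊢
      exact table_check [(2, 21), (3, 16), (5, 2), (7, 3), (11, 1), (13, 1), (17, 1), (23, 1), (29, 1)] (by intro x hx; simp only [List.mem_cons, List.not_mem_nil, or_false] at hx; rcases hx with rfl | rfl | rfl | rfl | rfl | rfl | rfl | rfl | rfl <;> norm_num) (by decide +kernel) _ (by norm_num) p hodd h3
    · rw [hc15] at h3 ⊢
      exact table_check [(2, 9), (3, 2), (5, 3), (7, 1), (11, 1)] (by intro x hx; simp only [List.mem_cons, List.not_mem_nil, or_false] at hx; rcases hx with rfl | rfl | rfl | rfl | rfl <;> norm_num) (by decide +kernel) _ (by norm_num) p hodd h3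
    · rw [hc16] at h3 ⊢
      exact table_check [(2, 7), (3, 6), (5, 3), (7, 1), (11, 1)] (by intro x hx; simp only [List.mem_cons, List.not_mem_nil, or_false] at hx; rcases hx with rfl | rfl | rfl | rfl | rfl <;> norm_num) (by decide +kernel) _ (by norm_num) p hodd h3
    · rw [hc17] at h3 ⊢
      exact table_check [(2, 10), (3, 3), (5, 2), (7, 3), (17, 1)] (by intro x hx; simp only [List.mem_cons, List.not_mem_nil, or_false] at hx; rcases hx with rfl | rfl | rfl | rfl | rfl <;> norm_num) (by decide +kernel) _ (by norm_num) p hodd h3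
    · rw [hc18] at h3 ⊢
      exact table_check [(2, 14), (3, 3), (5, 3), (7, 1), (13, 1), (29, 1)] (by intro x hx; simp only [List.mem_cons, List.not_mem_nil, or_false] at hx; rcases hx with rfl | rfl | rfl | rfl | rfl | rfl <;> norm_num) (by decide +kernel) _ (by norm_num) p hodd h3
    · rw [hc19] at h3 ⊢
      exact table_check [(2, 13), (3, 7), (5, 2), (7, 1), (11, 1), (13, 1)] (by intro x hx; simp only [List.mem_cons, List.not_mem_nil, or_false] at hx; rcases hx with rfl | rfl | rfl | rfl | rfl | rfl <;> norm_num) (by decide +kernel) _ (by norm_num) p hodd h3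
    · rw [hc20] at h3 ⊢
      exact table_check [(2, 9), (3, 4), (5, 1), (7, 3), (11, 1), (19, 1), (31, 1)] (by intro x hx; simp only [List.mem_cons, List.not_mem_nil, or_false] at hx; rcases hx with rfl | rfl | rfl | rfl | rfl | rfl | rfl <;> norm_num) (by decide +kernel) _ (by norm_num) p hodd h3
    · rw [hc21] at h3 ⊢
      exact table_check [(2, 14), (3, 6), (5, 6), (7, 1), (11, 1), (19, 1)] (by intro x hx; simp only [List.mem_cons, List.not_mem_nil, or_false] at hx; rcases hx with rfl | rfl | rfl | rfl | rfl | rfl <;> norm_num) (by decide +kernel) _ (by norm_num) p hodd h3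
    · rw [hc22] at h3 ⊢
      exact table_check [(2, 8), (3, 7), (5, 6), (7, 1), (11, 1), (31, 1), (37, 1), (67, 1)] (by intro x hx; simp only [List.mem_cons, List.not_mem_nil, or_false] at hx; rcases hx with rfl | rfl | rfl | rfl | rfl | rfl | rfl | rfl <;> norm_num) (by decide +kernel) _ (by norm_num) p hodd h3
    · rw [hc23] at h3 ⊢
      exact table_check [(2, 15), (3, 10), (5, 3), (7, 2), (13, 1), (19, 1), (31, 1)] (by intro x hx; simp only [List.mem_cons, List.not_mem_nil, or_false] at hx; rcases hx with rfl | rfl | rfl | rfl | rfl | rfl | rfl <;> norm_num) (by decide +kernel) _ (by norm_num) p hodd h3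
    · rw [hc24] at h3 ⊢
      exact table_check [(2, 41), (3, 13), (5, 6), (7, 2), (11, 1), (13, 1), (17, 1), (19, 1), (23, 1), (31, 1), (47, 1)] (by intro x hx; simp only [List.mem_cons, List.not_mem_nil, or_false] at hx; rcases hx with rfl | rfl | rfl | rfl | rfl | rfl | rfl | rfl | rfl | rfl | rfl <;> norm_num) (by decide +kernel) _ (by norm_num) p hodd h3
    · rw [hc25] at h3 ⊢
      exact table_check [(2, 46), (3, 20), (5, 9), (7, 6), (11, 2), (13, 3), (17, 1), (19, 1), (23, 1), (29, 1), (31, 1), (41, 1), (47, 1), (59, 1), (71, 1)] (by intro x hx; simp only [List.mem_cons, List.not_mem_nil, or_false] at hx; rcases hx with rfl | rfl | rfl | rfl | rfl | rfl | rfl | rfl | rfl | rfl | rfl | rfl | rfl | rfl | rfl <;> norm_num) (by decide +kernel) _ (by norm_num) p hodd h3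

end Cfsg.Agent.S2367
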