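import Mathlib
import Cfsg.Statements.S2368
import Cfsg.Agent.Lib.H10.Unipotent

set_option autoImplicit false
open Cfsg

namespace Cfsg.Agent.S2368

theorem result {F : Type*} [Field F] [Fintype F] (p : ℕ) [Fact p.Prime] [CharP F p] (m : ℕ) (hm : 1 ≤ m) :
    (∀ g : Matrix.GeneralLinearGroup (Fin m) F, (∃ j : ℕ, orderOf g = p ^ j) → orderOf g < p * m) ∧
      ∃ g : Matrix.GeneralLinearGroup (Fin m) F, (∃ j : ℕ, orderOf g = p ^ j) ∧ m ≤ orderOf g := by
  have hp : p.Prime := Fact.out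
  constructor
  · rintro g ⟨j, hj⟩
    have h1 : g ^ (p ^ j) = 1 := by rw [← hj]; exact pow_orderOf_eq_one g
    have h2 : (g : Matrix (Fin m) (Fin m) F) ^ (p ^ j) = 1 := by
      rw [← Units.val_pow_eq_pow_val, h1, Units.val_one]
    have h3 := H10.sub_one_pow_eq_zero p _ j h2
    have h4 : IsNilpotent ((g : Matrix (Fin m) (Fin m) F) - 1) := ⟨_, h3⟩
    have h5 : orderOf g ≤ p ^ Nat.clog p m :=
      Nat.le_of_dvd (pow_pos hp.pos _) (H10.orderOf_unipotent_le p m g h4)
    refine lt_of_le_of_lt h5 ?_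
    rcases Nat.lt_or_ge 1 m with hm1 | hm1
    · have h6 := Nat.pow_pred_clog_lt_self hp.one_lt hm1
      have h7 : 0 < Nat.clog p m := Nat.clog_pos hp.one_lt (by omega)
      obtain ⟨c, hc⟩ : ∃ c, Nat.clog p m = c + 1 := ⟨Nat.clog p m - 1, by omega⟩
      rw [hc] at h6 ⊢
      simp only [Nat.pred_eq_sub_one, Nat.add_sub_cancel] at h6
      rw [pow_succ, mul_comm]
      exact Nat.mul_lt_mul_of_pos_left h6 hp.pos
    · have : m = 1 := by omega
      subst this
      simpa using hp.one_lt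
  · obtain ⟨u, hu, hne⟩ := H10.exists_jordan_block F m hm
    have h := H10.orderOf_unipotent_eq p m u hu hne
    refine ⟨u, ⟨_, h⟩, ?_⟩
    rw [h]
    exact Nat.le_pow_clog hp.one_lt m

end Cfsg.Agent.S2368
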