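import Mathlib
import Cfsg.Statements.S2379
import Cfsg.Agent.Lib.H10.HomoSylow
import Cfsg.Agent.Lib.Lead.CardSL

set_option autoImplicit false

open Cfsg

namespace Cfsg.Agent.S2379

open Matrix Polynomial H10

variable {F : Type*} [Field F]

/-- Determinant one diagonal matrices. -/
private noncomputable def diagSL (k : ℕ) : (Fin k → Fˣ) →* SpecialLinearGroup (Fin (k + 1)) F where
  toFun u := ⟨diagonal (Fin.snoc (fun i => (u i : F)) ((∏ i, (u i : F))⁻¹)), by
    rw [det_diagonal, Fin.prod_univ_castSucc]
    simp only [Fin.snoc_castSucc, Fin.snoc_last]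
    exact mul_inv_cancel₀ (Finset.prod_ne_zero_iff.2 (fun i _ => (u i).ne_zero))⟩
  map_one' := by
    apply Subtype.ext
    change diagonal _ = (1 : Matrix _ _ F)
    rw [← diagonal_one]
    congr 1
    funext i
    refine Fin.lastCases ?_ (fun i => ?_) i
    · simp
    · simp
  map_mul' u v := by
    apply Subtype.ext
    change diagonal _ = diagonal _ * diagonal _
    rw [diagonal_mul_diagonal]
    congr 1
    funext i
    refine Fin.lastCases ?_ (fun i => ?_) i
    · simp only [Fin.snoc_last, Pi.mul_apply, Units.val_mul]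
      rw [Finset.prod_mul_distrib, mul_inv]
    · simp

private lemma diagSL_inj (k : ℕ) : Function.Injective (diagSL (F := F) k) := by
  intro u v h
  funext i
  apply Units.ext
  have h1 := congrFun (congrFun (congrArg Subtype.val h) i.castSucc) i.castSucc
  have h2 : (diagonal (Fin.snoc (fun i => (u i : F)) ((∏ i, (u i : F))⁻¹)) : Matrix (Fin (k + 1)) (Fin (k + 1)) F) i.castSucc i.castSucc =
    (diagonal (Fin.snoc (fun i => (v i : F)) ((∏ i, (v i : F))⁻¹)) : Matrix (Fin (k + 1)) (Fin (k + 1)) F) i.castSucc i.castSucc := h1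
  simpa using h2

theorem result {F : Type*} [Field F] [Fintype F] {q : ℕ} (hq : Fintype.card F = q) (n : ℕ)
    (r : ℕ) [Fact r.Prime] (hrn : n < r) (hrq : ¬ r ∣ q) (P : Sylow r (Matrix.SpecialLinearGroup (Fin n) F)) :
    Nonempty (↥(P : Subgroup (Matrix.SpecialLinearGroup (Fin n) F)) ≃*
      (Fin ((Finset.Icc 2 n).filter (fun i => orderOf (q : ZMod r) ∣ i)).card →
        Multiplicative (ZMod (r ^ padicValNat r ((Polynomial.cyclotomic (orderOf (q : ZMod r)) ℤ).eval (q : ℤ)).natAbs)))) := by
  classical
  have hF : Fintype.card F = q := hq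
  have hq2 : 2 ≤ q := by
    rw [← hq]
    exact Fintype.one_lt_card
  set d := orderOf (q : ZMod r) with hd
  have hd0 : 0 < d := ordQ_pos hrq
  set a := padicValNat r ((cyclotomic d ℤ).eval (q : ℤ)).natAbs with ha
  have hr : r.Prime := Fact.out
  rcases Nat.eq_zero_or_pos n with rfl | hn
  · -- the trivial case
    have hcount : ((Finset.Icc 2 0).filter (fun i => d ∣ i)).card = 0 := by
      simp
    rw [hcount]
    haveI : Subsingleton (SpecialLinearGroup (Fin 0) F) := by
      constructor
      intro x y
      apply Subtype.ext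
      ext i
      exact i.elim0
    haveI : Inhabited (P : Subgroup (SpecialLinearGroup (Fin 0) F)) := ⟨1⟩
    haveI : Unique (P : Subgroup (SpecialLinearGroup (Fin 0) F)) := Unique.mk' _
    exact ⟨MulEquiv.ofUnique⟩
  haveI : Nonempty (Fin n) := ⟨⟨0, hn⟩⟩
  have hGL : Nat.card (GL (Fin n) F) = (q - 1) * Nat.card (SpecialLinearGroup (Fin n) F) := by
    rw [← hq]
    exact Lead.card_GL_eq_mul_card_SL
  have hGLval := val_GL hq hrq n (lt_of_le_of_lt (Nat.div_le_self _ _) hrn)
  rw [← hd] at hGLval
  have hq1 : q - 1 ≠ 0 := by omega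
  have hSL0 : Nat.card (SpecialLinearGroup (Fin n) F) ≠ 0 := Nat.card_pos.ne'
  have hfac : (Nat.card (GL (Fin n) F)).factorization r =
      padicValNat r (q - 1) + (Nat.card (SpecialLinearGroup (Fin n) F)).factorization r := by
    rw [hGL, Nat.factorization_mul hq1 hSL0, Finsupp.add_apply, Nat.factorization_def _ hr]
  by_cases hd1 : d = 1
  · -- the diagonal case
    obtain ⟨k, rfl⟩ : ∃ k, n = k + 1 := ⟨n - 1, by omega⟩
    have hcount : ((Finset.Icc 2 (k + 1)).filter (fun i => d ∣ i)).card = k := by
      rw [hd1]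
      simp
    rw [hcount]
    have hv1 : padicValNat r (q - 1) = a := by
      have := val_ord hrq hq2
      rw [← hd, hd1, pow_one] at this
      rw [this, ha, hd1]
    have hm : r ^ a ∣ Fintype.card F - 1 := by
      rw [hq, ← hv1]
      exact pow_padicValNat_dvd
    obtain ⟨ψ, hψ⟩ := exists_cyclic_hom F hm
    let g : (Fin k → Multiplicative (ZMod (r ^ a))) →* (Fin k → Fˣ) :=
      { toFun := fun x i => ψ (x i)
        map_one' := by
          funext i
          simp
        map_mul' := fun x x' => by
          funext i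
          simp }
    have hg : Function.Injective g := by
      intro x x' h
      funext i
      exact hψ (congrFun h i)
    apply sylow_iso_of_injective r ((diagSL k).comp g) ((diagSL_inj k).comp hg) _ P
    rw [card_homocyclic, ← pow_mul]
    congr 1
    rw [hGLval, hd1, hv1, Nat.div_one] at hfac
    have hv1' : padicValNat r (eval (q : ℤ) (cyclotomic 1 ℤ)).natAbs = a := by rw [ha, hd1]
    rw [hv1'] at hfac
    have h3 : (k + 1) * a = a + a * k := by ring
    rw [h3] at hfac
    omega
  · -- the determinant is trivial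
    have hd2 : 2 ≤ d := by omega
    have hcount : ((Finset.Icc 2 n).filter (fun i => d ∣ i)).card = n / d := by
      rw [← Nat.Ioc_filter_dvd_card_eq_div n d]
      congr 1
      ext i
      simp only [Finset.mem_filter, Finset.mem_Icc, Finset.mem_Ioc]
      constructor
      · rintro ⟨⟨h1, h2⟩, h3⟩
        exact ⟨⟨by omega, h2⟩, h3⟩
      · rintro ⟨⟨h1, h2⟩, h3⟩
        have := Nat.le_of_dvd h1 h3
        exact ⟨⟨by omega, h2⟩, h3⟩
    rw [hcount]
    have hv1 : padicValNat r (q - 1) = 0 := by
      apply padicValNat.eq_zero_of_not_dvd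
      have := dvd_pow_sub_one_iff hrq 1
      rw [pow_one] at this
      rw [this, ← hd]
      intro h
      have := Nat.dvd_one.1 h
      omega
    apply sylow_iso_of_map r (SpecialLinearGroup.toGL (n := Fin n) (R := F)) ?_ ?_ ?_ P
    · intro x y h
      apply Subtype.ext
      exact congrArg Units.val h
    · rw [hfac, hv1, zero_add]
    · intro P'
      exact sylow_GL hq n r hrq (lt_of_le_of_lt (Nat.div_le_self _ _) hrn) P'

end Cfsg.Agent.S2379
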