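import Mathlib
import Cfsg.Statements.S2380
import Cfsg.Agent.Lib.H10.HomoSylow

set_option autoImplicit false

open Cfsg

namespace Cfsg.Agent.S2380

theorem result {F : Type*} [Field F] [Fintype F] {q : ℕ} (hq : Fintype.card F = q) (n : ℕ)
    (r : ℕ) [Fact r.Prime] (hrn : n < r) (hrq : ¬ r ∣ q) (P : Sylow r (GL (Fin n) F)) :
    Nonempty (↥(P : Subgroup (GL (Fin n) F)) ≃*
      (Fin (n / orderOf (q : ZMod r)) →
        Multiplicative (ZMod (r ^ padicValNat r ((Polynomial.cyclotomic (orderOf (q : ZMod r)) ℤ).eval (q : ℤ)).natAbs)))) := by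
  have hn : n / orderOf (q : ZMod r) < r := lt_of_le_of_lt (Nat.div_le_self _ _) hrn
  exact Cfsg.Agent.H10.sylow_GL hq n r hrq hn P

end Cfsg.Agent.S2380
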