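import Mathlib
import Cfsg.Statements.S2381
import Cfsg.Agent.Lib.H10.HomoSylow
import Cfsg.Agent.Lib.Lead.SpOrder

set_option autoImplicit false

open Cfsg

namespace Cfsg.Agent.S2381

open Matrix Polynomial H10

variable {F : Type*} [Field F]

/-- The Levi factor `GL_n` in `Sp_{2n}`. -/
private def leviSp (n : ℕ) : GL (Fin n) F →* Matrix.symplecticGroup (Fin n) F where
  toFun g := ⟨fromBlocks (g : Matrix (Fin n) (Fin n) F) 0 0 ((g⁻¹ : GL (Fin n) F) : Matrix (Fin n) (Fin n) F)ᵀ, by
    rw [SymplecticGroup.fromBlocks_mem_iff]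
    refine ⟨?_, ?_, ?_⟩
    · simp
    · simp
    · have h : ((g⁻¹ : GL (Fin n) F) : Matrix (Fin n) (Fin n) F) * (g : Matrix (Fin n) (Fin n) F) = 1 := by
        rw [← Units.val_mul, inv_mul_cancel, Units.val_one]
      have h2 := congrArg Matrix.transpose h
      rw [Matrix.transpose_mul, Matrix.transpose_one] at h2
      simpa using h2⟩
  map_one' := by
    apply Subtype.ext
    change fromBlocks _ 0 0 _ = (1 : Matrix (Fin n ⊕ Fin n) (Fin n ⊕ Fin n) F)
    rw [← fromBlocks_one]
    simp
  map_mul' g h := by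
    apply Subtype.ext
    change fromBlocks _ 0 0 _ = fromBlocks _ 0 0 _ * fromBlocks _ 0 0 _
    rw [fromBlocks_multiply]
    simp only [mul_zero, zero_mul, add_zero, zero_add, _root_.mul_inv_rev, Units.val_mul, Matrix.transpose_mul]

private lemma leviSp_inj (n : ℕ) : Function.Injective (leviSp (F := F) n) := by
  intro g h e
  have e1 : fromBlocks (g : Matrix (Fin n) (Fin n) F) 0 0 ((g⁻¹ : GL (Fin n) F) : Matrix (Fin n) (Fin n) F)ᵀ =
      fromBlocks (h : Matrix (Fin n) (Fin n) F) 0 0 ((h⁻¹ : GL (Fin n) F) : Matrix (Fin n) (Fin n) F)ᵀ :=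
    congrArg Subtype.val e
  obtain ⟨e2, -, -, -⟩ := Matrix.fromBlocks_inj.1 e1
  exact Units.ext e2

/-- `Sp_{2n}` inside `GL_{2n}`. -/
private noncomputable def spToGL (n : ℕ) : Matrix.symplecticGroup (Fin n) F →* GL (Fin (2 * n)) F :=
  MonoidHom.toHomUnits
    (((Matrix.reindexAlgEquiv F F ((finSumFinEquiv (m := n) (n := n)).trans (finCongr (two_mul n).symm))
        : Matrix (Fin n ⊕ Fin n) (Fin n ⊕ Fin n) F ≃ₐ[F] Matrix (Fin (2 * n)) (Fin (2 * n)) F).toAlgHom.toMonoidHom).comp
      { toFun := fun g => g.1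
        map_one' := rfl
        map_mul' := fun _ _ => rfl })

private lemma spToGL_inj (n : ℕ) : Function.Injective (spToGL (F := F) n) := by
  intro g h e
  have e1 := congrArg Units.val e
  apply Subtype.ext
  exact (Matrix.reindexAlgEquiv F F ((finSumFinEquiv (m := n) (n := n)).trans (finCongr (two_mul n).symm))).injective e1

theorem result {F : Type*} [Field F] [Fintype F] {q : ℕ} (hq : Fintype.card F = q) (n : ℕ)
    (r : ℕ) [Fact r.Prime] (hr2 : r ≠ 2) (hrn : n < r) (hrq : ¬ r ∣ q) (P : Sylow r ↥(Matrix.symplecticGroup (Fin n) F)) :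
    Nonempty (↥(P : Subgroup ↥(Matrix.symplecticGroup (Fin n) F)) ≃*
      (Fin ((Finset.Icc 1 n).filter (fun i => orderOf (q : ZMod r) ∣ 2 * i)).card →
        Multiplicative (ZMod (r ^ padicValNat r ((Polynomial.cyclotomic (orderOf (q : ZMod r)) ℤ).eval (q : ℤ)).natAbs)))) := by
  classical
  have hq2 : 2 ≤ q := by
    rw [← hq]
    exact Fintype.one_lt_card
  have hrp : r.Prime := Fact.out
  have hrodd : Odd r := hrp.odd_of_ne_two hr2
  set d := orderOf (q : ZMod r) with hd
  have hd0 : 0 < d := ordQ_pos hrq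
  set a := padicValNat r ((cyclotomic d ℤ).eval (q : ℤ)).natAbs with ha
  set c := ((Finset.Icc 1 n).filter (fun i => d ∣ 2 * i)).card with hc
  -- the order of `Sp`
  have hval : (Nat.card (Matrix.symplecticGroup (Fin n) F)).factorization r = c * a := by
    rw [Nat.factorization_def _ hrp, Lead.card_Sp hq n]
    have hne : ∀ i, q ^ (2 * (i + 1)) - 1 ≠ 0 := fun i => pow_sub_one_ne_zero hq2 (by omega)
    rw [padicValNat.mul (pow_ne_zero _ (by omega)) (Finset.prod_ne_zero_iff.2 (fun i _ => hne i)),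
      padicValNat.pow, padicValNat.eq_zero_of_not_dvd hrq, mul_zero, zero_add, val_prod _ _ (fun i _ => hne i)]
    have h1 : ∀ i ∈ Finset.range n, padicValNat r (q ^ (2 * (i + 1)) - 1) = if d ∣ 2 * (i + 1) then a else 0 := by
      intro i hi
      have hi' := Finset.mem_range.1 hi
      apply val_pow_sub_one hrq hq2
      by_cases hdk : d ∣ 2 * (i + 1)
      · right
        intro hdvd
        have h3 : r ∣ 2 * (i + 1) := hdvd.trans (Nat.div_dvd_of_dvd hdk)
        have h4 : r ∣ i + 1 := by
          rcases (Nat.Prime.dvd_mul hrp).1 h3 with h5 | h5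
          · exact absurd (Nat.le_of_dvd (by norm_num) h5) (by
              have := hrp.two_le
              omega)
          · exact h5
        have := Nat.le_of_dvd (by omega) h4
        omega
      · left
        exact hdk
    rw [Finset.sum_congr rfl h1, ← Finset.sum_filter, Finset.sum_const, smul_eq_mul]
    congr 1
    rw [hc]
    apply Finset.card_bij (fun i _ => i + 1)
    · intro i hi
      obtain ⟨h3, h4⟩ := Finset.mem_filter.1 hi
      have := Finset.mem_range.1 h3
      simp only [Finset.mem_filter, Finset.mem_Icc]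
      exact ⟨⟨by omega, by omega⟩, h4⟩
    · intro i _ j _ h
      omega
    · intro j hj
      obtain ⟨h3, h4⟩ := Finset.mem_filter.1 hj
      obtain ⟨h5, h6⟩ := Finset.mem_Icc.1 h3
      refine ⟨j - 1, ?_, by omega⟩
      simp only [Finset.mem_filter, Finset.mem_range]
      refine ⟨by omega, ?_⟩
      rw [Nat.sub_add_cancel h5]
      exact h4
  rcases Nat.even_or_odd d with hev | hod
  · -- `d` even: the Sylow subgroup of `GL_{2n}`
    obtain ⟨e, he⟩ : ∃ e, d = 2 * e := by
      obtain ⟨e, he⟩ := hev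
      exact ⟨e, by omega⟩
    have he0 : 0 < e := by omega
    have hcount : c = 2 * n / d := by
      rw [he, Nat.mul_div_mul_left _ _ (by norm_num), hc, ← Nat.Ioc_filter_dvd_card_eq_div n e]
      congr 1
      ext i
      simp only [Finset.mem_filter, Finset.mem_Icc, Finset.mem_Ioc, he]
      rw [Nat.mul_dvd_mul_iff_left (by norm_num)]
      constructor
      · rintro ⟨⟨h1, h2⟩, h3⟩
        exact ⟨⟨by omega, h2⟩, h3⟩
      · rintro ⟨⟨h1, h2⟩, h3⟩
        exact ⟨⟨by omega, h2⟩, h3⟩
    have hlt : 2 * n / d < r := by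
      rw [← hcount]
      have : c ≤ (Finset.Icc 1 n).card := Finset.card_filter_le _ _
      simp at this
      omega
    rw [hcount]
    apply sylow_iso_of_map r (spToGL n) (spToGL_inj n) ?_ ?_ P
    · rw [hval, val_GL hq hrq (2 * n) hlt, ← hcount]
    · intro P'
      exact sylow_GL hq (2 * n) r hrq hlt P'
  · -- `d` odd: through `GL_n`
    have hcount : c = n / d := by
      rw [hc, ← Nat.Ioc_filter_dvd_card_eq_div n d]
      congr 1
      ext i
      simp only [Finset.mem_filter, Finset.mem_Icc, Finset.mem_Ioc]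
      have hcop : Nat.Coprime d 2 := Nat.coprime_two_right.2 hod
      rw [hcop.dvd_mul_left]
      constructor
      · rintro ⟨⟨h1, h2⟩, h3⟩
        exact ⟨⟨by omega, h2⟩, h3⟩
      · rintro ⟨⟨h1, h2⟩, h3⟩
        exact ⟨⟨by omega, h2⟩, h3⟩
    rw [hcount]
    have hm : r ^ a ∣ Fintype.card F ^ d - 1 := by
      rw [hq, ha, hd, ← val_ord hrq hq2]
      exact pow_padicValNat_dvd
    obtain ⟨φ, hφ⟩ := exists_homocyclic_GL (F := F) n (n / d) d hd0 (Nat.div_mul_le_self _ _) hm
    apply sylow_iso_of_injective r ((leviSp n).comp φ) ((leviSp_inj n).comp hφ) _ P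
    rw [card_homocyclic, hval, hcount, ← pow_mul, mul_comm]

end Cfsg.Agent.S2381
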