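import Mathlib
import Cfsg.Statements.S2387
import Cfsg.Agent.Lib.H10.SS2

set_option autoImplicit false

open Cfsg

namespace Cfsg.Agent.S2387

theorem result {F : Type*} [Field F] [Fintype F] {q : ℕ} (hq : Fintype.card F = q) (p : ℕ) [Fact p.Prime] [CharP F p] (n : ℕ) (hn : 1 ≤ n) :
    Nat.card {c : ConjClasses (GL (Fin n) F) // ∃ g : GL (Fin n) F, ConjClasses.mk g = c ∧ (orderOf g).Coprime p} = (q - 1) * q ^ (n - 1) := by
  exact Cfsg.Agent.H10.card_ss_GL p hq n hn

end Cfsg.Agent.S2387
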