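import Mathlib
import Cfsg.Statements.S2388
import Cfsg.Agent.Lib.H10.SS2

set_option autoImplicit false

open Cfsg

namespace Cfsg.Agent.S2388

theorem result {F : Type*} [Field F] [Fintype F] (p : ℕ) [Fact p.Prime] [CharP F p] (n : ℕ)
    (g h : Matrix.SpecialLinearGroup (Fin n) F) (hg : (orderOf g).Coprime p) (hh : (orderOf h).Coprime p)
    (hc : (g : Matrix (Fin n) (Fin n) F).charpoly = (h : Matrix (Fin n) (Fin n) F).charpoly) : IsConj g h := by
  exact Cfsg.Agent.H10.isConj_SL_of_charpoly_eq p n g h hg hh hc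

end Cfsg.Agent.S2388
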