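import Cfsg.Statements.S2389
import Cfsg.Agent.Lib.H11.WallSp

set_option autoImplicit false
open Cfsg

namespace Cfsg.Agent.S2389

/-- In the symplectic group `Sp_{2n}(q)`, `q` a power of the prime `p`, two elements of order prime to `p` with the same characteristic polynomial are conjugate in `Sp_{2n}(q)`. -/
theorem result {F : Type*} [Field F] [Fintype F] (p : ℕ) [Fact p.Prime] [CharP F p] (n : ℕ)
    (g h : ↥(Matrix.symplecticGroup (Fin n) F)) (hg : (orderOf g).Coprime p) (hh : (orderOf h).Coprime p)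
    (hc : (g : Matrix (Fin n ⊕ Fin n) (Fin n ⊕ Fin n) F).charpoly = (h : Matrix (Fin n ⊕ Fin n) (Fin n ⊕ Fin n) F).charpoly) :
    IsConj g h := by
  classical
  have hcast : ((orderOf g : ℕ) : F) ≠ 0 := by
    have hpP : p.Prime := Fact.out
    rw [Ne, CharP.cast_eq_zero_iff F p]
    intro h1
    have := Nat.Coprime.eq_one_of_dvd hg.symm h1
    exact hpP.one_lt.ne' this
  have hcast2 : ((orderOf g * orderOf h : ℕ) : F) ≠ 0 := by
    have hpP : p.Prime := Fact.out
    rw [Ne, CharP.cast_eq_zero_iff F p]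
    intro h1
    rcases (Nat.Prime.dvd_mul hpP).1 h1 with h2 | h2
    · exact hpP.one_lt.ne' (Nat.Coprime.eq_one_of_dvd hg.symm h2)
    · exact hpP.one_lt.ne' (Nat.Coprime.eq_one_of_dvd hh.symm h2)
  exact Cfsg.Agent.H11.Wall.sp_conj g h _ hcast2 (by rw [pow_mul, pow_orderOf_eq_one, one_pow])
    (by rw [mul_comm, pow_mul, pow_orderOf_eq_one, one_pow]) hc

end Cfsg.Agent.S2389
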