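import Mathlib
import Cfsg.Statements.S2391

set_option autoImplicit false
open Cfsg

namespace Cfsg.Agent.S2391

variable {F : Type*} [Field F] {n : ℕ}

/-- The ascending series of fixed points. -/
def W (U : Subgroup (Matrix.SpecialLinearGroup (Fin n) F)) : ℕ → Submodule F (Fin n → F)
  | 0 => ⊥
  | i + 1 =>
    { carrier := {v | ∀ u ∈ U, (u : Matrix (Fin n) (Fin n) F).mulVec v - v ∈ W U i}
      add_mem' := by
        intro a b ha hb u hu
        have h := (W U i).add_mem (ha u hu) (hb u hu)
        have e : (u : Matrix (Fin n) (Fin n) F).mulVec (a + b) - (a + b) =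
            ((u : Matrix (Fin n) (Fin n) F).mulVec a - a) + ((u : Matrix (Fin n) (Fin n) F).mulVec b - b) := by
          rw [Matrix.mulVec_add]; abel
        rw [e]; exact h
      zero_mem' := by
        intro u _
        simp
      smul_mem' := by
        intro c a ha u hu
        have h := (W U i).smul_mem c (ha u hu)
        have e : (u : Matrix (Fin n) (Fin n) F).mulVec (c • a) - (c • a) =
            c • ((u : Matrix (Fin n) (Fin n) F).mulVec a - a) := by
          rw [Matrix.mulVec_smul, smul_sub]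
        rw [e]; exact h }

theorem mem_W_succ (U : Subgroup (Matrix.SpecialLinearGroup (Fin n) F)) (i : ℕ) (v : Fin n → F) :
    v ∈ W U (i + 1) ↔ ∀ u ∈ U, (u : Matrix (Fin n) (Fin n) F).mulVec v - v ∈ W U i := Iff.rfl

theorem W_le_succ (U : Subgroup (Matrix.SpecialLinearGroup (Fin n) F)) (i : ℕ) :
    W U i ≤ W U (i + 1) := by
  induction i with
  | zero => exact bot_le
  | succ i ih =>
    intro v hv u hu
    exact ih (hv u hu)

theorem W_mono (U : Subgroup (Matrix.SpecialLinearGroup (Fin n) F)) : Monotone (W U) :=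
  monotone_nat_of_le_succ (W_le_succ U)

theorem W_inv (U : Subgroup (Matrix.SpecialLinearGroup (Fin n) F))
    (g : Matrix.SpecialLinearGroup (Fin n) F)
    (hg : g ∈ Subgroup.normalizer (U : Set (Matrix.SpecialLinearGroup (Fin n) F))) (i : ℕ)
    (v : Fin n → F) (hv : v ∈ W U i) : (g : Matrix (Fin n) (Fin n) F).mulVec v ∈ W U i := by
  induction i generalizing v with
  | zero =>
    have : v = 0 := hv
    subst this
    simp [W]
  | succ i ih =>
    intro u hu
    have hu' : g⁻¹ * u * g ∈ U := (Subgroup.mem_set_normalizer_iff''.1 hg u).1 hu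
    have h1 := hv _ hu'
    have h2 := ih _ h1
    have e : (g : Matrix (Fin n) (Fin n) F).mulVec
        (((g⁻¹ * u * g : Matrix.SpecialLinearGroup (Fin n) F) : Matrix (Fin n) (Fin n) F).mulVec v - v) =
        (u : Matrix (Fin n) (Fin n) F).mulVec ((g : Matrix (Fin n) (Fin n) F).mulVec v) -
          (g : Matrix (Fin n) (Fin n) F).mulVec v := by
      rw [Matrix.mulVec_sub, Matrix.mulVec_mulVec, Matrix.mulVec_mulVec]
      congr 2
      rw [← Matrix.SpecialLinearGroup.coe_mul, ← Matrix.SpecialLinearGroup.coe_mul]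
      have : g * (g⁻¹ * u * g) = u * g := by group
      rw [this]
    rw [← e]
    exact h2

theorem W_map (U : Subgroup (Matrix.SpecialLinearGroup (Fin n) F))
    (g : Matrix.SpecialLinearGroup (Fin n) F)
    (hg : g ∈ Subgroup.normalizer (U : Set (Matrix.SpecialLinearGroup (Fin n) F))) (i : ℕ) :
    (W U i).map (Matrix.mulVecLin (g : Matrix (Fin n) (Fin n) F)) = W U i := by
  apply le_antisymm
  · rintro _ ⟨v, hv, rfl⟩
    exact W_inv U g hg i v hv
  · intro v hv
    refine ⟨((g⁻¹ : Matrix.SpecialLinearGroup (Fin n) F) : Matrix (Fin n) (Fin n) F).mulVec v,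
      W_inv U g⁻¹ (Subgroup.inv_mem _ hg) i v hv, ?_⟩
    show (g : Matrix (Fin n) (Fin n) F).mulVec
      (((g⁻¹ : Matrix.SpecialLinearGroup (Fin n) F) : Matrix (Fin n) (Fin n) F).mulVec v) = v
    rw [Matrix.mulVec_mulVec, ← Matrix.SpecialLinearGroup.coe_mul, mul_inv_cancel,
      Matrix.SpecialLinearGroup.coe_one, Matrix.one_mulVec]

/-- The action of `U` on the quotient. -/
@[reducible] def quotAct (U : Subgroup (Matrix.SpecialLinearGroup (Fin n) F))
    (M : Submodule F (Fin n → F))
    (hM : ∀ u ∈ U, ∀ v ∈ M, (u : Matrix (Fin n) (Fin n) F).mulVec v ∈ M) :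
    MulAction U ((Fin n → F) ⧸ M) where
  smul u x := Submodule.mapQ M M (Matrix.mulVecLin ((u : Matrix.SpecialLinearGroup (Fin n) F) : Matrix (Fin n) (Fin n) F))
    (fun v hv => hM u u.2 v hv) x
  one_smul x := by
    induction x using Submodule.Quotient.induction_on with
    | H v =>
      change Submodule.Quotient.mk (Matrix.mulVecLin _ v) = Submodule.Quotient.mk v
      congr 1
      simp
  mul_smul a b x := by
    induction x using Submodule.Quotient.induction_on with
    | H v =>
      change Submodule.Quotient.mk (Matrix.mulVecLin _ v) =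
        Submodule.Quotient.mk (Matrix.mulVecLin _ (Matrix.mulVecLin _ v))
      congr 1
      simp [Matrix.mulVec_mulVec]

theorem exists_step (p : ℕ) [Fact p.Prime] [Fintype F] [CharP F p]
    (U : Subgroup (Matrix.SpecialLinearGroup (Fin n) F)) (hU : IsPGroup p ↥U)
    (M : Submodule F (Fin n → F))
    (hM : ∀ u ∈ U, ∀ v ∈ M, (u : Matrix (Fin n) (Fin n) F).mulVec v ∈ M) (hne : M ≠ ⊤) :
    ∃ v, v ∉ M ∧ ∀ u ∈ U, (u : Matrix (Fin n) (Fin n) F).mulVec v - v ∈ M := by
  classical
  let _ := quotAct U M hM
  have hnt : Nontrivial ((Fin n → F) ⧸ M) := Submodule.Quotient.nontrivial_iff.2 hne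
  have hpcard : p ∣ Nat.card ((Fin n → F) ⧸ M) := by
    have hc : Nat.card ((Fin n → F) ⧸ M) = Fintype.card F ^ Module.finrank F ((Fin n → F) ⧸ M) := by
      rw [Nat.card_eq_fintype_card, Module.card_eq_pow_finrank (K := F)]
    rw [hc]
    obtain ⟨m, _, hm⟩ := FiniteField.card F p
    rw [hm]
    have : 0 < Module.finrank F ((Fin n → F) ⧸ M) := Module.finrank_pos
    exact dvd_pow (dvd_pow_self p m.pos.ne') this.ne'
  have h0 : (0 : (Fin n → F) ⧸ M) ∈ MulAction.fixedPoints U ((Fin n → F) ⧸ M) := by
    intro u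
    change Submodule.mapQ M M _ _ (0 : (Fin n → F) ⧸ M) = 0
    simp
  obtain ⟨b, hb, hb0⟩ := hU.exists_fixed_point_of_prime_dvd_card_of_fixed_point _ hpcard h0
  induction b using Submodule.Quotient.induction_on with
  | H v =>
    refine ⟨v, ?_, ?_⟩
    · intro hv
      apply hb0
      rw [eq_comm]
      exact (Submodule.Quotient.mk_eq_zero M).2 hv
    · intro u hu
      have h1 := hb ⟨u, hu⟩
      have h2 : Submodule.Quotient.mk ((u : Matrix (Fin n) (Fin n) F).mulVec v) =
          (Submodule.Quotient.mk v : (Fin n → F) ⧸ M) := h1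
      rwa [Submodule.Quotient.eq] at h2

theorem W_exists_top (p : ℕ) [Fact p.Prime] [Fintype F] [CharP F p]
    (U : Subgroup (Matrix.SpecialLinearGroup (Fin n) F)) (hU : IsPGroup p ↥U) (i : ℕ) :
    W U i = ⊤ ∨ i ≤ Module.finrank F (W U i) := by
  induction i with
  | zero => right; omega
  | succ i ih =>
    by_cases htop : W U (i + 1) = ⊤
    · exact Or.inl htop
    · right
      have hnt : W U i ≠ ⊤ := by
        intro h
        apply htop
        exact top_le_iff.1 (h ▸ W_le_succ U i)
      have ih' := ih.resolve_left hnt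
      have hM : ∀ u ∈ U, ∀ v ∈ W U i, (u : Matrix (Fin n) (Fin n) F).mulVec v ∈ W U i := by
        intro u hu v hv
        apply W_inv U u _ i v hv
        exact Subgroup.le_normalizer hu
      obtain ⟨v, hv, hv2⟩ := exists_step p U hU (W U i) hM hnt
      have hlt : W U i < W U (i + 1) := by
        refine lt_of_le_of_ne (W_le_succ U i) ?_
        intro h
        apply hv
        rw [h]
        exact hv2
      have := Submodule.finrank_lt_finrank_of_lt hlt
      omega

theorem result {F : Type*} [Field F] [Fintype F] (p : ℕ) [Fact p.Prime] [CharP F p] (n : ℕ)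
    (U : Subgroup (Matrix.SpecialLinearGroup (Fin n) F)) (hU : IsPGroup p ↥U) (hne : U ≠ ⊥) :
    ∃ (k : ℕ) (V : Fin (k + 2) → Submodule F (Fin n → F)), 1 ≤ k ∧ StrictMono V ∧ V 0 = ⊥ ∧ V (Fin.last (k + 1)) = ⊤ ∧
      (∀ g ∈ Subgroup.normalizer (U : Set (Matrix.SpecialLinearGroup (Fin n) F)), ∀ i, (V i).map (Matrix.mulVecLin (g : Matrix (Fin n) (Fin n) F)) = V i) ∧
      (∀ u ∈ U, ∀ i : Fin (k + 1), ∀ v ∈ V i.succ, (u : Matrix (Fin n) (Fin n) F).mulVec v - v ∈ V (Fin.castSucc i)) := by
  classical
  have hex : ∃ i, W U i = ⊤ := by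
    refine ⟨n + 1, ?_⟩
    rcases W_exists_top p U hU (n + 1) with h | h
    · exact h
    · exfalso
      have h1 := Submodule.finrank_le (W U (n + 1))
      simp at h1
      omega
  -- the first index at which we reach the top
  let K := Nat.find hex
  have hK : W U K = ⊤ := Nat.find_spec hex
  have hKmin : ∀ i < K, W U i ≠ ⊤ := fun i hi => Nat.find_min hex hi
  -- W 1 is not everything
  have h1ne : W U 1 ≠ ⊤ := by
    intro h
    apply hne
    rw [eq_bot_iff]
    intro u hu
    rw [Subgroup.mem_bot]
    have h2 : ∀ v : Fin n → F, (u : Matrix (Fin n) (Fin n) F).mulVec v = v := by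
      intro v
      have h3 : v ∈ W U 1 := by rw [h]; trivial
      have h4 := h3 u hu
      have h5 : (u : Matrix (Fin n) (Fin n) F).mulVec v - v = 0 := h4
      exact sub_eq_zero.1 h5
    apply Subtype.ext
    rw [Matrix.SpecialLinearGroup.coe_one]
    apply Matrix.toLin'.injective
    apply LinearMap.ext
    intro v
    simp [Matrix.toLin'_apply, h2]
  have hK2 : 2 ≤ K := by
    by_contra hlt
    have hK' : K ≤ 1 := by omega
    have := W_mono U hK'
    rw [hK] at this
    exact h1ne (top_le_iff.1 this)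
  obtain ⟨k, hk⟩ : ∃ k, K = k + 1 := ⟨K - 1, by omega⟩
  refine ⟨k, fun i => W U i.val, by omega, ?_, rfl, ?_, ?_, ?_⟩
  · -- strict monotonicity
    have hstep : ∀ i, i < K → W U i < W U (i + 1) := by
      intro i hi
      have hnt := hKmin i hi
      have hM : ∀ u ∈ U, ∀ v ∈ W U i, (u : Matrix (Fin n) (Fin n) F).mulVec v ∈ W U i := by
        intro u hu v hv
        apply W_inv U u _ i v hv
        exact Subgroup.le_normalizer hu
      obtain ⟨v, hv, hv2⟩ := exists_step p U hU (W U i) hM hnt
      refine lt_of_le_of_ne (W_le_succ U i) ?_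
      intro h
      apply hv
      rw [h]
      exact hv2
    intro i j hij
    have hij' : i.val < j.val := hij
    have hiK : i.val < K := by have := j.2; omega
    exact lt_of_lt_of_le (hstep i.val hiK) (W_mono U hij')
  · show W U (k + 1) = ⊤
    rw [← hk]; exact hK
  · intro g hg i
    exact W_map U g hg i.val
  · intro u hu i v hv
    exact hv u hu

end Cfsg.Agent.S2391
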