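import Mathlib
import Cfsg.Statements.S2392
import Cfsg.Agent.Lib.H10.CharBound
import Cfsg.Agent.Lib.H10.LawFam

set_option autoImplicit false

open Cfsg

namespace Cfsg.Agent.S2392

open Matrix H10

variable {F : Type*} [Field F] 

/-- The shear with last column `x`. -/
def shear {m : ℕ} (x : Fin m → F) : Matrix.SpecialLinearGroup (Fin m ⊕ Fin 1) F :=
  ⟨fromBlocks 1 (replicateCol (Fin 1) x) 0 1, by
    rw [det_fromBlocks_zero₂₁]; simp⟩

lemma shear_add {m : ℕ} (x y : Fin m → F) : shear (x + y) = shear x * shear y := by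
  apply Subtype.ext
  change fromBlocks 1 (replicateCol (Fin 1) (x + y)) 0 1 =
    fromBlocks 1 (replicateCol (Fin 1) x) 0 1 * fromBlocks 1 (replicateCol (Fin 1) y) 0 1
  rw [fromBlocks_multiply]
  simp only [Matrix.one_mul, Matrix.mul_zero, add_zero, Matrix.mul_one, Matrix.zero_mul, zero_add]
  congr 1
  ext i j
  simp [add_comm]

/-- The diagonal block. -/
def blockD {m : ℕ} (h : Matrix.SpecialLinearGroup (Fin m) F) : Matrix.SpecialLinearGroup (Fin m ⊕ Fin 1) F :=
  ⟨fromBlocks h.1 0 0 1, by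
    rw [det_fromBlocks_zero₂₁]; simp⟩

lemma blockD_conj {m : ℕ} (h : Matrix.SpecialLinearGroup (Fin m) F) (x : Fin m → F) :
    blockD h * shear x * (blockD h)⁻¹ = shear (h.1 *ᵥ x) := by
  rw [mul_inv_eq_iff_eq_mul]
  apply Subtype.ext
  change fromBlocks h.1 0 0 1 * fromBlocks 1 (replicateCol (Fin 1) x) 0 1 =
    fromBlocks 1 (replicateCol (Fin 1) (h.1 *ᵥ x)) 0 1 * fromBlocks h.1 0 0 1
  rw [fromBlocks_multiply, fromBlocks_multiply]
  simp only [Matrix.one_mul, Matrix.mul_zero, add_zero, Matrix.mul_one, Matrix.zero_mul, zero_add]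
  congr 1

/-- The additive automorphism attached to `h`. -/
def mulVecEquiv {m : ℕ} (h : Matrix.SpecialLinearGroup (Fin m) F) : (Fin m → F) ≃+ (Fin m → F) where
  toFun x := h.1 *ᵥ x
  invFun x := (h⁻¹).1 *ᵥ x
  left_inv x := by
    change (h⁻¹).1 *ᵥ (h.1 *ᵥ x) = x
    rw [mulVec_mulVec]
    have : (h⁻¹).1 * h.1 = 1 := congrArg Subtype.val (inv_mul_cancel h)
    rw [this, one_mulVec]
  right_inv x := by
    change h.1 *ᵥ ((h⁻¹).1 *ᵥ x) = x
    rw [mulVec_mulVec]
    have : h.1 * (h⁻¹).1 = 1 := congrArg Subtype.val (mul_inv_cancel h)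
    rw [this, one_mulVec]
  map_add' x y := by rw [mulVec_add]

/-- One-point shears. -/
lemma exists_SL_step {m : ℕ} {a c : Fin m → F} {i : Fin m} (hi : a i ≠ 0) (hac : a i = c i) :
    ∃ g : Matrix.SpecialLinearGroup (Fin m) F, g.1 *ᵥ a = c := by
  let w : Fin m → F := fun k => (c k - a k) / a i
  let v : Fin m → F := Pi.single i 1
  have hvw : v ⬝ᵥ w = 0 := by
    simp [v, w, single_dotProduct, hac]
  have hdet : (1 + replicateCol (Fin 1) w * replicateRow (Fin 1) v : Matrix (Fin m) (Fin m) F).det = 1 := by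
    have h0 : (replicateRow (Fin 1) v * replicateCol (Fin 1) w : Matrix (Fin 1) (Fin 1) F) 0 0 = v ⬝ᵥ w := by
      simp [Matrix.mul_apply, dotProduct]
    rw [det_one_add_mul_comm, det_fin_one, Matrix.add_apply, h0, hvw, add_zero, Matrix.one_apply_eq]
  refine ⟨⟨_, hdet⟩, ?_⟩
  change (1 + replicateCol (Fin 1) w * replicateRow (Fin 1) v : Matrix (Fin m) (Fin m) F) *ᵥ a = c
  have h1 : (replicateCol (Fin 1) w * replicateRow (Fin 1) v : Matrix (Fin m) (Fin m) F) *ᵥ a = a i • w := by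
    ext k
    simp [v, mulVec, dotProduct, Matrix.mul_apply, Pi.single_apply, mul_comm]
  rw [add_mulVec, one_mulVec, h1]
  ext k
  simp only [Pi.add_apply, Pi.smul_apply, smul_eq_mul, w]
  field_simp
  ring

lemma exists_SL_vec {m : ℕ} (hm : 2 ≤ m) {a c : Fin m → F} (ha : a ≠ 0) (hc : c ≠ 0) :
    ∃ g : Matrix.SpecialLinearGroup (Fin m) F, g.1 *ᵥ a = c := by
  classical
  have htrans : ∀ {x y z : Fin m → F}, (∃ g : Matrix.SpecialLinearGroup (Fin m) F, g.1 *ᵥ x = y) →
      (∃ g : Matrix.SpecialLinearGroup (Fin m) F, g.1 *ᵥ y = z) →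
      ∃ g : Matrix.SpecialLinearGroup (Fin m) F, g.1 *ᵥ x = z := by
    rintro x y z ⟨g, rfl⟩ ⟨g', rfl⟩
    exact ⟨g' * g, by
      change (g'.1 * g.1) *ᵥ x = _
      rw [mulVec_mulVec]⟩
  obtain ⟨i, hi⟩ : ∃ i, a i ≠ 0 := by
    by_contra hcon
    push Not at hcon
    exact ha (funext hcon)
  obtain ⟨j, hj⟩ : ∃ j, c j ≠ 0 := by
    by_contra hcon
    push Not at hcon
    exact hc (funext hcon)
  by_cases hij : i = j
  · subst hij
    obtain ⟨k, hk⟩ : ∃ k : Fin m, k ≠ i := by
      by_contra hcon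
      push Not at hcon
      have h0 : (⟨0, by omega⟩ : Fin m) = ⟨1, by omega⟩ := (hcon _).trans (hcon _).symm
      simp at h0
    let f : Fin m → F := Function.update (Function.update 0 i (a i)) k 1
    let f' : Fin m → F := Function.update (Function.update 0 i (c i)) k 1
    have hfi : f i = a i := by simp [f, hk.symm]
    have hfk : f k = 1 := by simp [f]
    have hfi' : f' i = c i := by simp [f', hk.symm]
    have hfk' : f' k = 1 := by simp [f']
    exact htrans (exists_SL_step hi hfi.symm) (htrans (exists_SL_step (i := k) (by rw [hfk]; exact one_ne_zero)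
      (hfk.trans hfk'.symm)) (exists_SL_step (i := i) (by rw [hfi']; exact hj) hfi'))
  · let f : Fin m → F := Function.update (Function.update 0 i (a i)) j (c j)
    have hfi : f i = a i := by simp [f, hij]
    have hfj : f j = c j := by simp [f]
    exact htrans (exists_SL_step hi hfi.symm) (exists_SL_step (i := j) (by rw [hfj]; exact hj) hfj)

theorem result {F : Type*} [Field F] [Fintype F] {q : ℕ} (hq : Fintype.card F = q) (n : ℕ) (hn : 3 ≤ n)
    {K : Type*} [Field K] (hK : ringChar K ≠ ringChar F) {d : ℕ}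
    (ρ : Matrix.SpecialLinearGroup (Fin n) F →* GL (Fin d) K) (hker : ρ.ker ≤ Subgroup.center (Matrix.SpecialLinearGroup (Fin n) F)) :
    q ^ (n - 1) - 1 ≤ d := by
  classical
  subst hq
  obtain ⟨L, _, _, ψ, hψ⟩ := exists_prim_ext F K hK
  have hm : 2 ≤ n - 1 := by omega
  set m := n - 1 with hmdef
  let e : Fin m ⊕ Fin 1 ≃ Fin n := finSumFinEquiv.trans (finCongr (by omega))
  let Φ : Matrix.SpecialLinearGroup (Fin m ⊕ Fin 1) F →* Matrix.SpecialLinearGroup (Fin n) F := reindexSLx e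
  let M : Matrix.SpecialLinearGroup (Fin m ⊕ Fin 1) F →* Matrix (Fin d) (Fin d) L := extM (ρ.comp Φ)
  have hc : ((Fintype.card (Fin m → F) : ℕ) : L) ≠ 0 := natCast_card_fun_ne (K := K) hK _
  -- nontriviality
  let y₀ : Fin m → F := Pi.single ⟨0, by omega⟩ 1
  have hy₀ : M (shear y₀) ≠ 1 := by
    apply extM_ne_one
    intro h
    have h1 : Φ (shear y₀) ∈ Subgroup.center _ := hker h
    rw [Matrix.SpecialLinearGroup.mem_center_iff] at h1
    obtain ⟨r, -, hr⟩ := h1
    have h2 := congrFun (congrFun hr (e (Sum.inl ⟨0, by omega⟩))) (e (Sum.inr 0))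
    have h3 : e (Sum.inl ⟨0, by omega⟩) ≠ e (Sum.inr 0) := by
      intro h4
      simpa using e.injective h4
    rw [Matrix.scalar_apply, Matrix.diagonal_apply_ne _ h3] at h2
    have h4 : (Φ (shear y₀)).1 (e (Sum.inl ⟨0, by omega⟩)) (e (Sum.inr 0)) = 1 := by
      change (fromBlocks 1 (replicateCol (Fin 1) y₀) 0 1).submatrix e.symm e.symm _ _ = 1
      simp [y₀]
    rw [h4] at h2
    exact zero_ne_one h2
  obtain ⟨a, ha, hay⟩ := exists_dotE_ne hψ hc (M := M) (u := shear) shear_add hy₀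
  have ha0 : a ≠ 0 := by
    rintro rfl
    apply hay
    simp
  -- all nonzero vectors lie in the support
  have hall : ∀ c : Fin m → F, c ≠ 0 → dotE ψ M shear c ≠ 0 := by
    intro c hc0
    obtain ⟨g, hg⟩ := exists_SL_vec hm ha0 hc0
    let h : Matrix.SpecialLinearGroup (Fin m) F := ⟨g.1ᵀ, by rw [det_transpose]; exact g.2⟩
    have hτ : ∀ a x : Fin m → F, (g.1 *ᵥ a) ⬝ᵥ x = a ⬝ᵥ (mulVecEquiv h x) := by
      intro a x
      change (g.1 *ᵥ a) ⬝ᵥ x = a ⬝ᵥ (g.1ᵀ *ᵥ x)
      rw [dotProduct_mulVec, vecMul_transpose]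
    have := dotE_ne_of_transport (ψ := ψ) (M := M) (u := shear) (mulVecEquiv h) (blockD h)
      (fun x => blockD_conj h x) (τ := fun a => g.1 *ᵥ a) hτ ha
    rwa [hg] at this
  have hle := card_dotE_le hψ hc (M := M) (u := shear) shear_add
  have hcard : Fintype.card F ^ m - 1 ≤ (Finset.univ.filter (fun a : Fin m → F => dotE ψ M shear a ≠ 0)).card := by
    have hsub : (Finset.univ.erase (0 : Fin m → F)) ⊆ Finset.univ.filter (fun a : Fin m → F => dotE ψ M shear a ≠ 0) := by
      intro c hc0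
      simp only [Finset.mem_erase, Finset.mem_univ, and_true] at hc0
      simp [hall c hc0]
    have := Finset.card_le_card hsub
    rwa [Finset.card_erase_of_mem (Finset.mem_univ _), Finset.card_univ, Fintype.card_fun, Fintype.card_fin] at this
  exact hcard.trans hle

end Cfsg.Agent.S2392
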