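import Mathlib
import Cfsg.Statements.S2393
import Cfsg.Agent.Lib.H10.CharBound

set_option autoImplicit false

open Cfsg

namespace Cfsg.Agent.S2393

open Matrix H10

variable {F : Type*} [Field F] {n : ℕ}

/-- Symmetric matrices supported on the first row and column. -/
def sS (i₀ : Fin n) (b : Fin n → F) : Matrix (Fin n) (Fin n) F :=
  Matrix.of fun i j => if i = i₀ then b j else if j = i₀ then b i else 0

lemma sS_apply (i₀ : Fin n) (b : Fin n → F) (i j : Fin n) :
    sS i₀ b i j = if i = i₀ then b j else if j = i₀ then b i else 0 := rfl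

lemma sS_transpose (i₀ : Fin n) (b : Fin n → F) : (sS i₀ b)ᵀ = sS i₀ b := by
  ext i j
  rw [transpose_apply, sS_apply, sS_apply]
  by_cases hi : i = i₀ <;> by_cases hj : j = i₀ <;> simp [hi, hj]

lemma sS_add (i₀ : Fin n) (b c : Fin n → F) : sS i₀ (b + c) = sS i₀ b + sS i₀ c := by
  ext i j
  rw [Matrix.add_apply, sS_apply, sS_apply, sS_apply]
  by_cases hi : i = i₀ <;> by_cases hj : j = i₀ <;> simp [hi, hj]

/-- The unipotent element attached to `b`. -/
def uS (i₀ : Fin n) (b : Fin n → F) : Matrix.symplecticGroup (Fin n) F :=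
  ⟨fromBlocks 1 (sS i₀ b) 0 1, by
    rw [SymplecticGroup.fromBlocks_mem_iff]
    refine ⟨by simp, ?_, by simp⟩
    rw [sS_transpose]
    simp⟩

lemma uS_add (i₀ : Fin n) (b c : Fin n → F) : uS i₀ (b + c) = uS i₀ b * uS i₀ c := by
  apply Subtype.ext
  change fromBlocks 1 (sS i₀ (b + c)) 0 1 = fromBlocks 1 (sS i₀ b) 0 1 * fromBlocks 1 (sS i₀ c) 0 1
  rw [fromBlocks_multiply, sS_add]
  simp [add_comm]

/-- Levi elements. -/
def mS (g g' : Matrix (Fin n) (Fin n) F) (h : gᵀ * g' = 1) : Matrix.symplecticGroup (Fin n) F :=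
  ⟨fromBlocks g 0 0 g', by
    rw [SymplecticGroup.fromBlocks_mem_iff]
    refine ⟨by simp, by simp, by simpa using h⟩⟩

lemma mS_conj (i₀ : Fin n) (g g' : Matrix (Fin n) (Fin n) F) (h : gᵀ * g' = 1) {b c : Fin n → F}
    (hbc : g * sS i₀ b = sS i₀ c * g') : mS g g' h * uS i₀ b * (mS g g' h)⁻¹ = uS i₀ c := by
  rw [mul_inv_eq_iff_eq_mul]
  apply Subtype.ext
  change fromBlocks g 0 0 g' * fromBlocks 1 (sS i₀ b) 0 1 = fromBlocks 1 (sS i₀ c) 0 1 * fromBlocks g 0 0 g'
  rw [fromBlocks_multiply, fromBlocks_multiply]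
  simp [hbc]

/-- Additive equivalences from injective additive maps. -/
noncomputable def addEquivOf [Finite F] (f : (Fin n → F) → (Fin n → F)) (hadd : ∀ x y, f (x + y) = f x + f y)
    (hinj : Function.Injective f) : (Fin n → F) ≃+ (Fin n → F) :=
  AddEquiv.ofBijective (AddMonoidHom.mk' f hadd) (Finite.injective_iff_bijective.1 hinj)

theorem result {F : Type*} [Field F] [Fintype F] {q : ℕ} (hq : Fintype.card F = q) (hodd : Odd q) (n : ℕ) (hn : 2 ≤ n)
    {K : Type*} [Field K] (hK : ringChar K ≠ ringChar F) {d : ℕ}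
    (ρ : ↥(Matrix.symplecticGroup (Fin n) F) →* GL (Fin d) K) (hker : ρ.ker ≤ Subgroup.center ↥(Matrix.symplecticGroup (Fin n) F)) :
    q ^ (n - 1) * (q - 1) / 2 ≤ d := by
  classical
  subst hq
  obtain ⟨L, _, _, ψ, hψ⟩ := exists_prim_ext F K hK
  have h2 : (2 : F) ≠ 0 := by
    apply Ring.two_ne_zero
    intro h
    have := FiniteField.even_card_iff_char_two.1 h
    rcases hodd with ⟨k, hk⟩
    omega
  let i₀ : Fin n := ⟨0, by omega⟩
  let M : Matrix.symplecticGroup (Fin n) F →* Matrix (Fin d) (Fin d) L := extM ρ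
  have hc : ((Fintype.card (Fin n → F) : ℕ) : L) ≠ 0 := natCast_card_fun_ne (K := K) hK _
  let y₀ : Fin n → F := Pi.single i₀ 1
  have hy₀ : M (uS i₀ y₀) ≠ 1 := by
    apply extM_ne_one
    intro h
    have h1 : uS i₀ y₀ ∈ Subgroup.center _ := hker h
    rw [Subgroup.mem_center_iff] at h1
    have h3 := congrArg Subtype.val (h1 (SymplecticGroup.symJ (Fin n) F))
    have h4 : J (Fin n) F * fromBlocks 1 (sS i₀ y₀) 0 1 = fromBlocks 1 (sS i₀ y₀) 0 1 * J (Fin n) F := h3
    rw [J, fromBlocks_multiply, fromBlocks_multiply] at h4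
    simp only [Matrix.zero_mul, Matrix.one_mul, Matrix.mul_zero, zero_add, add_zero, Matrix.mul_one,
      Matrix.mul_neg] at h4
    have h5 := congrFun (congrFun h4 (Sum.inl i₀)) (Sum.inl i₀)
    simp [sS_apply, y₀] at h5
  obtain ⟨a, ha, hay⟩ := exists_dotE_ne hψ hc (M := M) (u := uS i₀) (uS_add i₀) hy₀
  have ha0 : a i₀ ≠ 0 := by
    intro h
    apply hay
    have : a ⬝ᵥ y₀ = 0 := by simp [y₀, dotProduct_single, h]
    rw [this, AddChar.map_zero_eq_one]
  -- scaling
  have hscale : ∀ (t : F) (ht : t ≠ 0) (a : Fin n → F), dotE ψ M (uS i₀) a ≠ 0 →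
      dotE ψ M (uS i₀) (fun j => (if j = i₀ then t ^ 2 else t) * a j) ≠ 0 := by
    intro t ht a ha
    let d : Fin n → F := fun i => if i = i₀ then t else 1
    let d' : Fin n → F := fun i => if i = i₀ then t⁻¹ else 1
    have hd : (diagonal d)ᵀ * diagonal d' = 1 := by
      rw [diagonal_transpose, diagonal_mul_diagonal]
      ext i j
      by_cases hij : i = j
      · subst hij
        by_cases hi : i = i₀ <;> simp [d, d', hi, ht]
      · simp [hij]
    let f : (Fin n → F) → (Fin n → F) := fun b j => (if j = i₀ then t ^ 2 else t) * b j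
    have hf : Function.Injective f := by
      intro b c hbc
      ext j
      have := congrFun hbc j
      by_cases hj : j = i₀
      · simp only [f, hj, if_true] at this ⊢
        exact mul_left_cancel₀ (pow_ne_zero 2 ht) this
      · simp only [f, hj, if_false] at this
        exact mul_left_cancel₀ ht this
    refine dotE_ne_of_transport (ψ := ψ) (M := M) (u := uS i₀) (addEquivOf f (fun x y => by
        ext j
        simp only [f, Pi.add_apply, mul_add]) hf) (mS (diagonal d) (diagonal d') hd)
      (fun x => mS_conj i₀ _ _ hd ?_) (τ := f) ?_ ha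
    · ext i j
      change (diagonal d * sS i₀ x) i j = (sS i₀ (f x) * diagonal d') i j
      rw [diagonal_mul, mul_diagonal, sS_apply, sS_apply]
      by_cases hi : i = i₀ <;> by_cases hj : j = i₀ <;> simp [d, d', f, hi, hj] <;> field_simp
    · intro a x
      change f a ⬝ᵥ x = a ⬝ᵥ f x
      simp only [dotProduct, f]
      exact Finset.sum_congr rfl (fun j _ => by ring)
  -- shifting
  have hshift : ∀ (a c : Fin n → F), dotE ψ M (uS i₀) a ≠ 0 → a i₀ ≠ 0 → c i₀ = a i₀ → dotE ψ M (uS i₀) c ≠ 0 := by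
    intro a c ha ha0 hca
    let y : Fin n → F := fun j => (2 * a i₀)⁻¹ * (c j - a j)
    have hy0 : y i₀ = 0 := by simp [y, hca]
    have h2a : (2 * a i₀) ≠ 0 := mul_ne_zero h2 ha0
    have hτ : a + (2 * a i₀) • y = c := by
      ext j
      simp only [Pi.add_apply, Pi.smul_apply, smul_eq_mul, y]
      field_simp
      ring
    let e₀ : Fin n → F := Pi.single i₀ 1
    let g : Matrix (Fin n) (Fin n) F := 1 + replicateCol (Fin 1) e₀ * replicateRow (Fin 1) y
    let g' : Matrix (Fin n) (Fin n) F := 1 - replicateCol (Fin 1) y * replicateRow (Fin 1) e₀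
    have hrc : replicateRow (Fin 1) e₀ * replicateCol (Fin 1) y = 0 := by
      ext i j
      simp [Matrix.mul_apply, e₀, Pi.single_apply, hy0]
    have hgg : gᵀ * g' = 1 := by
      have h1 : gᵀ = 1 + replicateCol (Fin 1) y * replicateRow (Fin 1) e₀ := by
        simp only [g, transpose_add, transpose_one, transpose_mul, transpose_replicateRow, transpose_replicateCol]
      rw [h1]
      simp only [g']
      have h3 : replicateCol (Fin 1) y * replicateRow (Fin 1) e₀ * (replicateCol (Fin 1) y * replicateRow (Fin 1) e₀) = 0 := by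
        rw [Matrix.mul_assoc, ← Matrix.mul_assoc (replicateRow (Fin 1) e₀), hrc, Matrix.zero_mul, Matrix.mul_zero]
      rw [Matrix.add_mul, Matrix.mul_sub, Matrix.mul_sub, h3]
      simp
    let f : (Fin n → F) → (Fin n → F) := fun b => b + (2 * (y ⬝ᵥ b)) • e₀
    have hf : Function.Injective f := by
      intro b c hbc
      have hj : ∀ j, j ≠ i₀ → b j = c j := by
        intro j hj
        have := congrFun hbc j
        simpa [f, e₀, Pi.single_apply, hj] using this
      have hyy : y ⬝ᵥ b = y ⬝ᵥ c := by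
        simp only [dotProduct]
        refine Finset.sum_congr rfl (fun k _ => ?_)
        by_cases hk : k = i₀
        · simp [hk, hy0]
        · rw [hj k hk]
      ext j
      by_cases hj' : j = i₀
      · have := congrFun hbc j
        simp only [f, Pi.add_apply, Pi.smul_apply, smul_eq_mul, hyy] at this
        exact add_right_cancel this
      · exact hj j hj'
    have hsum1 : ∀ (b : Fin n → F) (j : Fin n), ∑ k, y k * sS i₀ b k j = if j = i₀ then y ⬝ᵥ b else 0 := by
      intro b j
      by_cases hj : j = i₀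
      · rw [if_pos hj, dotProduct]
        refine Finset.sum_congr rfl (fun k _ => ?_)
        rw [sS_apply, hj]
        by_cases hk : k = i₀ <;> simp [hk]
      · rw [if_neg hj]
        refine Finset.sum_eq_zero (fun k _ => ?_)
        rw [sS_apply]
        by_cases hk : k = i₀
        · simp [hk, hy0]
        · simp [hk, hj]
    have hsum2 : ∀ (c : Fin n → F) (i : Fin n), ∑ k, sS i₀ c i k * y k = if i = i₀ then c ⬝ᵥ y else 0 := by
      intro c i
      by_cases hi : i = i₀
      · rw [if_pos hi, dotProduct]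
        refine Finset.sum_congr rfl (fun k _ => ?_)
        rw [sS_apply, if_pos hi]
      · rw [if_neg hi]
        refine Finset.sum_eq_zero (fun k _ => ?_)
        rw [sS_apply, if_neg hi]
        by_cases hk : k = i₀
        · simp [hk, hy0]
        · simp [hk]
    have hconj : ∀ x, g * sS i₀ x = sS i₀ (f x) * g' := by
      intro x
      have hdot : f x ⬝ᵥ y = y ⬝ᵥ x := by
        simp only [f, add_dotProduct, smul_dotProduct, e₀, single_dotProduct, hy0]
        simp [dotProduct_comm]
      ext i j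
      have e1 : (g * sS i₀ x) i j = sS i₀ x i j + e₀ i * ∑ k, y k * sS i₀ x k j := by
        simp only [g, Matrix.add_mul, Matrix.one_mul, Matrix.add_apply]
        congr 1
        rw [Matrix.mul_assoc, Matrix.mul_apply, Fin.sum_univ_one]
        simp [Matrix.mul_apply]
      have e2 : (sS i₀ (f x) * g') i j = sS i₀ (f x) i j - (∑ k, sS i₀ (f x) i k * y k) * e₀ j := by
        simp only [g', Matrix.mul_sub, Matrix.mul_one, Matrix.sub_apply]
        congr 1
        rw [← Matrix.mul_assoc, Matrix.mul_apply, Fin.sum_univ_one]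
        simp [Matrix.mul_apply]
      rw [e1, e2, hsum1, hsum2, hdot, sS_apply, sS_apply]
      by_cases hi : i = i₀ <;> by_cases hj : j = i₀ <;> simp [hi, hj, f, e₀] <;> ring
    have hthis : dotE ψ M (uS i₀) (a + (2 * a i₀) • y) ≠ 0 := dotE_ne_of_transport (ψ := ψ) (M := M) (u := uS i₀) (addEquivOf f (fun x₁ x₂ => by
        simp only [f, dotProduct_add, mul_add, add_smul]
        abel) hf) (mS g g' hgg)
      (fun x => mS_conj i₀ _ _ hgg (hconj x)) (τ := fun a => a + (2 * a i₀) • y) (fun a x => by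
        change (a + (2 * a i₀) • y) ⬝ᵥ x = a ⬝ᵥ f x
        simp only [f, add_dotProduct, smul_dotProduct, dotProduct_add, dotProduct_smul, e₀, dotProduct_single, smul_eq_mul]
        ring) ha
    rwa [hτ] at hthis
  -- counting
  let Q : Finset F := (Finset.univ.erase 0).image (fun t => t ^ 2 * a i₀)
  have hmem : ∀ c : Fin n → F, c i₀ ∈ Q → dotE ψ M (uS i₀) c ≠ 0 := by
    intro c hc'
    obtain ⟨t, ht, hte⟩ := Finset.mem_image.1 hc'
    have ht0 : t ≠ 0 := (Finset.mem_erase.1 ht).1
    refine hshift _ c (hscale t ht0 a ha) ?_ ?_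
    · simp [ht0, ha0]
    · simp [hte.symm]
  have hQ : Fintype.card F - 1 ≤ 2 * Q.card := by
    have h1 := Finset.card_le_mul_card_image (s := Finset.univ.erase (0 : F)) (f := fun t => t ^ 2 * a i₀) 2 (by
      intro v hv
      obtain ⟨t, ht, hte⟩ := Finset.mem_image.1 hv
      have hsub : (Finset.univ.erase (0 : F)).filter (fun x => x ^ 2 * a i₀ = v) ⊆ {t, -t} := by
        intro x hx
        have hx2 := (Finset.mem_filter.1 hx).2
        rw [← hte] at hx2
        have h3 : x ^ 2 = t ^ 2 := mul_right_cancel₀ ha0 hx2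
        rcases sq_eq_sq_iff_eq_or_eq_neg.1 h3 with h4 | h4 <;> simp [h4]
      exact (Finset.card_le_card hsub).trans Finset.card_le_two)
    rwa [Finset.card_erase_of_mem (Finset.mem_univ _), Finset.card_univ] at h1
  have hle := card_dotE_le hψ hc (M := M) (u := uS i₀) (uS_add i₀)
  have hcard : Q.card * Fintype.card F ^ (n - 1) ≤
      (Finset.univ.filter (fun a : Fin n → F => dotE ψ M (uS i₀) a ≠ 0)).card := by
    have h1 : (Q ×ˢ (Finset.univ : Finset ({j // j ≠ i₀} → F))).card ≤
        (Finset.univ.filter (fun a : Fin n → F => dotE ψ M (uS i₀) a ≠ 0)).card := by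
      refine Finset.card_le_card_of_injOn (fun p => (Equiv.funSplitAt i₀ F).symm p) ?_ ?_
      · rintro ⟨v, r⟩ hp
        have hv : v ∈ Q := (Finset.mem_product.1 hp).1
        simp only [Finset.coe_filter, Finset.mem_univ, true_and, Set.mem_ofPred_eq]
        apply hmem
        simpa [Equiv.funSplitAt, Equiv.piSplitAt] using hv
      · intro p _ p' _ h
        exact (Equiv.funSplitAt i₀ F).symm.injective h
    have hc2 : Fintype.card {j // j ≠ i₀} = n - 1 := by
      rw [Fintype.card_subtype_compl, Fintype.card_subtype_eq, Fintype.card_fin]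
    rw [Finset.card_product, Finset.card_univ, Fintype.card_fun, hc2] at h1
    exact h1
  have hfin : Fintype.card F ^ (n - 1) * (Fintype.card F - 1) ≤ 2 * d := by
    calc Fintype.card F ^ (n - 1) * (Fintype.card F - 1)
        ≤ Fintype.card F ^ (n - 1) * (2 * Q.card) := Nat.mul_le_mul_left _ hQ
      _ = 2 * (Q.card * Fintype.card F ^ (n - 1)) := by ring
      _ ≤ 2 * d := Nat.mul_le_mul_left _ (hcard.trans hle)
  exact Nat.div_le_of_le_mul hfin

end Cfsg.Agent.S2393
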