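import Cfsg.Statements.S2395
import Cfsg.Agent.Lib.H29.SteinbergPerfect
-- import your own Cfsg.Agent.* helpers here

set_option autoImplicit false
open Cfsg

namespace Cfsg.Agent.S2395

open Cfsg.Lie


/-- The group presented by Steinberg's generators x̄_r(t) subject only to (R1) (additivity) and (R2) (the commutator formula) is perfect, for each of the types G₂, B₂, D₄, F₄, E₆, E₇, E₈ over any field (for types B₂ and G₂ the field must have more than two elements — the cases where the Chevalley group is not simple are set aside). -/
theorem result {K : Type*} [Field K] (D : Cfsg.Lie.ChevalleyDatum) (hD : D ∈ [Cfsg.Lie.chevG2, Cfsg.Lie.chevB2, Cfsg.Lie.chevD4, Cfsg.Lie.chevF4, Cfsg.Lie.chevE6, Cfsg.Lie.chevE7, Cfsg.Lie.chevE8]) (hK : D ∈ [Cfsg.Lie.chevB2, Cfsg.Lie.chevG2] → ∃ x : K, x ≠ 0 ∧ x ≠ 1) :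
    commutator (D.SteinbergCover K) = ⊤ := by
  classical
  simp only [List.mem_cons, List.not_mem_nil, or_false] at hD
  rcases hD with rfl | rfl | rfl | rfl | rfl | rfl | rfl
  · -- G₂
    obtain ⟨l, hl0, hl1⟩ := hK (by simp)
    have hlong : ∀ r, r ∈ [0, 1, 5, 6, 10, 11] → ∀ v : K, chevG2.scGen K r v ∈ commutator (chevG2.SteinbergCover K) := by
      intro r hr v
      have h1 : H29.StP.chkAll chevG2 [(1,5), (0,6), (0,0), (0,0), (0,0), (0,10), (1,11), (0,0), (0,0), (0,0), (5,11), (6,10)] = true ∨ True := Or.inr trivial
      simp only [List.mem_cons, List.not_mem_nil, or_false] at hr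
      rcases hr with rfl | rfl | rfl | rfl | rfl | rfl
      · exact H29.StP.mem_of_single chevG2 1 5 0 1 (by decide) (by decide) (by decide) (by decide +kernel) (by decide +kernel) (by norm_num) v
      · exact H29.StP.mem_of_single chevG2 0 6 1 1 (by decide) (by decide) (by decide) (by decide +kernel) (by decide +kernel) (by norm_num) v
      · exact H29.StP.mem_of_single chevG2 0 10 5 (-1) (by decide) (by decide) (by decide) (by decide +kernel) (by decide +kernel) (by norm_num) v
      · exact H29.StP.mem_of_single chevG2 1 11 6 (-1) (by decide) (by decide) (by decide) (by decide +kernel) (by decide +kernel) (by norm_num) v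
      · exact H29.StP.mem_of_single chevG2 5 11 10 1 (by decide) (by decide) (by decide) (by decide +kernel) (by decide +kernel) (by norm_num) v
      · exact H29.StP.mem_of_single chevG2 6 10 11 1 (by decide) (by decide) (by decide) (by decide +kernel) (by decide +kernel) (by norm_num) v
    apply H29.StP.top_of_gens
    intro r hr v
    have hr' : r < 12 := hr
    have t1 := fun v => H29.StP.mem_of_four_terms chevG2 0 8 2 4 6 1 1 1 (-1) (-2) (K := K) (by decide) (by decide) (by decide) (by decide) (by decide +kernel) (by decide +kernel) (by norm_num) (by norm_num) l hl0 hl1 (hlong 6 (by simp)) (hlong 1 (by simp)) v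
    have t2 := fun v => H29.StP.mem_of_four_terms chevG2 0 9 3 7 10 5 (-1) (-1) (-1) 2 (K := K) (by decide) (by decide) (by decide) (by decide) (by decide +kernel) (by decide +kernel) (by norm_num) (by norm_num) l hl0 hl1 (hlong 10 (by simp)) (hlong 5 (by simp)) v
    have t3 := fun v => H29.StP.mem_of_four_terms chevG2 1 9 4 8 11 6 (-1) 1 1 (-2) (K := K) (by decide) (by decide) (by decide) (by decide) (by decide +kernel) (by decide +kernel) (by norm_num) (by norm_num) l hl0 hl1 (hlong 11 (by simp)) (hlong 6 (by simp)) v
    have t4 := fun v => H29.StP.mem_of_four_terms chevG2 5 8 7 9 11 10 1 (-1) 1 2 (K := K) (by decide) (by decide) (by decide) (by decide) (by decide +kernel) (by decide +kernel) (by norm_num) (by norm_num) l hl0 hl1 (hlong 11 (by simp)) (hlong 10 (by simp)) v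
    interval_cases r
    · exact hlong 0 (by simp) v
    · exact hlong 1 (by simp) v
    · exact (t1 v).2
    · exact (t2 v).2
    · exact (t1 v).1
    · exact hlong 5 (by simp) v
    · exact hlong 6 (by simp) v
    · exact (t2 v).1
    · exact (t3 v).1
    · exact (t4 v).1
    · exact hlong 10 (by simp) v
    · exact hlong 11 (by simp) v
  · -- B₂
    obtain ⟨l, hl0, hl1⟩ := hK (by simp)
    apply H29.StP.top_of_gens
    intro r hr v
    have hr' : r < 8 := hr
    have t1 := fun v => H29.StP.mem_of_two_terms chevB2 0 5 1 3 1 (-1) (K := K) (by decide) (by decide) (by decide) (by decide) (by decide +kernel) (by decide +kernel) (by norm_num) (by norm_num) l hl0 hl1 v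
    have t2 := fun v => H29.StP.mem_of_two_terms chevB2 0 6 2 4 (-1) 1 (K := K) (by decide) (by decide) (by decide) (by decide) (by decide +kernel) (by decide +kernel) (by norm_num) (by norm_num) l hl0 hl1 v
    have t3 := fun v => H29.StP.mem_of_two_terms chevB2 3 2 1 0 (-1) (-1) (K := K) (by decide) (by decide) (by decide) (by decide) (by decide +kernel) (by decide +kernel) (by norm_num) (by norm_num) l hl0 hl1 v
    have t4 := fun v => H29.StP.mem_of_two_terms chevB2 3 6 5 7 1 1 (K := K) (by decide) (by decide) (by decide) (by decide) (by decide +kernel) (by decide +kernel) (by norm_num) (by norm_num) l hl0 hl1 v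
    have t5 := fun v => H29.StP.mem_of_two_terms chevB2 4 5 6 7 1 (-1) (K := K) (by decide) (by decide) (by decide) (by decide) (by decide +kernel) (by decide +kernel) (by norm_num) (by norm_num) l hl0 hl1 v
    interval_cases r
    · exact (t3 v).1
    · exact (t1 v).2
    · exact (t2 v).2
    · exact (t1 v).1
    · exact (t2 v).1
    · exact (t4 v).2
    · exact (t5 v).2
    · exact (t4 v).1
  · exact H29.StP.perfect_of_chkAll chevD4 [(1,9), (0,14), (0,15), (0,16), (0,17), (1,17), (0,19), (0,20), (0,21), (0,22), (1,20), (1,21), (2,22), (3,22), (1,23), (2,23), (3,23), (4,23), (6,22), (6,23), (7,23), (8,23), (9,23), (14,22)] (by decide +kernel)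
  · exact H29.StP.perfect_of_chkAll chevF4 [(1,23), (0,24), (0,26), (7,14), (0,31), (0,32), (1,32), (3,33), (3,34), (3,35), (3,36), (3,37), (3,38), (3,39), (3,40), (0,42), (0,43), (1,43), (7,37), (7,38), (7,39), (0,45), (1,45), (0,46), (1,47), (2,46), (2,47), (8,40), (9,40), (10,40), (4,46), (4,47), (5,47), (7,44), (8,44), (9,44), (10,44), (11,44), (12,44), (13,44), (14,44), (15,46), (15,47), (16,47), (33,40), (21,47), (23,47), (24,46)] (by decide +kernel)
  · exact H29.StP.perfect_of_chkAll chevE6 [(1,25), (0,46), (0,47), (0,48), (0,49), (0,50), (0,51), (0,52), (0,53), (0,54), (0,55), (1,53), (1,54), (1,55), (2,55), (5,55), (0,61), (0,62), (0,63), (0,64), (0,65), (0,66), (0,67), (0,68), (0,69), (0,70), (1,64), (1,65), (1,66), (2,66), (1,67), (1,68), (1,69), (2,67), (2,68), (3,67), (4,68), (3,69), (4,69), (2,70), (3,70), (4,70), (5,69), (5,70), (6,70), (7,70), (1,71), (2,71), (3,71), (4,71), (5,71), (6,71), (7,71), (8,71), (9,71), (10,71), (16,66), (16,69), (16,70), (17,70), (18,70), (16,71), (17,71), (18,71), (19,71), (20,71), (21,71), (22,71), (23,71), (24,71), (25,71),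 (46,70)] (by decide +kernel)
  · exact H29.StP.perfect_of_chkAll chevE7 [(1,32), (0,93), (0,94), (0,95), (0,96), (0,97), (0,98), (0,99), (0,100), (0,101), (0,102), (0,103), (0,104), (0,105), (0,106), (0,107), (0,108), (0,109), (0,110), (0,111), (0,112), (0,113), (0,114), (0,115), (0,116), (0,117), (0,118), (0,119), (0,120), (0,121), (0,122), (0,123), (0,124), (1,109), (1,110), (1,111), (1,112), (1,113), (1,114), (1,115), (1,116), (1,117), (1,118), (2,115), (2,116), (2,117), (2,118), (3,118), (1,119), (1,120), (1,121), (1,122), (1,123), (2,119), (2,120), (2,121), (2,122), (3,119), (3,120), (3,121), (4,119), (4,120), (5,119), (6,120), (5,121), (6,121), (4,122), (5,122), (6,122), (3,123), (4,123), (5,123), (6,123), (2,124), (3,124), (4,124), (5,124), (6,124), (7,122), (7,123), (8,123), (9,123), (10,123), (7,124), (8,124), (9,124), (10,124), (11,124), (12,124), (13,124), (14,124), (15,124), (16,124), (1,125), (2,125), (3,125), (4,125), (5,125), (6,125), (7,125), (8,125), (9,125), (10,125), (11,125), (12,125), (13,125), (14,125), (15,125), (16,125), (17,125), (18,125), (19,125),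 (20,125), (21,125), (22,125), (23,125), (24,125), (25,125), (26,125), (27,125), (28,125), (29,125), (30,125), (31,125), (32,125), (93,124)] (by decide +kernel)
  · exact H29.StP.perfect_of_chkAll chevE8 [(1,119), (0,120), (0,122), (0,125), (0,129), (0,134), (0,140), (0,146), (0,151), (0,155), (0,158), (0,160), (0,161), (1,161), (0,168), (0,173), (0,177), (0,180), (0,182), (0,183), (1,183), (0,187), (0,190), (0,192), (0,193), (1,193), (0,196), (0,198), (0,199), (1,199), (0,201), (0,202), (1,202), (0,203), (1,203), (2,203), (0,206), (0,208), (0,209), (1,209), (0,211), (0,212), (1,212), (0,213), (1,213), (2,213), (0,215), (0,216), (1,216), (0,217), (1,217), (2,217), (0,218), (1,218), (2,218), (3,218), (0,220), (0,221), (1,221), (0,222), (1,222), (2,222), (0,223), (1,223), (2,223), (3,223), (0,224), (1,224), (2,224), (3,224), (4,224), (0,225), (1,225), (2,225), (3,225), (4,225), (5,225), (6,225), (0,227), (0,228), (1,228), (0,229), (1,229), (2,229), (0,230), (1,230), (2,230), (3,230), (0,231), (1,231), (2,231), (3,231), (4,231), (0,232), (1,232), (2,232), (3,232), (4,232),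 (5,232), (0,233), (1,233), (2,233), (3,233), (4,233), (5,233), (0,234), (1,234), (2,234), (3,234), (4,234), (0,235), (1,235), (2,235), (3,235), (0,236), (1,236), (2,236), (0,237), (1,237), (0,238), (1,239), (2,238), (2,239), (3,237), (3,238), (3,239), (4,236), (4,237), (4,238), (4,239), (5,235), (5,236), (5,237), (5,238), (5,239), (6,234), (6,235), (6,236), (6,237), (6,238), (6,239), (7,234), (7,235), (7,236), (7,237), (7,238), (7,239), (8,235), (8,236), (8,237), (8,238), (8,239), (9,236), (9,237), (9,238), (9,239), (10,237), (10,238), (10,239), (11,238), (11,239), (12,239), (14,233), (14,234), (14,235), (14,236), (14,237), (14,238), (14,239), (15,235), (15,236), (15,237), (15,238), (15,239), (16,236), (16,237), (16,238), (16,239), (17,237), (17,238), (17,239), (18,238), (18,239), (19,239), (21,236), (21,237), (21,238), (21,239), (22,237), (22,238), (22,239), (23,238), (23,239), (24,239), (26,237), (26,238), (26,239), (27,238), (27,239), (28,239), (30,238), (30,239), (31,239), (33,239), (36,237), (36,238), (36,239), (37,238), (37,239), (38,239), (40,238), (40,239),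 (41,239), (43,239), (46,238), (46,239), (47,239), (49,239), (52,239), (56,238), (56,239), (57,239), (59,239), (62,239), (66,239), (71,239), (78,238), (78,239), (79,239), (81,239), (84,239), (88,239), (93,239), (99,239), (105,239), (110,239), (114,239), (117,239), (119,239), (120,238)] (by decide +kernel)

end Cfsg.Agent.S2395
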