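import Mathlib
import Cfsg.Statements.S2409
import Cfsg.Agent.Lib.H10.ReeGen

set_option autoImplicit false

open Cfsg

namespace Cfsg.Agent.S2409

theorem result {K : Type*} [Field K] [Fintype K] {m : ℕ} (hm : 1 ≤ m) (hK : Fintype.card K = 3 ^ (2 * m + 1)) :
    ∃ a b : ↥(Cfsg.Lie.twistedG2 K (3 ^ m)), Subgroup.closure ({a, b} : Set ↥(Cfsg.Lie.twistedG2 K (3 ^ m))) = ⊤ := by
  have := H10.ree_charP hK
  exact H10.exists_two_generators hK hm

end Cfsg.Agent.S2409
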