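import Mathlib
import Cfsg.Statements.S2410
import Cfsg.Agent.Lib.H10.SzGen2

set_option autoImplicit false

open Cfsg

namespace Cfsg.Agent.S2410

theorem result {F : Type*} [Field F] [Fintype F] {m : ℕ} (hm : 1 ≤ m) (hF : Fintype.card F = 2 ^ (2 * m + 1)) :
    ∃ a b : ↥(Cfsg.Sz F m), Subgroup.closure ({a, b} : Set ↥(Cfsg.Sz F m)) = ⊤ := by
  haveI := H10.sz_charP hF
  exact H10.exists_two_gen hm hF

end Cfsg.Agent.S2410
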