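import Cfsg.Statements.S2423
import Cfsg.Agent.Lib.H10.StInner

set_option autoImplicit false
set_option linter.unusedSectionVars false
set_option linter.unusedVariables false
set_option linter.style.haveILetI false
open scoped MatrixGroups
open Cfsg

namespace Cfsg.Agent.S2423

variable {F : Type*} [Field F] {n : ℕ}

lemma lab_mono (μ : Fin n → ℕ) {i i' : Fin n} (h : i ≤ i') : compLabel μ i ≤ compLabel μ i' := by
  unfold compLabel
  apply Finset.card_le_card
  intro j hj
  simp only [Finset.mem_filter, Finset.mem_univ, true_and] at hj ⊢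
  exact le_trans hj (by exact_mod_cast h)

/-- permutation matrix -/
def pm (σ : Equiv.Perm (Fin n)) : Matrix (Fin n) (Fin n) F :=
  Matrix.of fun i j => if i = σ j then 1 else 0

lemma pm_mul (σ τ : Equiv.Perm (Fin n)) : (pm σ * pm τ : Matrix (Fin n) (Fin n) F) = pm (σ * τ) := by
  ext i j
  simp only [pm, Matrix.mul_apply, Matrix.of_apply, Equiv.Perm.coe_mul, Function.comp]
  rw [Finset.sum_eq_single (τ j)]
  · simp only [if_true, mul_one]
    rfl
  · intro b _ hb
    simp only [if_neg hb, mul_zero]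
  · intro h
    exact absurd (Finset.mem_univ _) h

lemma pm_one : pm (1 : Equiv.Perm (Fin n)) = (1 : Matrix (Fin n) (Fin n) F) := by
  ext i j
  simp only [pm, Matrix.of_apply, Equiv.Perm.coe_one, id, Matrix.one_apply]
  rfl

/-- permutation matrix as an invertible matrix -/
def pmGL (σ : Equiv.Perm (Fin n)) : GL (Fin n) F :=
  ⟨pm σ, pm σ⁻¹, by rw [pm_mul]; simp [pm_one], by rw [pm_mul]; simp [pm_one]⟩

lemma pm_mem (μ : Fin n → ℕ) {y : Equiv.Perm (Fin n)} (hy : y ∈ youngSubgroup μ) :
    (pmGL y : GL (Fin n) F) ∈ parabolicGL n F μ := by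
  show (pm y : Matrix (Fin n) (Fin n) F).BlockTriangular (compLabel μ)
  intro i j hij
  simp only [pm, Matrix.of_apply]
  rw [if_neg]
  rintro rfl
  have := hy j
  omega

lemma ut_le (μ : Fin n → ℕ) : upperTriangularGL n F ≤ parabolicGL n F μ := by
  intro g hg i j hij
  apply hg
  show j < i
  by_contra h
  have := lab_mono μ (not_lt.mp h)
  omega

lemma row_op (i : Fin n) (r : Fin n → F) : ∃ b ∈ upperTriangularGL n F, ∀ (g : Matrix (Fin n) (Fin n) F) (a c : Fin n),
    ((b : GL (Fin n) F).1 * g) a c = g a c + (if a < i then r a * g i c else 0) := by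
  set M : Matrix (Fin n) (Fin n) F := 1 + Matrix.of fun a d => if d = i ∧ a < i then r a else 0 with hM
  have hut : M.BlockTriangular id := by
    intro a d h
    have h1 : d < a := h
    have h2 : a ≠ d := (ne_of_lt h1).symm
    simp only [hM, Matrix.add_apply, Matrix.of_apply, Matrix.one_apply_ne h2, zero_add]
    rw [if_neg]
    rintro ⟨rfl, h3⟩
    exact lt_asymm h1 h3
  have hdet : M.det = 1 := by
    rw [Matrix.det_of_upperTriangular hut]
    apply Finset.prod_eq_one
    intro a _
    simp only [hM, Matrix.add_apply, Matrix.of_apply, Matrix.one_apply_eq]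
    rw [if_neg, add_zero]
    rintro ⟨rfl, h3⟩
    exact lt_irrefl _ h3
  refine ⟨Matrix.GeneralLinearGroup.mkOfDetNeZero M (by rw [hdet]; exact one_ne_zero), hut, ?_⟩
  intro g a c
  show (M * g) a c = _
  rw [hM, Matrix.add_mul, Matrix.one_mul, Matrix.add_apply, Matrix.mul_apply]
  congr 1
  rw [Finset.sum_eq_single i]
  · simp only [Matrix.of_apply]
    by_cases h : a < i <;> simp [h]
  · intro d _ hd
    simp [hd]
  · simp

lemma col_op (K : Fin n) (r : Fin n → F) : ∃ b ∈ upperTriangularGL n F, ∀ (g : Matrix (Fin n) (Fin n) F) (a c : Fin n),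
    (g * (b : GL (Fin n) F).1) a c = g a c + (if K < c then r c * g a K else 0) := by
  set M : Matrix (Fin n) (Fin n) F := 1 + Matrix.of fun d c => if d = K ∧ K < c then r c else 0 with hM
  have hut : M.BlockTriangular id := by
    intro a d h
    have h1 : d < a := h
    have h2 : a ≠ d := (ne_of_lt h1).symm
    simp only [hM, Matrix.add_apply, Matrix.of_apply, Matrix.one_apply_ne h2, zero_add]
    rw [if_neg]
    rintro ⟨rfl, h3⟩
    exact lt_asymm h1 h3
  have hdet : M.det = 1 := by
    rw [Matrix.det_of_upperTriangular hut]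
    apply Finset.prod_eq_one
    intro a _
    simp only [hM, Matrix.add_apply, Matrix.of_apply, Matrix.one_apply_eq]
    rw [if_neg, add_zero]
    rintro ⟨rfl, h3⟩
    exact lt_irrefl _ h3
  refine ⟨Matrix.GeneralLinearGroup.mkOfDetNeZero M (by rw [hdet]; exact one_ne_zero), hut, ?_⟩
  intro g a c
  show (g * M) a c = _
  rw [hM, Matrix.mul_add, Matrix.mul_one, Matrix.add_apply, Matrix.mul_apply]
  congr 1
  rw [Finset.sum_eq_single K]
  · simp only [Matrix.of_apply]
    by_cases h : K < c <;> simp [h, mul_comm]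
  · intro d _ hd
    simp [hd]
  · simp

/-- the first `k` columns are done -/
def Done (k : ℕ) (g : Matrix (Fin n) (Fin n) F) : Prop :=
  ∀ j : Fin n, j.val < k → ∃ i, g i j ≠ 0 ∧ (∀ a, a ≠ i → g a j = 0) ∧ (∀ c, c ≠ j → g i c = 0)

lemma step (k : ℕ) (hk : k < n) (g : GL (Fin n) F) (hd : Done k g.1) :
    ∃ b ∈ upperTriangularGL n F, ∃ b' ∈ upperTriangularGL n F, Done (k + 1) (b * g * b').1 := by
  classical
  set K : Fin n := ⟨k, hk⟩ with hKdef
  have hcol : ∃ a, g.1 a K ≠ 0 := by
    by_contra hcon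
    push Not at hcon
    have h0 := Matrix.det_eq_zero_of_column_eq_zero K hcon
    have h1 := (Matrix.isUnit_iff_isUnit_det _).mp g.isUnit
    rw [h0] at h1
    exact not_isUnit_zero h1
  have hS : (Finset.univ.filter fun a => g.1 a K ≠ 0).Nonempty := by
    obtain ⟨a, ha⟩ := hcol
    exact ⟨a, by simp [ha]⟩
  set i := (Finset.univ.filter fun a => g.1 a K ≠ 0).max' hS with hidef
  have hi : g.1 i K ≠ 0 := by
    have := Finset.max'_mem _ hS
    simpa using this
  have hmax : ∀ a, i < a → g.1 a K = 0 := by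
    intro a ha
    by_contra hcon
    have := Finset.le_max' (Finset.univ.filter fun a => g.1 a K ≠ 0) a (by simp [hcon])
    exact absurd ha (not_lt.mpr this)
  set v := g.1 i K with hv
  obtain ⟨b, hb, eb⟩ := row_op i (fun a => - g.1 a K / v)
  obtain ⟨b', hb', eb'⟩ := col_op K (fun c => - g.1 i c / v)
  refine ⟨b, hb, b', hb', ?_⟩
  set h : Matrix (Fin n) (Fin n) F := b.1 * g.1 with hh
  have e1 : ∀ a c, h a c = g.1 a c + (if a < i then (- g.1 a K / v) * g.1 i c else 0) := eb g.1
  have e2 : ∀ a c, (b * g * b').1 a c = h a c + (if K < c then (- g.1 i c / v) * h a K else 0) := eb' h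
  have hKa : ∀ a, a ≠ i → h a K = 0 := by
    intro a ha
    rw [e1]
    rcases lt_or_gt_of_ne ha with h1 | h1
    · rw [if_pos h1]
      field_simp
      ring
    · rw [if_neg (not_lt.mpr h1.le), hmax a h1, add_zero]
  have hKi : ∀ c, h i c = g.1 i c := by
    intro c
    rw [e1, if_neg (lt_irrefl _), add_zero]
  intro j hj
  by_cases hjk : j.val < k
  · obtain ⟨ρ, h1, h2, h3⟩ := hd j hjk
    have hjK : j < K := hjk
    have hρ : ρ ≠ i := by
      rintro rfl
      exact hi (h3 K (ne_of_gt hjK))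
    have hij : g.1 i j = 0 := h2 i hρ.symm
    have hρK : g.1 ρ K = 0 := h3 K (ne_of_gt hjK)
    refine ⟨ρ, ?_, ?_, ?_⟩
    · rw [e2, if_neg (not_lt.mpr hjK.le), add_zero, e1, hij]
      simpa using h1
    · intro a ha
      rw [e2, if_neg (not_lt.mpr hjK.le), add_zero, e1, hij, h2 a ha]
      simp
    · intro c hc
      rw [e2, hKa ρ hρ, e1, hρK, h3 c hc]
      simp
  · have hjK : j = K := by
      apply Fin.ext
      show j.val = k
      omega
    subst hjK
    refine ⟨i, ?_, ?_, ?_⟩
    · rw [e2, if_neg (lt_irrefl _), add_zero, hKi]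
      exact hi
    · intro a ha
      rw [e2, if_neg (lt_irrefl _), add_zero, hKa a ha]
    · intro c hc
      rw [e2, hKi, hKi]
      rcases lt_or_gt_of_ne hc with h1 | h1
      · rw [if_neg (not_lt.mpr h1.le), add_zero]
        obtain ⟨ρ, h2, h3, h4⟩ := hd c h1
        have hρ : i ≠ ρ := by
          rintro rfl
          exact hi (h4 _ (ne_of_gt h1))
        exact h3 i hρ
      · rw [if_pos h1]
        field_simp
        ring

lemma done_all (g : GL (Fin n) F) (k : ℕ) (hk : k ≤ n) :
    ∃ b ∈ upperTriangularGL n F, ∃ b' ∈ upperTriangularGL n F, Done k (b * g * b').1 := by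
  induction k with
  | zero => exact ⟨1, one_mem _, 1, one_mem _, fun j hj => absurd hj (Nat.not_lt_zero _)⟩
  | succ k ih =>
    obtain ⟨b, hb, b', hb', hD⟩ := ih (by omega)
    obtain ⟨c, hc, c', hc', hD'⟩ := step k (by omega) (b * g * b') hD
    refine ⟨c * b, mul_mem hc hb, b' * c', mul_mem hb' hc', ?_⟩
    have : c * b * g * (b' * c') = c * (b * g * b') * c' := by group
    rw [this]
    exact hD'

lemma bruhat (g : GL (Fin n) F) : ∃ b ∈ upperTriangularGL n F, ∃ σ : Equiv.Perm (Fin n),
    ∃ b' ∈ upperTriangularGL n F, g = b * pmGL σ * b' := by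
  classical
  obtain ⟨b, hb, b', hb', hD⟩ := done_all g n le_rfl
  set h := b * g * b' with hh
  choose ρ h1 h2 h3 using fun j : Fin n => hD j j.isLt
  have hinj : Function.Injective ρ := by
    intro j j' e
    by_contra hne
    apply h1 j
    rw [e]
    exact h3 j' j hne
  set σ : Equiv.Perm (Fin n) := Equiv.ofBijective ρ (Finite.injective_iff_bijective.mp hinj) with hσ
  have hσa : ∀ j, σ j = ρ j := fun j => rfl
  set d : Fin n → F := fun a => h.1 a (σ⁻¹ a) with hd
  have hd0 : ∀ a, d a ≠ 0 := by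
    intro a
    have e : ρ (σ⁻¹ a) = a := by
      rw [← hσa]
      simp
    have h5 := h1 (σ⁻¹ a)
    rw [e] at h5
    exact h5
  have hdet : (Matrix.diagonal d).det ≠ 0 := by
    rw [Matrix.det_diagonal]
    exact Finset.prod_ne_zero_iff.mpr fun a _ => hd0 a
  set D : GL (Fin n) F := Matrix.GeneralLinearGroup.mkOfDetNeZero (Matrix.diagonal d) hdet with hDd
  have hDm : D ∈ upperTriangularGL n F := by
    show (Matrix.diagonal d).BlockTriangular id
    exact Matrix.blockTriangular_diagonal d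
  have e : h = D * pmGL σ := by
    apply Units.ext
    show h.1 = Matrix.diagonal d * pm σ
    ext a j
    rw [Matrix.diagonal_mul]
    simp only [pm, Matrix.of_apply]
    by_cases hc : a = σ j
    · rw [if_pos hc, mul_one]
      subst hc
      show _ = h.1 (σ j) (σ⁻¹ (σ j))
      simp
    · rw [if_neg hc, mul_zero]
      exact h2 j a hc
  refine ⟨b⁻¹ * D, mul_mem (inv_mem hb) hDm, σ, b'⁻¹, inv_mem hb', ?_⟩
  have : g = b⁻¹ * h * b'⁻¹ := by
    rw [hh]
    group
  rw [this, e]
  group

/-- functions supported on `S` -/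
def WW (S : Set (Fin n)) : Set (Fin n → F) := {v | ∀ i, i ∉ S → v i = 0}

lemma stable (μ : Fin n → ℕ) (a : ℕ) {p : GL (Fin n) F} (hp : p ∈ parabolicGL n F μ) {v : Fin n → F}
    (hv : v ∈ WW (F := F) {i | compLabel μ i < a}) :
    p.1.mulVec v ∈ WW (F := F) {i | compLabel μ i < a} := by
  intro i hi
  have hi' : a ≤ compLabel μ i := not_lt.mp hi
  show (∑ k, p.1 i k * v k) = 0
  apply Finset.sum_eq_zero
  intro k _
  by_cases hk : compLabel μ k < a
  · have : p.1 i k = 0 := hp (show compLabel μ k < compLabel μ i by omega)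
    rw [this, zero_mul]
  · rw [hv k hk, mul_zero]

lemma pm_mulVec (σ : Equiv.Perm (Fin n)) (u : Fin n → F) (i : Fin n) :
    (pm σ : Matrix (Fin n) (Fin n) F).mulVec u i = u (σ⁻¹ i) := by
  show (∑ j, (if i = σ j then (1 : F) else 0) * u j) = _
  rw [Finset.sum_eq_single (σ⁻¹ i)]
  · simp
  · intro j _ hj
    rw [if_neg, zero_mul]
    rintro rfl
    apply hj
    simp
  · simp

variable [Fintype F]

lemma count_pm (σ : Equiv.Perm (Fin n)) (S T : Set (Fin n)) :
    Nat.card {u : Fin n → F // u ∈ WW (F := F) T ∧ (pm σ : Matrix (Fin n) (Fin n) F).mulVec u ∈ WW (F := F) S}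
      = Nat.card F ^ Nat.card {j : Fin n // j ∈ T ∧ σ j ∈ S} := by
  classical
  rw [← Nat.card_fun]
  apply Nat.card_congr
  refine
    { toFun := fun u j => u.1 j.1
      invFun := fun w => ⟨fun j => if h : j ∈ T ∧ σ j ∈ S then w ⟨j, h⟩ else 0, ?_, ?_⟩
      left_inv := ?_
      right_inv := ?_ }
  · intro i hi
    simp [hi]
  · intro i hi
    rw [pm_mulVec]
    simp [hi]
  · rintro ⟨u, h1, h2⟩
    apply Subtype.ext
    funext j
    by_cases h : j ∈ T ∧ σ j ∈ S
    · simp [h]
    · simp only [dif_neg h]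
      by_cases h4 : j ∈ T
      · have h5 : σ j ∉ S := fun h6 => h ⟨h4, h6⟩
        have h6 := h2 (σ j) h5
        rw [pm_mulVec] at h6
        simpa using h6.symm
      · exact (h1 j h4).symm
  · intro w
    funext j
    simp [j.2]

lemma count_inv (ν μ : Fin n → ℕ) {σ τ : Equiv.Perm (Fin n)} {p q : GL (Fin n) F}
    (hp : p ∈ parabolicGL n F ν) (hq : q ∈ parabolicGL n F μ) (e : (pmGL τ : GL (Fin n) F) = p * pmGL σ * q) (a b : ℕ) :
    Nat.card {j : Fin n // compLabel μ j < b ∧ compLabel ν (σ j) < a} =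
      Nat.card {j : Fin n // compLabel μ j < b ∧ compLabel ν (τ j) < a} := by
  classical
  set S : Set (Fin n) := {i | compLabel ν i < a} with hS
  set T : Set (Fin n) := {i | compLabel μ i < b} with hT
  have h1 := count_pm (F := F) σ S T
  have h2 := count_pm (F := F) τ S T
  have h3 : Nat.card {u : Fin n → F // u ∈ WW (F := F) T ∧ (pm σ : Matrix (Fin n) (Fin n) F).mulVec u ∈ WW (F := F) S} =
      Nat.card {u : Fin n → F // u ∈ WW (F := F) T ∧ (pm τ : Matrix (Fin n) (Fin n) F).mulVec u ∈ WW (F := F) S} := by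
    have eτ : (pm τ : Matrix (Fin n) (Fin n) F) = p.1 * pm σ * q.1 := congrArg Units.val e
    have hqq : q⁻¹.1 * q.1 = 1 := by
      rw [← Units.val_mul, inv_mul_cancel, Units.val_one]
    have hqq' : q.1 * q⁻¹.1 = 1 := by
      rw [← Units.val_mul, mul_inv_cancel, Units.val_one]
    have hpp : p⁻¹.1 * p.1 = 1 := by
      rw [← Units.val_mul, inv_mul_cancel, Units.val_one]
    have h5 : ∀ w : Fin n → F, (pm σ : Matrix (Fin n) (Fin n) F).mulVec (q.1.mulVec w)
          = p⁻¹.1.mulVec ((pm τ : Matrix (Fin n) (Fin n) F).mulVec w) := by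
      intro w
      rw [eτ, Matrix.mulVec_mulVec, Matrix.mulVec_mulVec, ← Matrix.mul_assoc p⁻¹.1, ← Matrix.mul_assoc p⁻¹.1,
        hpp, Matrix.one_mul]
    have h6 : ∀ w : Fin n → F, (pm τ : Matrix (Fin n) (Fin n) F).mulVec (q⁻¹.1.mulVec w)
          = p.1.mulVec ((pm σ : Matrix (Fin n) (Fin n) F).mulVec w) := by
      intro w
      rw [eτ, Matrix.mulVec_mulVec, Matrix.mulVec_mulVec, Matrix.mul_assoc, hqq', Matrix.mul_one]
    apply Nat.card_congr
    refine
      { toFun := fun u => ⟨q⁻¹.1.mulVec u.1, stable μ b (inv_mem hq) u.2.1, ?_⟩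
        invFun := fun u => ⟨q.1.mulVec u.1, stable μ b hq u.2.1, ?_⟩
        left_inv := ?_
        right_inv := ?_ }
    · rw [h6]
      exact stable ν a hp u.2.2
    · rw [h5]
      exact stable ν a (inv_mem hp) u.2.2
    · intro u
      apply Subtype.ext
      show q.1.mulVec (q⁻¹.1.mulVec u.1) = u.1
      rw [Matrix.mulVec_mulVec, hqq', Matrix.one_mulVec]
    · intro u
      apply Subtype.ext
      show q⁻¹.1.mulVec (q.1.mulVec u.1) = u.1
      rw [Matrix.mulVec_mulVec, hqq, Matrix.one_mulVec]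
  rw [h1, h2] at h3
  have hq2 : 1 < Nat.card F := by
    rw [Nat.card_eq_fintype_card]
    exact Fintype.one_lt_card
  have h4 := Nat.pow_right_injective (a := Nat.card F) hq2 h3
  have e1 : ∀ ρ : Equiv.Perm (Fin n), Nat.card {j : Fin n // j ∈ T ∧ ρ j ∈ S} =
      Nat.card {j : Fin n // compLabel μ j < b ∧ compLabel ν (ρ j) < a} := fun ρ => rfl
  rw [← e1, ← e1]
  exact h4



lemma fiber_eq (f g₁ g₂ : Fin n → ℕ)
    (h : ∀ a b, (Finset.univ.filter fun j => f j < b ∧ g₁ j < a).card = (Finset.univ.filter fun j => f j < b ∧ g₂ j < a).card)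
    (a b : ℕ) : (Finset.univ.filter fun j => f j = b ∧ g₁ j = a).card = (Finset.univ.filter fun j => f j = b ∧ g₂ j = a).card := by
  have s1 : ∀ (g : Fin n → ℕ) (a b : ℕ), (Finset.univ.filter fun j => f j < b + 1 ∧ g j < a).card =
      (Finset.univ.filter fun j => f j < b ∧ g j < a).card + (Finset.univ.filter fun j => f j = b ∧ g j < a).card := by
    intro g a b
    have e : (Finset.univ.filter fun j => f j < b + 1 ∧ g j < a) =
        (Finset.univ.filter fun j => f j < b ∧ g j < a) ∪ (Finset.univ.filter fun j => f j = b ∧ g j < a) := by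
      ext j
      simp only [Finset.mem_filter, Finset.mem_univ, true_and, Finset.mem_union]
      omega
    rw [e, Finset.card_union_of_disjoint]
    exact Finset.disjoint_filter.mpr fun j _ h1 h2 => by omega
  have s2 : ∀ (g : Fin n → ℕ) (a b : ℕ), (Finset.univ.filter fun j => f j = b ∧ g j < a + 1).card =
      (Finset.univ.filter fun j => f j = b ∧ g j < a).card + (Finset.univ.filter fun j => f j = b ∧ g j = a).card := by
    intro g a b
    have e : (Finset.univ.filter fun j => f j = b ∧ g j < a + 1) =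
        (Finset.univ.filter fun j => f j = b ∧ g j < a) ∪ (Finset.univ.filter fun j => f j = b ∧ g j = a) := by
      ext j
      simp only [Finset.mem_filter, Finset.mem_univ, true_and, Finset.mem_union]
      omega
    rw [e, Finset.card_union_of_disjoint]
    exact Finset.disjoint_filter.mpr fun j _ h1 h2 => by omega
  have e1 : ∀ a b, (Finset.univ.filter fun j => f j = b ∧ g₁ j < a).card = (Finset.univ.filter fun j => f j = b ∧ g₂ j < a).card := by
    intro a b
    have h1 := s1 g₁ a b
    have h2 := s1 g₂ a b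
    have h3 := h a (b + 1)
    have h4 := h a b
    omega
  have h1 := s2 g₁ a b
  have h2 := s2 g₂ a b
  have h3 := e1 (a + 1) b
  have h4 := e1 a b
  omega

lemma exists_perm (f₁ f₂ : Fin n → ℕ × ℕ)
    (h : ∀ c, (Finset.univ.filter fun j => f₁ j = c).card = (Finset.univ.filter fun j => f₂ j = c).card) :
    ∃ y : Equiv.Perm (Fin n), ∀ j, f₁ (y j) = f₂ j := by
  classical
  have e : ∀ c, Nonempty ({j // f₂ j = c} ≃ {j // f₁ j = c}) := by
    intro c
    apply Fintype.card_eq.mp
    rw [Fintype.card_subtype, Fintype.card_subtype]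
    exact (h c).symm
  let E : ∀ c, ({j // f₂ j = c} ≃ {j // f₁ j = c}) := fun c => (e c).some
  exact ⟨Equiv.ofFiberEquiv E, fun j => Equiv.ofFiberEquiv_map E j⟩

lemma double_of_counts (ν μ : Fin n → ℕ) {σ τ : Equiv.Perm (Fin n)}
    (h : ∀ a b : ℕ, Nat.card {j : Fin n // compLabel μ j < b ∧ compLabel ν (σ j) < a} =
      Nat.card {j : Fin n // compLabel μ j < b ∧ compLabel ν (τ j) < a}) :
    ∃ y ∈ youngSubgroup ν, ∃ y' ∈ youngSubgroup μ, τ = y * σ * y' := by
  classical
  have h1 : ∀ a b : ℕ, (Finset.univ.filter fun j => compLabel μ j < b ∧ compLabel ν (σ j) < a).card =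
      (Finset.univ.filter fun j => compLabel μ j < b ∧ compLabel ν (τ j) < a).card := by
    intro a b
    have := h a b
    rw [Nat.card_eq_fintype_card, Nat.card_eq_fintype_card, Fintype.card_subtype, Fintype.card_subtype] at this
    exact this
  have h2 := fiber_eq (compLabel μ) (fun j => compLabel ν (σ j)) (fun j => compLabel ν (τ j)) h1
  obtain ⟨y', hy'⟩ := exists_perm (fun j => (compLabel μ j, compLabel ν (σ j))) (fun j => (compLabel μ j, compLabel ν (τ j))) (by
    rintro ⟨b, a⟩
    have := h2 a b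
    simpa only [Prod.mk.injEq] using this)
  have e1 : ∀ j, compLabel μ (y' j) = compLabel μ j := fun j => congrArg Prod.fst (hy' j)
  have e2 : ∀ j, compLabel ν (σ (y' j)) = compLabel ν (τ j) := fun j => congrArg Prod.snd (hy' j)
  refine ⟨τ * y'⁻¹ * σ⁻¹, ?_, y', e1, ?_⟩
  · intro i
    show compLabel ν (τ (y'⁻¹ (σ⁻¹ i))) = _
    rw [← e2]
    simp
  · group

/-- the relation of lying in a double coset -/
def dcSetoid (ν μ : Fin n → ℕ) : Setoid (Equiv.Perm (Fin n)) where
  r σ τ := ∃ y ∈ youngSubgroup ν, ∃ y' ∈ youngSubgroup μ, τ = y * σ * y'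
  iseqv :=
    { refl := fun σ => ⟨1, one_mem _, 1, one_mem _, by simp⟩
      symm := by
        rintro σ τ ⟨y, hy, y', hy', rfl⟩
        exact ⟨y⁻¹, inv_mem hy, y'⁻¹, inv_mem hy', by group⟩
      trans := by
        rintro σ τ ρ ⟨y, hy, y', hy', rfl⟩ ⟨z, hz, z', hz', rfl⟩
        exact ⟨z * y, mul_mem hz hy, y' * z', mul_mem hy' hz', by group⟩ }

lemma key {G : Type*} [Group G] [Fintype G] (P Q : Subgroup G) :
    (Nat.card G : ℂ)⁻¹ * ∑ g : G, fixedPointCharacter P g * fixedPointCharacter Q g =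
      classInner (fixedPointCharacter P) (fixedPointCharacter Q) := by
  unfold classInner fixedPointCharacter
  simp only [Complex.conj_natCast]

theorem main [DecidableEq F] (ν μ : Fin n → ℕ) :
    (Nat.card (GL (Fin n) F) : ℂ)⁻¹ * ∑ g : GL (Fin n) F,
        Cfsg.fixedPointCharacter (Cfsg.parabolicGL n F ν) g * Cfsg.fixedPointCharacter (Cfsg.parabolicGL n F μ) g =
      (Nat.card (Equiv.Perm (Fin n)) : ℂ)⁻¹ * ∑ σ : Equiv.Perm (Fin n),
        Cfsg.fixedPointCharacter (Cfsg.youngSubgroup ν) σ * Cfsg.fixedPointCharacter (Cfsg.youngSubgroup μ) σ := by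
  classical
  let ι := Quotient (dcSetoid ν μ)
  letI : Fintype ι := Fintype.ofFinite ι
  let r : ι → Equiv.Perm (Fin n) := Quotient.out
  have hr : ∀ σ : Equiv.Perm (Fin n), ∃ y ∈ youngSubgroup ν, ∃ y' ∈ youngSubgroup μ,
      σ = y * r (Quotient.mk (dcSetoid ν μ) σ) * y' := fun σ => Quotient.mk_out (s := dcSetoid ν μ) σ
  have hr2 : ∀ (i j : ι) (y y' : Equiv.Perm (Fin n)), y ∈ youngSubgroup ν → y' ∈ youngSubgroup μ →
      r j = y * r i * y' → i = j := by
    intro i j y y' hy hy' e
    have h1 : (dcSetoid ν μ).r (r i) (r j) := ⟨y, hy, y', hy', e⟩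
    have h2 : Quotient.mk (dcSetoid ν μ) (r i) = Quotient.mk (dcSetoid ν μ) (r j) := Quotient.sound h1
    have h3 : ∀ k : ι, Quotient.mk (dcSetoid ν μ) (r k) = k := fun k => Quotient.out_eq k
    rw [h3, h3] at h2
    exact h2
  have hS := Cfsg.Agent.H10.inner_fpc_eq_card (youngSubgroup ν) (youngSubgroup μ) r
    (fun g => by
      obtain ⟨y, hy, y', hy', e⟩ := hr g
      exact ⟨_, y, hy, y', hy', e⟩)
    (fun i j p hp q hq e => hr2 i j p q hp hq e)
  have hG := Cfsg.Agent.H10.inner_fpc_eq_card (parabolicGL n F ν) (parabolicGL n F μ) (fun i => (pmGL (r i) : GL (Fin n) F))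
    (fun g => by
      obtain ⟨b, hb, σ, b', hb', e⟩ := bruhat g
      obtain ⟨y, hy, y', hy', e'⟩ := hr σ
      refine ⟨Quotient.mk (dcSetoid ν μ) σ, b * pmGL y, mul_mem (ut_le ν hb) (pm_mem ν hy), pmGL y' * b',
        mul_mem (pm_mem μ hy') (ut_le μ hb'), ?_⟩
      have e2 : (pmGL σ : GL (Fin n) F) = pmGL y * pmGL (r (Quotient.mk (dcSetoid ν μ) σ)) * pmGL y' := by
        conv_lhs => rw [e']
        apply Units.ext
        show (pm (y * r (Quotient.mk (dcSetoid ν μ) σ) * y') : Matrix (Fin n) (Fin n) F) =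
          pm y * pm (r (Quotient.mk (dcSetoid ν μ) σ)) * pm y'
        rw [pm_mul, pm_mul]
      rw [e, e2]
      group)
    (fun i j p hp q hq e => by
      obtain ⟨y, hy, y', hy', e'⟩ := double_of_counts ν μ (σ := r i) (τ := r j) (fun a b => count_inv ν μ hp hq e a b)
      exact hr2 i j y y' hy hy' e')
  rw [key, key, hG, hS]

/-- The comparison of `GL_n(q)` with the symmetric group on flags: for partitions `ν`, `μ` of `n` (each with `n` non-decreasing parts, zeros allowed), the inner product of the permutation characters of `GL_n(q)` on partial flags of types `ν` and `μ` equals the inner product of the permutation characters of `Sym(n)` on the cosets of the Young subgroups of types `ν` and `μ` (both count the orbits on pairs). -/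
theorem result {F : Type*} [Field F] [Fintype F] [DecidableEq F] {n : ℕ} (ν μ : Fin n → ℕ) (hν : Monotone ν) (hνs : ∑ i, ν i = n)
    (hμ : Monotone μ) (hμs : ∑ i, μ i = n) :
    (Nat.card (GL (Fin n) F) : ℂ)⁻¹ * ∑ g : GL (Fin n) F,
        Cfsg.fixedPointCharacter (Cfsg.parabolicGL n F ν) g * Cfsg.fixedPointCharacter (Cfsg.parabolicGL n F μ) g =
      (Nat.card (Equiv.Perm (Fin n)) : ℂ)⁻¹ * ∑ σ : Equiv.Perm (Fin n),
        Cfsg.fixedPointCharacter (Cfsg.youngSubgroup ν) σ * Cfsg.fixedPointCharacter (Cfsg.youngSubgroup μ) σ :=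
  main ν μ

end Cfsg.Agent.S2423
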