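import Cfsg.Statements.S2426
import Cfsg.Agent.Lib.H11.StA1b

set_option autoImplicit false
open Cfsg

namespace Cfsg.Agent.S2426

/-- The rank-one Steinberg presentation of `SL₂` over a finite field `K`: generators `x(t)`, `y(t)` (`t ∈ K`; the two opposite root subgroups) subject to additivity `x(t)x(u) = x(t+u)`, `y(t)y(u) = y(t+u)` and, with `w(t) = x(t) y(−t⁻¹) x(t)` and `w'(t) = y(t) x(−t⁻¹) y(t)` for `t ≠ 0`, the relations `w(t) x(u) w(t)⁻¹ = y(−t⁻² u)` and `w'(t) y(u) w'(t)⁻¹ = x(−t⁻² u)`, present `SL₂(K)`, with `x(t) ↦ (1 t; 0 1)` and `y(t) ↦ (1 0; t 1)`. -/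
theorem result {K : Type*} [Field K] [Finite K] :
    ∃ e : PresentedGroup
        ({g : FreeGroup (Bool × K) | ∃ (b : Bool) (t u : K), g = FreeGroup.of (b, t) * FreeGroup.of (b, u) * (FreeGroup.of (b, t + u))⁻¹} ∪
          {g | ∃ (b : Bool) (t u : K), t ≠ 0 ∧
            g = (FreeGroup.of (b, t) * FreeGroup.of (!b, -t⁻¹) * FreeGroup.of (b, t)) * FreeGroup.of (b, u) *
                  (FreeGroup.of (b, t) * FreeGroup.of (!b, -t⁻¹) * FreeGroup.of (b, t))⁻¹ * (FreeGroup.of (!b, -(t⁻¹ ^ 2 * u)))⁻¹})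
        ≃* Matrix.SpecialLinearGroup (Fin 2) K,
      (∀ t : K, ((e (PresentedGroup.of (true, t)) : Matrix (Fin 2) (Fin 2) K)) = !![1, t; 0, 1]) ∧
      (∀ t : K, ((e (PresentedGroup.of (false, t)) : Matrix (Fin 2) (Fin 2) K)) = !![1, 0; t, 1]) := by
  classical
  set rels : Set (FreeGroup (Bool × K)) := ({g : FreeGroup (Bool × K) | ∃ (b : Bool) (t u : K), g = FreeGroup.of (b, t) * FreeGroup.of (b, u) * (FreeGroup.of (b, t + u))⁻¹} ∪
          {g | ∃ (b : Bool) (t u : K), t ≠ 0 ∧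
            g = (FreeGroup.of (b, t) * FreeGroup.of (!b, -t⁻¹) * FreeGroup.of (b, t)) * FreeGroup.of (b, u) *
                  (FreeGroup.of (b, t) * FreeGroup.of (!b, -t⁻¹) * FreeGroup.of (b, t))⁻¹ * (FreeGroup.of (!b, -(t⁻¹ ^ 2 * u)))⁻¹}) with hrels

  let f : Bool × K → Matrix.SpecialLinearGroup (Fin 2) K := fun p => if p.1 then Cfsg.Agent.H11.StA1.X p.2 else Cfsg.Agent.H11.StA1.Y p.2
  have hf : ∀ r ∈ rels, FreeGroup.lift f r = 1 := by
    have RXY := Cfsg.Agent.H11.StA1.rel_XY (K := K)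
    rintro r (⟨b, t, u, rfl⟩ | ⟨b, t, u, ht, rfl⟩)
    · cases b
      · simp only [map_mul, map_inv, FreeGroup.lift_apply_of, f]
        simp only [Bool.false_eq_true, if_false]
        rw [RXY.yadd, mul_inv_cancel]
      · simp only [map_mul, map_inv, FreeGroup.lift_apply_of, f]
        simp only [if_true]
        rw [RXY.xadd, mul_inv_cancel]
    · cases b
      · simp only [map_mul, map_inv, FreeGroup.lift_apply_of, f, Bool.not_false, Bool.false_eq_true, if_false, if_true]
        rw [RXY.wy t u ht, mul_inv_cancel]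
      · simp only [map_mul, map_inv, FreeGroup.lift_apply_of, f, Bool.not_true, Bool.false_eq_true, if_false, if_true]
        rw [RXY.wx t u ht, mul_inv_cancel]
  let φ := PresentedGroup.toGroup hf
  let x : K → PresentedGroup rels := fun t => PresentedGroup.of (true, t)
  let y : K → PresentedGroup rels := fun t => PresentedGroup.of (false, t)
  have hφx : ∀ t, φ (x t) = Cfsg.Agent.H11.StA1.X t := fun t => PresentedGroup.toGroup.of hf
  have hφy : ∀ t, φ (y t) = Cfsg.Agent.H11.StA1.Y t := fun t => PresentedGroup.toGroup.of hf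
  have hone : ∀ r, r ∈ rels → PresentedGroup.mk rels r = 1 := fun r hr => PresentedGroup.one_of_mem hr
  have R : Cfsg.Agent.H11.StA1.Rel x y := by
    refine ⟨?_, ?_, ?_, ?_⟩
    · intro t u
      have := hone _ (Or.inl ⟨true, t, u, rfl⟩)
      simp only [map_mul, map_inv] at this
      exact mul_inv_eq_one.1 this
    · intro t u
      have := hone _ (Or.inl ⟨false, t, u, rfl⟩)
      simp only [map_mul, map_inv] at this
      exact mul_inv_eq_one.1 this
    · intro t u ht
      have := hone _ (Or.inr ⟨true, t, u, ht, rfl⟩)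
      simp only [map_mul, map_inv, Bool.not_true] at this
      exact mul_inv_eq_one.1 this
    · intro t u ht
      have := hone _ (Or.inr ⟨false, t, u, ht, rfl⟩)
      simp only [map_mul, map_inv, Bool.not_false] at this
      exact mul_inv_eq_one.1 this
  have hZ : ∀ e, Cfsg.Agent.H11.StA1.Cen x y e → ∀ g : PresentedGroup rels, e * g = g * e := by
    intro e he g
    have hg : g ∈ Subgroup.closure (Set.range (PresentedGroup.of : Bool × K → PresentedGroup rels)) := by
      rw [PresentedGroup.closure_range_of]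
      exact Subgroup.mem_top g
    induction hg using Subgroup.closure_induction with
    | mem g hg =>
      obtain ⟨⟨b, t⟩, rfl⟩ := hg
      cases b
      · exact (he t).2
      · exact (he t).1
    | one => simp
    | mul a b _ _ ha hb =>
      rw [← mul_assoc, ha, mul_assoc, hb, mul_assoc]
    | inv a _ ha =>
      have h1 : Commute e a := ha
      exact h1.inv_right
  have hNF : ∀ g : PresentedGroup rels, Cfsg.Agent.H11.StA1.IsNF x y g := by
    intro g
    have hg : g ∈ Subgroup.closure (Set.range (PresentedGroup.of : Bool × K → PresentedGroup rels)) := by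
      rw [PresentedGroup.closure_range_of]
      exact Subgroup.mem_top g
    induction hg using Subgroup.closure_induction_left with
    | one => exact Cfsg.Agent.H11.StA1.nf_one R hZ
    | mul_left a ha b _ hb =>
      obtain ⟨⟨c, t⟩, rfl⟩ := ha
      cases c
      · exact Cfsg.Agent.H11.StA1.nf_y R hZ t hb
      · exact Cfsg.Agent.H11.StA1.nf_x R hZ t hb
    | inv_mul_cancel a ha b _ hb =>
      obtain ⟨⟨c, t⟩, rfl⟩ := ha
      cases c
      · have e : (PresentedGroup.of (false, t) : PresentedGroup rels)⁻¹ = y (-t) := (Cfsg.Agent.H11.StA1.y_neg R t).symm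
        rw [e]
        exact Cfsg.Agent.H11.StA1.nf_y R hZ _ hb
      · have e : (PresentedGroup.of (true, t) : PresentedGroup rels)⁻¹ = x (-t) := (Cfsg.Agent.H11.StA1.x_neg R t).symm
        rw [e]
        exact Cfsg.Agent.H11.StA1.nf_x R hZ _ hb
  have hφw : ∀ t, φ (Cfsg.Agent.H11.StA1.w x y t) = Cfsg.Agent.H11.StA1.w Cfsg.Agent.H11.StA1.X Cfsg.Agent.H11.StA1.Y t := by
    intro t
    unfold Cfsg.Agent.H11.StA1.w
    rw [map_mul, map_mul, hφx, hφy]
  have hφh : ∀ t, φ (Cfsg.Agent.H11.StA1.h x y t) = Cfsg.Agent.H11.StA1.h Cfsg.Agent.H11.StA1.X Cfsg.Agent.H11.StA1.Y t := by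
    intro t
    unfold Cfsg.Agent.H11.StA1.h
    rw [map_mul, hφw, hφw]
  have hinj : Function.Injective φ := by
    rw [injective_iff_map_eq_one]
    intro g hg
    rcases hNF g with ⟨a, t, ht, rfl⟩ | ⟨a, t, b, ht, rfl⟩
    · rw [map_mul, hφx, hφh] at hg
      have h1 := congrArg (fun A : Matrix.SpecialLinearGroup (Fin 2) K => (A : Matrix (Fin 2) (Fin 2) K)) hg
      simp only [Matrix.SpecialLinearGroup.coe_mul, Cfsg.Agent.H11.StA1.X_coe, Cfsg.Agent.H11.StA1.h_coe ht, Matrix.SpecialLinearGroup.coe_one] at h1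
      have h00 := congrFun (congrFun h1 0) 0
      have h01 := congrFun (congrFun h1 0) 1
      simp [Matrix.mul_apply, Fin.sum_univ_two] at h00 h01
      subst h00
      simp at h01
      subst h01
      rw [Cfsg.Agent.H11.StA1.x_zero R, Cfsg.Agent.H11.StA1.h_one R, one_mul]
    · exfalso
      rw [map_mul, map_mul, hφx, hφx, hφw] at hg
      have h1 := congrArg (fun A : Matrix.SpecialLinearGroup (Fin 2) K => (A : Matrix (Fin 2) (Fin 2) K)) hg
      simp only [Matrix.SpecialLinearGroup.coe_mul, Cfsg.Agent.H11.StA1.X_coe, Cfsg.Agent.H11.StA1.w_coe ht, Matrix.SpecialLinearGroup.coe_one] at h1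
      have h10 := congrFun (congrFun h1 1) 0
      simp [Matrix.mul_apply, Fin.sum_univ_two] at h10
      exact ht h10
  have hsurj : Function.Surjective φ := by
    intro g
    have hdet : (g : Matrix (Fin 2) (Fin 2) K) 0 0 * (g : Matrix (Fin 2) (Fin 2) K) 1 1 - (g : Matrix (Fin 2) (Fin 2) K) 0 1 * (g : Matrix (Fin 2) (Fin 2) K) 1 0 = 1 := by
      have := g.2
      rwa [Matrix.det_fin_two] at this
    by_cases hc : (g : Matrix (Fin 2) (Fin 2) K) 1 0 = 0
    · rw [hc, mul_zero, sub_zero] at hdet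
      have ha : (g : Matrix (Fin 2) (Fin 2) K) 0 0 ≠ 0 := left_ne_zero_of_mul_eq_one hdet
      refine ⟨x ((g : Matrix (Fin 2) (Fin 2) K) 0 1 * (g : Matrix (Fin 2) (Fin 2) K) 0 0) * Cfsg.Agent.H11.StA1.h x y ((g : Matrix (Fin 2) (Fin 2) K) 0 0), ?_⟩
      rw [map_mul, hφx, hφh]
      apply Subtype.ext
      change ((Cfsg.Agent.H11.StA1.X _ * Cfsg.Agent.H11.StA1.h Cfsg.Agent.H11.StA1.X Cfsg.Agent.H11.StA1.Y _ : Matrix.SpecialLinearGroup (Fin 2) K) : Matrix (Fin 2) (Fin 2) K) = _
      simp only [Matrix.SpecialLinearGroup.coe_mul, Cfsg.Agent.H11.StA1.X_coe, Cfsg.Agent.H11.StA1.h_coe ha]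
      have hd : (g : Matrix (Fin 2) (Fin 2) K) 1 1 = ((g : Matrix (Fin 2) (Fin 2) K) 0 0)⁻¹ := eq_inv_of_mul_eq_one_right hdet
      ext i j
      fin_cases i <;> fin_cases j <;> simp [Matrix.mul_apply, Fin.sum_univ_two, ha, hc, hd]
    · have ht : -((g : Matrix (Fin 2) (Fin 2) K) 1 0)⁻¹ ≠ 0 := neg_ne_zero.2 (inv_ne_zero hc)
      refine ⟨x ((g : Matrix (Fin 2) (Fin 2) K) 0 0 * ((g : Matrix (Fin 2) (Fin 2) K) 1 0)⁻¹) * Cfsg.Agent.H11.StA1.w x y (-((g : Matrix (Fin 2) (Fin 2) K) 1 0)⁻¹) * x ((g : Matrix (Fin 2) (Fin 2) K) 1 1 * ((g : Matrix (Fin 2) (Fin 2) K) 1 0)⁻¹), ?_⟩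
      rw [map_mul, map_mul, hφx, hφx, hφw]
      apply Subtype.ext
      change ((Cfsg.Agent.H11.StA1.X _ * Cfsg.Agent.H11.StA1.w Cfsg.Agent.H11.StA1.X Cfsg.Agent.H11.StA1.Y _ * Cfsg.Agent.H11.StA1.X _ : Matrix.SpecialLinearGroup (Fin 2) K) : Matrix (Fin 2) (Fin 2) K) = _
      simp only [Matrix.SpecialLinearGroup.coe_mul, Cfsg.Agent.H11.StA1.X_coe, Cfsg.Agent.H11.StA1.w_coe ht]
      ext i j
      fin_cases i <;> fin_cases j <;> simp [Matrix.mul_apply, Fin.sum_univ_two, hc]
      · field_simp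
        linear_combination hdet
      · field_simp
  refine ⟨MulEquiv.ofBijective φ ⟨hinj, hsurj⟩, ?_, ?_⟩
  · intro t
    have := hφx t
    change ((φ (x t) : Matrix.SpecialLinearGroup (Fin 2) K) : Matrix (Fin 2) (Fin 2) K) = _
    rw [this]
    rfl
  · intro t
    have := hφy t
    change ((φ (y t) : Matrix.SpecialLinearGroup (Fin 2) K) : Matrix (Fin 2) (Fin 2) K) = _
    rw [this]
    rfl

end Cfsg.Agent.S2426
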