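import Cfsg.Statements.S2427
import Mathlib

set_option autoImplicit false
open Cfsg

namespace Cfsg.Agent.S2427

open Matrix

abbrev G := Matrix.SpecialLinearGroup (Fin 2) (ZMod 3)

def inv2 (g : G) : G := ⟨!![g.1 1 1, - g.1 0 1; - g.1 1 0, g.1 0 0], by
  have := g.2
  rw [Matrix.det_fin_two] at this ⊢
  simp only [Matrix.of_apply, Matrix.cons_val', Matrix.cons_val_zero, Matrix.cons_val_one]
  simpa [mul_comm] using this⟩

lemma inv2_eq (g : G) : g⁻¹ = inv2 g := by
  apply Matrix.SpecialLinearGroup.ext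
  rw [Matrix.SpecialLinearGroup.SL2_inv_expl]
  intro i j; rfl

def elts : List G := [
  ⟨!![0,1;2,0], by decide⟩,
  ⟨!![0,1;2,1], by decide⟩,
  ⟨!![0,1;2,2], by decide⟩,
  ⟨!![0,2;1,0], by decide⟩,
  ⟨!![0,2;1,1], by decide⟩,
  ⟨!![0,2;1,2], by decide⟩,
  ⟨!![1,0;0,1], by decide⟩,
  ⟨!![1,0;1,1], by decide⟩,
  ⟨!![1,0;2,1], by decide⟩,
  ⟨!![1,1;0,1], by decide⟩,
  ⟨!![1,1;1,2], by decide⟩,
  ⟨!![1,1;2,0], by decide⟩,
  ⟨!![1,2;0,1], by decide⟩,
  ⟨!![1,2;1,0], by decide⟩,
  ⟨!![1,2;2,2], by decide⟩,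
  ⟨!![2,0;0,2], by decide⟩,
  ⟨!![2,0;1,2], by decide⟩,
  ⟨!![2,0;2,2], by decide⟩,
  ⟨!![2,1;0,2], by decide⟩,
  ⟨!![2,1;1,1], by decide⟩,
  ⟨!![2,1;2,0], by decide⟩,
  ⟨!![2,2;0,2], by decide⟩,
  ⟨!![2,2;1,0], by decide⟩,
  ⟨!![2,2;2,1], by decide⟩]

def mone : G := ⟨!![2,0;0,2], by decide⟩

set_option maxRecDepth 100000

lemma mem_elts : ∀ g : G, g ∈ elts := by decide +kernel

lemma card_G : Nat.card G = 24 := by
  rw [Nat.card_eq_fintype_card]; decide +kernel

lemma d_mul : ∀ a ∈ elts, ∀ b ∈ elts, a ^ 4 = 1 → b ^ 4 = 1 → (a * b) ^ 4 = 1 := by decide +kernel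
lemma d_comm_le : ∀ a ∈ elts, ∀ b ∈ elts, (a * b * inv2 a * inv2 b) ^ 4 = 1 := by decide +kernel
lemma d_comm_ge : ∀ q ∈ elts, q ^ 4 = 1 → ∃ a ∈ elts, ∃ b ∈ elts, q = a * b * inv2 a * inv2 b := by
  decide +kernel
lemma d_center : ∀ z ∈ elts, (∀ g ∈ elts, g * z = z * g) → z = 1 ∨ z = mone := by decide +kernel
lemma d_center2 : ∀ g ∈ elts, g * mone = mone * g := by decide +kernel
lemma d_mone_ne : mone ≠ 1 := by decide +kernel
lemma d_D1 : ∀ g ∈ elts, g ^ 4 ≠ 1 → ∃ u ∈ elts,
    (g * u * inv2 g * inv2 u) ^ 4 = 1 ∧ g * u * inv2 g * inv2 u ≠ 1 ∧ g * u * inv2 g * inv2 u ≠ mone := by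
  decide +kernel
lemma d_D2 : ∀ g ∈ elts, g ^ 4 ≠ 1 → ∀ x ∈ elts, x ^ 4 = 1 ∨ (g * x) ^ 4 = 1 ∨ (inv2 g * x) ^ 4 = 1 := by
  decide +kernel
lemma d_D3 : ∀ c ∈ elts, c ^ 4 = 1 → c ≠ 1 → c ≠ mone → ∀ q ∈ elts, q ^ 4 = 1 →
    ∃ u ∈ elts, q = u * c * inv2 u ∨ q = u * c * inv2 u * (u * c * inv2 u) ∨ q = 1 := by decide +kernel

/-- the quaternion subgroup. -/
def Q : Subgroup G where
  carrier := {g | g ^ 4 = 1}
  mul_mem' := fun {a b} ha hb => d_mul a (mem_elts a) b (mem_elts b) ha hb
  one_mem' := one_pow 4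
  inv_mem' := fun {a} ha => by
    change a⁻¹ ^ 4 = 1
    rw [inv_pow, show a ^ 4 = 1 from ha, inv_one]

lemma mem_Q {g : G} : g ∈ Q ↔ g ^ 4 = 1 := Iff.rfl

lemma comm_eq_Q : commutator G = Q := by
  apply le_antisymm
  · unfold commutator
    rw [Subgroup.commutator_le]
    intro a _ b _
    rw [commutatorElement_def, inv2_eq, inv2_eq]
    exact d_comm_le a (mem_elts a) b (mem_elts b)
  · intro q hq
    obtain ⟨a, -, b, -, h⟩ := d_comm_ge q (mem_elts q) hq
    rw [h, ← inv2_eq, ← inv2_eq]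
    exact Subgroup.commutator_mem_commutator (Subgroup.mem_top a) (Subgroup.mem_top b)

/-- generator -/
def A0 : G := ⟨!![0,1;2,0], by decide⟩
def X0 : G := ⟨!![1,1;1,2], by decide⟩

def psiFun : QuaternionGroup 2 → G
  | QuaternionGroup.a i => A0 ^ i.val
  | QuaternionGroup.xa i => X0 * A0 ^ i.val

lemma psi_mul : ∀ x y : QuaternionGroup 2, psiFun (x * y) = psiFun x * psiFun y := by decide +kernel
lemma psi_inj : ∀ x y : QuaternionGroup 2, psiFun x = psiFun y → x = y := by decide +kernel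
lemma psi_mem : ∀ x : QuaternionGroup 2, psiFun x ^ 4 = 1 := by decide +kernel
lemma psi_surj : ∀ q ∈ elts, q ^ 4 = 1 → ∃ x : QuaternionGroup 2, psiFun x = q := by decide +kernel

/-- `psi` as a monoid hom -/
def psi : QuaternionGroup 2 →* G := MonoidHom.mk' psiFun psi_mul

lemma range_psi : psi.range = Q := by
  ext q
  constructor
  · rintro ⟨x, rfl⟩
    exact psi_mem x
  · intro hq
    exact psi_surj q (mem_elts q) hq

noncomputable def equivQ : QuaternionGroup 2 ≃* Q :=
  (MonoidHom.ofInjective (f := psi) (fun x y h => psi_inj x y h)).trans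
    (MulEquiv.subgroupCongr range_psi)

lemma card_Q : Nat.card Q = 8 := by
  rw [← Nat.card_congr equivQ.toEquiv, Nat.card_eq_fintype_card, QuaternionGroup.card]

lemma card_center : Nat.card (Subgroup.center G) = 2 := by
  have hmem : ∀ z : G, z ∈ Subgroup.center G ↔ z = 1 ∨ z = mone := by
    intro z
    constructor
    · intro hz
      apply d_center z (mem_elts z)
      intro g _
      exact (Subgroup.mem_center_iff.1 hz g).symm ▸ rfl
    · rintro (rfl | rfl)
      · exact Subgroup.one_mem _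
      · rw [Subgroup.mem_center_iff]
        intro g
        exact (d_center2 g (mem_elts g))
  rw [Nat.card_eq_two_iff]
  refine ⟨⟨1, (hmem 1).2 (Or.inl rfl)⟩, ⟨mone, (hmem _).2 (Or.inr rfl)⟩, ?_, ?_⟩
  · intro h
    exact d_mone_ne (congrArg Subtype.val h).symm
  · ext ⟨z, hz⟩
    simp only [Set.mem_insert_iff, Set.mem_singleton_iff, Set.mem_univ, iff_true, Subtype.mk.injEq]
    exact (hmem z).1 hz

section normal

variable (N : Subgroup G) (hN : N.Normal)
include hN

lemma conj_mem' {g u : G} (hg : g ∈ N) : u * g * inv2 u ∈ N := by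
  rw [← inv2_eq]; exact hN.conj_mem g hg u

lemma Q_le_of_mem {c : G} (hc : c ∈ N) (h4 : c ^ 4 = 1) (h1 : c ≠ 1) (hm : c ≠ mone) : Q ≤ N := by
  intro q hq
  obtain ⟨u, -, h⟩ := d_D3 c (mem_elts c) h4 h1 hm q (mem_elts q) hq
  have h2 := conj_mem' N hN (u := u) hc
  rcases h with h | h | h
  · rw [h]; exact h2
  · rw [h]; exact N.mul_mem h2 h2
  · rw [h]; exact N.one_mem

lemma normal_cases : N = ⊥ ∨ N = ⊤ ∨ N = Subgroup.center G ∨ N = commutator G := by
  by_cases h1 : ∃ g ∈ N, g ^ 4 ≠ 1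
  · obtain ⟨g, hg, hg4⟩ := h1
    right; left
    obtain ⟨u, -, h41, h42, h43⟩ := d_D1 g (mem_elts g) hg4
    have hc : g * u * inv2 g * inv2 u ∈ N := by
      have h3 : inv2 g ∈ N := by rw [← inv2_eq]; exact N.inv_mem hg
      have h4 := conj_mem' N hN (u := u) h3
      have : g * u * inv2 g * inv2 u = g * (u * inv2 g * inv2 u) := by group
      rw [this]
      exact N.mul_mem hg h4
    have hQ := Q_le_of_mem N hN hc h41 h42 h43
    rw [eq_top_iff]
    intro x _
    rcases d_D2 g (mem_elts g) hg4 x (mem_elts x) with h | h | h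
    · exact hQ h
    · have : x = inv2 g * (g * x) := by rw [← inv2_eq]; group
      rw [this, ← inv2_eq]
      exact N.mul_mem (N.inv_mem hg) (hQ h)
    · have h' := hQ h
      have : x = g * (inv2 g * x) := by rw [← inv2_eq]; group
      rw [this]
      exact N.mul_mem hg h'
  · push Not at h1
    by_cases h2 : ∃ g ∈ N, g ≠ 1 ∧ g ≠ mone
    · obtain ⟨g, hg, h21, h22⟩ := h2
      right; right; right
      rw [comm_eq_Q]
      exact le_antisymm (fun x hx => h1 x hx) (Q_le_of_mem N hN hg (h1 g hg) h21 h22)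
    · push Not at h2
      have hcenter : ∀ z : G, z ∈ Subgroup.center G ↔ z = 1 ∨ z = mone := by
        intro z
        constructor
        · intro hz
          apply d_center z (mem_elts z)
          intro g _
          exact (Subgroup.mem_center_iff.1 hz g).symm ▸ rfl
        · rintro (rfl | rfl)
          · exact Subgroup.one_mem _
          · rw [Subgroup.mem_center_iff]
            intro g
            exact (d_center2 g (mem_elts g))
      by_cases hm : mone ∈ N
      · right; right; left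
        ext z
        rw [hcenter]
        constructor
        · intro hz
          by_cases hz1 : z = 1
          · exact Or.inl hz1
          · exact Or.inr (h2 z hz hz1)
        · rintro (rfl | rfl)
          · exact N.one_mem
          · exact hm
      · left
        rw [eq_bot_iff]
        intro z hz
        rw [Subgroup.mem_bot]
        by_contra hz1
        exact hm (h2 z hz hz1 ▸ hz)

end normal

/-- The group SL₂ over the field with 3 elements has order 24 and centre of order 2; its commutator subgroup has order 8, is isomorphic to the quaternion group of order 8 and is complemented by every Sylow 3-subgroup (so the group is a semidirect product of a quaternion group of order 8 by a cyclic group of order 3); and its only normal subgroups besides the trivial subgroup and the whole group are the centre and the commutator subgroup. -/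
theorem result :
    Nat.card (Matrix.SpecialLinearGroup (Fin 2) (ZMod 3)) = 24 ∧
    Nat.card (Subgroup.center (Matrix.SpecialLinearGroup (Fin 2) (ZMod 3))) = 2 ∧
    Nat.card (commutator (Matrix.SpecialLinearGroup (Fin 2) (ZMod 3))) = 8 ∧
    Nonempty (commutator (Matrix.SpecialLinearGroup (Fin 2) (ZMod 3)) ≃* QuaternionGroup 2) ∧
    (∀ P : Sylow 3 (Matrix.SpecialLinearGroup (Fin 2) (ZMod 3)),
      Subgroup.IsComplement' (commutator (Matrix.SpecialLinearGroup (Fin 2) (ZMod 3)))
        (P : Subgroup (Matrix.SpecialLinearGroup (Fin 2) (ZMod 3)))) ∧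
    ∀ N : Subgroup (Matrix.SpecialLinearGroup (Fin 2) (ZMod 3)), N.Normal →
      N = ⊥ ∨ N = ⊤ ∨ N = Subgroup.center (Matrix.SpecialLinearGroup (Fin 2) (ZMod 3)) ∨
        N = commutator (Matrix.SpecialLinearGroup (Fin 2) (ZMod 3)) := by
  have hcard : Nat.card (commutator G) = 8 := by rw [comm_eq_Q]; exact card_Q
  refine ⟨card_G, card_center, hcard, ⟨?_⟩, ?_, normal_cases⟩
  · rw [comm_eq_Q]; exact equivQ.symm
  · intro P
    haveI : Fact (Nat.Prime 3) := ⟨Nat.prime_three⟩
    have hP : Nat.card P = 3 := by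
      rw [Sylow.card_eq_multiplicity, card_G]
      have : Nat.factorization 24 3 = 1 := by decide +kernel
      rw [this, pow_one]
    apply Subgroup.isComplement'_of_coprime
    · rw [hcard, hP, card_G]
    · rw [hcard, hP]; norm_num

end Cfsg.Agent.S2427
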