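import Cfsg.Statements.S2428
import Mathlib

set_option autoImplicit false
open Cfsg

namespace Cfsg.Agent.S2428

open Matrix

variable {F : Type*} [Field F]

abbrev SL2 (F : Type*) [Field F] := Matrix.SpecialLinearGroup (Fin 2) F

/-- monomial elements -/
def mo (a : Fˣ) : SL2 F := ⟨!![(a : F), 0; 0, ((a⁻¹ : Fˣ) : F)], by simp [Matrix.det_fin_two]⟩
/-- antidiagonal elements -/
def an (s : Fˣ) : SL2 F := ⟨!![0, (s : F); -((s⁻¹ : Fˣ) : F), 0], by simp [Matrix.det_fin_two]⟩

lemma mo_mul_mo (a b : Fˣ) : (mo a * mo b : SL2 F) = mo (a * b) := by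
  apply Matrix.SpecialLinearGroup.ext
  intro i j
  change (!![(a : F), 0; 0, ((a⁻¹ : Fˣ) : F)] * !![(b : F), 0; 0, ((b⁻¹ : Fˣ) : F)]) i j = _
  fin_cases i <;> fin_cases j <;> simp [mo, Matrix.mul_apply, Fin.sum_univ_two, mul_comm]

lemma mo_mul_an (a s : Fˣ) : (mo a * an s : SL2 F) = an (a * s) := by
  apply Matrix.SpecialLinearGroup.ext
  intro i j
  change (!![(a : F), 0; 0, ((a⁻¹ : Fˣ) : F)] * !![0, (s : F); -((s⁻¹ : Fˣ) : F), 0]) i j = _
  fin_cases i <;> fin_cases j <;> simp [an, Matrix.mul_apply, Fin.sum_univ_two, mul_comm]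

lemma an_mul_mo (s a : Fˣ) : (an s * mo a : SL2 F) = an (s * a⁻¹) := by
  apply Matrix.SpecialLinearGroup.ext
  intro i j
  change (!![0, (s : F); -((s⁻¹ : Fˣ) : F), 0] * !![(a : F), 0; 0, ((a⁻¹ : Fˣ) : F)]) i j = _
  fin_cases i <;> fin_cases j <;> simp [an, Matrix.mul_apply, Fin.sum_univ_two, mul_comm]

lemma an_mul_an (s t : Fˣ) : (an s * an t : SL2 F) = mo (-(s * t⁻¹)) := by
  apply Matrix.SpecialLinearGroup.ext
  intro i j
  change (!![0, (s : F); -((s⁻¹ : Fˣ) : F), 0] * !![0, (t : F); -((t⁻¹ : Fˣ) : F), 0]) i j = _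
  fin_cases i <;> fin_cases j <;> simp [mo, Matrix.mul_apply, Fin.sum_univ_two, mul_comm]

lemma mo_one : (mo 1 : SL2 F) = 1 := by
  apply Matrix.SpecialLinearGroup.ext
  intro i j
  fin_cases i <;> fin_cases j <;> simp [mo]

lemma mo_inv (a : Fˣ) : (mo a : SL2 F)⁻¹ = mo a⁻¹ := by
  rw [inv_eq_iff_mul_eq_one, mo_mul_mo, mul_inv_cancel, mo_one]

lemma an_inv (s : Fˣ) : (an s : SL2 F)⁻¹ = an (-s) := by
  rw [inv_eq_iff_mul_eq_one, an_mul_an]
  simp only [inv_neg, mul_neg, neg_neg, mul_inv_cancel, mo_one]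

lemma mo_inj {a b : Fˣ} (h : (mo a : SL2 F) = mo b) : a = b := by
  have := congrArg (fun z : SL2 F => z.1 0 0) h
  exact Units.ext (by simpa [mo] using this)

lemma an_inj {a b : Fˣ} (h : (an a : SL2 F) = an b) : a = b := by
  have := congrArg (fun z : SL2 F => z.1 0 1) h
  exact Units.ext (by simpa [an] using this)

lemma mo_ne_an (a s : Fˣ) : (mo a : SL2 F) ≠ an s := by
  intro h
  have := congrArg (fun z : SL2 F => z.1 0 0) h
  simp [mo, an] at this

/-- diagonal matrices are `mo` elements -/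
lemma eq_mo_of_diag (g : SL2 F) (h01 : g.1 0 1 = 0) (h10 : g.1 1 0 = 0) : ∃ a : Fˣ, g = mo a := by
  have hd := g.2
  rw [Matrix.det_fin_two, h01, h10, mul_zero, sub_zero] at hd
  have h0 : g.1 0 0 ≠ 0 := left_ne_zero_of_mul_eq_one hd
  refine ⟨Units.mk0 _ h0, ?_⟩
  apply Matrix.SpecialLinearGroup.ext
  intro i j
  have h11 : g.1 1 1 = (g.1 0 0)⁻¹ := eq_inv_of_mul_eq_one_right hd
  fin_cases i <;> fin_cases j <;> simp [mo, h01, h10, h11]

lemma eq_an_of_antidiag (g : SL2 F) (h00 : g.1 0 0 = 0) (h11 : g.1 1 1 = 0) : ∃ s : Fˣ, g = an s := by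
  have hd := g.2
  rw [Matrix.det_fin_two, h00, h11, mul_zero, zero_sub, neg_eq_iff_eq_neg] at hd
  have h0 : g.1 0 1 ≠ 0 := left_ne_zero_of_mul_eq_one (a := g.1 0 1) (b := - g.1 1 0) (by
    rw [mul_neg, hd, neg_neg])
  refine ⟨Units.mk0 _ h0, ?_⟩
  apply Matrix.SpecialLinearGroup.ext
  intro i j
  have h10 : g.1 1 0 = -(g.1 0 1)⁻¹ := by
    field_simp
    linear_combination hd
  fin_cases i <;> fin_cases j <;> simp [an, h00, h11, h10]

lemma mul_entry (x y : SL2 F) (i j : Fin 2) :
    (x * y).1 i j = x.1 i 0 * y.1 0 j + x.1 i 1 * y.1 1 j := by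
  change (x.1 * y.1) i j = _
  rw [Matrix.mul_apply, Fin.sum_univ_two]

@[simp] lemma mo00 (a : Fˣ) : (mo a : SL2 F).1 0 0 = a := rfl
@[simp] lemma mo01 (a : Fˣ) : (mo a : SL2 F).1 0 1 = 0 := rfl
@[simp] lemma mo10 (a : Fˣ) : (mo a : SL2 F).1 1 0 = 0 := rfl
@[simp] lemma mo11 (a : Fˣ) : (mo a : SL2 F).1 1 1 = ((a⁻¹ : Fˣ) : F) := rfl
@[simp] lemma an00 (a : Fˣ) : (an a : SL2 F).1 0 0 = 0 := rfl
@[simp] lemma an01 (a : Fˣ) : (an a : SL2 F).1 0 1 = a := rfl
@[simp] lemma an10 (a : Fˣ) : (an a : SL2 F).1 1 0 = -((a⁻¹ : Fˣ) : F) := rfl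
@[simp] lemma an11 (a : Fˣ) : (an a : SL2 F).1 1 1 = 0 := rfl

lemma sub_inv_ne {a : Fˣ} (hda : (a : F) ^ 2 ≠ 1) : ((a⁻¹ : Fˣ) : F) - a ≠ 0 := by
  intro h
  apply hda
  have hinv : ((a⁻¹ : Fˣ) : F) = (a : F)⁻¹ := Units.val_inv_eq_inv_val a
  have h0 : (a : F) ≠ 0 := a.ne_zero
  rw [hinv, sub_eq_zero] at h
  field_simp at h
  linear_combination -h

section

variable (a : Fˣ) (hda : (a : F) ^ 2 ≠ 1)
include hda

lemma mem_cent_iff (g : SL2 F) : g ∈ Subgroup.centralizer ({mo a} : Set (SL2 F)) ↔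
    (g.1 0 1 = 0 ∧ g.1 1 0 = 0) := by
  rw [Subgroup.mem_centralizer_singleton_iff]
  have ha := sub_inv_ne hda
  constructor
  · intro h
    have h' : g * mo a = mo a * g := h
    have e01 := congrArg (fun z : SL2 F => z.1 0 1) h'
    have e10 := congrArg (fun z : SL2 F => z.1 1 0) h'
    simp only [mul_entry, mo00, mo01, mo10, mo11, mul_zero, zero_mul, add_zero, zero_add] at e01 e10
    constructor
    · have : (((a⁻¹ : Fˣ) : F) - a) * g.1 0 1 = 0 := by
        rw [sub_mul]
        linear_combination e01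
      exact (mul_eq_zero.1 this).resolve_left ha
    · have : (((a⁻¹ : Fˣ) : F) - a) * g.1 1 0 = 0 := by
        rw [sub_mul]
        linear_combination -e10
      exact (mul_eq_zero.1 this).resolve_left ha
  · rintro ⟨h1, h2⟩
    obtain ⟨b, rfl⟩ := eq_mo_of_diag g h1 h2
    change mo b * mo a = mo a * mo b
    rw [mo_mul_mo, mo_mul_mo, mul_comm]

lemma mem_norm_iff (g : SL2 F) :
    g ∈ Subgroup.normalizer ((Subgroup.centralizer ({mo a} : Set (SL2 F))) : Set (SL2 F)) ↔
    (∃ b, g = mo b) ∨ (∃ s, g = an s) := by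
  rw [Subgroup.mem_normalizer_iff]
  constructor
  · intro h
    have hmem : mo a ∈ Subgroup.centralizer ({mo a} : Set (SL2 F)) :=
      (mem_cent_iff a hda _).2 ⟨rfl, rfl⟩
    have h1 := (h (mo a)).1 hmem
    rw [mem_cent_iff a hda] at h1
    obtain ⟨b, hb⟩ := eq_mo_of_diag _ h1.1 h1.2
    have hgd : g * mo a = mo b * g := by
      rw [← hb]; group
    have e00 := congrArg (fun z : SL2 F => z.1 0 0) hgd
    have e01 := congrArg (fun z : SL2 F => z.1 0 1) hgd
    have e10 := congrArg (fun z : SL2 F => z.1 1 0) hgd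
    have e11 := congrArg (fun z : SL2 F => z.1 1 1) hgd
    simp only [mul_entry, mo00, mo01, mo10, mo11, mul_zero, zero_mul, add_zero, zero_add] at e00 e01 e10 e11
    have ha := sub_inv_ne hda
    by_cases h00 : g.1 0 0 = 0
    · right
      have hd := g.2
      rw [Matrix.det_fin_two, h00, zero_mul, zero_sub] at hd
      have h01 : g.1 0 1 ≠ 0 := by
        intro h; rw [h] at hd; simp at hd
      have hb' : ((a⁻¹ : Fˣ) : F) = b := (mul_right_cancel₀ h01 (by rw [mul_comm]; exact e01))
      have h11 : g.1 1 1 = 0 := by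
        have : (((a⁻¹ : Fˣ) : F) - a) * g.1 1 1 = 0 := by
          have hba : ((b⁻¹ : Fˣ) : F) = a := by
            have : b = a⁻¹ := Units.ext hb'.symm
            rw [this, inv_inv]
          rw [hba] at e11
          linear_combination e11
        exact (mul_eq_zero.1 this).resolve_left ha
      exact eq_an_of_antidiag g h00 h11
    · left
      have hb' : (a : F) = b := (mul_right_cancel₀ h00 (by rw [mul_comm]; exact e00))
      have hba : ((b⁻¹ : Fˣ) : F) = ((a⁻¹ : Fˣ) : F) := by
        have : b = a := Units.ext hb'.symm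
        rw [this]
      rw [hba] at e10
      rw [← hb'] at e01
      have h01 : g.1 0 1 = 0 := by
        have : (((a⁻¹ : Fˣ) : F) - a) * g.1 0 1 = 0 := by
          linear_combination e01
        exact (mul_eq_zero.1 this).resolve_left ha
      have h10 : g.1 1 0 = 0 := by
        have : (((a⁻¹ : Fˣ) : F) - a) * g.1 1 0 = 0 := by
          linear_combination -e10
        exact (mul_eq_zero.1 this).resolve_left ha
      exact eq_mo_of_diag g h01 h10
  · have hconj : ∀ x : SL2 F, ((∃ b, x = mo b) ∨ (∃ s, x = an s)) → ∀ h : SL2 F,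
        h ∈ Subgroup.centralizer ({mo a} : Set (SL2 F)) →
        x * h * x⁻¹ ∈ Subgroup.centralizer ({mo a} : Set (SL2 F)) := by
      rintro x hx h hh
      rw [mem_cent_iff a hda] at hh
      obtain ⟨c, rfl⟩ := eq_mo_of_diag h hh.1 hh.2
      rw [mem_cent_iff a hda]
      rcases hx with ⟨b, rfl⟩ | ⟨s, rfl⟩
      · rw [mo_inv, mo_mul_mo, mo_mul_mo]
        exact ⟨rfl, rfl⟩
      · rw [an_inv, an_mul_mo, an_mul_an]
        exact ⟨rfl, rfl⟩
    have hinvc : ∀ x : SL2 F, ((∃ b, x = mo b) ∨ (∃ s, x = an s)) →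
        ((∃ b, x⁻¹ = mo b) ∨ (∃ s, x⁻¹ = an s)) := by
      rintro x (⟨b, rfl⟩ | ⟨s, rfl⟩)
      · exact Or.inl ⟨_, mo_inv b⟩
      · exact Or.inr ⟨_, an_inv s⟩
    intro hg h
    constructor
    · exact hconj g hg h
    · intro hh
      have := hconj g⁻¹ (hinvc g hg) _ hh
      simpa [mul_assoc] using this

end

section count

variable [Fintype F] [DecidableEq F]

/-- the invariant of a diagonal class -/
def ff (a : Fˣ) : F := (a : F) + ((a⁻¹ : Fˣ) : F)

lemma ff_eq_iff (a b : Fˣ) : ff a = ff b ↔ b = a ∨ b = a⁻¹ := by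
  have ha : (a : F) ≠ 0 := a.ne_zero
  have hb : (b : F) ≠ 0 := b.ne_zero
  have hia : ((a⁻¹ : Fˣ) : F) = (a : F)⁻¹ := Units.val_inv_eq_inv_val a
  have hib : ((b⁻¹ : Fˣ) : F) = (b : F)⁻¹ := Units.val_inv_eq_inv_val b
  unfold ff
  constructor
  · intro h
    rw [hia, hib] at h
    have h2 : ((a : F) - b) * ((a : F) * b - 1) = 0 := by
      field_simp at h
      linear_combination h
    rcases mul_eq_zero.1 h2 with h3 | h3
    · left; exact Units.ext (sub_eq_zero.1 h3).symm
    · right
      apply Units.ext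
      rw [hia]
      field_simp
      linear_combination h3
  · rintro (rfl | rfl)
    · rfl
    · rw [inv_inv, add_comm]

lemma card_image_ff (hodd : Odd (Fintype.card F)) :
    2 * (Finset.univ.image (ff : Fˣ → F)).card = Fintype.card F + 1 := by
  classical
  have hchar : ringChar F ≠ 2 := by
    intro h
    have := FiniteField.even_card_of_char_two h
    exact (Nat.not_even_iff_odd.2 hodd) (Nat.even_iff.2 this)
  have hne : (1 : F) ≠ -1 := Ring.neg_one_ne_one_of_char_ne_two hchar |>.symm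
  have hneU : (1 : Fˣ) ≠ -1 := fun h => hne (by simpa using congrArg Units.val h)
  have hq := Fintype.one_lt_card (α := F)
  set Im := Finset.univ.image (ff : Fˣ → F) with hIm
  have h2 : ff (1 : Fˣ) ∈ Im := Finset.mem_image_of_mem _ (Finset.mem_univ _)
  have hm2 : ff (-1 : Fˣ) ∈ Im := Finset.mem_image_of_mem _ (Finset.mem_univ _)
  have hne2 : ff (1 : Fˣ) ≠ ff (-1 : Fˣ) := by
    intro h
    rcases (ff_eq_iff _ _).1 h with h | h
    · exact hneU h.symm
    · rw [inv_one] at h; exact hneU h.symm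
  have hcard : (Finset.univ : Finset Fˣ).card =
      ∑ y ∈ Im, (Finset.univ.filter (fun a : Fˣ => ff a = y)).card :=
    Finset.card_eq_sum_card_fiberwise (fun a _ => Finset.mem_image_of_mem _ (Finset.mem_univ a))
  have hf1 : (Finset.univ.filter (fun a : Fˣ => ff a = ff (1 : Fˣ))).card = 1 := by
    rw [Finset.card_eq_one]
    refine ⟨1, ?_⟩
    ext a
    simp only [Finset.mem_filter, Finset.mem_univ, true_and, Finset.mem_singleton]
    constructor
    · intro h
      rw [eq_comm, ff_eq_iff] at h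
      simp only [inv_one, or_self] at h
      exact h
    · rintro rfl
      exact rfl
  have hf2 : (Finset.univ.filter (fun a : Fˣ => ff a = ff (-1 : Fˣ))).card = 1 := by
    rw [Finset.card_eq_one]
    refine ⟨-1, ?_⟩
    ext a
    simp only [Finset.mem_filter, Finset.mem_univ, true_and, Finset.mem_singleton]
    constructor
    · intro h
      rw [eq_comm, ff_eq_iff] at h
      simp only [inv_neg, inv_one, or_self] at h
      exact h
    · rintro rfl
      exact rfl
  have hf3 : ∀ y ∈ (Im.erase (ff (1 : Fˣ))).erase (ff (-1 : Fˣ)),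
      (Finset.univ.filter (fun a : Fˣ => ff a = y)).card = 2 := by
    intro y hy
    rw [Finset.mem_erase, Finset.mem_erase] at hy
    obtain ⟨hy1, hy2, hy3⟩ := hy
    obtain ⟨a, -, rfl⟩ := Finset.mem_image.1 hy3
    have hane : a ≠ a⁻¹ := by
      intro h
      have hsq : a * a = 1 := by nth_rw 1 [h]; simp
      have hF : (a : F) * a = 1 := by simpa using congrArg Units.val hsq
      have : (a : F) = 1 ∨ (a : F) = -1 := mul_self_eq_one_iff.1 hF
      rcases this with h1 | h1
      · apply hy2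
        rw [(Units.ext h1 : a = 1)]
      · apply hy1
        rw [(Units.ext (by simpa using h1) : a = -1)]
    have : Finset.univ.filter (fun b : Fˣ => ff b = ff a) = {a, a⁻¹} := by
      ext b
      simp only [Finset.mem_filter, Finset.mem_univ, true_and, Finset.mem_insert,
        Finset.mem_singleton]
      rw [eq_comm, ff_eq_iff]
    rw [this, Finset.card_pair hane]
  have hsum : ∑ y ∈ Im, (Finset.univ.filter (fun a : Fˣ => ff a = y)).card =
      1 + (1 + 2 * ((Im.erase (ff (1 : Fˣ))).erase (ff (-1 : Fˣ))).card) := by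
    rw [← Finset.add_sum_erase _ _ h2, hf1, ← Finset.add_sum_erase _ _
      (Finset.mem_erase.2 ⟨hne2.symm, hm2⟩), hf2, Finset.sum_congr rfl hf3, Finset.sum_const,
      smul_eq_mul, mul_comm]
  rw [Finset.card_univ, Fintype.card_units, hsum] at hcard
  have h3 : ((Im.erase (ff (1 : Fˣ))).erase (ff (-1 : Fˣ))).card + 1 + 1 = Im.card := by
    rw [Finset.card_erase_of_mem (Finset.mem_erase.2 ⟨hne2.symm, hm2⟩),
      Finset.card_erase_of_mem h2]
    have : 1 < Im.card := by
      rw [Finset.one_lt_card]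
      exact ⟨_, h2, _, hm2, hne2⟩
    have h4 : 0 < (Im.erase (ff (1 : Fˣ))).card := by
      rw [Finset.card_pos]
      exact ⟨_, Finset.mem_erase.2 ⟨hne2.symm, hm2⟩⟩
    rw [Finset.card_erase_of_mem h2] at h4
    omega
  omega

lemma isSq_mul {t s : F} (ht : t ≠ 0) : IsSquare (t * t * s) ↔ IsSquare s := by
  constructor
  · rintro ⟨r, hr⟩
    refine ⟨r / t, ?_⟩
    field_simp
    linear_combination hr
  · rintro ⟨r, hr⟩
    exact ⟨t * r, by rw [hr]; ring⟩

lemma isConj_sub_iff {G : Type*} [Group G] {N : Subgroup G} (x y : N) :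
    IsConj x y ↔ ∃ c : N, c.1 * x.1 = y.1 * c.1 := by
  rw [isConj_iff]
  constructor
  · rintro ⟨c, hc⟩
    refine ⟨c, ?_⟩
    have := mul_inv_eq_iff_eq_mul.1 hc
    exact congrArg Subtype.val this
  · rintro ⟨c, hc⟩
    exact ⟨c, mul_inv_eq_iff_eq_mul.2 (Subtype.ext hc)⟩

section

variable (a : Fˣ) (hda : (a : F) ^ 2 ≠ 1)
include hda

/-- order and class number of the normaliser -/
lemma card_norm :
    Nat.card (Subgroup.normalizer ((Subgroup.centralizer ({mo a} : Set (SL2 F))) : Set (SL2 F))) =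
      2 * (Fintype.card F - 1) := by
  classical
  let φ : Fˣ ⊕ Fˣ → Subgroup.normalizer ((Subgroup.centralizer ({mo a} : Set (SL2 F))) : Set (SL2 F)) :=
    fun x => match x with
    | Sum.inl b => ⟨mo b, (mem_norm_iff a hda _).2 (Or.inl ⟨b, rfl⟩)⟩
    | Sum.inr s => ⟨an s, (mem_norm_iff a hda _).2 (Or.inr ⟨s, rfl⟩)⟩
  have hφ : Function.Bijective φ := by
    constructor
    · rintro (b | s) (b' | s') h
      · exact congrArg _ (mo_inj (congrArg Subtype.val h))
      · exact absurd (congrArg Subtype.val h) (mo_ne_an _ _)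
      · exact absurd (congrArg Subtype.val h).symm (mo_ne_an _ _)
      · exact congrArg _ (an_inj (congrArg Subtype.val h))
    · rintro ⟨g, hg⟩
      rcases (mem_norm_iff a hda _).1 hg with ⟨b, rfl⟩ | ⟨s, rfl⟩
      · exact ⟨Sum.inl b, rfl⟩
      · exact ⟨Sum.inr s, rfl⟩
  rw [← Nat.card_congr (Equiv.ofBijective φ hφ), Nat.card_eq_fintype_card, Fintype.card_sum,
    Fintype.card_units]
  ring

lemma card_classes (hodd : Odd (Fintype.card F)) :
    Nat.card (ConjClasses (Subgroup.normalizer ((Subgroup.centralizer ({mo a} : Set (SL2 F))) : Set (SL2 F)))) =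
      (Fintype.card F + 5) / 2 := by
  classical
  have hchar : ringChar F ≠ 2 := by
    intro h
    have := FiniteField.even_card_of_char_two h
    exact (Nat.not_even_iff_odd.2 hodd) (Nat.even_iff.2 this)
  obtain ⟨n, hn⟩ := FiniteField.exists_nonsquare hchar
  have hn0 : n ≠ 0 := fun h => hn (by simp [h])
  set N := Subgroup.normalizer ((Subgroup.centralizer ({mo a} : Set (SL2 F))) : Set (SL2 F)) with hN
  let mo' : Fˣ → N := fun b => ⟨mo b, (mem_norm_iff a hda _).2 (Or.inl ⟨b, rfl⟩)⟩
  let an' : Fˣ → N := fun s => ⟨an s, (mem_norm_iff a hda _).2 (Or.inr ⟨s, rfl⟩)⟩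
  have hcases : ∀ c : N, (∃ b, c = mo' b) ∨ (∃ s, c = an' s) := by
    rintro ⟨g, hg⟩
    rcases (mem_norm_iff a hda _).1 hg with ⟨b, rfl⟩ | ⟨s, rfl⟩
    · exact Or.inl ⟨b, rfl⟩
    · exact Or.inr ⟨s, rfl⟩
  -- conjugacy criteria
  have hmm : ∀ b b' : Fˣ, IsConj (mo' b) (mo' b') ↔ ff b = ff b' := by
    intro b b'
    rw [ff_eq_iff, isConj_sub_iff]
    constructor
    · rintro ⟨c, hc⟩
      rcases hcases c with ⟨t, rfl⟩ | ⟨t, rfl⟩
      · change mo t * mo b = mo b' * mo t at hc
        rw [mo_mul_mo, mo_mul_mo] at hc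
        left
        have := mo_inj hc
        exact (mul_left_cancel (a := t) (by rw [this]; exact mul_comm _ _)).symm
      · change an t * mo b = mo b' * an t at hc
        rw [an_mul_mo, mo_mul_an] at hc
        right
        have := an_inj hc
        have h2 : b' * t = b⁻¹ * t := by rw [← this]; exact mul_comm _ _
        exact mul_right_cancel h2
    · rintro (rfl | rfl)
      · exact ⟨1, by simp⟩
      · refine ⟨an' 1, ?_⟩
        change an 1 * mo b = mo b⁻¹ * an 1
        rw [an_mul_mo, mo_mul_an]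
        simp
  have hma : ∀ b s : Fˣ, ¬ IsConj (mo' b) (an' s) := by
    intro b s h
    rw [isConj_sub_iff] at h
    obtain ⟨c, hc⟩ := h
    rcases hcases c with ⟨t, rfl⟩ | ⟨t, rfl⟩
    · change mo t * mo b = an s * mo t at hc
      rw [mo_mul_mo, an_mul_mo] at hc
      exact mo_ne_an _ _ hc
    · change an t * mo b = an s * an t at hc
      rw [an_mul_mo, an_mul_an] at hc
      exact mo_ne_an _ _ hc.symm
  have haa : ∀ s s' : Fˣ, IsConj (an' s) (an' s') ↔ (IsSquare (s : F) ↔ IsSquare (s' : F)) := by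
    intro s s'
    have hchi : ∀ x : Fˣ, quadraticChar F (x : F) = 1 ∨ quadraticChar F (x : F) = -1 :=
      fun x => quadraticChar_dichotomy x.ne_zero
    rw [isConj_sub_iff]
    constructor
    · rintro ⟨c, hc⟩
      rcases hcases c with ⟨t, rfl⟩ | ⟨t, rfl⟩
      · change mo t * an s = an s' * mo t at hc
        rw [mo_mul_an, an_mul_mo] at hc
        have h1 := an_inj hc
        have h2 : (s' : F) = (t : F) * t * s := by
          have := congrArg Units.val h1
          simp only [Units.val_mul, Units.val_inv_eq_inv_val] at this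
          have ht : (t : F) ≠ 0 := t.ne_zero
          field_simp at this
          linear_combination -this
        rw [h2]
        exact (isSq_mul t.ne_zero).symm
      · change an t * an s = an s' * an t at hc
        rw [an_mul_an, an_mul_an] at hc
        have h1 := mo_inj hc
        have h2 : (s : F) * s' = (t : F) * t := by
          have := congrArg Units.val h1
          simp only [Units.val_neg, Units.val_mul, Units.val_inv_eq_inv_val, neg_inj] at this
          have ht : (t : F) ≠ 0 := t.ne_zero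
          have hs : (s : F) ≠ 0 := s.ne_zero
          field_simp at this
          linear_combination -this
        have h3 : quadraticChar F (s : F) * quadraticChar F (s' : F) = 1 := by
          rw [← map_mul, h2]
          exact (quadraticChar_one_iff_isSquare (mul_ne_zero t.ne_zero t.ne_zero)).2 ⟨t, rfl⟩
        rw [← quadraticChar_one_iff_isSquare s.ne_zero, ← quadraticChar_one_iff_isSquare s'.ne_zero]
        rcases hchi s with h | h <;> rcases hchi s' with h' | h' <;> rw [h, h'] at h3 ⊢ <;>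
          first | exact Iff.rfl | (exfalso; revert h3; decide)
    · intro h
      -- `s' / s` is a square
      have h3 : IsSquare ((s' : F) * s) := by
        have h1 : quadraticChar F ((s' : F) * s) = 1 := by
          rw [map_mul]
          by_cases hs : IsSquare (s : F)
          · rw [(quadraticChar_one_iff_isSquare s.ne_zero).2 hs,
              (quadraticChar_one_iff_isSquare s'.ne_zero).2 (h.1 hs)]
            norm_num
          · have hs' : ¬ IsSquare (s' : F) := fun h2 => hs (h.2 h2)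
            rw [quadraticChar_neg_one_iff_not_isSquare.2 hs,
              quadraticChar_neg_one_iff_not_isSquare.2 hs']
            norm_num
        exact (quadraticChar_one_iff_isSquare (mul_ne_zero s'.ne_zero s.ne_zero)).1 h1
      obtain ⟨r, hr⟩ := h3
      have hr0 : r ≠ 0 := by
        rintro rfl
        simp at hr
      refine ⟨an' (Units.mk0 r hr0), ?_⟩
      change an (Units.mk0 r hr0) * an s = an s' * an (Units.mk0 r hr0)
      rw [an_mul_an, an_mul_an]
      congr 2
      apply Units.ext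
      simp only [Units.val_mul, Units.val_inv_eq_inv_val, Units.val_mk0]
      have hs : (s : F) ≠ 0 := s.ne_zero
      field_simp
      linear_combination -hr
  -- the parametrisation
  set Im := Finset.univ.image (ff : Fˣ → F) with hIm
  have hr : ∀ y : {y // y ∈ Im}, ∃ b : Fˣ, ff b = y.1 := by
    rintro ⟨y, hy⟩
    obtain ⟨b, -, hb⟩ := Finset.mem_image.1 hy
    exact ⟨b, hb⟩
  choose r hr using hr
  let bb : Bool → Fˣ := fun f => if f then 1 else Units.mk0 n hn0
  have hbb : ∀ e, IsSquare ((bb e : Fˣ) : F) ↔ e = true := by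
    intro e
    cases e
    · simpa [bb] using hn
    · simp [bb]
  let Φ : {y // y ∈ Im} ⊕ Bool → ConjClasses N := fun x => match x with
    | Sum.inl y => ConjClasses.mk (mo' (r y))
    | Sum.inr e => ConjClasses.mk (an' (bb e))
  have hΦ : Function.Bijective Φ := by
    constructor
    · rintro (y | e) (y' | e') h
      · have h1 : IsConj (mo' (r y)) (mo' (r y')) := ConjClasses.mk_eq_mk_iff_isConj.1 h
        have h2 := (hmm _ _).1 h1
        rw [hr, hr] at h2
        exact congrArg _ (Subtype.ext h2)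
      · exact absurd (ConjClasses.mk_eq_mk_iff_isConj.1 h) (hma _ _)
      · exact absurd (ConjClasses.mk_eq_mk_iff_isConj.1 h).symm (hma _ _)
      · have h1 : IsConj (an' (bb e)) (an' (bb e')) := ConjClasses.mk_eq_mk_iff_isConj.1 h
        have h2 := (haa _ _).1 h1
        rw [hbb, hbb] at h2
        rw [Bool.eq_iff_iff.2 h2]
    · intro C
      obtain ⟨x, rfl⟩ := ConjClasses.mk_surjective C
      rcases hcases x with ⟨b, rfl⟩ | ⟨s, rfl⟩
      · refine ⟨Sum.inl ⟨ff b, Finset.mem_image_of_mem _ (Finset.mem_univ _)⟩, ?_⟩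
        apply ConjClasses.mk_eq_mk_iff_isConj.2
        rw [hmm, hr]
      · refine ⟨Sum.inr (decide (IsSquare (s : F))), ?_⟩
        apply ConjClasses.mk_eq_mk_iff_isConj.2
        rw [haa, hbb]
        simp
  rw [← Nat.card_congr (Equiv.ofBijective Φ hΦ), Nat.card_eq_fintype_card, Fintype.card_sum,
    Fintype.card_bool, Fintype.card_coe]
  have := card_image_ff (F := F) hodd
  rw [← hIm] at this
  omega

end

end count

/-- Let F be a finite field with q elements, q odd, and let d be a diagonal element of SL₂ over F whose diagonal entry a has a² ≠ 1 (such d exist exactly when q > 3). Then the centraliser of d is precisely the diagonal subgroup T; the normaliser of T has order 2(q − 1) and exactly (q + 5)/2 conjugacy classes; and every element of that normaliser outside T has square equal to −1. -/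
theorem result {F : Type*} [Field F] [Fintype F] (hodd : Odd (Fintype.card F))
    (d : Matrix.SpecialLinearGroup (Fin 2) F) (hd01 : (d : Matrix (Fin 2) (Fin 2) F) 0 1 = 0) (hd10 : (d : Matrix (Fin 2) (Fin 2) F) 1 0 = 0) (hda : (d : Matrix (Fin 2) (Fin 2) F) 0 0 ^ 2 ≠ 1) :
    (∀ g : Matrix.SpecialLinearGroup (Fin 2) F, g ∈ Subgroup.centralizer ({d} : Set (Matrix.SpecialLinearGroup (Fin 2) F)) ↔ ((g : Matrix (Fin 2) (Fin 2) F) 0 1 = 0 ∧ (g : Matrix (Fin 2) (Fin 2) F) 1 0 = 0)) ∧
    Nat.card (Subgroup.normalizer ((Subgroup.centralizer ({d} : Set (Matrix.SpecialLinearGroup (Fin 2) F))) : Set (Matrix.SpecialLinearGroup (Fin 2) F))) = 2 * (Fintype.card F - 1) ∧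
    Nat.card (ConjClasses (Subgroup.normalizer ((Subgroup.centralizer ({d} : Set (Matrix.SpecialLinearGroup (Fin 2) F))) : Set (Matrix.SpecialLinearGroup (Fin 2) F)))) = (Fintype.card F + 5) / 2 ∧
    ∀ g : Matrix.SpecialLinearGroup (Fin 2) F, g ∈ Subgroup.normalizer ((Subgroup.centralizer ({d} : Set (Matrix.SpecialLinearGroup (Fin 2) F))) : Set (Matrix.SpecialLinearGroup (Fin 2) F)) →
      g ∉ Subgroup.centralizer ({d} : Set (Matrix.SpecialLinearGroup (Fin 2) F)) → ((g * g) : Matrix (Fin 2) (Fin 2) F) = -1 := by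
  classical
  obtain ⟨a, rfl⟩ := eq_mo_of_diag d hd01 hd10
  have hda' : (a : F) ^ 2 ≠ 1 := hda
  refine ⟨mem_cent_iff a hda', card_norm a hda', card_classes a hda' hodd, ?_⟩
  intro g hg hg'
  rcases (mem_norm_iff a hda' g).1 hg with ⟨b, rfl⟩ | ⟨s, rfl⟩
  · exact absurd ((mem_cent_iff a hda' _).2 ⟨rfl, rfl⟩) hg'
  · ext i j
    have h1 : ((an s : SL2 F) : Matrix (Fin 2) (Fin 2) F) * (an s : SL2 F) = ((an s * an s : SL2 F)) := rfl
    rw [h1, an_mul_an]
    fin_cases i <;> fin_cases j <;> simp [mo]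

end Cfsg.Agent.S2428
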