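import Cfsg.Statements.S2437
import Mathlib

set_option autoImplicit false
open Cfsg

namespace Cfsg.Agent.S2437

open Matrix

variable {F : Type*} [Field F]

abbrev Bor (F : Type*) [Field F] : Subgroup (SpecialLinearGroup (Fin 2) F) :=
  (Cfsg.upperTriangularGL 2 F).comap Matrix.SpecialLinearGroup.toGL

lemma mem_bor_iff (x : SpecialLinearGroup (Fin 2) F) : x ∈ Bor F ↔ x.1 1 0 = 0 := by
  change (x.1 : Matrix (Fin 2) (Fin 2) F).BlockTriangular id ↔ _
  constructor
  · intro h
    exact h (by simp)
  · intro h i j hij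
    simp only [id] at hij
    fin_cases i <;> fin_cases j <;> simp_all

/-- the element of the Borel with diagonal `s, s⁻¹` and upper entry `t`. -/
def mkB (s : Fˣ) (t : F) : Bor F :=
  ⟨⟨!![(s : F), t; 0, ((s⁻¹ : Fˣ) : F)], by simp [Matrix.det_fin_two]⟩,
    (mem_bor_iff _).2 (by simp)⟩

lemma mkB_mul (s a : Fˣ) (t b : F) :
    mkB s t * mkB a b = mkB (s * a) ((s : F) * b + t * ((a⁻¹ : Fˣ) : F)) := by
  apply Subtype.ext
  apply Matrix.SpecialLinearGroup.ext
  intro i j
  change (!![(s : F), t; 0, ((s⁻¹ : Fˣ) : F)] * !![(a : F), b; 0, ((a⁻¹ : Fˣ) : F)]) i j = _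
  fin_cases i <;> fin_cases j <;>
    simp [mkB, Matrix.mul_apply, Fin.sum_univ_two, mul_comm]

lemma exists_mkB (x : Bor F) : ∃ (a : Fˣ) (b : F), x = mkB a b := by
  obtain ⟨⟨M, hdet⟩, hx⟩ := x
  have h10 : M 1 0 = 0 := (mem_bor_iff _).1 hx
  rw [Matrix.det_fin_two, h10, mul_zero, sub_zero] at hdet
  have h0 : M 0 0 ≠ 0 := left_ne_zero_of_mul_eq_one hdet
  refine ⟨Units.mk0 _ h0, M 0 1, ?_⟩
  apply Subtype.ext
  apply Matrix.SpecialLinearGroup.ext
  have h11 : M 1 1 = (M 0 0)⁻¹ := eq_inv_of_mul_eq_one_right hdet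
  intro i j
  fin_cases i <;> fin_cases j <;> simp [mkB, h10, h11]

lemma mkB_inj {a a' : Fˣ} {b b' : F} (h : mkB a b = mkB a' b') : a = a' ∧ b = b' := by
  have h' := congrArg (fun x : Bor F => x.1.1) h
  simp only [mkB] at h'
  have h1 := congrFun (congrFun h' 0) 0
  have h2 := congrFun (congrFun h' 0) 1
  simp at h1 h2
  exact ⟨Units.ext h1, h2⟩

lemma isConj_mkB_iff {a a' : Fˣ} {b b' : F} : IsConj (mkB a b) (mkB a' b') ↔
    a = a' ∧ ∃ (s : Fˣ) (t : F),
      b' = (s : F) ^ 2 * b + s * t * (((a⁻¹ : Fˣ) : F) - a) := by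
  constructor
  · intro hc
    obtain ⟨c, hc⟩ := isConj_iff.1 hc
    obtain ⟨s, t, rfl⟩ := exists_mkB c
    have h := mul_inv_eq_iff_eq_mul.1 hc
    rw [mkB_mul, mkB_mul] at h
    obtain ⟨h1, h2⟩ := mkB_inj h
    have ha : a = a' := by
      have : s * a = s * a' := by rw [h1]; exact mul_comm _ _
      exact mul_left_cancel this
    subst ha
    refine ⟨rfl, s, t, ?_⟩
    have hs : (s : F) ≠ 0 := s.ne_zero
    have hinv : ((s⁻¹ : Fˣ) : F) = (s : F)⁻¹ := Units.val_inv_eq_inv_val s
    rw [hinv] at h2
    field_simp at h2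
    linear_combination -h2
  · rintro ⟨rfl, s, t, h⟩
    refine isConj_iff.2 ⟨mkB s t, mul_inv_eq_iff_eq_mul.2 ?_⟩
    rw [mkB_mul, mkB_mul, mul_comm s a]
    congr 1
    have hs : (s : F) ≠ 0 := s.ne_zero
    have hinv : ((s⁻¹ : Fˣ) : F) = (s : F)⁻¹ := Units.val_inv_eq_inv_val s
    rw [hinv, h]
    field_simp
    ring

section main

variable [Fintype F]

lemma sq_inv_sub {a : Fˣ} (h : (a : F) ^ 2 = 1) : ((a⁻¹ : Fˣ) : F) - a = 0 := by
  have hinv : ((a⁻¹ : Fˣ) : F) = (a : F)⁻¹ := Units.val_inv_eq_inv_val a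
  have h0 : (a : F) ≠ 0 := a.ne_zero
  rw [hinv, sub_eq_zero]
  field_simp
  linear_combination -h

/-- Over a finite field F with q elements, q odd, the upper triangular subgroup of SL₂ (a Borel subgroup, of order q(q − 1)) has exactly q + 3 conjugacy classes. -/
theorem result_aux (hodd : Odd (Fintype.card F)) :
    Nat.card (ConjClasses (Bor F)) = Fintype.card F + 3 := by
  classical
  have hchar : ringChar F ≠ 2 := by
    intro h
    have := FiniteField.even_card_of_char_two h
    exact (Nat.not_even_iff_odd.2 hodd) (Nat.even_iff.2 this)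
  have hne : (1 : F) ≠ -1 := Ring.neg_one_ne_one_of_char_ne_two hchar |>.symm
  have hneU : (1 : Fˣ) ≠ -1 := fun h => hne (by simpa using congrArg Units.val h)
  obtain ⟨n, hn⟩ := FiniteField.exists_nonsquare hchar
  have hn0 : n ≠ 0 := fun h => hn (by simp [h])
  let eps : Bool → Fˣ := fun e => if e then 1 else -1
  let bb : Bool → F := fun f => if f then 1 else n
  have heps : ∀ e, ((eps e : Fˣ) : F) ^ 2 = 1 := by
    intro e; cases e <;> simp [eps]
  have hbb : ∀ f, bb f ≠ 0 := by
    intro f; cases f <;> simp [bb, hn0]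
  let Φ : Fˣ ⊕ (Bool × Bool) → ConjClasses (Bor F) := fun x => match x with
    | Sum.inl a => ConjClasses.mk (mkB a 0)
    | Sum.inr p => ConjClasses.mk (mkB (eps p.1) (bb p.2))
  have hinj : Function.Injective Φ := by
    rintro (a | ⟨e, f⟩) (a' | ⟨e', f'⟩) h
    · have h' : IsConj (mkB a 0) (mkB a' 0) := ConjClasses.mk_eq_mk_iff_isConj.1 h
      rw [(isConj_mkB_iff.1 h').1]
    · exfalso
      have h' : IsConj (mkB a 0) (mkB (eps e') (bb f')) := ConjClasses.mk_eq_mk_iff_isConj.1 h
      obtain ⟨rfl, s, t, hb⟩ := isConj_mkB_iff.1 h'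
      rw [sq_inv_sub (heps e')] at hb
      simp only [mul_zero, add_zero] at hb
      exact hbb f' hb
    · exfalso
      have h' : IsConj (mkB a' 0) (mkB (eps e) (bb f)) :=
        ConjClasses.mk_eq_mk_iff_isConj.1 h.symm
      obtain ⟨rfl, s, t, hb⟩ := isConj_mkB_iff.1 h'
      rw [sq_inv_sub (heps e)] at hb
      simp only [mul_zero, add_zero] at hb
      exact hbb f hb
    · have h' : IsConj (mkB (eps e) (bb f)) (mkB (eps e') (bb f')) :=
        ConjClasses.mk_eq_mk_iff_isConj.1 h
      obtain ⟨he, s, t, hb⟩ := isConj_mkB_iff.1 h'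
      rw [sq_inv_sub (heps e), mul_zero, add_zero] at hb
      have hee : e = e' := by
        cases e <;> cases e' <;> simp_all [eps]
      subst hee
      have hff : f = f' := by
        cases f <;> cases f'
        · rfl
        · exfalso
          simp only [bb, if_true, Bool.false_eq_true, if_false] at hb
          apply hn
          -- `1 = s² n`
          refine ⟨(s⁻¹ : Fˣ), ?_⟩
          have h0 : (s : F) ≠ 0 := s.ne_zero
          have hinv : ((s⁻¹ : Fˣ) : F) = (s : F)⁻¹ := Units.val_inv_eq_inv_val s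
          rw [hinv]
          field_simp
          linear_combination -hb
        · exfalso
          simp only [bb, if_true, Bool.false_eq_true, if_false] at hb
          apply hn
          refine ⟨(s : F), ?_⟩
          rw [hb]; ring
        · rfl
      rw [hff]
  have hsurj : Function.Surjective Φ := by
    intro C
    obtain ⟨x, rfl⟩ := ConjClasses.mk_surjective C
    obtain ⟨a, b, rfl⟩ := exists_mkB x
    by_cases ha : (a : F) ^ 2 = 1
    · by_cases hb : b = 0
      · exact ⟨Sum.inl a, by simp [Φ, hb]⟩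
      · -- `a = eps e`
        obtain ⟨e, he⟩ : ∃ e, a = eps e := by
          rcases sq_eq_one_iff.1 ha with h | h
          · exact ⟨true, Units.ext (by simpa [eps] using h)⟩
          · exact ⟨false, Units.ext (by simpa [eps] using h)⟩
        subst he
        by_cases hsq : IsSquare b
        · obtain ⟨s, hs⟩ := hsq
          have hs0 : s ≠ 0 := by rintro rfl; exact hb (by simpa using hs)
          refine ⟨Sum.inr (e, true), ?_⟩
          refine ConjClasses.mk_eq_mk_iff_isConj.2 (isConj_mkB_iff.2 ⟨rfl, Units.mk0 s hs0, 0, ?_⟩)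
          rw [hs]
          simp [bb]
          ring
        · -- `b = s² n`
          have hq : IsSquare (b * n) := by
            have h1 : quadraticChar F b = -1 := (quadraticChar_neg_one_iff_not_isSquare).2 hsq
            have h2 : quadraticChar F n = -1 := (quadraticChar_neg_one_iff_not_isSquare).2 hn
            have h3 : quadraticChar F (b * n) = 1 := by
              rw [map_mul, h1, h2]; norm_num
            exact (quadraticChar_one_iff_isSquare (mul_ne_zero hb hn0)).1 h3
          obtain ⟨s, hs⟩ := hq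
          have hs0 : s ≠ 0 := by
            rintro rfl
            simp [hb, hn0] at hs
          have hr0 : s / n ≠ 0 := div_ne_zero hs0 hn0
          refine ⟨Sum.inr (e, false), ?_⟩
          refine ConjClasses.mk_eq_mk_iff_isConj.2 (isConj_mkB_iff.2 ⟨rfl, Units.mk0 _ hr0, 0, ?_⟩)
          have hb' : b = (s / n) ^ 2 * n := by
            field_simp
            linear_combination hs
          simp only [bb, Bool.false_eq_true, if_false, Units.val_mk0, mul_zero, zero_mul, add_zero]
          exact hb'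
    · refine ⟨Sum.inl a, ?_⟩
      have hne0 : ((a⁻¹ : Fˣ) : F) - a ≠ 0 := by
        intro h
        have hinv : ((a⁻¹ : Fˣ) : F) = (a : F)⁻¹ := Units.val_inv_eq_inv_val a
        have h0 : (a : F) ≠ 0 := a.ne_zero
        rw [hinv, sub_eq_zero] at h
        apply ha
        field_simp at h
        linear_combination -h
      refine ConjClasses.mk_eq_mk_iff_isConj.2 (isConj_mkB_iff.2 ⟨rfl, 1, b / (((a⁻¹ : Fˣ) : F) - a), ?_⟩)
      simp only [Units.val_one, one_pow, one_mul, mul_zero, add_zero, zero_add]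
      field_simp
  have hcard : Nat.card (Fˣ ⊕ (Bool × Bool)) = Fintype.card F + 3 := by
    rw [Nat.card_eq_fintype_card, Fintype.card_sum, Fintype.card_units, Fintype.card_prod,
      Fintype.card_bool]
    have := Fintype.card_pos (α := F)
    omega
  rw [← hcard]
  exact (Nat.card_congr (Equiv.ofBijective Φ ⟨hinj, hsurj⟩)).symm

theorem result {F : Type*} [Field F] [Fintype F] (hodd : Odd (Fintype.card F)) :
    Nat.card (ConjClasses ((Cfsg.upperTriangularGL 2 F).comap Matrix.SpecialLinearGroup.toGL)) = Fintype.card F + 3 :=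
  result_aux hodd

end main

end Cfsg.Agent.S2437
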