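import Cfsg.Statements.S2433
import Cfsg.Agent.S2437

set_option autoImplicit false
open Cfsg

namespace Cfsg.Agent.S2433

open Matrix Cfsg.Agent.S2437

variable {F : Type*} [Field F]

/-- first column. -/
def col (x : SpecialLinearGroup (Fin 2) F) : Fin 2 → F := fun i => x.1 i 0

lemma col_eq_mulVec (x : SpecialLinearGroup (Fin 2) F) : col x = x.1.mulVec ![1, 0] := by
  ext i
  simp [col, Matrix.mulVec, dotProduct, Fin.sum_univ_two]

lemma col_ne_zero (x : SpecialLinearGroup (Fin 2) F) : col x ≠ 0 := by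
  intro h
  have h0 : x.1 0 0 = 0 := congrFun h 0
  have h1 : x.1 1 0 = 0 := congrFun h 1
  have := x.2
  rw [Matrix.det_fin_two, h0, h1] at this
  simp at this

lemma key (x g : SpecialLinearGroup (Fin 2) F) (c : F) :
    g.1.mulVec (col x) = c • col x ↔ (x⁻¹ * g * x).1 1 0 = 0 ∧ (x⁻¹ * g * x).1 0 0 = c := by
  set Y := x⁻¹ * g * x with hY
  have hXY : x.1 * Y.1 = g.1 * x.1 := by
    have : x * Y = g * x := by rw [hY]; group
    exact congrArg (fun z : SpecialLinearGroup (Fin 2) F => z.1) this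
  have hinj : Function.Injective (x.1.mulVec) := by
    apply Matrix.mulVec_injective_of_isUnit
    rw [Matrix.isUnit_iff_isUnit_det, x.2]
    exact isUnit_one
  have h1 : g.1.mulVec (col x) = x.1.mulVec (Y.1.mulVec ![1, 0]) := by
    rw [col_eq_mulVec, Matrix.mulVec_mulVec, Matrix.mulVec_mulVec, hXY]
  have h2 : c • col x = x.1.mulVec (c • ![1, 0]) := by
    rw [col_eq_mulVec, Matrix.mulVec_smul]
  rw [h1, h2, hinj.eq_iff]
  constructor
  · intro h
    have h0 := congrFun h 0
    have h1 := congrFun h 1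
    simp [Matrix.mulVec, dotProduct, Fin.sum_univ_two] at h0 h1
    exact ⟨h1, h0⟩
  · rintro ⟨h1, h0⟩
    ext i
    fin_cases i <;> simp [Matrix.mulVec, dotProduct, Fin.sum_univ_two, h0, h1]

/-- existence of a matrix with a prescribed first column -/
lemma exists_col (v : Fin 2 → F) (hv : v ≠ 0) : ∃ x : SpecialLinearGroup (Fin 2) F, col x = v := by
  by_cases h0 : v 0 = 0
  · have h1 : v 1 ≠ 0 := by
      intro h1
      apply hv
      ext i; fin_cases i
      · simpa using h0
      · simpa using h1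
    refine ⟨⟨!![v 0, -(v 1)⁻¹; v 1, 0], by simp [Matrix.det_fin_two, h1]⟩, ?_⟩
    ext i; fin_cases i <;> simp [col]
  · refine ⟨⟨!![v 0, 0; v 1, (v 0)⁻¹], by simp [Matrix.det_fin_two, h0]⟩, ?_⟩
    ext i; fin_cases i <;> simp [col]

/-- the upper unitriangular element -/
def uu (t : F) : SpecialLinearGroup (Fin 2) F :=
  ⟨!![1, t; 0, 1], by simp [Matrix.det_fin_two]⟩

lemma col_mul_uu (x : SpecialLinearGroup (Fin 2) F) (t : F) : col (x * uu t) = col x := by
  ext i
  change (x.1 * !![1, t; 0, 1]) i 0 = x.1 i 0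
  simp [Matrix.mul_apply, Fin.sum_univ_two]

lemma exists_uu_of_col_eq (x y : SpecialLinearGroup (Fin 2) F) (h : col x = col y) :
    ∃ t, y = x * uu t := by
  set z := x⁻¹ * y with hz
  have hY : y = x * z := by rw [hz]; group
  have hcol : col z = ![1, 0] := by
    have h1 : x.1.mulVec (col z) = x.1.mulVec ![1, 0] := by
      rw [← col_eq_mulVec, h, col_eq_mulVec y, col_eq_mulVec z, Matrix.mulVec_mulVec, hY]
      rfl
    have hinj : Function.Injective (x.1.mulVec) := by
      apply Matrix.mulVec_injective_of_isUnit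
      rw [Matrix.isUnit_iff_isUnit_det, x.2]
      exact isUnit_one
    exact hinj h1
  have h00 : z.1 0 0 = 1 := congrFun hcol 0
  have h10 : z.1 1 0 = 0 := congrFun hcol 1
  have hd := z.2
  rw [Matrix.det_fin_two, h00, h10] at hd
  simp only [one_mul, mul_zero, sub_zero] at hd
  refine ⟨z.1 0 1, ?_⟩
  rw [hY]
  congr 1
  apply Matrix.SpecialLinearGroup.ext
  intro i j
  change z.1 i j = !![1, z.1 0 1; 0, 1] i j
  fin_cases i <;> fin_cases j <;> simp [h00, h10, hd]

variable [Fintype F] [DecidableEq F]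

lemma card_fiber (v : Fin 2 → F) (hv : v ≠ 0) :
    (Finset.univ.filter (fun x : SpecialLinearGroup (Fin 2) F => col x = v)).card = Fintype.card F := by
  obtain ⟨x, hx⟩ := exists_col v hv
  rw [← Finset.card_univ (α := F)]
  symm
  apply Finset.card_bij (fun t _ => x * uu t)
  · intro t _
    simp [col_mul_uu, hx]
  · intro t _ t' _ h
    have h' := mul_left_cancel h
    have := congrArg (fun z : SpecialLinearGroup (Fin 2) F => z.1 0 1) h'
    simpa [uu] using this
  · intro y hy
    have hy' : col y = v := by simpa using hy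
    obtain ⟨t, rfl⟩ := exists_uu_of_col_eq x y (by rw [hx, hy'])
    exact ⟨t, Finset.mem_univ _, rfl⟩

lemma card_filter_col (P : (Fin 2 → F) → Prop) [DecidablePred P] :
    (Finset.univ.filter (fun x : SpecialLinearGroup (Fin 2) F => P (col x))).card =
      Fintype.card F * (Finset.univ.filter (fun v : Fin 2 → F => v ≠ 0 ∧ P v)).card := by
  classical
  rw [Finset.card_eq_sum_card_fiberwise (f := col)
    (t := Finset.univ.filter (fun v : Fin 2 → F => v ≠ 0 ∧ P v))]
  · rw [Finset.sum_congr rfl (g := fun _ => Fintype.card F)]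
    · simp [mul_comm]
    · intro v hv
      have hv' : v ≠ 0 ∧ P v := by simpa using hv
      rw [← card_fiber v hv'.1]
      congr 1
      ext x
      simp only [Finset.mem_filter, Finset.mem_univ, true_and]
      constructor
      · rintro ⟨_, h⟩; exact h
      · intro h; exact ⟨h ▸ hv'.2, h⟩
  · intro x hx
    have hx' : P (col x) := by simpa using hx
    simp [col_ne_zero, hx']

lemma card_bor : Nat.card (Bor F) = (Fintype.card F - 1) * Fintype.card F := by
  classical
  have hb : Function.Bijective (fun p : Fˣ × F => mkB p.1 p.2) := by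
    constructor
    · rintro ⟨a, b⟩ ⟨a', b'⟩ h
      obtain ⟨h1, h2⟩ := mkB_inj h
      exact Prod.ext h1 h2
    · intro x
      obtain ⟨a, b, rfl⟩ := exists_mkB x
      exact ⟨(a, b), rfl⟩
  rw [← Nat.card_congr (Equiv.ofBijective _ hb), Nat.card_eq_fintype_card, Fintype.card_prod,
    Fintype.card_units]

lemma eig_iff (g : SpecialLinearGroup (Fin 2) F) (v : Fin 2 → F) (c : F) :
    g.1.mulVec v = c • v ↔ g.1 0 0 * v 0 + g.1 0 1 * v 1 = c * v 0 ∧
      g.1 1 0 * v 0 + g.1 1 1 * v 1 = c * v 1 := by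
  constructor
  · intro h
    have h0 := congrFun h 0
    have h1 := congrFun h 1
    simpa [Matrix.mulVec, dotProduct, Fin.sum_univ_two] using And.intro h0 h1
  · rintro ⟨h0, h1⟩
    ext i
    fin_cases i <;> simp [Matrix.mulVec, dotProduct, Fin.sum_univ_two, h0, h1]

/-- number of eigenvectors with eigenvalue `c` -/
noncomputable def nEig (g : SpecialLinearGroup (Fin 2) F) (c : F) : ℕ :=
  (Finset.univ.filter (fun v : Fin 2 → F => v ≠ 0 ∧ g.1.mulVec v = c • v)).card

lemma extend_eq (α : MulChar F ℂ) (x g : SpecialLinearGroup (Fin 2) F) :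
    Cfsg.extendByZero (Bor F) (fun b => α ((b : SpecialLinearGroup (Fin 2) F).1 0 0)) (x⁻¹ * g * x) =
      ∑ c : F, if g.1.mulVec (col x) = c • col x then α c else 0 := by
  by_cases h10 : (x⁻¹ * g * x).1 1 0 = 0
  · have hmem : x⁻¹ * g * x ∈ Bor F := (mem_bor_iff _).2 h10
    have h1 : Cfsg.extendByZero (Bor F) (fun b => α ((b : SpecialLinearGroup (Fin 2) F).1 0 0))
        (x⁻¹ * g * x) = α ((x⁻¹ * g * x).1 0 0) :=
      Function.Injective.extend_apply (f := (Subtype.val : Bor F → SpecialLinearGroup (Fin 2) F))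
        Subtype.val_injective (fun b : Bor F => α ((b : SpecialLinearGroup (Fin 2) F).1 0 0)) 0
        ⟨_, hmem⟩
    rw [h1]
    simp only [key, h10, true_and]
    rw [Finset.sum_ite_eq]
    simp
  · have hnot : x⁻¹ * g * x ∉ Bor F := fun h => h10 ((mem_bor_iff _).1 h)
    have h1 : Cfsg.extendByZero (Bor F) (fun b => α ((b : SpecialLinearGroup (Fin 2) F).1 0 0))
        (x⁻¹ * g * x) = 0 := by
      apply Function.extend_apply'
      rintro ⟨b, hb⟩
      exact hnot (hb ▸ b.2)
    rw [h1]
    simp only [key, h10, false_and, if_false, Finset.sum_const_zero]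

lemma two_le_card : 2 ≤ Fintype.card F := Fintype.one_lt_card

lemma indFun_eq (α : MulChar F ℂ) (g : SpecialLinearGroup (Fin 2) F) :
    Cfsg.indFun (Bor F) (fun b => α ((b : SpecialLinearGroup (Fin 2) F).1 0 0)) g =
      ((Fintype.card F - 1 : ℕ) : ℂ)⁻¹ * ∑ c : F, α c * (nEig g c : ℂ) := by
  have hq := two_le_card (F := F)
  have hq0 : ((Fintype.card F : ℕ) : ℂ) ≠ 0 := by
    exact_mod_cast (by omega : Fintype.card F ≠ 0)
  have hq1 : ((Fintype.card F - 1 : ℕ) : ℂ) ≠ 0 := by
    exact_mod_cast (by omega : Fintype.card F - 1 ≠ 0)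
  unfold Cfsg.indFun
  simp only [extend_eq]
  rw [Finset.sum_comm, card_bor]
  have h1 : ∀ c : F, (∑ x : SpecialLinearGroup (Fin 2) F,
      if g.1.mulVec (col x) = c • col x then α c else 0) =
      (Fintype.card F : ℂ) * (α c * (nEig g c : ℂ)) := by
    intro c
    rw [← Finset.sum_filter, Finset.sum_const, nsmul_eq_mul]
    have := card_filter_col (F := F) (fun v => g.1.mulVec v = c • v)
    rw [this]
    push_cast
    unfold nEig
    ring
  simp only [h1]
  rw [← Finset.mul_sum]
  push_cast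
  field_simp

lemma card_e0 : (Finset.univ.filter (fun v : Fin 2 → F => v ≠ 0 ∧ v 1 = 0)).card =
    Fintype.card F - 1 := by
  rw [← Fintype.card_units, ← Finset.card_univ (α := Fˣ)]
  symm
  apply Finset.card_bij (fun (s : Fˣ) _ => (![(s : F), 0] : Fin 2 → F))
  · intro s _
    simp only [Finset.mem_filter, Finset.mem_univ, true_and]
    refine ⟨fun h => s.ne_zero (by simpa using congrFun h 0), by simp⟩
  · intro s _ s' _ h
    exact Units.ext (by simpa using congrFun h 0)
  · intro v hv
    have hv' : v ≠ 0 ∧ v 1 = 0 := by simpa using hv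
    have h0 : v 0 ≠ 0 := by
      intro h
      apply hv'.1
      ext i; fin_cases i
      · simpa using h
      · simpa using hv'.2
    refine ⟨Units.mk0 _ h0, Finset.mem_univ _, ?_⟩
    ext i; fin_cases i
    · simp
    · simp [hv'.2]

lemma card_e1 : (Finset.univ.filter (fun v : Fin 2 → F => v ≠ 0 ∧ v 0 = 0)).card =
    Fintype.card F - 1 := by
  rw [← Fintype.card_units, ← Finset.card_univ (α := Fˣ)]
  symm
  apply Finset.card_bij (fun (s : Fˣ) _ => (![0, (s : F)] : Fin 2 → F))
  · intro s _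
    simp only [Finset.mem_filter, Finset.mem_univ, true_and]
    refine ⟨fun h => s.ne_zero (by simpa using congrFun h 1), by simp⟩
  · intro s _ s' _ h
    exact Units.ext (by simpa using congrFun h 1)
  · intro v hv
    have hv' : v ≠ 0 ∧ v 0 = 0 := by simpa using hv
    have h0 : v 1 ≠ 0 := by
      intro h
      apply hv'.1
      ext i; fin_cases i
      · simpa using hv'.2
      · simpa using h
    refine ⟨Units.mk0 _ h0, Finset.mem_univ _, ?_⟩
    ext i; fin_cases i
    · simp [hv'.2]
    · simp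

lemma card_all : (Finset.univ.filter (fun v : Fin 2 → F => v ≠ 0)).card =
    Fintype.card F ^ 2 - 1 := by
  rw [Finset.filter_ne', Finset.card_erase_of_mem (Finset.mem_univ _), Finset.card_univ]
  simp

section cases

variable (g : SpecialLinearGroup (Fin 2) F)

lemma v_zero {v : Fin 2 → F} (h0 : v 0 = 0) (h1 : v 1 = 0) : v = 0 := by
  ext i; fin_cases i
  · simpa using h0
  · simpa using h1

lemma case1 (α : MulChar F ℂ) (h01 : g.1 0 1 = 0) (h10 : g.1 1 0 = 0) (hne : g.1 0 0 ≠ g.1 1 1) :
    ∑ c : F, α c * (nEig g c : ℂ) =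
      ((Fintype.card F - 1 : ℕ) : ℂ) * (α (g.1 0 0) + α (g.1 1 1)) := by
  rw [Finset.sum_eq_add (g.1 0 0) (g.1 1 1) hne]
  · have ha : nEig g (g.1 0 0) = Fintype.card F - 1 := by
      rw [← card_e0]
      unfold nEig
      congr 1
      ext v
      simp only [Finset.mem_filter, Finset.mem_univ, true_and, eig_iff, h01, h10, zero_mul,
        add_zero, zero_add]
      constructor
      · rintro ⟨h, h2⟩
        refine ⟨h, ?_⟩
        have : (g.1 1 1 - g.1 0 0) * v 1 = 0 := by rw [sub_mul, h2, sub_self]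
        exact (mul_eq_zero.1 this).resolve_left (sub_ne_zero.2 hne.symm)
      · rintro ⟨h, h2⟩
        exact ⟨h, by rw [h2]; ring⟩
    have hd : nEig g (g.1 1 1) = Fintype.card F - 1 := by
      rw [← card_e1]
      unfold nEig
      congr 1
      ext v
      simp only [Finset.mem_filter, Finset.mem_univ, true_and, eig_iff, h01, h10, zero_mul,
        add_zero, zero_add]
      constructor
      · rintro ⟨h, h2, -⟩
        refine ⟨h, ?_⟩
        have : (g.1 0 0 - g.1 1 1) * v 0 = 0 := by rw [sub_mul, h2, sub_self]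
        exact (mul_eq_zero.1 this).resolve_left (sub_ne_zero.2 hne)
      · rintro ⟨h, h2⟩
        exact ⟨h, by rw [h2]; ring, trivial⟩
    rw [ha, hd]
    ring
  · intro c _ hc
    have : nEig g c = 0 := by
      unfold nEig
      rw [Finset.card_eq_zero, Finset.filter_eq_empty_iff]
      rintro v - ⟨hv, he⟩
      rw [eig_iff, h01, h10, zero_mul, zero_mul, add_zero, zero_add] at he
      apply hv
      apply v_zero
      · have : (g.1 0 0 - c) * v 0 = 0 := by rw [sub_mul, he.1, sub_self]
        exact (mul_eq_zero.1 this).resolve_left (sub_ne_zero.2 (Ne.symm hc.1))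
      · have : (g.1 1 1 - c) * v 1 = 0 := by rw [sub_mul, he.2, sub_self]
        exact (mul_eq_zero.1 this).resolve_left (sub_ne_zero.2 (Ne.symm hc.2))
    rw [this]; simp
  · intro h; exact absurd (Finset.mem_univ _) h
  · intro h; exact absurd (Finset.mem_univ _) h

lemma case2 (α : MulChar F ℂ) (h : ∀ (c : F) (v : Fin 2 → F), v ≠ 0 → g.1.mulVec v ≠ c • v) :
    ∑ c : F, α c * (nEig g c : ℂ) = 0 := by
  apply Finset.sum_eq_zero
  intro c _
  have : nEig g c = 0 := by
    unfold nEig
    rw [Finset.card_eq_zero, Finset.filter_eq_empty_iff]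
    rintro v - ⟨hv, he⟩
    exact h c v hv he
  rw [this]; simp

lemma case3 (α : MulChar F ℂ) (h10 : g.1 1 0 = 0) (h : g.1 0 0 = g.1 1 1) (h01 : g.1 0 1 ≠ 0) :
    ∑ c : F, α c * (nEig g c : ℂ) = ((Fintype.card F - 1 : ℕ) : ℂ) * α (g.1 0 0) := by
  rw [Finset.sum_eq_single (g.1 0 0)]
  · have ha : nEig g (g.1 0 0) = Fintype.card F - 1 := by
      rw [← card_e0]
      unfold nEig
      congr 1
      ext v
      simp only [Finset.mem_filter, Finset.mem_univ, true_and, eig_iff, h10, zero_mul, zero_add]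
      constructor
      · rintro ⟨hv, h1, -⟩
        refine ⟨hv, ?_⟩
        have : g.1 0 1 * v 1 = 0 := by linear_combination h1
        exact (mul_eq_zero.1 this).resolve_left h01
      · rintro ⟨hv, h2⟩
        refine ⟨hv, by rw [h2]; ring, by rw [h2]; ring⟩
    rw [ha]; ring
  · intro c _ hc
    have : nEig g c = 0 := by
      unfold nEig
      rw [Finset.card_eq_zero, Finset.filter_eq_empty_iff]
      rintro v - ⟨hv, he⟩
      rw [eig_iff, h10, zero_mul, zero_add] at he
      apply hv
      have hv1 : v 1 = 0 := by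
        have : (g.1 1 1 - c) * v 1 = 0 := by rw [sub_mul, he.2, sub_self]
        exact (mul_eq_zero.1 this).resolve_left (sub_ne_zero.2 (by rw [← h]; exact Ne.symm hc))
      apply v_zero _ hv1
      have := he.1
      rw [hv1, mul_zero, add_zero] at this
      have : (g.1 0 0 - c) * v 0 = 0 := by rw [sub_mul, this, sub_self]
      exact (mul_eq_zero.1 this).resolve_left (sub_ne_zero.2 (Ne.symm hc))
    rw [this]; simp
  · intro h'; exact absurd (Finset.mem_univ _) h'

lemma case4 (α : MulChar F ℂ) (h01 : g.1 0 1 = 0) (h10 : g.1 1 0 = 0) (h : g.1 0 0 = g.1 1 1) :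
    ∑ c : F, α c * (nEig g c : ℂ) = ((Fintype.card F ^ 2 - 1 : ℕ) : ℂ) * α (g.1 0 0) := by
  rw [Finset.sum_eq_single (g.1 0 0)]
  · have ha : nEig g (g.1 0 0) = Fintype.card F ^ 2 - 1 := by
      rw [← card_all]
      unfold nEig
      congr 1
      ext v
      simp only [Finset.mem_filter, Finset.mem_univ, true_and, eig_iff, h10, h01, zero_mul,
        zero_add, add_zero, ← h, and_true]
    rw [ha]; ring
  · intro c _ hc
    have : nEig g c = 0 := by
      unfold nEig
      rw [Finset.card_eq_zero, Finset.filter_eq_empty_iff]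
      rintro v - ⟨hv, he⟩
      rw [eig_iff, h10, h01, zero_mul, zero_mul, add_zero, zero_add, ← h] at he
      apply hv
      apply v_zero
      · have : (g.1 0 0 - c) * v 0 = 0 := by rw [sub_mul, he.1, sub_self]
        exact (mul_eq_zero.1 this).resolve_left (sub_ne_zero.2 (Ne.symm hc))
      · have : (g.1 0 0 - c) * v 1 = 0 := by rw [sub_mul, he.2, sub_self]
        exact (mul_eq_zero.1 this).resolve_left (sub_ne_zero.2 (Ne.symm hc))
    rw [this]; simp
  · intro h'; exact absurd (Finset.mem_univ _) h'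

end cases

/-- Let F be a finite field with q elements, q odd, α a multiplicative character of F, and R(α) the function on SL₂ induced from the linear character b ↦ α(b₁₁) of the upper triangular subgroup. Then R(α) takes the value α(a) + α(a⁻¹) at a diagonal element with entries a, a⁻¹, a² ≠ 1; the value 0 at every element with no eigenvector in F²; the value α(ε) at an upper triangular element with both diagonal entries ε and non-zero upper right entry; and the value (q + 1)α(ε) at the scalar element ε (ε = ±1). -/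
theorem result {F : Type*} [Field F] [Fintype F] [DecidableEq F] (hodd : Odd (Fintype.card F)) (α : MulChar F ℂ) (g : Matrix.SpecialLinearGroup (Fin 2) F) :
    ((g : Matrix (Fin 2) (Fin 2) F) 0 1 = 0 → (g : Matrix (Fin 2) (Fin 2) F) 1 0 = 0 → (g : Matrix (Fin 2) (Fin 2) F) 0 0 ^ 2 ≠ 1 →
      (Cfsg.indFun ((Cfsg.upperTriangularGL 2 F).comap Matrix.SpecialLinearGroup.toGL) (fun b => α (((b : Matrix.SpecialLinearGroup (Fin 2) F) : Matrix (Fin 2) (Fin 2) F) 0 0))) g = α ((g : Matrix (Fin 2) (Fin 2) F) 0 0) + α ((g : Matrix (Fin 2) (Fin 2) F) 1 1)) ∧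
    ((∀ (c : F) (v : Fin 2 → F), v ≠ 0 → (g : Matrix (Fin 2) (Fin 2) F).mulVec v ≠ c • v) → (Cfsg.indFun ((Cfsg.upperTriangularGL 2 F).comap Matrix.SpecialLinearGroup.toGL) (fun b => α (((b : Matrix.SpecialLinearGroup (Fin 2) F) : Matrix (Fin 2) (Fin 2) F) 0 0))) g = 0) ∧
    ((g : Matrix (Fin 2) (Fin 2) F) 1 0 = 0 → (g : Matrix (Fin 2) (Fin 2) F) 0 0 = (g : Matrix (Fin 2) (Fin 2) F) 1 1 → (g : Matrix (Fin 2) (Fin 2) F) 0 1 ≠ 0 →
      (Cfsg.indFun ((Cfsg.upperTriangularGL 2 F).comap Matrix.SpecialLinearGroup.toGL) (fun b => α (((b : Matrix.SpecialLinearGroup (Fin 2) F) : Matrix (Fin 2) (Fin 2) F) 0 0))) g = α ((g : Matrix (Fin 2) (Fin 2) F) 0 0)) ∧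
    ((g : Matrix (Fin 2) (Fin 2) F) 0 1 = 0 → (g : Matrix (Fin 2) (Fin 2) F) 1 0 = 0 → (g : Matrix (Fin 2) (Fin 2) F) 0 0 = (g : Matrix (Fin 2) (Fin 2) F) 1 1 →
      (Cfsg.indFun ((Cfsg.upperTriangularGL 2 F).comap Matrix.SpecialLinearGroup.toGL) (fun b => α (((b : Matrix.SpecialLinearGroup (Fin 2) F) : Matrix (Fin 2) (Fin 2) F) 0 0))) g = ((Fintype.card F : ℂ) + 1) * α ((g : Matrix (Fin 2) (Fin 2) F) 0 0)) := by
  have hq := two_le_card (F := F)
  have hq1 : ((Fintype.card F - 1 : ℕ) : ℂ) ≠ 0 := by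
    exact_mod_cast (by omega : Fintype.card F - 1 ≠ 0)
  refine ⟨fun h01 h10 ha => ?_, fun h => ?_, fun h10 h h01 => ?_, fun h01 h10 h => ?_⟩
  · rw [indFun_eq, case1 g α h01 h10 ?_, ← mul_assoc, inv_mul_cancel₀ hq1, one_mul]
    intro he
    apply ha
    have hd := g.2
    rw [Matrix.det_fin_two, h01, h10, ← he] at hd
    simpa [pow_two] using hd
  · rw [indFun_eq, case2 g α h, mul_zero]
  · rw [indFun_eq, case3 g α h10 h h01, ← mul_assoc, inv_mul_cancel₀ hq1, one_mul]
  · rw [indFun_eq, case4 g α h01 h10 h]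
    obtain ⟨m, hm⟩ : ∃ m, Fintype.card F = m + 1 := ⟨Fintype.card F - 1, by omega⟩
    have hm0 : (m : ℂ) ≠ 0 := by
      rw [hm] at hq1
      simpa using hq1
    rw [hm]
    have h1 : (m + 1) ^ 2 - 1 = m * (m + 2) := by
      have : (m + 1) ^ 2 = m * (m + 2) + 1 := by ring
      omega
    rw [h1]
    have h2 : m + 1 - 1 = m := by omega
    rw [h2]
    push_cast
    field_simp
    ring

end Cfsg.Agent.S2433
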