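import Cfsg.Statements.S2435
import Cfsg.Agent.Lib.H11.SL2D5

set_option autoImplicit false
open Cfsg

namespace Cfsg.Agent.S2435

/-- Let F be a finite field with q elements, q odd and q ≥ 5, and χ an irreducible complex character of SL₂ over F. If χ has degree (q + 1)/2, then at a diagonal element with entry a, a² ≠ 1, χ takes the value 1 when a is a square in F and −1 otherwise. If χ has degree (q − 1)/2, then at an element g with no eigenvector in F² (so g has order dividing q + 1), χ takes the value −1 when g raised to the power (q + 1)/2 is the identity and the value 1 otherwise. -/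
theorem result {F : Type*} [Field F] [Fintype F] (hodd : Odd (Fintype.card F)) (hq : 5 ≤ Fintype.card F)
    (χ : Matrix.SpecialLinearGroup (Fin 2) F → ℂ) (hχ : Cfsg.IsIrrCharacter (Matrix.SpecialLinearGroup (Fin 2) F) χ) (g : Matrix.SpecialLinearGroup (Fin 2) F) :
    (χ 1 = (((Fintype.card F + 1) / 2 : ℕ) : ℂ) → (g : Matrix (Fin 2) (Fin 2) F) 0 1 = 0 → (g : Matrix (Fin 2) (Fin 2) F) 1 0 = 0 → (g : Matrix (Fin 2) (Fin 2) F) 0 0 ^ 2 ≠ 1 →
      (IsSquare ((g : Matrix (Fin 2) (Fin 2) F) 0 0) → χ g = 1) ∧ (¬ IsSquare ((g : Matrix (Fin 2) (Fin 2) F) 0 0) → χ g = -1)) ∧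
    (χ 1 = (((Fintype.card F - 1) / 2 : ℕ) : ℂ) → (∀ (c : F) (v : Fin 2 → F), v ≠ 0 → (g : Matrix (Fin 2) (Fin 2) F).mulVec v ≠ c • v) →
      (((g ^ ((Fintype.card F + 1) / 2)) : Matrix (Fin 2) (Fin 2) F) = 1 → χ g = -1) ∧ (((g ^ ((Fintype.card F + 1) / 2)) : Matrix (Fin 2) (Fin 2) F) ≠ 1 → χ g = 1)) := by
  classical
  letI : Fintype (Matrix.SpecialLinearGroup (Fin 2) F) := Fintype.ofFinite _
  have hodd' := hodd
  obtain ⟨m, hm⟩ := hodd
  have hm2 : 2 ≤ m := by omega
  have e1 : (Fintype.card F + 1) / 2 = m + 1 := by omega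
  have e2 : (Fintype.card F - 1) / 2 = m := by omega
  obtain ⟨χ₁, χ₂, hp⟩ := Cfsg.Agent.H10.exists_halfPair (F := F)
  have hirr := Cfsg.Agent.H10.irr_cases_odd hodd' m hm hp ⟨χ, hχ⟩
  simp only at hirr
  rw [e1, e2]
  refine ⟨?_, ?_⟩
  · intro hdeg h01 h10 h00
    have hd : charDegree χ = m + 1 := Cfsg.Agent.H10.degree_of_value (χ := ⟨χ, hχ⟩) hdeg
    obtain ⟨a, ha, e⟩ := Cfsg.Agent.H10.b1Mk_of_entries g h10
    rw [h01] at e
    have ha2 : (a : F) ^ 2 ≠ 1 := by rw [ha]; exact h00
    have hval : χ g = quadraticChar F (a : F) := by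
      rw [e]
      rcases hirr with h | h | h | h | h | h | h
      · omega
      · omega
      · omega
      · have := Cfsg.Agent.H11.SL2D.half_value hodd' hp a ha2
        rw [← h.1] at this
        exact this
      · have := Cfsg.Agent.H11.SL2D.half_value hodd' hp.symm a ha2
        rw [← h.1] at this
        exact this
      · omega
      · omega
    rw [← ha]
    constructor
    · intro hs
      rw [hval, (quadraticChar_one_iff_isSquare a.ne_zero).2 hs]
      simp
    · intro hs
      rw [hval, quadraticChar_neg_one_iff_not_isSquare.2 hs]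
      simp
  · intro hdeg hg
    have hd : charDegree χ = m := Cfsg.Agent.H10.degree_of_value (χ := ⟨χ, hχ⟩) hdeg
    have hc : Cfsg.Agent.H10.IsCusp1 (⟨χ, hχ⟩ : Cfsg.IrrCharacter (Matrix.SpecialLinearGroup (Fin 2) F)) := by
      rcases hirr with h | h | h | h | h | h | h
      · omega
      · omega
      · omega
      · omega
      · omega
      · exact h.1
      · omega
    have h3 := Cfsg.Agent.H11.SL2D.half_cusp_value hodd' m hm hg ⟨χ, hχ⟩ hc hd
    constructor
    · intro h
      apply h3.1
      exact Subtype.ext h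
    · intro h
      apply h3.2
      intro h'
      apply h
      have h4 := congrArg (fun y : Matrix.SpecialLinearGroup (Fin 2) F => (y : Matrix (Fin 2) (Fin 2) F)) h'
      simpa using h4

end Cfsg.Agent.S2435
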