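import Cfsg.Statements.S2438
import Cfsg.Agent.Lib.H10.PS1Zero
import Cfsg.Agent.Lib.H10.PS1Table

set_option autoImplicit false
open Cfsg

namespace Cfsg.Agent.S2438

/-- Let F be a finite field with q elements, q odd, q ≥ 5, U the upper unitriangular subgroup of SL₂ over F, and χ an irreducible complex character. The sum of the values of χ over U equals 2q, q, 0, q, 0 according as the degree of χ is q + 1, q, q − 1, (q + 1)/2, (q − 1)/2; so among these five degrees the sum vanishes exactly for the degrees q − 1 and (q − 1)/2, i.e. the irreducible characters of those two degrees are the ones whose restriction to U does not contain the trivial character (the cuspidal characters), while those of degree q + 1, q and (q + 1)/2 are not cuspidal. -/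
theorem result {F : Type*} [Field F] [Fintype F] [DecidableEq F] (hodd : Odd (Fintype.card F)) (hq : 5 ≤ Fintype.card F)
    (χ : Matrix.SpecialLinearGroup (Fin 2) F → ℂ) (hχ : Cfsg.IsIrrCharacter (Matrix.SpecialLinearGroup (Fin 2) F) χ) :
    (χ 1 = (Fintype.card F : ℂ) + 1 →
      (∑ g : Matrix.SpecialLinearGroup (Fin 2) F, if (g : Matrix (Fin 2) (Fin 2) F) 1 0 = 0 ∧ (g : Matrix (Fin 2) (Fin 2) F) 0 0 = 1 ∧ (g : Matrix (Fin 2) (Fin 2) F) 1 1 = 1 then χ g else 0) = 2 * (Fintype.card F : ℂ)) ∧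
    (χ 1 = (Fintype.card F : ℂ) →
      (∑ g : Matrix.SpecialLinearGroup (Fin 2) F, if (g : Matrix (Fin 2) (Fin 2) F) 1 0 = 0 ∧ (g : Matrix (Fin 2) (Fin 2) F) 0 0 = 1 ∧ (g : Matrix (Fin 2) (Fin 2) F) 1 1 = 1 then χ g else 0) = (Fintype.card F : ℂ)) ∧
    (χ 1 = (Fintype.card F : ℂ) - 1 →
      (∑ g : Matrix.SpecialLinearGroup (Fin 2) F, if (g : Matrix (Fin 2) (Fin 2) F) 1 0 = 0 ∧ (g : Matrix (Fin 2) (Fin 2) F) 0 0 = 1 ∧ (g : Matrix (Fin 2) (Fin 2) F) 1 1 = 1 then χ g else 0) = 0) ∧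
    (χ 1 = (((Fintype.card F + 1) / 2 : ℕ) : ℂ) →
      (∑ g : Matrix.SpecialLinearGroup (Fin 2) F, if (g : Matrix (Fin 2) (Fin 2) F) 1 0 = 0 ∧ (g : Matrix (Fin 2) (Fin 2) F) 0 0 = 1 ∧ (g : Matrix (Fin 2) (Fin 2) F) 1 1 = 1 then χ g else 0) = (Fintype.card F : ℂ)) ∧
    (χ 1 = (((Fintype.card F - 1) / 2 : ℕ) : ℂ) →
      (∑ g : Matrix.SpecialLinearGroup (Fin 2) F, if (g : Matrix (Fin 2) (Fin 2) F) 1 0 = 0 ∧ (g : Matrix (Fin 2) (Fin 2) F) 0 0 = 1 ∧ (g : Matrix (Fin 2) (Fin 2) F) 1 1 = 1 then χ g else 0) = 0) := by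
  classical
  have hodd' := hodd
  obtain ⟨m, hm⟩ := hodd
  have e1 : (Fintype.card F + 1) / 2 = m + 1 := by omega
  have e2 : (Fintype.card F - 1) / 2 = m := by omega
  have hm2 : 2 ≤ m := by omega
  have hqc := Cfsg.Agent.H10.cast_card_sub_one (F := F)
  have hqc1 : (Fintype.card F : ℂ) + 1 = ((Fintype.card F + 1 : ℕ) : ℂ) := by push_cast; rfl
  obtain ⟨χ₁, χ₂, hp⟩ := Cfsg.Agent.H10.exists_halfPair (F := F)
  have hirr := Cfsg.Agent.H10.irr_cases_odd hodd' m hm hp ⟨χ, hχ⟩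
  simp only at hirr
  have hsum : (∑ g : Matrix.SpecialLinearGroup (Fin 2) F, if (g : Matrix (Fin 2) (Fin 2) F) 1 0 = 0 ∧ (g : Matrix (Fin 2) (Fin 2) F) 0 0 = 1 ∧ (g : Matrix (Fin 2) (Fin 2) F) 1 1 = 1 then χ g else 0) =
      ∑ x : F, χ ((Cfsg.Agent.H10.b1Mk 1 x : Cfsg.Agent.H10.B1 F) : Matrix.SpecialLinearGroup (Fin 2) F) := by
    rw [← Finset.sum_filter]
    symm
    refine Finset.sum_bij (fun x _ => ((Cfsg.Agent.H10.b1Mk 1 x : Cfsg.Agent.H10.B1 F) : Matrix.SpecialLinearGroup (Fin 2) F)) ?_ ?_ ?_ ?_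
    · intro x _
      simp [Cfsg.Agent.H10.b1Mk_coe]
    · intro x _ y _ h
      have h1 := congrArg (fun z : Matrix.SpecialLinearGroup (Fin 2) F => (z : Matrix (Fin 2) (Fin 2) F) 0 1) h
      simpa [Cfsg.Agent.H10.b1Mk_coe] using h1
    · intro g hg
      simp only [Finset.mem_filter, Finset.mem_univ, true_and] at hg
      obtain ⟨h1, h2, h3⟩ := hg
      refine ⟨(g : Matrix (Fin 2) (Fin 2) F) 0 1, Finset.mem_univ _, ?_⟩
      apply Matrix.SpecialLinearGroup.ext
      intro i j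
      fin_cases i <;> fin_cases j <;> simp [Cfsg.Agent.H10.b1Mk_coe, h1, h2, h3]
    · intro x _
      rfl
  have hcl := Cfsg.Agent.H21.isClassFunction_of_isCharacter (Cfsg.Agent.H21.isCharacter_of_irr hχ)
  have hcusp : Cfsg.Agent.H10.IsCusp1 (⟨χ, hχ⟩ : Cfsg.IrrCharacter (Matrix.SpecialLinearGroup (Fin 2) F)) →
      (∑ x : F, χ ((Cfsg.Agent.H10.b1Mk 1 x : Cfsg.Agent.H10.B1 F) : Matrix.SpecialLinearGroup (Fin 2) F)) = 0 := by
    intro hc
    exact Cfsg.Agent.H10.cusp1_sum χ hcl hc 1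
  rw [hsum]
  rw [e1, e2, ← hqc, hqc1]
  refine ⟨?_, ?_, ?_, ?_, ?_⟩
  · intro hdeg
    have hd : charDegree χ = Fintype.card F + 1 := Cfsg.Agent.H10.degree_of_value (χ := ⟨χ, hχ⟩) hdeg
    have hT : (⟨χ, hχ⟩ : Cfsg.IrrCharacter (Matrix.SpecialLinearGroup (Fin 2) F)) ∈ Cfsg.Agent.H10.Tset F := by
      rcases hirr with h | h | h | h | h | h | h
      · have := h.2; omega
      · have := h.2; omega
      · exact h.1
      · have := h.2; omega
      · have := h.2; omega
      · have := h.2; omega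
      · have := h.2; omega
    obtain ⟨α, -, hα⟩ := Cfsg.Agent.H10.mem_Tset.1 hT
    have hα' : χ = Cfsg.Agent.H10.pi1 α := hα
    rw [hα']
    have h1 : ∀ x : F, Cfsg.Agent.H10.pi1 α ((Cfsg.Agent.H10.b1Mk 1 x : Cfsg.Agent.H10.B1 F) : Matrix.SpecialLinearGroup (Fin 2) F) =
        1 + if x = 0 then (Fintype.card F : ℂ) else 0 := by
      intro x
      by_cases hx : x = 0
      · subst hx
        rw [Cfsg.Agent.H10.b1Mk_one_zero, Cfsg.Agent.H10.pi1_one, if_pos rfl]
        ring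
      · rw [Cfsg.Agent.H10.pi1_unip α x hx, if_neg hx, add_zero]
    simp only [h1, Finset.sum_add_distrib, Finset.sum_ite_eq', Finset.mem_univ, if_true, Finset.sum_const,
      Finset.card_univ, nsmul_eq_mul, mul_one]
    push_cast
    ring
  · intro hdeg
    have hd : charDegree χ = Fintype.card F := Cfsg.Agent.H10.degree_of_value (χ := ⟨χ, hχ⟩) hdeg
    have hst := Cfsg.Agent.H10.eq_st_of_degree (⟨χ, hχ⟩ : Cfsg.IrrCharacter (Matrix.SpecialLinearGroup (Fin 2) F)) hd
    have hst' : χ = Cfsg.Agent.H10.st1 := congrArg Subtype.val hst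
    have h1 : ∀ x : F, χ ((Cfsg.Agent.H10.b1Mk 1 x : Cfsg.Agent.H10.B1 F) : Matrix.SpecialLinearGroup (Fin 2) F) =
        if x = 0 then (Fintype.card F : ℂ) else 0 := by
      intro x
      by_cases hx : x = 0
      · subst hx
        rw [Cfsg.Agent.H10.b1Mk_one_zero, if_pos rfl]
        exact hdeg
      · rw [if_neg hx, hst']
        refine (Cfsg.Agent.H10.st1_values _).2.2 ?_ ?_ ?_
        · simp [Cfsg.Agent.H10.b1Mk_coe]
        · simp [Cfsg.Agent.H10.b1Mk_coe]
        · simpa [Cfsg.Agent.H10.b1Mk_coe] using hx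
    simp only [h1, Finset.sum_ite_eq', Finset.mem_univ, if_true]
  · intro hdeg
    have hd : charDegree χ = Fintype.card F - 1 := Cfsg.Agent.H10.degree_of_value (χ := ⟨χ, hχ⟩) hdeg
    apply hcusp
    rcases hirr with h | h | h | h | h | h | h
    · have := h.2; omega
    · have := h.2; omega
    · have := h.2; omega
    · have := h.2; omega
    · have := h.2; omega
    · have := h.2; omega
    · exact h.1
  · intro hdeg
    have hd : charDegree χ = m + 1 := Cfsg.Agent.H10.degree_of_value (χ := ⟨χ, hχ⟩) hdeg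
    rcases hirr with h | h | h | h | h | h | h
    · have := h.2; omega
    · have := h.2; omega
    · have := h.2; omega
    · have h1 := Cfsg.Agent.H10.sum_half hodd' hp
      have h3 : χ = χ₁.1 := congrArg Subtype.val h.1
      rw [h3]
      exact h1
    · have h1 := Cfsg.Agent.H10.sum_half hodd' hp.symm
      have h3 : χ = χ₂.1 := congrArg Subtype.val h.1
      rw [h3]
      exact h1
    · have := h.2; omega
    · have := h.2; omega
  · intro hdeg
    have hd : charDegree χ = m := Cfsg.Agent.H10.degree_of_value (χ := ⟨χ, hχ⟩) hdeg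
    apply hcusp
    rcases hirr with h | h | h | h | h | h | h
    · have := h.2; omega
    · have := h.2; omega
    · have := h.2; omega
    · have := h.2; omega
    · have := h.2; omega
    · exact h.1
    · exact h.1

end Cfsg.Agent.S2438
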