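import Cfsg.Statements.S2537
import Cfsg.Agent.Lib.H09.Hall23
import Cfsg.Agent.S0802
import Cfsg.Agent.S0803

set_option autoImplicit false
open Cfsg

namespace Cfsg.Agent.S2537

open Cfsg.Agent.H09.Dick Cfsg.Agent.H11.SL2X MulAction

set_option maxHeartbeats 2000000 in
/-- Let `F` be a finite field with `q` elements of characteristic `p ≥ 5`, and `ε = 1` if `q ≡ 1 (mod 4)`, `ε = -1` otherwise. Then `PSL(2, F)` has a Hall `{2, 3}`-subgroup if and only if `3` divides `q − ε`, or the `{2,3}`-part of `q² − 1` is 24, or the `{2,3}`-part of `q² − 1` is 48 (the `{2,3}`-part of `m` being the largest divisor of `m` with no prime factor other than 2 and 3). -/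
theorem result {F : Type*} [Field F] [Fintype F] {p : ℕ} [Fact p.Prime] [CharP F p]
    (hp : 5 ≤ p) (q : ℕ) (hq : Fintype.card F = q) :
    (∃ H : Subgroup (Matrix.ProjectiveSpecialLinearGroup (Fin 2) F), Cfsg.IsPiHall ({2, 3} : Set ℕ) H) ↔
      (3 ∣ q - 1 ∧ q % 4 = 1) ∨ (3 ∣ q + 1 ∧ q % 4 = 3) ∨
        2 ^ (q ^ 2 - 1).factorization 2 * 3 ^ (q ^ 2 - 1).factorization 3 = 24 ∨
        2 ^ (q ^ 2 - 1).factorization 2 * 3 ^ (q ^ 2 - 1).factorization 3 = 48 := by
  classical
  have hF' : Fintype.card F = q := hq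
  have hpp : p.Prime := Fact.out
  obtain ⟨n, -, hn⟩ := FiniteField.card F p
  have hqn : q = p ^ (n : ℕ) := hF' ▸ hn
  have hdv : ∀ r : ℕ, r.Prime → r ∣ q → r = p := by
    intro r hr hd
    rw [hqn] at hd
    exact (Nat.prime_dvd_prime_iff_eq hr hpp).1 (hr.dvd_of_dvd_pow hd)
  have h2 : ¬ 2 ∣ q := fun h => by
    have := hdv 2 Nat.prime_two h
    omega
  have h3 : ¬ 3 ∣ q := fun h => by
    have := hdv 3 Nat.prime_three h
    omega
  have h5 : 5 ≤ q := by
    have : p ^ 1 ≤ p ^ (n : ℕ) := Nat.pow_le_pow_right hpp.pos n.pos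
    rw [pow_one, ← hqn] at this
    omega
  have hq2 : 2 ≤ q := by omega
  have hd : Nat.gcd 2 (q - 1) = 2 := by
    rcases gcd_two_cases hq2 with ⟨h4, ⟨r, hr⟩⟩ | ⟨h4, -⟩
    · exfalso
      exact h2 ⟨r, by omega⟩
    · exact h4
  have hiff := fun H => hall_iff hF' h2 h3 h5 H
  have hsq : q ^ 2 - 1 = (q - 1) * (q + 1) := by
    obtain ⟨r, rfl⟩ : ∃ r, q = r + 1 := ⟨q - 1, by omega⟩
    have : (r + 1) ^ 2 = r * (r + 1 + 1) + 1 := by ring
    simp only [Nat.add_sub_cancel]
    omega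
  have h24 : 24 ∣ part23 (q ^ 2 - 1) := by
    have hm : q ^ 2 % 24 = 1 := by
      have h6 : q % 24 < 24 := Nat.mod_lt _ (by norm_num)
      have h7 : q % 2 = 1 := by omega
      have h8 : q % 3 ≠ 0 := by omega
      rw [Nat.pow_mod]
      generalize hk : q % 24 = k at h6
      have h9 : k % 2 = 1 := by omega
      have h10 : k % 3 ≠ 0 := by omega
      interval_cases k <;> simp_all
    have hd24 : 24 ∣ q ^ 2 - 1 := by
      have : 25 ≤ q ^ 2 := by nlinarith
      omega
    have hn0 : q ^ 2 - 1 ≠ 0 := by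
      have : 25 ≤ q ^ 2 := by nlinarith
      omega
    have e1 : 2 ^ 3 ∣ q ^ 2 - 1 := Dvd.dvd.trans (by norm_num) hd24
    have e2 : 3 ^ 1 ∣ q ^ 2 - 1 := Dvd.dvd.trans (by norm_num) hd24
    have e3 := (Nat.Prime.pow_dvd_iff_le_factorization Nat.prime_two hn0).1 e1
    have e4 := (Nat.Prime.pow_dvd_iff_le_factorization Nat.prime_three hn0).1 e2
    have e5 : 2 ^ 3 * 3 ^ 1 ∣ 2 ^ (q ^ 2 - 1).factorization 2 * 3 ^ (q ^ 2 - 1).factorization 3 :=
      Nat.mul_dvd_mul (pow_dvd_pow 2 e3) (pow_dvd_pow 3 e4)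
    exact e5
  change (∃ H : Subgroup (PS2 F), Cfsg.IsPiHall ({2, 3} : Set ℕ) H) ↔ (3 ∣ q - 1 ∧ q % 4 = 1) ∨ (3 ∣ q + 1 ∧ q % 4 = 3) ∨
    part23 (q ^ 2 - 1) = 24 ∨ part23 (q ^ 2 - 1) = 48
  constructor
  · rintro ⟨H, hH⟩
    have hcard := (hiff H).1 hH
    have h12 : 12 ∣ Nat.card H := by
      rw [← hcard] at h24
      omega
    rcases dickson_int hF' p H with ⟨m, hm, ha⟩ | ⟨x, hx⟩ | ⟨⟨e⟩⟩ | ⟨⟨e⟩⟩ | ⟨⟨e⟩⟩ | ⟨K, i1, i2, m, hm, hres⟩
    · have hc := card_of_a ha
      have h6 : 6 ∣ m := by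
        rcases hc with hc | hc
        · rw [hc] at h12
          omega
        · rw [hc] at h12
          omega
      rw [hd] at hm
      rcases hm with hm | hm
      · obtain ⟨t, ht⟩ := h6.trans hm
        right
        left
        exact ⟨by omega, by omega⟩
      · obtain ⟨t, ht⟩ := h6.trans hm
        left
        exact ⟨by omega, by omega⟩
    · exfalso
      letI : MulAction (PS2 F) (XX F) := MulAction.compHom _ actP
      have hi := index_stab x
      rw [hF'] at hi
      have hle : H ≤ stabilizer (PS2 F) x := fun h hh => hx h hh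
      have h7 := Subgroup.index_dvd_of_le hle
      rw [hi] at h7
      apply hH.2 2 Nat.prime_two (by simp)
      exact Dvd.dvd.trans (by omega) h7
    · have hc : Nat.card H = 12 := (card_of_iso e).trans card_A4
      right
      right
      left
      rw [← hcard, hc]
    · have hc : Nat.card H = 24 := (card_of_iso e).trans card_S4
      right
      right
      right
      rw [← hcard, hc]
    · exfalso
      have hc : Nat.card H = 60 := (card_of_iso e).trans card_A5
      have h7 := hH.1 5 (by norm_num) (by rw [hc]; norm_num)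
      simp at h7
    · exfalso
      have hm0 : m ≠ 0 := by
        rintro rfl
        simp at hm
        omega
      haveI hpK : CharP K p := charP_of_pow_eq (F := F) (m := m) p (by omega) (by rw [hm, hF'])
      have h6 : p ∣ Nat.card H := by
        rcases hres with ⟨⟨e⟩⟩ | ⟨⟨e⟩⟩
        · rw [card_of_iso e]
          exact dvd_card_PS2 p
        · rw [card_of_iso e, card_PGL]
          obtain ⟨s, -, hs⟩ := FiniteField.card K p
          rw [hs]
          exact Dvd.dvd.mul_right (dvd_pow_self p s.ne_zero) _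
      have h7 := hH.1 p hpp h6
      simp at h7
      omega
  · rintro (⟨h6, h7⟩ | ⟨h6, h7⟩ | h6 | h6)
    · obtain ⟨c, W, h8, h9, h10, h11, -⟩ := split_torus hF'
      rw [hd] at h8
      obtain ⟨a, ha⟩ : ∃ a, q - 1 = 2 * a := ⟨(q - 1) / 2, by omega⟩
      obtain ⟨b, hb⟩ : ∃ b, q + 1 = 2 * b := ⟨(q + 1) / 2, by omega⟩
      have h12 : (q - 1) / 2 = a := by omega
      rw [h12] at h8
      obtain ⟨D, hD⟩ := tor_case h9 h10 h11 h8 (by omega) (N := q ^ 2 - 1) (o := b) (by rw [hsq, ha, hb]) (by omega) (by omega) (by omega) (by omega)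
      exact ⟨D, (hiff D).2 hD⟩
    · obtain ⟨c, W, h8, h9, h10, h11⟩ := nonsplit_torus' hF'
      rw [hd] at h8
      obtain ⟨a, ha⟩ : ∃ a, q - 1 = 2 * a := ⟨(q - 1) / 2, by omega⟩
      obtain ⟨b, hb⟩ : ∃ b, q + 1 = 2 * b := ⟨(q + 1) / 2, by omega⟩
      have h12 : (q + 1) / 2 = b := by omega
      rw [h12] at h8
      obtain ⟨D, hD⟩ := tor_case h9 h10 h11 h8 (by omega) (N := q ^ 2 - 1) (o := a) (by rw [hsq, ha, hb]; ring) (by omega) (by omega) (by omega) (by omega)
      exact ⟨D, (hiff D).2 hD⟩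
    · obtain ⟨H, ⟨e⟩⟩ := (Cfsg.Agent.S0802.result (F := F) p n (by rw [← hn])).2 (by
        rintro ⟨h7, -⟩
        omega)
      refine ⟨H, (hiff H).2 ?_⟩
      rw [h6, (card_of_iso e).trans card_A4]
    · have h9 : q ^ 2 % 16 = 1 := by
        have h10 : 48 ∣ q ^ 2 - 1 := by
          rw [← h6]
          exact part23_dvd _
        have : 25 ≤ q ^ 2 := by nlinarith
        omega
      obtain ⟨H, ⟨e⟩⟩ := (Cfsg.Agent.S0803.result hF').2 h9
      refine ⟨H, (hiff H).2 ?_⟩
      rw [h6, (card_of_iso e).trans card_S4]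

end Cfsg.Agent.S2537
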