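import Cfsg.Statements.S2540
import Cfsg.Agent.Lib.H11.PSL2

set_option autoImplicit false
open Cfsg

namespace Cfsg.Agent.S2540

/-- Let F be a finite field and n ≥ 1, excluding the case n = 2 with #F ≤ 3. A subgroup of GL_n(F) that is normalized by every element of SL_n(F) either consists of scalar matrices or contains SL_n(F). -/
theorem result {F : Type*} [Field F] [Fintype F] (n : ℕ) (hn : 1 ≤ n) (hex : ¬ (n = 2 ∧ Fintype.card F ≤ 3)) (G : Subgroup (Matrix.GeneralLinearGroup (Fin n) F)) (hG : ∀ s : Matrix.SpecialLinearGroup (Fin n) F, ∀ g ∈ G, (Matrix.SpecialLinearGroup.toGL s) * g * (Matrix.SpecialLinearGroup.toGL s)⁻¹ ∈ G) : (∀ g ∈ G, ∃ c : F, (g : Matrix (Fin n) (Fin n) F) = c • (1 : Matrix (Fin n) (Fin n) F)) ∨ (Matrix.SpecialLinearGroup.toGL : Matrix.SpecialLinearGroup (Fin n) F →* _).range ≤ G := by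
  classical
  by_cases hn1 : n = 1
  · subst hn1
    left
    intro g _
    refine ⟨(g : Matrix (Fin 1) (Fin 1) F) 0 0, ?_⟩
    ext i j
    fin_cases i; fin_cases j
    simp
  have hn2 : 2 ≤ n := by omega
  haveI : Nontrivial (Fin n) := Fintype.one_lt_card_iff_nontrivial.1 (by simp; omega)
  let toG : Matrix.SpecialLinearGroup (Fin n) F →* Matrix.GeneralLinearGroup (Fin n) F := Matrix.SpecialLinearGroup.toGL
  let K : Subgroup (Matrix.SpecialLinearGroup (Fin n) F) := G.comap toG
  have hKn : K.Normal := by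
    constructor
    intro k hk s
    change toG (s * k * s⁻¹) ∈ G
    rw [map_mul, map_mul, map_inv]
    exact hG s _ hk
  have hS := Cfsg.Agent.H11.PSL_simple' (F := F) n hn2 hex
  let π : Matrix.SpecialLinearGroup (Fin n) F →* Matrix.ProjectiveSpecialLinearGroup (Fin n) F := QuotientGroup.mk' _
  have hπ : Function.Surjective π := QuotientGroup.mk'_surjective _
  have hKb : (K.map π).Normal := Subgroup.Normal.map hKn π hπ
  rcases hS.eq_bot_or_eq_top_of_normal (K.map π) hKb with hbot | htop
  · left
    have hKZ : K ≤ Subgroup.center _ := by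
      intro k hk
      have h1 : π k ∈ K.map π := ⟨k, hk, rfl⟩
      rw [hbot, Subgroup.mem_bot] at h1
      exact (QuotientGroup.eq_one_iff k).1 h1
    intro g hg
    have hsc : (g : Matrix (Fin n) (Fin n) F) ∈ Set.range (Matrix.scalar (Fin n) : F →+* Matrix (Fin n) (Fin n) F) := by
      apply Matrix.mem_range_scalar_of_commute_transvectionStruct
      intro t
      let s : Matrix.SpecialLinearGroup (Fin n) F := ⟨t.toMatrix, t.det⟩
      have hdet : ((g * toG s * g⁻¹ * (toG s)⁻¹ : Matrix.GeneralLinearGroup (Fin n) F) : Matrix (Fin n) (Fin n) F).det = 1 := by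
        have := map_mul (Matrix.GeneralLinearGroup.det (n := Fin n) (R := F)) 
        simp only [Units.val_mul, Matrix.det_mul]
        rw [Matrix.coe_units_inv, Matrix.coe_units_inv, Matrix.det_nonsing_inv, Matrix.det_nonsing_inv]
        have h1 : (toG s : Matrix (Fin n) (Fin n) F).det = 1 := s.2
        have h2 : (g : Matrix (Fin n) (Fin n) F).det ≠ 0 := g.det_ne_zero
        rw [h1]
        simp [h2]
      let k : Matrix.SpecialLinearGroup (Fin n) F := ⟨_, hdet⟩
      have hk : k ∈ K := by
        change toG k ∈ G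
        have : toG k = g * toG s * g⁻¹ * (toG s)⁻¹ := Units.ext rfl
        rw [this, mul_assoc, mul_assoc]
        refine G.mul_mem hg ?_
        rw [← mul_assoc]
        have := hG s _ (G.inv_mem hg)
        exact this
      obtain ⟨ω, -, hω⟩ := (Matrix.SpecialLinearGroup.mem_center_iff).1 (hKZ hk)
      have hk2 : ((g * toG s * g⁻¹ * (toG s)⁻¹ : Matrix.GeneralLinearGroup (Fin n) F) : Matrix (Fin n) (Fin n) F) = Matrix.scalar (Fin n) ω := hω.symm
      have hgs : (g : Matrix (Fin n) (Fin n) F) * t.toMatrix = (ω • t.toMatrix) * (g : Matrix (Fin n) (Fin n) F) := by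
        have h1 : g * toG s * g⁻¹ * (toG s)⁻¹ * toG s * g = g * toG s := by group
        have h2 : ((g * toG s * g⁻¹ * (toG s)⁻¹ : Matrix.GeneralLinearGroup (Fin n) F) : Matrix (Fin n) (Fin n) F) *
            ((toG s : Matrix.GeneralLinearGroup (Fin n) F) : Matrix (Fin n) (Fin n) F) * (g : Matrix (Fin n) (Fin n) F) =
            (g : Matrix (Fin n) (Fin n) F) * ((toG s : Matrix.GeneralLinearGroup (Fin n) F) : Matrix (Fin n) (Fin n) F) := by
          rw [← Units.val_mul, ← Units.val_mul, ← Units.val_mul, h1]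
        rw [hk2] at h2
        have e : ((toG s : Matrix.GeneralLinearGroup (Fin n) F) : Matrix (Fin n) (Fin n) F) = t.toMatrix := rfl
        rw [e] at h2
        rw [← h2]
        rw [Matrix.smul_eq_diagonal_mul]
        rfl
      have hω1 : ω = 1 := by
        set N : Matrix (Fin n) (Fin n) F := Matrix.single t.i t.j t.c with hN
        have hT : t.toMatrix = 1 + N := rfl
        have hNN : N * N = 0 := Matrix.single_mul_single_of_ne _ _ _ _ t.hij.symm _
        have hM : (ω • t.toMatrix - 1) * (g : Matrix (Fin n) (Fin n) F) = (g : Matrix (Fin n) (Fin n) F) * N := by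
          rw [sub_mul, ← hgs, hT, mul_add, mul_one, one_mul, add_sub_cancel_left]
        have hMM : (ω • t.toMatrix - 1) * (ω • t.toMatrix - 1) = 0 := by
          have h3 : (ω • t.toMatrix - 1) * (ω • t.toMatrix - 1) * (g : Matrix (Fin n) (Fin n) F) = 0 := by
            rw [mul_assoc, hM, ← mul_assoc, hM, mul_assoc, hNN, mul_zero]
          have h4 := congrArg (fun x => x * ((g⁻¹ : Matrix.GeneralLinearGroup (Fin n) F) : Matrix (Fin n) (Fin n) F)) h3
          simpa [mul_assoc] using h4
        have h5 : ((ω • t.toMatrix - 1) * (ω • t.toMatrix - 1)) t.i t.i = (ω - 1) ^ 2 := by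
          have hexp : ω • t.toMatrix - 1 = (ω - 1) • (1 : Matrix (Fin n) (Fin n) F) + ω • N := by
            rw [hT, smul_add, sub_smul, one_smul]
            abel
          rw [hexp]
          simp only [add_mul, mul_add, smul_mul_assoc, mul_smul_comm, hNN, one_mul, mul_one, Matrix.add_apply,
            Matrix.smul_apply, Matrix.one_apply_eq, smul_eq_mul, smul_zero, add_zero]
          have hii : N t.i t.i = 0 := by
            rw [hN, Matrix.single_apply_of_ne]
            exact fun h => t.hij h.2.symm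
          rw [hii]
          ring
        rw [hMM] at h5
        have h6 : (ω - 1) ^ 2 = 0 := h5.symm
        have h7 := pow_eq_zero_iff (two_ne_zero) |>.1 h6
        exact sub_eq_zero.1 h7
      rw [hω1, one_smul] at hgs
      exact hgs.symm
    obtain ⟨c, hc⟩ := hsc
    refine ⟨c, ?_⟩
    rw [← hc]
    ext i j
    simp [Matrix.scalar_apply, Matrix.smul_apply, Matrix.one_apply, Matrix.diagonal_apply]
  · right
    have hK : K = ⊤ := by
      rw [eq_top_iff, ← Cfsg.Agent.H11.commutator_SL_eq_top' (F := F) n hn2 hex]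
      rw [commutator_def, Subgroup.commutator_le]
      intro a _ b _
      have hdec : ∀ x : Matrix.SpecialLinearGroup (Fin n) F, ∃ k ∈ K, ∃ z ∈ Subgroup.center (Matrix.SpecialLinearGroup (Fin n) F), x = k * z := by
        intro x
        have : π x ∈ K.map π := by rw [htop]; trivial
        obtain ⟨k, hk, hkx⟩ := this
        refine ⟨k, hk, k⁻¹ * x, ?_, by group⟩
        exact QuotientGroup.eq.1 hkx
      obtain ⟨k, hk, z, hz, rfl⟩ := hdec a
      obtain ⟨k', hk', z', hz', rfl⟩ := hdec b
      have hz1 := Subgroup.mem_center_iff.1 hz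
      have hz2 := Subgroup.mem_center_iff.1 hz'
      have : k * z * (k' * z') * (k * z)⁻¹ * (k' * z')⁻¹ = k * k' * k⁻¹ * k'⁻¹ := by
        have e1 : z * (k' * z') = (k' * z') * z := (hz1 _).symm
        calc _ = k * (z * (k' * z')) * z⁻¹ * k⁻¹ * z'⁻¹ * k'⁻¹ := by group
          _ = k * k' * z' * k⁻¹ * z'⁻¹ * k'⁻¹ := by rw [e1]; group
          _ = k * k' * (z' * k⁻¹) * z'⁻¹ * k'⁻¹ := by group
          _ = k * k' * (k⁻¹ * z') * z'⁻¹ * k'⁻¹ := by rw [(hz2 k⁻¹).symm]
          _ = _ := by group
      rw [commutatorElement_def, this]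
      exact K.mul_mem (K.mul_mem (K.mul_mem hk hk') (K.inv_mem hk)) (K.inv_mem hk')
    rintro _ ⟨s, rfl⟩
    have : s ∈ K := by rw [hK]; trivial
    exact this

end Cfsg.Agent.S2540
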