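import Cfsg.Statements.S2541
import Cfsg.Agent.Lib.H11.CycT

set_option autoImplicit false
open Cfsg

namespace Cfsg.Agent.S2541

open Equiv Perm Cfsg.Agent.H11 Matrix

/-- Let F be a field with 9 elements. The symmetric group S_6 is not isomorphic to PGL_2(F) (although both have index-2 subgroups isomorphic to A_6). -/
theorem result {F : Type*} [Field F] [Fintype F] (hF : Fintype.card F = 9) : ¬ Nonempty (Equiv.Perm (Fin 6) ≃* Matrix.ProjGenLinGroup (Fin 2) F) := by
  rintro ⟨φ⟩
  classical
  obtain ⟨ω, hω⟩ := IsCyclic.exists_generator (α := Fˣ)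
  have hord : orderOf ω = 8 := by
    rw [orderOf_eq_card_of_forall_mem_zpowers hω, Nat.card_eq_fintype_card, Fintype.card_units, hF]
  have hdet : (Matrix.diagonal ![(ω : F), 1]).det ≠ 0 := by
    rw [Matrix.det_diagonal]
    simp
  let A : GL (Fin 2) F := Matrix.GeneralLinearGroup.mkOfDetNeZero _ hdet
  let g : Matrix.ProjGenLinGroup (Fin 2) F := Matrix.ProjGenLinGroup.mk A
  have hdvd : 2 ^ 3 ∣ orderOf g := by
    have h1 : g ^ orderOf g = 1 := pow_orderOf_eq_one g
    have h2 : Matrix.ProjGenLinGroup.mk (A ^ orderOf g) = 1 := by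
      rw [map_pow]; exact h1
    rw [Matrix.ProjGenLinGroup.mk_eq_one, Matrix.GeneralLinearGroup.center_eq_range_scalar] at h2
    obtain ⟨u, hu⟩ := h2
    have hv : ((A ^ orderOf g : GL (Fin 2) F) : Matrix (Fin 2) (Fin 2) F)
        = Matrix.diagonal (![(ω : F), 1] ^ orderOf g) := by
      rw [Units.val_pow_eq_pow_val, ← Matrix.diagonal_pow]
      rfl
    have h00 := congrFun (congrFun hv 0) 0
    have h11 := congrFun (congrFun hv 1) 1
    rw [← hu] at h00 h11
    simp [Matrix.GeneralLinearGroup.scalar] at h00 h11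
    have : ((ω ^ orderOf g : Fˣ) : F) = 1 := by
      rw [Units.val_pow_eq_pow_val, ← h00, h11, Units.val_one]
    have hone : ω ^ orderOf g = 1 := Units.ext this
    have := orderOf_dvd_of_pow_eq_one hone
    rwa [hord] at this
  have hσ : orderOf (φ.symm g) = orderOf g := MulEquiv.orderOf_eq φ.symm g
  obtain ⟨a, ha, hd⟩ := exists_mem_cycleType_pp_dvd Nat.prime_two (by norm_num : (3 : ℕ) ≠ 0)
    (φ.symm g) (by rw [hσ]; exact hdvd)
  have h0 : 0 < a := by have := two_le_of_mem_cycleType ha; omega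
  have h1 := Nat.le_of_dvd h0 hd
  have h2 := Multiset.le_sum_of_mem ha
  have h3 := sum_cycleType_le (φ.symm g)
  simp only [Fintype.card_fin] at h3
  norm_num at h1
  omega

end Cfsg.Agent.S2541
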