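import Cfsg.Statements.S2544
import Cfsg.Agent.Lib.H29.StPSL

set_option autoImplicit false
open Cfsg

namespace Cfsg.Agent.S2544

/-- Let F be a finite field of characteristic p and consider the projective special linear group PSL_n(F) with n ≥ 2. This group has an irreducible complex character χ whose degree equals the order of a Sylow p-subgroup (namely q^(n(n−1)/2) when #F = q) and whose restriction to any Sylow p-subgroup P is the regular character of P: χ vanishes on the non-identity elements of P. (This is the Steinberg character.) -/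
theorem result {F : Type*} [Field F] [Fintype F] (p : ℕ) [Fact p.Prime] [CharP F p] (n : ℕ) (hn : 2 ≤ n) : ∃ χ : Matrix.ProjectiveSpecialLinearGroup (Fin n) F → ℂ, Cfsg.IsIrrCharacter (Matrix.ProjectiveSpecialLinearGroup (Fin n) F) χ ∧ ∀ P : Sylow p (Matrix.ProjectiveSpecialLinearGroup (Fin n) F), χ 1 = Nat.card P ∧ ∀ x : Matrix.ProjectiveSpecialLinearGroup (Fin n) F, x ∈ P → x ≠ 1 → χ x = 0 := by
  classical
  have hn0 : 0 < n := by omega
  haveI : Finite (Matrix.SpecialLinearGroup (Fin n) F) := Finite.of_injective (fun A => A.1) Subtype.val_injective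
  haveI : Finite (Matrix.ProjectiveSpecialLinearGroup (Fin n) F) :=
    Finite.of_surjective _ (Cfsg.Agent.H29.StPSL.pr_surj (F := F) (n := n))
  haveI : Fintype (Matrix.ProjectiveSpecialLinearGroup (Fin n) F) := Fintype.ofFinite _
  haveI : Fintype (IrrCharacter (Matrix.ProjectiveSpecialLinearGroup (Fin n) F)) := Fintype.ofFinite _
  have hmono : Monotone (fun _ : Fin n => (1 : ℕ)) := monotone_const
  have hsum : ∑ i : Fin n, (fun _ : Fin n => (1 : ℕ)) i = n := by simp
  have hirr := Cfsg.Agent.H29.StPSL.chi_irr (F := F) hn0 (fun _ => (1 : ℕ)) hmono hsum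
  have hone : Cfsg.Agent.H29.StPSL.chi (F := F) (fun _ : Fin n => (1 : ℕ)) 1 = ((Fintype.card F : ℕ) : ℂ) ^ (n.choose 2) := by
    rw [Cfsg.Agent.H29.StPSL.chi_one hn0, Cfsg.Agent.H29.StPSL.st_degree]
  refine ⟨Cfsg.Agent.H29.StPSL.chi (F := F) (fun _ => (1 : ℕ)), hirr, fun P => ⟨?_, ?_⟩⟩
  · rw [hone, Cfsg.Agent.H29.StPSL.card_sylow p hn0 P]
    push_cast
    rfl
  · intro x hx hx1
    have hχ := Cfsg.Agent.H21.isCharacter_of_irr hirr
    have hdeg : charDegree (Cfsg.Agent.H29.StPSL.chi (F := F) (fun _ : Fin n => (1 : ℕ))) = (Fintype.card F) ^ (n.choose 2) := by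
      have h1 := Cfsg.Agent.H21.one_eq_charDegree hχ
      rw [hone] at h1
      exact_mod_cast h1.symm
    obtain ⟨M, hM⟩ := Cfsg.Agent.H21.exists_pModular (Fact.out : p.Prime)
    haveI : M.IsPrime := hM.2.1.isPrime
    have hg : p ∣ orderOf x := by
      obtain ⟨k, hk⟩ := (IsPGroup.iff_orderOf.mp P.isPGroup') ⟨x, hx⟩
      rw [Subgroup.orderOf_mk] at hk
      rw [hk]
      have hk0 : k ≠ 0 := by
        rintro rfl
        rw [pow_zero, orderOf_eq_one_iff] at hk
        exact hx1 hk
      exact dvd_pow_self _ hk0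
    refine Cfsg.Agent.H22.irr_eq_zero_of_defect_zero hM (⟨Cfsg.Agent.H29.StPSL.chi (F := F) (fun _ => (1 : ℕ)), hirr⟩ : IrrCharacter (Matrix.ProjectiveSpecialLinearGroup (Fin n) F)) ?_ hg
    show ¬ p ∣ Nat.card (Matrix.ProjectiveSpecialLinearGroup (Fin n) F) / charDegree (Cfsg.Agent.H29.StPSL.chi (F := F) (fun _ : Fin n => (1 : ℕ)))
    rw [hdeg]
    obtain ⟨m, hm, hm'⟩ := Cfsg.Agent.H29.StPSL.card_psl (F := F) p hn0
    rw [hm, Nat.mul_div_cancel_left _ (pow_pos Fintype.card_pos _)]
    exact hm'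

end Cfsg.Agent.S2544
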