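import Cfsg.Statements.S2550
import Cfsg.Agent.Lib.H11.PSL34
import Cfsg.Agent.S0256

set_option autoImplicit false
open Cfsg

namespace Cfsg.Agent.S2550

/-- an element of order six -/
def sig : Equiv.Perm (Fin 8) := Equiv.swap 0 1 * Equiv.swap 1 2 * Equiv.swap 3 4 * Equiv.swap 5 6

lemma sig_mem : sig ∈ alternatingGroup (Fin 8) := by
  rw [Equiv.Perm.mem_alternatingGroup]
  decide +kernel

lemma sig_pow6 : sig ^ 6 = 1 := by decide +kernel

lemma sig_pow2 : sig ^ 2 ≠ 1 := by decide +kernel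

lemma sig_pow3 : sig ^ 3 ≠ 1 := by decide +kernel

lemma order6 {G : Type*} [Monoid G] (x : G) (h6 : x ^ 6 = 1) (h2 : x ^ 2 ≠ 1) (h3 : x ^ 3 ≠ 1) : orderOf x = 6 := by
  have h1 := orderOf_dvd_of_pow_eq_one h6
  have h4 : ¬ orderOf x ∣ 2 := fun h => h2 (orderOf_dvd_iff_pow_eq_one.1 h)
  have h5 : ¬ orderOf x ∣ 3 := fun h => h3 (orderOf_dvd_iff_pow_eq_one.1 h)
  have h7 : orderOf x ≤ 6 := Nat.le_of_dvd (by norm_num) h1
  generalize orderOf x = n at *
  interval_cases n <;> simp_all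

/-- Let F be a field with 2 elements and K a field with 4 elements. PSL_4(F) and PSL_3(K) have the same order (20160) but are not isomorphic. -/
theorem result {F K : Type*} [Field F] [Fintype F] [Field K] [Fintype K] (hF : Fintype.card F = 2) (hK : Fintype.card K = 4) : Nat.card (Matrix.ProjectiveSpecialLinearGroup (Fin 4) F) = Nat.card (Matrix.ProjectiveSpecialLinearGroup (Fin 3) K) ∧ ¬ Nonempty (Matrix.ProjectiveSpecialLinearGroup (Fin 4) F ≃* Matrix.ProjectiveSpecialLinearGroup (Fin 3) K) := by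
  constructor
  · have h4 := Cfsg.Agent.Lead.card_PSL (F := F) 4 (by norm_num)
    have h3 := Cfsg.Agent.Lead.card_PSL (F := K) 3 (by norm_num)
    rw [hF] at h4
    rw [hK] at h3
    simp only [Fin.prod_univ_four, Fin.prod_univ_three] at h4 h3
    norm_num at h4 h3
    omega
  · rintro ⟨φ⟩
    obtain ⟨e⟩ := Cfsg.Agent.S0256.result hF
    have hσ : sig ∈ alternatingGroup (Fin 8) := sig_mem
    let x : alternatingGroup (Fin 8) := ⟨sig, hσ⟩
    have hx : orderOf x = 6 := by
      have hc : ∀ n : ℕ, x ^ n = 1 ↔ sig ^ n = 1 := by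
        intro n
        rw [← Subtype.coe_inj, SubgroupClass.coe_pow]
        rfl
      have h6 : x ^ 6 = 1 := (hc 6).2 sig_pow6
      have h2 : x ^ 2 ≠ 1 := fun h => sig_pow2 ((hc 2).1 h)
      have h3 : x ^ 3 ≠ 1 := fun h => sig_pow3 ((hc 3).1 h)
      exact order6 x h6 h2 h3
    have hy : orderOf (φ (e.symm x)) = 6 := by
      rw [MulEquiv.orderOf_eq, MulEquiv.orderOf_eq, hx]
    exact Cfsg.Agent.H11.PSL34.no_order_six hK _ hy

end Cfsg.Agent.S2550
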