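import Cfsg.Statements.S2551
import Cfsg.Agent.Lib.Lead.PSL42
-- import your own Cfsg.Agent.* helpers here

set_option autoImplicit false
open Cfsg

namespace Cfsg.Agent.S2551

theorem card_fix_mod {X : Type*} [Finite X] (σ : Equiv.Perm X) (p : ℕ) [Fact p.Prime] (hσ : σ ^ p = 1) :
    Nat.card X ≡ Nat.card {x // σ x = x} [MOD p] := by
  classical
  haveI := Fintype.ofFinite X
  let f : Function.End X := (σ : X → X)
  have hpow : ∀ n x, (f ^ n) x = (σ ^ n) x := by
    intro n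
    induction n with
    | zero => intro x; rfl
    | succ n ih =>
      intro x
      rw [pow_succ, pow_succ]
      show (f ^ n) (f x) = (σ ^ n) (σ x)
      rw [ih]
  have hf : f ^ p ^ 1 = 1 := by
    funext x
    rw [pow_one, hpow, hσ]
    rfl
  have h := Equiv.Perm.card_fixedPoints_modEq (f := f) (p := p) (n := 1) hf
  rw [← Nat.card_eq_fintype_card, ← Nat.card_eq_fintype_card] at h
  exact h

theorem dvd_of_free {X : Type*} [Finite X] (σ : Equiv.Perm X) (p : ℕ) [Fact p.Prime] (hσ : σ ^ p = 1)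
    (h : ∀ x, σ x ≠ x) : p ∣ Nat.card X := by
  have h1 := card_fix_mod σ p hσ
  have h2 : IsEmpty {x // σ x = x} := ⟨fun x => h x.1 x.2⟩
  have h3 : Nat.card {x // σ x = x} = 0 := Nat.card_of_isEmpty
  rw [h3] at h1
  exact (Nat.modEq_zero_iff_dvd).1 h1

section abs

variable {V : Type*} [AddCommGroup V] [Finite V] {H : Type*} [Group H] (ρ : H →* Equiv.Perm V)

/-- the action on an orbit -/
def orbHom (v : V) : H →* Equiv.Perm (Set.range (fun h : H => ρ h v)) where
  toFun g :=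
    { toFun := fun x => ⟨ρ g x.1, by
        obtain ⟨h, hh⟩ := x.2
        exact ⟨g * h, by rw [← hh]; simp⟩⟩
      invFun := fun x => ⟨ρ g⁻¹ x.1, by
        obtain ⟨h, hh⟩ := x.2
        exact ⟨g⁻¹ * h, by rw [← hh]; simp⟩⟩
      left_inv := fun x => Subtype.ext (by simp)
      right_inv := fun x => Subtype.ext (by simp) }
  map_one' := by
    ext x
    simp
  map_mul' g h := by
    ext x
    simp

theorem rho_inv_apply (g : H) (x : V) : ρ g⁻¹ (ρ g x) = x := by simp

theorem rho_apply_inv (g : H) (x : V) : ρ g (ρ g⁻¹ x) = x := by simp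

theorem rho_mul_apply (g h : H) (x : V) : ρ (g * h) x = ρ g (ρ h x) := by simp

/-- fixed points as additive subgroup -/
def fixS (hadd : ∀ g x y, ρ g (x + y) = ρ g x + ρ g y) (g : H) : AddSubgroup V where
  carrier := {x | ρ g x = x}
  add_mem' := by
    intro a b ha hb
    show ρ g (a + b) = a + b
    rw [hadd, ha, hb]
  zero_mem' := by
    show ρ g 0 = 0
    have := hadd g 0 0
    rw [add_zero] at this
    exact left_eq_add.1 this
  neg_mem' := by
    intro a ha
    show ρ g (-a) = -a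
    have h0 : ρ g 0 = 0 := by
      have := hadd g 0 0
      rw [add_zero] at this
      exact left_eq_add.1 this
    have := hadd g a (-a)
    rw [add_neg_cancel, h0, show ρ g a = a from ha] at this
    exact (neg_eq_of_add_eq_zero_right this.symm).symm

theorem rho_zero (hadd : ∀ g x y, ρ g (x + y) = ρ g x + ρ g y) (g : H) : ρ g 0 = 0 :=
  (fixS ρ hadd g).zero_mem

theorem rho_ne_zero (hadd : ∀ g x y, ρ g (x + y) = ρ g x + ρ g y) (g : H) {x : V} (hx : x ≠ 0) : ρ g x ≠ 0 := by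
  intro h
  apply hx
  apply (ρ g).injective
  rw [h, rho_zero ρ hadd]

theorem card_fixS_eq (hadd : ∀ g x y, ρ g (x + y) = ρ g x + ρ g y) (g : H) (hV : Nat.card V = 16) (hg : ρ g ≠ 1) :
    ∃ k, k ≤ 3 ∧ Nat.card (fixS ρ hadd g) = 2 ^ k := by
  have h1 : Nat.card (fixS ρ hadd g) ∣ Nat.card V := AddSubgroup.card_addSubgroup_dvd_card _
  rw [hV, show (16 : ℕ) = 2 ^ 4 by norm_num] at h1
  obtain ⟨k, hk, hk2⟩ := (Nat.dvd_prime_pow Nat.prime_two).1 h1
  refine ⟨k, ?_, hk2⟩
  by_contra hk3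
  have hk4 : k = 4 := by omega
  subst hk4
  apply hg
  have h2 : fixS ρ hadd g = ⊤ := by
    apply AddSubgroup.eq_top_of_card_eq
    rw [hk2, hV]
    norm_num
  ext x
  have : x ∈ fixS ρ hadd g := by rw [h2]; trivial
  exact this

theorem fix_mod (hadd : ∀ g x y, ρ g (x + y) = ρ g x + ρ g y) (g : H) (p : ℕ) [Fact p.Prime] (hg : g ^ p = 1) :
    Nat.card V ≡ Nat.card (fixS ρ hadd g) [MOD p] := by
  have hσ : (ρ g) ^ p = 1 := by rw [← map_pow, hg, map_one]
  exact card_fix_mod (ρ g) p hσ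

variable {ρ}
variable (hadd : ∀ g x y, ρ g (x + y) = ρ g x + ρ g y)
include hadd

theorem exists_v0 (hV : Nat.card V = 16) (c : H) (hc : c ^ 7 = 1) (hc1 : ρ c ≠ 1) :
    ∃ v₀ : V, v₀ ≠ 0 ∧ ∀ x, ρ c x = x ↔ x = 0 ∨ x = v₀ := by
  haveI : Fact (Nat.Prime 7) := ⟨by norm_num⟩
  obtain ⟨k, hk, hk2⟩ := card_fixS_eq ρ hadd c hV hc1
  have h1 := fix_mod ρ hadd c 7 hc
  rw [hV, hk2] at h1
  have hk1 : k = 1 := by
    interval_cases k <;> first | rfl | (exfalso; revert h1; decide)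
  subst hk1
  rw [pow_one, Nat.card_eq_two_iff] at hk2
  obtain ⟨a, b, hab, hset⟩ := hk2
  have hmem : ∀ z : fixS ρ hadd c, z = a ∨ z = b := by
    intro z
    have : z ∈ ({a, b} : Set (fixS ρ hadd c)) := by rw [hset]; trivial
    simpa using this
  have h0 := hmem 0
  rcases h0 with h0 | h0
  · refine ⟨b.1, ?_, ?_⟩
    · intro h
      apply hab
      apply Subtype.ext
      rw [h, ← h0]
      rfl
    · intro x
      constructor
      · intro hx
        rcases hmem ⟨x, hx⟩ with h | h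
        · left
          rw [← h0] at h
          exact congrArg Subtype.val h
        · right
          exact congrArg Subtype.val h
      · rintro (rfl | rfl)
        · exact rho_zero ρ hadd c
        · exact b.2
  · refine ⟨a.1, ?_, ?_⟩
    · intro h
      apply hab
      apply Subtype.ext
      rw [h, ← h0]
      rfl
    · intro x
      constructor
      · intro hx
        rcases hmem ⟨x, hx⟩ with h | h
        · right
          exact congrArg Subtype.val h
        · left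
          rw [← h0] at h
          exact congrArg Subtype.val h
      · rintro (rfl | rfl)
        · exact rho_zero ρ hadd c
        · exact a.2

theorem no_fix (hV : Nat.card V = 16) (f : H) (hf : f ^ 5 = 1) (hf1 : ρ f ≠ 1) (x : V) (h : ρ f x = x) : x = 0 := by
  haveI : Fact (Nat.Prime 5) := ⟨by norm_num⟩
  obtain ⟨k, hk, hk2⟩ := card_fixS_eq ρ hadd f hV hf1
  have h1 := fix_mod ρ hadd f 5 hf
  rw [hV, hk2] at h1
  have hk1 : k = 0 := by
    interval_cases k <;> first | rfl | (exfalso; revert h1; decide)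
  subst hk1
  rw [pow_zero] at hk2
  have : (⟨x, h⟩ : fixS ρ hadd f) = 0 := by
    haveI : Subsingleton (fixS ρ hadd f) := (Nat.card_eq_one_iff_unique.1 hk2).1
    exact Subsingleton.elim _ _
  exact congrArg Subtype.val this

theorem transitive_of (hV : Nat.card V = 16) (c f : H) (hc : c ^ 7 = 1) (hf : f ^ 5 = 1) (hf1 : ρ f ≠ 1)
    (v₀ : V) (hv₀ : ∀ x, ρ c x = x ↔ x = 0 ∨ x = v₀) (v : V) (hv : v ≠ 0) : ∃ h, ρ h v₀ = v := by
  classical
  by_contra hno
  have h1 : v₀ ∉ Set.range (fun h : H => ρ h v) := by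
    rintro ⟨h, hh⟩
    apply hno
    refine ⟨h⁻¹, ?_⟩
    rw [← hh]
    simp
  have hne : ∀ x : Set.range (fun h : H => ρ h v), x.1 ≠ 0 := by
    rintro ⟨x, h, rfl⟩
    exact rho_ne_zero ρ hadd h hv
  haveI : Fact (Nat.Prime 7) := ⟨by norm_num⟩
  haveI : Fact (Nat.Prime 5) := ⟨by norm_num⟩
  have h7 : 7 ∣ Nat.card (Set.range (fun h : H => ρ h v)) := by
    apply dvd_of_free (orbHom ρ v c) 7
    · rw [← map_pow, hc, map_one]
    · intro x hx
      have h2 : ρ c x.1 = x.1 := congrArg Subtype.val hx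
      rcases (hv₀ x.1).1 h2 with h3 | h3
      · exact hne x h3
      · exact h1 (h3 ▸ x.2)
  have h5 : 5 ∣ Nat.card (Set.range (fun h : H => ρ h v)) := by
    apply dvd_of_free (orbHom ρ v f) 5
    · rw [← map_pow, hf, map_one]
    · intro x hx
      have h2 : ρ f x.1 = x.1 := congrArg Subtype.val hx
      exact hne x (no_fix hadd hV f hf hf1 _ h2)
  have h35 : 35 ∣ Nat.card (Set.range (fun h : H => ρ h v)) := by
    have := Nat.Coprime.mul_dvd_of_dvd_of_dvd (by norm_num : Nat.Coprime 7 5) h7 h5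
    simpa using this
  have hle : Nat.card (Set.range (fun h : H => ρ h v)) ≤ Nat.card V := Nat.card_le_card_of_injective _ Subtype.val_injective
  have hpos : 0 < Nat.card (Set.range (fun h : H => ρ h v)) := by
    haveI : Nonempty (Set.range (fun h : H => ρ h v)) := ⟨⟨_, 1, rfl⟩⟩
    exact Nat.card_pos
  have := Nat.le_of_dvd hpos h35
  omega

end abs

section abs2

variable {V : Type*} [AddCommGroup V] [Finite V] {H : Type*} [Group H] {ρ : H →* Equiv.Perm V}

/-- the norm of `c` -/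
def eL (ρ : H →* Equiv.Perm V) (c : H) (x : V) : V :=
  x + ρ c x + ρ (c ^ 2) x + ρ (c ^ 3) x + ρ (c ^ 4) x + ρ (c ^ 5) x + ρ (c ^ 6) x

theorem eL_add (hadd : ∀ g x y, ρ g (x + y) = ρ g x + ρ g y) (c : H) (x y : V) :
    eL ρ c (x + y) = eL ρ c x + eL ρ c y := by
  unfold eL
  simp only [hadd]
  abel

theorem eL_shift (c : H) (hc : c ^ 7 = 1) (x : V) : eL ρ c (ρ c x) = eL ρ c x := by
  unfold eL
  have h : ∀ k, ρ (c ^ k) (ρ c x) = ρ (c ^ (k + 1)) x := fun k => by rw [pow_succ, rho_mul_apply]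
  have h1 : ρ c (ρ c x) = ρ (c ^ 2) x := by rw [pow_two, rho_mul_apply]
  rw [h1, h, h, h, h, h]
  simp only [Nat.reduceAdd]
  rw [hc, map_one]
  simp only [Equiv.Perm.coe_one, id]
  abel

theorem eL_fix (hadd : ∀ g x y, ρ g (x + y) = ρ g x + ρ g y) (c : H) (hc : c ^ 7 = 1) (x : V) : ρ c (eL ρ c x) = eL ρ c x := by
  unfold eL
  simp only [hadd]
  have h : ∀ k, ρ c (ρ (c ^ k) x) = ρ (c ^ (k + 1)) x := fun k => by rw [pow_succ', rho_mul_apply]
  have h1 : ρ c (ρ c x) = ρ (c ^ 2) x := by rw [pow_two, rho_mul_apply]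
  rw [h1, h, h, h, h, h]
  simp only [Nat.reduceAdd]
  rw [hc, map_one]
  simp only [Equiv.Perm.coe_one, id]
  abel

theorem pow_fix (c : H) (y : V) (hy : ρ c y = y) (k : ℕ) : ρ (c ^ k) y = y := by
  induction k with
  | zero => simp
  | succ k ih => rw [pow_succ, rho_mul_apply, hy, ih]

theorem eL_of_fix (h2 : ∀ x : V, x + x = 0) (c : H) (y : V) (hy : ρ c y = y) : eL ρ c y = y := by
  unfold eL
  simp only [pow_fix c y hy, hy]
  have : y + y + y + y + y + y + y = (y + y) + (y + y) + (y + y) + y := by abel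
  rw [this, h2 y]
  simp

open scoped Classical in
/-- the functional attached to `c` -/
noncomputable def phi (ρ : H →* Equiv.Perm V) (c : H) (x : V) : ZMod 2 := if eL ρ c x = 0 then 0 else 1

theorem phi_eq_zero (c : H) (x : V) : phi ρ c x = 0 ↔ eL ρ c x = 0 := by
  unfold phi
  split_ifs with h
  · simp [h]
  · simp [h]

theorem phi_eq_one (c : H) (x : V) : phi ρ c x = 1 ↔ eL ρ c x ≠ 0 := by
  unfold phi
  split_ifs with h
  · simp [h]
  · simp [h]

theorem eL_vals (hadd : ∀ g x y, ρ g (x + y) = ρ g x + ρ g y) (c : H) (hc : c ^ 7 = 1) (v₀ : V)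
    (hv₀ : ∀ x, ρ c x = x ↔ x = 0 ∨ x = v₀) (x : V) : eL ρ c x = 0 ∨ eL ρ c x = v₀ :=
  (hv₀ _).1 (eL_fix hadd c hc x)

theorem phi_add (hadd : ∀ g x y, ρ g (x + y) = ρ g x + ρ g y) (h2 : ∀ x : V, x + x = 0) (c : H) (hc : c ^ 7 = 1) (v₀ : V)
    (hv : v₀ ≠ 0) (hv₀ : ∀ x, ρ c x = x ↔ x = 0 ∨ x = v₀) (x y : V) : phi ρ c (x + y) = phi ρ c x + phi ρ c y := by
  have hx := eL_vals hadd c hc v₀ hv₀ x
  have hy := eL_vals hadd c hc v₀ hv₀ y
  have hxy := eL_add hadd c x y
  have h1 : (1 : ZMod 2) + 1 = 0 := by decide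
  rcases hx with hx | hx <;> rcases hy with hy | hy
  · rw [(phi_eq_zero c x).2 hx, (phi_eq_zero c y).2 hy, (phi_eq_zero c _).2 (by rw [hxy, hx, hy, add_zero]), add_zero]
  · rw [(phi_eq_zero c x).2 hx, (phi_eq_one c y).2 (by rw [hy]; exact hv), (phi_eq_one c _).2 (by rw [hxy, hx, hy, zero_add]; exact hv), zero_add]
  · rw [(phi_eq_zero c y).2 hy, (phi_eq_one c x).2 (by rw [hx]; exact hv), (phi_eq_one c _).2 (by rw [hxy, hx, hy, add_zero]; exact hv), add_zero]
  · rw [(phi_eq_one c x).2 (by rw [hx]; exact hv), (phi_eq_one c y).2 (by rw [hy]; exact hv), (phi_eq_zero c _).2 (by rw [hxy, hx, hy, h2]), h1]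

theorem phi_v0 (h2 : ∀ x : V, x + x = 0) (c : H) (v₀ : V) (hv : v₀ ≠ 0) (hv₀ : ρ c v₀ = v₀) : phi ρ c v₀ = 1 :=
  (phi_eq_one c v₀).2 (by rw [eL_of_fix h2 c v₀ hv₀]; exact hv)

theorem phi_shift (c : H) (hc : c ^ 7 = 1) (x : V) : phi ρ c (ρ c x) = phi ρ c x := by
  unfold phi
  rw [eL_shift c hc]

theorem phi_pow (c : H) (hc : c ^ 7 = 1) (x : V) (k : ℕ) : phi ρ c (ρ (c ^ k) x) = phi ρ c x := by
  induction k with
  | zero => simp
  | succ k ih => rw [pow_succ', rho_mul_apply, phi_shift c hc, ih]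

/-- the two `c`-orbits -/
theorem card_W (hadd : ∀ g x y, ρ g (x + y) = ρ g x + ρ g y) (h2 : ∀ x : V, x + x = 0) (hV : Nat.card V = 16) (c : H) (hc : c ^ 7 = 1) (v₀ : V)
    (hv : v₀ ≠ 0) (hv₀ : ∀ x, ρ c x = x ↔ x = 0 ∨ x = v₀) [Fintype V] [DecidableEq V] :
    (Finset.univ.filter (fun x : V => phi ρ c x = 0)).card = 8 := by
  classical
  have h1 := Finset.card_filter_add_card_filter_not (s := (Finset.univ : Finset V)) (fun x : V => phi ρ c x = 0)
  have h3 : (Finset.univ.filter (fun x : V => ¬ phi ρ c x = 0)) =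
      (Finset.univ.filter (fun x : V => phi ρ c x = 0)).image (fun x => x + v₀) := by
    ext x
    have hfv := phi_v0 h2 c v₀ hv ((hv₀ v₀).2 (Or.inr rfl))
    have hadd' := phi_add hadd h2 c hc v₀ hv hv₀
    have hz : ∀ a : ZMod 2, a ≠ 0 ↔ a = 1 := by decide
    simp only [Finset.mem_filter, Finset.mem_univ, true_and, Finset.mem_image]
    constructor
    · intro h
      refine ⟨x + v₀, ?_, by rw [add_assoc, h2, add_zero]⟩
      rw [hadd', hfv, (hz _).1 h]
      decide
    · rintro ⟨y, hy, rfl⟩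
      rw [hadd', hy, hfv]
      decide
  have h4 : ((Finset.univ.filter (fun x : V => phi ρ c x = 0)).image (fun x => x + v₀)).card =
      (Finset.univ.filter (fun x : V => phi ρ c x = 0)).card :=
    Finset.card_image_of_injective _ (add_left_injective v₀)
  rw [h3, h4, Finset.card_univ, ← Nat.card_eq_fintype_card, hV] at h1
  omega

theorem coprime_fix (c : H) (hc : c ^ 7 = 1) (u : V) (k : ℕ) (hk0 : 0 < k) (hk7 : k < 7) (h : ρ (c ^ k) u = u) : ρ c u = u := by
  have hs : ∀ q, c ^ (7 * q + 1) = c := by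
    intro q
    rw [pow_add, pow_mul, hc, one_pow, one_mul, pow_one]
  have key : ∀ m, k * m % 7 = 1 → ρ c u = u := by
    intro m hm
    have h3 : c = (c ^ k) ^ m := by
      rw [← pow_mul]
      have := Nat.div_add_mod (k * m) 7
      rw [hm] at this
      rw [← this, hs]
    rw [h3]
    exact pow_fix _ u h m
  interval_cases k
  · exact key 1 (by norm_num)
  · exact key 4 (by norm_num)
  · exact key 5 (by norm_num)
  · exact key 2 (by norm_num)
  · exact key 3 (by norm_num)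
  · exact key 6 (by norm_num)

theorem orbit_zero (hadd : ∀ g x y, ρ g (x + y) = ρ g x + ρ g y) (h2 : ∀ x : V, x + x = 0) (hV : Nat.card V = 16) (c : H) (hc : c ^ 7 = 1) (v₀ : V)
    (hv : v₀ ≠ 0) (hv₀ : ∀ x, ρ c x = x ↔ x = 0 ∨ x = v₀) (u u' : V) (hu : u ≠ 0) (huv : u ≠ v₀)
    (hφ : phi ρ c u = 0) (hu' : u' ≠ 0) (hφ' : phi ρ c u' = 0) : ∃ k : ℕ, ρ (c ^ k) u = u' := by
  classical
  haveI := Fintype.ofFinite V
  have hW := card_W hadd h2 hV c hc v₀ hv hv₀
  let T := (Finset.univ.filter (fun x : V => phi ρ c x = 0)).erase 0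
  have hT : T.card = 7 := by
    have h0 : (0 : V) ∈ Finset.univ.filter (fun x : V => phi ρ c x = 0) := by
      simp only [Finset.mem_filter, Finset.mem_univ, true_and]
      have := phi_add hadd h2 c hc v₀ hv hv₀ 0 0
      rw [add_zero] at this
      generalize phi ρ c 0 = a at this
      revert a
      decide
    rw [Finset.card_erase_of_mem h0, hW]
  have hinj : Set.InjOn (fun k : ℕ => ρ (c ^ k) u) (Finset.range 7 : Set ℕ) := by
    have hne : ρ c u ≠ u := by
      intro h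
      rcases (hv₀ u).1 h with h | h
      · exact hu h
      · exact huv h
    have hone : ∀ i j : ℕ, i < j → j < 7 → ρ (c ^ i) u ≠ ρ (c ^ j) u := by
      intro i j hij hj h
      apply hne
      apply coprime_fix c hc u (j - i) (by omega) (by omega)
      have h3 : c ^ j = c ^ i * c ^ (j - i) := by
        rw [← pow_add]
        congr 1
        omega
      rw [h3, rho_mul_apply] at h
      exact ((ρ (c ^ i)).injective h).symm
    intro i hi j hj h
    have hi' : i < 7 := by simpa using hi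
    have hj' : j < 7 := by simpa using hj
    rcases lt_trichotomy i j with hlt | heq | hgt
    · exact (hone i j hlt hj' h).elim
    · exact heq
    · exact (hone j i hgt hi' h.symm).elim
  have himg : (Finset.range 7).image (fun k : ℕ => ρ (c ^ k) u) = T := by
    apply Finset.eq_of_subset_of_card_le
    · intro x hx
      obtain ⟨k, -, rfl⟩ := Finset.mem_image.1 hx
      refine Finset.mem_erase.2 ⟨rho_ne_zero ρ hadd _ hu, ?_⟩
      simp only [Finset.mem_filter, Finset.mem_univ, true_and]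
      rw [phi_pow c hc, hφ]
    · rw [Finset.card_image_of_injOn hinj, hT]
      simp
  have hmem : u' ∈ T := Finset.mem_erase.2 ⟨hu', by simp [hφ']⟩
  rw [← himg] at hmem
  obtain ⟨k, -, hk⟩ := Finset.mem_image.1 hmem
  exact ⟨k, hk⟩

theorem same_phi (hadd : ∀ g x y, ρ g (x + y) = ρ g x + ρ g y) (h2 : ∀ x : V, x + x = 0) (hV : Nat.card V = 16) (c : H) (hc : c ^ 7 = 1) (v₀ : V)
    (hv : v₀ ≠ 0) (hv₀ : ∀ x, ρ c x = x ↔ x = 0 ∨ x = v₀) (u u' : V) (hu : u ≠ 0) (huv : u ≠ v₀)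
    (hu' : u' ≠ 0) (huv' : u' ≠ v₀) (hφ : phi ρ c u = phi ρ c u') : ∃ k : ℕ, ρ (c ^ k) u = u' := by
  have hz : ∀ a : ZMod 2, a = 0 ∨ a = 1 := by decide
  rcases hz (phi ρ c u) with h0 | h0
  · exact orbit_zero hadd h2 hV c hc v₀ hv hv₀ u u' hu huv h0 hu' (hφ ▸ h0)
  · have hfv := phi_v0 h2 c v₀ hv ((hv₀ v₀).2 (Or.inr rfl))
    have hadd' := phi_add hadd h2 c hc v₀ hv hv₀
    have hne : ∀ x, x ≠ v₀ → x + v₀ ≠ 0 := by
      intro x hx h
      apply hx
      have := congrArg (· + v₀) h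
      simpa [add_assoc, h2] using this
    have hne2 : ∀ x, x ≠ 0 → x + v₀ ≠ v₀ := by
      intro x hx h
      exact hx (add_eq_right.1 h)
    have h11 : (1 : ZMod 2) + 1 = 0 := by decide
    obtain ⟨k, hk⟩ := orbit_zero hadd h2 hV c hc v₀ hv hv₀ (u + v₀) (u' + v₀) (hne u huv) (hne2 u hu)
      (by rw [hadd', h0, hfv, h11]) (hne u' huv') (by rw [hadd', ← hφ, h0, hfv, h11])
    refine ⟨k, ?_⟩
    rw [hadd, pow_fix c v₀ ((hv₀ v₀).2 (Or.inr rfl))] at hk
    exact add_right_cancel hk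


theorem contra (h2 : ∀ x : V, x + x = 0) (B : V → V → ZMod 2) (ε : ZMod 2)
    (hadd : ∀ x, x ≠ 0 → ∀ u v, B x (u + v) = B x u + B x v) (hself : ∀ x, x ≠ 0 → B x x = 1)
    (hsym : ∀ x z, x ≠ 0 → z ≠ 0 → x ≠ z → B x z + B z x = ε)
    (P : AddSubgroup V) (a b y y' : V) (ha : a ∈ P) (hb : b ∈ P) (ha0 : a ≠ 0) (hb0 : b ≠ 0) (hab : a ≠ b)
    (hy : y ∉ P) (hy' : y' ∉ P) (hyy' : y + y' ∉ P) : False := by
  have hab0 : a + b ≠ 0 := by
    intro h
    apply hab
    have := congrArg (· + b) h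
    simpa [add_assoc, h2] using this
  let g : V → ZMod 2 := fun z => B (a + b) z + B a z + B b z
  have hgadd : ∀ u v, g (u + v) = g u + g v := by
    intro u v
    show B (a + b) (u + v) + B a (u + v) + B b (u + v) = _
    rw [hadd _ hab0, hadd _ ha0, hadd _ hb0]
    show _ = (B (a + b) u + B a u + B b u) + (B (a + b) v + B a v + B b v)
    ring
  have hgout : ∀ z, z ∉ P → g z = ε := by
    intro z hz
    have hz0 : z ≠ 0 := fun h => hz (h ▸ P.zero_mem)
    have h1 := hsym (a + b) z hab0 hz0 (fun h => hz (h ▸ P.add_mem ha hb))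
    have h3 := hsym a z ha0 hz0 (fun h => hz (h ▸ ha))
    have h4 := hsym b z hb0 hz0 (fun h => hz (h ▸ hb))
    have h5 := hadd z hz0 a b
    show B (a + b) z + B a z + B b z = ε
    rw [h5] at h1
    have key : ∀ p1 p2 p3 p4 p5 e : ZMod 2, p1 + (p4 + p5) = e → p2 + p4 = e → p3 + p5 = e → p1 + p2 + p3 = e := by decide
    exact key _ _ _ _ _ _ h1 h3 h4
  have hε : ε = 0 ∨ ε = 1 := by
    generalize ε = e
    revert e
    decide
  rcases hε with hε | hε
  · -- the additive case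
    have hga : g a = 0 := by
      have h3 := hgadd (a + y) y
      rw [add_assoc, h2 y, add_zero] at h3
      have h4 : a + y ∉ P := fun h => hy (by simpa [← add_assoc, h2] using P.add_mem ha h)
      rw [h3, hgout _ h4, hgout _ hy, hε, add_zero]
    have hgb : g b = 0 := by
      have h3 := hgadd (b + y) y
      rw [add_assoc, h2 y, add_zero] at h3
      have h4 : b + y ∉ P := fun h => hy (by simpa [← add_assoc, h2] using P.add_mem hb h)
      rw [h3, hgout _ h4, hgout _ hy, hε, add_zero]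
    have h3 : g (a + b) = 0 := by rw [hgadd, hga, hgb, add_zero]
    have h4 : g (a + b) = B (a + b) (a + b) + B a (a + b) + B b (a + b) := rfl
    rw [h4, hself _ hab0, hadd _ ha0, hadd _ hb0, hself _ ha0, hself _ hb0] at h3
    have h5 := hsym a b ha0 hb0 hab
    rw [hε] at h5
    have key2 : ∀ p q : ZMod 2, 1 + (1 + p) + (q + 1) = 0 → p + q = 0 → False := by decide
    exact key2 _ _ h3 h5
  · have h3 := hgadd y y'
    rw [hgout _ hyy', hgout _ hy, hgout _ hy', hε] at h3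
    exact absurd h3 (by decide)

theorem two_trans_aux (hadd : ∀ g x y, ρ g (x + y) = ρ g x + ρ g y) (h2 : ∀ x : V, x + x = 0) (hV : Nat.card V = 16) (c f : H)
    (hc : c ^ 7 = 1) (hc1 : ρ c ≠ 1) (hf : f ^ 5 = 1) (hf1 : ρ f ≠ 1)
    (P : AddSubgroup V) (a b y y' : V) (ha : a ∈ P) (hb : b ∈ P) (ha0 : a ≠ 0) (hb0 : b ≠ 0) (hab : a ≠ b)
    (hy : y ∉ P) (hy' : y' ∉ P) (hyy' : y + y' ∉ P)
    (v w v' w' : V) (hv : v ≠ 0) (hw : w ≠ 0) (hvw : v ≠ w) (hv' : v' ≠ 0) (hw' : w' ≠ 0) (hvw' : v' ≠ w') :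
    ∃ g, ρ g v = v' ∧ ρ g w = w' := by
  classical
  obtain ⟨v₀, hv0, hv₀⟩ := exists_v0 hadd hV c hc hc1
  have hcv₀ : ρ c v₀ = v₀ := (hv₀ v₀).2 (Or.inr rfl)
  have htrans := transitive_of hadd hV c f hc hf hf1 v₀ hv₀
  have hsame := same_phi hadd h2 hV c hc v₀ hv0 hv₀
  have hz : ∀ a : ZMod 2, a = 0 ∨ a = 1 := by decide
  -- either the stabiliser is transitive on the rest, or it preserves `phi`
  by_cases hpres : ∀ s : H, ρ s v₀ = v₀ → ∀ u, phi ρ c (ρ s u) = phi ρ c u
  · exfalso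
    have hex : ∀ x, ∃ h : H, x ≠ 0 → ρ h v₀ = x := by
      intro x
      by_cases hx : x = 0
      · exact ⟨1, fun h => (h hx).elim⟩
      · obtain ⟨h, hh⟩ := htrans x hx
        exact ⟨h, fun _ => hh⟩
    choose pick hpick using hex
    let B : V → V → ZMod 2 := fun x z => phi ρ c (ρ (pick x)⁻¹ z)
    have hB : ∀ h : H, ∀ x z, x ≠ 0 → ρ h v₀ = x → B x z = phi ρ c (ρ h⁻¹ z) := by
      intro h x z hx hh
      have hs : ρ ((pick x)⁻¹ * h) v₀ = v₀ := by
        rw [rho_mul_apply, hh]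
        have := rho_inv_apply ρ (pick x) v₀
        rwa [hpick x hx] at this
      have h3 := hpres _ hs (ρ h⁻¹ z)
      rw [rho_mul_apply, rho_apply_inv] at h3
      exact h3
    have hBeq : ∀ k : H, ∀ x z, x ≠ 0 → B (ρ k x) (ρ k z) = B x z := by
      intro k x z hx
      have h3 : ρ (k * pick x) v₀ = ρ k x := by rw [rho_mul_apply, hpick x hx]
      rw [hB _ _ _ (rho_ne_zero ρ hadd k hx) h3, mul_inv_rev, rho_mul_apply, rho_inv_apply]
    have hBadd : ∀ x, x ≠ 0 → ∀ u z, B x (u + z) = B x u + B x z := by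
      intro x _ u z
      show phi ρ c (ρ (pick x)⁻¹ (u + z)) = _
      rw [hadd, phi_add hadd h2 c hc v₀ hv0 hv₀]
    have hfv := phi_v0 h2 c v₀ hv0 hcv₀
    have hBself : ∀ x, x ≠ 0 → B x x = 1 := by
      intro x hx
      have h3 : ρ (pick x)⁻¹ x = v₀ := by
        have := rho_inv_apply ρ (pick x) v₀
        rwa [hpick x hx] at this
      show phi ρ c (ρ (pick x)⁻¹ x) = 1
      rw [h3, hfv]
    have hadd' := phi_add hadd h2 c hc v₀ hv0 hv₀
    have hBv : ∀ y, B v₀ y = phi ρ c y := by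
      intro y
      have := hB 1 v₀ y hv0 (by simp)
      simpa using this
    -- two base points
    obtain ⟨u₀, hu₀0, hφ0⟩ : ∃ u₀ : V, u₀ ≠ 0 ∧ phi ρ c u₀ = 0 := by
      haveI := Fintype.ofFinite V
      have hW := card_W hadd h2 hV c hc v₀ hv0 hv₀
      obtain ⟨x, hx, hx0⟩ := Finset.exists_mem_ne (s := Finset.univ.filter (fun x : V => phi ρ c x = 0)) (by omega) (0 : V)
      exact ⟨x, hx0, (Finset.mem_filter.1 hx).2⟩
    have hu₀v : u₀ ≠ v₀ := by
      rintro rfl
      rw [hfv] at hφ0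
      exact absurd hφ0 (by decide)
    let u₁ := u₀ + v₀
    have hφ1 : phi ρ c u₁ = 1 := by
      show phi ρ c (u₀ + v₀) = 1
      rw [hadd', hφ0, hfv, zero_add]
    have hu₁0 : u₁ ≠ 0 := by
      intro h
      apply hu₀v
      have h3 : u₀ + v₀ + v₀ = v₀ := by
        rw [show u₀ + v₀ = u₁ from rfl, h, zero_add]
      rwa [add_assoc, h2, add_zero] at h3
    have hu₁v : u₁ ≠ v₀ := fun h => hu₀0 (add_eq_right.1 h)
    have L4 : ∀ x z, x ≠ 0 → z ≠ 0 → x ≠ z → ∀ u, u ≠ 0 → u ≠ v₀ → phi ρ c u = B x z →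
        ∃ h : H, ρ h v₀ = x ∧ ρ h u = z := by
      intro x z hx hz hxz u hu huv hφu
      have h3 : ρ (pick x)⁻¹ z ≠ 0 := rho_ne_zero ρ hadd _ hz
      have h4 : ρ (pick x)⁻¹ z ≠ v₀ := by
        intro h
        apply hxz
        rw [← hpick x hx, ← h, rho_apply_inv]
      obtain ⟨k, hk⟩ := hsame u _ hu huv h3 h4 hφu
      refine ⟨pick x * c ^ k, ?_, ?_⟩
      · rw [rho_mul_apply, pow_fix c v₀ hcv₀, hpick x hx]
      · rw [rho_mul_apply, hk, rho_apply_inv]
    have hsym : ∀ x z, x ≠ 0 → z ≠ 0 → x ≠ z → B x z + B z x = B u₀ v₀ := by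
      have hu1 : B u₁ v₀ + 1 = B u₀ v₀ := by
        rcases hz (B u₀ v₀) with he | he
        · -- ε = 0
          rcases hz (B u₁ v₀) with hd | hd
          · obtain ⟨h, h3, h4⟩ := L4 u₁ v₀ hu₁0 hv0 hu₁v u₀ hu₀0 hu₀v (by rw [hφ0, hd])
            have h5 := hBeq h u₀ v₀ hu₀0
            rw [h4, h3, hBv, hφ1, he] at h5
            exact absurd h5 (by decide)
          · rw [hd, he]
            decide
        · -- ε = 1
          obtain ⟨h, h3, h4⟩ := L4 u₀ v₀ hu₀0 hv0 hu₀v u₁ hu₁0 hu₁v (by rw [hφ1, he])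
          have h5 := hBeq h u₁ v₀ hu₁0
          rw [h4, h3, hBv, hφ0] at h5
          rw [← h5, he]
          decide
      intro x z hx hz' hxz
      rcases hz (B x z) with hd | hd
      · obtain ⟨h, h3, h4⟩ := L4 x z hx hz' hxz u₀ hu₀0 hu₀v (by rw [hφ0, hd])
        have h5 := hBeq h u₀ v₀ hu₀0
        rw [h4, h3] at h5
        rw [hd, h5, zero_add]
      · obtain ⟨h, h3, h4⟩ := L4 x z hx hz' hxz u₁ hu₁0 hu₁v (by rw [hφ1, hd])
        have h5 := hBeq h u₁ v₀ hu₁0
        rw [h4, h3] at h5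
        rw [hd, h5, add_comm, hu1]
    exact contra h2 B (B u₀ v₀) hBadd hBself hsym P a b y y' ha hb ha0 hb0 hab hy hy' hyy'
  · push Not at hpres
    obtain ⟨s, hs, u, hu⟩ := hpres
    have hu0 : u ≠ 0 := by
      rintro rfl
      exact hu (by rw [rho_zero ρ hadd])
    have huv : u ≠ v₀ := by
      rintro rfl
      exact hu (by rw [hs])
    have hsu0 : ρ s u ≠ 0 := rho_ne_zero ρ hadd s hu0
    have hsuv : ρ s u ≠ v₀ := by
      intro h
      apply huv
      apply (ρ s).injective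
      rw [h, hs]
    -- the stabiliser is transitive on the rest
    have hst : ∀ x x', x ≠ 0 → x ≠ v₀ → x' ≠ 0 → x' ≠ v₀ → ∃ s' : H, ρ s' v₀ = v₀ ∧ ρ s' x = x' := by
      intro x x' hx hxv hx' hxv'
      by_cases hφ : phi ρ c x = phi ρ c x'
      · obtain ⟨k, hk⟩ := hsame x x' hx hxv hx' hxv' hφ
        exact ⟨c ^ k, pow_fix c v₀ hcv₀ k, hk⟩
      · have hne : ∀ a b : ZMod 2, a ≠ b → ∀ d e : ZMod 2, d ≠ e → (a = d ∧ b = e) ∨ (a = e ∧ b = d) := by decide
        rcases hne _ _ hφ _ _ hu.symm with ⟨h3, h4⟩ | ⟨h3, h4⟩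
        · obtain ⟨k1, hk1⟩ := hsame x u hx hxv hu0 huv h3
          obtain ⟨k2, hk2⟩ := hsame (ρ s u) x' hsu0 hsuv hx' hxv' h4.symm
          refine ⟨c ^ k2 * s * c ^ k1, ?_, ?_⟩
          · rw [rho_mul_apply, rho_mul_apply, pow_fix c v₀ hcv₀, hs, pow_fix c v₀ hcv₀]
          · rw [rho_mul_apply, rho_mul_apply, hk1, hk2]
        · obtain ⟨k1, hk1⟩ := hsame x (ρ s u) hx hxv hsu0 hsuv h3
          obtain ⟨k2, hk2⟩ := hsame u x' hu0 huv hx' hxv' h4.symm
          refine ⟨c ^ k2 * s⁻¹ * c ^ k1, ?_, ?_⟩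
          · have hsi : ρ s⁻¹ v₀ = v₀ := by
              conv_lhs => rw [← hs]
              exact rho_inv_apply ρ s v₀
            rw [rho_mul_apply, rho_mul_apply, pow_fix c v₀ hcv₀, hsi, pow_fix c v₀ hcv₀]
          · rw [rho_mul_apply, rho_mul_apply, hk1, rho_inv_apply, hk2]
    obtain ⟨h₁, hh₁⟩ := htrans v hv
    obtain ⟨h₂, hh₂⟩ := htrans v' hv'
    have hx0 : ρ h₁⁻¹ w ≠ 0 := rho_ne_zero ρ hadd _ hw
    have hxv : ρ h₁⁻¹ w ≠ v₀ := by
      intro h
      apply hvw
      rw [← hh₁, ← h, rho_apply_inv]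
    have hx0' : ρ h₂⁻¹ w' ≠ 0 := rho_ne_zero ρ hadd _ hw'
    have hxv' : ρ h₂⁻¹ w' ≠ v₀ := by
      intro h
      apply hvw'
      rw [← hh₂, ← h, rho_apply_inv]
    obtain ⟨s', hs'1, hs'2⟩ := hst _ _ hx0 hxv hx0' hxv'
    refine ⟨h₂ * s' * h₁⁻¹, ?_, ?_⟩
    · have h3 : ρ h₁⁻¹ v = v₀ := by
        rw [← hh₁, rho_inv_apply]
      rw [rho_mul_apply, rho_mul_apply, h3, hs'1, hh₂]
    · rw [rho_mul_apply, rho_mul_apply, hs'2, rho_apply_inv]

end abs2

section concrete

variable {F : Type*} [Field F] [Fintype F]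

theorem eq_one_of_ne_zero (hF : Fintype.card F = 2) (x : F) (hx : x ≠ 0) : x = 1 := by
  by_contra h
  have : 2 < Fintype.card F := Fintype.two_lt_card_iff.2 ⟨0, 1, x, zero_ne_one, hx.symm, fun e => h e.symm⟩
  omega

theorem add_self_zero (hF : Fintype.card F = 2) (x : F) : x + x = 0 := by
  by_cases hx : x = 0
  · simp [hx]
  · rw [eq_one_of_ne_zero hF x hx]
    by_contra h
    have h3 := eq_one_of_ne_zero hF _ h
    have : (1 : F) = 0 := by simpa using h3
    exact one_ne_zero this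

variable (F) in
/-- the action on vectors -/
noncomputable def rhoGL : Matrix.GeneralLinearGroup (Fin 4) F →* Equiv.Perm (Fin 4 → F) where
  toFun g :=
    { toFun := fun v => (g : Matrix (Fin 4) (Fin 4) F).mulVec v
      invFun := fun v => ((g⁻¹ : Matrix.GeneralLinearGroup (Fin 4) F) : Matrix (Fin 4) (Fin 4) F).mulVec v
      left_inv := fun v => by
        show ((g⁻¹ : Matrix.GeneralLinearGroup (Fin 4) F) : Matrix (Fin 4) (Fin 4) F).mulVec ((g : Matrix (Fin 4) (Fin 4) F).mulVec v) = v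
        rw [Matrix.mulVec_mulVec, ← Units.val_mul]
        simp
      right_inv := fun v => by
        show (g : Matrix (Fin 4) (Fin 4) F).mulVec (((g⁻¹ : Matrix.GeneralLinearGroup (Fin 4) F) : Matrix (Fin 4) (Fin 4) F).mulVec v) = v
        rw [Matrix.mulVec_mulVec, ← Units.val_mul]
        simp }
  map_one' := by
    ext v : 1
    simp
  map_mul' g h := by
    ext v : 1
    simp [Matrix.mulVec_mulVec]

/-- a seven-cycle -/
def sev : alternatingGroup (Fin 7) := ⟨finRotate 7, by rw [Equiv.Perm.mem_alternatingGroup]; decide⟩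

/-- a five-cycle -/
def fiv : alternatingGroup (Fin 7) := ⟨Equiv.swap 0 1 * Equiv.swap 1 2 * Equiv.swap 2 3 * Equiv.swap 3 4, by rw [Equiv.Perm.mem_alternatingGroup]; decide⟩

theorem sev_pow : sev ^ 7 = 1 := by decide

theorem fiv_pow : fiv ^ 5 = 1 := by decide

theorem sev_ne : sev ≠ 1 := by decide

theorem fiv_ne : fiv ≠ 1 := by decide

theorem part2 (hF : Fintype.card F = 2) (H : Subgroup (Matrix.GeneralLinearGroup (Fin 4) F))
    (e : H ≃* alternatingGroup (Fin 7)) (v w v' w' : Fin 4 → F) (hv : v ≠ 0) (hw : w ≠ 0) (hvw : v ≠ w)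
    (hv' : v' ≠ 0) (hw' : w' ≠ 0) (hvw' : v' ≠ w') :
    ∃ g ∈ H, (g : Matrix (Fin 4) (Fin 4) F).mulVec v = v' ∧ (g : Matrix (Fin 4) (Fin 4) F).mulVec w = w' := by
  classical
  let ρ : H →* Equiv.Perm (Fin 4 → F) := (rhoGL F).comp H.subtype
  have hadd : ∀ g x y, ρ g (x + y) = ρ g x + ρ g y := by
    intro g x y
    show (g.1 : Matrix (Fin 4) (Fin 4) F).mulVec (x + y) = (g.1 : Matrix (Fin 4) (Fin 4) F).mulVec x + (g.1 : Matrix (Fin 4) (Fin 4) F).mulVec y
    exact Matrix.mulVec_add _ _ _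
  have h2 : ∀ x : Fin 4 → F, x + x = 0 := fun x => funext fun i => add_self_zero hF (x i)
  have hV : Nat.card (Fin 4 → F) = 16 := by
    rw [Nat.card_eq_fintype_card, Fintype.card_fun, hF]
    simp
  have hinj : Function.Injective ρ := by
    intro g g' h
    apply Subtype.ext
    apply Units.ext
    apply Matrix.mulVec_injective
    funext x
    exact congrArg (fun σ : Equiv.Perm (Fin 4 → F) => σ x) h
  let s7 := sev
  let s5 := fiv
  have hs7 : s7 ^ 7 = 1 := sev_pow
  have hs5 : s5 ^ 5 = 1 := fiv_pow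
  have hs7' : s7 ≠ 1 := sev_ne
  have hs5' : s5 ≠ 1 := fiv_ne
  let c : H := e.symm s7
  let f : H := e.symm s5
  have hc : c ^ 7 = 1 := by
    show (e.symm s7) ^ 7 = 1
    rw [← map_pow, hs7, map_one]
  have hf : f ^ 5 = 1 := by
    show (e.symm s5) ^ 5 = 1
    rw [← map_pow, hs5, map_one]
  have hc1 : ρ c ≠ 1 := by
    intro h
    apply hs7'
    have h3 : c = 1 := hinj (h.trans (map_one ρ).symm)
    have h4 : e.symm s7 = e.symm 1 := by rw [map_one]; exact h3
    exact e.symm.injective h4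
  have hf1 : ρ f ≠ 1 := by
    intro h
    apply hs5'
    have h3 : f = 1 := hinj (h.trans (map_one ρ).symm)
    have h4 : e.symm s5 = e.symm 1 := by rw [map_one]; exact h3
    exact e.symm.injective h4
  let P : AddSubgroup (Fin 4 → F) :=
    { carrier := {x | x 2 = 0 ∧ x 3 = 0}
      add_mem' := fun {a b} ha hb => ⟨by simp [ha.1, hb.1], by simp [ha.2, hb.2]⟩
      zero_mem' := ⟨rfl, rfl⟩
      neg_mem' := fun {a} ha => ⟨by simp [ha.1], by simp [ha.2]⟩ }
  have hne : ∀ i j : Fin 4, i ≠ j → (Pi.single i 1 : Fin 4 → F) ≠ Pi.single j 1 := by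
    intro i j hij h
    have := congrFun h i
    simp [Pi.single_apply, hij] at this
  have hne0 : ∀ i : Fin 4, (Pi.single i 1 : Fin 4 → F) ≠ 0 := by
    intro i h
    have := congrFun h i
    simp at this
  obtain ⟨g, h3, h4⟩ := two_trans_aux hadd h2 hV c f hc hc1 hf hf1 P (Pi.single 0 1) (Pi.single 1 1) (Pi.single 2 1) (Pi.single 3 1)
    ⟨by simp, by simp⟩ ⟨by simp, by simp⟩ (hne0 _) (hne0 _) (hne _ _ (by decide))
    (fun h => by have := h.1; simp at this) (fun h => by have := h.2; simp at this)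
    (fun h => by have := h.1; simp at this) v w v' w' hv hw hvw hv' hw' hvw'
  exact ⟨g.1, g.2, h3, h4⟩

theorem part1 (hF : Fintype.card F = 2) :
    ∃ H : Subgroup (Matrix.GeneralLinearGroup (Fin 4) F), Nonempty (H ≃* alternatingGroup (Fin 7)) := by
  classical
  obtain ⟨e⟩ := Cfsg.Agent.Lead.psl42_equiv_alt hF
  have hb1 : Function.Bijective (Matrix.SpecialLinearGroup.toGL : Matrix.SpecialLinearGroup (Fin 4) F →* Matrix.GeneralLinearGroup (Fin 4) F) := by
    refine ⟨Matrix.SpecialLinearGroup.toGL_injective, ?_⟩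
    intro g
    have hd : Matrix.det (g : Matrix (Fin 4) (Fin 4) F) = 1 := by
      apply eq_one_of_ne_zero hF
      have : IsUnit (Matrix.det (g : Matrix (Fin 4) (Fin 4) F)) := (Matrix.isUnit_iff_isUnit_det _).1 g.isUnit
      exact this.ne_zero
    refine ⟨⟨g.1, hd⟩, ?_⟩
    apply Units.ext
    rfl
  have hb2 : Function.Bijective (QuotientGroup.mk' (Subgroup.center (Matrix.SpecialLinearGroup (Fin 4) F))) := by
    refine ⟨?_, QuotientGroup.mk'_surjective _⟩
    rw [injective_iff_map_eq_one]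
    intro A hA
    have hA' := (QuotientGroup.eq_one_iff A).1 hA
    obtain ⟨r, hr, hr2⟩ := (Matrix.SpecialLinearGroup.mem_center_iff).1 hA'
    have h1 : r = 1 := by
      apply eq_one_of_ne_zero hF
      rintro rfl
      simp at hr
    ext i j
    have := congrFun (congrFun hr2 i) j
    rw [← this, h1]
    simp [Matrix.one_apply]
  let e1 := MulEquiv.ofBijective _ hb1
  let e2 := MulEquiv.ofBijective _ hb2
  let ι : Fin 7 ↪ Fin 8 := Fin.castSuccEmb
  let ψ : alternatingGroup (Fin 7) →* alternatingGroup (Fin 8) :=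
    ((Equiv.Perm.viaEmbeddingHom ι).comp (alternatingGroup (Fin 7)).subtype).codRestrict (alternatingGroup (Fin 8)) (by
      intro x
      rw [Equiv.Perm.mem_alternatingGroup]
      show Equiv.Perm.sign (Equiv.Perm.viaEmbeddingHom ι x.1) = 1
      rw [Equiv.Perm.viaEmbeddingHom_apply]
      unfold Equiv.Perm.viaEmbedding
      rw [Equiv.Perm.sign_extendDomain]
      exact x.2)
  have hψ : Function.Injective ψ := by
    intro x y h
    apply Subtype.ext
    apply Equiv.Perm.viaEmbeddingHom_injective ι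
    exact congrArg Subtype.val h
  let Φ : alternatingGroup (Fin 7) →* Matrix.GeneralLinearGroup (Fin 4) F :=
    e1.toMonoidHom.comp (e2.symm.toMonoidHom.comp (e.symm.toMonoidHom.comp ψ))
  have hΦ : Function.Injective Φ :=
    e1.injective.comp (e2.symm.injective.comp (e.symm.injective.comp hψ))
  exact ⟨Φ.range, ⟨(MonoidHom.ofInjective hΦ).symm⟩⟩

end concrete


/-- Let F be the field with 2 elements. GL_4(F) (≅ A_8) has a subgroup isomorphic to the alternating group A_7, and every such subgroup acts 2-transitively on the 15 non-zero vectors of F⁴: any ordered pair of distinct non-zero vectors is carried to any other by some element of the subgroup. -/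
theorem result {F : Type*} [Field F] [Fintype F] (hF : Fintype.card F = 2) : (∃ H : Subgroup (Matrix.GeneralLinearGroup (Fin 4) F), Nonempty (H ≃* alternatingGroup (Fin 7))) ∧ ∀ H : Subgroup (Matrix.GeneralLinearGroup (Fin 4) F), Nonempty (H ≃* alternatingGroup (Fin 7)) → ∀ v w v' w' : Fin 4 → F, v ≠ 0 → w ≠ 0 → v ≠ w → v' ≠ 0 → w' ≠ 0 → v' ≠ w' → ∃ g ∈ H, (g : Matrix (Fin 4) (Fin 4) F).mulVec v = v' ∧ (g : Matrix (Fin 4) (Fin 4) F).mulVec w = w' := by
  exact ⟨part1 hF, fun H ⟨e⟩ v w v' w' hv hw hvw hv' hw' hvw' => part2 hF H e v w v' w' hv hw hvw hv' hw' hvw'⟩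

end Cfsg.Agent.S2551
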