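import Mathlib
import Cfsg.Statements.S2552

set_option autoImplicit false
open Cfsg

namespace Cfsg.Agent.S2552

theorem result {F : Type*} [Field F] [Fintype F] (n : ℕ) (hn : 1 ≤ n) (U₁ U₂ : Submodule F (Fin n → F)) (h : Module.finrank F U₁ = Module.finrank F U₂) : ∃ g : Matrix.SpecialLinearGroup (Fin n) F, U₁.map ((Matrix.SpecialLinearGroup.toLin' g : (Fin n → F) ≃ₗ[F] (Fin n → F)) : (Fin n → F) →ₗ[F] (Fin n → F)) = U₂ := by
  classical
  -- a linear equivalence carrying `U₁` to `U₂`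
  obtain ⟨W₁, hW₁⟩ := Submodule.exists_isCompl U₁
  obtain ⟨W₂, hW₂⟩ := Submodule.exists_isCompl U₂
  have hW : Module.finrank F W₁ = Module.finrank F W₂ := by
    have h1 := Submodule.finrank_add_eq_of_isCompl hW₁
    have h2 := Submodule.finrank_add_eq_of_isCompl hW₂
    omega
  let e₁ : U₁ ≃ₗ[F] U₂ := LinearEquiv.ofFinrankEq _ _ h
  let e₂ : W₁ ≃ₗ[F] W₂ := LinearEquiv.ofFinrankEq _ _ hW
  let φ : (Fin n → F) ≃ₗ[F] (Fin n → F) :=
    (Submodule.prodEquivOfIsCompl U₁ W₁ hW₁).symm.trans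
      ((e₁.prodCongr e₂).trans (Submodule.prodEquivOfIsCompl U₂ W₂ hW₂))
  have hφ : U₁.map (φ : (Fin n → F) →ₗ[F] (Fin n → F)) = U₂ := by
    apply le_antisymm
    · rintro _ ⟨u, hu, rfl⟩
      have h1 : (Submodule.prodEquivOfIsCompl U₁ W₁ hW₁).symm u = (⟨u, hu⟩, 0) :=
        Submodule.prodEquivOfIsCompl_symm_apply_left U₁ W₁ hW₁ ⟨u, hu⟩
      simp only [φ, LinearEquiv.coe_coe, LinearEquiv.trans_apply, h1]
      simp
    · intro v hv
      refine ⟨φ.symm v, ?_, by simp⟩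
      have h1 : (Submodule.prodEquivOfIsCompl U₂ W₂ hW₂).symm v = (⟨v, hv⟩, 0) :=
        Submodule.prodEquivOfIsCompl_symm_apply_left U₂ W₂ hW₂ ⟨v, hv⟩
      simp only [φ, LinearEquiv.symm_trans_apply, h1, SetLike.mem_coe]
      simp
  by_cases htop : U₂ = ⊤
  · refine ⟨1, ?_⟩
    have h1 : U₁ = ⊤ := by
      apply Submodule.eq_top_of_finrank_eq
      rw [h, htop, finrank_top]
    rw [h1, htop]
    simp
  · obtain ⟨w, hw⟩ : ∃ w, w ∉ U₂ := by
      by_contra hc
      push Not at hc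
      exact htop (by ext x; simp [hc x])
    obtain ⟨f, hfw, hf⟩ := Submodule.exists_le_ker_of_notMem hw
    have hd : LinearMap.det (φ : (Fin n → F) →ₗ[F] (Fin n → F)) ≠ 0 := by
      exact (LinearEquiv.isUnit_det' φ).ne_zero
    set d := LinearMap.det (φ : (Fin n → F) →ₗ[F] (Fin n → F)) with hddef
    let v : Fin n → F := ((d⁻¹ - 1) / f w) • w
    have hfv : 1 + f v = d⁻¹ := by
      simp only [v, map_smul, smul_eq_mul]
      field_simp
      ring
    have hunit : IsUnit (1 + f v) := by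
      rw [hfv]
      exact (inv_ne_zero hd).isUnit
    let ψ : (Fin n → F) ≃ₗ[F] (Fin n → F) := LinearEquiv.dilatransvection hunit
    have hψfix : ∀ u ∈ U₂, ψ u = u := by
      intro u hu
      have : f u = 0 := hf hu
      show LinearMap.transvection f v u = u
      simp [LinearMap.transvection.apply, this]
    have hψdet : LinearMap.det (ψ : (Fin n → F) →ₗ[F] (Fin n → F)) = d⁻¹ := by
      rw [← hfv]
      exact LinearMap.transvection.det f v
    let L : (Fin n → F) ≃ₗ[F] (Fin n → F) := φ.trans ψ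
    have hLdet : LinearMap.det (L : (Fin n → F) →ₗ[F] (Fin n → F)) = 1 := by
      have : (L : (Fin n → F) →ₗ[F] (Fin n → F)) = (ψ : (Fin n → F) →ₗ[F] (Fin n → F)) ∘ₗ (φ : (Fin n → F) →ₗ[F] (Fin n → F)) := rfl
      rw [this, LinearMap.det_comp, hψdet, mul_comm, ← hddef, mul_inv_cancel₀ hd]
    have hMdet : (LinearMap.toMatrix' (L : (Fin n → F) →ₗ[F] (Fin n → F))).det = 1 := by
      rw [LinearMap.det_toMatrix']
      exact hLdet
    let g : Matrix.SpecialLinearGroup (Fin n) F := ⟨LinearMap.toMatrix' (L : (Fin n → F) →ₗ[F] (Fin n → F)), hMdet⟩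
    refine ⟨g, ?_⟩
    have hg : ((Matrix.SpecialLinearGroup.toLin' g : (Fin n → F) ≃ₗ[F] (Fin n → F)) : (Fin n → F) →ₗ[F] (Fin n → F)) = (L : (Fin n → F) →ₗ[F] (Fin n → F)) := by
      refine LinearMap.ext fun x => ?_
      rw [LinearEquiv.coe_coe, Matrix.SpecialLinearGroup.toLin'_apply]
      show Matrix.toLin' (LinearMap.toMatrix' (L : (Fin n → F) →ₗ[F] (Fin n → F))) x = _
      rw [Matrix.toLin'_toMatrix']
    rw [hg]
    have h1 : U₁.map (L : (Fin n → F) →ₗ[F] (Fin n → F)) = (U₁.map (φ : (Fin n → F) →ₗ[F] (Fin n → F))).map (ψ : (Fin n → F) →ₗ[F] (Fin n → F)) := by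
      rw [← Submodule.map_comp]
      rfl
    rw [h1, hφ]
    apply le_antisymm
    · rintro _ ⟨u, hu, rfl⟩
      show ψ u ∈ U₂
      rw [hψfix u hu]
      exact hu
    · intro u hu
      exact ⟨u, hu, hψfix u hu⟩

end Cfsg.Agent.S2552
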