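import Cfsg.Statements.S2565
import Cfsg.Agent.Lib.H11.EvenSub
import Cfsg.Agent.Lib.Lead.OrthoOrder

set_option autoImplicit false
open Cfsg

namespace Cfsg.Agent.S2565

/-- The commutator subgroup of the full orthogonal group of the plus-type form Σ xᵢyᵢ in dimension 6 over the field of two elements (the group Ω⁺₆(2), of index 2) is isomorphic to the alternating group of degree 8. -/
theorem result :
    (Cfsg.Omega (ZMod 2) (Cfsg.quadFormPlus 3 (ZMod 2))).index = 2 ∧
    Nonempty (↥(Cfsg.Omega (ZMod 2) (Cfsg.quadFormPlus 3 (ZMod 2))) ≃* alternatingGroup (Fin 8)) := by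
  classical
  have h3 : Odd 1 := odd_one
  obtain ⟨φ, hφ⟩ : ∃ φ : Equiv.Perm (Fin 8) →* ↥(Cfsg.isometryGroup (ZMod 2) (Cfsg.quadFormPlus 3 (ZMod 2))), Function.Injective φ :=
    Cfsg.Agent.H11.EvenSub.main_plus 1 le_rfl h3
  have hcard : Nat.card ↥(Cfsg.isometryGroup (ZMod 2) (Cfsg.quadFormPlus 3 (ZMod 2))) = 40320 := by
    have := Cfsg.Agent.Lead.Ortho.card_GO_plus (F := ZMod 2) (q := 2) (ZMod.card 2) 3 (by norm_num)
    rw [this]
    decide
  have hS : Nat.card (Equiv.Perm (Fin 8)) = 40320 := by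
    rw [Nat.card_eq_fintype_card, Fintype.card_perm]
    rfl
  have hbij : Function.Bijective φ := by
    refine (Nat.bijective_iff_injective_and_card φ).2 ⟨hφ, ?_⟩
    rw [hS, hcard]
  let e := MulEquiv.ofBijective φ hbij
  have hO : Cfsg.Omega (ZMod 2) (Cfsg.quadFormPlus 3 (ZMod 2)) = (alternatingGroup (Fin 8)).map e.toMonoidHom := by
    have h1 : commutator (Equiv.Perm (Fin 8)) = alternatingGroup (Fin 8) :=
      alternatingGroup.commutator_perm_eq (by simp)
    rw [← h1]
    unfold commutator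
    rw [Subgroup.map_commutator, Subgroup.map_top_of_surjective e.toMonoidHom e.surjective]
    rfl
  have hi : (alternatingGroup (Fin 8)).index = 2 := alternatingGroup.index_eq_two
  constructor
  · rw [hO, Subgroup.index_map_of_bijective (f := e.toMonoidHom) e.bijective, hi]
  · rw [hO]
    exact ⟨(e.subgroupMap _).symm⟩

end Cfsg.Agent.S2565
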