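import Mathlib
import Cfsg.Statements.S2567

set_option autoImplicit false
open Cfsg

namespace Cfsg.Agent.S2567

open Matrix.GeneralLinearGroup in
theorem result {F : Type*} [Field F] [Fintype F] {q n r : ℕ} (hF : Fintype.card F = q) (hr : r.Prime) (hdiv : ¬ r ∣ q - 1) (x : GL (Fin n) F ⧸ Subgroup.center (GL (Fin n) F)) (hx : orderOf x = r) : ∃! g : GL (Fin n) F, (QuotientGroup.mk g : GL (Fin n) F ⧸ Subgroup.center (GL (Fin n) F)) = x ∧ orderOf g = r := by
  classical
  have : Fact r.Prime := ⟨hr⟩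
  obtain ⟨g₀, rfl⟩ := QuotientGroup.mk_surjective x
  have hcop : (Nat.card Fˣ).Coprime r := by
    rw [Nat.card_eq_fintype_card, Fintype.card_units, hF]
    exact ((Nat.Prime.coprime_iff_not_dvd hr).2 hdiv).symm
  have h1 : g₀ ^ r ∈ Subgroup.center (GL (Fin n) F) := by
    have : ((QuotientGroup.mk g₀ : GL (Fin n) F ⧸ Subgroup.center (GL (Fin n) F))) ^ r = 1 := by
      rw [← hx, pow_orderOf_eq_one]
    rw [← QuotientGroup.mk_pow, QuotientGroup.eq_one_iff] at this
    exact this
  rw [center_eq_range_scalar] at h1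
  obtain ⟨l, hl⟩ := h1
  obtain ⟨μ, hμ⟩ : ∃ μ : Fˣ, μ ^ r = l := ⟨(powCoprime hcop).symm l, (powCoprime hcop).apply_symm_apply l⟩
  have hcen : ∀ u : Fˣ, scalar (Fin n) u ∈ Subgroup.center (GL (Fin n) F) := by
    intro u
    rw [center_eq_range_scalar]
    exact ⟨u, rfl⟩
  have hmk : ∀ (a : GL (Fin n) F) (u : Fˣ), (QuotientGroup.mk (a * scalar (Fin n) u) : GL (Fin n) F ⧸ Subgroup.center (GL (Fin n) F)) = QuotientGroup.mk a := by
    intro a u
    rw [QuotientGroup.mk_mul, (QuotientGroup.eq_one_iff _).2 (hcen u), mul_one]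
  have hcomm : ∀ (a : GL (Fin n) F) (u : Fˣ) (k : ℕ), (a * scalar (Fin n) u) ^ k = a ^ k * scalar (Fin n) (u ^ k) := by
    intro a u k
    rw [(show Commute a (scalar (Fin n) u) from (scalar_commute u a).symm).mul_pow, map_pow]
  have hne1 : (QuotientGroup.mk g₀ : GL (Fin n) F ⧸ Subgroup.center (GL (Fin n) F)) ≠ 1 := by
    intro h
    rw [h, orderOf_one] at hx
    exact hr.one_lt.ne hx
  refine ⟨g₀ * scalar (Fin n) μ⁻¹, ⟨hmk _ _, ?_⟩, ?_⟩
  · apply orderOf_eq_prime
    · rw [hcomm, ← hl, ← map_mul, inv_pow, hμ, mul_inv_cancel, map_one]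
    · intro h
      apply hne1
      have := hmk g₀ μ⁻¹
      rw [h] at this
      rw [← this]
      rfl
  · rintro g' ⟨hg'1, hg'2⟩
    have h2 : (g₀ * scalar (Fin n) μ⁻¹)⁻¹ * g' ∈ Subgroup.center (GL (Fin n) F) := by
      rw [← QuotientGroup.eq]
      rw [hg'1, hmk]
    rw [center_eq_range_scalar] at h2
    obtain ⟨c, hc⟩ := h2
    have hg' : g' = (g₀ * scalar (Fin n) μ⁻¹) * scalar (Fin n) c := by
      rw [hc]; group
    have h3 : c ^ r = 1 := by
      have h4 : g' ^ r = 1 := by rw [← hg'2, pow_orderOf_eq_one]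
      have h5 : (g₀ * scalar (Fin n) μ⁻¹) ^ r = 1 := by
        rw [hcomm, ← hl, ← map_mul, inv_pow, hμ, mul_inv_cancel, map_one]
      rw [hg', hcomm, h5, one_mul] at h4
      by_cases hn : n = 0
      · subst hn
        exfalso
        apply hne1
        have : Subsingleton (GL (Fin 0) F) := by
          refine ⟨fun a b => Units.ext (Matrix.ext fun i => i.elim0)⟩
        rw [Subsingleton.elim g₀ 1]
        rfl
      · have hi : Nonempty (Fin n) := ⟨⟨0, Nat.pos_of_ne_zero hn⟩⟩
        obtain ⟨i⟩ := hi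
        have key : ∀ u : Fˣ, scalar (Fin n) u = 1 → u = 1 := by
          intro u hu
          have := congrArg (fun m : GL (Fin n) F => (m : Matrix (Fin n) (Fin n) F) i i) hu
          simp [coe_scalar] at this
          exact Units.ext (by simpa using this)
        exact key _ h4
    have h6 : c = 1 := by
      have h7 : c ^ (Nat.card Fˣ) = 1 := pow_card_eq_one'
      have h8 : c ^ (Nat.gcd (Nat.card Fˣ) r) = 1 := pow_gcd_eq_one.2 ⟨h7, h3⟩
      rw [hcop] at h8
      simpa using h8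
    rw [hg', h6, map_one, mul_one]

end Cfsg.Agent.S2567
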