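import Cfsg.Statements.S2569
import Cfsg.Agent.Lib.H10.SS2

set_option autoImplicit false
open Cfsg

namespace Cfsg.Agent.S2569

/-- In GL_n over a finite field of characteristic p, the conjugacy class of a semisimple element (an element of order prime to p) under the special linear group is its whole GL-conjugacy class: for every such x and every invertible g there is h of determinant one with h x h⁻¹ = g x g⁻¹. -/
theorem result {F : Type*} [Field F] [Fintype F] {p : ℕ} [Fact p.Prime] [CharP F p] {n : ℕ} (x g : GL (Fin n) F) (hx : (orderOf x).Coprime p) : ∃ h : GL (Fin n) F, (h : Matrix (Fin n) (Fin n) F).det = 1 ∧ h * x * h⁻¹ = g * x * g⁻¹ := by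
  classical
  rcases Nat.eq_zero_or_pos n with rfl | hn
  · refine ⟨1, by simp, ?_⟩
    have : Subsingleton (GL (Fin 0) F) := by
      constructor
      intro a b
      apply Units.ext
      ext i
      exact i.elim0
    exact Subsingleton.elim _ _
  have hL := Cfsg.Agent.H10.isSemisimple_of_coprime p x hx
  have hdetg : (g : Matrix (Fin n) (Fin n) F).det ≠ 0 := ((Matrix.isUnit_iff_isUnit_det _).1 g.isUnit).ne_zero
  obtain ⟨z, hz, hzdet⟩ := Cfsg.Agent.H10.exists_comm_det (F := F) (Matrix.toLin' (x : Matrix (Fin n) (Fin n) F)) hL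
    (by simp; omega) ((g : Matrix (Fin n) (Fin n) F).det)⁻¹ (inv_ne_zero hdetg)
  obtain ⟨Q, hQ, hQ2⟩ := Cfsg.Agent.H10.exists_matrix_of_linear _ _ z hz
  have hdetQ : (Q : Matrix (Fin n) (Fin n) F).det = ((g : Matrix (Fin n) (Fin n) F).det)⁻¹ := by
    rw [hQ2, LinearMap.det_toMatrix', hzdet]
  refine ⟨g * Q, ?_, ?_⟩
  · rw [Units.val_mul, Matrix.det_mul, hdetQ]
    exact mul_inv_cancel₀ hdetg
  · have hQx : Q * x = x * Q := Units.ext hQ
    rw [mul_inv_rev]
    calc g * Q * x * (Q⁻¹ * g⁻¹) = g * (Q * x * Q⁻¹) * g⁻¹ := by group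
      _ = g * x * g⁻¹ := by rw [hQx]; group

end Cfsg.Agent.S2569
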