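import Mathlib
import Cfsg.Statements.S2571
import Cfsg.Agent.Lib.H11.RegUnip2

set_option autoImplicit false
open Cfsg

namespace Cfsg.Agent.S2571

open Cfsg.Agent.H11 Module Matrix

theorem result {F : Type*} [Field F] [Fintype F] {q n : ℕ} (hF : Fintype.card F = q) (hn : 1 ≤ n) (u : GL (Fin n) F) (hnil : ((u : Matrix (Fin n) (Fin n) F) - 1) ^ n = 0) (hreg : ((u : Matrix (Fin n) (Fin n) F) - 1).rank = n - 1) : Nat.card ↥(Subgroup.centralizer ({u} : Set (GL (Fin n) F))) = (q - 1) * q ^ (n - 1) := by
  set N : Matrix (Fin n) (Fin n) F := (u : Matrix (Fin n) (Fin n) F) - 1 with hN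
  have hn' : 1 ≤ Fintype.card (Fin n) := by simpa using hn
  have hnil' : N ^ Fintype.card (Fin n) = 0 := by simpa using hnil
  have hreg' : N.rank = Fintype.card (Fin n) - 1 := by simpa using hreg
  have hcommN : ∀ g : GL (Fin n) F, g ∈ Subgroup.centralizer ({u} : Set (GL (Fin n) F)) ↔
      Commute (g : Matrix (Fin n) (Fin n) F) N := by
    intro g
    rw [Subgroup.mem_centralizer_singleton_iff]
    constructor
    · intro h
      have h1 : (g : Matrix (Fin n) (Fin n) F) * u = u * g := by
        have := congrArg Units.val h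
        simpa using this
      change _ * _ = _ * _
      rw [hN, mul_sub, sub_mul, h1, mul_one, one_mul]
    · intro h
      apply Units.ext
      have h1 := h.eq
      rw [hN, mul_sub, sub_mul, mul_one, one_mul] at h1
      have h2 := sub_left_inj.1 h1
      simpa using h2
  let Ψ : {a : Fin (Fintype.card (Fin n)) → F // a ⟨0, by omega⟩ ≠ 0} →
      Subgroup.centralizer ({u} : Set (GL (Fin n) F)) := fun a =>
    ⟨((isUnit_polM_iff hn' hnil' hreg' a.1).2 a.2).unit, (hcommN _).2 (polM_commute N a.1)⟩
  have hΨ : Function.Bijective Ψ := by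
    constructor
    · intro a b hab
      apply Subtype.ext
      apply polM_injective hn' hnil' hreg'
      have := congrArg (fun z : Subgroup.centralizer ({u} : Set (GL (Fin n) F)) => ((z : GL (Fin n) F) : Matrix (Fin n) (Fin n) F)) hab
      simpa [Ψ] using this
    · rintro ⟨g, hg⟩
      obtain ⟨a, ha⟩ := exists_polM_eq_of_commute hn' hnil' hreg' (g : Matrix (Fin n) (Fin n) F) ((hcommN g).1 hg)
      have hu : IsUnit (polM N a) := by
        rw [← ha]
        exact g.isUnit
      refine ⟨⟨a, (isUnit_polM_iff hn' hnil' hreg' a).1 hu⟩, ?_⟩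
      apply Subtype.ext
      apply Units.ext
      simp [Ψ, ha]
  rw [← Nat.card_congr (Equiv.ofBijective Ψ hΨ), card_coeff_ne_zero hF hn']
  simp

end Cfsg.Agent.S2571
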