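import Mathlib
import Cfsg.Statements.S2573
import Cfsg.Agent.Lib.H11.RegUnip

set_option autoImplicit false
open Cfsg

namespace Cfsg.Agent.S2573

open Cfsg.Agent.H11 Module

theorem result {F : Type*} [Field F] [Finite F] {n : ℕ} (u : Matrix (Fin n) (Fin n) F) (hnil : (u - 1) ^ n = 0) (hreg : (u - 1).rank = n - 1) (W : Submodule F (Fin n → F)) (hW : ∀ v ∈ W, u.mulVec v ∈ W) : W = LinearMap.ker (Matrix.mulVecLin ((u - 1) ^ Module.finrank F W)) := by
  rw [mulVecLin_pow']
  apply invariant_eq_ker_pow (n := n)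
  · simp
  · rw [← mulVecLin_pow', hnil]
    ext x
    simp
  · apply finrank_ker_le_one_of_rank
    simpa using hreg
  · intro v hv
    have : (u - 1).mulVecLin v = u.mulVec v - v := by
      simp [Matrix.sub_mulVec]
    rw [this]
    exact W.sub_mem (hW v hv) hv

end Cfsg.Agent.S2573
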