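import Mathlib
import Cfsg.Statements.S2574
import Cfsg.Agent.Lib.H11.RegUnip
import Cfsg.Agent.Lib.H11.Symp2

set_option autoImplicit false
open Cfsg

namespace Cfsg.Agent.S2574

open Cfsg.Agent.H11 Module Matrix

theorem result {F : Type*} [Field F] [Finite F] {m : ℕ} (u : Matrix.symplecticGroup (Fin m) F) (hnil : ((u : Matrix (Fin m ⊕ Fin m) (Fin m ⊕ Fin m) F) - 1) ^ (2 * m) = 0) (hreg : ((u : Matrix (Fin m ⊕ Fin m) (Fin m ⊕ Fin m) F) - 1).rank = 2 * m - 1) (W : Submodule F (Fin m ⊕ Fin m → F)) (hW : ∀ v ∈ W, (u : Matrix (Fin m ⊕ Fin m) (Fin m ⊕ Fin m) F).mulVec v ∈ W) (hdim : 2 * Module.finrank F W ≤ 2 * m) : ∀ v ∈ W, ∀ w ∈ W, Cfsg.sympForm m F v w = 0 := by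
  set U : Matrix (Fin m ⊕ Fin m) (Fin m ⊕ Fin m) F := (u : Matrix (Fin m ⊕ Fin m) (Fin m ⊕ Fin m) F) with hU
  have hUmem : U ∈ Matrix.symplecticGroup (Fin m) F := u.2
  let T : Module.End F (Fin m ⊕ Fin m → F) := (U - 1).mulVecLin
  have hT : ∀ v, T v = U *ᵥ v - v := fun v => by simp [T, Matrix.sub_mulVec]
  have hcard : Fintype.card (Fin m ⊕ Fin m) = 2 * m := by simp [two_mul]
  have hV : finrank F (Fin m ⊕ Fin m → F) = 2 * m := by
    rw [finrank_fintype_fun_eq_card, hcard]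
  have hTn : T ^ (2 * m) = 0 := by
    change (U - 1).mulVecLin ^ (2 * m) = 0
    rw [← mulVecLin_pow', hnil]
    ext x
    simp
  have hker : finrank F (LinearMap.ker T) ≤ 1 :=
    finrank_ker_le_one_of_rank (U - 1) (by rw [hcard]; exact hreg)
  have hinv : ∀ X : Submodule F (Fin m ⊕ Fin m → F), (∀ v ∈ X, U *ᵥ v ∈ X) → ∀ v ∈ X, T v ∈ X := by
    intro X hX v hv
    rw [hT]
    exact X.sub_mem (hX v hv) hv
  -- the orthogonal complement is invariant
  have hUinj : Function.Injective (fun v => U *ᵥ v) := by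
    intro a b hab
    have hdetU : IsUnit U.det := SymplecticGroup.symplectic_det hUmem
    exact Matrix.mulVec_injective_of_isUnit ((Matrix.isUnit_iff_isUnit_det U).2 hdetU) hab
  have hsurjW : ∀ w ∈ W, ∃ w' ∈ W, U *ᵥ w' = w := by
    let g : W →ₗ[F] W := (U.mulVecLin).restrict hW
    have hg : Function.Injective g := by
      intro a b hab
      apply Subtype.ext
      apply hUinj
      exact congrArg (fun z : W => (z : Fin m ⊕ Fin m → F)) hab
    have hgs : Function.Surjective g := LinearMap.surjective_of_injective hg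
    intro w hw
    obtain ⟨w', hw'⟩ := hgs ⟨w, hw⟩
    exact ⟨w', w'.2, congrArg (fun z : W => (z : Fin m ⊕ Fin m → F)) hw'⟩
  let Wp := (sympBilin m F).orthogonal W
  have hWp : ∀ v ∈ Wp, U *ᵥ v ∈ Wp := by
    intro v hv
    rw [mem_symp_orthogonal] at hv ⊢
    intro w hw
    obtain ⟨w', hw', rfl⟩ := hsurjW w hw
    rw [sympForm_mulVec hUmem]
    exact hv w' hw'
  have hWeq := invariant_eq_ker_pow hV hTn hker W (hinv W hW)
  have hWpeq := invariant_eq_ker_pow hV hTn hker Wp (hinv Wp hWp)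
  have hdimp : finrank F Wp = 2 * m - finrank F W := finrank_symp_orthogonal W
  have hle : W ≤ Wp := by
    have hmono : LinearMap.ker (T ^ finrank F W) ≤ LinearMap.ker (T ^ finrank F Wp) := by
      intro x hx
      have h1 : finrank F W ≤ finrank F Wp := by omega
      rw [LinearMap.mem_ker] at hx ⊢
      obtain ⟨k, hk⟩ := Nat.exists_eq_add_of_le h1
      rw [hk, add_comm, pow_add, Module.End.mul_apply, hx, map_zero]
    calc W = _ := hWeq
      _ ≤ _ := hmono
      _ = Wp := hWpeq.symm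
  intro v hv w hw
  exact (mem_symp_orthogonal.1 (hle hw)) v hv

end Cfsg.Agent.S2574
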