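import Mathlib
import Cfsg.Statements.S2575
import Cfsg.Agent.Lib.H11.Basic

set_option autoImplicit false
open Cfsg

namespace Cfsg.Agent.S2575

open Cfsg.Agent.H11

theorem result {F : Type*} [Field F] [Fintype F] {q : ℕ} (hF : Fintype.card F = q) (hq : Odd q) {n : ℕ} (hn : 1 ≤ n) (i : ℕ) (hi : i ≤ n) : (∃ c : F, c ≠ 0 ∧ (c • Matrix.diagonal (fun j : Fin n => if (j : ℕ) < i then (-1 : F) else 1)).det = 1) ↔ (Even i ∨ padicValNat 2 n < padicValNat 2 (q - 1)) := by
  classical
  have hq1 : 1 < q := by rw [← hF]; exact Fintype.one_lt_card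
  have hqm : q - 1 ≠ 0 := by omega
  have hcard : Nat.card Fˣ = q - 1 := by
    rw [Nat.card_eq_fintype_card, Fintype.card_units, hF]
  have hneg : (-1 : F) ≠ 1 := by
    have h2 : ringChar F ≠ 2 := by
      intro h
      have := FiniteField.even_card_of_char_two h
      rw [hF] at this
      exact (Nat.not_even_iff_odd.2 hq) (Nat.even_iff.2 this)
    exact Ring.neg_one_ne_one_of_char_ne_two h2
  have hdet : ∀ c : F, (c • Matrix.diagonal (fun j : Fin n => if (j : ℕ) < i then (-1 : F) else 1)).det = c ^ n * (-1) ^ i := by
    intro c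
    rw [Matrix.det_smul, Fintype.card_fin, Matrix.det_diagonal]
    congr 1
    rw [Finset.prod_ite]
    simp only [Finset.prod_const_one, mul_one, Finset.prod_const]
    congr 1
    have : (Finset.univ.filter (fun j : Fin n => (j : ℕ) < i)).card = i := by
      have h1 : (Finset.univ.filter (fun j : Fin n => (j : ℕ) < i)) = (Finset.univ : Finset (Fin i)).map (Fin.castLEEmb hi) := by
        ext j
        simp only [Finset.mem_filter, Finset.mem_univ, true_and, Finset.mem_map, Fin.castLEEmb_apply]
        constructor
        · intro h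
          exact ⟨⟨j, h⟩, rfl⟩
        · rintro ⟨a, rfl⟩
          simp
      rw [h1]
      simp
    exact this
  simp only [hdet]
  by_cases hev : Even i
  · simp only [hev, true_or, iff_true]
    exact ⟨1, one_ne_zero, by simp [hev.neg_one_pow]⟩
  · have hodd : Odd i := Nat.not_even_iff_odd.1 hev
    simp only [hev, false_or, hodd.neg_one_pow]
    have hunits : (∃ c : F, c ≠ 0 ∧ c ^ n * (-1) = 1) ↔ ∃ c : Fˣ, c ^ n = -1 := by
      constructor
      · rintro ⟨c, hc, h⟩
        refine ⟨Units.mk0 c hc, Units.ext ?_⟩
        simp only [Units.val_pow_eq_pow_val, Units.val_mk0, Units.val_neg, Units.val_one]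
        linear_combination -h
      · rintro ⟨c, h⟩
        refine ⟨c, c.ne_zero, ?_⟩
        have := congrArg Units.val h
        simp only [Units.val_pow_eq_pow_val, Units.val_neg, Units.val_one] at this
        rw [this]; ring
    rw [hunits, exists_pow_eq_iff, hcard, Nat.gcd_comm, ← even_div_gcd_iff (by omega) hqm, Nat.gcd_comm n]
    rw [Units.ext_iff]
    simp only [Units.val_pow_eq_pow_val, Units.val_neg, Units.val_one]
    constructor
    · intro h
      by_contra hne
      have hodd' := Nat.not_even_iff_odd.1 hne
      rw [hodd'.neg_one_pow] at h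
      exact hneg h
    · intro h
      exact h.neg_one_pow

end Cfsg.Agent.S2575
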