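import Mathlib
import Cfsg.Statements.S2576
import Cfsg.Agent.Lib.H11.Basic

set_option autoImplicit false
open Cfsg

namespace Cfsg.Agent.S2576

open Cfsg.Agent.H11

theorem result {F : Type*} [Field F] [Fintype F] {q : ℕ} (hF : Fintype.card F = q) (hq : Odd q) {m : ℕ} (hm : 1 ≤ m) (μ : F) (hμ : orderOf μ = 2 ^ padicValNat 2 (q - 1)) : (∃ c : F, c ≠ 0 ∧ (c • Matrix.blockDiagonal (fun _ : Fin m => !![(0 : F), 1; μ, 0])).det = 1) ↔ (q % 4 = 3 ∨ padicValNat 2 (q - 1) < padicValNat 2 (2 * m)) := by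
  classical
  have : Fact (Nat.Prime 2) := ⟨Nat.prime_two⟩
  have hq1 : 1 < q := by rw [← hF]; exact Fintype.one_lt_card
  have hqm : q - 1 ≠ 0 := by omega
  have hcard : Nat.card Fˣ = q - 1 := by
    rw [Nat.card_eq_fintype_card, Fintype.card_units, hF]
  have hneg : (-1 : F) ≠ 1 := by
    have h2 : ringChar F ≠ 2 := by
      intro h
      have := FiniteField.even_card_of_char_two h
      rw [hF] at this
      exact (Nat.not_even_iff_odd.2 hq) (Nat.even_iff.2 this)
    exact Ring.neg_one_ne_one_of_char_ne_two h2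
  have hdet : ∀ c : F, (c • Matrix.blockDiagonal (fun _ : Fin m => !![(0 : F), 1; μ, 0])).det = c ^ (2 * m) * (-μ) ^ m := by
    intro c
    rw [Matrix.det_smul, Matrix.det_blockDiagonal]
    simp [Matrix.det_fin_two_of, Fintype.card_prod]
  simp only [hdet]
  set a := padicValNat 2 (q - 1) with ha
  have hμ0 : μ ≠ 0 := by
    rintro rfl
    have h1 := pow_orderOf_eq_one (0 : F)
    rw [hμ] at h1
    rw [zero_pow (by positivity)] at h1
    exact zero_ne_one h1
  have hμpow : μ ^ (2 ^ a) = 1 := by rw [← hμ, pow_orderOf_eq_one]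
  have hqeven : Even (q - 1) := by
    obtain ⟨t, ht⟩ := hq
    exact ⟨t, by omega⟩
  have ha1 : 1 ≤ a := by
    have := (padicValNat_dvd_iff_le (p := 2) hqm (n := 1)).1 (by simpa using even_iff_two_dvd.1 hqeven)
    exact this
  have hmod : q % 4 = 1 ∨ q % 4 = 3 := by
    obtain ⟨t, ht⟩ := hq
    omega
  rcases hmod with h4 | h4
  · -- `q ≡ 1 mod 4`
    have ha2 : 2 ≤ a := by
      have h4' : 4 ∣ q - 1 := by omega
      have := (padicValNat_dvd_iff_le (p := 2) hqm (n := 2)).1 (by simpa using h4')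
      exact this
    have h1 : ¬ q % 4 = 3 := by omega
    simp only [h1, false_or]
    -- order of `-μ`
    obtain ⟨k, hk⟩ : ∃ k, a = k + 1 := ⟨a - 1, by omega⟩
    have hk1 : 1 ≤ k := by omega
    have hord : orderOf (-μ) = 2 ^ a := by
      rw [hk]
      apply orderOf_eq_prime_pow
      · have he : Even (2 ^ k) := (Nat.even_pow.2 ⟨even_two, by omega⟩)
        rw [he.neg_pow]
        intro h
        have h2 : orderOf μ ∣ 2 ^ k := orderOf_dvd_of_pow_eq_one h
        rw [hμ, hk] at h2
        have := Nat.pow_dvd_pow_iff_le_right (by norm_num : 1 < 2) |>.1 h2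
        omega
      · have he : Even (2 ^ (k + 1)) := (Nat.even_pow.2 ⟨even_two, by omega⟩)
        rw [he.neg_pow, ← hk]
        exact hμpow
    have hμ' : -μ ≠ 0 := neg_ne_zero.2 hμ0
    let z : Fˣ := Units.mk0 (-μ) hμ'
    have hunits : (∃ c : F, c ≠ 0 ∧ c ^ (2 * m) * (-μ) ^ m = 1) ↔ ∃ c : Fˣ, c ^ (2 * m) = (z ^ m)⁻¹ := by
      constructor
      · rintro ⟨c, hc, h⟩
        refine ⟨Units.mk0 c hc, ?_⟩
        rw [eq_inv_iff_mul_eq_one]
        apply Units.ext
        simpa [z] using h
      · rintro ⟨c, h⟩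
        refine ⟨c, c.ne_zero, ?_⟩
        rw [eq_inv_iff_mul_eq_one] at h
        have := congrArg Units.val h
        simpa [z] using this
    rw [hunits, exists_pow_eq_iff, hcard]
    rw [inv_pow, inv_eq_one, ← pow_mul]
    have hzord : orderOf z = 2 ^ a := by
      rw [← hord]
      exact (orderOf_units (y := z)).symm
    rw [← orderOf_dvd_iff_pow_eq_one (x := z), hzord]
    set g := Nat.gcd (2 * m) (q - 1) with hg
    have hg0 : g ≠ 0 := Nat.gcd_ne_zero_right hqm
    have hgm : g ∣ q - 1 := Nat.gcd_dvd_right _ _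
    obtain ⟨e, he⟩ := hgm
    have he0 : e ≠ 0 := by
      rintro rfl
      exact hqm (by simpa using he)
    have hdiv : (q - 1) / g = e := by
      rw [he]; exact Nat.mul_div_cancel_left _ (Nat.pos_of_ne_zero hg0)
    rw [hdiv]
    have hm0 : m ≠ 0 := by omega
    have hv1 : a = padicValNat 2 g + padicValNat 2 e := by
      rw [ha, he, padicValNat.mul hg0 he0]
    have hvg : padicValNat 2 g = min (padicValNat 2 (2 * m)) a := by
      have h := Nat.factorization_gcd (by omega : 2 * m ≠ 0) hqm
      have h2 := congrArg (fun f => f 2) h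
      simp only [Finsupp.inf_apply, Nat.factorization_def _ Nat.prime_two] at h2
      exact h2
    have hv2 : padicValNat 2 (2 * m) = 1 + padicValNat 2 m := by
      rw [padicValNat.mul (by norm_num) hm0, padicValNat_self]
    rw [padicValNat_dvd_iff_le (by positivity), padicValNat.mul hm0 he0]
    omega
  · -- `q ≡ 3 mod 4`
    simp only [h4, true_or, iff_true]
    have ha1' : a = 1 := by
      by_contra hne
      have h4' : 2 ^ 2 ∣ q - 1 := (padicValNat_dvd_iff_le (p := 2) hqm (n := 2)).2 (by omega)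
      omega
    have hμ1 : μ = -1 := by
      rw [ha1', pow_one] at hμpow
      have h2 : (μ - 1) * (μ + 1) = 0 := by ring_nf; rw [hμpow]; ring
      rcases mul_eq_zero.1 h2 with h | h
      · exfalso
        have hμ' : μ = 1 := sub_eq_zero.1 h
        rw [hμ', orderOf_one, ha1'] at hμ
        norm_num at hμ
      · exact eq_neg_of_add_eq_zero_left h
    exact ⟨1, one_ne_zero, by simp [hμ1]⟩

end Cfsg.Agent.S2576
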