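import Mathlib
import Cfsg.Statements.S2578
import Cfsg.Agent.Lib.H11.RegUnip3

set_option autoImplicit false
open Cfsg

namespace Cfsg.Agent.S2578

open Cfsg.Agent.H11 Module Matrix
open Matrix.SpecialLinearGroup (toGL)

lemma exists_det_eq {F : Type*} [Field F] {n : ℕ} (hn : 1 ≤ n) (d : Fˣ) :
    ∃ P : GL (Fin n) F, Matrix.GeneralLinearGroup.det P = d := by
  classical
  let i₀ : Fin n := ⟨0, by omega⟩
  let D : Matrix (Fin n) (Fin n) F := Matrix.diagonal (Function.update (fun _ => (1 : F)) i₀ d)
  have hD : D.det = d := by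
    simp only [D, Matrix.det_diagonal]
    rw [Finset.prod_eq_single i₀]
    · simp
    · intro b _ hb
      simp [Function.update_of_ne hb]
    · simp
  refine ⟨Matrix.GeneralLinearGroup.mkOfDetNeZero D (by rw [hD]; exact d.ne_zero), ?_⟩
  apply Units.ext
  simp [Matrix.GeneralLinearGroup.val_det_apply, Matrix.GeneralLinearGroup.mkOfDetNeZero, hD]

theorem result {F : Type*} [Field F] [Fintype F] {q : ℕ} (hF : Fintype.card F = q) {n : ℕ} (hn : 2 ≤ n) : Nat.card {C : ConjClasses (Matrix.SpecialLinearGroup (Fin n) F) // ∃ u : Matrix.SpecialLinearGroup (Fin n) F, ConjClasses.mk u = C ∧ ((u : Matrix (Fin n) (Fin n) F) - 1) ^ n = 0 ∧ ((u : Matrix (Fin n) (Fin n) F) - 1).rank = n - 1} = Nat.gcd n (q - 1) := by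
  classical
  have hn1 : 1 ≤ n := by omega
  have hn' : 1 ≤ Fintype.card (Fin n) := by simpa using hn1
  set N₀ : Matrix (Fin n) (Fin n) F := shiftM n F with hN₀
  have hnil₀ : N₀ ^ n = 0 := shiftM_pow_card
  have hnil₀' : N₀ ^ Fintype.card (Fin n) = 0 := by simpa using hnil₀
  have hreg₀ : N₀.rank = n - 1 := shiftM_rank
  have hreg₀' : N₀.rank = Fintype.card (Fin n) - 1 := by simpa using hreg₀
  have hdet₀ : (1 + N₀).det = 1 := by
    have := det_smul_one_add_nilpotent (1 : F) (Z := N₀) ⟨n, hnil₀⟩
    simpa using this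
  let u₀ : Matrix.SpecialLinearGroup (Fin n) F := ⟨1 + N₀, hdet₀⟩
  let U : GL (Fin n) F := toGL u₀
  have hU : (U : Matrix (Fin n) (Fin n) F) = 1 + N₀ := rfl
  let cj : GL (Fin n) F → Matrix.SpecialLinearGroup (Fin n) F := fun P =>
    ⟨((P * U * P⁻¹ : GL (Fin n) F) : Matrix (Fin n) (Fin n) F), by
      have : Matrix.GeneralLinearGroup.det (P * U * P⁻¹) = 1 := by
        rw [map_mul, map_mul, map_inv, mul_comm (Matrix.GeneralLinearGroup.det P), mul_assoc, mul_inv_cancel, mul_one]
        apply Units.ext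
        simp [Matrix.GeneralLinearGroup.val_det_apply, hU, hdet₀]
      have h2 := congrArg Units.val this
      rw [Matrix.GeneralLinearGroup.val_det_apply] at h2
      exact h2⟩
  have hcj : ∀ P, toGL (cj P) = P * U * P⁻¹ := fun P => by
    apply Units.ext
    rfl
  have hcjM : ∀ P : GL (Fin n) F, (cj P : Matrix (Fin n) (Fin n) F) - 1 =
      (P : Matrix (Fin n) (Fin n) F) * N₀ * ((P⁻¹ : GL (Fin n) F) : Matrix (Fin n) (Fin n) F) := by
    intro P
    change ((P * U * P⁻¹ : GL (Fin n) F) : Matrix (Fin n) (Fin n) F) - 1 = _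
    simp only [Units.val_mul, hU]
    rw [mul_add, add_mul, mul_one, Units.mul_inv, add_sub_cancel_left]
  have hreg1 : ∀ P : GL (Fin n) F, ((cj P : Matrix (Fin n) (Fin n) F) - 1) ^ n = 0 := by
    intro P
    rw [hcjM, Units.conj_pow, hnil₀]
    simp
  have hreg2 : ∀ P : GL (Fin n) F, ((cj P : Matrix (Fin n) (Fin n) F) - 1).rank = n - 1 := by
    intro P
    rw [hcjM, rank_conj, hreg₀]
  let H : Subgroup Fˣ := (powMonoidHom n : Fˣ →* Fˣ).range
  have hconj : ∀ P P' : GL (Fin n) F, IsConj (cj P) (cj P') ↔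
      (Matrix.GeneralLinearGroup.det P')⁻¹ * Matrix.GeneralLinearGroup.det P ∈ H := by
    intro P P'
    rw [isConj_iff]
    constructor
    · rintro ⟨c, hc⟩
      have h1 : toGL c * (P * U * P⁻¹) * (toGL c)⁻¹ = P' * U * P'⁻¹ := by
        have := congrArg toGL hc
        simpa [hcj] using this
      let g : GL (Fin n) F := P'⁻¹ * toGL c * P
      have hgU : g * U = U * g := by
        calc g * U = P'⁻¹ * (toGL c * (P * U * P⁻¹) * (toGL c)⁻¹) * (toGL c * P) := by
              simp only [g]; group
          _ = U * g := by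
              rw [h1]; simp only [g]; group
      have hcomm : Commute (g : Matrix (Fin n) (Fin n) F) N₀ := by
        have h2 := congrArg Units.val hgU
        simp only [Units.val_mul, hU] at h2
        rw [mul_add, add_mul, mul_one, one_mul] at h2
        exact add_left_cancel h2
      obtain ⟨a, ha⟩ := exists_polM_eq_of_commute hn' hnil₀' hreg₀' _ hcomm
      have hua : IsUnit (polM N₀ a) := by
        rw [← ha]
        exact g.isUnit
      have ha0 := (isUnit_polM_iff hn' hnil₀' hreg₀' a).1 hua
      have hdetg : (Matrix.GeneralLinearGroup.det g : F) = (a ⟨0, by omega⟩) ^ n := by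
        rw [Matrix.GeneralLinearGroup.val_det_apply, ha, det_polM hn' hnil₀' a]
        simp
      have hdetc : Matrix.GeneralLinearGroup.det (toGL c) = 1 := by
        apply Units.ext
        rw [Matrix.GeneralLinearGroup.val_det_apply]
        exact c.2
      refine ⟨Units.mk0 _ ha0, ?_⟩
      apply Units.ext
      have h3 : Matrix.GeneralLinearGroup.det g = (Matrix.GeneralLinearGroup.det P')⁻¹ * Matrix.GeneralLinearGroup.det P := by
        simp only [g, map_mul, map_inv, hdetc, mul_one]
      rw [← h3, hdetg]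
      simp
    · rintro ⟨a, ha⟩
      have ha' : a ^ n = (Matrix.GeneralLinearGroup.det P')⁻¹ * Matrix.GeneralLinearGroup.det P := ha
      let c' : GL (Fin n) F := Matrix.GeneralLinearGroup.scalar (Fin n) a * P' * P⁻¹
      have hdetc' : Matrix.GeneralLinearGroup.det c' = 1 := by
        simp only [c', map_mul, map_inv, Matrix.GeneralLinearGroup.det_scalar, Fintype.card_fin, ha']
        simp [mul_assoc, mul_comm, mul_left_comm]
      let c : Matrix.SpecialLinearGroup (Fin n) F := ⟨(c' : Matrix (Fin n) (Fin n) F), by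
        have h2 := congrArg Units.val hdetc'
        simpa [Matrix.GeneralLinearGroup.val_det_apply] using h2⟩
      have hc : toGL c = c' := by
        apply Units.ext
        rfl
      refine ⟨c, ?_⟩
      apply Matrix.SpecialLinearGroup.toGL_injective
      simp only [map_mul, map_inv, hcj, hc]
      let sc := Matrix.GeneralLinearGroup.scalar (Fin n) a
      have hsc : sc * (P' * U * P'⁻¹) = (P' * U * P'⁻¹) * sc := Matrix.GeneralLinearGroup.scalar_commute a _
      calc c' * (P * U * P⁻¹) * c'⁻¹ = sc * (P' * U * P'⁻¹) * sc⁻¹ := by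
            simp only [c', sc]; group
        _ = P' * U * P'⁻¹ := by
            rw [hsc]; group
  have hex : ∀ d : Fˣ, ∃ P : GL (Fin n) F, Matrix.GeneralLinearGroup.det P = d := exists_det_eq hn1
  choose Pd hPd using hex
  let Sub := {C : ConjClasses (Matrix.SpecialLinearGroup (Fin n) F) // ∃ u : Matrix.SpecialLinearGroup (Fin n) F, ConjClasses.mk u = C ∧ ((u : Matrix (Fin n) (Fin n) F) - 1) ^ n = 0 ∧ ((u : Matrix (Fin n) (Fin n) F) - 1).rank = n - 1}
  let Θ : Fˣ → Sub := fun d => ⟨ConjClasses.mk (cj (Pd d)), cj (Pd d), rfl, hreg1 _, hreg2 _⟩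
  have hΘ : ∀ a b, Θ a = Θ b ↔ b⁻¹ * a ∈ H := by
    intro a b
    rw [Subtype.ext_iff]
    change ConjClasses.mk (cj (Pd a)) = ConjClasses.mk (cj (Pd b)) ↔ _
    rw [ConjClasses.mk_eq_mk_iff_isConj, hconj, hPd, hPd]
  let Φ : Fˣ ⧸ H → Sub := Quotient.lift Θ (by
    intro a b hab
    have hab' : a⁻¹ * b ∈ H := QuotientGroup.leftRel_apply.1 hab
    apply (hΘ a b).2
    have := H.inv_mem hab'
    simpa using this)
  have hΦ : Function.Bijective Φ := by
    constructor
    · intro x y
      induction x using QuotientGroup.induction_on with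
      | H a =>
        induction y using QuotientGroup.induction_on with
        | H b =>
          intro hab
          have h1 : Θ a = Θ b := hab
          have h2 := (hΘ a b).1 h1
          rw [QuotientGroup.eq]
          have := H.inv_mem h2
          simpa using this
    · rintro ⟨C, u, rfl, h1, h2⟩
      have h1' : ((u : Matrix (Fin n) (Fin n) F) - 1) ^ Fintype.card (Fin n) = 0 := by simpa using h1
      have h2' : ((u : Matrix (Fin n) (Fin n) F) - 1).rank = Fintype.card (Fin n) - 1 := by simpa using h2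
      obtain ⟨P, hP⟩ := regular_similar hn' hnil₀' hreg₀' h1' h2'
      have hu : cj P = u := by
        apply Matrix.SpecialLinearGroup.ext
        intro i j
        have h3 : (cj P : Matrix (Fin n) (Fin n) F) = (u : Matrix (Fin n) (Fin n) F) := by
          have h4 := hcjM P
          rw [sub_eq_iff_eq_add] at h4
          rw [h4, hP, mul_assoc, Units.mul_inv, mul_one, sub_add_cancel]
        rw [h3]
      refine ⟨(QuotientGroup.mk (Matrix.GeneralLinearGroup.det P) : Fˣ ⧸ H), ?_⟩
      apply Subtype.ext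
      change ConjClasses.mk (cj (Pd (Matrix.GeneralLinearGroup.det P))) = ConjClasses.mk u
      rw [ConjClasses.mk_eq_mk_iff_isConj, ← hu, hconj, hPd]
      simp [H.one_mem]
  rw [← Nat.card_congr (Equiv.ofBijective Φ hΦ)]
  have h5 : Nat.card (Fˣ ⧸ H) = H.index := rfl
  rw [h5]
  simp only [H]
  rw [IsCyclic.index_powMonoidHom_range, Nat.card_units, Nat.card_eq_fintype_card, hF, Nat.gcd_comm]

end Cfsg.Agent.S2578
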