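import Cfsg.Statements.S2579
import Cfsg.Agent.Lib.H11.Transv

set_option autoImplicit false
open Cfsg

namespace Cfsg.Agent.S2579

/-- In SL_n(F) with n ≥ 3, over a finite field F, any two transvections (matrices t with t − 1 of rank one and square zero) are conjugate by an element of SL_n(F). -/
theorem result {F : Type*} [Field F] [Finite F] {n : ℕ} (hn : 3 ≤ n) (s t : Matrix.SpecialLinearGroup (Fin n) F) (hs : Cfsg.IsTransvection (s : Matrix (Fin n) (Fin n) F)) (ht : Cfsg.IsTransvection (t : Matrix (Fin n) (Fin n) F)) : IsConj s t := by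
  classical
  open Cfsg.Agent.H11.Transv in
  obtain ⟨v, w, hv, hw, hwv, hs'⟩ := exists_decomp _ hs
  open Cfsg.Agent.H11.Transv in
  obtain ⟨v', w', hv', hw', hwv', ht'⟩ := exists_decomp _ ht
  let i₀ : Fin n := ⟨0, by omega⟩
  let i₁ : Fin n := ⟨1, by omega⟩
  let i₂ : Fin n := ⟨2, by omega⟩
  have h01 : i₀ ≠ i₁ := by simp [i₀, i₁, Fin.ext_iff]
  have h02 : i₀ ≠ i₂ := by simp [i₀, i₂, Fin.ext_iff]
  have h12 : i₁ ≠ i₂ := by simp [i₁, i₂, Fin.ext_iff]
  let e₀ : Fin n → F := Pi.single i₀ 1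
  let e₁ : Fin n → F := Pi.single i₁ 1
  have he₀ : e₀ ≠ 0 := by simp [e₀]
  have he₁ : e₁ ≠ 0 := by simp [e₁]
  have hee : e₁ ⬝ᵥ e₀ = 0 := by simp [e₀, e₁, h01, Ne.symm h01]
  obtain ⟨P₁, hP₁, h1⟩ := Cfsg.Agent.H11.Transv.exists_conj hv hw hwv he₀ he₁ hee
  obtain ⟨P₂, hP₂, h2⟩ := Cfsg.Agent.H11.Transv.exists_conj hv' hw' hwv' he₀ he₁ hee
  rw [← hs'] at h1
  rw [← ht'] at h2
  set T := 1 + Matrix.vecMulVec e₀ e₁ with hT
  set δ := P₂.det / P₁.det with hδ
  let D : Matrix (Fin n) (Fin n) F := Matrix.diagonal (Function.update (fun _ => 1) i₂ δ)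
  have hdD : D.det = δ := by
    rw [Matrix.det_diagonal, Finset.prod_update_of_mem (Finset.mem_univ _)]
    simp
  have hDT : D * T = T * D := by
    rw [hT, mul_add, add_mul, mul_one, one_mul, Matrix.mul_vecMulVec, Matrix.vecMulVec_mul]
    congr 2
    · funext k
      by_cases hk : k = i₂
      · subst hk
        simp [D, e₀, Matrix.mulVec_diagonal, Ne.symm h02]
      · simp [D, e₀, Matrix.mulVec_diagonal, hk]
    · funext k
      by_cases hk : k = i₂
      · subst hk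
        simp [D, e₁, Matrix.vecMul_diagonal, Ne.symm h12]
      · simp [D, e₁, Matrix.vecMul_diagonal, hk]
  let h : Matrix (Fin n) (Fin n) F := P₂⁻¹ * D * P₁
  have hdet : h.det = 1 := by
    simp only [h, Matrix.det_mul, hdD, Matrix.det_nonsing_inv]
    have h3 : P₁.det ≠ 0 := hP₁.ne_zero
    have h4 : P₂.det ≠ 0 := hP₂.ne_zero
    rw [Ring.inverse_eq_inv', hδ]
    field_simp
  have hcomm : h * (s : Matrix (Fin n) (Fin n) F) = (t : Matrix (Fin n) (Fin n) F) * h := by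
    have h5 : P₂⁻¹ * T = (t : Matrix (Fin n) (Fin n) F) * P₂⁻¹ := by
      calc _ = P₂⁻¹ * T * (P₂ * P₂⁻¹) := by rw [Matrix.mul_nonsing_inv _ hP₂, mul_one]
        _ = P₂⁻¹ * (T * P₂) * P₂⁻¹ := by simp only [mul_assoc]
        _ = P₂⁻¹ * (P₂ * (t : Matrix (Fin n) (Fin n) F)) * P₂⁻¹ := by rw [h2]
        _ = (P₂⁻¹ * P₂) * (t : Matrix (Fin n) (Fin n) F) * P₂⁻¹ := by simp only [mul_assoc]
        _ = _ := by rw [Matrix.nonsing_inv_mul _ hP₂, one_mul]
    calc h * (s : Matrix (Fin n) (Fin n) F) = P₂⁻¹ * D * (P₁ * (s : Matrix (Fin n) (Fin n) F)) := by simp only [h, mul_assoc]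
      _ = P₂⁻¹ * (D * T) * P₁ := by rw [h1]; simp only [mul_assoc]
      _ = (P₂⁻¹ * T) * D * P₁ := by rw [hDT]; simp only [mul_assoc]
      _ = _ := by rw [h5]; simp only [h, mul_assoc]
  let c : Matrix.SpecialLinearGroup (Fin n) F := ⟨h, hdet⟩
  refine isConj_iff.mpr ⟨c, ?_⟩
  apply mul_right_cancel (b := c)
  rw [inv_mul_cancel_right]
  ext i j
  exact congrFun (congrFun hcomm i) j

end Cfsg.Agent.S2579
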