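import Cfsg.Statements.S2582
import Cfsg.Agent.Lib.H11.JT9

set_option autoImplicit false
open Cfsg

namespace Cfsg.Agent.S2582

/-- Which unipotent Jordan types occur in the finite symplectic group: over a finite field, a unipotent matrix with Jordan block sizes d_1, …, d_t (sum 2m, all at least 1) is similar to an element of Sp_2m(F) if and only if every odd block size occurs an even number of times. -/
theorem result {F : Type*} [Field F] [Fintype F] {m t : ℕ} (d : Fin t → ℕ) (hd : ∀ k, 1 ≤ d k) (hsum : ∑ k, d k = 2 * m) : (∃ e : ((k : Fin t) × Fin (d k)) ≃ (Fin m ⊕ Fin m), ∃ A : Matrix.symplecticGroup (Fin m) F, IsConj (Matrix.reindex e e (Cfsg.jordanTypeMatrix d F)) (A : Matrix (Fin m ⊕ Fin m) (Fin m ⊕ Fin m) F)) ↔ ∀ j : ℕ, Odd j → Even (Finset.univ.filter (fun k : Fin t => d k = j)).card := by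
  open Cfsg.Agent.H11.JT in
  constructor
  · rintro ⟨e, A, hA⟩ j hj
    refine parity_alt d (Cfsg.Agent.H11.PSpG.lsf m F) ?_ (Cfsg.Agent.H11.PSpG.lsf_alt m) e A.1 (fun u v => Cfsg.Agent.Lead.sympForm_mulVec A.2 u v) hA j hj
    intro x hx
    by_contra hne
    obtain ⟨z, hz⟩ := Cfsg.Agent.Lead.sympForm_nondeg hne
    exact hz (hx z)
  · intro hev
    have hR := build (cl₁ (F := F)) t (Fin t) d (by simp) hd hev
    rw [← jordanTypeMatrix_eq] at hR
    exact from_R₁ d hR (by rw [card_JI, hsum])

end Cfsg.Agent.S2582
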