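import Mathlib
import Cfsg.Statements.S2585
import Cfsg.Agent.Lib.H11.Symp

set_option autoImplicit false
open Cfsg

namespace Cfsg.Agent.S2585

open Cfsg.Agent.H11 Module Matrix

variable {F : Type*} [Field F] {m : ℕ}

/-- the base quadratic function -/
def Q0 (v : Fin m ⊕ Fin m → F) : F := ∑ i, v (Sum.inl i) * v (Sum.inr i)

lemma Q0_add [CharP F 2] (u v : Fin m ⊕ Fin m → F) :
    Q0 (u + v) = Q0 u + Q0 v + Cfsg.sympForm m F u v := by
  rw [sympForm_eq_sum]
  simp only [Q0, Pi.add_apply]
  rw [← Finset.sum_add_distrib, ← Finset.sum_add_distrib]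
  apply Finset.sum_congr rfl
  intro i _
  have h2 : (2 : F) = 0 := CharTwo.two_eq_zero
  linear_combination (u (Sum.inl i) * v (Sum.inr i)) * h2

lemma Q0_smul (c : F) (v : Fin m ⊕ Fin m → F) : Q0 (c • v) = c ^ 2 * Q0 v := by
  simp only [Q0, Pi.smul_apply, smul_eq_mul, Finset.mul_sum]
  apply Finset.sum_congr rfl
  intro i _
  ring

theorem result {F : Type*} [Field F] [Fintype F] [CharP F 2] {m : ℕ} (A : Matrix.symplecticGroup (Fin m) F) : ∃ Q : QuadraticForm F (Fin m ⊕ Fin m → F), (∀ u v : Fin m ⊕ Fin m → F, QuadraticMap.polar ⇑Q u v = Cfsg.sympForm m F u v) ∧ ∀ v : Fin m ⊕ Fin m → F, Q ((A : Matrix (Fin m ⊕ Fin m) (Fin m ⊕ Fin m) F).mulVec v) = Q v := by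
  have h2 : (2 : F) = 0 := CharTwo.two_eq_zero
  have hA : (A : Matrix (Fin m ⊕ Fin m) (Fin m ⊕ Fin m) F) ∈ Matrix.symplecticGroup (Fin m) F := A.2
  set M : Matrix (Fin m ⊕ Fin m) (Fin m ⊕ Fin m) F := (A : Matrix (Fin m ⊕ Fin m) (Fin m ⊕ Fin m) F) with hM
  let d : (Fin m ⊕ Fin m → F) → F := fun v => Q0 (M *ᵥ v) + Q0 v
  have d_add : ∀ u v, d (u + v) = d u + d v := by
    intro u v
    simp only [d, mulVec_add, Q0_add, sympForm_mulVec hA]
    linear_combination (Cfsg.sympForm m F u v) * h2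
  have d_smul : ∀ (c : F) v, d (c • v) = c ^ 2 * d v := by
    intro c v
    simp only [d, mulVec_smul, Q0_smul]
    ring
  let s : F ≃+* F := (frobeniusEquiv F 2).symm
  have hs : ∀ x, (s x) ^ 2 = x := fun x => by
    have := frobenius_apply_frobeniusEquiv_symm F 2 x
    rwa [frobenius_def] at this
  have hs2 : ∀ x, s (x ^ 2) = x := fun x => by
    have := frobeniusEquiv_symm_apply_frobenius F 2 x
    rwa [frobenius_def] at this
  let ℓ : Module.Dual F (Fin m ⊕ Fin m → F) :=
    { toFun := fun v => s (d v)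
      map_add' := fun u v => by simp only [d_add, map_add]
      map_smul' := fun c v => by simp only [d_smul, map_mul, hs2, RingHom.id_apply, smul_eq_mul] }
  have hℓ : ∀ v, (ℓ v) ^ 2 = d v := fun v => hs _
  let B : (Fin m ⊕ Fin m → F) →ₗ[F] (Fin m ⊕ Fin m → F) := M.mulVecLin - LinearMap.id
  have hB : ∀ v, B v = M *ᵥ v - v := fun v => rfl
  have hmem : ℓ ∈ (LinearMap.ker B).dualAnnihilator := by
    rw [Submodule.mem_dualAnnihilator]
    intro v hv
    have hv' : M *ᵥ v = v := by
      have := LinearMap.mem_ker.1 hv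
      rw [hB] at this
      exact sub_eq_zero.1 this
    have : (ℓ v) ^ 2 = 0 := by
      rw [hℓ]
      simp only [d, hv']
      linear_combination (Q0 v) * h2
    exact pow_eq_zero_iff (two_ne_zero) |>.1 this
  rw [← LinearMap.range_dualMap_eq_dualAnnihilator_ker] at hmem
  obtain ⟨φ, hφ⟩ := hmem
  obtain ⟨w, hw⟩ := exists_sympForm_rep φ
  have hℓw : ∀ v, ℓ v = Cfsg.sympForm m F (M *ᵥ v) w - Cfsg.sympForm m F v w := by
    intro v
    rw [← hφ, LinearMap.dualMap_apply, hw, hB, sympForm_sub_left]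
  let C : LinearMap.BilinForm F (Fin m ⊕ Fin m → F) :=
    LinearMap.mk₂ F (fun x y => (∑ i, x (Sum.inl i) * y (Sum.inr i)) + Cfsg.sympForm m F x w * Cfsg.sympForm m F y w)
      (fun x x' y => by
        simp only [sympForm_add_left, Pi.add_apply, add_mul, Finset.sum_add_distrib]
        ring)
      (fun c x y => by
        simp only [sympForm_smul_left, Pi.smul_apply, smul_eq_mul, Finset.mul_sum, mul_add]
        congr 1
        · apply Finset.sum_congr rfl
          intros; ring
        · ring)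
      (fun x y y' => by
        simp only [sympForm_add_left, Pi.add_apply, mul_add, Finset.sum_add_distrib]
        ring)
      (fun c x y => by
        simp only [sympForm_smul_left, Pi.smul_apply, smul_eq_mul, Finset.mul_sum, mul_add]
        congr 1
        · apply Finset.sum_congr rfl
          intros; ring
        · ring)
  have hQ : ∀ v, (LinearMap.BilinMap.toQuadraticMap C) v = Q0 v + (Cfsg.sympForm m F v w) ^ 2 := by
    intro v
    rw [LinearMap.BilinMap.toQuadraticMap_apply]
    simp only [C, LinearMap.mk₂_apply, Q0]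
    ring
  refine ⟨LinearMap.BilinMap.toQuadraticMap C, ?_, ?_⟩
  · intro u v
    simp only [QuadraticMap.polar, hQ, Q0_add, sympForm_add_left]
    linear_combination (Cfsg.sympForm m F u w * Cfsg.sympForm m F v w) * h2
  · intro v
    rw [hQ, hQ]
    have h3 := hℓ v
    rw [hℓw] at h3
    simp only [d] at h3
    linear_combination (-1 : F) * h3 + (Cfsg.sympForm m F (M *ᵥ v) w ^ 2 - Q0 v - Cfsg.sympForm m F (M *ᵥ v) w * Cfsg.sympForm m F v w) * h2

end Cfsg.Agent.S2585
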