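import Mathlib
import Cfsg.Statements.S2586
import Cfsg.Agent.Lib.H11.Transpose

set_option autoImplicit false
open Cfsg

namespace Cfsg.Agent.S2586

open Matrix

theorem result {F : Type*} [Field F] [Finite F] {m : ℕ} (A : Matrix.symplecticGroup (Fin m) F) : IsConj (A : Matrix (Fin m ⊕ Fin m) (Fin m ⊕ Fin m) F) ((A⁻¹ : Matrix.symplecticGroup (Fin m) F) : Matrix (Fin m ⊕ Fin m) (Fin m ⊕ Fin m) F) := by
  have h1 := Cfsg.Agent.H11.isConj_transpose (A : Matrix (Fin m ⊕ Fin m) (Fin m ⊕ Fin m) F)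
  refine h1.trans ?_
  rw [SymplecticGroup.coe_inv]
  have hJ : (Matrix.J (Fin m) F) * (Matrix.J (Fin m) F) = -1 := Matrix.J_squared _ _
  have hu1 : (-(Matrix.J (Fin m) F)) * (Matrix.J (Fin m) F) = 1 := by
    rw [neg_mul, hJ, neg_neg]
  have hu2 : (Matrix.J (Fin m) F) * (-(Matrix.J (Fin m) F)) = 1 := by
    rw [mul_neg, hJ, neg_neg]
  let u : (Matrix (Fin m ⊕ Fin m) (Fin m ⊕ Fin m) F)ˣ :=
    ⟨-(Matrix.J (Fin m) F), Matrix.J (Fin m) F, hu1, hu2⟩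
  refine ⟨u, ?_⟩
  change -(Matrix.J (Fin m) F) * _ = (-(Matrix.J (Fin m) F)) * _ * Matrix.J (Fin m) F * -(Matrix.J (Fin m) F)
  rw [Matrix.mul_assoc (-(Matrix.J (Fin m) F) * _), hu2, Matrix.mul_one]

end Cfsg.Agent.S2586
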