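import Cfsg.Statements.S2591
import Cfsg.Agent.Lib.H11.RegSp3

set_option autoImplicit false
open Cfsg

namespace Cfsg.Agent.S2591

/-- Over a finite field of odd order and for m ≥ 1, the regular unipotent elements of Sp_2m(F) (u − 1 nilpotent of rank 2m − 1, a single Jordan block) form exactly two conjugacy classes of Sp_2m(F) (one class under the similarity group, which splits in two). -/
theorem result {F : Type*} [Field F] [Fintype F] {q : ℕ} (hF : Fintype.card F = q) (hq : Odd q) {m : ℕ} (hm : 1 ≤ m) : Nat.card {C : ConjClasses ↥(Matrix.symplecticGroup (Fin m) F) // ∃ u : Matrix.symplecticGroup (Fin m) F, ConjClasses.mk u = C ∧ ((u : Matrix (Fin m ⊕ Fin m) (Fin m ⊕ Fin m) F) - 1) ^ (2 * m) = 0 ∧ ((u : Matrix (Fin m ⊕ Fin m) (Fin m ⊕ Fin m) F) - 1).rank = 2 * m - 1} = 2 := by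
  have h2 : (2 : F) ≠ 0 := by
    have hne : ringChar F ≠ 2 := by
      intro h3
      have := (FiniteField.even_card_iff_char_two (F := F)).1 h3
      rw [hF] at this
      exact (Nat.not_even_iff_odd.2 hq) (Nat.even_iff.2 this)
    exact Ring.two_ne_zero hne
  exact Cfsg.Agent.H11.RegSp.card_reg h2 hm

end Cfsg.Agent.S2591
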