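import Mathlib
import Cfsg.Statements.S2592
import Cfsg.Agent.Lib.H11.SpReg

set_option autoImplicit false
open Cfsg

namespace Cfsg.Agent.S2592

open Cfsg.Agent.H11 Module Matrix

lemma card_odd {F : Type*} [Field F] [Fintype F] {q m : ℕ} (hF : Fintype.card F = q) :
    Nat.card {b : Fin (Fintype.card (Fin m ⊕ Fin m)) → F // ∀ i : Fin (Fintype.card (Fin m ⊕ Fin m)), Even (i : ℕ) → b i = 0} = q ^ m := by
  classical
  have hcard : Fintype.card (Fin m ⊕ Fin m) = 2 * m := card_symp_index
  let e : {b : Fin (Fintype.card (Fin m ⊕ Fin m)) → F // ∀ i : Fin (Fintype.card (Fin m ⊕ Fin m)), Even (i : ℕ) → b i = 0} ≃ (Fin m → F) :=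
    { toFun := fun b j => b.1 ⟨2 * (j : ℕ) + 1, by have := j.2; omega⟩
      invFun := fun w => ⟨fun i => if h : (i : ℕ) % 2 = 1 then w ⟨(i : ℕ) / 2, by have := i.2; omega⟩ else 0, by
        intro i hi
        have : ¬ (i : ℕ) % 2 = 1 := by
          have := Nat.even_iff.1 hi
          omega
        simp [this]⟩
      left_inv := by
        intro b
        apply Subtype.ext
        funext i
        by_cases h : (i : ℕ) % 2 = 1
        · simp only [h, dif_pos]
          exact congrArg b.1 (Fin.ext (by simp only; omega))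
        · simp only [h, dif_neg, not_false_eq_true]
          exact (b.2 i (Nat.even_iff.2 (by omega))).symm
      right_inv := by
        intro w
        funext j
        have h1 : (2 * (j : ℕ) + 1) % 2 = 1 := by omega
        simp only [h1, dif_pos]
        exact congrArg w (Fin.ext (by simp only; omega)) }
  rw [Nat.card_congr e, Nat.card_fun, Nat.card_eq_fintype_card, hF]
  simp

theorem result {F : Type*} [Field F] [Fintype F] {q : ℕ} (hF : Fintype.card F = q) (hq : Odd q) {m : ℕ} (hm : 1 ≤ m) (u : Matrix.symplecticGroup (Fin m) F) (hnil : ((u : Matrix (Fin m ⊕ Fin m) (Fin m ⊕ Fin m) F) - 1) ^ (2 * m) = 0) (hreg : ((u : Matrix (Fin m ⊕ Fin m) (Fin m ⊕ Fin m) F) - 1).rank = 2 * m - 1) : Nat.card ↥(Subgroup.centralizer ({u} : Set ↥(Matrix.symplecticGroup (Fin m) F))) = 2 * q ^ m := by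
  classical
  have h2 : (2 : F) ≠ 0 := by
    have hF2 : ringChar F ≠ 2 := by
      intro h3
      have h4 := FiniteField.even_card_iff_char_two (F := F) |>.1 h3
      rw [hF] at h4
      have := hq
      rw [Nat.odd_iff] at this
      omega
    exact Ring.two_ne_zero hF2
  obtain ⟨hτ, hτnil, hτreg, hcomm⟩ := tau_facts h2 hm u hnil hreg
  set U : MatS m F := (u : MatS m F) with hU
  set τ : MatS m F := U - ((u⁻¹ : Matrix.symplecticGroup (Fin m) F) : MatS m F) with hτdef
  have hn : 1 ≤ Fintype.card (Fin m ⊕ Fin m) := by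
    rw [card_symp_index]; omega
  have hne : Nonempty (Fin m ⊕ Fin m) := Fintype.card_pos_iff.1 hn
  let O := {b : Fin (Fintype.card (Fin m ⊕ Fin m)) → F // ∀ i : Fin (Fintype.card (Fin m ⊕ Fin m)), Even (i : ℕ) → b i = 0}
  let sg : Bool → F := fun t => if t then 1 else -1
  have hsg : ∀ t, sg t * sg t = 1 := by
    intro t
    cases t <;> simp [sg]
  let M : Bool × O → MatS m F := fun p => sg p.1 • cay (polM τ p.2.1)
  have hgood : ∀ b : O, GoodSp τ (cay (polM τ b.1)) := fun b => good_of_odd h2 hτ hn hτnil b.2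
  have hMp : ∀ p x y, Cfsg.sympForm m F (M p *ᵥ x) (M p *ᵥ y) = Cfsg.sympForm m F x y := by
    intro p x y
    simp only [M, Matrix.smul_mulVec, sympForm_smul_left, sympForm_smul_right, (hgood p.2).2.2]
    rw [← mul_assoc, hsg, one_mul]
  have hMc : ∀ p, Commute (M p) U := by
    intro p
    rw [hcomm]
    exact ((hgood p.2).1).smul_left _
  let Ψ : Bool × O → Subgroup.centralizer ({u} : Set ↥(Matrix.symplecticGroup (Fin m) F)) := fun p =>
    ⟨⟨M p, mem_symplectic_of_preserves (hMp p)⟩, by
      rw [Subgroup.mem_centralizer_singleton_iff]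
      apply Subtype.ext
      exact (hMc p).eq⟩
  have hcc : ∀ A B : MatS m F, Commute A τ → Commute B τ → Commute A B := by
    intro A B hA hB
    obtain ⟨a, ha⟩ := exists_polM_eq_of_commute hn hτnil hτreg B hB
    rw [ha]
    apply Commute.sum_right
    intro i _
    exact (hA.pow_right _).smul_right _
  have hscal : ∀ c : F, c ≠ 0 → ¬ IsNilpotent (c • (1 : MatS m F)) := by
    intro c hc hnilp
    have hu : IsUnit (c • (1 : MatS m F)) := by
      have : c • (1 : MatS m F) = algebraMap F _ c := by
        rw [Algebra.algebraMap_eq_smul_one]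
      rw [this]
      exact (IsUnit.mk0 _ hc).map _
    exact hnilp.not_isUnit hu
  have hinj0 : ∀ b b' : O, cay (polM τ b.1) = cay (polM τ b'.1) → b = b' := by
    intro b b' h
    have hU1 : IsUnit (1 + polM τ b.1) := (nilpotent_polM_of_odd hn hτnil b.2).isUnit_one_add
    have hU2 : IsUnit (1 + polM τ b'.1) := (nilpotent_polM_of_odd hn hτnil b'.2).isUnit_one_add
    have h3 : polM τ b.1 = polM τ b'.1 := by
      rw [← cay_cay h2 hU1, h, cay_cay h2 hU2]
    exact Subtype.ext (polM_injective hn hτnil hτreg h3)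
  have hne2 : ∀ b b' : O, cay (polM τ b.1) ≠ - cay (polM τ b'.1) := by
    intro b b' h
    have hG := hgood b
    have hG' := hgood b'
    have hc : Commute (cay (polM τ b.1) - 1) (cay (polM τ b'.1) - 1) := by
      have := hcc _ _ hG.1 hG'.1
      exact (this.sub_left (Commute.one_left _)).sub_right (Commute.one_right _)
    have hN := hc.isNilpotent_add hG.2.1 hG'.2.1
    have h3 : cay (polM τ b.1) - 1 + (cay (polM τ b'.1) - 1) = (-2 : F) • (1 : MatS m F) := by
      rw [h]
      simp only [neg_smul, two_smul]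
      abel
    rw [h3] at hN
    exact hscal (-2) (neg_ne_zero.2 h2) hN
  have hΨ : Function.Bijective Ψ := by
    constructor
    · rintro ⟨t, b⟩ ⟨t', b'⟩ hpp
      have h3 : M (t, b) = M (t', b') := by
        have := congrArg (fun z : Subgroup.centralizer ({u} : Set ↥(Matrix.symplecticGroup (Fin m) F)) => ((z : Matrix.symplecticGroup (Fin m) F) : MatS m F)) hpp
        exact this
      simp only [M, sg] at h3
      cases t <;> cases t' <;> simp only [Bool.false_eq_true, if_false, if_true, neg_smul, one_smul, neg_inj] at h3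
      · rw [hinj0 b b' h3]
      · exact absurd (by rw [← h3, neg_neg]) (hne2 b b')
      · exact absurd h3 (hne2 b b')
      · rw [hinj0 b b' h3]
    · rintro ⟨⟨G, hG⟩, hGc⟩
      have hGcomm : Commute G U := by
        rw [Subgroup.mem_centralizer_singleton_iff] at hGc
        exact (congrArg Subtype.val hGc)
      have hGτ : Commute G τ := (hcomm G).1 hGcomm
      have hp : ∀ x y, Cfsg.sympForm m F (G *ᵥ x) (G *ᵥ y) = Cfsg.sympForm m F x y := sympForm_mulVec hG
      obtain ⟨a, ha⟩ := exists_polM_eq_of_commute hn hτnil hτreg G hGτ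
      have hsq := polM_constant_sq hτ hn hτnil a (by rw [← ha]; exact hp)
      have hNa := polM_sub_nilpotent hn hτnil a
      rw [← ha] at hNa
      have h4 : (a ⟨0, by omega⟩ - 1) * (a ⟨0, by omega⟩ + 1) = 0 := by
        linear_combination hsq
      rcases mul_eq_zero.1 h4 with h5 | h5
      · have h6 : a ⟨0, by omega⟩ = 1 := sub_eq_zero.1 h5
        rw [h6, one_smul] at hNa
        obtain ⟨b, hb, hbG⟩ := exists_odd_of_good h2 hτ hn hτnil hτreg (⟨hGτ, hNa, hp⟩ : GoodSp τ G)
        refine ⟨(true, ⟨b, hb⟩), ?_⟩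
        apply Subtype.ext
        apply Subtype.ext
        change sg true • cay (polM τ b) = G
        simp [sg, hbG]
      · have h6 : a ⟨0, by omega⟩ = -1 := eq_neg_of_add_eq_zero_left h5
        rw [h6] at hNa
        have hg' : GoodSp τ (-G) := by
          refine ⟨hGτ.neg_left, ?_, ?_⟩
          · have : -G - 1 = -(G - (-1 : F) • (1 : MatS m F)) := by
              simp
              abel
            rw [this]
            exact hNa.neg
          · intro x y
            rw [Matrix.neg_mulVec, Matrix.neg_mulVec]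
            rw [← sympBilin_apply, map_neg, map_neg, LinearMap.neg_apply, neg_neg, sympBilin_apply, hp]
        obtain ⟨b, hb, hbG⟩ := exists_odd_of_good h2 hτ hn hτnil hτreg hg'
        refine ⟨(false, ⟨b, hb⟩), ?_⟩
        apply Subtype.ext
        apply Subtype.ext
        change sg false • cay (polM τ b) = G
        simp [sg, hbG]
  rw [← Nat.card_congr (Equiv.ofBijective Ψ hΨ), Nat.card_prod, card_odd hF]
  simp

end Cfsg.Agent.S2592
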