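import Cfsg.Statements.S2594
import Cfsg.Agent.Lib.H11.SpTr

set_option autoImplicit false
open Cfsg

namespace Cfsg.Agent.S2594

/-- Over a finite field with q elements, q even, an element t of Sp_2m(F) with rank(t − 1) = 1 (a symplectic transvection) has centraliser in Sp_2m(F) of order q^(2m−1) · |Sp_(2m−2)(q)| = q^(2m−1) · q^((m−1)²) · Π_(i=1)^(m−1) (q^(2i) − 1). -/
theorem result {F : Type*} [Field F] [Fintype F] [CharP F 2] {q : ℕ} (hF : Fintype.card F = q) {m : ℕ} (hm : 1 ≤ m) (t : Matrix.symplecticGroup (Fin m) F) (ht : ((t : Matrix (Fin m ⊕ Fin m) (Fin m ⊕ Fin m) F) - 1).rank = 1) : Nat.card ↥(Subgroup.centralizer ({t} : Set ↥(Matrix.symplecticGroup (Fin m) F))) = q ^ (2 * m - 1) * (q ^ ((m - 1) ^ 2) * ∏ i : Fin (m - 1), (q ^ (2 * ((i : ℕ) + 1)) - 1)) := by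
  have hc : (2 : F) = 0 := by
    have := CharP.cast_eq_zero F 2
    exact_mod_cast this
  obtain ⟨k, rfl⟩ : ∃ k, m = k + 1 := ⟨m - 1, by omega⟩
  have h1 := Cfsg.Agent.H11.Transv.card_carrier t
  have h2 := Cfsg.Agent.H11.SpTr.card_carrier_tau hc t ht
  have h3 := Cfsg.Agent.Lead.card_Sp hF (k + 1)
  rw [Fintype.card_fin, hF] at h2
  rw [h3, Finset.prod_range_succ] at h1
  have hq2 : 2 ≤ q := by rw [← hF]; exact Fintype.one_lt_card
  have hA : 0 < q ^ (2 * (k + 1)) - 1 := Nat.sub_pos_of_lt (Nat.one_lt_pow (by omega) hq2)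
  have h4 : Nat.card (ConjClasses.mk t).carrier = q ^ (2 * (k + 1)) - 1 := by omega
  rw [h4] at h1
  have h5 : Nat.card ↥(Subgroup.centralizer ({t} : Set ↥(Matrix.symplecticGroup (Fin (k + 1)) F))) =
      q ^ ((k + 1) ^ 2) * ∏ i ∈ Finset.range k, (q ^ (2 * (i + 1)) - 1) := by
    apply Nat.eq_of_mul_eq_mul_left hA
    rw [h1]
    ring
  rw [h5]
  change _ = q ^ (2 * (k + 1) - 1) * (q ^ (k ^ 2) * ∏ i : Fin k, (q ^ (2 * ((i : ℕ) + 1)) - 1))
  rw [Fin.prod_univ_eq_prod_range (fun i => q ^ (2 * (i + 1)) - 1) k, ← mul_assoc, ← pow_add]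
  congr 2
  have : 2 * (k + 1) - 1 = 2 * k + 1 := by omega
  rw [this]
  ring

end Cfsg.Agent.S2594
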