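import Mathlib
import Cfsg.Statements.S2599

set_option autoImplicit false
open Cfsg

namespace Cfsg.Agent.S2599

theorem result {F : Type*} [Field F] [Fintype F] {p : ℕ} [Fact p.Prime] [CharP F p] {n : ℕ} (Q : QuadraticForm F (Fin n → F)) (hQ : (QuadraticMap.polarBilin Q).Nondegenerate) (x : ↥(Cfsg.isometryGroup F ⇑Q)) (hx : (orderOf x).Coprime p) (U : Submodule F (Fin n → F)) (hU0 : U ≠ ⊥) (hUx : ∀ u ∈ U, ((x : Matrix.GeneralLinearGroup (Fin n) F) : Matrix (Fin n) (Fin n) F).mulVec u ∈ U) (hirr : ∀ W : Submodule F (Fin n → F), W ≤ U → (∀ w ∈ W, ((x : Matrix.GeneralLinearGroup (Fin n) F) : Matrix (Fin n) (Fin n) F).mulVec w ∈ W) → W = ⊥ ∨ W = U) : U ⊓ LinearMap.BilinForm.orthogonal (QuadraticMap.polarBilin Q) U = ⊥ ∨ (∀ u ∈ U, Q u = 0) ∨ (p = 2 ∧ Module.finrank F U = 1 ∧ (∃ u ∈ U, Q u ≠ 0) ∧ ∀ u ∈ U, ((x : Matrix.GeneralLinearGroup (Fin n) F) : Matrix (Fin n) (Fin n) F).mulVec u = u) := by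
  classical
  set M : Matrix (Fin n) (Fin n) F := ((x : Matrix.GeneralLinearGroup (Fin n) F) : Matrix (Fin n) (Fin n) F) with hM
  have hQx : ∀ v, Q (M.mulVec v) = Q v := by
    intro v
    exact x.2 v v
  have hpol : ∀ u v, QuadraticMap.polar Q (M.mulVec u) (M.mulVec v) = QuadraticMap.polar Q u v := by
    intro u v
    simp only [QuadraticMap.polar, ← Matrix.mulVec_add, hQx]
  -- `x` maps `U` onto `U`
  have hinj : Function.Injective (Matrix.mulVec M) := by
    intro a b hab
    have h1 : ((x : Matrix.GeneralLinearGroup (Fin n) F)⁻¹ : Matrix.GeneralLinearGroup (Fin n) F).1.mulVec (M.mulVec a) = ((x : Matrix.GeneralLinearGroup (Fin n) F)⁻¹ : Matrix.GeneralLinearGroup (Fin n) F).1.mulVec (M.mulVec b) := by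
      exact congrArg _ hab
    simpa [Matrix.mulVec_mulVec, hM] using h1
  have hmapU : ∀ u ∈ U, ∃ u' ∈ U, M.mulVec u' = u := by
    let f : U → U := fun u => ⟨M.mulVec u, hUx u u.2⟩
    have hf : Function.Injective f := by
      intro a b hab
      exact Subtype.ext (hinj (congrArg Subtype.val hab))
    have hs := Finite.surjective_of_injective hf
    intro u hu
    obtain ⟨u', hu'⟩ := hs ⟨u, hu⟩
    exact ⟨u', u'.2, congrArg Subtype.val hu'⟩
  -- the radical of `U` is invariant
  have hrad := hirr (U ⊓ LinearMap.BilinForm.orthogonal (QuadraticMap.polarBilin Q) U) inf_le_left (by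
    rintro w ⟨hw1, hw2⟩
    refine ⟨hUx w hw1, ?_⟩
    intro v hv
    obtain ⟨v', hv', rfl⟩ := hmapU v hv
    have := hw2 v' hv'
    show QuadraticMap.polar Q _ _ = 0
    rw [hpol]
    exact this)
  rcases hrad with hrad | hrad
  · exact Or.inl hrad
  right
  have hortho : ∀ u ∈ U, ∀ v ∈ U, QuadraticMap.polar Q u v = 0 := by
    intro u hu v hv
    have hv' : v ∈ U ⊓ LinearMap.BilinForm.orthogonal (QuadraticMap.polarBilin Q) U := by rw [hrad]; exact hv
    exact hv'.2 u hu
  have hp : p.Prime := Fact.out
  by_cases hp2 : p = 2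
  · subst hp2
    have h20 : (2 : F) = 0 := by
      have := CharP.cast_eq_zero F 2
      simpa using this
    -- singular vectors of `U`
    have hadd : ∀ u ∈ U, ∀ v ∈ U, Q (u + v) = Q u + Q v := by
      intro u hu v hv
      have := hortho u hu v hv
      rw [QuadraticMap.polar] at this
      linear_combination this
    let W₀ : Submodule F (Fin n → F) :=
      { carrier := {u | u ∈ U ∧ Q u = 0}
        add_mem' := by
          rintro a b ⟨ha, ha'⟩ ⟨hb, hb'⟩
          exact ⟨U.add_mem ha hb, by rw [hadd a ha b hb, ha', hb', add_zero]⟩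
        zero_mem' := ⟨U.zero_mem, by simp⟩
        smul_mem' := by
          rintro c a ⟨ha, ha'⟩
          refine ⟨U.smul_mem c ha, ?_⟩
          rw [QuadraticMap.map_smul, ha']
          simp }
    have hW₀ := hirr W₀ (fun u hu => hu.1) (by
      rintro w ⟨hw1, hw2⟩
      exact ⟨hUx w hw1, by rw [hQx]; exact hw2⟩)
    rcases hW₀ with hW₀ | hW₀
    · right
      refine ⟨rfl, ?_⟩
      have hzero : ∀ u ∈ U, Q u = 0 → u = 0 := by
        intro u hu h0
        have : u ∈ W₀ := ⟨hu, h0⟩
        rw [hW₀] at this
        simpa using this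
      obtain ⟨u, hu, hu0⟩ := Submodule.exists_mem_ne_zero_of_ne_bot hU0
      have hQu : Q u ≠ 0 := fun h => hu0 (hzero u hu h)
      -- every vector of `U` is a multiple of `u`
      have hmul : ∀ v ∈ U, ∃ c : F, c • u = v := by
        intro v hv
        have : Fact (Nat.Prime 2) := ⟨Nat.prime_two⟩
        have hsurj : Function.Surjective (frobenius F 2) := by
          exact Finite.surjective_of_injective (frobenius F 2).injective
        obtain ⟨a, ha⟩ := hsurj (Q v / Q u)
        have ha' : a ^ 2 = Q v / Q u := ha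
        refine ⟨a, ?_⟩
        have h0 : Q (a • u + v) = 0 := by
          rw [hadd _ (U.smul_mem a hu) _ hv, QuadraticMap.map_smul]
          simp only [smul_eq_mul]
          have : a * a = a ^ 2 := by ring
          rw [this, ha']
          field_simp
          linear_combination (Q v) * h20
        have := hzero _ (U.add_mem (U.smul_mem a hu) hv) h0
        have h2v : v + v = 0 := by
          have : (2 : F) • v = 0 := by rw [h20, zero_smul]
          rwa [two_smul] at this
        calc a • u = a • u + (v + v) := by rw [h2v, add_zero]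
          _ = (a • u + v) + v := by rw [add_assoc]
          _ = v := by rw [this, zero_add]
      refine ⟨?_, ⟨u, hu, hQu⟩, ?_⟩
      · -- dimension one
        have : Module.finrank F U = 1 := by
          rw [finrank_eq_one_iff']
          refine ⟨⟨u, hu⟩, ?_, ?_⟩
          · intro h
            exact hu0 (congrArg Subtype.val h)
          · rintro ⟨v, hv⟩
            obtain ⟨c, hc⟩ := hmul v hv
            exact ⟨c, Subtype.ext hc⟩
        exact this
      · -- `x` fixes `U` pointwise
        intro v hv
        obtain ⟨c, rfl⟩ := hmul v hv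
        rw [Matrix.mulVec_smul]
        obtain ⟨l, hl⟩ := hmul _ (hUx u hu)
        rw [← hl]
        have h1 : Q (l • u) = Q u := by rw [hl, hQx]
        rw [QuadraticMap.map_smul] at h1
        simp only [smul_eq_mul] at h1
        have h2 : l * l = 1 := by
          have h3 : (l * l - 1) * Q u = 0 := by linear_combination h1
          rcases mul_eq_zero.1 h3 with h | h
          · exact sub_eq_zero.1 h
          · exact absurd h hQu
        have h3 : l = 1 := by
          have h4 : (l - 1) * (l - 1) = 0 := by
            linear_combination h2 + (1 - l) * h20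
          have h5 := mul_self_eq_zero.1 h4
          exact sub_eq_zero.1 h5
        rw [h3, one_smul]
    · left
      intro u hu
      have : u ∈ W₀ := by rw [hW₀]; exact hu
      exact this.2
  · left
    intro u hu
    have h1 := hortho u hu u hu
    have h2 : (2 : F) ≠ 0 := by
      intro h
      have h3 : ((2 : ℕ) : F) = 0 := by simpa using h
      have := (CharP.cast_eq_zero_iff F p 2).1 h3
      exact hp2 ((Nat.prime_dvd_prime_iff_eq hp Nat.prime_two).1 this)
    have h3 : QuadraticMap.polar Q u u = 2 * Q u := by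
      rw [QuadraticMap.polar]
      have : u + u = (2 : F) • u := by rw [two_smul]
      rw [this, QuadraticMap.map_smul]
      simp only [smul_eq_mul]
      ring
    rw [h3] at h1
    exact (mul_eq_zero.1 h1).resolve_left h2

end Cfsg.Agent.S2599
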