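import Cfsg.Statements.S2610
import Cfsg.Agent.Lib.H11.Spin5
import Cfsg.Agent.Lib.H11.Disc

set_option autoImplicit false
open Cfsg

namespace Cfsg.Agent.S2610

open Cfsg.Agent.H11 Module

/-- For a quadratic form Q on F^n with non-degenerate polar form, F finite of odd order and n ≥ 2 even, the isometry −1 lies in Ω (the commutator subgroup of the orthogonal group) if and only if the discriminant of Q (the determinant of the Gram matrix of its polar form) is a square. -/
theorem result {F : Type*} [Field F] [Fintype F] (h2 : (2 : F) ≠ 0) {n : ℕ} (hn : 2 ≤ n) (he : Even n) (Q : QuadraticForm F (Fin n → F)) (hQ : (QuadraticMap.polarBilin Q).Nondegenerate) : (∃ g : ↥(Cfsg.isometryGroup F ⇑Q), g ∈ Cfsg.Omega F ⇑Q ∧ ((g : Matrix.GeneralLinearGroup (Fin n) F) : Matrix (Fin n) (Fin n) F) = -1) ↔ IsSquare (Matrix.of (fun i j : Fin n => QuadraticMap.polar ⇑Q (Pi.single i 1) (Pi.single j 1))).det := by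
  classical
  obtain ⟨k, rfl⟩ : ∃ k, n = k + 1 := ⟨n - 1, by omega⟩
  have hV : finrank F (Fin (k + 1) → F) = k + 1 := by simp
  obtain ⟨v, z, h1, h3, h4, h5⟩ := exists_orth_family h2 k (Fin (k + 1) → F) Q hV hQ
  let b : Fin (k + 1) → (Fin (k + 1) → F) := Fin.cons z v
  have hb : ∀ i, Q (b i) ≠ 0 := by
    intro i
    refine Fin.cases ?_ (fun j => ?_) i
    · exact h5
    · change Q (v j) ≠ 0
      rw [h1]; exact one_ne_zero
  have hort : ∀ i j, i ≠ j → QuadraticMap.polar (⇑Q) (b i) (b j) = 0 := by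
    intro i j
    refine Fin.cases ?_ (fun i' => ?_) i <;> refine Fin.cases ?_ (fun j' => ?_) j
    · intro h; exact absurd rfl h
    · intro _
      change QuadraticMap.polar (⇑Q) z (v j') = 0
      rw [QuadraticMap.polar_comm]; exact h4 j'
    · intro _
      exact h4 i'
    · intro h
      exact h3 i' j' (fun e => h (by rw [e]))
  have hprod := prod_refl_basis h2 (by simp) Q b hb hort
  have hL : ∀ w ∈ List.ofFn b, Q w ≠ 0 := by
    intro w hw
    obtain ⟨j, rfl⟩ := (List.mem_ofFn' _ _).1 hw
    exact hb j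
  obtain ⟨g₀, hg₀, -⟩ := exists_prod_refl.{0} Q (List.ofFn b) hL
  have hcrit := spinor_criterion h2 (by simp; omega) Q hQ g₀ (List.ofFn b) hL hg₀
  -- the discriminant
  have hLI : LinearIndependent F b := by
    rw [Fintype.linearIndependent_iff]
    intro c hc j
    have h6 : QuadraticMap.polar (⇑Q) (b j) (∑ i, c i • b i) = 0 := by
      rw [hc]; simp
    have h7 : QuadraticMap.polar (⇑Q) (b j) (∑ i, c i • b i) = ∑ i, c i * QuadraticMap.polar (⇑Q) (b j) (b i) := by
      have := map_sum (QuadraticMap.polarBilin Q (b j)) (fun i => c i • b i) Finset.univ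
      simp only [QuadraticMap.polarBilin_apply_apply, map_smul, smul_eq_mul] at this
      rw [this]
    rw [h7, Finset.sum_eq_single j (fun i _ hi => by rw [hort j i hi.symm, mul_zero]) (by simp),
      QuadraticMap.polar_self] at h6
    rcases mul_eq_zero.1 h6 with h8 | h8
    · exact h8
    · exfalso
      rw [nsmul_eq_mul] at h8
      rcases mul_eq_zero.1 h8 with h9 | h9
      · exact h2 (by exact_mod_cast h9)
      · exact hb j h9
  let B : Basis (Fin (k + 1)) F (Fin (k + 1) → F) :=
    basisOfLinearIndependentOfCardEqFinrank hLI (by simp)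
  have hBb : ∀ i, B i = b i := fun i => by simp [B]
  obtain ⟨d, hd, hdet⟩ := det_gram_basis Q B
  have hgram : (Matrix.of (fun i j : Fin (k + 1) => QuadraticMap.polar (⇑Q) (B i) (B j))) =
      Matrix.diagonal (fun i => 2 * Q (b i)) := by
    ext i j
    by_cases hij : i = j
    · subst hij
      simp only [Matrix.of_apply, hBb, Matrix.diagonal_apply_eq, QuadraticMap.polar_self]
      simp
    · simp only [Matrix.of_apply, hBb, Matrix.diagonal_apply_ne _ hij]
      exact hort i j hij
  rw [hgram, Matrix.det_diagonal, Finset.prod_mul_distrib, Finset.prod_const, Finset.card_univ,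
    Fintype.card_fin] at hdet
  have hprodQ : ((List.ofFn b).map (fun w => Q w)).prod = ∏ i, Q (b i) := by
    rw [List.map_ofFn, List.prod_ofFn]
    rfl
  have hprodne : ∏ i, Q (b i) ≠ 0 := Finset.prod_ne_zero_iff.2 (fun i _ => hb i)
  have hdisc : IsSquare (Matrix.of (fun i j : Fin (k + 1) => QuadraticMap.polar (⇑Q) (Pi.single i 1) (Pi.single j 1))).det ↔
      IsSquare (∏ i, Q (b i)) := by
    obtain ⟨m, hm⟩ := he
    set D := (Matrix.of (fun i j : Fin (k + 1) => QuadraticMap.polar (⇑Q) (Pi.single i 1) (Pi.single j 1))).det with hD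
    have e1 : ∏ i, Q (b i) = ((2 ^ m)⁻¹ * d) ^ 2 * D := by
      have h2m : ((2 : F) ^ m) ≠ 0 := pow_ne_zero _ h2
      have : (2 : F) ^ (k + 1) = (2 ^ m) ^ 2 := by
        rw [← pow_mul, hm]; congr 1; ring
      rw [this] at hdet
      field_simp
      linear_combination hdet
    have hc : (2 ^ m)⁻¹ * d ≠ 0 := mul_ne_zero (inv_ne_zero (pow_ne_zero _ h2)) hd
    rw [e1]
    exact (isSquare_mul_sq_iff hc).symm
  rw [hdisc]
  have hn' : Even (List.ofFn b).length := by simpa using he
  constructor
  · rintro ⟨g, hg, hgm⟩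
    have : g = g₀ := isom_ext (by rw [hgm, hg₀, hprod])
    rw [this] at hg
    have := (hcrit.1 hg).2
    rwa [hprodQ] at this
  · intro hs
    refine ⟨g₀, hcrit.2 ⟨hn', by rwa [hprodQ]⟩, by rw [hg₀, hprod]⟩

end Cfsg.Agent.S2610
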