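import Cfsg.Statements.S2611
import Cfsg.Agent.Lib.H11.Levi3

set_option autoImplicit false
open Cfsg

namespace Cfsg.Agent.S2611

open Cfsg.Agent.H11

/-- For the hyperbolic quadratic form Σ x_i y_i on F^(2m) (F finite, m ≥ 1, excluding m = 2 over the field of two elements) and an invertible m × m matrix A, the block-diagonal isometry diag(A, (A⁻¹)ᵀ), which stabilises the two maximal totally singular subspaces x = 0 and y = 0, lies in Ω⁺_2m(F) (the commutator subgroup of the orthogonal group) if and only if det A is a square in F. -/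
theorem result {F : Type*} [Field F] [Fintype F] {m : ℕ} (hm : 1 ≤ m) (h : Fintype.card F ≠ 2 ∨ m ≠ 2) (A : GL (Fin m) F) : (∃ g : ↥(Cfsg.isometryGroup F (Cfsg.quadFormPlus m F)), g ∈ Cfsg.Omega F (Cfsg.quadFormPlus m F) ∧ ((g : Matrix.GeneralLinearGroup (Fin m ⊕ Fin m) F) : Matrix (Fin m ⊕ Fin m) (Fin m ⊕ Fin m) F) = Matrix.fromBlocks (A : Matrix (Fin m) (Fin m) F) 0 0 ((A : Matrix (Fin m) (Fin m) F)⁻¹).transpose) ↔ IsSquare (A : Matrix (Fin m) (Fin m) F).det := by
  classical
  constructor
  · rintro ⟨g, hg, hgm⟩
    have hgA : g = leviHom m F A := isom_ext (by rw [hgm, leviHom_coe])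
    rw [hgA] at hg
    by_cases hchar : ringChar F = 2
    · exact FiniteField.isSquare_of_char_two hchar _
    · have h2 : (2 : F) ≠ 0 := Ring.two_ne_zero hchar
      let i₀ : Fin m := ⟨0, hm⟩
      have h1 := hom_factor_det (leviAb m F) i₀ (transv_trivial (leviAb m F) h) A
      rw [levi_mem_iff] at hg
      rw [hg] at h1
      set d := Matrix.GeneralLinearGroup.det A with hd
      have hmem : leviHom m F (Dgl i₀ d) ∈ Omega F (quadFormPlus m F) := (levi_mem_iff m _).2 h1.symm
      have hne1 : plusForm m F (hypVec i₀ 1) ≠ 0 := by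
        rw [Q_hypVec]; simp
      have hne2 : plusForm m F (hypVec i₀ (d : F)) ≠ 0 := by
        rw [Q_hypVec]; simp
      have hcrit := spinor_criterion (ι := Fin m ⊕ Fin m) h2 (by simp; omega) (plusForm m F) (plus_nondeg m)
        (leviHom m F (Dgl i₀ d)) [hypVec i₀ 1, hypVec i₀ (d : F)] (by
          intro v hv
          simp only [List.mem_cons, List.not_mem_nil, or_false] at hv
          rcases hv with rfl | rfl
          · exact hne1
          · exact hne2) (by
          rw [levi_D]
          simp)
      have hsq := (hcrit.1 hmem).2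
      simp only [List.map_cons, List.map_nil, List.prod_cons, List.prod_nil, mul_one, Q_hypVec] at hsq
      have hdval : (d : F) = (A : Matrix (Fin m) (Fin m) F).det := Matrix.GeneralLinearGroup.val_det_apply A
      rw [← hdval]
      simpa using hsq
  · intro hs
    exact ⟨leviHom m F A, levi_mem_of_isSquare hm h A hs, leviHom_coe m A⟩

end Cfsg.Agent.S2611
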