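import Cfsg.Statements.S2613
import Cfsg.Agent.Lib.H11.Spin7

set_option autoImplicit false
open Cfsg

namespace Cfsg.Agent.S2613

open Cfsg.Agent.H11

lemma two_ne {F : Type*} [Field F] [Fintype F] (hodd : Odd (Fintype.card F)) : (2 : F) ≠ 0 := by
  have hchar : ringChar F ≠ 2 := by
    intro h
    have := FiniteField.even_card_of_char_two h
    exact (Nat.not_even_iff_odd.2 hodd) (Nat.even_iff.2 this)
  exact Ring.two_ne_zero hchar

/-- For the hyperbolic form Σ x_j y_j on F^(2m), F finite with q elements, q odd, and 1 ≤ i ≤ m: the involution negating the first i hyperbolic pairs (x_j, y_j ↦ −x_j, −y_j for j < i) and fixing the rest lies in Ω⁺_2m(q) (commutator subgroup of the orthogonal group) if and only if q^i ≡ 1 (mod 4); its (−1)-eigenspace is a hyperbolic 2i-space. -/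
theorem result {F : Type*} [Field F] [Fintype F] {q : ℕ} (hF : Fintype.card F = q) (hq : Odd q) {m : ℕ} (i : ℕ) (hi : 1 ≤ i) (him : i ≤ m) : (∃ g : ↥(Cfsg.isometryGroup F (Cfsg.quadFormPlus m F)), g ∈ Cfsg.Omega F (Cfsg.quadFormPlus m F) ∧ ((g : Matrix.GeneralLinearGroup (Fin m ⊕ Fin m) F) : Matrix (Fin m ⊕ Fin m) (Fin m ⊕ Fin m) F) = Matrix.diagonal (fun k : Fin m ⊕ Fin m => if (Sum.elim (fun j : Fin m => (j : ℕ)) (fun j : Fin m => (j : ℕ)) k) < i then (-1 : F) else 1)) ↔ q ^ i % 4 = 1 := by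
  classical
  subst hF
  have h2 := two_ne hq
  rw [pairs_criterion h2 (by simp; omega) (plusForm m F) (plus_nondeg m) (plus_pairs m)
    (firstIdx i him) (firstIdx_nodup him) (quadFormPlus m F) rfl _ ?_, firstIdx_length,
    neg_one_pow_isSquare_iff rfl hq i]
  congr 1
  funext k
  have key : (Sum.elim (fun j : Fin m => (j : ℕ)) (fun j : Fin m => (j : ℕ)) k) < i ↔
      ∃ j ∈ firstIdx i him, k = Sum.inl j ∨ k = Sum.inr j := by
    rcases k with a | a
    · simp [mem_firstIdx]
    · simp [mem_firstIdx]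
  by_cases hk : (Sum.elim (fun j : Fin m => (j : ℕ)) (fun j : Fin m => (j : ℕ)) k) < i
  · rw [if_pos hk, if_pos (key.1 hk)]
  · rw [if_neg hk, if_neg (fun h => hk (key.2 h))]

end Cfsg.Agent.S2613
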