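import Cfsg.Statements.S2614
import Cfsg.Agent.Lib.H11.Spin7

set_option autoImplicit false
open Cfsg

namespace Cfsg.Agent.S2614

open Cfsg.Agent.H11

lemma two_ne {F : Type*} [Field F] [Fintype F] (hodd : Odd (Fintype.card F)) : (2 : F) ≠ 0 := by
  have hchar : ringChar F ≠ 2 := by
    intro h
    have := FiniteField.even_card_of_char_two h
    exact (Nat.not_even_iff_odd.2 hodd) (Nat.even_iff.2 this)
  exact Ring.two_ne_zero hchar

/-- For the form x_0² + Σ x_j y_j on F^(2m+1), F finite with q elements, q odd, and 1 ≤ i ≤ m: the involution of determinant one negating the first i hyperbolic pairs (and fixing x_0 and the other pairs) lies in Ω_(2m+1)(q) (commutator subgroup of the orthogonal group) if and only if q^i ≡ 1 (mod 4); its (−1)-eigenspace is a hyperbolic 2i-space. -/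
theorem result {F : Type*} [Field F] [Fintype F] {q : ℕ} (hF : Fintype.card F = q) (hq : Odd q) {m : ℕ} (i : ℕ) (hi : 1 ≤ i) (him : i ≤ m) : (∃ g : ↥(Cfsg.isometryGroup F (Cfsg.quadFormOdd m F)), g ∈ Cfsg.Omega F (Cfsg.quadFormOdd m F) ∧ ((g : Matrix.GeneralLinearGroup (Unit ⊕ (Fin m ⊕ Fin m)) F) : Matrix (Unit ⊕ (Fin m ⊕ Fin m)) (Unit ⊕ (Fin m ⊕ Fin m)) F) = Matrix.diagonal (fun k : Unit ⊕ (Fin m ⊕ Fin m) => if (Sum.elim (fun _ : Unit => i) (Sum.elim (fun j : Fin m => (j : ℕ)) (fun j : Fin m => (j : ℕ))) k) < i then (-1 : F) else 1)) ↔ q ^ i % 4 = 1 := by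
  classical
  subst hF
  have h2 := two_ne hq
  rw [pairs_criterion h2 (by simp; omega) (oddForm m F) (odd_nondeg h2 m) (odd_pairs m)
    (firstIdx i him) (firstIdx_nodup him) (quadFormOdd m F) (oddForm_coe m) _ ?_, firstIdx_length,
    neg_one_pow_isSquare_iff rfl hq i]
  congr 1
  funext k
  have key : (Sum.elim (fun _ : Unit => i) (Sum.elim (fun j : Fin m => (j : ℕ)) (fun j : Fin m => (j : ℕ))) k) < i ↔
      ∃ j ∈ firstIdx i him, k = Sum.inr (Sum.inl j) ∨ k = Sum.inr (Sum.inr j) := by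
    rcases k with u | a | a
    · simp
    · simp [mem_firstIdx]
    · simp [mem_firstIdx]
  by_cases hk : (Sum.elim (fun _ : Unit => i) (Sum.elim (fun j : Fin m => (j : ℕ)) (fun j : Fin m => (j : ℕ))) k) < i
  · rw [if_pos hk, if_pos (key.1 hk)]
  · rw [if_neg hk, if_neg (fun h => hk (key.2 h))]

end Cfsg.Agent.S2614
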