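import Mathlib
import Cfsg.Statements.S2619

set_option autoImplicit false
open Cfsg

namespace Cfsg.Agent.S2619

theorem result {F V ι : Type*} [Field F] [Finite F] [CharP F 2] [AddCommGroup V] [Module F V] [Fintype ι] (b : Module.Basis ι F V) (B : LinearMap.BilinForm F V) (hB : B.IsAlt) (c : ι → F) : ∃! Q : QuadraticForm F V, QuadraticMap.polarBilin Q = B ∧ ∀ i, Q (b i) = c i := by
  classical
  let e := Fintype.equivFin ι
  let M : Matrix ι ι F := Matrix.of fun i j => if i = j then c i else if e i < e j then B (b i) (b j) else 0
  let C : LinearMap.BilinForm F V := Matrix.toBilin b M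
  have hC : ∀ i j, C (b i) (b j) = M i j := by
    intro i j
    simp only [C, Matrix.toBilin_apply, Module.Basis.repr_self]
    rw [Finset.sum_eq_single i, Finset.sum_eq_single j]
    · simp
    · intro k _ hk
      simp [Finsupp.single_apply, Ne.symm hk]
    · simp
    · intro k _ hk
      simp [Finsupp.single_apply, Ne.symm hk]
    · simp
  have hsymm : ∀ x y, B x y = B y x := by
    intro x y
    have h1 : B x y = - B y x := by
      have := hB.neg_eq x y
      rw [← this, neg_neg]
    rw [h1]
    exact CharTwo.neg_eq _
  refine ⟨LinearMap.BilinMap.toQuadraticMap C, ⟨?_, ?_⟩, ?_⟩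
  · apply LinearMap.BilinForm.ext_basis b
    intro i j
    rw [QuadraticMap.polarBilin_apply_apply, LinearMap.BilinMap.polar_toQuadraticMap, hC, hC]
    simp only [M, Matrix.of_apply]
    by_cases hij : i = j
    · subst hij
      simp only [if_true, hB _]
      exact CharTwo.add_self_eq_zero _
    · have hji : j ≠ i := Ne.symm hij
      simp only [hij, hji, if_false]
      have hne : e i ≠ e j := fun h => hij (e.injective h)
      rcases lt_or_gt_of_ne hne with h | h
      · simp [h, h.le, not_lt.2 h.le]
      · simp [h, not_lt.2 h.le, hsymm (b i) (b j)]
  · intro i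
    rw [LinearMap.BilinMap.toQuadraticMap_apply, hC]
    simp [M]
  · rintro Q' ⟨hQ', hv⟩
    have hpol : ∀ x y, QuadraticMap.polar Q' x y = B x y := fun x y => by
      rw [← hQ', QuadraticMap.polarBilin_apply_apply]
    have hpol2 : ∀ x y, QuadraticMap.polar (LinearMap.BilinMap.toQuadraticMap C) x y = B x y := by
      have h2 : QuadraticMap.polarBilin (LinearMap.BilinMap.toQuadraticMap C) = B := by
        apply LinearMap.BilinForm.ext_basis b
        intro i j
        rw [QuadraticMap.polarBilin_apply_apply, LinearMap.BilinMap.polar_toQuadraticMap, hC, hC]
        simp only [M, Matrix.of_apply]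
        by_cases hij : i = j
        · subst hij
          simp only [if_true, hB _]
          exact CharTwo.add_self_eq_zero _
        · have hji : j ≠ i := Ne.symm hij
          simp only [hij, hji, if_false]
          have hne : e i ≠ e j := fun h => hij (e.injective h)
          rcases lt_or_gt_of_ne hne with h | h
          · simp [h, h.le, not_lt.2 h.le]
          · simp [h, not_lt.2 h.le, hsymm (b i) (b j)]
      intro x y
      rw [← h2, QuadraticMap.polarBilin_apply_apply]
    let D : QuadraticForm F V := Q' - LinearMap.BilinMap.toQuadraticMap C
    have hDadd : ∀ x y, D (x + y) = D x + D y := by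
      intro x y
      have h1 := hpol x y
      have h2 := hpol2 x y
      simp only [QuadraticMap.polar] at h1 h2
      simp only [D, QuadraticMap.sub_apply]
      linear_combination h1 - h2
    have hD0 : ∀ i, D (b i) = 0 := by
      intro i
      simp only [D, QuadraticMap.sub_apply, hv, LinearMap.BilinMap.toQuadraticMap_apply, hC]
      simp [M]
    let D' : V →+ F := AddMonoidHom.mk' D hDadd
    have hall : ∀ x, D x = 0 := by
      intro x
      have hx := b.sum_repr x
      have : D' x = 0 := by
        rw [← hx, map_sum]
        apply Finset.sum_eq_zero
        intro i _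
        change D _ = 0
        rw [QuadraticMap.map_smul, hD0]
        simp
      exact this
    ext x
    have := hall x
    simp only [D, QuadraticMap.sub_apply] at this
    exact sub_eq_zero.1 this

end Cfsg.Agent.S2619
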