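import Mathlib
import Cfsg.Statements.S2621
import Cfsg.Agent.Lib.H11.Disc

set_option autoImplicit false
open Cfsg

namespace Cfsg.Agent.S2621

open Cfsg.Agent.H11 Matrix

/-- the Gram matrix of the elliptic form -/
abbrev ellG (k : ℕ) {F : Type*} [Field F] (a c : F) : Matrix ((Fin k ⊕ Fin k) ⊕ Fin 2) ((Fin k ⊕ Fin k) ⊕ Fin 2) F :=
  Matrix.fromBlocks (hypG k F) 0 0 !![2, a; a, 2 * c]

lemma polar_quadFormMinus {F : Type*} [Field F] (k : ℕ) (a c : F) (x y : (Fin k ⊕ Fin k) ⊕ Fin 2 → F) :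
    QuadraticMap.polar (Cfsg.quadFormMinus k F a c) x y = x ⬝ᵥ (ellG k a c *ᵥ y) := by
  have h1 := polar_quadFormPlus k (x ∘ Sum.inl) (y ∘ Sum.inl)
  simp only [QuadraticMap.polar, Cfsg.quadFormPlus, Function.comp, Pi.add_apply] at h1
  have h3 : x ⬝ᵥ (ellG k a c *ᵥ y) = (x ∘ Sum.inl) ⬝ᵥ (hypG k F *ᵥ (y ∘ Sum.inl)) +
      (x ∘ Sum.inr) ⬝ᵥ (!![2, a; a, 2 * c] *ᵥ (y ∘ Sum.inr)) := by
    have : y = Sum.elim (y ∘ Sum.inl) (y ∘ Sum.inr) := by
      ext i; cases i <;> rfl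
    rw [ellG]
    conv_lhs => rw [this]
    rw [Matrix.fromBlocks_mulVec]
    simp only [zero_mulVec, add_zero, zero_add, Sum.elim_comp_inl, Sum.elim_comp_inr]
    simp only [dotProduct, Fintype.sum_sum_type (α₁ := Fin k ⊕ Fin k) (α₂ := Fin 2), Sum.elim_inl, Sum.elim_inr, Function.comp]
  rw [h3, ← h1]
  simp only [QuadraticMap.polar, Cfsg.quadFormMinus, Pi.add_apply, dotProduct, Fin.sum_univ_two, Function.comp,
    Matrix.mulVec, Matrix.of_apply, Matrix.cons_val', Matrix.cons_val_zero, Matrix.cons_val_one, Matrix.cons_val_fin_one, Fin.isValue, Matrix.empty_val']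
  ring

lemma isSquare_mul_nonsquare {F : Type*} [Field F] [Fintype F] {x D : F} (hx : x ≠ 0)
    (hD : ¬ IsSquare D) : IsSquare (x * D) ↔ ¬ IsSquare x := by
  classical
  have hD0 : D ≠ 0 := by
    rintro rfl
    exact hD (by simp)
  have h1 : quadraticChar F D = -1 := (quadraticChar_neg_one_iff_not_isSquare).2 hD
  have hxD : x * D ≠ 0 := mul_ne_zero hx hD0
  rw [← quadraticChar_one_iff_isSquare hxD, map_mul, h1, ← quadraticChar_one_iff_isSquare hx]
  rcases quadraticChar_dichotomy hx with h | h <;> rw [h] <;> norm_num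

theorem result {F : Type*} [Field F] [Fintype F] {q : ℕ} (hF : Fintype.card F = q) (hq : Odd q) {m : ℕ} (hm : 1 ≤ m) (a c : F) (hac : ∀ z₁ z₂ : F, z₁ ^ 2 + a * z₁ * z₂ + c * z₂ ^ 2 = 0 → z₁ = 0 ∧ z₂ = 0) {ι : Type*} [Fintype ι] [DecidableEq ι] (b : Module.Basis ι F ((Fin (m - 1) ⊕ Fin (m - 1)) ⊕ Fin 2 → F)) : IsSquare (Matrix.of (fun i j : ι => QuadraticMap.polar (Cfsg.quadFormMinus (m - 1) F a c) (b i) (b j))).det ↔ ¬ Even (m * (q - 1) / 2) := by
  simp only [polar_quadFormMinus]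
  obtain ⟨d, hd, h⟩ := det_gram_eq (ellG (m - 1) a c) b
  rw [h, isSquare_mul_sq_iff hd, ellG, Matrix.det_fromBlocks_zero₂₁, det_hypG, Matrix.det_fin_two_of]
  have hF2 : ringChar F ≠ 2 := by
    intro h2
    have h3 := FiniteField.even_card_iff_char_two (F := F) |>.1 h2
    rw [hF] at h3
    have := hq
    rw [Nat.odd_iff] at this
    omega
  have h20 : (2 : F) ≠ 0 := Ring.two_ne_zero hF2
  -- the discriminant is a non-square
  have hD : ¬ IsSquare (a ^ 2 - 4 * c) := by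
    rintro ⟨s, hs⟩
    have h0 := hac (s - a) 2 (by linear_combination (-1 : F) * hs)
    exact h20 h0.2
  have hk : (m - 1) + 1 = m := by omega
  have heq : (-1 : F) ^ (m - 1) * (2 * (2 * c) - a * a) = (-1) ^ m * (a ^ 2 - 4 * c) := by
    conv_rhs => rw [← hk, pow_succ]
    ring
  rw [heq, isSquare_mul_nonsquare (pow_ne_zero _ (by simp)) hD, isSquare_neg_one_pow_iff hF hq m]

end Cfsg.Agent.S2621
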