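import Mathlib
import Cfsg.Statements.S2622

set_option autoImplicit false
open Cfsg

namespace Cfsg.Agent.S2622

open Module LinearMap

universe u v

lemma exists_unit {F : Type v} [Field F] [Finite F] [CharP F 2] {V : Type u} [AddCommGroup V] [Module F V]
    (B : LinearMap.BilinForm F V) (v : V) (hv : B v v ≠ 0) : ∃ u, B u u = 1 := by
  let s := (frobeniusEquiv F 2).symm (B v v)
  have hs : s ^ 2 = B v v := by
    have := frobenius_apply_frobeniusEquiv_symm F 2 (B v v)
    rwa [_root_.frobenius_def] at this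
  have hs0 : s ≠ 0 := by
    rintro h
    rw [h] at hs
    apply hv
    rw [← hs]
    simp
  refine ⟨s⁻¹ • v, ?_⟩
  simp only [map_smul, LinearMap.smul_apply, smul_eq_mul]
  rw [← hs]
  field_simp

lemma exists_good {F : Type v} [Field F] [Finite F] [CharP F 2] {V : Type u} [AddCommGroup V] [Module F V]
    [FiniteDimensional F V] (n : ℕ) (hV : finrank F V = n + 1)
    (B : LinearMap.BilinForm F V) (hS : B.IsSymm) (hB : B.Nondegenerate) (hna : ∃ v : V, B v v ≠ 0) :
    ∃ u, B u u = 1 ∧ (n = 0 ∨ ∃ x, B u x = 0 ∧ B x x ≠ 0) := by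
  have h2 : (2 : F) = 0 := CharTwo.two_eq_zero
  obtain ⟨v, hv⟩ := hna
  obtain ⟨u₀, hu₀⟩ := exists_unit B v hv
  have hrefl : B.IsRefl := hS.isRefl
  by_cases hn : n = 0
  · exact ⟨u₀, hu₀, Or.inl hn⟩
  have hsym : ∀ x y, B x y = B y x := fun x y => hS.eq x y
  let W := B.orthogonal (Submodule.span F {u₀})
  have hWmem : ∀ x, x ∈ W ↔ B u₀ x = 0 := by
    intro x
    constructor
    · intro h
      exact h u₀ (Submodule.mem_span_singleton_self _)
    · intro h n hn
      obtain ⟨c, rfl⟩ := Submodule.mem_span_singleton.1 hn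
      change B (c • u₀) x = 0
      simp [h]
  by_cases hc : ∃ w ∈ W, B w w ≠ 0
  · obtain ⟨w, hw, hww⟩ := hc
    exact ⟨u₀, hu₀, Or.inr ⟨w, (hWmem w).1 hw, hww⟩⟩
  push Not at hc
  have hu₀' : B u₀ u₀ ≠ 0 := by rw [hu₀]; exact one_ne_zero
  have hfr : finrank F W = n := by
    have h1 := LinearMap.BilinForm.finrank_orthogonal (B := B) hB (Submodule.span F {u₀})
    have hu₀ne : u₀ ≠ 0 := by
      rintro rfl
      simp at hu₀
    rw [finrank_span_singleton hu₀ne, hV] at h1
    simpa using h1
  have hWne : Nontrivial W := by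
    apply Module.nontrivial_of_finrank_pos (R := F)
    omega
  obtain ⟨⟨e, he⟩, hene⟩ := exists_ne (0 : W)
  have hnd := LinearMap.BilinForm.restrict_nondegenerate_orthogonal_spanSingleton B hB hrefl hu₀'
  -- find f in W with B e f ≠ 0
  have : ∃ f : W, B e f ≠ 0 := by
    by_contra hcon
    push Not at hcon
    apply hene
    exact hnd.1 ⟨e, he⟩ hcon
  obtain ⟨⟨f, hf⟩, hef⟩ := this
  change B e f ≠ 0 at hef
  let c := (B e f)⁻¹
  let f' := c • f
  have hf' : f' ∈ W := W.smul_mem _ hf
  have hef' : B e f' = 1 := by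
    simp only [f', map_smul, smul_eq_mul, c]
    field_simp
  have he0 := (hWmem e).1 he
  have hf0 := (hWmem f').1 hf'
  refine ⟨u₀ + e, ?_, Or.inr ⟨u₀ + f', ?_, ?_⟩⟩
  · simp only [map_add, LinearMap.add_apply]
    rw [hu₀, he0, hsym e u₀, he0, hc e he]
    ring
  · simp only [map_add, LinearMap.add_apply]
    rw [hu₀, hf0, hsym e u₀, he0, hef']
    linear_combination h2
  · simp only [map_add, LinearMap.add_apply]
    rw [hu₀, hf0, hsym f' u₀, hf0, hc f' hf']
    simp

theorem exists_orthonormal {F : Type v} [Field F] [Finite F] [CharP F 2] (n : ℕ) :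
    ∀ (V : Type u) [AddCommGroup V] [Module F V] [FiniteDimensional F V] (_ : finrank F V = n)
    (B : LinearMap.BilinForm F V) (_ : B.IsSymm) (_ : B.Nondegenerate) (_ : ∃ v : V, B v v ≠ 0),
    ∃ v : Fin n → V, ∀ i j, B (v i) (v j) = if i = j then 1 else 0 := by
  induction n with
  | zero =>
    intro V _ _ _ hV B _ _ hna
    obtain ⟨v, hv⟩ := hna
    have : Subsingleton V := Module.finrank_zero_iff.1 hV
    exact absurd (by rw [Subsingleton.elim v 0]; simp) hv
  | succ n ih =>
    intro V _ _ _ hV B hS hB hna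
    obtain ⟨u, hu, hn⟩ := exists_good n hV B hS hB hna
    have hsym : ∀ x y, B x y = B y x := fun x y => hS.eq x y
    have hu' : B u u ≠ 0 := by rw [hu]; exact one_ne_zero
    let W := B.orthogonal (Submodule.span F {u})
    have hWmem : ∀ x, x ∈ W ↔ B u x = 0 := by
      intro x
      constructor
      · intro h
        exact h u (Submodule.mem_span_singleton_self _)
      · intro h k hk
        obtain ⟨c, rfl⟩ := Submodule.mem_span_singleton.1 hk
        change B (c • u) x = 0
        simp [h]
    have hfr : finrank F W = n := by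
      have h1 := LinearMap.BilinForm.finrank_orthogonal (B := B) hB (Submodule.span F {u})
      have hune : u ≠ 0 := by
        rintro rfl
        simp at hu
      rw [finrank_span_singleton hune, hV] at h1
      simpa using h1
    rcases hn with rfl | ⟨x, hx0, hx⟩
    · refine ⟨fun _ => u, ?_⟩
      intro i j
      have : i = j := Fin.ext (by omega)
      simp [this, hu]
    · have hnd := LinearMap.BilinForm.restrict_nondegenerate_orthogonal_spanSingleton B hB hS.isRefl hu'
      obtain ⟨w, hw⟩ := ih W hfr (B.restrict W) (by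
        constructor
        intro a b
        exact hS.eq a b) hnd ⟨⟨x, (hWmem x).2 hx0⟩, hx⟩
      refine ⟨Fin.cons u (fun i => (w i : V)), ?_⟩
      intro i j
      refine Fin.cases ?_ (fun i => ?_) i <;> refine Fin.cases ?_ (fun j => ?_) j
      · simp [hu]
      · simp only [Fin.cons_zero, Fin.cons_succ]
        rw [(hWmem _).1 (w j).2]
        simp [(Fin.succ_ne_zero j).symm]
      · simp only [Fin.cons_zero, Fin.cons_succ]
        rw [hsym, (hWmem _).1 (w i).2]
        simp [Fin.succ_ne_zero i]
      · simp only [Fin.cons_succ]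
        have := hw i j
        simp only [Fin.succ_inj]
        exact this

theorem result {F V : Type*} [Field F] [Finite F] [CharP F 2] [AddCommGroup V] [Module F V] [FiniteDimensional F V] {n : ℕ} (hV : Module.finrank F V = n) (B : LinearMap.BilinForm F V) (hS : B.IsSymm) (hB : B.Nondegenerate) (hna : ∃ v : V, B v v ≠ 0) : ∃ b : Module.Basis (Fin n) F V, ∀ i j, B (b i) (b j) = if i = j then 1 else 0 := by
  obtain ⟨v, hv⟩ := exists_orthonormal n V hV B hS hB hna
  have hli : LinearIndependent F v := by
    rw [Fintype.linearIndependent_iff]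
    intro g hg j
    have := congrArg (fun z => B z (v j)) hg
    simp only [map_sum, map_smul, LinearMap.sum_apply, LinearMap.smul_apply, hv, map_zero, LinearMap.zero_apply, smul_eq_mul] at this
    simpa using this
  have hne : Nonempty (Fin n) := by
    obtain ⟨w, hw⟩ := hna
    have : Nontrivial V := by
      refine ⟨⟨w, 0, ?_⟩⟩
      rintro rfl
      simp at hw
    have h1 := Module.finrank_pos (R := F) (M := V)
    exact ⟨⟨0, by omega⟩⟩
  let b := basisOfLinearIndependentOfCardEqFinrank hli (by simp [hV])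
  refine ⟨b, ?_⟩
  intro i j
  have hb : ∀ i, b i = v i := fun i => by simp [b]
  rw [hb, hb, hv]

end Cfsg.Agent.S2622
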