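import Mathlib
import Cfsg.Statements.S2623
import Cfsg.Agent.Lib.H11.QF4

set_option autoImplicit false
open Cfsg

namespace Cfsg.Agent.S2623

open Cfsg.Agent.H11 Module QuadraticMap Matrix

/-- a basis from an orthogonal family -/
lemma exists_diag_basis {F : Type*} [Field F] [Fintype F] (h2 : (2 : F) ≠ 0) {k : ℕ} (Q : QuadraticForm F (Fin (k + 1) → F))
    (hQ : (polarBilin Q).Nondegenerate) :
    ∃ (b : Module.Basis (Fin k ⊕ Unit) F (Fin (k + 1) → F)) (z : Fin (k + 1) → F),
      b (Sum.inr ()) = z ∧ Q z ≠ 0 ∧ (∀ i, Q (b (Sum.inl i)) = 1) ∧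
      (∀ i j, i ≠ j → polar Q (b i) (b j) = 0) ∧
      ∃ d : F, d ≠ 0 ∧ (2 : F) ^ (k + 1) * Q z = d ^ 2 * (Matrix.of (fun i j : Fin (k + 1) => polar Q (Pi.single i 1) (Pi.single j 1))).det := by
  classical
  have hV : finrank F (Fin (k + 1) → F) = k + 1 := by simp
  obtain ⟨v, z, h1, h3, h4, h5⟩ := exists_orth_family h2 k _ Q hV hQ
  let g : Fin k ⊕ Unit → (Fin (k + 1) → F) := Sum.elim v (fun _ => z)
  have hpol : ∀ i j, i ≠ j → polar Q (g i) (g j) = 0 := by
    rintro (i | i) (j | j) hij
    · exact h3 i j (fun h => hij (by rw [h]))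
    · exact h4 i
    · simp only [g, Sum.elim_inl, Sum.elim_inr]
      rw [polar_comm]
      exact h4 j
    · exact absurd rfl hij
  have hdiag : ∀ i, polar Q (g i) (g i) ≠ 0 := by
    rintro (i | i)
    · simp only [g, Sum.elim_inl, polar_self, h1]
      simpa using h2
    · simp only [g, Sum.elim_inr, polar_self]
      simp [h2, h5]
  have hLI : LinearIndependent F g := by
    rw [Fintype.linearIndependent_iff]
    intro c hc i
    have h6 := congrArg (fun w => polarBilin Q w (g i)) hc
    simp only [map_sum, map_smul, LinearMap.sum_apply, LinearMap.smul_apply, map_zero, LinearMap.zero_apply,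
      polarBilin_apply_apply, smul_eq_mul] at h6
    rw [Finset.sum_eq_single i] at h6
    · exact (mul_eq_zero.1 h6).resolve_right (hdiag i)
    · intro j _ hj
      rw [hpol j i hj, mul_zero]
    · simp
  have hne : Nonempty (Fin k ⊕ Unit) := ⟨Sum.inr ()⟩
  let b := basisOfLinearIndependentOfCardEqFinrank hLI (by simp)
  have hb : ∀ i, b i = g i := fun i => by simp [b]
  refine ⟨b, z, by rw [hb]; rfl, h5, fun i => by rw [hb]; exact h1 i, fun i j hij => by rw [hb, hb]; exact hpol i j hij, ?_⟩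
  obtain ⟨d, hd, hdet⟩ := det_gram_basis Q b
  refine ⟨d, hd, ?_⟩
  rw [← hdet]
  have hdm : (Matrix.of (fun i j => polar Q (b i) (b j))) = Matrix.diagonal (Sum.elim (fun _ : Fin k => (2 : F)) (fun _ : Unit => 2 * Q z)) := by
    ext i j
    by_cases hij : i = j
    · subst hij
      rw [Matrix.diagonal_apply_eq]
      simp only [Matrix.of_apply, hb]
      rcases i with i | i
      · simp only [g, Sum.elim_inl, polar_self, h1]
        simp
      · simp only [g, Sum.elim_inr, polar_self]
        simp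
    · rw [Matrix.diagonal_apply_ne _ hij]
      simp only [Matrix.of_apply, hb]
      exact hpol i j hij
  rw [hdm, Matrix.det_diagonal, Fintype.prod_sum_type]
  simp
  ring

theorem result {F : Type*} [Field F] [Fintype F] (h2 : (2 : F) ≠ 0) {n : ℕ} (Q₁ Q₂ : QuadraticForm F (Fin n → F)) (h₁ : (QuadraticMap.polarBilin Q₁).Nondegenerate) (h₂ : (QuadraticMap.polarBilin Q₂).Nondegenerate) : (∃ g : (Fin n → F) ≃ₗ[F] (Fin n → F), ∀ v, Q₂ (g v) = Q₁ v) ↔ IsSquare ((Matrix.of (fun i j : Fin n => QuadraticMap.polar ⇑Q₁ (Pi.single i 1) (Pi.single j 1))).det * (Matrix.of (fun i j : Fin n => QuadraticMap.polar ⇑Q₂ (Pi.single i 1) (Pi.single j 1))).det) := by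
  classical
  constructor
  · rintro ⟨g, hg⟩
    -- the image of the standard basis
    let b := (Pi.basisFun F (Fin n)).map g
    obtain ⟨d, hd, hdet⟩ := det_gram_basis Q₂ b
    have h3 : (Matrix.of (fun i j => polar Q₂ (b i) (b j))) = Matrix.of (fun i j : Fin n => polar Q₁ (Pi.single i 1) (Pi.single j 1)) := by
      ext i j
      simp only [Matrix.of_apply, b, Module.Basis.map_apply, Pi.basisFun_apply]
      simp only [polar, ← map_add, hg]
    rw [h3] at hdet
    rw [hdet]
    exact ⟨d * (Matrix.of (fun i j : Fin n => polar Q₂ (Pi.single i 1) (Pi.single j 1))).det, by ring⟩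
  · rintro ⟨s, hs⟩
    rcases n with _ | k
    · refine ⟨LinearEquiv.refl _ _, fun v => ?_⟩
      have : v = 0 := Subsingleton.elim _ _
      subst this
      simp only [LinearEquiv.refl_apply]
      rw [QuadraticMap.map_zero, QuadraticMap.map_zero]
    obtain ⟨b₁, z₁, hz₁, hQz₁, hv₁, hp₁, d₁, hd₁, hdet₁⟩ := exists_diag_basis h2 Q₁ h₁
    obtain ⟨b₂, z₂, hz₂, hQz₂, hv₂, hp₂, d₂, hd₂, hdet₂⟩ := exists_diag_basis h2 Q₂ h₂
    -- a square root
    set G₁ := (Matrix.of (fun i j : Fin (k + 1) => polar Q₁ (Pi.single i 1) (Pi.single j 1))).det with hG₁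
    set G₂ := (Matrix.of (fun i j : Fin (k + 1) => polar Q₂ (Pi.single i 1) (Pi.single j 1))).det with hG₂
    have h2pow : (2 : F) ^ (k + 1) ≠ 0 := pow_ne_zero _ h2
    have hprod : Q₁ z₁ * Q₂ z₂ = (d₁ * d₂ * s / (2 : F) ^ (k + 1)) ^ 2 := by
      field_simp
      linear_combination (Q₂ z₂ * (2 : F) ^ (k + 1)) * hdet₁ + (d₁ ^ 2 * G₁) * hdet₂ + (d₁ ^ 2 * d₂ ^ 2) * hs
    set r := d₁ * d₂ * s / (2 : F) ^ (k + 1) with hr
    have hr0 : r ≠ 0 := by
      intro h0
      rw [h0] at hprod
      simp only [ne_eq, OfNat.ofNat_ne_zero, not_false_eq_true, zero_pow, mul_eq_zero, hQz₁, hQz₂, or_self] at hprod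
    let ρ := r / Q₁ z₁
    have hρ : ρ ≠ 0 := div_ne_zero hr0 hQz₁
    have hρ2 : Q₂ z₂ = ρ ^ 2 * Q₁ z₁ := by
      simp only [ρ]
      field_simp
      linear_combination hprod
    let G : Fin k ⊕ Unit → (Fin (k + 1) → F) := Sum.elim (fun i => b₂ (Sum.inl i)) (fun _ => ρ⁻¹ • z₂)
    let g : (Fin (k + 1) → F) →ₗ[F] (Fin (k + 1) → F) := b₁.constr F G
    have hg : ∀ i, g (b₁ i) = G i := fun i => by simp [g]
    have hval : ∀ i, Q₂ (G i) = Q₁ (b₁ i) := by
      rintro (i | i)
      · simp only [G, Sum.elim_inl, hv₁, hv₂]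
      · simp only [G, Sum.elim_inr, QuadraticMap.map_smul, hρ2]
        rw [hz₁]
        simp only [smul_eq_mul]
        field_simp
    have hGb : ∀ i, G i = (Sum.elim (fun _ => (1 : F)) (fun _ => ρ⁻¹) i) • b₂ i := by
      rintro (i | i)
      · simp [G]
      · simp [G, hz₂]
    have hpG : ∀ i j, i ≠ j → polar Q₂ (G i) (G j) = 0 := by
      intro i j hij
      rw [hGb, hGb, polar_smul_left, polar_smul_right, hp₂ i j hij]
      simp
    have hform : Q₂.comp g = Q₁ := by
      apply quadratic_ext_basis b₁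
      · intro i
        rw [QuadraticMap.comp_apply, hg]
        exact hval i
      · intro i j
        have h3 : polar (Q₂.comp g) (b₁ i) (b₁ j) = polar Q₂ (g (b₁ i)) (g (b₁ j)) := by
          simp only [polar, QuadraticMap.comp_apply, map_add]
        rw [h3, hg, hg]
        by_cases hij : i = j
        · subst hij
          rw [polar_self, polar_self, hval]
        · rw [hpG i j hij, hp₁ i j hij]
    have hv : ∀ v, Q₂ (g v) = Q₁ v := fun v => by
      have := congrArg (fun P : QuadraticForm F (Fin (k + 1) → F) => P v) hform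
      simpa using this
    have hinj : Function.Injective g := by
      rw [injective_iff_map_eq_zero]
      intro v hv0
      apply h₁.1 v
      intro w
      have h3 : polar Q₂ (g v) (g w) = polar Q₁ v w := by
        simp only [polar, ← map_add, hv]
      rw [hv0, polar_zero_left] at h3
      exact h3.symm
    exact ⟨LinearEquiv.ofInjectiveEndo g hinj, fun v => by simpa using hv v⟩

end Cfsg.Agent.S2623
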