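import Mathlib
import Cfsg.Statements.S2624
import Cfsg.Agent.Lib.H11.QF3
import Cfsg.Agent.S2616

set_option autoImplicit false
open Cfsg

namespace Cfsg.Agent.S2624

open Cfsg.Agent.H11 Module QuadraticMap

lemma similitude_of_basis {F V ι : Type*} [Field F] [AddCommGroup V] [Module F V] [FiniteDimensional F V] [Fintype ι]
    (b : Module.Basis ι F V) (Q : QuadraticForm F V) (hQ : (polarBilin Q).Nondegenerate) {c : F} (hc : c ≠ 0)
    (G : ι → V) (h1 : ∀ i, Q (G i) = c * Q (b i))
    (h2 : ∀ i j, polar Q (G i) (G j) = c * polar Q (b i) (b j)) :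
    ∃ g : V ≃ₗ[F] V, ∀ v, Q (g v) = c * Q v := by
  classical
  let g : V →ₗ[F] V := b.constr F G
  have hg : ∀ i, g (b i) = G i := fun i => by simp [g, Module.Basis.constr_basis]
  have hform : Q.comp g = c • Q := by
    apply quadratic_ext_basis b
    · intro i
      rw [QuadraticMap.comp_apply, hg, h1]
      simp
    · intro i j
      have h3 : polar (Q.comp g) (b i) (b j) = polar Q (g (b i)) (g (b j)) := by
        simp only [polar, QuadraticMap.comp_apply, map_add]
      have h4 : polar (c • Q) (b i) (b j) = c * polar Q (b i) (b j) := by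
        simp only [polar, QuadraticMap.smul_apply, smul_eq_mul]
        ring
      rw [h3, h4, hg, hg, h2]
  have hv : ∀ v, Q (g v) = c * Q v := fun v => by
    have := congrArg (fun P : QuadraticForm F V => P v) hform
    simpa using this
  have hinj := injective_of_similitude Q hQ g hc hv
  exact ⟨LinearEquiv.ofInjectiveEndo g hinj, fun v => by simpa using hv v⟩

theorem result {F : Type*} [Field F] [Fintype F] {n : ℕ} (hn : 2 ≤ n) (he : Even n) (Q : QuadraticForm F (Fin n → F)) (hQ : (QuadraticMap.polarBilin Q).Nondegenerate) (c : F) (hc : c ≠ 0) : ∃ g : (Fin n → F) ≃ₗ[F] (Fin n → F), ∀ v, Q (g v) = c * Q v := by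
  classical
  obtain ⟨m, hm⟩ := he
  have hm1 : 1 ≤ m := by omega
  have hV : finrank F (Fin n → F) = 2 * m := by
    rw [finrank_fintype_fun_eq_card, Fintype.card_fin]
    omega
  rcases Cfsg.Agent.S2616.result hm1 hV Q hQ with ⟨b, h1, h2, h3⟩ | ⟨b, ζ, hζ, h1, h2, h3, h4, hx, hxy, hy⟩
  · apply similitude_of_basis b Q hQ hc (Sum.elim (fun i => c • b (Sum.inl i)) (fun i => b (Sum.inr i)))
    · rintro (i | i)
      · simp [QuadraticMap.map_smul, (h1 i).1]
      · simp [(h1 i).2]
    · rintro (i | i) (j | j)
      · simp [polar_smul_left, polar_smul_right, (h3 i j).1]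
      · simp [polar_smul_left]
      · simp [polar_smul_right]
      · simp [(h3 i j).2]
  · obtain ⟨a, d, had⟩ := exists_binary_value Q hx hxy hy hζ c
    let x := b (Sum.inr 0)
    let y := b (Sum.inr 1)
    apply similitude_of_basis b Q hQ hc (Sum.elim (Sum.elim (fun i => c • b (Sum.inl (Sum.inl i))) (fun i => b (Sum.inl (Sum.inr i)))) ![a • x + d • y, (-(ζ * d)) • x + (a + d) • y])
    · have hx' : Q x = 1 := hx
      have hy' : Q y = ζ := hy
      have hxy' : polar Q x y = 1 := hxy
      rintro ((i | i) | i)
      · simp [QuadraticMap.map_smul, (h1 i).1]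
      · simp [(h1 i).2]
      · fin_cases i
        · change Q (a • x + d • y) = c * Q x
          rw [QuadraticMap.map_add Q, QuadraticMap.map_smul, QuadraticMap.map_smul, hx', hy', polar_smul_left,
            polar_smul_right, hxy']
          simp only [smul_eq_mul]
          linear_combination had
        · change Q ((-(ζ * d)) • x + (a + d) • y) = c * Q y
          rw [QuadraticMap.map_add Q, QuadraticMap.map_smul, QuadraticMap.map_smul, hx', hy', polar_smul_left,
            polar_smul_right, hxy']
          simp only [smul_eq_mul]
          linear_combination ζ * had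
    · have hx' : Q x = 1 := hx
      have hy' : Q y = ζ := hy
      have hxy' : polar Q x y = 1 := hxy
      have hyx' : polar Q y x = 1 := by rw [polar_comm]; exact hxy'
      have hxx : polar Q x x = 2 := by rw [polar_self, hx']; simp
      have hyy : polar Q y y = 2 * ζ := by rw [polar_self, hy']; simp
      have hex : ∀ i, polar Q (b (Sum.inl (Sum.inl i))) x = 0 := fun i => (h4 i 0).1
      have hey : ∀ i, polar Q (b (Sum.inl (Sum.inl i))) y = 0 := fun i => (h4 i 1).1
      have hfx : ∀ i, polar Q (b (Sum.inl (Sum.inr i))) x = 0 := fun i => (h4 i 0).2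
      have hfy : ∀ i, polar Q (b (Sum.inl (Sum.inr i))) y = 0 := fun i => (h4 i 1).2
      have hxe : ∀ i, polar Q x (b (Sum.inl (Sum.inl i))) = 0 := fun i => by rw [polar_comm]; exact hex i
      have hye : ∀ i, polar Q y (b (Sum.inl (Sum.inl i))) = 0 := fun i => by rw [polar_comm]; exact hey i
      have hxf : ∀ i, polar Q x (b (Sum.inl (Sum.inr i))) = 0 := fun i => by rw [polar_comm]; exact hfx i
      have hyf : ∀ i, polar Q y (b (Sum.inl (Sum.inr i))) = 0 := fun i => by rw [polar_comm]; exact hfy i
      rintro ((i | i) | i) ((j | j) | j)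
      · simp [polar_smul_left, polar_smul_right, (h3 i j).1]
      · simp [polar_smul_left]
      · fin_cases j
        · change polar Q (c • b (Sum.inl (Sum.inl i))) (a • x + d • y) = c * polar Q (b (Sum.inl (Sum.inl i))) x
          simp [polar_smul_left, polar_add_right, polar_smul_right, hex, hey]
        · change polar Q (c • b (Sum.inl (Sum.inl i))) ((-(ζ * d)) • x + (a + d) • y) = c * polar Q (b (Sum.inl (Sum.inl i))) y
          simp [polar_smul_left, polar_add_right, polar_smul_right, hex, hey]
      · simp [polar_smul_right]
      · simp [(h3 i j).2]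
      · fin_cases j
        · change polar Q (b (Sum.inl (Sum.inr i))) (a • x + d • y) = c * polar Q (b (Sum.inl (Sum.inr i))) x
          simp [polar_add_right, polar_smul_right, hfx, hfy]
        · change polar Q (b (Sum.inl (Sum.inr i))) ((-(ζ * d)) • x + (a + d) • y) = c * polar Q (b (Sum.inl (Sum.inr i))) y
          simp [polar_add_right, polar_smul_right, hfx, hfy]
      · fin_cases i
        · change polar Q (a • x + d • y) (c • b (Sum.inl (Sum.inl j))) = c * polar Q x (b (Sum.inl (Sum.inl j)))
          simp [polar_smul_right, polar_add_left, polar_smul_left, hxe, hye]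
        · change polar Q ((-(ζ * d)) • x + (a + d) • y) (c • b (Sum.inl (Sum.inl j))) = c * polar Q y (b (Sum.inl (Sum.inl j)))
          simp [polar_smul_right, polar_add_left, polar_smul_left, hxe, hye]
      · fin_cases i
        · change polar Q (a • x + d • y) (b (Sum.inl (Sum.inr j))) = c * polar Q x (b (Sum.inl (Sum.inr j)))
          simp [polar_add_left, polar_smul_left, hxf, hyf]
        · change polar Q ((-(ζ * d)) • x + (a + d) • y) (b (Sum.inl (Sum.inr j))) = c * polar Q y (b (Sum.inl (Sum.inr j)))
          simp [polar_add_left, polar_smul_left, hxf, hyf]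
      · fin_cases i <;> fin_cases j
        · change polar Q (a • x + d • y) (a • x + d • y) = c * polar Q x x
          simp only [polar_add_left, polar_add_right, polar_smul_left, polar_smul_right, hxx, hyy, hxy', hyx', smul_eq_mul]
          linear_combination 2 * had
        · change polar Q (a • x + d • y) ((-(ζ * d)) • x + (a + d) • y) = c * polar Q x y
          simp only [polar_add_left, polar_add_right, polar_smul_left, polar_smul_right, hxx, hyy, hxy', hyx', smul_eq_mul]
          linear_combination had
        · change polar Q ((-(ζ * d)) • x + (a + d) • y) (a • x + d • y) = c * polar Q y x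
          simp only [polar_add_left, polar_add_right, polar_smul_left, polar_smul_right, hxx, hyy, hxy', hyx', smul_eq_mul]
          linear_combination had
        · change polar Q ((-(ζ * d)) • x + (a + d) • y) ((-(ζ * d)) • x + (a + d) • y) = c * polar Q y y
          simp only [polar_add_left, polar_add_right, polar_smul_left, polar_smul_right, hxx, hyy, hxy', hyx', smul_eq_mul]
          linear_combination 2 * ζ * had

end Cfsg.Agent.S2624
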