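import Mathlib
import Cfsg.Statements.S2625

set_option autoImplicit false
open Cfsg

namespace Cfsg.Agent.S2625

theorem result {F : Type*} [Field F] [Fintype F] {n : ℕ} (hn : Odd n) (Q : QuadraticForm F (Fin n → F)) (hQ : (QuadraticMap.polarBilin Q).Nondegenerate) (g : (Fin n → F) ≃ₗ[F] (Fin n → F)) (c : F) (hg : ∀ v, Q (g v) = c * Q v) : IsSquare c := by
  classical
  set B : LinearMap.BilinForm F (Fin n → F) := QuadraticMap.polarBilin Q with hB
  have hcomp : LinearMap.BilinForm.comp B (g : (Fin n → F) →ₗ[F] (Fin n → F)) (g : (Fin n → F) →ₗ[F] (Fin n → F)) = c • B := by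
    refine LinearMap.ext₂ fun u v => ?_
    show QuadraticMap.polar Q (g u) (g v) = c * QuadraticMap.polar Q u v
    simp only [QuadraticMap.polar, ← map_add, hg]
    ring
  have hdet : (LinearMap.BilinForm.toMatrix' B).det ≠ 0 := by
    have := (LinearMap.BilinForm.nondegenerate_iff_det_ne_zero (Pi.basisFun F (Fin n))).1 hQ
    simpa [LinearMap.BilinForm.toMatrix_basisFun] using this
  have h1 := congrArg LinearMap.BilinForm.toMatrix' hcomp
  rw [LinearMap.BilinForm.toMatrix'_comp, map_smul] at h1
  have h2 := congrArg Matrix.det h1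
  rw [Matrix.det_mul, Matrix.det_mul, Matrix.det_transpose, Matrix.det_smul, Fintype.card_fin] at h2
  set d := (LinearMap.toMatrix' (g : (Fin n → F) →ₗ[F] (Fin n → F))).det with hd
  have h3 : d * d = c ^ n := by
    have : (d * d - c ^ n) * (LinearMap.BilinForm.toMatrix' B).det = 0 := by
      linear_combination h2
    rcases mul_eq_zero.1 this with h | h
    · exact sub_eq_zero.1 h
    · exact absurd h hdet
  by_cases hc : c = 0
  · subst hc; exact IsSquare.zero
  obtain ⟨k, rfl⟩ := hn
  refine ⟨d / c ^ k, ?_⟩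
  have hck : c ^ k ≠ 0 := pow_ne_zero _ hc
  field_simp
  linear_combination (-1 : F) * h3

end Cfsg.Agent.S2625
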