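import Cfsg.Statements.S2627
import Cfsg.Agent.Lib.H11.OSum

set_option autoImplicit false
open Cfsg

namespace Cfsg.Agent.S2627

/-- For an orthogonal direct sum Q = Q₁ ⊕ Q₂ of quadratic forms with non-degenerate polar forms over a finite field, an isometry g₁ of Q₁ extended by the identity on the second summand lies in Ω(Q) (the commutator subgroup of the orthogonal group of Q) if and only if g₁ lies in Ω(Q₁). (Excluded: the field of two elements when the first summand or the whole space has dimension 4, where the commutator subgroup of O⁺₄(2) is smaller than the group usually called Ω.) -/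
theorem result {F : Type*} [Field F] [Fintype F] {k l : ℕ} (h : Fintype.card F ≠ 2 ∨ (k ≠ 4 ∧ k + l ≠ 4)) (Q₁ : QuadraticForm F (Fin k → F)) (Q₂ : QuadraticForm F (Fin l → F)) (h₁ : (QuadraticMap.polarBilin Q₁).Nondegenerate) (h₂ : (QuadraticMap.polarBilin Q₂).Nondegenerate) (g₁ : ↥(Cfsg.isometryGroup F ⇑Q₁)) : (∃ g : ↥(Cfsg.isometryGroup F (fun v : Fin k ⊕ Fin l → F => Q₁ (v ∘ Sum.inl) + Q₂ (v ∘ Sum.inr))), g ∈ Cfsg.Omega F (fun v : Fin k ⊕ Fin l → F => Q₁ (v ∘ Sum.inl) + Q₂ (v ∘ Sum.inr)) ∧ ((g : Matrix.GeneralLinearGroup (Fin k ⊕ Fin l) F) : Matrix (Fin k ⊕ Fin l) (Fin k ⊕ Fin l) F) = Matrix.fromBlocks ((g₁ : Matrix.GeneralLinearGroup (Fin k) F) : Matrix (Fin k) (Fin k) F) 0 0 1) ↔ g₁ ∈ Cfsg.Omega F ⇑Q₁ := by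
  classical
  constructor
  · rintro ⟨g, hg, e⟩
    by_cases h2 : (2 : F) = 0
    · exact Cfsg.Agent.H11.OSum.omega_of_sum_even (Q₂ := Q₂) h2 h h₁ h₂ g₁ g hg e
    · by_cases hk : 2 ≤ k
      · exact Cfsg.Agent.H11.OSum.omega_of_sum_odd (Q₂ := Q₂) h2 hk h₁ h₂ g₁ g hg e
      · have hs : Subsingleton (Fin k) := Fin.subsingleton_iff_le_one.2 (by omega)
        have hdet : (Matrix.GeneralLinearGroup.det ((g : Matrix.GeneralLinearGroup (Fin k ⊕ Fin l) F))) = 1 := by
          have h5 : (commutator ↥(Cfsg.isometryGroup F (fun v : Fin k ⊕ Fin l → F => Q₁ (v ∘ Sum.inl) + Q₂ (v ∘ Sum.inr)))) ≤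
              ((Matrix.GeneralLinearGroup.det (n := Fin k ⊕ Fin l) (R := F)).comp (Subgroup.subtype _)).ker :=
            Abelianization.commutator_subset_ker _
          exact h5 hg
        have hdet2 : ((g : Matrix.GeneralLinearGroup (Fin k ⊕ Fin l) F) : Matrix (Fin k ⊕ Fin l) (Fin k ⊕ Fin l) F).det = 1 := by
          have := congrArg (fun u : Fˣ => (u : F)) hdet
          simpa using this
        rw [e, Matrix.det_fromBlocks_zero₂₁, Matrix.det_one, mul_one] at hdet2
        have hg1 : g₁ = 1 := by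
          apply Subtype.ext
          apply Units.ext
          ext i j
          have hij : i = j := Subsingleton.elim i j
          subst hij
          rw [Matrix.det_eq_elem_of_subsingleton _ i] at hdet2
          simpa using hdet2
        rw [hg1]
        exact Subgroup.one_mem _
  · intro hg
    refine ⟨Cfsg.Agent.H11.blockHom (⇑Q₁) (⇑Q₂) (g₁, 1), Cfsg.Agent.H11.blockHom_mem_omega _ _ _ _ hg (Subgroup.one_mem _), ?_⟩
    rw [Cfsg.Agent.H11.blockHom_apply_coe]
    simp

end Cfsg.Agent.S2627
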