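import Mathlib
import Cfsg.Agent.Lib.H01.SpCen4
import Cfsg.Statements.S2637
-- import your own Cfsg.Agent.* helpers here

set_option autoImplicit false
open Cfsg

namespace Cfsg.Agent.S2637


/-- Centraliser of a fixed-point-free element of order three in Sp_2m(q) when q ≡ 2 (mod 3): if x ∈ Sp_2m(F) (|F| = q, m ≥ 1) satisfies x³ = 1 and x − 1 is invertible, then its centraliser in Sp_2m(F) has the order of the unitary group GU_m(q), namely q^(m(m−1)/2) Π_(i=1)^m (q^i − (−1)^i) (x lies in the centre of a subgroup GU_m(q) of Sp_2m(q)). -/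
theorem result {F : Type*} [Field F] [Fintype F] {q : ℕ} (hF : Fintype.card F = q) (hq : q % 3 = 2) {m : ℕ} (hm : 1 ≤ m) (x : Matrix.symplecticGroup (Fin m) F) (hx3 : x ^ 3 = 1) (hfpf : IsUnit ((x : Matrix (Fin m ⊕ Fin m) (Fin m ⊕ Fin m) F) - 1)) : (Nat.card ↥(Subgroup.centralizer ({x} : Set ↥(Matrix.symplecticGroup (Fin m) F))) : ℤ) = (q : ℤ) ^ (m * (m - 1) / 2) * ∏ i : Fin m, ((q : ℤ) ^ ((i : ℕ) + 1) - (-1) ^ ((i : ℕ) + 1)) := by

  classical
  open Cfsg.Agent.H01.SpCen in
  haveI : Fact (E3.Aniso F) := ⟨aniso_of_mod hF hq⟩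
  set X := (x : Matrix (Fin m ⊕ Fin m) (Fin m ⊕ Fin m) F) with hX
  have h1 : x * x * x = 1 := by
    rw [← hx3, pow_succ, pow_two]
  have h2 : X * X * X = 1 := congrArg Subtype.val h1
  have hx2 : X * X + X + 1 = 0 := by
    have h3 : (X - 1) * (X * X + X + 1) = (X - 1) * 0 := by
      rw [mul_zero]
      have : (X - 1) * (X * X + X + 1) = X * X * X - 1 := by noncomm_ring
      rw [this, h2, sub_self]
    exact hfpf.mul_left_cancel h3
  have h4 := Cfsg.Agent.H01.SpCen.card_centralizer hF hq x hx2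
  rw [h4]
  have hq1 : 1 ≤ q := by omega
  push_cast
  congr 1
  rw [Fin.prod_univ_eq_prod_range (fun i => ((q : ℤ) ^ (i + 1) - (-1) ^ (i + 1))) m]
  refine Finset.prod_congr rfl fun i _ => ?_
  by_cases he : Even i
  · rw [if_pos he]
    have : Odd (i + 1) := he.add_one
    rw [this.neg_one_pow]
    push_cast
    ring
  · rw [if_neg he]
    have : Even (i + 1) := (Nat.not_even_iff_odd.1 he).add_one
    rw [this.neg_one_pow]
    have h5 : 1 ≤ q ^ (i + 1) := Nat.one_le_pow _ _ (by omega)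
    push_cast [Nat.cast_sub h5]
    rfl


end Cfsg.Agent.S2637
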