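import Cfsg.Statements.S2644
import Cfsg.Agent.Lib.H12.UTrans
-- import your own Cfsg.Agent.* helpers here

set_option autoImplicit false
open Cfsg

namespace Cfsg.Agent.S2644

open scoped Matrix MatrixGroups


/-- In the special unitary group SU_n(q) with n ≥ 3 (isometries of Σ u_i v_i^q of determinant one over the field with q² elements), any two transvections (elements t with t − 1 of rank one and square zero) are conjugate. -/
theorem result {K : Type*} [Field K] [Fintype K] {q n : ℕ} (hK : Fintype.card K = q ^ 2) (hn : 3 ≤ n) (s t : ↥(Cfsg.SU n K q)) (hs : Cfsg.IsTransvection (((s : GL (Fin n) K) : Matrix (Fin n) (Fin n) K))) (ht : Cfsg.IsTransvection (((t : GL (Fin n) K) : Matrix (Fin n) (Fin n) K))) : IsConj s t := by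
  classical
  have hq2 := Lead.two_le_q hK
  have hs' : ∀ x y : Fin n → K, Cfsg.hermForm n K q (((s : GL (Fin n) K) : Matrix (Fin n) (Fin n) K) *ᵥ x)
      (((s : GL (Fin n) K) : Matrix (Fin n) (Fin n) K) *ᵥ y) = Cfsg.hermForm n K q x y := fun x y => s.2 x y
  have ht' : ∀ x y : Fin n → K, Cfsg.hermForm n K q (((t : GL (Fin n) K) : Matrix (Fin n) (Fin n) K) *ᵥ x)
      (((t : GL (Fin n) K) : Matrix (Fin n) (Fin n) K) *ᵥ y) = Cfsg.hermForm n K q x y := fun x y => t.2 x y
  obtain ⟨u, a, hu, hiso, ha0, hatr, hsu⟩ := H12.UTrans.transvection_normal_form hK _ hs' hs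
  obtain ⟨u', a', hu', hiso', ha'0, hatr', htu⟩ := H12.UTrans.transvection_normal_form hK _ ht' ht
  -- rescale
  have hfix : (a' / a) ^ q = a' / a := by
    have h1 : a ^ q = -a := by linear_combination hatr
    have h2 : a' ^ q = -a' := by linear_combination hatr'
    rw [div_pow, h1, h2, neg_div_neg_eq]
  obtain ⟨c, hc0, hc⟩ := Lead.exists_norm_eq hK (a' / a) (div_ne_zero ha'0 ha0) hfix
  have hcu : c • u' ≠ 0 := smul_ne_zero hc0 hu'
  have hcuiso : Cfsg.hermForm n K q (c • u') (c • u') = 0 := by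
    rw [Lead.herm_smul_left, Lead.herm_smul_right hK, hiso']
    ring
  obtain ⟨g, hg⟩ := H12.UTrans.exists_SU_map hK hn hu hcu hiso hcuiso
  rw [isConj_iff]
  refine ⟨g, ?_⟩
  rw [mul_inv_eq_iff_eq_mul]
  apply Subtype.ext
  apply Subtype.ext
  change ((g : Matrix.SpecialLinearGroup (Fin n) K) : Matrix (Fin n) (Fin n) K) * ((s : Matrix.SpecialLinearGroup (Fin n) K) : Matrix (Fin n) (Fin n) K)
    = ((t : Matrix.SpecialLinearGroup (Fin n) K) : Matrix (Fin n) (Fin n) K) * ((g : Matrix.SpecialLinearGroup (Fin n) K) : Matrix (Fin n) (Fin n) K)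
  set G := ((g : Matrix.SpecialLinearGroup (Fin n) K) : Matrix (Fin n) (Fin n) K) with hG
  have hS : ((s : Matrix.SpecialLinearGroup (Fin n) K) : Matrix (Fin n) (Fin n) K) = Lead.uTmat q u a := hsu
  have hT : ((t : Matrix.SpecialLinearGroup (Fin n) K) : Matrix (Fin n) (Fin n) K) = Lead.uTmat q u' a' := htu
  rw [hS, hT]
  apply Matrix.ext_of_mulVec_single
  intro i
  rw [← Matrix.mulVec_mulVec, ← Matrix.mulVec_mulVec, Lead.uTmat_mulVec, Lead.uTmat_mulVec,
    Matrix.mulVec_add, Matrix.mulVec_smul, hg]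
  congr 1
  have hpres : Cfsg.hermForm n K q (G *ᵥ Pi.single i 1) (G *ᵥ u) = Cfsg.hermForm n K q (Pi.single i 1) u := g.2 _ _
  rw [hg, Lead.herm_smul_right hK] at hpres
  rw [← hpres, smul_smul]
  have h3 : a' = a * (c ^ q * c) := by
    rw [← pow_succ, hc]
    field_simp
  rw [h3]
  ext k
  simp only [Pi.smul_apply, smul_eq_mul]
  ring

end Cfsg.Agent.S2644
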