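import Cfsg.Statements.S2666
-- import your own Cfsg.Agent.* helpers here

set_option autoImplicit false
open Cfsg

namespace Cfsg.Agent.S2666

theorem pow_fix {X : Type*} [Group X] (σ : MulAut X) (e : ℕ) (h : X) (hh : σ h = h) : (σ ^ e) h = h := by
  induction e with
  | zero => simp
  | succ n ih => rw [pow_succ, MulAut.mul_apply, hh, ih]

theorem tele {X : Type*} [Group X] (σ : MulAut X) (a : X) (d : ℕ) :
    ((List.range d).map (fun i => (σ ^ i) (a * (σ a)⁻¹))).prod = a * ((σ ^ d) a)⁻¹ := by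
  induction d with
  | zero => simp
  | succ n ih =>
    rw [List.range_succ, List.map_append, List.prod_append, ih]
    simp only [List.map_cons, List.map_nil, List.prod_cons, List.prod_nil, mul_one, map_mul, map_inv]
    rw [pow_succ]
    simp only [MulAut.mul_apply]
    group


/-- Shintani descent, in an abstract form. Let `σ` be an automorphism of a group `X` such that the maps `a ↦ a·σ(a)⁻¹` and `a ↦ a·σᵉ(a)⁻¹` are surjective on `X` (the Lang–Steinberg property, which holds when `X` is a connected algebraic group and `σ` a Steinberg endomorphism), where `e ≥ 1`. Write `G` for the subgroup of fixed points of `σᵉ` and `H` for the subgroup of fixed points of `σ`. The `G`-conjugacy classes in the coset `G σ` of the semidirect product of `G` by `σ` correspond to the orbits of `G` on itself under twisted conjugation `g ↦ k g σ(k)⁻¹`, and the `e`-th power of `g σ` has `G`-part the norm `g σ(g) ⋯ σ^(e-1)(g)`. For `g` in `G` and any `a` with `g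 = a σ(a)⁻¹`, put `x = σᵉ(a)⁻¹ a`. Then: (1) `x` lies in `H`, and `a⁻¹ · (g σ(g) ⋯ σ^(e-1)(g)) · a = x`; (2) for `g, g'` in `G` with such elements `a, b` and `x, x'`, the elements `g, g'` are twisted-conjugate under `G` if and only if `x, x'` are conjugate in `H`; (3) every element of `H` arises as such an `x`. So `g ↦ x` induces a well-defined bijection from the twisted `G`-classes of `G` onto the conjugacy classes of `H` (the Shintani map). -/
theorem result {X : Type*} [Group X] (σ : MulAut X) (e : ℕ) (he : 1 ≤ e)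
    (hL : ∀ g : X, ∃ a : X, g = a * (σ a)⁻¹) (hLe : ∀ g : X, ∃ a : X, g = a * ((σ ^ e) a)⁻¹) :
    (∀ g ∈ (MulEquiv.toMonoidHom (σ ^ e)).eqLocus (MonoidHom.id X), ∀ a : X, g = a * (σ a)⁻¹ →
        ((σ ^ e) a)⁻¹ * a ∈ (MulEquiv.toMonoidHom σ).eqLocus (MonoidHom.id X) ∧
          a⁻¹ * ((List.range e).map (fun i => (σ ^ i) g)).prod * a = ((σ ^ e) a)⁻¹ * a) ∧
    (∀ g ∈ (MulEquiv.toMonoidHom (σ ^ e)).eqLocus (MonoidHom.id X), ∀ g' ∈ (MulEquiv.toMonoidHom (σ ^ e)).eqLocus (MonoidHom.id X), ∀ a b : X,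
        g = a * (σ a)⁻¹ → g' = b * (σ b)⁻¹ →
          ((∃ k ∈ (MulEquiv.toMonoidHom (σ ^ e)).eqLocus (MonoidHom.id X), g' = k * g * (σ k)⁻¹) ↔
            (∃ h ∈ (MulEquiv.toMonoidHom σ).eqLocus (MonoidHom.id X), ((σ ^ e) b)⁻¹ * b = h * (((σ ^ e) a)⁻¹ * a) * h⁻¹))) ∧
    (∀ x ∈ (MulEquiv.toMonoidHom σ).eqLocus (MonoidHom.id X), ∃ g ∈ (MulEquiv.toMonoidHom (σ ^ e)).eqLocus (MonoidHom.id X), ∃ a : X,
        g = a * (σ a)⁻¹ ∧ ((σ ^ e) a)⁻¹ * a = x) := by
  have key : ∀ y : X, y ∈ (MulEquiv.toMonoidHom σ).eqLocus (MonoidHom.id X) ↔ σ y = y := fun y => Iff.rfl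
  have keye : ∀ y : X, y ∈ (MulEquiv.toMonoidHom (σ ^ e)).eqLocus (MonoidHom.id X) ↔ (σ ^ e) y = y := fun y => Iff.rfl
  have comm : ∀ y : X, (σ ^ e) (σ y) = σ ((σ ^ e) y) := by
    intro y
    rw [← MulAut.mul_apply, ← MulAut.mul_apply, ← pow_succ, pow_succ']
  refine ⟨?_, ?_, ?_⟩
  · intro g hg a ha
    rw [keye] at hg
    rw [key]
    subst ha
    constructor
    · simp only [map_mul, map_inv] at hg ⊢
      rw [comm] at hg
      have h1 : (σ ^ e) a * (σ ((σ ^ e) a))⁻¹ = a * (σ a)⁻¹ := hg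
      calc (σ ((σ ^ e) a))⁻¹ * σ a = ((σ ^ e) a)⁻¹ * ((σ ^ e) a * (σ ((σ ^ e) a))⁻¹) * σ a := by group
        _ = ((σ ^ e) a)⁻¹ * a := by rw [h1]; group
    · rw [tele]
      group
  · intro g hg g' hg' a b ha hb
    rw [keye] at hg hg'
    constructor
    · rintro ⟨k, hk, hk2⟩
      rw [keye] at hk
      refine ⟨b⁻¹ * k * a, ?_, ?_⟩
      · rw [key]
        simp only [map_mul, map_inv]
        have h1 : b * (σ b)⁻¹ = k * (a * (σ a)⁻¹) * (σ k)⁻¹ := by rw [← hb, ← ha, hk2]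
        have h2 : (σ b)⁻¹ = b⁻¹ * (k * (a * (σ a)⁻¹) * (σ k)⁻¹) := by rw [← h1]; group
        rw [h2]; group
      · -- σ^e-invariance of h
        have hσh : σ (b⁻¹ * k * a) = b⁻¹ * k * a := by
          simp only [map_mul, map_inv]
          have h1 : b * (σ b)⁻¹ = k * (a * (σ a)⁻¹) * (σ k)⁻¹ := by rw [← hb, ← ha, hk2]
          have h2 : (σ b)⁻¹ = b⁻¹ * (k * (a * (σ a)⁻¹) * (σ k)⁻¹) := by rw [← h1]; group
          rw [h2]; group
        have h5 := pow_fix σ e _ hσh
        simp only [map_mul, map_inv] at h5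
        rw [hk] at h5
        have h6 : ((σ ^ e) b)⁻¹ = b⁻¹ * k * a * ((σ ^ e) a)⁻¹ * k⁻¹ := by
          calc ((σ ^ e) b)⁻¹ = ((σ ^ e) b)⁻¹ * k * (σ ^ e) a * ((σ ^ e) a)⁻¹ * k⁻¹ := by group
            _ = _ := by rw [h5]
        rw [h6]
        group
    · rintro ⟨h, hh, hx⟩
      rw [key] at hh
      refine ⟨b * h * a⁻¹, ?_, ?_⟩
      · rw [keye]
        simp only [map_mul, map_inv]
        rw [pow_fix σ e h hh]
        have h1 : ((σ ^ e) b) = b * h * a⁻¹ * (σ ^ e) a * h⁻¹ := by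
          have h2 : ((σ ^ e) b)⁻¹ = h * (((σ ^ e) a)⁻¹ * a) * h⁻¹ * b⁻¹ := by
            rw [← hx]; group
          calc (σ ^ e) b = (((σ ^ e) b)⁻¹)⁻¹ := by group
            _ = _ := by rw [h2]; group
        rw [h1]; group
      · rw [hb, ha]
        simp only [map_mul, map_inv, hh]
        group
  · intro x hx
    rw [key] at hx
    obtain ⟨c, hc⟩ := hLe x⁻¹
    refine ⟨c⁻¹ * (σ c⁻¹)⁻¹, ?_, c⁻¹, rfl, ?_⟩
    · rw [keye]
      have h1 : (σ ^ e) c = x * c := by
        have : x = (σ ^ e) c * c⁻¹ := by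
          rw [← inv_inj, hc]; group
        rw [this]; group
      simp only [map_mul, map_inv, comm, h1, hx]
      group
    · have h1 : x = (σ ^ e) c * c⁻¹ := by
        rw [← inv_inj, hc]; group
      simp only [map_inv]
      rw [h1]; group

end Cfsg.Agent.S2666
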