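import Cfsg.Statements.S2668
-- import your own Cfsg.Agent.* helpers here

set_option autoImplicit false
open Cfsg

namespace Cfsg.Agent.S2668

theorem pow_fix {X : Type*} [Group X] (σ : MulAut X) (e : ℕ) (h : X) (hh : σ h = h) : (σ ^ e) h = h := by
  induction e with
  | zero => simp
  | succ n ih => rw [pow_succ, MulAut.mul_apply, hh, ih]

theorem tele {X : Type*} [Group X] (σ : MulAut X) (a : X) (d : ℕ) :
    ((List.range d).map (fun i => (σ ^ i) (a * (σ a)⁻¹))).prod = a * ((σ ^ d) a)⁻¹ := by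
  induction d with
  | zero => simp
  | succ n ih =>
    rw [List.range_succ, List.map_append, List.prod_append, ih]
    simp only [List.map_cons, List.map_nil, List.prod_cons, List.prod_nil, mul_one, map_mul, map_inv]
    rw [pow_succ]
    simp only [MulAut.mul_apply]
    group

theorem pow_tele {X : Type*} [Group X] (τ : MulAut X) (a x : X) (hx : (τ a)⁻¹ * a = x) (hτ : τ x = x) (d : ℕ) :
    ((τ ^ d) a)⁻¹ * a = x ^ d := by
  induction d with
  | zero => simp
  | succ n ih =>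
    have h1 : ((τ ^ (n+1)) a)⁻¹ * a = (τ ^ n) ((τ a)⁻¹ * a) * (((τ ^ n) a)⁻¹ * a) := by
      rw [pow_succ]
      simp only [MulAut.mul_apply, map_mul, map_inv]
      group
    rw [h1, hx, ih, pow_fix τ n x hτ, pow_succ']


/-- Shintani descent and powers (abstract form). Let `σ` be an automorphism of a group `X`, `e ≥ 1` and `d ≥ 1`, let `g` be fixed by `σᵉ` and let `a` satisfy `g = a σ(a)⁻¹`, so that the Shintani map of `(X, σ, e)` sends the class of `g σ` to the class of `x = σᵉ(a)⁻¹ a`. Put `h = g σ(g) ⋯ σ^(d-1)(g)`, the part in `X` of the `d`-th power `(g σ)^d = h σ^d`. Then `h = a σ^d(a)⁻¹` (so `a` also serves for `h` with respect to `σ^d`), `h` is fixed by `(σ^d)ᵉ`, and `(σ^d)ᵉ(a)⁻¹ a = x^d`: the Shintani map of `(X, σ^d, e)` sends the class of `(g σ)^d` to the class of `x^d`. (When `d` divides `e`, the Shintani map of `(X, σ^d, e/d)` sends it to the class of `x` itself, since `(σ^d)^(e/d) = σᵉ`.) -/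
theorem result {X : Type*} [Group X] (σ : MulAut X) (e d : ℕ) (he : 1 ≤ e) (hd : 1 ≤ d)
    (g : X) (hg : g ∈ (MulEquiv.toMonoidHom (σ ^ e)).eqLocus (MonoidHom.id X)) (a : X) (ha : g = a * (σ a)⁻¹) :
    ((List.range d).map (fun i => (σ ^ i) g)).prod = a * ((σ ^ d) a)⁻¹ ∧
      ((List.range d).map (fun i => (σ ^ i) g)).prod ∈ (MulEquiv.toMonoidHom ((σ ^ d) ^ e)).eqLocus (MonoidHom.id X) ∧
      (((σ ^ d) ^ e) a)⁻¹ * a = (((σ ^ e) a)⁻¹ * a) ^ d := by
  have key : ∀ y : X, y ∈ (MulEquiv.toMonoidHom σ).eqLocus (MonoidHom.id X) ↔ σ y = y := fun y => Iff.rfl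
  have keye : ∀ y : X, y ∈ (MulEquiv.toMonoidHom (σ ^ e)).eqLocus (MonoidHom.id X) ↔ (σ ^ e) y = y := fun y => Iff.rfl
  have keyd : ∀ y : X, y ∈ (MulEquiv.toMonoidHom ((σ ^ d) ^ e)).eqLocus (MonoidHom.id X) ↔ ((σ ^ d) ^ e) y = y := fun y => Iff.rfl
  have comm : ∀ y : X, (σ ^ e) (σ y) = σ ((σ ^ e) y) := by
    intro y
    rw [← MulAut.mul_apply, ← MulAut.mul_apply, ← pow_succ, pow_succ']
  rw [keye] at hg
  have hswap : (σ ^ d) ^ e = (σ ^ e) ^ d := by
    rw [← pow_mul, ← pow_mul, mul_comm]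
  have hprod : ((List.range d).map (fun i => (σ ^ i) g)).prod = a * ((σ ^ d) a)⁻¹ := by
    subst ha; exact tele σ a d
  refine ⟨hprod, ?_, ?_⟩
  · rw [keyd, hswap]
    apply pow_fix
    rw [map_list_prod]
    simp only [List.map_map]
    congr 1
    apply List.map_congr_left
    intro i _
    simp only [Function.comp]
    rw [← MulAut.mul_apply, ← pow_add, add_comm, pow_add, MulAut.mul_apply, hg]
  · rw [hswap]
    apply pow_tele _ _ _ rfl
    subst ha
    simp only [map_mul, map_inv] at hg ⊢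
    rw [comm] at hg
    have h1 : (σ ^ e) a * (σ ((σ ^ e) a))⁻¹ = a * (σ a)⁻¹ := hg
    -- τ x = x where x = τ(a)⁻¹ a:  it suffices that σ x = x
    have hσ : σ (((σ ^ e) a)⁻¹ * a) = ((σ ^ e) a)⁻¹ * a := by
      simp only [map_mul, map_inv]
      calc (σ ((σ ^ e) a))⁻¹ * σ a = ((σ ^ e) a)⁻¹ * ((σ ^ e) a * (σ ((σ ^ e) a))⁻¹) * σ a := by group
        _ = ((σ ^ e) a)⁻¹ * a := by rw [h1]; group
    have := pow_fix σ e _ hσ
    simpa only [map_mul, map_inv] using this

end Cfsg.Agent.S2668
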