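import Cfsg.Statements.S2669
-- import your own Cfsg.Agent.* helpers here

set_option autoImplicit false
open Cfsg

namespace Cfsg.Agent.S2669

theorem pow_fix {X : Type*} [Group X] (σ : MulAut X) (e : ℕ) (h : X) (hh : σ h = h) : (σ ^ e) h = h := by
  induction e with
  | zero => simp
  | succ n ih => rw [pow_succ, MulAut.mul_apply, hh, ih]

theorem card_of_fibers {T A Z : Type*} (f : T → A) (hf : ∀ a, Nonempty ({t // f t = a} ≃ Z)) :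
    Nat.card T = Nat.card A * Nat.card Z := by
  classical
  have e1 : T ≃ Σ a : A, {t // f t = a} := (Equiv.sigmaFiberEquiv f).symm
  have e2 : (Σ a : A, {t // f t = a}) ≃ A × Z :=
    (Equiv.sigmaCongrRight fun a => (hf a).some).trans (Equiv.sigmaEquivProd A Z)
  rw [Nat.card_congr (e1.trans e2), Nat.card_prod]


/-- Shintani descent preserves numbers of fixed points on coset spaces (abstract form). Let `σ` be an automorphism of a group `X` and `e ≥ 1`; write `G` for the fixed points of `σᵉ` and `H` for the fixed points of `σ`, and assume `G` is finite. Let `Y` be a `σ`-stable subgroup of `X` on which the maps `a ↦ a σ(a)⁻¹` and `a ↦ a σᵉ(a)⁻¹` are surjective (as for a closed connected `σ`-stable subgroup of an algebraic group). Let `g ∈ G`, let `a ∈ X` satisfy `g = a σ(a)⁻¹` and put `x = σᵉ(a)⁻¹ a` (the Shintani image, an element of `H`). The element `g σ` of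 the semidirect product acts on the cosets of `Y ∩ G` in `G` by `k (Y ∩ G) ↦ g σ(k) (Y ∩ G)`, fixing that coset exactly when `k⁻¹ g σ(k) ∈ Y`; and `x` fixes the coset `h (Y ∩ H)` of `H` exactly when `h⁻¹ x h ∈ Y`. Then the two numbers of fixed cosets agree; in cross-multiplied form, `#{k ∈ G : k⁻¹ g σ(k) ∈ Y} · |Y ∩ H| = #{h ∈ H : h⁻¹ x h ∈ Y} · |Y ∩ G|`. -/
theorem result {X : Type*} [Group X] (σ : MulAut X) (e : ℕ) (he : 1 ≤ e)
    [Finite ↥((MulEquiv.toMonoidHom (σ ^ e)).eqLocus (MonoidHom.id X))]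
    (Y : Subgroup X) (hY : ∀ y : X, y ∈ Y ↔ σ y ∈ Y)
    (hYL : ∀ y ∈ Y, ∃ a ∈ Y, y = a * (σ a)⁻¹) (hYLe : ∀ y ∈ Y, ∃ a ∈ Y, y = a * ((σ ^ e) a)⁻¹)
    (g : X) (hg : g ∈ (MulEquiv.toMonoidHom (σ ^ e)).eqLocus (MonoidHom.id X)) (a : X) (ha : g = a * (σ a)⁻¹) :
    Nat.card {k : ↥((MulEquiv.toMonoidHom (σ ^ e)).eqLocus (MonoidHom.id X)) // (k : X)⁻¹ * g * σ k ∈ Y} *
        Nat.card ↥(Y ⊓ (MulEquiv.toMonoidHom σ).eqLocus (MonoidHom.id X)) =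
      Nat.card {h : ↥((MulEquiv.toMonoidHom σ).eqLocus (MonoidHom.id X)) // (h : X)⁻¹ * (((σ ^ e) a)⁻¹ * a) * h ∈ Y} *
        Nat.card ↥(Y ⊓ (MulEquiv.toMonoidHom (σ ^ e)).eqLocus (MonoidHom.id X)) := by
  classical
  set G := (MulEquiv.toMonoidHom (σ ^ e)).eqLocus (MonoidHom.id X) with hGdef
  set H := (MulEquiv.toMonoidHom σ).eqLocus (MonoidHom.id X) with hHdef
  have memH : ∀ y : X, y ∈ H ↔ σ y = y := fun y => Iff.rfl
  have memG : ∀ y : X, y ∈ G ↔ (σ ^ e) y = y := fun y => Iff.rfl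
  have hYσ : ∀ y ∈ Y, σ y ∈ Y := fun y hy => (hY y).1 hy
  have hYe : ∀ (n : ℕ) (y : X), y ∈ Y → (σ ^ n) y ∈ Y := by
    intro n
    induction n with
    | zero => intro y hy; simpa using hy
    | succ m ih =>
      intro y hy
      rw [pow_succ, MulAut.mul_apply]
      exact ih _ (hYσ y hy)
  have hG : (σ ^ e) g = g := hg
  let T := {p : ↥H × ↥Y // a * (p.1 : X) * (p.2 : X)⁻¹ ∈ G}
  -- first projection-like map
  have hA : ∀ t : T, ((⟨a * (t.1.1 : X) * (t.1.2 : X)⁻¹, t.2⟩ : ↥G) : X)⁻¹ * g * σ ((⟨a * (t.1.1 : X) * (t.1.2 : X)⁻¹, t.2⟩ : ↥G) : X) ∈ Y := by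
    intro t
    have hh : σ (t.1.1 : X) = t.1.1 := (memH _).1 t.1.1.2
    have hc : (t.1.2 : X) ∈ Y := t.1.2.2
    have : (a * (t.1.1 : X) * (t.1.2 : X)⁻¹)⁻¹ * g * σ (a * (t.1.1 : X) * (t.1.2 : X)⁻¹)
        = (t.1.2 : X) * (σ (t.1.2 : X))⁻¹ := by
      rw [ha]
      simp only [map_mul, map_inv, hh]
      group
    show (a * (t.1.1 : X) * (t.1.2 : X)⁻¹)⁻¹ * g * σ (a * (t.1.1 : X) * (t.1.2 : X)⁻¹) ∈ Y
    rw [this]
    exact Y.mul_mem hc (Y.inv_mem (hYσ _ hc))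
  have hB : ∀ t : T, (t.1.1 : X)⁻¹ * (((σ ^ e) a)⁻¹ * a) * (t.1.1 : X) ∈ Y := by
    intro t
    have hh : σ (t.1.1 : X) = t.1.1 := (memH _).1 t.1.1.2
    have hh' := pow_fix σ e _ hh
    have hc : (t.1.2 : X) ∈ Y := t.1.2.2
    have hk := (memG _).1 t.2
    simp only [map_mul, map_inv, hh'] at hk
    have h1 : ((σ ^ e) a)⁻¹ = (t.1.1 : X) * ((σ ^ e) (t.1.2 : X))⁻¹ * (t.1.2 : X) * (t.1.1 : X)⁻¹ * a⁻¹ := by
      have h2 : (σ ^ e) a = a * (t.1.1 : X) * (t.1.2 : X)⁻¹ * (σ ^ e) (t.1.2 : X) * (t.1.1 : X)⁻¹ := by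
        rw [← hk]; group
      rw [h2]; group
    have : (t.1.1 : X)⁻¹ * (((σ ^ e) a)⁻¹ * a) * (t.1.1 : X) = ((σ ^ e) (t.1.2 : X))⁻¹ * (t.1.2 : X) := by
      rw [h1]; group
    rw [this]
    exact Y.mul_mem (Y.inv_mem (hYe e _ hc)) hc
  let f₁ : T → {k : ↥G // (k : X)⁻¹ * g * σ k ∈ Y} := fun t => ⟨⟨a * (t.1.1 : X) * (t.1.2 : X)⁻¹, t.2⟩, hA t⟩
  let f₂ : T → {h : ↥H // (h : X)⁻¹ * (((σ ^ e) a)⁻¹ * a) * h ∈ Y} := fun t => ⟨t.1.1, hB t⟩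
  have hf₁ : ∀ k, Nonempty ({t // f₁ t = k} ≃ ↥(Y ⊓ H)) := by
    rintro ⟨⟨k, hkG⟩, hkY⟩
    obtain ⟨c₀, hc₀, hu⟩ := hYL _ hkY
    simp only at hu
    -- h₀ = a⁻¹ k c₀ is σ-fixed
    have hh₀ : σ (a⁻¹ * k * c₀) = a⁻¹ * k * c₀ := by
      simp only [map_mul, map_inv]
      have h1 : σ k = g⁻¹ * k * c₀ * (σ c₀)⁻¹ := by
        have : k⁻¹ * g * σ k = c₀ * (σ c₀)⁻¹ := hu
        calc σ k = g⁻¹ * k * (k⁻¹ * g * σ k) := by group
          _ = _ := by rw [this]; group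
      rw [h1, ha]; group
    have hkσe : (σ ^ e) k = k := (memG _).1 hkG
    let φ : ↥(Y ⊓ H) → {t // f₁ t = (⟨⟨k, hkG⟩, hkY⟩ : {k : ↥G // (k : X)⁻¹ * g * σ k ∈ Y})} := fun z =>
      ⟨⟨(⟨a⁻¹ * k * c₀ * z, H.mul_mem ((memH _).2 hh₀) z.2.2⟩, ⟨c₀ * z, Y.mul_mem hc₀ z.2.1⟩), by
          show a * (a⁻¹ * k * c₀ * z) * (c₀ * z)⁻¹ ∈ G
          have : a * (a⁻¹ * k * c₀ * z) * (c₀ * z)⁻¹ = k := by group
          rw [this]; exact hkG⟩, by
          apply Subtype.ext; apply Subtype.ext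
          show a * (a⁻¹ * k * c₀ * z) * (c₀ * z)⁻¹ = k
          group⟩
    refine ⟨(Equiv.ofBijective φ ⟨?_, ?_⟩).symm⟩
    · intro z w hzw
      have h1 := congrArg (fun t => ((t.1.1.2 : ↥Y) : X)) hzw
      simp only [φ] at h1
      exact Subtype.ext (mul_left_cancel h1)
    · rintro ⟨⟨⟨⟨h, hhH⟩, ⟨c, hcY⟩⟩, htG⟩, ht⟩
      have ht' : a * h * c⁻¹ = k := congrArg (fun t => ((t.1 : ↥G) : X)) ht
      have hz : c₀⁻¹ * c ∈ Y ⊓ H := by
        refine ⟨Y.mul_mem (Y.inv_mem hc₀) hcY, ?_⟩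
        have : c₀⁻¹ * c = (a⁻¹ * k * c₀)⁻¹ * h := by
          rw [← ht']; group
        rw [this]
        exact H.mul_mem (H.inv_mem ((memH _).2 hh₀)) hhH
      refine ⟨⟨_, hz⟩, ?_⟩
      apply Subtype.ext; apply Subtype.ext
      apply Prod.ext
      · apply Subtype.ext
        show a⁻¹ * k * c₀ * (c₀⁻¹ * c) = h
        rw [← ht']; group
      · apply Subtype.ext
        show c₀ * (c₀⁻¹ * c) = c
        group
  have hf₂ : ∀ h, Nonempty ({t // f₂ t = h} ≃ ↥(Y ⊓ G)) := by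
    rintro ⟨⟨h, hhH⟩, hhY⟩
    have hσh : σ h = h := (memH _).1 hhH
    have hh' := pow_fix σ e _ hσh
    obtain ⟨c', hc', hu⟩ := hYLe _ (Y.inv_mem hhY)
    -- c₀ = c'⁻¹
    have hk₀ : a * h * c' ∈ G := by
      rw [memG]
      simp only [map_mul, hh']
      have h1 : (h⁻¹ * (((σ ^ e) a)⁻¹ * a) * h)⁻¹ = c' * ((σ ^ e) c')⁻¹ := hu
      have h2 : h⁻¹ * (a⁻¹ * (σ ^ e) a) * h = c' * ((σ ^ e) c')⁻¹ := by
        rw [← h1]; group
      have h3 : (σ ^ e) a = a * h * (c' * ((σ ^ e) c')⁻¹) * h⁻¹ := by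
        rw [← h2]; group
      rw [h3]; group
    let φ : ↥(Y ⊓ G) → {t // f₂ t = (⟨⟨h, hhH⟩, hhY⟩ : {h : ↥H // (h : X)⁻¹ * (((σ ^ e) a)⁻¹ * a) * h ∈ Y})} := fun y =>
      ⟨⟨(⟨h, hhH⟩, ⟨y * c'⁻¹, Y.mul_mem y.2.1 (Y.inv_mem hc')⟩), by
          show a * h * (y * c'⁻¹)⁻¹ ∈ G
          have : a * h * (y * c'⁻¹)⁻¹ = (a * h * c') * (y : X)⁻¹ := by group
          rw [this]
          exact G.mul_mem hk₀ (G.inv_mem y.2.2)⟩, rfl⟩
    refine ⟨(Equiv.ofBijective φ ⟨?_, ?_⟩).symm⟩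
    · intro z w hzw
      have h1 := congrArg (fun t => ((t.1.1.2 : ↥Y) : X)) hzw
      simp only [φ] at h1
      exact Subtype.ext (mul_right_cancel h1)
    · rintro ⟨⟨⟨⟨h1, hh1H⟩, ⟨c, hcY⟩⟩, htG⟩, ht⟩
      have ht' : h1 = h := congrArg (fun t => ((t.1 : ↥H) : X)) ht
      subst ht'
      have htG' : a * h1 * c⁻¹ ∈ G := htG
      have hz : c * c' ∈ Y ⊓ G := by
        refine ⟨Y.mul_mem hcY hc', ?_⟩
        have : c * c' = (a * h1 * c⁻¹)⁻¹ * (a * h1 * c') := by group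
        rw [this]
        exact G.mul_mem (G.inv_mem htG') hk₀
      refine ⟨⟨_, hz⟩, ?_⟩
      apply Subtype.ext; apply Subtype.ext
      apply Prod.ext
      · rfl
      · apply Subtype.ext
        show c * c' * c'⁻¹ = c
        group
  rw [← card_of_fibers f₁ hf₁, ← card_of_fibers f₂ hf₂]

end Cfsg.Agent.S2669
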