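import Mathlib
import Cfsg.Agent.Lib.H01.PglCl6
import Cfsg.Statements.S2670
-- import your own Cfsg.Agent.* helpers here

set_option autoImplicit false
open Cfsg

namespace Cfsg.Agent.S2670

open Polynomial Module MulAction
open Cfsg.Agent.H01.PglCl

theorem ps_surj {F : Type*} [Field F] {n r : ℕ} [Fintype (Mu F r)] (hn : 0 < n) (hr : r.Prime)
    (hc : Nat.card (Mu F r) = r) (C : TT F n r) :
    (∃ a : NST (Mu F r) n, Psi0 hn hr a = C) ∨ (∃ x : WW F n r, Psi1 hn hr x = C) := by
  obtain ⟨C, x, rfl, ho⟩ := C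
  obtain ⟨g, rfl⟩ := QuotientGroup.mk_surjective x
  obtain ⟨h1, c, hc'⟩ := (order_iff hr g).1 ho
  by_cases hP : c ∈ Pw F r
  · left
    obtain ⟨b, rfl⟩ := hP
    have hb : (powMonoidHom r : Fˣ →* Fˣ) b = b ^ r := rfl
    rw [hb] at hc'
    let g0 : GL (Fin n) F := sc b⁻¹ * g
    have h0 : g0 ^ r = 1 := by
      have h2 : Commute (sc b⁻¹ : GL (Fin n) F) g := sc_comm _ _
      simp only [g0]
      rw [h2.mul_pow, hc', ← sc_pow, ← sc_mul, inv_pow, inv_mul_cancel, sc_one]
    have hnc : g0 ∉ Subgroup.center (GL (Fin n) F) := fun h => by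
      apply h1
      obtain ⟨d, hd⟩ := (mem_center_iff _).1 h
      refine (mem_center_iff _).2 ⟨b * d, ?_⟩
      rw [sc_mul, hd]
      simp only [g0]
      rw [sc_inv, mul_inv_cancel_left]
    have hcen := (central_iff (r := r) hn g0 h0)
    let a : NST (Mu F r) n := ⟨mt g0, sum_mt hr.ne_zero hc g0 h0, fun ζ hζ => hnc (hcen.2 ⟨ζ, hζ⟩)⟩
    refine ⟨a, ?_⟩
    apply Subtype.ext
    simp only [Psi0]
    rw [ConjClasses.mk_eq_mk_iff_isConj]
    have h3 : pr g0 = pr g := pr_sc_mul _ _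
    show IsConj (pr (gOf a)) (pr g)
    rw [← h3, isConj_pr_iff]
    obtain ⟨P, hP⟩ := conj_of_mt hr.ne_zero hc (gOf a) g0 (gOf_pow a) h0 (mt_gOf a)
    refine ⟨P, 1, ?_⟩
    rw [hP, sc_one, one_mul]
  · right
    have hI := irr_of_not_mem hr c hP
    have hd : r ∣ n := dvd_of_nonsplit r hr.ne_zero c hI g hc'
    have hne : (c : Fˣ ⧸ Pw F r) ≠ 1 := fun h => hP ((QuotientGroup.eq_one_iff _).1 h)
    let y : WW F n r := ⟨(c : Fˣ ⧸ Pw F r), hne, hd⟩
    refine ⟨y, ?_⟩
    apply Subtype.ext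
    simp only [Psi1]
    rw [ConjClasses.mk_eq_mk_iff_isConj]
    obtain ⟨⟨_, d, rfl⟩, hout⟩ := QuotientGroup.mk_out_eq_mul (Pw F r) c
    have hl : lamOf y.1 = c * d ^ r := hout
    let g1 : GL (Fin n) F := sc d * g
    have h0 : g1 ^ r = sc (lamOf y.1) := by
      have h2 : Commute (sc d : GL (Fin n) F) g := sc_comm _ _
      simp only [g1]
      rw [h2.mul_pow, hc', ← sc_pow, ← sc_mul, hl, mul_comm]
    obtain ⟨P, hP'⟩ := conj_of_same r hr.ne_zero (lamOf y.1)
      (irr_of_not_mem hr _ (lamOf_not_mem y.1 y.2.1)) (gOut hr y) g1 (gOut_pow hr y) h0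
    have h3 : pr g1 = pr g := pr_sc_mul _ _
    show IsConj (pr (gOut hr y)) (pr g)
    rw [← h3, isConj_pr_iff]
    refine ⟨P, 1, ?_⟩
    rw [hP', sc_one, one_mul]

theorem ps_cross {F : Type*} [Field F] {n r : ℕ} [Fintype (Mu F r)] (hn : 0 < n) (hr : r.Prime)
    (a : NST (Mu F r) n) (x : WW F n r) : Psi0 hn hr a ≠ Psi1 hn hr x := by
  intro h
  have h1 := congrArg Subtype.val h
  simp only [Psi0, Psi1] at h1
  rw [ConjClasses.mk_eq_mk_iff_isConj, isConj_pr_iff] at h1
  obtain ⟨P, c, hP⟩ := h1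
  have h2 := pow_rel hn P _ _ c 1 _ hP (by rw [gOf_pow, sc_one]) (gOut_pow hr x)
  apply lamOf_not_mem x.1 x.2.1
  refine ⟨c⁻¹, ?_⟩
  have h3 : (powMonoidHom r : Fˣ →* Fˣ) c⁻¹ = (c ^ r)⁻¹ := by simp
  rw [h3, inv_eq_iff_mul_eq_one]
  exact h2.symm

theorem card_WW {F : Type*} [Field F] [Fintype F] {q n r : ℕ} (hF : Fintype.card F = q) (hr : r.Prime)
    (hrq : r ∣ q - 1) : Nat.card (WW F n r) = (r - 1) * (if r ∣ n then 1 else 0) := by
  classical
  split_ifs with h
  · have h1 : Nat.card (Fˣ ⧸ Pw F r) = r := by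
      have := IsCyclic.index_powMonoidHom_range (G := Fˣ) r
      rw [Nat.card_eq_fintype_card (α := Fˣ), Fintype.card_units, hF, Nat.gcd_eq_right hrq] at this
      exact this
    haveI : Finite (Fˣ ⧸ Pw F r) := Nat.finite_of_card_ne_zero (by rw [h1]; exact hr.ne_zero)
    have h2 := Nat.card_congr (Equiv.sumCompl (fun x : Fˣ ⧸ Pw F r => x = 1))
    rw [Nat.card_sum, h1] at h2
    have h3 : Nat.card {x : Fˣ ⧸ Pw F r // x = 1} = 1 := by
      rw [Nat.card_eq_one_iff_unique]
      exact ⟨⟨fun a b => Subtype.ext (a.2.trans b.2.symm)⟩, ⟨⟨1, rfl⟩⟩⟩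
    have h4 : Nat.card (WW F n r) = Nat.card {x : Fˣ ⧸ Pw F r // ¬ x = 1} := by
      apply Nat.card_congr
      exact Equiv.subtypeEquivRight fun x => by simp [h]
    rw [h4]
    omega
  · haveI : IsEmpty (WW F n r) := ⟨fun x => h x.2.2⟩
    simp

/-- Number of conjugacy classes of elements of prime order r in PGL_n(q) = GL_n(q)/scalars when r divides q − 1 (n ≥ 2): the classes of elements with a diagonalisable lift correspond to the orbits of the cyclic rotation on the r-tuples of eigenvalue multiplicities (a_0, …, a_(r−1)) summing to n with every a_j < n, and when r divides n there are r − 1 further classes (lifts acting irreducibly on blocks of size r); in all (C(n+r−1, r−1) − r − [r ∣ n])/r + r·[r ∣ n] classes. -/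
theorem result {F : Type*} [Field F] [Fintype F] {q : ℕ} (hF : Fintype.card F = q) {n r : ℕ} (hn : 2 ≤ n) (hr : r.Prime) (hrq : r ∣ q - 1) : Nat.card {C : ConjClasses (GL (Fin n) F ⧸ Subgroup.center (GL (Fin n) F)) // ∃ g : GL (Fin n) F ⧸ Subgroup.center (GL (Fin n) F), ConjClasses.mk g = C ∧ orderOf g = r} = (Nat.choose (n + r - 1) (r - 1) - r - (if r ∣ n then 1 else 0)) / r + r * (if r ∣ n then 1 else 0) := by

  classical
  have hn0 : 0 < n := by omega
  letI : Fintype (Mu F r) := Fintype.ofFinite _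
  have hc : Nat.card (Mu F r) = r := card_Mu hF hrq
  let Psi0' : orbitRel.Quotient (Mu F r) (NST (Mu F r) n) → TT F n r :=
    Quotient.lift (Psi0 hn0 hr) (fun a b h => (Psi0_eq_iff hn0 hr hc a b).2 h)
  let Psi : orbitRel.Quotient (Mu F r) (NST (Mu F r) n) ⊕ WW F n r → TT F n r :=
    Sum.elim Psi0' (Psi1 hn0 hr)
  have hinj : Function.Injective Psi := by
    rintro (a | x) (b | y) h
    · induction a using Quotient.inductionOn with
      | h a =>
        induction b using Quotient.inductionOn with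
        | h b =>
          exact congrArg Sum.inl (Quotient.sound ((Psi0_eq_iff hn0 hr hc a b).1 h))
    · induction a using Quotient.inductionOn with
      | h a => exact absurd h (ps_cross hn0 hr a y)
    · induction b using Quotient.inductionOn with
      | h b => exact absurd h.symm (ps_cross hn0 hr b x)
    · exact congrArg Sum.inr (Psi1_inj hn0 hr h)
  have hsurj : Function.Surjective Psi := by
    intro C
    rcases ps_surj hn0 hr hc C with ⟨a, ha⟩ | ⟨x, hx⟩
    · exact ⟨Sum.inl (Quotient.mk _ a), ha⟩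
    · exact ⟨Sum.inr x, hx⟩
  have h1 := Nat.card_congr (Equiv.ofBijective Psi ⟨hinj, hsurj⟩)
  haveI := finite_NST (A := Mu F r) n
  haveI : Finite (WW F n r) := by
    have : Finite (Fˣ ⧸ Pw F r) := inferInstance
    infer_instance
  rw [Nat.card_sum, card_WW hF hr hrq] at h1
  have h2 := orbit_formula (A := Mu F r) (n := n) hn0 hr hc
  rw [← h1]
  convert h2 using 2


end Cfsg.Agent.S2670
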