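import Mathlib
import Cfsg.Agent.Lib.H01.SpInv8
import Cfsg.Statements.S2680
-- import your own Cfsg.Agent.* helpers here

set_option autoImplicit false
open Cfsg

namespace Cfsg.Agent.S2680


/-- Centraliser order of an involution t of Sp_2m(q), q even, with s = rank(t − 1) odd (type b_s): |C(t)| = q^(2ms − (3s² − s)/2) · |Sp_(s−1)(q)| · |Sp_(2m−2s)(q)|, where |Sp_2k(q)| = q^(k²) Π_(i=1)^k (q^(2i) − 1). -/
theorem result {F : Type*} [Field F] [Fintype F] [CharP F 2] {q : ℕ} (hF : Fintype.card F = q) {m s : ℕ} (t : Matrix.symplecticGroup (Fin m) F) (ht : t ^ 2 = 1) (hs : ((t : Matrix (Fin m ⊕ Fin m) (Fin m ⊕ Fin m) F) - 1).rank = s) (hodd : Odd s) : Nat.card ↥(Subgroup.centralizer ({t} : Set ↥(Matrix.symplecticGroup (Fin m) F))) = q ^ (2 * m * s - (3 * s ^ 2 - s) / 2) * ((q : ℕ) ^ (((s - 1) / 2) ^ 2) * ∏ i : Fin ((s - 1) / 2), (q ^ (2 * ((i : ℕ) + 1)) - 1)) * ((q : ℕ) ^ ((m - s) ^ 2) * ∏ i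 : Fin (m - s), (q ^ (2 * ((i : ℕ) + 1)) - 1)) := by

  subst hF
  have ht' := ht
  have hq : Fintype.card F = Nat.card F := (Nat.card_eq_fintype_card).symm
  rw [hq]
  rcases Cfsg.Agent.H01.SpInv.trichotomy (Cfsg.Agent.H01.SpInv.stdSys t ht) with hA | hB | hC
  · obtain ⟨a, r, hm, hr, hc⟩ := Cfsg.Agent.H01.SpInv.cen_A t ht hA
    exfalso
    rw [hs] at hr
    subst hr
    exact (Nat.not_even_iff_odd.2 hodd) (even_two_mul a)
  · obtain ⟨a, r, hm, hr, hc⟩ := Cfsg.Agent.H01.SpInv.cen_B t ht hB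
    rw [hc, Cfsg.Agent.H01.SpInv.formula_B _ m s a r hm (hs.symm.trans hr)]
  · obtain ⟨a, r, hm, hr, hc⟩ := Cfsg.Agent.H01.SpInv.cen_C t ht hC
    exfalso
    rw [hs] at hr
    subst hr
    exact (Nat.not_even_iff_odd.2 hodd) (by rw [show 2 * a + 2 = 2 * (a + 1) by ring]; exact even_two_mul _)


end Cfsg.Agent.S2680
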