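import Cfsg.Statements.S2690
import Cfsg.Agent.Lib.Lead.AutPSLOut

set_option autoImplicit false
open Cfsg

namespace Cfsg.Agent.S2690

/-- Every automorphism of a simple projective special linear group PSL_n(F) over a finite field (n ≥ 2; |F| ≥ 4 when n = 2) is a product δ φ γ of an inner-diagonal automorphism δ (induced by an invertible matrix), a standard field automorphism φ (one automorphism of F applied to every entry, possibly the identity) and γ either the identity or the inverse-transpose automorphism. -/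
theorem result {F : Type*} [Field F] [Fintype F] {p f : ℕ} [Fact p.Prime] (hF : Fintype.card F = p ^ f) (hf : 1 ≤ f) {n : ℕ} (hn : 2 ≤ n) (hs : n = 2 → 4 ≤ Fintype.card F) (β : MulAut (Matrix.ProjectiveSpecialLinearGroup (Fin n) F)) :
    ∃ (δ φ γ : MulAut (Matrix.ProjectiveSpecialLinearGroup (Fin n) F)) (σ : F ≃+* F), Cfsg.IsInnerDiagonalAutPSL δ ∧ Cfsg.IsStdFieldAutPSL σ φ ∧ (γ = 1 ∨ Cfsg.IsInverseTransposeAutPSL γ) ∧ β = δ * φ * γ := by
  classical
  have hI : ∀ g : GL (Fin n) F, Cfsg.IsInnerDiagonalAutPSL (Cfsg.Agent.Lead.AutPSL.cc g : MulAut (Matrix.ProjectiveSpecialLinearGroup (Fin n) F)) := by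
    intro g
    refine ⟨g, ?_⟩
    intro s s' hs'
    change Cfsg.Agent.Lead.AutPSL.pr (Fin n) F (Cfsg.Agent.Lead.AutPSL.cSL g s) = Cfsg.Agent.Lead.AutPSL.pr (Fin n) F s'
    congr 1
    apply Subtype.ext
    rw [hs']
    rfl
  have hF' : ∀ σ : F ≃+* F, Cfsg.IsStdFieldAutPSL σ (Cfsg.Agent.Lead.AutPSL.fld σ : MulAut (Matrix.ProjectiveSpecialLinearGroup (Fin n) F)) := by
    intro σ s s' hs'
    change Cfsg.Agent.Lead.AutPSL.pr (Fin n) F (Cfsg.Agent.Lead.AutPSL.fldSL σ s) = Cfsg.Agent.Lead.AutPSL.pr (Fin n) F s'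
    congr 1
    apply Subtype.ext
    rw [hs']
    rfl
  by_cases h2 : n = 2
  · subst h2
    obtain ⟨D, σ, rfl⟩ := Cfsg.Agent.Lead.AutPSL.aut_form_two hF hf β
    exact ⟨_, _, 1, σ, hI D, hF' σ, Or.inl rfl, by simp⟩
  · obtain ⟨m, rfl⟩ : ∃ m, n = m + 2 := ⟨n - 2, by omega⟩
    obtain ⟨D, σ, h | h⟩ := Cfsg.Agent.Lead.AutPSL.aut_form_ge3 (by omega) hF hf β
    · exact ⟨_, _, 1, σ, hI D, hF' σ, Or.inl rfl, by rw [h, mul_one]⟩
    · refine ⟨_, _, Cfsg.Agent.Lead.AutPSL.gam, σ, hI D, hF' σ, Or.inr Cfsg.Agent.Lead.AutPSL.gam_inverseTranspose, ?_⟩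
      rw [← h, mul_assoc, Cfsg.Agent.Lead.AutPSL.gam_sq, mul_one]

end Cfsg.Agent.S2690
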