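import Mathlib
import Cfsg.Agent.Lib.H01.OmPGO5
import Cfsg.Statements.S2723
-- import your own Cfsg.Agent.* helpers here

set_option autoImplicit false
open Cfsg

namespace Cfsg.Agent.S2723

set_option maxHeartbeats 8000000 in

/-- Let T = PΩ⁺_{2m}(F) with m ≥ 4 and |F| = q odd. The image of the special orthogonal group in Aut(T) contains the inner automorphism group T with index 1 (they coincide) when m is odd and q ≡ 3 (mod 4), and with index 2 otherwise (the index is 2 exactly when the discriminant of the form is a square). -/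
theorem result {F : Type*} [Field F] [Fintype F] (hodd : Odd (Fintype.card F)) {m : ℕ} (hm : 4 ≤ m) :
    ((Odd m ∧ Fintype.card F % 4 = 3) → (Cfsg.Inn (Cfsg.POmega F (Cfsg.quadFormPlus m F))).relIndex (Cfsg.psoAut F (Cfsg.quadFormPlus m F)) = 1) ∧ (¬ (Odd m ∧ Fintype.card F % 4 = 3) → (Cfsg.Inn (Cfsg.POmega F (Cfsg.quadFormPlus m F))).relIndex (Cfsg.psoAut F (Cfsg.quadFormPlus m F)) = 2) := by

  obtain ⟨m', rfl⟩ : ∃ m', m = m' + 1 + 1 := ⟨m - 2, by omega⟩
  obtain ⟨C, _, _, _, _, _, _, _, _, X, hP⟩ := Cfsg.Agent.H01.Om.pd_plus hodd m' (by omega)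
  have e := Cfsg.Agent.H01.Om.four_dvd_sub_iff hodd (m' + 1 + 1)
  constructor
  · intro h
    exact X.pso_index_one (fun hn => (e.1 (hP.1 hn)) h)
  · intro h
    exact X.pso_index_two (hP.2 (e.2 h))


end Cfsg.Agent.S2723
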