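import Mathlib
import Cfsg.Agent.Lib.H01.OmPGO5
import Cfsg.Statements.S2727
-- import your own Cfsg.Agent.* helpers here

set_option autoImplicit false
open Cfsg

namespace Cfsg.Agent.S2727

set_option maxHeartbeats 8000000 in

/-- Let T = PΩ⁻_{2m+2}(F) with m ≥ 3 and |F| = q odd (form with anisotropic binary part). The image of the special orthogonal group in Aut(T) contains the inner automorphism group T with index 2 when m is even and q ≡ 3 (mod 4), and coincides with it otherwise (the index is 2 exactly when the discriminant of the form is a square). -/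
theorem result {F : Type*} [Field F] [Fintype F] (hodd : Odd (Fintype.card F)) {m : ℕ} (hm : 3 ≤ m) (a b : F) (hab : (∀ z₁ z₂ : F, z₁ ^ 2 + a * z₁ * z₂ + b * z₂ ^ 2 = 0 → z₁ = 0 ∧ z₂ = 0)) :
    ((Even m ∧ Fintype.card F % 4 = 3) → (Cfsg.Inn (Cfsg.POmega F (Cfsg.quadFormMinus m F a b))).relIndex (Cfsg.psoAut F (Cfsg.quadFormMinus m F a b)) = 2) ∧ (¬ (Even m ∧ Fintype.card F % 4 = 3) → (Cfsg.Inn (Cfsg.POmega F (Cfsg.quadFormMinus m F a b))).relIndex (Cfsg.psoAut F (Cfsg.quadFormMinus m F a b)) = 1) := by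

  obtain ⟨m', rfl⟩ : ∃ m', m = m' + 1 + 1 := ⟨m - 2, by omega⟩
  obtain ⟨C, _, _, _, _, _, _, _, _, X, hP⟩ := Cfsg.Agent.H01.Om.pd_minus hab hodd m' (by omega)
  have e := Cfsg.Agent.H01.Om.four_dvd_iff hodd (m' + 1 + 1 + 1)
  have e2 : Odd (m' + 1 + 1 + 1) ↔ Even (m' + 1 + 1) := by
    rw [← Nat.not_even_iff_odd, Nat.even_add_one, not_not]
  constructor
  · rintro ⟨h1, h2⟩
    exact X.pso_index_two (hP.2 (e.2 ⟨h2, e2.2 h1⟩))
  · intro h
    exact X.pso_index_one (fun hn => by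
      obtain ⟨h3, h4⟩ := e.1 (hP.1 hn)
      exact h ⟨e2.1 h4, h3⟩)


end Cfsg.Agent.S2727
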