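import Cfsg.Statements.S2738
import Cfsg.Agent.Lib.Lead.CardSL
import Cfsg.Agent.Lib.Lead.SLn
-- import your own Cfsg.Agent.* helpers here

set_option autoImplicit false
open Cfsg

namespace Cfsg.Agent.S2738

open scoped commutatorElement

lemma aux {G : Type*} [Group G] (K : Subgroup G) (hsup : Subgroup.center G ⊔ K = ⊤) :
    commutator G ≤ K := by
  rw [commutator_def, Subgroup.commutator_le]
  intro a _ b _
  have ha : a ∈ Subgroup.center G ⊔ K := hsup ▸ Subgroup.mem_top a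
  have hb : b ∈ Subgroup.center G ⊔ K := hsup ▸ Subgroup.mem_top b
  rw [← SetLike.mem_coe, Subgroup.normal_mul, Set.mem_mul] at ha hb
  obtain ⟨z, hz, k, hk, rfl⟩ := ha
  obtain ⟨w, hw, l, hl, rfl⟩ := hb
  have hz' := Subgroup.mem_center_iff.1 hz
  have hw' := Subgroup.mem_center_iff.1 hw
  have hzi := Subgroup.mem_center_iff.1 (inv_mem hz)
  have hwi := Subgroup.mem_center_iff.1 (inv_mem hw)
  have : ⁅z * k, w * l⁆ = k * l * k⁻¹ * l⁻¹ := by
    simp only [commutatorElement_def, mul_inv_rev]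
    calc z * k * (w * l) * (k⁻¹ * z⁻¹) * (l⁻¹ * w⁻¹)
        = z * (k * w) * (l * k⁻¹ * z⁻¹) * l⁻¹ * w⁻¹ := by group
      _ = z * (w * k) * (z⁻¹ * (l * k⁻¹)) * l⁻¹ * w⁻¹ := by rw [hw' k, hzi (l * k⁻¹)]
      _ = (z * w) * (k * z⁻¹) * (l * k⁻¹ * l⁻¹) * w⁻¹ := by group
      _ = (z * w) * (z⁻¹ * k) * w⁻¹ * (l * k⁻¹ * l⁻¹) := by
          rw [hzi k, mul_assoc _ (l * k⁻¹ * l⁻¹) w⁻¹, hwi (l * k⁻¹ * l⁻¹)]; group
      _ = (w * z) * (z⁻¹ * k) * w⁻¹ * (l * k⁻¹ * l⁻¹) := by rw [hw' z]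
      _ = w * k * w⁻¹ * (l * k⁻¹ * l⁻¹) := by group
      _ = k * w * w⁻¹ * (l * k⁻¹ * l⁻¹) := by rw [hw' k]
      _ = k * l * k⁻¹ * l⁻¹ := by group
  rw [this]
  exact K.mul_mem (K.mul_mem (K.mul_mem hk hl) (K.inv_mem hk)) (K.inv_mem hl)


/-- The special linear group SL(3, 4) has centre of order 3 and does not split over it: no subgroup is a complement to the centre (so SL(3, 4) is a non-split central extension of PSL(3, 4) by a group of order 3). -/
theorem result (F : Type*) [Field F] [Fintype F] (hF : Fintype.card F = 4) : Nat.card ↥(Subgroup.center (Matrix.SpecialLinearGroup (Fin 3) F)) = 3 ∧ ¬ ∃ K : Subgroup (Matrix.SpecialLinearGroup (Fin 3) F), Subgroup.IsComplement' (Subgroup.center (Matrix.SpecialLinearGroup (Fin 3) F)) K := by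
  classical
  have hc : Nat.card (Subgroup.center (Matrix.SpecialLinearGroup (Fin 3) F)) = 3 := by
    rw [Lead.card_center_SL]; simp [hF]
  refine ⟨hc, ?_⟩
  rintro ⟨K, hK⟩
  have hsup := hK.sup_eq_top
  have hdis := hK.disjoint
  have hperf : commutator (Matrix.SpecialLinearGroup (Fin 3) F) = ⊤ :=
    Lead.commutator_SL_eq_top (by simp)
  have hK' : K = ⊤ := top_le_iff.1 (hperf ▸ aux K hsup)
  rw [hK', disjoint_top, ] at hdis
  rw [hdis] at hc
  simp at hc

end Cfsg.Agent.S2738
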