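import Cfsg.Statements.S2739
import Cfsg.Agent.Lib.Lead.CardSL
import Cfsg.Agent.Lib.H13.Basic
import Cfsg.Agent.Lib.H06.Basic
import Cfsg.Agent.Lib.H01.Coprime
-- import your own Cfsg.Agent.* helpers here

set_option autoImplicit false
open scoped Pointwise
open Cfsg

namespace Cfsg.Agent.S2739


open Cfsg.Agent

lemma zpowers_sq_eq {G : Type*} [Group G] {y : G} (hy : y ^ 3 = 1) :
    Subgroup.zpowers (y ^ 2) = Subgroup.zpowers y := by
  apply le_antisymm
  · rw [Subgroup.zpowers_le]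
    exact Subgroup.pow_mem _ (Subgroup.mem_zpowers y) _
  · rw [Subgroup.zpowers_le]
    have h2 : (y ^ 2) ^ 2 = y := by
      calc (y ^ 2) ^ 2 = y ^ 3 * y := by group
        _ = y := by rw [hy, one_mul]
    have h := Subgroup.pow_mem (Subgroup.zpowers (y ^ 2)) (Subgroup.mem_zpowers (y ^ 2)) 2
    rwa [h2] at h

lemma zpowers_conj {G : Type*} [Group G] (g a : G) :
    (Subgroup.zpowers a).map (MulAut.conj g).toMonoidHom = Subgroup.zpowers (g * a * g⁻¹) := by
  rw [MonoidHom.map_zpowers]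
  rfl

lemma mem_zpowers_three {G : Type*} [Group G] {a u : G} (ha : a ^ 3 = 1)
    (hu : u ∈ Subgroup.zpowers a) : u = 1 ∨ u = a ∨ u = a ^ 2 := by
  obtain ⟨i, rfl⟩ := hu
  have h1 : a ^ i = a ^ (i % 3) := by
    conv_lhs => rw [← Int.mul_ediv_add_emod i 3, zpow_add, zpow_mul]
    have : a ^ (3 : ℤ) = 1 := by exact_mod_cast ha
    simp [this]
  change a ^ i = 1 ∨ a ^ i = a ∨ a ^ i = a ^ 2
  rw [h1]
  have h2 : i % 3 = 0 ∨ i % 3 = 1 ∨ i % 3 = 2 := by omega
  rcases h2 with h | h | h <;> rw [h]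
  · left; simp
  · right; left; simp
  · right; right; norm_cast

lemma order3_conj {G : Type*} [Group G] [Finite G] (h27 : ¬ 27 ∣ Nat.card G) (a b : G) (hab : a * b = b * a)
    (ha : a ^ 3 = 1) (hb : b ^ 3 = 1) (ha1 : a ≠ 1) (hb' : b ∉ Subgroup.zpowers a)
    (h1 : ∃ g, g * a * g⁻¹ = b) (h2 : ∃ g, g * a * g⁻¹ = a * b) (h3 : ∃ g, g * a * g⁻¹ = a ^ 2 * b)
    (X : Subgroup G) (hX : Nat.card X = 3) :
    ∃ g, X.map (MulAut.conj g).toMonoidHom = Subgroup.zpowers a := by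
  classical
  haveI : Fact (Nat.Prime 3) := ⟨Nat.prime_three⟩
  have hb1 : b ≠ 1 := by
    rintro rfl
    exact hb' (Subgroup.one_mem _)
  have hcomm : ∀ u ∈ Subgroup.zpowers a, ∀ v ∈ Subgroup.zpowers b, u * v = v * u := by
    rintro _ ⟨i, rfl⟩ _ ⟨j, rfl⟩
    exact (Commute.zpow_zpow (show Commute a b from hab) i j)
  have hoa : orderOf a = 3 := orderOf_eq_prime ha ha1
  have hob : orderOf b = 3 := orderOf_eq_prime hb hb1
  have hdis : Subgroup.zpowers a ⊓ Subgroup.zpowers b = ⊥ := by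
    rw [eq_bot_iff]
    rintro u ⟨hu1, hu2⟩
    rw [Subgroup.mem_bot]
    by_contra hu
    have hu3 : u ^ 3 = 1 := by
      rcases mem_zpowers_three hb hu2 with h | h | h
      · rw [h]; simp
      · rw [h]; exact hb
      · rw [h, ← pow_mul, mul_comm, pow_mul, hb, one_pow]
    apply hb'
    rcases mem_zpowers_three hb hu2 with h | h | h
    · exact absurd h hu
    · exact h ▸ hu1
    · have : b = u ^ 2 := by
        rw [h, ← pow_mul]
        calc b = b ^ 3 * b := by rw [hb, one_mul]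
          _ = b ^ (2 * 2) := by group
      rw [this]
      exact Subgroup.pow_mem _ hu1 _
  set S₀ := Subgroup.zpowers a ⊔ Subgroup.zpowers b with hS₀
  have hcard : Nat.card S₀ = 9 := by
    rw [hS₀, H06.card_sup_of_commute hcomm hdis, Nat.card_zpowers, Nat.card_zpowers, hoa, hob]
  have hS₀p : IsPGroup 3 S₀ := by
    rw [IsPGroup.iff_card, hcard]
    exact ⟨2, by norm_num⟩
  obtain ⟨Sm, hSm⟩ := hS₀p.exists_le_sylow
  have hSmeq : (Sm : Subgroup G) = S₀ := by
    obtain ⟨k, hk⟩ := IsPGroup.iff_card.1 Sm.2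
    have hd : 3 ^ k ∣ Nat.card G := hk ▸ Subgroup.card_subgroup_dvd_card _
    have hk2 : k ≤ 2 := by
      by_contra hk3
      apply h27
      have : 3 ^ 3 ∣ 3 ^ k := pow_dvd_pow 3 (by omega)
      exact (show (27 : ℕ) = 3 ^ 3 by norm_num) ▸ this.trans hd
    have hle : Nat.card Sm ≤ Nat.card S₀ := by
      rw [hk, hcard]
      calc 3 ^ k ≤ 3 ^ 2 := Nat.pow_le_pow_right (by norm_num) hk2
        _ = 9 := by norm_num
    exact (Subgroup.eq_of_le_of_card_ge hSm hle).symm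
  have hXp : IsPGroup 3 X := by
    rw [IsPGroup.iff_card, hX]
    exact ⟨1, by norm_num⟩
  obtain ⟨Sx, hSx⟩ := hXp.exists_le_sylow
  obtain ⟨g₀, hg₀⟩ := H13.sylow_conj Sx Sm
  have hX' : X.map (MulAut.conj g₀).toMonoidHom ≤ S₀ := by
    rw [← hSmeq, hg₀]
    exact Subgroup.map_mono hSx
  set X' := X.map (MulAut.conj g₀).toMonoidHom with hX'def
  have hX'card : Nat.card X' = 3 := by
    rw [hX'def, H13.card_map_conj, hX]
  haveI : Nontrivial X' := by
    apply Finite.one_lt_card_iff_nontrivial.1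
    rw [hX'card]; norm_num
  obtain ⟨⟨x, hxX⟩, hx1⟩ := exists_ne (1 : X')
  have hx1' : x ≠ 1 := fun h => hx1 (Subtype.ext h)
  have hXz : X' = Subgroup.zpowers x := by
    symm
    apply Subgroup.eq_of_le_of_card_ge ((Subgroup.zpowers_le).2 hxX)
    rw [hX'card, Nat.card_zpowers]
    have h3x : x ^ 3 = 1 := by
      have := pow_card_eq_one' (G := X') (x := ⟨x, hxX⟩)
      rw [hX'card] at this
      exact congrArg Subtype.val this
    rw [orderOf_eq_prime h3x hx1']
  -- x = u * v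
  have hn : Subgroup.zpowers b ≤ Subgroup.normalizer ((Subgroup.zpowers a : Subgroup G) : Set G) := by
    rw [Subgroup.zpowers_le]
    apply H13.mem_normalizer_of_map_conj_le
    rintro _ ⟨u, hu, rfl⟩
    change b * u * b⁻¹ ∈ _
    have := hcomm u hu b (Subgroup.mem_zpowers b)
    rw [← this]
    simpa using hu
  obtain ⟨u, hu, v, hv, hxuv⟩ := H01.exists_mul_of_mem_sup hn (hX' hxX)
  have hconj : ∀ m : G, (∃ g, g * a * g⁻¹ = m) → X' = Subgroup.zpowers m →
      ∃ g, X.map (MulAut.conj g).toMonoidHom = Subgroup.zpowers a := by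
    rintro m ⟨g, hg⟩ hm
    refine ⟨g⁻¹ * g₀, ?_⟩
    rw [← H13.map_conj_mul, ← hX'def, hm, ← hg, ← zpowers_conj, H13.map_conj_inv_map_conj]
  have hab2 : ∀ (i j : ℕ), (a ^ i * b ^ j) ^ 2 = a ^ (2 * i) * b ^ (2 * j) := by
    intro i j
    rw [(show Commute (a ^ i) (b ^ j) from Commute.pow_pow hab i j).mul_pow, ← pow_mul, ← pow_mul, mul_comm i, mul_comm j]
  rcases mem_zpowers_three ha hu with hu0 | hu0 | hu0 <;> rcases mem_zpowers_three hb hv with hv0 | hv0 | hv0 <;> rw [hu0, hv0] at hxuv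
  · exact absurd (by simpa using hxuv) hx1'
  · exact hconj b h1 (by rw [hXz, hxuv, one_mul])
  · exact hconj b h1 (by rw [hXz, hxuv, one_mul, zpowers_sq_eq hb])
  · exact hconj a ⟨1, by simp⟩ (by rw [hXz, hxuv, mul_one])
  · exact hconj (a * b) h2 (by rw [hXz, hxuv])
  · refine hconj (a ^ 2 * b) h3 ?_
    rw [hXz, hxuv, ← zpowers_sq_eq (y := a ^ 2 * b)]
    · congr 1
      have := hab2 2 1
      simp only [pow_one] at this
      rw [this]
      have h4 : a ^ (2 * 2) = a := by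
        calc a ^ (2 * 2) = a ^ 3 * a := by group
          _ = a := by rw [ha, one_mul]
      rw [h4]
    · have := Commute.mul_pow (show Commute (a ^ 2) b from Commute.pow_left hab 2) 3
      rw [this, hb, mul_one, ← pow_mul, mul_comm, pow_mul, ha, one_pow]
  · exact hconj a ⟨1, by simp⟩ (by rw [hXz, hxuv, mul_one, zpowers_sq_eq ha])
  · exact hconj (a ^ 2 * b) h3 (by rw [hXz, hxuv])
  · refine hconj (a * b) h2 ?_
    rw [hXz, hxuv, ← zpowers_sq_eq (y := a * b)]
    · congr 1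
      have := hab2 1 1
      simp only [pow_one, mul_one] at this
      rw [this]
    · have := Commute.mul_pow (show Commute a b from hab) 3
      rw [this, ha, hb, one_mul]

lemma exists_omega {F : Type*} [Field F] [Fintype F] (hF : Fintype.card F = 4) :
    ∃ ω : F, ω * ω = ω + 1 ∧ (2 : F) = 0 := by
  classical
  have h4 : ((4 : ℕ) : F) = 0 := by rw [← hF]; exact Nat.cast_card_eq_zero F
  have h2 : (2 : F) = 0 := by
    have : (2 : F) * 2 = 0 := by
      have h : ((4 : ℕ) : F) = 2 * 2 := by norm_num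
      rw [← h, h4]
    exact mul_self_eq_zero.1 this
  obtain ⟨x, -, hx⟩ : ∃ x ∈ (Finset.univ : Finset F), x ∉ ({0, 1} : Finset F) := by
    apply Finset.exists_mem_notMem_of_card_lt_card
    rw [Finset.card_univ, hF]
    exact lt_of_le_of_lt Finset.card_le_two (by norm_num)
  simp only [Finset.mem_insert, Finset.mem_singleton, not_or] at hx
  have h3 : x ^ 3 = 1 := by
    have := FiniteField.pow_card_sub_one_eq_one x hx.1
    rwa [hF] at this
  have h5 : (x - 1) * (x * x + x + 1) = 0 := by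
    linear_combination h3
  have h6 : x * x + x + 1 = 0 := (mul_eq_zero.1 h5).resolve_left (sub_ne_zero.2 hx.2)
  exact ⟨x, by linear_combination h6 - x * h2 - h2, h2⟩

open Matrix in
/-- Explicit conjugation of `diag(1, ω, ω²)` to a monomial matrix. -/
lemma conj_mono {F : Type*} [Field F] {ω : F} (hω : ω * ω = ω + 1) (h2 : (2 : F) = 0)
    (α β γ c : F) (hαβγ : α * β * γ = 1) (hc : c * (α * α * β) = 1) :
    ∃ (g d M : SpecialLinearGroup (Fin 3) F),
      (d : Matrix (Fin 3) (Fin 3) F) = !![1, 0, 0; 0, ω, 0; 0, 0, ω * ω] ∧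
      (M : Matrix (Fin 3) (Fin 3) F) = !![0, 0, γ; α, 0, 0; 0, β, 0] ∧
      g * d * g⁻¹ = M := by
  have hω3 : ω * (ω * ω) = 1 := by grind
  have hd : (!![1, 0, 0; 0, ω, 0; 0, 0, ω * ω] : Matrix (Fin 3) (Fin 3) F).det = 1 := by
    rw [Matrix.det_fin_three]
    simp [hω3]
  have hM : (!![0, 0, γ; α, 0, 0; 0, β, 0] : Matrix (Fin 3) (Fin 3) F).det = 1 := by
    rw [Matrix.det_fin_three]
    simp
    grind
  have hg : (!![c, 1, 1; c * α, α * (ω * ω), α * ω; c * (α * β), α * β * ω, α * β * (ω * ω)] : Matrix (Fin 3) (Fin 3) F).det = 1 := by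
    rw [Matrix.det_fin_three]
    simp
    grind
  let g' : SpecialLinearGroup (Fin 3) F := ⟨_, hg⟩
  let d' : SpecialLinearGroup (Fin 3) F := ⟨_, hd⟩
  let M' : SpecialLinearGroup (Fin 3) F := ⟨_, hM⟩
  refine ⟨g', d', M', rfl, rfl, ?_⟩
  rw [mul_inv_eq_iff_eq_mul]
  apply Subtype.ext
  change g'.1 * d'.1 = M'.1 * g'.1
  ext i j
  fin_cases i <;> fin_cases j <;> simp [g', d', M', Matrix.mul_apply, Fin.sum_univ_three] <;> grind


/-- In the projective special linear group PSL(3, 4) all subgroups of order 3 are conjugate. -/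
theorem result (F : Type*) [Field F] [Fintype F] (hF : Fintype.card F = 4) (X Y : Subgroup (Matrix.ProjectiveSpecialLinearGroup (Fin 3) F)) (hX : Nat.card ↥X = 3) (hY : Nat.card ↥Y = 3) : ∃ g : Matrix.ProjectiveSpecialLinearGroup (Fin 3) F, MulAut.conj g • X = Y := by
  classical
  obtain ⟨ω, hω, h2⟩ := exists_omega hF
  have hω3 : ω * (ω * ω) = 1 := by grind
  have hω1 : ω ≠ 1 := by
    rintro rfl
    exact one_ne_zero (show (1 : F) = 0 by linear_combination (-1 : F) * hω)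
  have h0ne : (0 : F) ≠ 1 := zero_ne_one
  obtain ⟨g₁, d, M₁, hd, hM₁, h₁⟩ := conj_mono hω h2 1 1 1 1 (by simp) (by simp)
  obtain ⟨g₂, d₂, M₂, hd₂, hM₂, h₂⟩ := conj_mono hω h2 ω (ω * ω) 1 (ω * ω) (by rw [mul_one]; exact hω3) (by grind)
  obtain ⟨g₃, d₃, M₃, hd₃, hM₃, h₃⟩ := conj_mono hω h2 (ω * ω) ω 1 ω (by rw [mul_one]; grind) (by grind)
  have hdd₂ : d₂ = d := Subtype.ext (hd₂.trans hd.symm)
  have hdd₃ : d₃ = d := Subtype.ext (hd₃.trans hd.symm)
  rw [hdd₂] at h₂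
  rw [hdd₃] at h₃
  -- the projection
  let φ : Matrix.SpecialLinearGroup (Fin 3) F →* Matrix.ProjectiveSpecialLinearGroup (Fin 3) F :=
    QuotientGroup.mk' _
  have hker : ∀ u, φ u = 1 ↔ u ∈ Subgroup.center (Matrix.SpecialLinearGroup (Fin 3) F) := by
    intro u
    rw [← MonoidHom.mem_ker, QuotientGroup.ker_mk']
  have hM₂d : M₂ = d * M₁ := by
    apply Subtype.ext
    change M₂.1 = d.1 * M₁.1
    rw [hM₂, hd, hM₁]
    ext i j
    fin_cases i <;> fin_cases j <;> simp [Matrix.mul_apply, Fin.sum_univ_three]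
  have hM₃d : M₃ = d ^ 2 * M₁ := by
    apply Subtype.ext
    rw [sq]
    change M₃.1 = (d.1 * d.1) * M₁.1
    rw [hM₃, hd, hM₁]
    ext i j
    fin_cases i <;> fin_cases j <;> simp [Matrix.mul_apply, Fin.sum_univ_three] <;> grind
  have hd3 : d ^ 3 = 1 := by
    apply Subtype.ext
    rw [pow_succ, sq]
    change (d.1 * d.1) * d.1 = 1
    rw [hd]
    ext i j
    fin_cases i <;> fin_cases j <;> simp [Matrix.mul_apply, Fin.sum_univ_three] <;> grind
  have hM3 : M₁ ^ 3 = 1 := by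
    apply Subtype.ext
    rw [pow_succ, sq]
    change (M₁.1 * M₁.1) * M₁.1 = 1
    rw [hM₁]
    ext i j
    fin_cases i <;> fin_cases j <;> simp [Matrix.mul_apply, Fin.sum_univ_three]
  -- commuting modulo the centre
  have hz : (Matrix.scalar (Fin 3) ω : Matrix (Fin 3) (Fin 3) F).det = 1 := by
    rw [Matrix.det_fin_three]
    simp [Matrix.scalar_apply, Matrix.diagonal_apply]
    grind
  let z : Matrix.SpecialLinearGroup (Fin 3) F := ⟨_, hz⟩
  have hzc : φ z = 1 := by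
    rw [hker, Matrix.SpecialLinearGroup.mem_center_iff]
    exact ⟨ω, by simp; grind, rfl⟩
  have hcomm : d * M₁ = z * (M₁ * d) := by
    apply Subtype.ext
    change d.1 * M₁.1 = z.1 * (M₁.1 * d.1)
    rw [hd, hM₁]
    ext i j
    fin_cases i <;> fin_cases j <;> simp [z, Matrix.mul_apply, Fin.sum_univ_three, Matrix.scalar_apply, Matrix.diagonal_apply] <;> grind
  have hab : φ d * φ M₁ = φ M₁ * φ d := by
    rw [← map_mul, ← map_mul, hcomm, map_mul, hzc, one_mul]
  have hnd : ∀ D : Matrix.SpecialLinearGroup (Fin 3) F, D.1 1 0 = 0 → φ M₁ ≠ φ D := by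
    intro D hD h
    have h1 : φ (D⁻¹ * M₁) = 1 := by
      rw [map_mul, map_inv, h, inv_mul_cancel]
    rw [hker, Matrix.SpecialLinearGroup.mem_center_iff] at h1
    obtain ⟨r, -, hr⟩ := h1
    have h3 : M₁ = D * (D⁻¹ * M₁) := by group
    have h4 : M₁.1 1 0 = (D.1 * (D⁻¹ * M₁).1) 1 0 := by
      rw [← Matrix.SpecialLinearGroup.coe_mul, ← h3]
    rw [← hr, hM₁] at h4
    simp [Matrix.mul_apply, Fin.sum_univ_three, Matrix.scalar_apply, Matrix.diagonal_apply, hD] at h4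
  have ha1 : φ d ≠ 1 := by
    intro h
    rw [hker, Matrix.SpecialLinearGroup.mem_center_iff] at h
    obtain ⟨r, -, hr⟩ := h
    have h1 := congrFun (congrFun hr 0) 0
    have h3 := congrFun (congrFun hr 1) 1
    rw [hd] at h1 h3
    simp [Matrix.scalar_apply, Matrix.diagonal_apply] at h1 h3
    exact hω1 (h3.symm.trans h1)
  have hb' : φ M₁ ∉ Subgroup.zpowers (φ d) := by
    intro h
    rcases mem_zpowers_three (by rw [← map_pow, hd3, map_one]) h with h1 | h1 | h1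
    · exact hnd 1 (by simp) (by rw [h1, map_one])
    · exact hnd d (by rw [hd]; simp) h1
    · refine hnd (d ^ 2) ?_ (by rw [h1, map_pow])
      rw [sq]
      change (d.1 * d.1) 1 0 = 0
      rw [hd]
      simp [Matrix.mul_apply, Fin.sum_univ_three]
  have hcard : Nat.card (Matrix.ProjectiveSpecialLinearGroup (Fin 3) F) = 20160 := by
    have h := Lead.card_PSL (F := F) 3 (by norm_num)
    rw [hF, Fin.prod_univ_three] at h
    norm_num at h
    rw [Nat.card_eq_fintype_card]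
    omega
  have h27 : ¬ 27 ∣ Nat.card (Matrix.ProjectiveSpecialLinearGroup (Fin 3) F) := by
    rw [hcard]; norm_num
  have hc1 : ∃ g, g * φ d * g⁻¹ = φ M₁ := ⟨φ g₁, by rw [← map_inv, ← map_mul, ← map_mul, h₁]⟩
  have hc2 : ∃ g, g * φ d * g⁻¹ = φ d * φ M₁ :=
    ⟨φ g₂, by rw [← map_inv, ← map_mul, ← map_mul, h₂, hM₂d, map_mul]⟩
  have hc3 : ∃ g, g * φ d * g⁻¹ = φ d ^ 2 * φ M₁ :=
    ⟨φ g₃, by rw [← map_inv, ← map_mul, ← map_mul, h₃, hM₃d, map_mul, map_pow]⟩
  have ha3 : φ d ^ 3 = 1 := by rw [← map_pow, hd3, map_one]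
  have hb3 : φ M₁ ^ 3 = 1 := by rw [← map_pow, hM3, map_one]
  obtain ⟨g, hg⟩ := order3_conj h27 (φ d) (φ M₁) hab ha3 hb3 ha1 hb' hc1 hc2 hc3 X hX
  obtain ⟨g', hg'⟩ := order3_conj h27 (φ d) (φ M₁) hab ha3 hb3 ha1 hb' hc1 hc2 hc3 Y hY
  refine ⟨g'⁻¹ * g, ?_⟩
  change X.map (MulAut.conj (g'⁻¹ * g)).toMonoidHom = Y
  rw [← H13.map_conj_mul, hg, ← hg', H13.map_conj_inv_map_conj]

end Cfsg.Agent.S2739
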