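import Cfsg.Statements.S2760
import Cfsg.Agent.Lib.H12.Core2
-- import your own Cfsg.Agent.* helpers here

set_option autoImplicit false
open Cfsg

namespace Cfsg.Agent.S2760

open scoped commutatorElement

variable {G : Type*} [Group G] [Finite G] {p : ℕ} [hp : Fact p.Prime]

theorem key_lemma (hchar : Subgroup.centralizer (Cfsg.pCore p G : Set G) ≤ Cfsg.pCore p G)
    (K : Subgroup G) [K.Normal] {x : G} (hxK : x ∈ K) (hxc : Nat.Coprime (orderOf x) p)
    (hx : ∀ u ∈ (Cfsg.pCore p ↥K).map K.subtype, x * u = u * x) : x = 1 := by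
  set U := (Cfsg.pCore p ↥K).map K.subtype with hU
  have hUp : IsPGroup p ↥U := IsPGroup.map Cfsg.Agent.H13.isPGroup_pCore _
  have hxQ : x ∈ Subgroup.centralizer (Cfsg.pCore p G : Set G) := by
    rw [Subgroup.mem_centralizer_iff]
    intro q hq
    symm
    apply Cfsg.Agent.H12.commute_of_step hUp hxc hx
    -- q⁻¹ x q x⁻¹ ∈ Q ∩ K ≤ U
    have hQ : (Cfsg.pCore p G).Normal := inferInstance
    have h1 : q⁻¹ * (x * q * x⁻¹) ∈ Cfsg.pCore p G := mul_mem (inv_mem hq) (hQ.conj_mem q hq x)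
    have h2 : q⁻¹ * (x * q * x⁻¹) ∈ K := by
      have h3 : q⁻¹ * (x * q * x⁻¹) = (q⁻¹ * x * q⁻¹⁻¹) * x⁻¹ := by group
      rw [h3]
      exact mul_mem ((inferInstance : K.Normal).conj_mem x hxK _) (inv_mem hxK)
    have h4 : (Cfsg.pCore p G).subgroupOf K ≤ Cfsg.pCore p ↥K := by
      apply Cfsg.Agent.H12.subgroupOf_le_pCore
      · exact Cfsg.Agent.H13.isPGroup_pCore
      · rw [Subgroup.normalizer_eq_top_iff.2 hQ]
        exact le_top
    exact ⟨⟨_, h2⟩, h4 h1, rfl⟩
  exact Cfsg.Agent.H12.eq_one_of_mem_isPGroup Cfsg.Agent.H13.isPGroup_pCore (hchar hxQ) hxc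


/-- Let G be a finite group with C_G(O₂(G)) ≤ O₂(G) and H a subgroup of G such that H is normal in G, or the subgroup O²(H) generated by the elements of H of odd order is normal in G. Then C_H(O₂(H)) ≤ O₂(H). -/
theorem result {G : Type*} [Group G] [Finite G] (hchar : Subgroup.centralizer (Cfsg.pCore 2 G : Set G) ≤ Cfsg.pCore 2 G) (H : Subgroup G) (hH : H.Normal ∨ ((Cfsg.pResidual 2 ↥H).map H.subtype).Normal) : Subgroup.centralizer (Cfsg.pCore 2 ↥H : Set ↥H) ≤ Cfsg.pCore 2 ↥H := by
  have hC : (Subgroup.centralizer (Cfsg.pCore 2 ↥H : Set ↥H)).Normal := inferInstance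
  apply Cfsg.Agent.H13.le_pCore hC
  apply Cfsg.Agent.H12.isPGroup_of_no_pprime
  intro x hxC hxc
  have hxc' : Nat.Coprime (orderOf (x : G)) 2 := by rwa [Subgroup.orderOf_coe]
  rcases hH with hH | hH
  · have := key_lemma hchar H (x := (x : G)) x.2 hxc' ?_
    · exact Subtype.ext this
    · rintro _ ⟨u, hu, rfl⟩
      have := Subgroup.mem_centralizer_iff.1 hxC u hu
      have h2 := congrArg Subtype.val this
      simpa using h2.symm
  · set K := (Cfsg.pResidual 2 ↥H).map H.subtype with hK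
    have hxK : (x : G) ∈ K := ⟨x, Subgroup.subset_closure hxc, rfl⟩
    have := key_lemma hchar K hxK hxc' ?_
    · exact Subtype.ext this
    · intro u hu
      have hN := Cfsg.Agent.H12.map_pCore_normal (p := 2) K
      have hKH : K ≤ H := by
        rintro _ ⟨y, -, rfl⟩
        exact y.2
      have huH : u ∈ H := by
        obtain ⟨v, -, rfl⟩ := hu
        exact hKH v.2
      have h1 : ((Cfsg.pCore 2 ↥K).map K.subtype).subgroupOf H ≤ Cfsg.pCore 2 ↥H := by
        apply Cfsg.Agent.H12.subgroupOf_le_pCore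
        · exact IsPGroup.map Cfsg.Agent.H13.isPGroup_pCore _
        · rw [Subgroup.normalizer_eq_top_iff.2 hN]
          exact le_top
      have h2 := h1 (x := ⟨u, huH⟩) hu
      have h3 := Subgroup.mem_centralizer_iff.1 hxC _ h2
      have h4 := congrArg Subtype.val h3
      simpa using h4.symm

end Cfsg.Agent.S2760
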