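import Cfsg.Statements.S2761
import Cfsg.Agent.Lib.H12.Qd
import Cfsg.Agent.Lib.Lead.CardSL
-- import your own Cfsg.Agent.* helpers here

set_option autoImplicit false
open Cfsg

namespace Cfsg.Agent.S2761



/-- The group Qd(2), the natural semidirect product of an elementary abelian group of order 4 by SL₂(2) (realised as the affine subgroup of SL₃(2)), is isomorphic to the symmetric group of degree 4. -/
theorem result : Nonempty (↥(Cfsg.qd 2) ≃* Equiv.Perm (Fin 4)) := by
  have hc1 : Nat.card (Matrix.SpecialLinearGroup (Fin 2) (ZMod 2)) = 6 := by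
    have := Lead.card_SL (F := ZMod 2) 2 (by norm_num)
    simpa [Fin.prod_univ_two, ZMod.card] using this
  have hc2 : Nat.card (Cfsg.qdOver (ZMod 2)) = 24 := by
    rw [H12.Qd.card_qdOver, hc1]
    simp [ZMod.card, Nat.card_eq_fintype_card]
  have hc3 : Nat.card (Equiv.Perm (Fin 2 → ZMod 2)) = 24 := by
    rw [Nat.card_eq_fintype_card, Fintype.card_perm]
    simp [ZMod.card]
    decide
  have hinj := H12.Qd.affHom_injective (F := ZMod 2)
  have hbij : Function.Bijective (H12.Qd.affHom (F := ZMod 2)) := by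
    rw [Nat.bijective_iff_injective_and_card]
    exact ⟨hinj, by rw [hc2, hc3]⟩
  have e2 : Equiv.Perm (Fin 2 → ZMod 2) ≃* Equiv.Perm (Fin 4) :=
    Equiv.permCongrHom (Fintype.equivFinOfCardEq (by simp [ZMod.card]))
  exact ⟨(MulEquiv.ofBijective _ hbij).trans e2⟩

end Cfsg.Agent.S2761
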