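import Cfsg.Statements.S2781
import Cfsg.Agent.Lib.H12.Averaging
-- import your own Cfsg.Agent.* helpers here

set_option autoImplicit false
open Cfsg

namespace Cfsg.Agent.S2781

open scoped commutatorElement


/-- Let H act faithfully by conjugation on the elementary abelian p-subgroup V of a finite group, let O^p(H) be the subgroup of H generated by its elements of order prime to p, and T a Sylow p-subgroup of O^p(H). If V is generated by the H-conjugates of C_V(T) (V is the smallest H-invariant subgroup containing C_V(T)), then V = [V, O^p(H)]·C_V(O^p(H)). -/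
theorem result {G : Type*} [Group G] [Finite G] {p : ℕ} [Fact p.Prime] (V H : Subgroup G) (hV : Cfsg.IsElementaryAbelian p V) (hHV : H ≤ Subgroup.normalizer (V : Set G)) (hf : H ⊓ Subgroup.centralizer (V : Set G) = ⊥) (R : Subgroup G) (hR : R = (Cfsg.pResidual p ↥H).map H.subtype) (S : Sylow p ↥R) (T : Subgroup G) (hT : T = ((S : Subgroup ↥R).map R.subtype)) (hgen : ∀ W : Subgroup G, H ≤ Subgroup.normalizer (W : Set G) → (V ⊓ Subgroup.centralizer ((T : Subgroup G) : Set G)) ≤ W → V ≤ W) : ⁅V, R⁆ ⊔ (V ⊓ Subgroup.centralizer ((R : Subgroup G) : Set G)) = V := by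
  have hVc : ∀ a ∈ V, ∀ b ∈ V, a * b = b * a := by
    intro a ha b hb
    have := hV.1.is_comm.comm ⟨a, ha⟩ ⟨b, hb⟩
    exact congrArg Subtype.val this
  have hRH : R ≤ H := by
    rw [hR]; rintro _ ⟨x, -, rfl⟩; exact x.2
  have hRV : R ≤ Subgroup.normalizer (V : Set G) := hRH.trans hHV
  have hRn : H ≤ Subgroup.normalizer (R : Set G) := by
    intro h hh
    rw [hR]
    apply Cfsg.Agent.H13.mem_normalizer_of_map_conj_le
    rintro _ ⟨_, ⟨x, hx, rfl⟩, rfl⟩
    have h1 := (inferInstance : (Cfsg.pResidual p ↥H).Normal).conj_mem x hx ⟨h, hh⟩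
    exact ⟨_, h1, rfl⟩
  have hTR : T ≤ R := by
    rw [hT]; rintro _ ⟨x, -, rfl⟩; exact x.2
  have hidx : ¬ p ∣ T.relIndex R := by
    have h1 : T.subgroupOf R = (S : Subgroup ↥R) := by
      rw [hT]
      exact Subgroup.comap_map_eq_self_of_injective R.subtype_injective _
    rw [Subgroup.relIndex, h1]
    exact S.not_dvd_index
  set W := ⁅V, R⁆ ⊔ (V ⊓ Subgroup.centralizer ((R : Subgroup G) : Set G)) with hW
  have hWV : W ≤ V := by
    apply sup_le
    · rw [Subgroup.commutator_le]
      intro v hv r hr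
      have : ⁅v, r⁆ = v * (r * v⁻¹ * r⁻¹) := by rw [commutatorElement_def]; group
      rw [this]
      exact mul_mem hv ((Subgroup.mem_normalizer_iff.1 (hRV hr) _).1 (inv_mem hv))
    · exact inf_le_left
  have hHW : H ≤ Subgroup.normalizer (W : Set G) := by
    intro h hh
    apply Cfsg.Agent.H13.mem_normalizer_of_map_conj_le
    have e1 := Cfsg.Agent.H13.map_conj_eq_of_mem_normalizer (hHV hh)
    have e2 := Cfsg.Agent.H13.map_conj_eq_of_mem_normalizer (hRn hh)
    rw [hW, Subgroup.map_sup, Subgroup.map_commutator, e1, e2, Cfsg.Agent.H13.map_conj_inf, e1,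
      Cfsg.Agent.H13.map_conj_centralizer, e2]
  apply le_antisymm hWV
  apply hgen W hHW
  rintro z ⟨hz1, hz2⟩
  have hz1' : z ∈ V := hz1
  have hz2' : z ∈ Subgroup.centralizer (T : Set G) := hz2
  obtain ⟨y, m, hy, hm, hyg, hym⟩ := Cfsg.Agent.H12.exists_average V R T hVc hRV hTR hz1'
    (fun t ht => Subgroup.mem_centralizer_iff.1 hz2' t ht)
  have hyC : y ∈ V ⊓ Subgroup.centralizer ((R : Subgroup G) : Set G) := by
    refine ⟨hy, ?_⟩
    change y ∈ Subgroup.centralizer ((R : Subgroup G) : Set G)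
    rw [Subgroup.mem_centralizer_iff]
    intro r hr
    have h1 := hyg r (hRV hr) (fun r₁ hr₁ => ⟨r * r₁, mul_mem hr hr₁, by group⟩)
    rw [mul_inv_eq_iff_eq_mul] at h1
    exact h1
  have hzm : z ^ m ∈ W := by
    have h1 : z ^ m = (z ^ m * y⁻¹) * y := by group
    rw [h1]
    exact mul_mem ((le_sup_left : ⁅V, R⁆ ≤ W) hym) ((le_sup_right : _ ≤ W) hyC)
  refine Cfsg.Agent.H12.mem_of_pow_mem_of_coprime W (hV.2 z hz1') ?_ hzm
  have hp := (Fact.out : p.Prime)
  have h2 : ¬ p ∣ m := fun h => hidx (h.trans hm)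
  exact ((Nat.Prime.coprime_iff_not_dvd hp).2 h2).symm

end Cfsg.Agent.S2781
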