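import Cfsg.Statements.S2788
import Cfsg.Agent.Lib.H12.QuadBound
import Cfsg.Agent.Lib.H12.PReduced
-- import your own Cfsg.Agent.* helpers here

set_option autoImplicit false
open Cfsg

namespace Cfsg.Agent.S2788



/-- Let H act faithfully by conjugation on the elementary abelian p-subgroup V of a finite group with H ≅ SL₂(F), F a field with p^n elements, S a Sylow p-subgroup of H, and A ≤ S a subgroup of order at least 3 acting quadratically on V ([V, A, A] = 1). Then |V/C_V(a)| ≥ p^n for every nonidentity a ∈ A. -/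
theorem result {G : Type*} [Group G] [Finite G] {p : ℕ} [Fact p.Prime] (V H : Subgroup G) (hV : Cfsg.IsElementaryAbelian p V) (hHV : H ≤ Subgroup.normalizer (V : Set G)) (hf : H ⊓ Subgroup.centralizer (V : Set G) = ⊥) {F : Type*} [Field F] [Fintype F] (n : ℕ) (hF : Fintype.card F = p ^ n) (hiso : Nonempty (↥H ≃* Matrix.SpecialLinearGroup (Fin 2) F)) (S : Sylow p ↥H) (T : Subgroup G) (hT : T = ((S : Subgroup ↥H).map H.subtype)) (A : Subgroup G) (hA : A ≤ T) (hA3 : 3 ≤ Nat.card A) (hquad : ⁅⁅V, A⁆, A⁆ = ⊥) : ∀ a ∈ A, a ≠ 1 → p ^ n ≤ ((V ⊓ Subgroup.centralizer ({a} : Set G))).relIndex V := by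
  intro a ha ha1
  obtain ⟨φ⟩ := hiso
  have hVp : IsPGroup p V := H12.isPGroup_of_elementary hV
  have hVc := H12.isElementaryAbelian_comm hV
  have hp' : p.Prime := Fact.out
  have haT : a ∈ T := hA ha
  rw [hT] at haT
  obtain ⟨s, hsS, rfl⟩ := haT
  have hs1 : φ s ≠ 1 := by
    intro h
    apply ha1
    have : s = 1 := φ.injective (by rw [h, map_one])
    rw [this]; rfl
  obtain ⟨k, hk⟩ : ∃ k, s ^ p ^ k = 1 := by
    obtain ⟨k, hk⟩ := (IsPGroup.iff_orderOf.1 S.isPGroup') ⟨s, hsS⟩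
    refine ⟨k, ?_⟩
    rw [Subgroup.orderOf_mk] at hk
    rw [← hk, pow_orderOf_eq_one]
  have hk' : (φ s) ^ p ^ k = 1 := by rw [← map_pow, hk, map_one]
  change p ^ n ≤ (H12.cV V (s : G)).relIndex V
  by_cases hn : 2 ≤ n
  · by_cases hp2 : p = 2
    · subst hp2
      exact (H12.char2_bound V H hVp hHV hf hF hn φ.toMonoidHom φ.surjective s hs1 hk').1
    · exact H12.odd_bound V H hVp hVc hHV hf hp2 hF hn φ s hs1 hk'
  · obtain ⟨d, hd⟩ := H12.relIndex_eq_pow hVp (H12.cV V (s : G))
    have hd0 : d ≠ 0 := by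
      rintro rfl
      rw [pow_zero, Subgroup.relIndex_eq_one] at hd
      apply ha1
      have h3 : (s : G) ∈ H ⊓ Subgroup.centralizer (V : Set G) := by
        refine ⟨s.2, Subgroup.mem_centralizer_iff.2 ?_⟩
        intro v hv
        have := (H12.mem_cV.1 (hd hv)).2
        exact this
      rw [hf, Subgroup.mem_bot] at h3
      exact h3
    rw [hd]
    have hn1 : n ≤ d := by omega
    exact Nat.pow_le_pow_right hp'.pos hn1

end Cfsg.Agent.S2788
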