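import Cfsg.Statements.S2791
import Cfsg.Agent.Lib.H12.StrongCtl
-- import your own Cfsg.Agent.* helpers here

set_option autoImplicit false
open Cfsg

namespace Cfsg.Agent.S2791



/-- Let S be a Sylow p-subgroup of the finite group G and A an abelian subgroup of S that is strongly closed in S with respect to G. Then A controls strong fusion in G: for some Sylow p-subgroup T containing A, whenever a subset of T is conjugated into T by an element of G, the same elementwise conjugation is induced by an element of N_G(A). -/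
theorem result {G : Type*} [Group G] [Finite G] {p : ℕ} [Fact p.Prime] (S : Sylow p G) (A : Subgroup G) (hA : IsMulCommutative ↥A) (hsc : Cfsg.IsStronglyClosed A (S : Subgroup G)) : Cfsg.ControlsStrongFusion p A := by
  have hAc : ∀ a ∈ A, ∀ b ∈ A, a * b = b * a := fun a ha b hb =>
    congrArg Subtype.val (hA.is_comm.comm ⟨a, ha⟩ ⟨b, hb⟩)
  refine ⟨S, hsc.1, fun X hX => ⟨hX, fun g hg => ?_⟩⟩
  have hQ : Subgroup.closure X ≤ (S : Subgroup G) := (Subgroup.closure_le _).2 hX
  have hQ' : (Subgroup.closure X).map (MulAut.conj g).toMonoidHom ≤ (S : Subgroup G) := by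
    rw [MonoidHom.map_closure, Subgroup.closure_le]
    rintro _ ⟨x, hx, rfl⟩
    exact hg ⟨x, hx, rfl⟩
  obtain ⟨h, hh, he⟩ := H12.strong_control hAc hsc.1 hsc.2 S.2 S rfl _ (Subgroup.closure X) g rfl hQ hQ'
  exact ⟨h, hh, fun a ha => he a (Subgroup.subset_closure ha)⟩

end Cfsg.Agent.S2791
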