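import Mathlib
import Cfsg.Statements.S2794
import Cfsg.Agent.Lib.H14.QdInv
-- import your own Cfsg.Agent.* helpers here

set_option autoImplicit false
open Cfsg

namespace Cfsg.Agent.S2794


/-- For an odd prime p and a finite group G, the group Qd(p) is not involved in G if and only if in every section K/R of G, for every Sylow p-subgroup S* of K/R, the centre of J(S*) (J generated by the abelian subgroups of largest order) controls strong fusion in K/R. -/
theorem result {G : Type*} [Group G] [Finite G] {p : ℕ} [Fact p.Prime] (hp : p ≠ 2) : ¬ Cfsg.Involves ↥(Cfsg.qd p) G ↔ ∀ (K R : Subgroup G) [hR : (R.subgroupOf K).Normal], ∀ T : Sylow p (K ⧸ R.subgroupOf K), Cfsg.ControlsStrongFusion p (Cfsg.centerThompsonAOf (T : Subgroup (K ⧸ R.subgroupOf K))) := by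
  constructor
  · intro hfree K R hR T
    rw [← Cfsg.Agent.H14.inducedFunctor_zjF]
    refine Cfsg.Agent.H09.strongFusion_of_normal Cfsg.Agent.H14.zjF
      (Cfsg.Agent.H14.isCharPFunctor_zjF p) ?_ (K ⧸ R.subgroupOf K)
      (Cfsg.Agent.H09.involves_section K R) T
    intro Y _ _ hY hc T'
    have hfreeY : ¬ Cfsg.Involves ↥(Cfsg.qdOver (ZMod p)) Y := fun h =>
      hfree (Cfsg.Agent.H09.Involves.trans' h hY)
    have hst := Cfsg.Agent.H14.stable_of_not_involves hp hfreeY
    have hD : Cfsg.IsStronglyClosed (T' : Subgroup Y) (T' : Subgroup Y) := ⟨le_refl _, fun _ _ _ h => h⟩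
    have h1 := Cfsg.Agent.H14.zz_normal (Cfsg.Agent.H14.abFam Y) hp T' hD hst hc
    rw [Cfsg.Agent.H14.inducedFunctor_zjF, Cfsg.Agent.H14.centerThompsonAOf_eq_zz]
    exact h1
  · rintro h ⟨K, R, hR, ⟨e⟩⟩
    haveI := hR
    haveI : Finite (K ⧸ R.subgroupOf K) := inferInstance
    let T : Sylow p (K ⧸ R.subgroupOf K) := default
    have h1 := h K R T
    rw [← Cfsg.Agent.H14.inducedFunctor_zjF] at h1
    exact Cfsg.Agent.H14.not_controls_functor Cfsg.Agent.H14.zjF
      (Cfsg.Agent.H14.isCharPFunctor_zjF p) e T h1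

end Cfsg.Agent.S2794
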