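import Cfsg.Statements.S2941
import Cfsg.Agent.Lib.H13.JComp

set_option autoImplicit false

open Cfsg

namespace Cfsg.Agent.S2941

open Cfsg.Agent.H13

theorem result {G : Type*} [Group G] [Finite G] (hL : Cfsg.IsCharacteristicTwoType G) (hN : ∀ N : Subgroup G, Cfsg.IsTwoLocal N → Group.IsSolvable ↥N)
    (hZ : ∀ S : Sylow 2 G, Subgroup.centralizer (Cfsg.omegaCenterOf (S : Subgroup G) : Set G) ≤ Subgroup.normalizer ((S : Subgroup G) : Set G)) (T : Subgroup G) (hT : IsPGroup 2 ↥T) (hT1 : T ≠ ⊥) (K : Subgroup G) (hK : Cfsg.IsJComponent T K)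
    (Q : Subgroup G) (hQ1 : K ⊔ Cfsg.thompsonSubgroupOf 2 T ≤ Subgroup.normalizer (Q : Set G)) (hQ2 : Q ≤ Subgroup.normalizer (Cfsg.thompsonSubgroupOf 2 T : Set G)) :
    Q ≤ Subgroup.normalizer (K : Set G) := by
  have hJ : IsPGroup 2 (Cfsg.thompsonSubgroupOf 2 T) := by
    have : Cfsg.thompsonSubgroupOf 2 T ≤ T := Subgroup.map_subtype_le _
    exact hT.to_le this
  obtain ⟨h1, h2, h3, -⟩ := hK
  exact normalizes_of_jcomponent hJ h1 h2 h3 hQ1 hQ2

end Cfsg.Agent.S2941
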