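import Cfsg.Statements.S2947
import Cfsg.Agent.Lib.H13.StrongP

set_option autoImplicit false
open Cfsg

namespace Cfsg.Agent.S2947

open Cfsg.Agent.H13

/-- Let G be a finite group of characteristic 2 type in which every 2-local subgroup is solvable and the centralizer of Ω₁(Z(S)) lies in N_G(S) for every Sylow 2-subgroup S; suppose O₂(G) = 1, fix a Sylow 2-subgroup S and a 2-local subgroup M containing N_G(J(S)) (J the Thompson subgroup generated by the elementary abelian 2-subgroups of largest order). Then M is strongly embedded in G (a proper subgroup of even order whose intersection with each conjugate by an element outside M has odd order) if and only if no nontrivial 2-subgroup of M lies in a 2-local subgroup of G not contained in M. -/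
theorem result {G : Type*} [Group G] [Finite G] (hL : Cfsg.IsCharacteristicTwoType G) (hN : ∀ N : Subgroup G, Cfsg.IsTwoLocal N → Group.IsSolvable ↥N)
    (hZ : ∀ S : Sylow 2 G, Subgroup.centralizer (Cfsg.omegaCenterOf (S : Subgroup G) : Set G) ≤ Subgroup.normalizer ((S : Subgroup G) : Set G)) (hO : Cfsg.pCore 2 G = ⊥) (S : Sylow 2 G) (M : Subgroup G) (hM : Cfsg.IsTwoLocal M)
    (hMJ : Subgroup.normalizer (Cfsg.thompsonSubgroupOf 2 (S : Subgroup G) : Set G) ≤ M) :
    Cfsg.IsStronglyEmbedded M ↔ Cfsg.straddlingTwoSubgroups M = ∅ := by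
  haveI : Fact (Nat.Prime 2) := ⟨Nat.prime_two⟩
  have ev : ∀ D : Subgroup G, IsPGroup 2 D → D ≠ ⊥ → Even (Nat.card D) := by
    intro D hD hD1
    haveI : Nontrivial D := (Subgroup.nontrivial_iff_ne_bot _).mpr hD1
    obtain ⟨n, hn⟩ := IsPGroup.iff_card.mp hD
    have hn0 : n ≠ 0 := by
      rintro rfl
      rw [pow_zero] at hn
      have := Finite.one_lt_card (α := D)
      omega
    rw [hn]
    exact (Nat.even_pow.mpr ⟨even_two, hn0⟩)
  constructor
  · rintro ⟨hne, hev, hodd⟩
    have hLC : LocallyClosed 2 M := by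
      intro D hD hD1 hDM g hg
      by_contra hgM
      have h1 := hodd g hgM
      have h2 : D ≤ M ⊓ M.map (MulAut.conj g).toMonoidHom := by
        refine le_inf hDM ?_
        have := Subgroup.map_mono (f := (MulAut.conj g).toMonoidHom) hDM
        rwa [map_conj_eq_of_mem_normalizer hg] at this
      have h3 : Nat.card D ∣ Nat.card ↥(M ⊓ M.map (MulAut.conj g).toMonoidHom) :=
        Subgroup.card_dvd_of_le h2
      have h4 := ev D hD hD1
      obtain ⟨k, hk⟩ := h3
      rw [hk] at h1
      exact (Nat.not_even_iff_odd.mpr h1) (h4.mul_right k)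
    rw [Set.eq_empty_iff_forall_notMem]
    rintro T ⟨hT2, hT1, hTM, L, ⟨U, hU2, hU1, rfl⟩, hTL, hLM⟩
    have hsup : IsPGroup 2 (T ⊔ U : Subgroup G) := IsPGroup.to_sup_of_normal_right' hT2 hU2 hTL
    have h1 : T ⊔ U ≤ M := by
      apply hLC.pgroup_le hsup
      intro h0
      apply hT1
      rw [eq_bot_iff, ← h0]
      exact le_inf le_sup_left hTM
    exact hLM (hLC U hU2 hU1 (le_sup_right.trans h1))
  · intro hs
    have hLC : LocallyClosed 2 M := by
      intro D hD hD1 hDM
      by_contra hne
      have : D ∈ Cfsg.straddlingTwoSubgroups M :=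
        ⟨hD, hD1, hDM, _, ⟨D, hD, hD1, rfl⟩, Subgroup.le_normalizer, hne⟩
      rw [hs] at this
      exact this
    obtain ⟨T₀, hT₀2, hT₀1, rfl⟩ := hM
    refine ⟨?_, ?_, ?_⟩
    · intro htop
      have hn : T₀.Normal := Subgroup.normalizer_eq_top_iff.mp htop
      have := le_pCore hn hT₀2
      rw [hO] at this
      exact hT₀1 (le_bot_iff.mp this)
    · have h1 := ev T₀ hT₀2 hT₀1
      obtain ⟨k, hk⟩ := Subgroup.card_dvd_of_le (Subgroup.le_normalizer (H := T₀))
      rw [hk]
      exact h1.mul_right k
    · intro g hg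
      rw [← Nat.not_even_iff_odd]
      intro hev
      obtain ⟨x, hx⟩ := exists_prime_orderOf_dvd_card' 2 hev.two_dvd
      have hxo : orderOf (x : G) = 2 := by rwa [Subgroup.orderOf_coe]
      have hDp : IsPGroup 2 (Subgroup.zpowers (x : G)) := by
        apply IsPGroup.of_card (n := 1)
        rw [Nat.card_zpowers, hxo, pow_one]
      have hD1 : Subgroup.zpowers (x : G) ≠ ⊥ := by
        intro h0
        rw [Subgroup.zpowers_eq_bot] at h0
        rw [h0, orderOf_one] at hxo
        omega
      apply hg
      apply hLC.mem_of_conj hDp hD1 (Subgroup.zpowers_le.mpr x.2.1)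
      rw [map_conj_le_iff, inv_inv, Subgroup.zpowers_le]
      exact x.2.2

end Cfsg.Agent.S2947
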