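import Mathlib
import Cfsg.Statements.S3084
import Cfsg.Agent.Lib.H14.CG5
-- import your own Cfsg.Agent.* helpers here

set_option autoImplicit false
open Cfsg

namespace Cfsg.Agent.S3084


/-- Let K be a group acting faithfully and linearly on a finite-dimensional vector space U of dimension 2n ≥ 2 over the field with two elements, preserving a quadratic form q whose polar bilinear form is non-degenerate and which vanishes on some n-dimensional subspace (a non-singular form of plus type). Then there is a finite group R with a normal extraspecial 2-subgroup Q of order 2^(2n+1), an isomorphism of R/Q with K, and a surjective homomorphism χ from Q onto (the additive group of) U with kernel the centre of Q, such that χ carries conjugation by any r in R to the action of the image of r in K, and an element a of Q squares to the identity exactly when q vanishes at χ(a). -/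
theorem result {K : Type*} [Group K] {U : Type*} [AddCommGroup U] [Module (ZMod 2) U] [Module.Finite (ZMod 2) U] (n : ℕ) (hn1 : 1 ≤ n) (hn : Module.finrank (ZMod 2) U = 2 * n) (ρ : Representation (ZMod 2) K U) (hρ : Function.Injective ρ) (q : QuadraticForm (ZMod 2) U) (hq : ∀ (k : K) (u : U), q (ρ k u) = q u) (hnd : (QuadraticMap.polarBilin q).Nondegenerate) (hplus : ∃ W : Submodule (ZMod 2) U, Module.finrank (ZMod 2) ↥W = n ∧ ∀ w ∈ W, q w = 0) : ∃ (R : Type) (_ : Group R) (_ : Finite R) (Q : Subgroup R) (hN : Q.Normal) (e : R ⧸ Q ≃* K) (χ : ↥Q →* Multiplicative U), Cfsg.IsExtraspecial 2 ↥Q ∧ Nat.card ↥Q = 2 ^ (2 * n + 1) ∧ Function.Surjective χ ∧ χ.ker = Subgroup.center ↥Q ∧ (∀ (r : R) (a : ↥Q), χ ⟨r * a * r⁻¹, hN.conj_mem (a : R) a.2 r⟩ = Multiplicative.ofAdd (ρ (e (r : R ⧸ Q)) (Multiplicative.toAdd (χ a)))) ∧ ∀ a : ↥Q, a * a = 1 ↔ q (Multiplicative.toAdd (χ a)) = 0 := by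
  classical
  obtain ⟨φ, hφ⟩ := Cfsg.Agent.H14.CG.exists_coords (n := n) hn q hnd hplus
  let g : K → Cfsg.Agent.H14.CG.SS n →ₗ[ZMod 2] Cfsg.Agent.H14.CG.SS n := fun k =>
    φ.symm.toLinearMap ∘ₗ (ρ k) ∘ₗ φ.toLinearMap
  have hgdef : ∀ k u, g k u = φ.symm (ρ k (φ u)) := fun _ _ => rfl
  have hg : Cfsg.Agent.H14.CG.IsoAct g := by
    refine ⟨fun u => ?_, fun k k' u => ?_, fun k u => ?_, fun k k' h => ?_⟩
    · rw [hgdef, map_one]
      simp
    · rw [hgdef, hgdef, hgdef, map_mul]
      simp
    · rw [← hφ, hgdef, LinearEquiv.apply_symm_apply, hq, hφ]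
    · apply hρ
      ext x
      have h1 := h (φ.symm x)
      rw [hgdef, hgdef, LinearEquiv.apply_symm_apply] at h1
      exact φ.symm.injective h1
  haveI hfU : Finite U := Module.finite_of_finite (ZMod 2)
  haveI hfK : Finite K := by
    apply Finite.of_injective (fun k => (⇑(ρ k) : U → U))
    intro k k' h
    apply hρ
    exact LinearMap.ext (fun x => congrFun h x)
  obtain ⟨R, iR, fR, Q, hN, e, χ, h1, h2, h3, h4, h5, h6⟩ := Cfsg.Agent.H14.CG.main_abs hn1 hg
  let χ' : ↥Q →* Multiplicative U := (AddMonoidHom.toMultiplicative (φ : Cfsg.Agent.H14.CG.SS n →+ U)).comp χ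
  have hχ' : ∀ a, χ' a = Multiplicative.ofAdd (φ (Multiplicative.toAdd (χ a))) := fun _ => rfl
  refine ⟨R, iR, fR, Q, hN, e, χ', h1, h2, ?_, ?_, ?_, ?_⟩
  · intro y
    obtain ⟨a, ha⟩ := h3 (Multiplicative.ofAdd (φ.symm (Multiplicative.toAdd y)))
    refine ⟨a, ?_⟩
    rw [hχ', ha]
    simp
  · rw [← h4]
    ext a
    rw [MonoidHom.mem_ker, MonoidHom.mem_ker, hχ']
    constructor
    · intro h
      have h7 : φ (Multiplicative.toAdd (χ a)) = 0 := h
      have h8 : Multiplicative.toAdd (χ a) = 0 := by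
        apply φ.injective
        rw [h7, map_zero]
      exact h8
    · intro h
      rw [h]
      simp
  · intro r a
    rw [hχ', h5, hχ']
    simp [hgdef]
  · intro a
    rw [h6, hχ']
    exact (hφ _).symm ▸ Iff.rfl

end Cfsg.Agent.S3084
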