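import Cfsg.Statements.S3085
import Cfsg.Agent.Lib.H08.Griess
-- import your own Cfsg.Agent.* helpers here

set_option autoImplicit false
open Cfsg

namespace Cfsg.Agent.S3085


open Cfsg.Agent.H08.Griess Cfsg.Agent.H13.ExtraBound


/-- Let Q be an extraspecial 2-group of order 2^(2n+1) with n ≥ 3 that is of plus type (it contains an elementary abelian subgroup of order 2^(n+1)). Then the group of inner automorphisms of Q has no complement in the full automorphism group of Q: the extension of the inner automorphism group (elementary abelian of order 2^(2n)) by the outer automorphism group (the orthogonal group of plus type) does not split. -/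
theorem result {Q : Type*} [Group Q] [Finite Q] (n : ℕ) (hn : 3 ≤ n) (hQ : Cfsg.IsExtraspecial 2 Q) (hcard : Nat.card Q = 2 ^ (2 * n + 1)) (hplus : ∃ E : Subgroup Q, Cfsg.IsElementaryAbelian 2 E ∧ Nat.card ↥E = 2 ^ (n + 1)) (L : Subgroup (MulAut Q)) : ¬ (Cfsg.Inn Q).IsComplement' L := by
  intro hcomp
  haveI : Fact (Nat.Prime 2) := ⟨Nat.prime_two⟩
  obtain ⟨z, w, hcw, hx⟩ := Cfsg.Agent.H01.extC_of_extraspecial hQ
  have hwn : w = n := by
    rw [hcard] at hcw
    have := Nat.pow_right_injective (le_refl 2) hcw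
    omega
  subst hwn
  obtain ⟨k, rfl⟩ : ∃ k, w = k + 3 := ⟨w - 3, by omega⟩
  have hzz : z * z = 1 := by rw [← pow_two]; exact hx.zp
  have hzi : z⁻¹ = z := inv_eq_of_mul_eq_one_left hzz
  have hE : ESData z := by
    refine ⟨hx.z1, hzz, fun x => hx.zc x (Subgroup.mem_top x), ?_, ?_, ?_⟩
    · intro a b
      rcases mem_zpowers_two hx.zp (hx.comm a (Subgroup.mem_top a) b (Subgroup.mem_top b)) with h | h
      · left
        have : a * b = (a * b * a⁻¹ * b⁻¹) * (b * a) := by group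
        rw [this, h, one_mul]
      · right
        have : a * b = (a * b * a⁻¹ * b⁻¹) * (b * a) := by group
        rw [this, h]
    · intro y
      rcases mem_zpowers_two hx.zp (hx.pow y (Subgroup.mem_top y)) with h | h
      · left; rwa [pow_two] at h
      · right; rwa [pow_two] at h
    · intro c hc
      exact mem_zpowers_two hx.zp (hx.cen c (Subgroup.mem_top c) (fun y _ => hc y))
  have hne : ∀ {a b : Q}, a * b * a⁻¹ * b⁻¹ = z → a * b ≠ b * a := by
    intro a b hc h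
    apply hx.z1
    rw [← hc, h]
    group
  obtain ⟨a₁, ha₁, b₁, hb₁, hc₁, hs₁⟩ := order_four_pair hx
  have h₁ := ExtC.reduce hx ha₁ hb₁ (hne hc₁)
  obtain ⟨a₂, ha₂, b₂, hb₂, hc₂, hs₂⟩ := order_four_pair h₁
  have h₂ := ExtC.reduce h₁ ha₂ hb₂ (hne hc₂)
  obtain ⟨a₃, ha₃, b₃, hb₃, hc₃, hs₃⟩ := order_four_pair h₂
  have mem1 : ∀ {x : Q}, x ∈ (⊤ : Subgroup Q) ⊓ Subgroup.centralizer ({b₁} : Set Q) ⊓ Subgroup.centralizer ({a₁} : Set Q) →
      a₁ * x = x * a₁ := fun h => mem_C_iff.1 h.2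
  have mem2 : ∀ {x : Q}, x ∈ ((⊤ : Subgroup Q) ⊓ Subgroup.centralizer ({b₁} : Set Q) ⊓ Subgroup.centralizer ({a₁} : Set Q))
      ⊓ Subgroup.centralizer ({b₂} : Set Q) ⊓ Subgroup.centralizer ({a₂} : Set Q) →
      a₂ * x = x * a₂ ∧ b₂ * x = x * b₂ ∧ a₁ * x = x * a₁ := fun h =>
    ⟨mem_C_iff.1 h.2, mem_C_iff.1 h.1.2, mem_C_iff.1 h.1.1.2⟩
  have h12 : a₁ * a₂ = a₂ * a₁ := mem1 ha₂
  have hb21 : b₂ * a₁ = a₁ * b₂ := (mem1 hb₂).symm
  have hb22 : b₂ * a₂ ≠ a₂ * b₂ := (hne hc₂).symm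
  obtain ⟨h23, hb23', h13⟩ := mem2 ha₃
  obtain ⟨-, -, hb31'⟩ := mem2 hb₃
  exact no_complement hE hs₁ hs₂ hs₃ h12 h13 h23 hb21 hb22 hb23' hb31'.symm (hne hc₃).symm L hcomp

end Cfsg.Agent.S3085
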