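import Mathlib
import Cfsg.Statements.S3103
import Cfsg.Agent.Lib.H14.GL4A8
import Cfsg.Agent.Lib.H01.Coprime4
import Cfsg.Agent.Lib.H01.Basic
import Cfsg.Agent.Lib.H01.Fitting
import Cfsg.Agent.Lib.H03.PConstr
import Cfsg.Agent.Lib.H13.Quadratic
-- import your own Cfsg.Agent.* helpers here

set_option autoImplicit false
open Cfsg

namespace Cfsg.Agent.S3103

open Cfsg.Agent in
/-- conjugation on the Frattini quotient -/
noncomputable def frattAct (Y : Type*) [Group Y] : MulAut Y →* MulAut (Y ⧸ frattini Y) where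
  toFun σ := QuotientGroup.congr (frattini Y) (frattini Y) σ
    ((Subgroup.characteristic_iff_map_eq.mp (inferInstance : (frattini Y).Characteristic)) σ)
  map_one' := by
    ext x
    obtain ⟨y, rfl⟩ := QuotientGroup.mk_surjective x
    rfl
  map_mul' σ τ := by
    ext x
    obtain ⟨y, rfl⟩ := QuotientGroup.mk_surjective x
    rfl


/-- Let X be a finite 2-constrained group with no nontrivial normal subgroup of odd order such that O₂(X) has sectional 2-rank at most 4. Then X/O₂(X) is isomorphic to a subgroup of the alternating group of degree 8. -/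
theorem result {X : Type*} [Group X] [Finite X] (hc : Cfsg.IsPConstrained 2 X) (hO : Cfsg.oddCore X = ⊥)
    (h4 : Cfsg.SectionalPRankLE 2 4 ↥(Cfsg.pCore 2 X)) :
    ∃ f : X ⧸ Cfsg.pCore 2 X →* ↥(alternatingGroup (Fin 8)), Function.Injective f := by
  classical
  have hchar := (Cfsg.Agent.H03.isPConstrained_iff_of_bot hO).mp hc
  have hQn : (pCore 2 X).Normal := Cfsg.Agent.H01.pCore_normal 2
  have hQp : IsPGroup 2 (pCore 2 X) := Cfsg.Agent.H01.pCore_isPGroup 2
  let Q := pCore 2 X
  let Φ := frattini ↥Q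
  have hcomm0 : ∀ a b : ↥Q, a * b * a⁻¹ * b⁻¹ ∈ Φ := by
    intro a b
    apply Cfsg.Agent.H01.commutator_le_frattini_of_isPGroup (p := 2) hQp
    exact Subgroup.commutator_mem_commutator (Subgroup.mem_top a) (Subgroup.mem_top b)
  have hpow0 : ∀ a : ↥Q, a ^ 2 ∈ Φ := fun a =>
    Cfsg.Agent.H01.pow_mem_frattini_of_isPGroup (p := 2) hQp a
  have hcomm : ∀ a b : ↥Q ⧸ Φ, a * b = b * a := by
    intro a b
    obtain ⟨a, rfl⟩ := QuotientGroup.mk_surjective a
    obtain ⟨b, rfl⟩ := QuotientGroup.mk_surjective b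
    rw [← QuotientGroup.mk_mul, ← QuotientGroup.mk_mul, QuotientGroup.eq]
    have := hcomm0 b⁻¹ a⁻¹
    convert this using 1
    group
  have hexp : ∀ a : ↥Q ⧸ Φ, a * a = 1 := by
    intro a
    obtain ⟨a, rfl⟩ := QuotientGroup.mk_surjective a
    rw [← QuotientGroup.mk_mul, QuotientGroup.eq_one_iff, ← pow_two]
    exact hpow0 a
  have hcard : Nat.card (↥Q ⧸ Φ) ≤ 16 := by
    have hs := h4 ⊤ (Φ.subgroupOf ⊤)
    let e : (↥Q ⧸ Φ) ≃* (↥(⊤ : Subgroup ↥Q) ⧸ Φ.subgroupOf ⊤) :=
      QuotientGroup.congr Φ (Φ.subgroupOf ⊤) Subgroup.topEquiv.symm (by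
        ext x
        constructor
        · rintro ⟨a, ha, rfl⟩
          exact ha
        · intro hx
          exact ⟨x.1, hx, rfl⟩)
    have h1 := hs ⊤ ⟨⟨fun a b => by
      apply Subtype.ext
      obtain ⟨a', ha'⟩ := e.surjective a.1
      obtain ⟨b', hb'⟩ := e.surjective b.1
      change a.1 * b.1 = b.1 * a.1
      rw [← ha', ← hb', ← map_mul, ← map_mul, hcomm]⟩⟩ (by
      intro a _
      obtain ⟨a', ha'⟩ := e.surjective a
      rw [← ha', ← map_pow, pow_two, hexp, map_one])
    rw [Subgroup.card_top] at h1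
    rw [Nat.card_congr e.toEquiv]
    simpa using h1
  obtain ⟨f, hf⟩ := Cfsg.Agent.H14.exists_mulAut_embed (↥Q ⧸ Φ) hcomm hexp hcard
  let ψ : X →* MulAut (↥Q ⧸ Φ) := (frattAct ↥Q).comp (MulAut.conjNormal (H := Q))
  have hψ : ∀ (x : X) (k : ↥Q), ψ x (k : ↥Q ⧸ Φ) =
      ((⟨x * k * x⁻¹, hQn.conj_mem _ k.2 x⟩ : ↥Q) : ↥Q ⧸ Φ) := fun x k => rfl
  have hker : ∀ x : X, x ∈ ψ.ker ↔ x ∈ Q := by
    intro x
    constructor
    · intro hx
      have hKp : IsPGroup 2 ψ.ker := by
        apply Cfsg.Agent.H13.isPGroup_of_forall_coprime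
        intro y hy hcop
        have hy1 : ψ y = 1 := hy
        have hcent : Subgroup.zpowers y ≤ Subgroup.centralizer (Q : Set X) := by
          apply Cfsg.Agent.H01.centralizes_of_trivial_on_frattini_quotient
          · intro a _
            exact (Subgroup.normalizer_eq_top_iff.mpr hQn) ▸ Subgroup.mem_top a
          · rw [Nat.card_zpowers]
            have h2 : IsPGroup 2 (frattini ↥Q) := IsPGroup.of_injective hQp (frattini ↥Q).subtype (frattini ↥Q).subtype_injective
            obtain ⟨n, hn⟩ := IsPGroup.iff_card.mp h2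
            rw [hn]
            exact Nat.Coprime.pow_right _ hcop
          · intro a ha k hk
            obtain ⟨i, rfl⟩ := ha
            have h3 : ψ (y ^ i) = 1 := by
              rw [map_zpow, hy1, one_zpow]
            have h4 := hψ (y ^ i) ⟨k, hk⟩
            rw [h3] at h4
            simp only [MulAut.one_apply] at h4
            have h5 := (QuotientGroup.eq.mp h4.symm)
            -- conjugate into the right form
            have h6 : (⟨y ^ i * k * (y ^ i)⁻¹ * k⁻¹, mul_mem (hQn.conj_mem _ hk _) (inv_mem hk)⟩ : ↥Q) ∈ Φ := by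
              have hcc := (inferInstance : Φ.Normal).conj_mem _ (inv_mem h5) (⟨k, hk⟩ : ↥Q)
              convert hcc using 1
              apply Subtype.ext
              simp
            exact ⟨_, h6, rfl⟩
        have hyQ : y ∈ Q := hchar (hcent (Subgroup.mem_zpowers y))
        -- `y` is a `2`-element of odd order
        obtain ⟨n, hn⟩ := (IsPGroup.iff_orderOf.mp hQp) ⟨y, hyQ⟩
        have h7 : orderOf y = 2 ^ n := by
          rw [← hn]
          exact (Subgroup.orderOf_mk y hyQ).symm
        rw [h7] at hcop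
        rcases n with _ | n
        · simpa using h7
        · exfalso
          have h8 := Nat.dvd_gcd (dvd_pow_self 2 (Nat.succ_ne_zero n)) (dvd_refl 2)
          rw [Nat.Coprime.gcd_eq_one hcop] at h8
          omega
      exact Cfsg.Agent.H01.le_pCore (ψ.normal_ker) hKp hx
    · intro hx
      change ψ x = 1
      ext z
      obtain ⟨k, rfl⟩ := QuotientGroup.mk_surjective z
      rw [hψ]
      change _ = ((k : ↥Q) : ↥Q ⧸ Φ)
      rw [QuotientGroup.eq]
      have h5 := hcomm0 (⟨x, hx⟩ : ↥Q) k⁻¹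
      convert h5 using 1
      apply Subtype.ext
      simp
      group
  refine ⟨QuotientGroup.lift Q (f.comp ψ) ?_, ?_⟩
  · intro x hx
    have : ψ x = 1 := (hker x).mpr hx
    simp [this]
  · rw [injective_iff_map_eq_one]
    intro z hz
    obtain ⟨x, rfl⟩ := QuotientGroup.mk_surjective z
    have h1 : f (ψ x) = 1 := hz
    have h2 : ψ x = 1 := hf (by rw [h1, map_one])
    exact (QuotientGroup.eq_one_iff x).mpr ((hker x).mp h2)

end Cfsg.Agent.S3103
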