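import Mathlib
import Cfsg.Statements.S3116
-- import your own Cfsg.Agent.* helpers here

set_option autoImplicit false
open Cfsg

namespace Cfsg.Agent.S3116

open Classical in
theorem exists_fixed_in_diff {X : Type*} [Group X] [Finite X] {q : ℕ} [hq : Fact q.Prime]
    (γ : MulAut X) (hγ : γ ^ q = 1) (B C : Subgroup X) (hBC : B ≤ C)
    (hB : ∀ v ∈ B, γ v ∈ B) (hC : ∀ v ∈ C, γ v ∈ C)
    (hcard : ¬ q ∣ Nat.card C - Nat.card B) : ∃ s ∈ C, s ∉ B ∧ γ s = s := by
  haveI := Fintype.ofFinite X
  let S := {s : X // s ∈ C ∧ s ∉ B}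
  have hBinv : ∀ v, γ v ∈ B → v ∈ B := by
    intro v hv
    have h1 : ∀ k, (γ ^ k) (γ v) ∈ B := by
      intro k
      induction k with
      | zero => exact hv
      | succ k ih =>
        rw [pow_succ']
        exact hB _ ih
    have h2 := h1 (q - 1)
    have h3 : (γ ^ (q - 1)) (γ v) = (γ ^ q) v := by
      have : q = (q - 1) + 1 := by have := hq.out.pos; omega
      conv_rhs => rw [this, pow_succ]
      rfl
    rw [h3, hγ] at h2
    exact h2
  let f : Function.End S := fun s => ⟨γ s.1, hC _ s.2.1, fun h => s.2.2 (hBinv _ h)⟩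
  have hfpow : ∀ (k : ℕ) (s : S), ((f ^ k) s).1 = (γ ^ k) s.1 := by
    intro k s
    induction k with
    | zero => rfl
    | succ k ih =>
      rw [pow_succ', pow_succ']
      change γ ((f ^ k) s).1 = γ ((γ ^ k) s.1)
      rw [ih]
  have hf : f ^ q ^ 1 = 1 := by
    funext s
    apply Subtype.ext
    rw [pow_one, hfpow, hγ]
    rfl
  have hmod := Equiv.Perm.card_fixedPoints_modEq hf
  have hS : Fintype.card S = Nat.card C - Nat.card B := by
    have h1 : Nat.card S = ((C : Set X) \ (B : Set X)).ncard := by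
      rw [← Nat.card_coe_set_eq]
      apply Nat.card_congr
      exact Equiv.subtypeEquivRight (fun x => by simp)
    have h2 : Nat.card C = (C : Set X).ncard := Nat.card_coe_set_eq _
    have h3 : Nat.card B = (B : Set X).ncard := Nat.card_coe_set_eq _
    rw [← Nat.card_eq_fintype_card, h1, h2, h3, Set.ncard_sdiff (fun x hx => hBC hx)]
  by_contra hcon
  push Not at hcon
  have hempty : IsEmpty f.fixedPoints := by
    refine ⟨?_⟩
    rintro ⟨s, hs⟩
    exact hcon s.1 s.2.1 s.2.2 (congrArg Subtype.val hs)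
  rw [Fintype.card_eq_zero_iff.mpr hempty, hS] at hmod
  exact hcard ((Nat.modEq_zero_iff_dvd).mp hmod)

theorem aut_two_group {X : Type*} [Group X] [Finite X] {n : ℕ} (hn : 1 ≤ n) (x : X)
    (hx : orderOf x = 2 ^ n) (hcard : Nat.card X = 2 ^ (n + 1))
    (hb : ∀ b : X, b ∉ Subgroup.zpowers x → orderOf b ≠ 2 ^ n) : IsPGroup 2 (MulAut X) := by
  haveI : Finite (MulAut X) := Finite.of_injective (fun f : MulAut X => (f : X → X))
    (fun f g h => MulEquiv.ext (fun v => congrFun h v))
  refine IsPGroup.of_card (n := (Nat.card (MulAut X)).primeFactorsList.length) ?_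
  refine Nat.eq_prime_pow_of_unique_prime_dvd Nat.card_pos.ne' ?_
  intro q hq hqd
  by_contra hq2
  haveI : Fact q.Prime := ⟨hq⟩
  obtain ⟨γ, hγ⟩ := exists_prime_orderOf_dvd_card' q hqd
  have hγq : γ ^ q = 1 := by rw [← hγ]; exact pow_orderOf_eq_one γ
  have hq' : ∀ k, ¬ q ∣ 2 ^ k := fun k h =>
    hq2 ((Nat.prime_dvd_prime_iff_eq hq Nat.prime_two).mp (hq.dvd_of_dvd_pow h))
  set A := Subgroup.zpowers x with hA
  have hAcard : Nat.card A = 2 ^ n := by rw [hA, Nat.card_zpowers, hx]
  have hγord : ∀ v, orderOf (γ v) = orderOf v := fun v =>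
    orderOf_injective γ.toMonoidHom γ.injective v
  have hγx : γ x ∈ A := by
    by_contra h
    exact hb _ h (by rw [hγord, hx])
  have hAinv : ∀ v ∈ A, γ v ∈ A := by
    rintro _ ⟨k, rfl⟩
    show γ (x ^ k) ∈ A
    rw [map_zpow]
    exact A.zpow_mem hγx k
  set B := Subgroup.zpowers (x ^ 2) with hB
  have hBcard : Nat.card B = 2 ^ (n - 1) := by
    rw [hB, Nat.card_zpowers, orderOf_pow' _ two_ne_zero, hx]
    have h1 : (2 ^ n).gcd 2 = 2 := Nat.gcd_eq_right (dvd_pow_self 2 (by omega))
    rw [h1]
    obtain ⟨m, rfl⟩ : ∃ m, n = m + 1 := ⟨n - 1, by omega⟩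
    simp [pow_succ]
  have hBA : B ≤ A := by
    rw [hB, Subgroup.zpowers_le]
    exact A.pow_mem (Subgroup.mem_zpowers x) 2
  have hBinv : ∀ v ∈ B, γ v ∈ B := by
    rintro _ ⟨k, rfl⟩
    show γ ((x ^ 2) ^ k) ∈ B
    rw [map_zpow, map_pow]
    refine B.zpow_mem ?_ k
    obtain ⟨l, hl⟩ := hγx
    have hl' : x ^ l = γ x := hl
    have h3 : (x ^ l) ^ 2 = (x ^ 2) ^ l := by
      rw [← zpow_natCast (x ^ l) 2, ← zpow_natCast x 2, ← zpow_mul, ← zpow_mul, mul_comm]
    rw [← hl', h3]
    exact B.zpow_mem (Subgroup.mem_zpowers _) l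
  -- fixed generator of `A`
  obtain ⟨a, haA, haB, hafix⟩ := exists_fixed_in_diff γ hγq B A hBA hBinv hAinv (by
    rw [hAcard, hBcard]
    have : 2 ^ n - 2 ^ (n - 1) = 2 ^ (n - 1) := by
      obtain ⟨m, rfl⟩ : ∃ m, n = m + 1 := ⟨n - 1, by omega⟩
      simp [pow_succ]
      omega
    rw [this]
    exact hq' _)
  obtain ⟨b, -, hbA, hbfix⟩ := exists_fixed_in_diff γ hγq A ⊤ le_top hAinv (fun _ _ => trivial) (by
    rw [Nat.card_congr Subgroup.topEquiv.toEquiv, hcard, hAcard]
    have : 2 ^ (n + 1) - 2 ^ n = 2 ^ n := by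
      simp [pow_succ]
      omega
    rw [this]
    exact hq' _)
  -- they generate `X`
  have hazp : A ≤ Subgroup.zpowers a := by
    obtain ⟨k, hk⟩ := (mem_powers_iff_mem_zpowers).mpr haA
    have hk' : x ^ k = a := hk
    have hodd : ¬ 2 ∣ k := by
      rintro ⟨m, rfl⟩
      apply haB
      rw [← hk', pow_mul]
      exact ⟨(m : ℤ), by simp⟩
    have hle : Subgroup.zpowers a ≤ A := (Subgroup.zpowers_le).mpr haA
    have hcop : (orderOf x).Coprime k := by
      rw [hx]
      refine Nat.Coprime.pow_left _ ?_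
      rwa [Nat.Prime.coprime_iff_not_dvd Nat.prime_two]
    have hord : orderOf a = 2 ^ n := by
      rw [← hk', Nat.Coprime.orderOf_pow hcop, hx]
    refine (Subgroup.eq_of_le_of_card_ge hle ?_).ge
    rw [hAcard, Nat.card_zpowers, hord]
  have hfixAll : ∀ v, γ v = v := by
    intro v
    let K : Subgroup X := MonoidHom.eqLocus (γ : X →* X) (MonoidHom.id X)
    have hK : K = ⊤ := by
      have haK : a ∈ K := hafix
      have hbK : b ∈ K := hbfix
      have hAK : A ≤ K := hazp.trans ((Subgroup.zpowers_le).mpr haK)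
      have hidxA : A.index = 2 := by
        have h1 := Subgroup.card_mul_index A
        rw [hAcard, hcard, pow_succ] at h1
        exact Nat.eq_of_mul_eq_mul_left (by positivity) h1
      have h2 : K.index ∣ 2 := hidxA ▸ Subgroup.index_dvd_of_le hAK
      rcases (Nat.dvd_prime Nat.prime_two).mp h2 with h | h
      · exact Subgroup.index_eq_one.mp h
      · exfalso
        have h3 := Subgroup.card_mul_index K
        rw [h, hcard, pow_succ] at h3
        have h4 : Nat.card K = 2 ^ n := Nat.eq_of_mul_eq_mul_right (by norm_num) h3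
        have h5 : A = K := Subgroup.eq_of_le_of_card_ge hAK (by rw [h4, hAcard])
        exact hbA (h5 ▸ hbK)
    have : v ∈ K := by rw [hK]; trivial
    exact this
  have : γ = 1 := MulEquiv.ext hfixAll
  rw [this, orderOf_one] at hγ
  exact hq.one_lt.ne hγ

/-- The automorphism group of a dihedral 2-group of order at least 8, or of a quasi-dihedral (semidihedral) 2-group of order at least 16, is a 2-group. -/
theorem result {X : Type*} [Group X] [Finite X] (h2 : IsPGroup 2 X)
    (h : (∃ n : ℕ, 4 ≤ n ∧ Nonempty (X ≃* DihedralGroup n)) ∨ Cfsg.IsQuasiDihedral X) : IsPGroup 2 (MulAut X) := by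
  classical
  rcases h with ⟨n, hn, ⟨e⟩⟩ | ⟨n, hn, hcard, x, y, hx, hy, hrel⟩
  · -- dihedral
    have hcardX : Nat.card X = 2 * n := by
      rw [Nat.card_congr e.toEquiv, DihedralGroup.nat_card]
    obtain ⟨m, hm⟩ := h2.exists_card_eq
    have hm' : 2 * n = 2 ^ m := by rw [← hcardX, hm]
    obtain ⟨k, rfl⟩ : ∃ k, m = k + 1 := by
      refine ⟨m - 1, ?_⟩
      rcases m with _ | m
      · simp at hm'
      · simp
    have hnk : n = 2 ^ k := by
      rw [pow_succ] at hm'
      omega
    have hk1 : 1 ≤ k := by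
      rcases k with _ | k
      · simp at hnk; omega
      · omega
    haveI : NeZero n := ⟨by omega⟩
    let x : X := e.symm (DihedralGroup.r 1)
    have hxo : orderOf x = 2 ^ k := by
      have : orderOf x = orderOf (DihedralGroup.r (1 : ZMod n)) :=
        orderOf_injective e.symm.toMonoidHom e.symm.injective _
      rw [this, DihedralGroup.orderOf_r_one, hnk]
    refine aut_two_group hk1 x hxo hm ?_
    intro b hb hbo
    have hxpow : ∀ i : ℕ, x ^ i = e.symm (DihedralGroup.r (i : ZMod n)) := by
      intro i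
      simp only [x]
      rw [← map_pow, DihedralGroup.r_one_pow]
    rcases he : e b with i | i
    · apply hb
      have hi : i = ((i.val : ℕ) : ZMod n) := by simp
      refine ⟨(i.val : ℤ), ?_⟩
      show x ^ (i.val : ℤ) = b
      rw [zpow_natCast, hxpow, ← hi, ← he]
      simp
    · have h1 : orderOf b = orderOf (DihedralGroup.sr i) := by
        rw [← he]
        exact (orderOf_injective e.toMonoidHom e.injective b).symm
      rw [DihedralGroup.orderOf_sr] at h1
      rw [h1] at hbo
      have : 2 ^ 1 < 2 ^ k := by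
        rw [← hnk]
        omega
      rw [← hbo] at this
      omega
  · -- quasi-dihedral
    refine aut_two_group (by omega) x hx hcard ?_
    set A := Subgroup.zpowers x with hA
    have hAcard : Nat.card A = 2 ^ n := by rw [hA, Nat.card_zpowers, hx]
    have hidxA : A.index = 2 := by
      have h1 := Subgroup.card_mul_index A
      rw [hAcard, hcard, pow_succ] at h1
      exact Nat.eq_of_mul_eq_mul_left (by positivity) h1
    have hpow2 : 4 ≤ 2 ^ (n - 1) := by
      have : 2 ^ 2 ≤ 2 ^ (n - 1) := Nat.pow_le_pow_right (by norm_num) (by omega)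
      simpa using this
    have hyA : y ∉ A := by
      rintro ⟨l, hl⟩
      have hl' : x ^ l = y := hl
      have h1 : y * x * y⁻¹ = x := by
        rw [← hl']
        have : Commute (x ^ l) x := (Commute.refl x).zpow_left l
        rw [this.eq]
        group
      rw [h1] at hrel
      have h2 : x ^ (2 ^ (n - 1) - 2) = 1 := by
        have h3 : x ^ (2 ^ (n - 1) - 1) = x ^ (2 ^ (n - 1) - 2) * x := by
          rw [← pow_succ]
          congr 1
          omega
        rw [h3] at hrel
        exact (mul_eq_right.mp hrel.symm)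
      have h4 := Nat.le_of_dvd (by omega) (orderOf_dvd_of_pow_eq_one h2)
      rw [hx] at h4
      have h5 : 2 ^ n = 2 * 2 ^ (n - 1) := by
        rw [← pow_succ']
        congr 1
        omega
      omega
    intro b hb hbo
    have hby : b * y ∈ A := (Subgroup.mul_mem_iff_of_index_two hidxA).mpr (iff_of_false hb hyA)
    obtain ⟨i, hi⟩ := hby
    have hi' : x ^ i = b * y := hi
    have hy2 : y * y = 1 := by
      have := pow_orderOf_eq_one y
      rw [hy, pow_two] at this
      exact this
    have hb' : b = x ^ i * y := by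
      rw [hi', mul_assoc, hy2, mul_one]
    have hconj : y * x ^ i * y⁻¹ = (x ^ (2 ^ (n - 1) - 1)) ^ i := by
      rw [← hrel, ← conj_zpow]
    have hb2 : b * b = x ^ ((i : ℤ) * 2 ^ (n - 1)) := by
      calc b * b = x ^ i * (y * x ^ i * y⁻¹) * (y * y) := by
            rw [hb']
            group
        _ = x ^ i * (x ^ (2 ^ (n - 1) - 1)) ^ i := by
            rw [hconj, hy2, mul_one]
        _ = x ^ ((i : ℤ) * 2 ^ (n - 1)) := by
            rw [← zpow_natCast, ← zpow_mul, ← zpow_add]
            congr 1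
            have h1 : ((2 ^ (n - 1) - 1 : ℕ) : ℤ) = 2 ^ (n - 1) - 1 := by
              rw [Nat.cast_sub (by omega)]
              simp
            rw [h1]
            ring
    have hb4 : b ^ 4 = 1 := by
      have h1 : b ^ 4 = (b * b) ^ 2 := by rw [← pow_two, ← pow_mul]
      rw [h1, hb2, ← zpow_natCast, ← zpow_mul]
      have h2 : x ^ (2 ^ n : ℤ) = 1 := by
        have := pow_orderOf_eq_one x
        rw [hx] at this
        exact_mod_cast this
      have h3 : (i : ℤ) * 2 ^ (n - 1) * ((2 : ℕ) : ℤ) = (2 ^ n : ℤ) * i := by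
        have : (2 : ℤ) ^ n = 2 ^ (n - 1) * 2 := by
          rw [← pow_succ]
          congr 1
          omega
        rw [this]
        push_cast
        ring
      rw [h3, zpow_mul, h2, one_zpow]
    have h5 := Nat.le_of_dvd (by norm_num) (orderOf_dvd_of_pow_eq_one hb4)
    rw [hbo] at h5
    have h6 : 2 ^ 3 ≤ 2 ^ n := Nat.pow_le_pow_right (by norm_num) hn
    omega

end Cfsg.Agent.S3116
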