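import Mathlib
import Cfsg.Statements.S3117
import Cfsg.Agent.Lib.H14.ThreeInv2
-- import your own Cfsg.Agent.* helpers here

set_option autoImplicit false
open Cfsg

namespace Cfsg.Agent.S3117

open Cfsg.Agent.H14.ThreeInv

theorem exists_perfect {A : Type*} [Group A] [Finite A] : ∃ n, derivedSeries A (n + 1) = derivedSeries A n := by
  classical
  -- choose `n` minimising the order
  have hex : ∃ n, ∀ m, Nat.card (derivedSeries A n) ≤ Nat.card (derivedSeries A m) := by
    obtain ⟨x, ⟨n, hn⟩, hmin⟩ := WellFounded.has_min Nat.lt_wfRel.wf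
      (Set.range fun n => Nat.card (derivedSeries A n)) ⟨_, 0, rfl⟩
    refine ⟨n, fun m => ?_⟩
    have := hmin _ ⟨m, rfl⟩
    simp only [← hn] at this
    exact not_lt.mp this
  obtain ⟨n, hn⟩ := hex
  refine ⟨n, ?_⟩
  have hle : derivedSeries A (n + 1) ≤ derivedSeries A n := by
    rw [derivedSeries_succ]
    exact Subgroup.commutator_le_left _ _
  exact Subgroup.eq_of_le_of_card_ge hle (hn _)

theorem perfect_of_eq {A : Type*} [Group A] (H : Subgroup A) (hH : ⁅H, H⁆ = H) : commutator H = ⊤ := by
  apply Subgroup.map_injective H.subtype_injective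
  rw [commutator, Subgroup.map_commutator, ← MonoidHom.range_eq_map, Subgroup.range_subtype, hH]


/-- If X is a finite 2-group containing exactly three involutions, then the automorphism group of X is solvable. -/
theorem result {X : Type*} [Group X] [Finite X] (h2 : IsPGroup 2 X) (h3 : Nat.card {x : X // orderOf x = 2} = 3) : Group.IsSolvable (MulAut X) := by
  classical
  letI := Fintype.ofFinite X
  haveI h2' : Fact (Nat.Prime 2) := ⟨Nat.prime_two⟩
  -- the involutions
  let T : Finset X := Finset.univ.filter (fun x => orderOf x = 2)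
  have hT : T.card = 3 := by
    rw [← h3]
    exact (Nat.subtype_card T (by simp [T])).symm
  have hTne : T.Nonempty := by
    rw [← Finset.card_pos]
    omega
  haveI hnt : Nontrivial X := by
    obtain ⟨x, hx⟩ := hTne
    refine ⟨⟨x, 1, ?_⟩⟩
    rintro rfl
    have : orderOf (1 : X) = 2 := (Finset.mem_filter.mp hx).2
    simp at this
  -- a central involution
  obtain ⟨z, hzc, hz2⟩ : ∃ z : X, (∀ g : X, g * z = z * g) ∧ orderOf z = 2 := by
    haveI := h2.center_nontrivial
    have hcp : IsPGroup 2 (Subgroup.center X) := h2.to_subgroup _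
    obtain ⟨k, hk⟩ := IsPGroup.iff_card.mp hcp
    have hk0 : k ≠ 0 := by
      rintro rfl
      rw [pow_zero] at hk
      have := Finite.one_lt_card (α := Subgroup.center X)
      omega
    have hd : 2 ∣ Nat.card (Subgroup.center X) := by
      rw [hk]
      exact dvd_pow_self 2 hk0
    obtain ⟨z, hz⟩ := exists_prime_orderOf_dvd_card' 2 hd
    refine ⟨z.1, ?_, ?_⟩
    · intro g
      exact (Subgroup.mem_center_iff.mp z.2 g)
    · rw [Subgroup.orderOf_coe, hz]
  have hz1 : z ^ 2 = 1 := by rw [← hz2, pow_orderOf_eq_one]
  have hzT : z ∈ T := by simp [T, hz2]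
  -- another one
  obtain ⟨t, htT, htz⟩ : ∃ t ∈ T, t ≠ z := by
    by_contra hcon
    push Not at hcon
    have : T ⊆ {z} := fun x hx => Finset.mem_singleton.mpr (hcon x hx)
    have := Finset.card_le_card this
    simp at this
    omega
  have ht2 : orderOf t = 2 := (Finset.mem_filter.mp htT).2
  have ht1 : t ^ 2 = 1 := by rw [← ht2, pow_orderOf_eq_one]
  have hord2 : ∀ x : X, x ^ 2 = 1 → x ≠ 1 → orderOf x = 2 :=
    fun x hx hne => orderOf_eq_prime hx hne
  have hmulzt : z * t ≠ 1 := by
    intro h
    apply htz
    have h1 : t = z⁻¹ := eq_inv_of_mul_eq_one_right h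
    have h2 : z⁻¹ = z := by
      rw [pow_two] at hz1
      exact inv_eq_of_mul_eq_one_left hz1
    rw [h1, h2]
  have hztne1 : z * t ≠ z := by
    intro h
    have := mul_eq_left.mp h
    rw [this] at ht2
    simp at ht2
  have hztne2 : z * t ≠ t := by
    intro h
    have := mul_eq_right.mp h
    rw [this] at hz2
    simp at hz2
  have hzt2 : (z * t) ^ 2 = 1 := by
    have hcomm : Commute z t := (hzc t).symm
    rw [hcomm.mul_pow, hz1, ht1, one_mul]
  have hTeq : T = {z, t, z * t} := by
    symm
    apply Finset.eq_of_subset_of_card_le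
    · intro x hx
      simp only [Finset.mem_insert, Finset.mem_singleton] at hx
      rcases hx with rfl | rfl | rfl
      · exact hzT
      · exact htT
      · simp only [T, Finset.mem_filter, Finset.mem_univ, true_and]
        exact hord2 _ hzt2 hmulzt
    · rw [hT, Finset.card_insert_of_notMem, Finset.card_insert_of_notMem, Finset.card_singleton]
      · simp [Ne.symm hztne2]
      · simp [Ne.symm htz, Ne.symm hztne1]
  -- the set of elements of square one
  have hmem4 : ∀ x : X, x ^ 2 = 1 → x = 1 ∨ x = z ∨ x = t ∨ x = z * t := by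
    intro x hx
    by_cases hx1 : x = 1
    · exact Or.inl hx1
    · right
      have : x ∈ T := by simp [T, hord2 x hx hx1]
      rw [hTeq] at this
      simpa using this
  have hzcomm : ∀ g, Commute z g := fun g => (hzc g).symm
  have hcommall : ∀ x y : X, x ^ 2 = 1 → y ^ 2 = 1 → Commute x y := by
    intro x y hx hy
    have htt : Commute t t := Commute.refl t
    have hztt : Commute (z * t) t := (hzcomm t).mul_left htt
    rcases hmem4 x hx with rfl | rfl | rfl | rfl
    · exact Commute.one_left _
    · exact hzcomm _
    · rcases hmem4 y hy with rfl | rfl | rfl | rfl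
      · exact Commute.one_right _
      · exact (hzcomm _).symm
      · exact htt
      · exact hztt.symm
    · rcases hmem4 y hy with rfl | rfl | rfl | rfl
      · exact Commute.one_right _
      · exact (hzcomm _).symm
      · exact hztt
      · exact Commute.refl _
  let V : Subgroup X :=
    { carrier := {x | x ^ 2 = 1}
      mul_mem' := fun {a b} ha hb => by
        change (a * b) ^ 2 = 1
        rw [(hcommall a b ha hb).mul_pow, ha, hb, one_mul]
      one_mem' := one_pow 2
      inv_mem' := fun {a} ha => by
        change a⁻¹ ^ 2 = 1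
        rw [inv_pow, ha, inv_one] }
  have hV : ∀ y, y ^ 2 = 1 ↔ y ∈ V := fun y => Iff.rfl
  have hV4 : Nat.card V ≤ 4 := by
    let S : Finset X := {1, z, t, z * t}
    have hinj : Function.Injective (fun x : V => (⟨x.1, by
        have := hmem4 x.1 x.2
        simpa [S] using this⟩ : S)) := by
      intro a b hab
      exact Subtype.ext (congrArg (fun z : S => z.1) hab)
    have h1 := Nat.card_le_card_of_injective _ hinj
    have h2 : Nat.card S ≤ 4 := by
      simp only [Nat.card_eq_fintype_card, Fintype.card_coe]
      exact Finset.card_le_four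
    exact h1.trans h2
  -- the derived series
  obtain ⟨n, hn⟩ := exists_perfect (A := MulAut X)
  have hperf : commutator (derivedSeries (MulAut X) n) = ⊤ :=
    perfect_of_eq _ (by rw [← derivedSeries_succ, hn])
  have hmain := main_induct hperf (Nat.card X) X h2 V hV hV4 (derivedSeries (MulAut X) n).subtype rfl
  rw [Group.isSolvable_def]
  refine ⟨n, ?_⟩
  rw [Subgroup.eq_bot_iff_forall]
  intro x hx
  have := congrArg (fun f : (derivedSeries (MulAut X) n) →* MulAut X => f ⟨x, hx⟩) hmain
  exact this

end Cfsg.Agent.S3117
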