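import Cfsg.Statements.S3356
import Cfsg.Agent.Lib.H16.ThreeHalf

set_option autoImplicit false
open Cfsg

namespace Cfsg.Agent.S3356

/-- Let G be a finite 3/2-transitive permutation group: G acts faithfully and transitively on a finite set, the point stabilizers are non-trivial, and for each point a all orbits of G_a on the remaining points have the same size. Suppose G has a regular normal subgroup N and G is not a Frobenius group (some two-point stabilizer is non-trivial). Then N is an elementary abelian p-group for some prime p, and every non-trivial normal subgroup of G contains N (so N is the unique minimal normal subgroup). -/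
theorem result {G Ω : Type*} [Group G] [Finite G]
    [MulAction G Ω] [FaithfulSMul G Ω] [Finite Ω] (htrans : MulAction.IsPretransitive G Ω)
    (hne : ∀ a : Ω, MulAction.stabilizer G a ≠ ⊥)
    (hhalf : ∀ a b c : Ω, b ≠ a → c ≠ a →
      Nat.card (MulAction.orbit (MulAction.stabilizer G a) b) = Nat.card (MulAction.orbit (MulAction.stabilizer G a) c))
    (N : Subgroup G) [hN : N.Normal] (hNt : MulAction.IsPretransitive N Ω) (hNr : ∀ a : Ω, MulAction.stabilizer N a = ⊥)
    (hnotF : ∃ a b : Ω, a ≠ b ∧ MulAction.stabilizer G a ⊓ MulAction.stabilizer G b ≠ ⊥) :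
    (∃ p : ℕ, p.Prime ∧ IsMulCommutative N ∧ ∀ x ∈ N, x ^ p = 1) ∧
    (∀ M : Subgroup G, M.Normal → M ≠ ⊥ → N ≤ M) := by
  open Cfsg.Agent.H16.ThreeHalf in
  classical
  haveI := htrans
  haveI := hNt
  obtain ⟨a, b, hab, hne⟩ := hnotF
  set H : Subgroup G := MulAction.stabilizer G a with hH
  -- regularity
  have hreg : ∀ x ∈ N, x • a = a → x = 1 := by
    intro x hx h
    have h1 : (⟨x, hx⟩ : N) ∈ MulAction.stabilizer N a := h
    rw [hNr a, Subgroup.mem_bot] at h1
    exact congrArg Subtype.val h1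
  have hptne : ∀ x ∈ N, x ≠ 1 → x • a ≠ a := fun x hx h1 h2 => h1 (hreg x hx h2)
  -- two-point stabilizers are centralisers
  have hC : ∀ x ∈ N, ∀ h ∈ H, h • (x • a) = x • a ↔ h * x = x * h := by
    intro x hx h hh
    have hha : h • a = a := hh
    constructor
    · intro h1
      have h2 : h * x * h⁻¹ ∈ N := hN.conj_mem x hx h
      have h3 : x⁻¹ * (h * x * h⁻¹) ∈ N := N.mul_mem (N.inv_mem hx) h2
      have h4 : (x⁻¹ * (h * x * h⁻¹)) • a = a := by
        have hia : h⁻¹ • a = a := by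
          rw [inv_smul_eq_iff, hha]
        calc (x⁻¹ * (h * x * h⁻¹)) • a = x⁻¹ • (h • (x • (h⁻¹ • a))) := by simp only [mul_smul]
          _ = x⁻¹ • (h • (x • a)) := by rw [hia]
          _ = x⁻¹ • (x • a) := by rw [h1]
          _ = a := inv_smul_smul _ _
      have h5 := hreg _ h3 h4
      have h6 : h * x * h⁻¹ = x := (inv_mul_eq_one.1 h5).symm
      calc h * x = (h * x * h⁻¹) * h := by group
        _ = x * h := by rw [h6]
    · intro h1
      rw [← mul_smul, h1, mul_smul, hha]
  have hstabH : ∀ x ∈ N, Nat.card (MulAction.orbit H (x • a)) * Nat.card (CH H x) = Nat.card H := by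
    intro x hx
    have h1 : (MulAction.stabilizer H (x • a)).map H.subtype = CH H x := by
      ext g
      rw [mem_CH]
      constructor
      · rintro ⟨j, hj, rfl⟩
        refine ⟨j.2, (hC x hx j j.2).1 hj⟩
      · rintro ⟨hg, hc⟩
        exact ⟨⟨g, hg⟩, (hC x hx g hg).2 hc, rfl⟩
    rw [← h1, Subgroup.card_map_of_injective H.subtype_injective]
    have h2 := MulAction.index_stabilizer H (x • a)
    rw [Nat.card_coe_set_eq, ← h2, mul_comm]
    exact (MulAction.stabilizer H (x • a)).card_mul_index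
  obtain ⟨x₁, hx₁⟩ := MulAction.exists_smul_eq N a b
  have hx₁' : (x₁ : G) • a = b := hx₁
  have hx₁N : (x₁ : G) ∈ N := x₁.2
  have hx₁1 : (x₁ : G) ≠ 1 := by
    intro h
    apply hab
    rw [← hx₁', h, one_smul]
  have hHpos : 0 < Nat.card H := Nat.card_pos
  set m := Nat.card (CH H (x₁ : G)) with hm
  have hum : ∀ x ∈ N, x ≠ 1 → Nat.card (CH H x) = m := by
    intro x hx hx1
    have h1 := hstabH x hx
    have h2 := hstabH _ hx₁N
    have h3 := hhalf a (x • a) ((x₁ : G) • a) (hptne x hx hx1) (hptne _ hx₁N hx₁1)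
    rw [h3] at h1
    haveI : Nonempty (MulAction.orbit H ((x₁ : G) • a)) := ⟨⟨_, MulAction.mem_orbit_self _⟩⟩
    have hpos : 0 < Nat.card (MulAction.orbit H ((x₁ : G) • a)) := Nat.card_pos
    apply Nat.eq_of_mul_eq_mul_left hpos
    rw [h1, h2]
  have hm1 : 1 < m := by
    obtain ⟨k, hk⟩ := Subgroup.ne_bot_iff_exists_ne_one.1 hne
    rw [hm, Subgroup.one_lt_card_iff_ne_bot]
    intro hb
    have h1 : (k : G) ∈ CH H (x₁ : G) := by
      rw [mem_CH]
      refine ⟨k.2.1, (hC _ hx₁N k k.2.1).1 ?_⟩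
      rw [hx₁']
      exact k.2.2
    rw [hb, Subgroup.mem_bot] at h1
    exact hk (Subtype.ext h1)
  have hfaith : ∀ h ∈ H, (∀ x ∈ N, h * x = x * h) → h = 1 := by
    intro h hh hc
    apply FaithfulSMul.eq_of_smul_eq_smul (α := Ω)
    intro ω
    obtain ⟨x, hx⟩ := MulAction.exists_smul_eq N a ω
    have hx' : (x : G) • a = ω := hx
    rw [one_smul, ← hx']
    exact (hC x x.2 h hh).2 (hc x x.2)
  have hN1 : N ≠ ⊥ := by
    intro h
    exact hx₁1 (Subgroup.mem_bot.1 (le_of_eq h hx₁N))
  obtain ⟨s, S⟩ := exists_setup N H hN hN1 hm1 hum hfaith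
  have hfac : ∀ g : G, ∃ n ∈ N, ∃ h ∈ H, g = n * h := by
    intro g
    obtain ⟨n, hn⟩ := MulAction.exists_smul_eq N a (g • a)
    have hn' : (n : G) • a = g • a := hn
    refine ⟨n, n.2, (n : G)⁻¹ * g, ?_, by group⟩
    show ((n : G)⁻¹ * g) • a = a
    rw [mul_smul, ← hn', inv_smul_smul]
  have hHN : N ⊓ H = ⊥ := by
    rw [eq_bot_iff]
    rintro x ⟨hx1, hx2⟩
    exact hreg x hx1 hx2
  obtain ⟨p, hp, hpe⟩ := S.elementary hN1
  refine ⟨⟨p, hp, ⟨⟨fun u v => Subtype.ext (S.comm u.2 v.2)⟩⟩, hpe⟩, ?_⟩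
  intro M hM hM1
  exact S.le_normal hfac hHN M hM hM1

end Cfsg.Agent.S3356
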