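import Cfsg.Statements.S3362
import Cfsg.Agent.Lib.H16.SSLevel

set_option autoImplicit false
open Cfsg

namespace Cfsg.Agent.S3362
open Cfsg.Agent.H16.SS

abbrev P12 := Equiv.Perm (Fin 12)

def sP : P12 := Equiv.swap (3 : Fin 12) 5 * Equiv.swap (3 : Fin 12) 4 * Equiv.swap (6 : Fin 12) 8 * Equiv.swap (6 : Fin 12) 7 * Equiv.swap (9 : Fin 12) 11 * Equiv.swap (9 : Fin 12) 10
def tP : P12 := Equiv.swap (3 : Fin 12) 9 * Equiv.swap (3 : Fin 12) 6 * Equiv.swap (4 : Fin 12) 10 * Equiv.swap (4 : Fin 12) 7 * Equiv.swap (5 : Fin 12) 11 * Equiv.swap (5 : Fin 12) 8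
def uP : P12 := Equiv.swap (4 : Fin 12) 9 * Equiv.swap (4 : Fin 12) 5 * Equiv.swap (4 : Fin 12) 6 * Equiv.swap (7 : Fin 12) 10 * Equiv.swap (7 : Fin 12) 11 * Equiv.swap (7 : Fin 12) 8
def vP : P12 := Equiv.swap (4 : Fin 12) 11 * Equiv.swap (4 : Fin 12) 5 * Equiv.swap (4 : Fin 12) 7 * Equiv.swap (6 : Fin 12) 8 * Equiv.swap (6 : Fin 12) 9 * Equiv.swap (6 : Fin 12) 10
def wP : P12 := Equiv.swap (4 : Fin 12) 8 * Equiv.swap (4 : Fin 12) 5 * Equiv.swap (4 : Fin 12) 10 * Equiv.swap (6 : Fin 12) 7 * Equiv.swap (6 : Fin 12) 9 * Equiv.swap (6 : Fin 12) 11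
def x1P : P12 := Equiv.swap (0 : Fin 12) 3 * Equiv.swap (6 : Fin 12) 7 * Equiv.swap (8 : Fin 12) 10 * Equiv.swap (9 : Fin 12) 11
def x2P : P12 := Equiv.swap (0 : Fin 12) 1 * Equiv.swap (6 : Fin 12) 9 * Equiv.swap (7 : Fin 12) 10 * Equiv.swap (8 : Fin 12) 11
def x3P : P12 := Equiv.swap (1 : Fin 12) 2 * Equiv.swap (6 : Fin 12) 11 * Equiv.swap (7 : Fin 12) 9 * Equiv.swap (8 : Fin 12) 10

def gen : ℕ → P12
  | 0 => sP | 1 => tP | 2 => uP | 3 => vP | 4 => wP | 5 => x1P | 6 => x2P | 7 => x3P | _ => 1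

def A0 : List ℕ := [0,1,2,3,4,5,6,7]
def W0 : List (List ℕ) := [[],[7],[6,7],[5,6,7],[0,5,6,7],[1,5,6,7],[0,0,5,6,7],[1,0,5,6,7],[1,1,5,6,7],[4,0,5,6,7],[4,1,5,6,7],[1,0,0,5,6,7]]
def C0 : List (List (ℕ × List ℕ)) := [[(0,[0]),(0,[1]),(0,[2]),(0,[3]),(0,[4]),(0,[5]),(0,[6]),(1,[])],[(1,[0]),(1,[4,1,2,3]),(1,[4,2]),(1,[3,4]),(1,[2,3]),(1,[5]),(2,[]),(0,[])],[(2,[0]),(2,[1,0]),(2,[3]),(2,[2,3]),(2,[3,4]),(3,[]),(1,[]),(2,[6])],[(4,[]),(5,[]),(3,[2,3]),(3,[3]),(3,[2]),(2,[]),(3,[5]),(3,[6])],[(6,[]),(7,[]),(5,[2,3]),(7,[3]),(9,[]),(4,[0,0,2,2]),(4,[5]),(4,[6])],[(7,[]),(8,[]),(6,[2,3]),(9,[4]),(10,[]),(7,[4,1,3]),(8,[5]),(10,[6,2])],[(3,[]),(11,[]),(8,[2,3]),(10,[4]),(11,[2]),(6,[0,2,2]),(6,[5]),(6,[6])],[(11,[]),(9,[3,4]),(11,[2,3]),(6,[3]),(5,[2]),(5,[4,0,4,2]),(9,[5,4,2]),(8,[6])],[(9,[3,4]),(3,[]),(4,[2,3]),(11,[3]),(7,[2]),(10,[4,0,2,3]),(5,[5]),(7,[6])],[(10,[]),(4,[2]),(7,[3]),(8,[4]),(6,[2,2]),(11,[1,2]),(7,[5,2]),(11,[6,2])],[(8,[2]),(6,[2]),(9,[4]),(4,[4]),(8,[2,2]),(8,[1,0,0]),(11,[5,2]),(5,[6,2])],[(5,[]),(10,[3,4]),(10,[3]),(5,[3]),(4,[2]),(9,[0,0,3,4]),(10,[5,4,2]),(9,[6,2])]]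

def A1 : List ℕ := [0,1,2,3,4,5,6]
def W1 : List (List ℕ) := [[],[6],[5,6],[0,5,6],[1,5,6],[0,0,5,6],[1,0,5,6],[1,1,5,6],[4,0,5,6],[4,1,5,6],[1,0,0,5,6]]
def C1 : List (List (ℕ × List ℕ)) := [[(0,[0]),(0,[1]),(0,[2]),(0,[3]),(0,[4]),(0,[5]),(1,[])],[(1,[0]),(1,[1,1]),(1,[3,4]),(1,[4]),(1,[3]),(2,[]),(0,[])],[(3,[]),(4,[]),(2,[4]),(2,[3,4]),(2,[4,2]),(1,[]),(2,[5])],[(5,[]),(6,[]),(4,[4]),(6,[3,4]),(8,[]),(3,[0,0,2,2]),(3,[5])],[(6,[]),(7,[]),(5,[4]),(8,[2,3]),(9,[]),(6,[1,4,2]),(7,[5])],[(2,[]),(10,[]),(7,[4]),(9,[2,3]),(10,[4,2]),(5,[0,2,2]),(5,[5])],[(10,[]),(8,[3]),(10,[4]),(5,[3,4]),(4,[4,2]),(4,[1,0,0,3]),(8,[5,2])],[(8,[3]),(2,[]),(3,[4]),(10,[3,4]),(6,[4,2]),(9,[1,0,0]),(4,[5])],[(9,[]),(3,[4,2]),(6,[3,4]),(7,[2,3]),(5,[2,2]),(10,[4,1,2]),(6,[5,4,2])],[(7,[4,2]),(5,[4,2]),(8,[2,3]),(3,[2,3]),(7,[2,2]),(7,[4,0,2,3]),(10,[5,4,2])],[(4,[]),(9,[3]),(9,[3,4]),(4,[3,4]),(3,[4,2]),(8,[0,0,3]),(9,[5,2])]]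

def A2 : List ℕ := [0,1,2,3,4,5]
def W2 : List (List ℕ) := [[],[5],[0,5],[1,5],[0,0,5],[1,0,5],[1,1,5],[4,0,5],[4,1,5],[1,0,0,5]]
def C2 : List (List (ℕ × List ℕ)) := [[(0,[0]),(0,[1]),(0,[2]),(0,[3]),(0,[4]),(1,[])],[(2,[]),(3,[]),(1,[3]),(1,[2]),(1,[2,3]),(0,[])],[(4,[]),(5,[]),(3,[3]),(5,[2]),(7,[]),(2,[0,0,2,2])],[(5,[]),(6,[]),(4,[3]),(7,[4,2]),(8,[]),(5,[1,1,2,3])],[(1,[]),(9,[]),(6,[3]),(8,[4,2]),(9,[2,3]),(4,[0,2,2])],[(9,[]),(7,[4]),(9,[3]),(4,[2]),(3,[2,3]),(3,[4,1])],[(7,[4]),(1,[]),(2,[3]),(9,[2]),(5,[2,3]),(8,[4,1,2,3])],[(8,[]),(2,[2,3]),(5,[2]),(6,[4,2]),(4,[2,2]),(9,[1,0,0,2,3])],[(6,[2,3]),(4,[2,3]),(7,[4,2]),(2,[4,2]),(6,[2,2]),(6,[1,0])],[(3,[]),(8,[4]),(8,[2]),(3,[2]),(2,[2,3]),(7,[0,0,4])]]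

def A3 : List ℕ := [0,1,2,3,4]
def W3 : List (List ℕ) := [[],[0],[1],[0,0],[1,0],[1,1],[4,0],[4,1],[1,0,0]]
def C3 : List (List (ℕ × List ℕ)) := [[(1,[]),(2,[]),(0,[2]),(0,[3]),(0,[4])],[(3,[]),(4,[]),(2,[2]),(4,[3]),(6,[])],[(4,[]),(5,[]),(3,[2]),(6,[3,4]),(7,[])],[(0,[]),(8,[]),(5,[2]),(7,[3,4]),(8,[4])],[(8,[]),(6,[2,3]),(8,[2]),(3,[3]),(2,[4])],[(6,[2,3]),(0,[]),(1,[2]),(8,[3]),(4,[4])],[(7,[]),(1,[4]),(4,[3]),(5,[3,4]),(3,[2,2])],[(5,[4]),(3,[4]),(6,[3,4]),(1,[3,4]),(5,[2,2])],[(2,[]),(7,[2,3]),(7,[3]),(2,[3]),(1,[4])]]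

def A4 : List ℕ := [2,3,4]
def W4 : List (List ℕ) := [[],[2],[3],[4],[2,2],[2,3],[3,4],[4,2]]
def C4 : List (List (ℕ × List ℕ)) := [[(1,[]),(2,[]),(3,[])],[(4,[]),(3,[]),(7,[])],[(5,[]),(4,[]),(1,[])],[(2,[]),(6,[]),(4,[])],[(6,[]),(7,[]),(5,[])],[(7,[]),(1,[]),(0,[])],[(0,[]),(5,[]),(2,[])],[(3,[]),(0,[]),(6,[])]]
def A5 : List ℕ := []

theorem hc0 : ∀ i, i < 12 → ∀ p, p < A0.length →
      gen (A0.getD p 0) * evw gen (W0.getD i []) =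
        evw gen (W0.getD ((C0.getD i []).getD p (0, [])).1 []) * evw gen ((C0.getD i []).getD p (0, [])).2 ∧
      ((C0.getD i []).getD p (0, [])).1 < 12 ∧ ∀ l ∈ ((C0.getD i []).getD p (0, [])).2, l ∈ A1 := by
  decide +kernel

theorem lv0 : gp gen A0 ⊓ MulAction.stabilizer P12 (2 : Fin 12) = gp gen A1 ∧
    Nat.card (gp gen A0) = 12 * Nat.card (gp gen A1) := by
  apply level_data gen A0 A1 W0 C0 (2 : Fin 12) 12 (by decide +kernel) (by norm_num) (by decide +kernel)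
    (by decide +kernel) (by decide +kernel) (by decide +kernel) hc0

theorem hc1 : ∀ i, i < 11 → ∀ p, p < A1.length →
      gen (A1.getD p 0) * evw gen (W1.getD i []) =
        evw gen (W1.getD ((C1.getD i []).getD p (0, [])).1 []) * evw gen ((C1.getD i []).getD p (0, [])).2 ∧
      ((C1.getD i []).getD p (0, [])).1 < 11 ∧ ∀ l ∈ ((C1.getD i []).getD p (0, [])).2, l ∈ A2 := by
  decide +kernel

theorem lv1 : gp gen A1 ⊓ MulAction.stabilizer P12 (1 : Fin 12) = gp gen A2 ∧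
    Nat.card (gp gen A1) = 11 * Nat.card (gp gen A2) := by
  apply level_data gen A1 A2 W1 C1 (1 : Fin 12) 11 (by decide +kernel) (by norm_num) (by decide +kernel)
    (by decide +kernel) (by decide +kernel) (by decide +kernel) hc1

theorem hc2 : ∀ i, i < 10 → ∀ p, p < A2.length →
      gen (A2.getD p 0) * evw gen (W2.getD i []) =
        evw gen (W2.getD ((C2.getD i []).getD p (0, [])).1 []) * evw gen ((C2.getD i []).getD p (0, [])).2 ∧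
      ((C2.getD i []).getD p (0, [])).1 < 10 ∧ ∀ l ∈ ((C2.getD i []).getD p (0, [])).2, l ∈ A3 := by
  decide +kernel

theorem lv2 : gp gen A2 ⊓ MulAction.stabilizer P12 (0 : Fin 12) = gp gen A3 ∧
    Nat.card (gp gen A2) = 10 * Nat.card (gp gen A3) := by
  apply level_data gen A2 A3 W2 C2 (0 : Fin 12) 10 (by decide +kernel) (by norm_num) (by decide +kernel)
    (by decide +kernel) (by decide +kernel) (by decide +kernel) hc2

theorem hc3 : ∀ i, i < 9 → ∀ p, p < A3.length →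
      gen (A3.getD p 0) * evw gen (W3.getD i []) =
        evw gen (W3.getD ((C3.getD i []).getD p (0, [])).1 []) * evw gen ((C3.getD i []).getD p (0, [])).2 ∧
      ((C3.getD i []).getD p (0, [])).1 < 9 ∧ ∀ l ∈ ((C3.getD i []).getD p (0, [])).2, l ∈ A4 := by
  decide +kernel

theorem lv3 : gp gen A3 ⊓ MulAction.stabilizer P12 (3 : Fin 12) = gp gen A4 ∧
    Nat.card (gp gen A3) = 9 * Nat.card (gp gen A4) := by
  apply level_data gen A3 A4 W3 C3 (3 : Fin 12) 9 (by decide +kernel) (by norm_num) (by decide +kernel)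
    (by decide +kernel) (by decide +kernel) (by decide +kernel) hc3

theorem hc4 : ∀ i, i < 8 → ∀ p, p < A4.length →
      gen (A4.getD p 0) * evw gen (W4.getD i []) =
        evw gen (W4.getD ((C4.getD i []).getD p (0, [])).1 []) * evw gen ((C4.getD i []).getD p (0, [])).2 ∧
      ((C4.getD i []).getD p (0, [])).1 < 8 ∧ ∀ l ∈ ((C4.getD i []).getD p (0, [])).2, l ∈ A5 := by
  decide +kernel

theorem lv4 : gp gen A4 ⊓ MulAction.stabilizer P12 (4 : Fin 12) = gp gen A5 ∧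
    Nat.card (gp gen A4) = 8 * Nat.card (gp gen A5) := by
  apply level_data gen A4 A5 W4 C4 (4 : Fin 12) 8 (by decide +kernel) (by norm_num) (by decide +kernel)
    (by decide +kernel) (by decide +kernel) (by decide +kernel) hc4

/-- An explicit construction of the Mathieu groups of degrees 11 and 12. On the points 0, …, 11 let s = (3 4 5)(6 7 8)(9 10 11), t = (3 6 9)(4 7 10)(5 8 11), u = (4 6 5 9)(7 8 11 10), v = (4 7 5 11)(6 10 9 8), w = (4 10 5 8)(6 11 9 7), x₁ = (0 3)(6 7)(8 10)(9 11), x₂ = (0 1)(6 9)(7 10)(8 11), x₃ = (1 2)(6 11)(7 9)(8 10) (each written as a product of transpositions). Then the group M₁₂ generated by all eight permutations is sharply 5-transitive on the 12 points and has order 95040, and the group M₁₁ generated by the first seven has order 7920 and is the stabilizer of the point 2 in M₁₂. -/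
theorem result
    (s t u v w x₁ x₂ x₃ : Equiv.Perm (Fin 12))
    (hs : s = Equiv.swap (3 : Fin 12) 5 * Equiv.swap (3 : Fin 12) 4 * Equiv.swap (6 : Fin 12) 8 * Equiv.swap (6 : Fin 12) 7 * Equiv.swap (9 : Fin 12) 11 * Equiv.swap (9 : Fin 12) 10) (ht : t = Equiv.swap (3 : Fin 12) 9 * Equiv.swap (3 : Fin 12) 6 * Equiv.swap (4 : Fin 12) 10 * Equiv.swap (4 : Fin 12) 7 * Equiv.swap (5 : Fin 12) 11 * Equiv.swap (5 : Fin 12) 8)
    (hu : u = Equiv.swap (4 : Fin 12) 9 * Equiv.swap (4 : Fin 12) 5 * Equiv.swap (4 : Fin 12) 6 * Equiv.swap (7 : Fin 12) 10 * Equiv.swap (7 : Fin 12) 11 * Equiv.swap (7 : Fin 12) 8) (hv : v = Equiv.swap (4 : Fin 12) 11 * Equiv.swap (4 : Fin 12) 5 * Equiv.swap (4 : Fin 12) 7 * Equiv.swap (6 : Fin 12) 8 * Equiv.swap (6 : Fin 12) 9 * Equiv.swap (6 : Fin 12) 10) (hw : w = Equiv.swap (4 : Fin 12) 8 * Equiv.swap (4 : Fin 12) 5 * Equiv.swap (4 :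 Fin 12) 10 * Equiv.swap (6 : Fin 12) 7 * Equiv.swap (6 : Fin 12) 9 * Equiv.swap (6 : Fin 12) 11)
    (hx₁ : x₁ = Equiv.swap (0 : Fin 12) 3 * Equiv.swap (6 : Fin 12) 7 * Equiv.swap (8 : Fin 12) 10 * Equiv.swap (9 : Fin 12) 11) (hx₂ : x₂ = Equiv.swap (0 : Fin 12) 1 * Equiv.swap (6 : Fin 12) 9 * Equiv.swap (7 : Fin 12) 10 * Equiv.swap (8 : Fin 12) 11)
    (hx₃ : x₃ = Equiv.swap (1 : Fin 12) 2 * Equiv.swap (6 : Fin 12) 11 * Equiv.swap (7 : Fin 12) 9 * Equiv.swap (8 : Fin 12) 10)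
    (M₁₂ M₁₁ : Subgroup (Equiv.Perm (Fin 12))) (hM₁₂ : M₁₂ = Subgroup.closure {s, t, u, v, w, x₁, x₂, x₃})
    (hM₁₁ : M₁₁ = Subgroup.closure {s, t, u, v, w, x₁, x₂}) :
    MulAction.IsMultiplyPretransitive M₁₂ (Fin 12) 5 ∧ (∀ y : Fin 5 ↪ Fin 12, MulAction.stabilizer M₁₂ y = ⊥) ∧
    Nat.card M₁₂ = 95040 ∧ Nat.card M₁₁ = 7920 ∧
    M₁₁ = M₁₂ ⊓ MulAction.stabilizer (Equiv.Perm (Fin 12)) (2 : Fin 12) := by
  subst hs ht hu hv hw hx₁ hx₂ hx₃ hM₁₂ hM₁₁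
  have e0 : Subgroup.closure {Equiv.swap (3 : Fin 12) 5 * Equiv.swap (3 : Fin 12) 4 * Equiv.swap (6 : Fin 12) 8 * Equiv.swap (6 : Fin 12) 7 * Equiv.swap (9 : Fin 12) 11 * Equiv.swap (9 : Fin 12) 10, Equiv.swap (3 : Fin 12) 9 * Equiv.swap (3 : Fin 12) 6 * Equiv.swap (4 : Fin 12) 10 * Equiv.swap (4 : Fin 12) 7 * Equiv.swap (5 : Fin 12) 11 * Equiv.swap (5 : Fin 12) 8, Equiv.swap (4 : Fin 12) 9 * Equiv.swap (4 : Fin 12) 5 * Equiv.swap (4 : Fin 12) 6 * Equiv.swap (7 : Fin 12) 10 * Equiv.swap (7 : Fin 12) 11 * Equiv.swap (7 : Fin 12) 8, Equiv.swap (4 : Fin 12) 11 * Equiv.swap (4 : Fin 12) 5 * Equiv.swap (4 : Fin 12) 7 * Equiv.swap (6 : Fin 12) 8 * Equiv.swap (6 : Fin 12) 9 * Equiv.swap (6 : Fin 12) 10, Equiv.swap (4 : Fin 12) 8 * Equiv.swap (4 : Fin 12) 5 * Equiv.swap (4 : Fin 12) 10 * Equiv.swap (6 : Fin 12) 7 * Equiv.swap (6 : Fin 12) 9 * Equiv.swap (6 : Fin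 12) 11, Equiv.swap (0 : Fin 12) 3 * Equiv.swap (6 : Fin 12) 7 * Equiv.swap (8 : Fin 12) 10 * Equiv.swap (9 : Fin 12) 11, Equiv.swap (0 : Fin 12) 1 * Equiv.swap (6 : Fin 12) 9 * Equiv.swap (7 : Fin 12) 10 * Equiv.swap (8 : Fin 12) 11, Equiv.swap (1 : Fin 12) 2 * Equiv.swap (6 : Fin 12) 11 * Equiv.swap (7 : Fin 12) 9 * Equiv.swap (8 : Fin 12) 10} = gp gen A0 := by
    unfold gp
    congr 1
    ext y
    constructor
    · rintro (rfl | rfl | rfl | rfl | rfl | rfl | rfl | rfl)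
      · exact ⟨0, by decide, rfl⟩
      · exact ⟨1, by decide, rfl⟩
      · exact ⟨2, by decide, rfl⟩
      · exact ⟨3, by decide, rfl⟩
      · exact ⟨4, by decide, rfl⟩
      · exact ⟨5, by decide, rfl⟩
      · exact ⟨6, by decide, rfl⟩
      · exact ⟨7, by decide, rfl⟩
    · rintro ⟨a, ha, rfl⟩
      have ha' : a ∈ A0 := ha
      simp only [A0, List.mem_cons, List.not_mem_nil, or_false] at ha'
      rcases ha' with rfl | rfl | rfl | rfl | rfl | rfl | rfl | rfl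
      · exact Or.inl rfl
      · exact Or.inr (Or.inl rfl)
      · exact Or.inr (Or.inr (Or.inl rfl))
      · exact Or.inr (Or.inr (Or.inr (Or.inl rfl)))
      · exact Or.inr (Or.inr (Or.inr (Or.inr (Or.inl rfl))))
      · exact Or.inr (Or.inr (Or.inr (Or.inr (Or.inr (Or.inl rfl)))))
      · exact Or.inr (Or.inr (Or.inr (Or.inr (Or.inr (Or.inr (Or.inl rfl))))))
      · exact Or.inr (Or.inr (Or.inr (Or.inr (Or.inr (Or.inr (Or.inr rfl))))))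
  have e1 : Subgroup.closure {Equiv.swap (3 : Fin 12) 5 * Equiv.swap (3 : Fin 12) 4 * Equiv.swap (6 : Fin 12) 8 * Equiv.swap (6 : Fin 12) 7 * Equiv.swap (9 : Fin 12) 11 * Equiv.swap (9 : Fin 12) 10, Equiv.swap (3 : Fin 12) 9 * Equiv.swap (3 : Fin 12) 6 * Equiv.swap (4 : Fin 12) 10 * Equiv.swap (4 : Fin 12) 7 * Equiv.swap (5 : Fin 12) 11 * Equiv.swap (5 : Fin 12) 8, Equiv.swap (4 : Fin 12) 9 * Equiv.swap (4 : Fin 12) 5 * Equiv.swap (4 : Fin 12) 6 * Equiv.swap (7 : Fin 12) 10 * Equiv.swap (7 : Fin 12) 11 * Equiv.swap (7 : Fin 12) 8, Equiv.swap (4 : Fin 12) 11 * Equiv.swap (4 : Fin 12) 5 * Equiv.swap (4 : Fin 12) 7 * Equiv.swap (6 : Fin 12) 8 * Equiv.swap (6 : Fin 12) 9 * Equiv.swap (6 : Fin 12) 10, Equiv.swap (4 : Fin 12) 8 * Equiv.swap (4 : Fin 12) 5 * Equiv.swap (4 : Fin 12) 10 * Equiv.swap (6 : Fin 12) 7 * Equiv.swap (6 : Fin 12) 9 * Equiv.swap (6 : Fin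 12) 11, Equiv.swap (0 : Fin 12) 3 * Equiv.swap (6 : Fin 12) 7 * Equiv.swap (8 : Fin 12) 10 * Equiv.swap (9 : Fin 12) 11, Equiv.swap (0 : Fin 12) 1 * Equiv.swap (6 : Fin 12) 9 * Equiv.swap (7 : Fin 12) 10 * Equiv.swap (8 : Fin 12) 11} = gp gen A1 := by
    unfold gp
    congr 1
    ext y
    constructor
    · rintro (rfl | rfl | rfl | rfl | rfl | rfl | rfl)
      · exact ⟨0, by decide, rfl⟩
      · exact ⟨1, by decide, rfl⟩
      · exact ⟨2, by decide, rfl⟩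
      · exact ⟨3, by decide, rfl⟩
      · exact ⟨4, by decide, rfl⟩
      · exact ⟨5, by decide, rfl⟩
      · exact ⟨6, by decide, rfl⟩
    · rintro ⟨a, ha, rfl⟩
      have ha' : a ∈ A1 := ha
      simp only [A1, List.mem_cons, List.not_mem_nil, or_false] at ha'
      rcases ha' with rfl | rfl | rfl | rfl | rfl | rfl | rfl
      · exact Or.inl rfl
      · exact Or.inr (Or.inl rfl)
      · exact Or.inr (Or.inr (Or.inl rfl))
      · exact Or.inr (Or.inr (Or.inr (Or.inl rfl)))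
      · exact Or.inr (Or.inr (Or.inr (Or.inr (Or.inl rfl))))
      · exact Or.inr (Or.inr (Or.inr (Or.inr (Or.inr (Or.inl rfl)))))
      · exact Or.inr (Or.inr (Or.inr (Or.inr (Or.inr (Or.inr rfl)))))
  rw [e0, e1]
  have hbot : gp gen A5 = ⊥ := by
    unfold gp
    have : gen '' {a | a ∈ A5} = ∅ := by
      ext y
      simp [A5]
    rw [this, Subgroup.closure_empty]
  have c5 : Nat.card (gp gen A5) = 1 := by rw [hbot, Subgroup.card_bot]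
  have c4 : Nat.card (gp gen A4) = 8 := by rw [lv4.2, c5]
  have c3 : Nat.card (gp gen A3) = 72 := by rw [lv3.2, c4]
  have c2 : Nat.card (gp gen A2) = 720 := by rw [lv2.2, c3]
  have c1 : Nat.card (gp gen A1) = 7920 := by rw [lv1.2, c2]
  have c0 : Nat.card (gp gen A0) = 95040 := by rw [lv0.2, c1]
  -- the base tuple
  let bb : Fin 5 ↪ Fin 12 := ⟨![2, 1, 0, 3, 4], by decide⟩
  have hfix : ∀ g : gp gen A0, g • bb = bb → g = 1 := by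
    intro g hg
    have ev : ∀ i : Fin 5, (g : P12) (bb i) = bb i := fun i =>
      congrArg (fun y : Fin 5 ↪ Fin 12 => y i) hg
    have h0 : (g : P12) ∈ gp gen A1 := by
      rw [← lv0.1]
      exact ⟨g.2, ev 0⟩
    have h1 : (g : P12) ∈ gp gen A2 := by
      rw [← lv1.1]
      exact ⟨h0, ev 1⟩
    have h2 : (g : P12) ∈ gp gen A3 := by
      rw [← lv2.1]
      exact ⟨h1, ev 2⟩
    have h3 : (g : P12) ∈ gp gen A4 := by
      rw [← lv3.1]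
      exact ⟨h2, ev 3⟩
    have h4 : (g : P12) ∈ gp gen A5 := by
      rw [← lv4.1]
      exact ⟨h3, ev 4⟩
    rw [hbot, Subgroup.mem_bot] at h4
    exact Subtype.ext h4
  have hstab : MulAction.stabilizer (gp gen A0) bb = ⊥ := by
    rw [eq_bot_iff]
    intro g hg
    exact hfix g hg
  have horb : MulAction.orbit (gp gen A0) bb = Set.univ := by
    have h1 := MulAction.index_stabilizer (gp gen A0) bb
    rw [hstab, Subgroup.index_bot, c0] at h1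
    apply Set.eq_of_subset_of_ncard_le (Set.subset_univ _)
    rw [Set.ncard_univ, Nat.card_eq_fintype_card, Fintype.card_embedding_eq]
    simp only [Fintype.card_fin]
    exact le_of_eq h1
  have hex : ∀ y : Fin 5 ↪ Fin 12, ∃ g : gp gen A0, ∀ i, (g : P12) (bb i) = y i := by
    intro y
    have : y ∈ MulAction.orbit (gp gen A0) bb := by rw [horb]; trivial
    obtain ⟨g, rfl⟩ := this
    exact ⟨g, fun i => rfl⟩
  refine ⟨?_, ?_, c0, c1, lv0.1.symm⟩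
  · refine ⟨fun x y => ?_⟩
    obtain ⟨g, hg⟩ := hex x
    obtain ⟨h, hh⟩ := hex y
    refine ⟨h * g⁻¹, ?_⟩
    apply Function.Embedding.ext
    intro i
    show ((h * g⁻¹ : gp gen A0) : P12) (x i) = y i
    rw [← hg i, ← hh i]
    simp
  · intro y
    rw [eq_bot_iff]
    intro k hk
    obtain ⟨g, hg⟩ := hex y
    rw [Subgroup.mem_bot]
    have h1 : ∀ i, (k : P12) (y i) = y i := fun i => congrArg (fun z : Fin 5 ↪ Fin 12 => z i) hk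
    have h2 : (g⁻¹ * k * g) • bb = bb := by
      apply Function.Embedding.ext
      intro i
      show ((g⁻¹ * k * g : gp gen A0) : P12) (bb i) = bb i
      have h3 : ((g⁻¹ * k * g : gp gen A0) : P12) (bb i) = (g : P12)⁻¹ ((k : P12) ((g : P12) (bb i))) := rfl
      rw [h3, hg i, h1 i, ← hg i]
      simp
    have h3 := hfix _ h2
    have h4 : k = g * (g⁻¹ * k * g) * g⁻¹ := by group
    rw [h4, h3]
    group

end Cfsg.Agent.S3362
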