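import Cfsg.Statements.S3370
import Cfsg.Prelude.Def_CaseTheorems
import Cfsg.Agent.Lib.H14.UniqueSub

set_option autoImplicit false
open Cfsg

namespace Cfsg.Agent.S3370

/-- Parity of a geometric sum with odd ratio. -/
theorem even_geom (x : ℤ) (hx : Odd x) (m : ℕ) :
    Even (∑ i ∈ Finset.range m, x ^ i) ↔ Even m := by
  induction m with
  | zero => simp
  | succ k ih =>
    rw [Finset.sum_range_succ, Int.even_add]
    have h1 : ¬ Even (x ^ k) := by
      rw [Int.not_even_iff_odd]; exact hx.pow
    rw [ih, Nat.even_add_one]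
    tauto

/-- An odd divisor of a power of two is a unit. -/
theorem odd_dvd_two_pow (S : ℤ) (hS : ¬ Even S) {k : ℕ} (h : S ∣ (2 : ℤ) ^ k) : S.natAbs = 1 := by
  have h1 : S.natAbs ∣ 2 ^ k := by
    have := Int.natAbs_dvd_natAbs.2 h
    simpa [Int.natAbs_pow] using this
  obtain ⟨j, -, hj⟩ := (Nat.dvd_prime_pow Nat.prime_two).1 h1
  cases j with
  | zero => simpa using hj
  | succ j =>
    exfalso
    apply hS
    rw [← Int.natAbs_even, hj, pow_succ]
    rw [mul_comm]
    exact even_two_mul _

/-- `2 ^ n - 1 = p ^ a` with `n ≥ 2` forces `a = 1` (with `a ≠ 0`). -/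
theorem mersenne_exp {p a n : ℕ} (hp : p.Prime) (hn : 2 ≤ n) (ha : a ≠ 0)
    (h : p ^ a + 1 = 2 ^ n) : a = 1 := by
  have hpodd : Odd p := by
    have : ¬ Even (p ^ a) := by
      intro he
      have h2 : Even (2 ^ n) := (Nat.even_pow.2 ⟨even_two, by omega⟩)
      rw [← h] at h2
      exact (Nat.even_add_one.1 h2) he
    rw [Nat.even_pow] at this
    rw [← Nat.not_even_iff_odd]
    intro hep
    exact this ⟨hep, ha⟩
  have hmod : (p ^ a + 1) % 4 = 0 := by
    rw [h]
    obtain ⟨k, rfl⟩ : ∃ k, n = k + 2 := ⟨n - 2, by omega⟩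
    rw [pow_add]; omega
  have haodd : Odd a := by
    rw [← Nat.not_even_iff_odd]
    rintro ⟨b, rfl⟩
    rw [← two_mul, mul_comm, pow_mul] at hmod
    have hpb : Odd (p ^ b) := hpodd.pow
    obtain ⟨c, hc⟩ := hpb
    rw [hc] at hmod
    have : (2 * c + 1) ^ 2 = 4 * (c * c + c) + 1 := by ring
    rw [this] at hmod
    omega
  -- geometric sum with ratio -p
  have hx : Odd (-(p : ℤ)) := by
    exact ((Int.odd_coe_nat p).2 hpodd).neg
  have hS : ¬ Even (∑ i ∈ Finset.range a, (-(p : ℤ)) ^ i) := by
    rw [even_geom _ hx]; exact Nat.not_even_iff_odd.2 haodd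
  have hg := geom_sum_mul (-(p : ℤ)) a
  rw [haodd.neg_pow] at hg
  have hz : (p : ℤ) ^ a + 1 = 2 ^ n := by exact_mod_cast h
  have hd : (∑ i ∈ Finset.range a, (-(p : ℤ)) ^ i) ∣ (2 : ℤ) ^ n := by
    rw [← hz]
    refine ⟨-((-(p : ℤ)) - 1), ?_⟩
    linear_combination hg
  have hu := odd_dvd_two_pow _ hS hd
  have hg2 : (∑ i ∈ Finset.range a, (-(p : ℤ)) ^ i) * ((p : ℤ) + 1) = (p : ℤ) ^ a + 1 := by
    linear_combination -hg
  have hpos : 0 < (p : ℤ) := by exact_mod_cast hp.pos
  have hSpos : 0 < ∑ i ∈ Finset.range a, (-(p : ℤ)) ^ i := by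
    have h3 : 0 < (p : ℤ) ^ a + 1 := by positivity
    rw [← hg2] at h3
    exact (mul_pos_iff_of_pos_right (by linarith)).1 h3
  have hS1 : ∑ i ∈ Finset.range a, (-(p : ℤ)) ^ i = 1 := by
    have := Int.natAbs_of_nonneg hSpos.le
    rw [hu] at this
    simpa using this.symm
  rw [hS1, one_mul] at hg2
  have h5 : (p : ℤ) ^ a = (p : ℤ) ^ 1 := by linarith
  have h6 : p ^ a = p ^ 1 := by exact_mod_cast h5
  exact Nat.pow_right_injective hp.two_le h6

/-- `q ^ n - 1 = 2 ^ a` with `q` odd prime, `n ≥ 2` forces `q = 3`, `n = 2`. -/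
theorem fermat_exp {q a n : ℕ} (hq : q.Prime) (hq2 : q ≠ 2) (hn : 2 ≤ n)
    (h : q ^ n = 2 ^ a + 1) : q = 3 ∧ n = 2 := by
  have hqodd : Odd q := hq.odd_of_ne_two hq2
  have hq1 : 2 ≤ q := hq.two_le
  rcases Nat.even_or_odd n with hne | hno
  · obtain ⟨k, rfl⟩ := hne
    have hk : 1 ≤ k := by omega
    have e : (q ^ k) ^ 2 = 2 ^ a + 1 := by rw [← pow_mul, mul_two]; exact h
    have hb : 3 ≤ q ^ k := by
      have : Odd (q ^ k) := hqodd.pow
      have h2 : 2 ≤ q ^ k := le_trans hq1 (Nat.le_self_pow (by omega) q)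
      obtain ⟨c, hc⟩ := this
      omega
    set r := q ^ k with hr
    have hf : (r - 1) * (r + 1) = 2 ^ a := by
      obtain ⟨s, hs⟩ : ∃ s, r = s + 1 := ⟨r - 1, by omega⟩
      rw [hs] at e ⊢
      simp only [Nat.add_sub_cancel]
      have : (s + 1) ^ 2 = s * (s + 1 + 1) + 1 := by ring
      omega
    obtain ⟨i, -, hi⟩ := (Nat.dvd_prime_pow Nat.prime_two).1 (Dvd.intro _ hf)
    obtain ⟨j, -, hj⟩ := (Nat.dvd_prime_pow Nat.prime_two).1 (Dvd.intro_left _ hf)
    have hr3 : r = 3 := by
      have hij : 2 ^ j = 2 ^ i + 2 := by omega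
      have hi1 : i = 1 := by
        by_contra hne
        rcases Nat.lt_or_ge i 1 with h0 | h1
        · have : i = 0 := by omega
          subst this
          have hodd : 2 ^ j = 3 := by simpa using hij
          cases j with
          | zero => simp at hodd
          | succ j => rw [pow_succ] at hodd; omega
        · obtain ⟨i', rfl⟩ : ∃ i', i = i' + 2 := ⟨i - 2, by omega⟩
          have hlt : 2 < j := by
            by_contra hjj
            have : 2 ^ j ≤ 2 ^ 2 := Nat.pow_le_pow_right (by norm_num) (by omega)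
            have h4 : 0 < 2 ^ i' := by positivity
            rw [pow_add] at hij
            omega
          obtain ⟨j', rfl⟩ : ∃ j', j = j' + 2 := ⟨j - 2, by omega⟩
          rw [pow_add, pow_add] at hij
          omega
      subst hi1
      omega
    have h3 : q ^ k = 3 := hr3
    have := (Nat.Prime.pow_eq_iff Nat.prime_three).1 h3
    exact ⟨this.1, by omega⟩
  · exfalso
    have hx : Odd (q : ℤ) := by rw [Int.odd_coe_nat]; exact hqodd
    have hS : ¬ Even (∑ i ∈ Finset.range n, (q : ℤ) ^ i) := by
      rw [even_geom _ hx]; exact Nat.not_even_iff_odd.2 hno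
    have hg := geom_sum_mul (q : ℤ) n
    have hz : (q : ℤ) ^ n = 2 ^ a + 1 := by exact_mod_cast h
    have hd : (∑ i ∈ Finset.range n, (q : ℤ) ^ i) ∣ (2 : ℤ) ^ a := by
      refine ⟨(q : ℤ) - 1, ?_⟩
      linear_combination -hg - hz
    have hu := odd_dvd_two_pow _ hS hd
    have hpos : (0 : ℤ) < q := by exact_mod_cast hq.pos
    have hSnn : 0 ≤ ∑ i ∈ Finset.range n, (q : ℤ) ^ i :=
      Finset.sum_nonneg (fun i _ => by positivity)
    have hS1 : ∑ i ∈ Finset.range n, (q : ℤ) ^ i = 1 := by
      have := Int.natAbs_of_nonneg hSnn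
      rw [hu] at this
      simpa using this.symm
    rw [hS1, one_mul] at hg
    have h5 : (q : ℤ) ^ n = (q : ℤ) ^ 1 := by linarith
    have h6 : q ^ n = q ^ 1 := by exact_mod_cast h5
    have := Nat.pow_right_injective hq1 h6
    omega


abbrev Γ := Matrix.GeneralLinearGroup (Fin 2) (ZMod 3)

def x₀ : Γ := ⟨!![1, 1; 2, 1], !![2, 1; 2, 2], by decide, by decide⟩
def y₀ : Γ := ⟨!![1, 0; 0, 2], !![1, 0; 0, 2], by decide, by decide⟩

def listK : List Γ :=
  [1, x₀, x₀ ^ 2, x₀ ^ 3, x₀ ^ 4, x₀ ^ 5, x₀ ^ 6, x₀ ^ 7,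
    y₀, x₀ * y₀, x₀ ^ 2 * y₀, x₀ ^ 3 * y₀, x₀ ^ 4 * y₀, x₀ ^ 5 * y₀, x₀ ^ 6 * y₀, x₀ ^ 7 * y₀]

theorem listK_mul : ∀ a ∈ listK, ∀ b ∈ listK, a * b ∈ listK := by decide +kernel
theorem listK_inv : ∀ a ∈ listK, a⁻¹ ∈ listK := by decide +kernel
theorem listK_one : (1 : Γ) ∈ listK := by decide +kernel
theorem listK_card : listK.toFinset.card = 16 := by decide +kernel
theorem x₀_mem : x₀ ∈ listK := by decide +kernel
theorem y₀_mem : y₀ ∈ listK := by decide +kernel
theorem yx : y₀ * x₀ * y₀⁻¹ = x₀ ^ 3 := by decide +kernel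
theorem x₀_4 : x₀ ^ 4 ≠ 1 := by decide +kernel
theorem x₀_8 : x₀ ^ 8 = 1 := by decide +kernel
theorem y₀_1 : y₀ ≠ 1 := by decide +kernel
theorem y₀_2 : y₀ ^ 2 = 1 := by decide +kernel

def K₀ : Subgroup Γ where
  carrier := {g | g ∈ listK}
  mul_mem' := fun ha hb => listK_mul _ ha _ hb
  one_mem' := listK_one
  inv_mem' := fun ha => listK_inv _ ha

theorem card_K₀ : Nat.card K₀ = 16 := by
  have : Nat.card K₀ = Nat.card {g // g ∈ listK.toFinset} := by
    apply Nat.card_congr
    exact Equiv.subtypeEquivRight (fun g => by simp [K₀])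
  rw [this, Nat.card_eq_fintype_card, Fintype.card_coe, listK_card]

theorem card_Γ : Nat.card Γ = 48 := by
  rw [Matrix.card_GL_field]
  simp [Nat.card_zmod, Fin.prod_univ_two]

theorem fact48 : (Nat.card Γ).factorization 2 = 4 := by
  rw [card_Γ, show (48 : ℕ) = 2 ^ 4 * 3 by norm_num, Nat.factorization_mul (by norm_num) (by norm_num),
    Nat.Prime.factorization_pow Nat.prime_two]
  simp [Nat.factorization_eq_zero_of_not_dvd]

/-- A group of order 16 embedding into `GL₂(3)` is semidihedral. -/
theorem quasi_of_embed {G : Type*} [Group G] [Finite G] (hG : Nat.card G = 16)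
    (f : G →* Γ) (hf : Function.Injective f) : Cfsg.IsQuasiDihedral G := by
  classical
  haveI : Fact (Nat.Prime 2) := ⟨Nat.prime_two⟩
  have hH : Nat.card f.range = 16 := by
    rw [Nat.card_congr (MonoidHom.ofInjective hf).toEquiv.symm, hG]
  let H : Sylow 2 Γ := Sylow.ofCard f.range (by rw [hH, fact48]; norm_num)
  let K : Sylow 2 Γ := Sylow.ofCard K₀ (by rw [card_K₀, fact48]; norm_num)
  obtain ⟨t, hg⟩ := MulAction.exists_smul_eq Γ K H
  have hmem : ∀ k ∈ K₀, t * k * t⁻¹ ∈ f.range := by
    intro k hk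
    have h1 : (f.range : Subgroup Γ) = ((t • K : Sylow 2 Γ) : Subgroup Γ) := by rw [hg]; rfl
    rw [h1, Sylow.coe_subgroup_smul]
    have := Subgroup.smul_mem_pointwise_smul k (MulAut.conj t) (K : Subgroup Γ) hk
    exact this
  obtain ⟨a, ha⟩ := hmem x₀ x₀_mem
  obtain ⟨b, hb⟩ := hmem y₀ y₀_mem
  have hapow : ∀ n : ℕ, f (a ^ n) = t * x₀ ^ n * t⁻¹ := by
    intro n
    rw [map_pow, ha, conj_pow]
  have hbpow : ∀ n : ℕ, f (b ^ n) = t * y₀ ^ n * t⁻¹ := by
    intro n
    rw [map_pow, hb, conj_pow]
  have ho : orderOf a = 2 ^ 3 := by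
    apply orderOf_eq_prime_pow
    · intro h
      have := hapow 4
      rw [show (2 : ℕ) ^ 2 = 4 by norm_num] at h
      rw [h, map_one] at this
      apply x₀_4
      have h2 : t⁻¹ * (t * x₀ ^ 4 * t⁻¹) * t = x₀ ^ 4 := by group
      rw [← this] at h2
      rw [← h2]; group
    · have := hapow 8
      rw [x₀_8] at this
      simp only [mul_one, mul_inv_cancel] at this
      apply hf
      rw [map_one]
      exact this
  have ho2 : orderOf b = 2 := by
    apply orderOf_eq_prime
    · apply hf
      rw [map_one, hbpow, y₀_2]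
      group
    · intro h
      apply y₀_1
      have h3 : t * y₀ * t⁻¹ = 1 := by rw [← hb, h, map_one]
      have h2 : t⁻¹ * (t * y₀ * t⁻¹) * t = y₀ := by group
      rw [← h2, h3]; group
  refine ⟨3, le_rfl, by rw [hG]; norm_num, a, b, ho, ho2, ?_⟩
  apply hf
  rw [show (2 : ℕ) ^ (3 - 1) - 1 = 3 by norm_num, hapow, map_mul, map_mul, map_inv, ha, hb]
  rw [← yx]
  group


/-- Let q be a prime, V a non-trivial finite vector space over the field with q elements, and G a non-trivial finite p-group (p prime) acting faithfully and linearly on V and transitively on the non-zero vectors. Then either q = 2 and G has prime order p = |V| − 1; or p = 2, V has q elements with q = 2^m + 1 and G is cyclic of order 2^m; or p = 2, q = 3, V has 9 elements and G is cyclic of order 8, quaternion of order 8, or semidihedral of order 16. -/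
theorem result (q : ℕ) [Fact q.Prime] {V : Type*} [AddCommGroup V] [Module (ZMod q) V] [Finite V] [Nontrivial V]
    {G : Type*} [Group G] [Finite G] [Nontrivial G] (p : ℕ) [Fact p.Prime] (hG : IsPGroup p G)
    (ρ : G →* (V ≃ₗ[ZMod q] V)) (hρ : Function.Injective ρ)
    (htrans : ∀ v w : V, v ≠ 0 → w ≠ 0 → ∃ g : G, ρ g v = w) :
    (q = 2 ∧ p = Nat.card V - 1 ∧ Nat.card G = p) ∨
    (p = 2 ∧ Nat.card V = q ∧ (∃ m : ℕ, q = 2 ^ m + 1 ∧ Nat.card G = 2 ^ m) ∧ IsCyclic G) ∨
    (p = 2 ∧ q = 3 ∧ Nat.card V = 9 ∧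
      ((IsCyclic G ∧ Nat.card G = 8) ∨ Nonempty (G ≃* QuaternionGroup 2) ∨ (Cfsg.IsQuasiDihedral G ∧ Nat.card G = 16))) := by
  classical
  have hq : q.Prime := Fact.out
  have hp : p.Prime := Fact.out
  haveI : Module.Finite (ZMod q) V := Module.Finite.of_finite
  letI act : MulAction G V :=
    { smul := fun g v => ρ g v
      one_smul := fun v => by
        show ρ 1 v = v
        rw [map_one]; rfl
      mul_smul := fun g h v => by
        show ρ (g * h) v = ρ g (ρ h v)
        rw [map_mul]; rfl }
  have hsm : ∀ (g : G) (w : V), g • w = ρ g w := fun _ _ => rfl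
  obtain ⟨v, hv⟩ := exists_ne (0 : V)
  set n := Module.finrank (ZMod q) V with hn
  have hVn : Nat.card V = q ^ n := by
    rw [Module.natCard_eq_pow_finrank (K := ZMod q), Nat.card_zmod]
  have hn1 : 1 ≤ n := Module.finrank_pos
  -- orbits
  have horbit : ∀ w : V, w ≠ 0 → MulAction.orbit G w = ({0} : Set V)ᶜ := by
    intro w hw
    ext u
    simp only [Set.mem_compl_iff, Set.mem_singleton_iff, MulAction.mem_orbit_iff]
    constructor
    · rintro ⟨g, rfl⟩
      rw [hsm]
      intro h0
      apply hw
      have := (ρ g).map_eq_zero_iff.1 h0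
      exact this
    · intro hu
      obtain ⟨g, hg⟩ := htrans w u hw hu
      exact ⟨g, hg⟩
  have hcompl : (({0} : Set V)ᶜ).ncard + 1 = Nat.card V := by
    have := Set.ncard_add_ncard_compl ({0} : Set V)
    rw [Set.ncard_singleton] at this
    omega
  obtain ⟨a, ha⟩ : ∃ a, Nat.card (MulAction.orbit G v) = p ^ a := hG.card_orbit v
  have hcardorb : ∀ w : V, w ≠ 0 → Nat.card (MulAction.orbit G w) = p ^ a := by
    intro w hw
    rw [← ha, horbit w hw, horbit v hv]
  have hVa : p ^ a + 1 = q ^ n := by
    rw [← hVn, ← hcompl, ← ha, horbit v hv, Nat.card_coe_set_eq]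
  have hstab : ∀ w : V, w ≠ 0 → p ^ a * Nat.card (MulAction.stabilizer G w) = Nat.card G := by
    intro w hw
    rw [← hcardorb w hw]
    have := (MulAction.stabilizer G w).index_mul_card
    rw [MulAction.index_stabilizer, ← Nat.card_coe_set_eq] at this
    exact this
  have hcG : (∀ g : G, ρ g v = v → ∀ w, ρ g w = w) → Nat.card G = p ^ a := by
    intro h
    have hb : MulAction.stabilizer G v = ⊥ := by
      rw [eq_bot_iff]
      intro g hg
      rw [Subgroup.mem_bot]
      apply hρ
      rw [map_one]
      ext w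
      exact h g hg w
    have := hstab v hv
    rw [hb, Subgroup.card_bot, mul_one] at this
    exact this.symm
  have ha0 : a ≠ 0 := by
    rintro rfl
    have h1 : Nat.card (MulAction.orbit G v) = 1 := by rw [ha, pow_zero]
    have huniq : ∀ w : V, w ≠ 0 → w = v := by
      intro w hw
      have h2 : (MulAction.orbit G v).ncard = 1 := by rwa [← Nat.card_coe_set_eq]
      obtain ⟨c, hc⟩ := Set.ncard_eq_one.1 h2
      have hw1 : w ∈ MulAction.orbit G v := by rw [horbit v hv]; simpa using hw
      have hv1 : v ∈ MulAction.orbit G v := MulAction.mem_orbit_self v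
      rw [hc] at hw1 hv1
      rw [Set.mem_singleton_iff.1 hw1, Set.mem_singleton_iff.1 hv1]
    have hall : ∀ g : G, ρ g v = v → ∀ w, ρ g w = w := by
      intro g _ w
      by_cases hw : w = 0
      · rw [hw, map_zero]
      · rw [huniq w hw]
        apply huniq
        intro h0
        exact hv ((ρ g).map_eq_zero_iff.1 h0)
    have := hcG hall
    rw [pow_zero] at this
    have h3 : 1 < Nat.card G := Finite.one_lt_card
    omega
  by_cases hq2 : q = 2
  · -- the Mersenne case
    subst hq2
    have hn2 : 2 ≤ n := by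
      by_contra hlt
      have : n = 1 := by omega
      rw [this, pow_one] at hVa
      have : 2 ≤ p ^ a := le_trans hp.two_le (Nat.le_self_pow ha0 p)
      omega
    have ha1 : a = 1 := mersenne_exp hp hn2 ha0 hVa
    subst ha1
    rw [pow_one] at hVa
    left
    refine ⟨rfl, by rw [hVn]; omega, ?_⟩
    rw [hcG, pow_one]
    -- stabiliser acts trivially on the rest
    intro g hg w
    by_cases hw0 : w = 0
    · rw [hw0, map_zero]
    by_cases hwv : w = v
    · rw [hwv, hg]
    let S := MulAction.stabilizer G v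
    have hgS : g ∈ S := hg
    obtain ⟨b, hb⟩ : ∃ b, Nat.card (MulAction.orbit S w) = p ^ b :=
      (hG.to_subgroup S).card_orbit w
    have hsub : MulAction.orbit S w ⊆ ({0, v} : Set V)ᶜ := by
      rintro _ ⟨s, rfl⟩
      simp only [Set.mem_compl_iff, Set.mem_insert_iff, Set.mem_singleton_iff, not_or]
      have hs : ρ (s : G) v = v := s.2
      show ¬ (ρ (s : G) w = 0) ∧ ¬ (ρ (s : G) w = v)
      constructor
      · intro h0
        exact hw0 ((ρ s).map_eq_zero_iff.1 h0)
      · intro h1
        apply hwv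
        apply (ρ (s : G)).injective
        rw [h1, hs]
    have hcpl : (({0, v} : Set V)ᶜ).ncard + 2 = Nat.card V := by
      have := Set.ncard_add_ncard_compl ({0, v} : Set V)
      rw [Set.ncard_pair (Ne.symm hv)] at this
      omega
    have hle : (MulAction.orbit S w).ncard ≤ (({0, v} : Set V)ᶜ).ncard := Set.ncard_le_ncard hsub
    rw [← Nat.card_coe_set_eq, hb] at hle
    have hb0 : b = 0 := by
      by_contra hb0
      have : p ≤ p ^ b := Nat.le_self_pow hb0 p
      rw [hVn] at hcpl
      omega
    subst hb0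
    have h2 : (MulAction.orbit S w).ncard = 1 := by
      rw [← Nat.card_coe_set_eq, hb, pow_zero]
    obtain ⟨c, hc⟩ := Set.ncard_eq_one.1 h2
    have h3 : w ∈ MulAction.orbit S w := MulAction.mem_orbit_self w
    have h4 : (⟨g, hgS⟩ : S) • w ∈ MulAction.orbit S w := MulAction.mem_orbit w _
    rw [hc] at h3 h4
    rw [Set.mem_singleton_iff.1 h3]
    have h5 := Set.mem_singleton_iff.1 h4
    rw [← Set.mem_singleton_iff.1 h3]
    rw [← Set.mem_singleton_iff.1 h3] at h5
    exact h5
  · -- the odd case
    have hqodd : Odd q := hq.odd_of_ne_two hq2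
    have hp2 : p = 2 := by
      have h1 : Even (p ^ a) := by
        have h2 : Odd (q ^ n) := hqodd.pow
        rw [← hVa] at h2
        by_contra hne
        rw [Nat.not_even_iff_odd] at hne
        exact (Nat.not_even_iff_odd.2 h2) (hne.add_one)
      rw [Nat.even_pow] at h1
      exact (hp.even_iff).1 h1.1
    subst hp2
    by_cases hn11 : n = 1
    · -- one-dimensional
      right; left
      rw [hn11, pow_one] at hVa
      have hf1 : Module.finrank (ZMod q) V = 1 := hn11
      have hspan := (finrank_eq_one_iff_of_nonzero' v hv).1 hf1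
      have hsc : ∀ g : G, ρ g v = v → ∀ w, ρ g w = w := by
        intro g hg w
        obtain ⟨c, rfl⟩ := hspan w
        rw [map_smul, hg]
      have hcard := hcG hsc
      refine ⟨rfl, by rw [hVn, hn11, pow_one], ⟨a, hVa.symm, hcard⟩, ?_⟩
      -- scalars
      choose c hc using fun g : G => hspan (ρ g v)
      have hinj : Function.Injective (fun x : ZMod q => x • v) := smul_left_injective _ hv
      let F : G →* ZMod q :=
        { toFun := c
          map_one' := by
            apply hinj
            show c 1 • v = (1 : ZMod q) • v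
            rw [hc, map_one, one_smul]; rfl
          map_mul' := fun g h => by
            apply hinj
            show c (g * h) • v = (c g * c h) • v
            rw [hc (g * h), map_mul, LinearEquiv.mul_apply, ← hc h, map_smul, ← hc g, smul_smul, mul_comm] }
      apply isCyclic_of_injective_ringHom F
      intro g h hgh
      have h1 : ρ g v = ρ h v := by
        rw [← hc, ← hc]
        exact congrArg (fun x : ZMod q => x • v) hgh
      have h2 : ρ (h⁻¹ * g) v = v := by
        rw [map_mul, map_inv]
        show (ρ h)⁻¹ (ρ g v) = v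
        rw [h1]
        show (ρ h)⁻¹ (ρ h v) = v
        rw [← LinearEquiv.mul_apply, inv_mul_cancel]; rfl
      have h3 : ρ (h⁻¹ * g) = 1 := by
        ext w
        exact hsc _ h2 w
      have h4 : h⁻¹ * g = 1 := hρ (by rw [h3, map_one])
      exact (inv_mul_eq_one.1 h4).symm
    · have hn2 : 2 ≤ n := by omega
      obtain ⟨hq3, hn22⟩ := fermat_exp hq hq2 hn2 (by rw [← hVa])
      subst hq3
      right; right
      have h9 : Nat.card V = 9 := by rw [hVn, hn22]; norm_num
      have ha3 : a = 3 := by
        rw [hn22] at hVa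
        have h8 : 2 ^ a = 2 ^ 3 := by omega
        exact Nat.pow_right_injective (le_refl 2) h8
      subst ha3
      refine ⟨rfl, rfl, h9, ?_⟩
      have hf2 : Module.finrank (ZMod 3) V = 2 := hn22
      let b : Module.Basis (Fin 2) (ZMod 3) V := Module.finBasisOfFinrankEq _ _ hf2
      let f : G →* Γ := ((Matrix.GeneralLinearGroup.toLin' b).symm.toMonoidHom).comp
        (((LinearMap.GeneralLinearGroup.generalLinearEquiv (ZMod 3) V).symm.toMonoidHom).comp ρ)
      have hf : Function.Injective f := by
        intro g h hgh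
        apply hρ
        have h1 := (Matrix.GeneralLinearGroup.toLin' b).symm.injective hgh
        exact (LinearMap.GeneralLinearGroup.generalLinearEquiv (ZMod 3) V).symm.injective h1
      obtain ⟨k, hk⟩ := IsPGroup.iff_card.1 hG
      have h48 : Nat.card G ∣ 48 := by
        rw [← card_Γ]; exact Subgroup.card_dvd_of_injective f hf
      have h8 : 8 ∣ Nat.card G := by
        rw [← hstab v hv]; exact Dvd.intro _ rfl
      have hk34 : k = 3 ∨ k = 4 := by
        rw [hk] at h48 h8
        have h1 : 2 ^ k ∣ 2 ^ 4 := by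
          have : Nat.Coprime (2 ^ k) 3 := Nat.Coprime.pow_left k (by norm_num)
          exact this.dvd_of_dvd_mul_right (by simpa using h48)
        have h2 : 2 ^ 3 ∣ 2 ^ k := by simpa using h8
        have h3 := (Nat.pow_dvd_pow_iff_le_right (by norm_num)).1 h1
        have h4 := (Nat.pow_dvd_pow_iff_le_right (by norm_num)).1 h2
        omega
      rcases hk34 with rfl | rfl
      · -- order eight: free action
        have h8' : Nat.card G = 8 := by rw [hk]; norm_num
        have hfree : ∀ g : G, ∀ w : V, w ≠ 0 → ρ g w = w → g = 1 := by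
          intro g w hw hgw
          have h1 := hstab w hw
          rw [h8'] at h1
          have h2 : Nat.card (MulAction.stabilizer G w) = 1 := by omega
          have h3 : (MulAction.stabilizer G w) = ⊥ := Subgroup.eq_bot_of_card_eq _ h2
          have h4 : g ∈ MulAction.stabilizer G w := hgw
          rw [h3] at h4
          exact h4
        have hinv : ∀ t : G, orderOf t = 2 → ∀ w : V, ρ t w = -w := by
          intro t ht w
          have ht2 : t * t = 1 := by
            rw [← pow_two, ← ht, pow_orderOf_eq_one]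
          have ht1 : t ≠ 1 := by
            rintro rfl
            simp at ht
          by_contra hne
          have hu : w + ρ t w ≠ 0 := by
            intro h0
            apply hne
            exact (eq_neg_of_add_eq_zero_left (by rw [add_comm]; exact h0))
          apply ht1
          apply hfree t _ hu
          rw [map_add, add_comm]
          congr 1
          show ρ t (ρ t w) = w
          rw [← LinearEquiv.mul_apply, ← map_mul, ht2, map_one]; rfl
        have huq : Cfsg.Agent.H14.UniqueP 2 G := by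
          intro x y hx hy
          have : y = x := by
            apply hρ
            ext w
            rw [hinv x hx, hinv y hy]
          rw [this]
          exact Subgroup.mem_zpowers x
        rcases Cfsg.Agent.H14.isCyclic_or_quaternion hG huq with hc | ⟨-, j, hj, ⟨e⟩⟩
        · left
          exact ⟨hc, h8'⟩
        · right; left
          have hcard : Nat.card G = 4 * 2 ^ j := by
            rw [Nat.card_congr e.toEquiv, Nat.card_eq_fintype_card, QuaternionGroup.card]
          have hj1 : j = 1 := by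
            rw [h8'] at hcard
            have : 2 ^ j = 2 ^ 1 := by omega
            exact Nat.pow_right_injective (le_refl 2) this
          subst hj1
          exact ⟨e⟩
      · right; right
        have h16 : Nat.card G = 16 := by rw [hk]; norm_num
        exact ⟨quasi_of_embed h16 f hf, h16⟩

end Cfsg.Agent.S3370
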