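import Cfsg.Statements.S3378
import Cfsg.Agent.Lib.H16.Enum
import Cfsg.Agent.Lib.H16.SL25Rec

set_option autoImplicit false
open Cfsg

namespace Cfsg.Agent.S3378
open Cfsg.Agent.H16.Enum

-- presentation of `SL(2,5)`
def tbl : List (List ℕ) := [[1,4,7,6,0,12,11,15,17,16,20,3,23,25,24,2,29,30,32,31,34,36,35,5,40,41,43,42,37,9,8,48,39,49,10,51,52,54,53,18,14,13,59,50,60,61,55,62,19,57,26,22,21,69,28,70,71,33,72,27,67,76,78,77,80,79,82,44,83,38,46,87,89,88,91,90,45,94,47,95,96,97,98,100,99,102,101,56,105,58,106,107,108,103,63,65,64,104,66,113,68,114,110,115,81,73,75,74,112,118,85,119,92,84,86,93,109,111,116,117],[2,5,8,9,10,13,14,11,18,19,21,22,3,26,27,28,4,29,24,33,6,37,38,39,0,40,35,44,45,46,47,15,48,12,50,1,51,16,55,56,57,58,23,59,20,62,63,64,65,30,66,67,68,34,69,7,72,73,74,75,41,70,31,79,71,81,83,84,85,86,52,49,42,90,82,92,93,54,94,17,95,88,60,53,101,61,103,104,32,105,25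,106,99,109,110,76,111,78,112,43,113,36,114,77,116,96,87,117,89,80,119,108,118,107,98,100,91,115,102,97],[3,6,9,0,11,14,1,16,19,2,22,4,24,27,5,29,7,31,33,8,35,38,10,40,12,42,44,13,46,15,48,17,49,18,51,20,53,55,21,57,23,59,25,60,26,63,28,65,30,32,67,34,69,36,70,37,73,39,75,41,43,77,79,45,81,47,84,50,86,52,54,88,90,56,92,58,94,61,95,62,97,64,99,101,66,103,68,105,71,106,72,108,74,110,76,78,104,80,113,82,114,83,115,85,96,87,89,112,91,119,93,116,107,98,100,102,111,118,117,109]]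
def wordT : List (List ℕ) := [[],[0],[1],[2],[0,0],[0,1],[0,2],[1,0],[1,1],[1,2],[0,0,1],[0,0,2],[0,1,0],[0,1,1],[0,1,2],[1,0,0],[1,0,2],[1,1,0],[1,1,1],[1,1,2],[0,0,1,0],[0,0,1,1],[0,0,1,2],[0,1,0,0],[0,1,0,2],[0,1,1,0],[0,1,1,1],[0,1,1,2],[1,0,0,1],[1,0,0,2],[1,1,0,0],[1,1,0,2],[1,1,1,0],[1,1,1,2],[0,0,1,0,0],[0,0,1,0,2],[0,0,1,1,0],[0,0,1,1,1],[0,0,1,1,2],[0,1,0,0,1],[0,1,0,0,2],[0,1,1,0,0],[0,1,1,0,2],[0,1,1,1,0],[0,1,1,1,2],[1,0,0,1,1],[1,0,0,1,2],[1,1,0,0,1],[1,1,0,0,2],[1,1,1,0,2],[0,0,1,0,0,1],[0,0,1,0,0,2],[0,0,1,1,0,0],[0,0,1,1,0,2],[0,0,1,1,1,0],[0,0,1,1,1,2],[0,1,0,0,1,1],[0,1,0,0,1,2],[0,1,1,0,0,1],[0,1,1,0,0,2],[0,1,1,1,0,2],[1,0,0,1,1,0],[1,0,0,1,1,1],[1,0,0,1,1,2],[1,1,0,0,1,1],[1,1,0,0,1,2],[0,0,1,0,0,1,1],[0,0,1,0,0,1,2],[0,0,1,1,0,0,1],[0,0,1,1,0,0,2],[0,0,1,1,1,0,2],[0,1,0,0,1,1,0],[0,1,0,0,1,1,1],[0,1,0,0,1,1,2],[0,1,1,0,0,1,1],[0,1,1,0,0,1,2],[1,0,0,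1,1,0,0],[1,0,0,1,1,0,2],[1,0,0,1,1,1,0],[1,0,0,1,1,1,2],[1,1,0,0,1,1,0],[1,1,0,0,1,1,2],[0,0,1,0,0,1,1,0],[0,0,1,0,0,1,1,1],[0,0,1,0,0,1,1,2],[0,0,1,1,0,0,1,1],[0,0,1,1,0,0,1,2],[0,1,0,0,1,1,0,0],[0,1,0,0,1,1,0,2],[0,1,0,0,1,1,1,0],[0,1,0,0,1,1,1,2],[0,1,1,0,0,1,1,0],[0,1,1,0,0,1,1,2],[1,0,0,1,1,0,0,1],[1,0,0,1,1,0,0,2],[1,0,0,1,1,1,0,2],[1,1,0,0,1,1,0,0],[1,1,0,0,1,1,0,2],[0,0,1,0,0,1,1,0,0],[0,0,1,0,0,1,1,0,2],[0,0,1,0,0,1,1,1,0],[0,0,1,0,0,1,1,1,2],[0,0,1,1,0,0,1,1,0],[0,0,1,1,0,0,1,1,2],[0,1,0,0,1,1,0,0,1],[0,1,0,0,1,1,0,0,2],[0,1,0,0,1,1,1,0,2],[0,1,1,0,0,1,1,0,0],[0,1,1,0,0,1,1,0,2],[1,0,0,1,1,0,0,1,1],[1,0,0,1,1,0,0,1,2],[1,1,0,0,1,1,0,0,1],[0,0,1,0,0,1,1,0,0,1],[0,0,1,0,0,1,1,0,0,2],[0,0,1,0,0,1,1,1,0,2],[0,0,1,1,0,0,1,1,0,2],[0,1,0,0,1,1,0,0,1,1],[0,1,1,0,0,1,1,0,0,1],[1,0,0,1,1,0,0,1,1,0],[1,0,0,1,1,0,0,1,1,2]]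
def treeL : List (ℕ × ℕ) := [(0,0),(0,1),(0,2),(1,0),(1,1),(1,2),(2,0),(2,1),(2,2),(4,1),(4,2),(5,0),(5,1),(5,2),(7,0),(7,2),(8,0),(8,1),(8,2),(10,0),(10,1),(10,2),(12,0),(12,2),(13,0),(13,1),(13,2),(15,1),(15,2),(17,0),(17,2),(18,0),(18,2),(20,0),(20,2),(21,0),(21,1),(21,2),(23,1),(23,2),(25,0),(25,2),(26,0),(26,2),(28,1),(28,2),(30,1),(30,2),(32,2),(34,1),(34,2),(36,0),(36,2),(37,0),(37,2),(39,1),(39,2),(41,1),(41,2),(43,2),(45,0),(45,1),(45,2),(47,1),(47,2),(50,1),(50,2),(52,1),(52,2),(54,2),(56,0),(56,1),(56,2),(58,1),(58,2),(61,0),(61,2),(62,0),(62,2),(64,0),(64,2),(66,0),(66,1),(66,2),(68,1),(68,2),(71,0),(71,2),(72,0),(72,2),(74,0),(74,2),(76,1),(76,2),(78,2),(80,0),(80,2),(82,0),(82,2),(83,0),(83,2),(85,0),(85,2),(87,1),(87,2),(89,2),(91,0),(91,2),(93,1),(93,2),(96,1),(98,1),(98,2),(100,2),(102,2),(104,1),(107,1),(109,0),(109,2)]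
def dedL : List (ℕ × ℕ) := [(0,0),(0,2),(0,5),(1,2),(1,5),(2,0),(2,2),(4,2),(4,3),(4,5),(5,0),(5,2),(6,3),(7,2),(8,0),(8,2),(10,0),(10,2),(11,0),(12,2),(13,0),(13,2),(15,2),(15,3),(15,5),(16,3),(16,4),(17,2),(18,2),(20,2),(21,0),(21,1),(21,2),(23,2),(23,3),(23,5),(24,3),(24,4),(25,2),(26,2),(28,2),(29,0),(30,2),(30,3),(30,5),(31,3),(31,4),(32,2),(34,2),(34,3),(34,5),(35,3),(35,4),(36,2),(37,2),(37,4),(39,2),(40,0),(41,2),(41,3),(41,5),(42,3),(42,4),(43,2),(45,0),(45,1),(45,2),(46,5),(47,2),(48,0),(50,2),(51,0),(52,2),(52,3),(52,5),(53,3),(53,4),(54,2),(55,3),(56,0),(56,1),(56,2),(58,2),(59,0),(61,2),(62,2),(62,4),(64,0),(64,2),(65,5),(66,0),(66,1),(66,2),(68,2),(69,0),(70,0),(70,3),(71,2),(72,2),(72,4),(74,0),(74,2),(75,5),(76,2),(76,3),(76,5),(77,3),(78,2),(79,3),(80,2),(82,2),(83,2),(83,4),(85,2),(86,5),(87,2),(87,3),(87,5),(88,3),(89,2),(90,3),(91,2),(93,2),(94,0),(95,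0),(95,3),(98,2),(98,3),(98,5),(99,3),(100,2),(101,3),(102,2),(105,0),(106,0),(106,3),(109,2),(113,0),(114,0),(114,3),(0,1),(0,4),(1,1),(1,4),(2,4),(4,4),(5,4),(7,5),(8,4),(9,1),(10,4),(11,1),(12,5),(13,4),(14,1),(15,4),(17,5),(18,0),(18,3),(20,5),(23,4),(24,5),(25,5),(26,0),(26,3),(28,4),(29,1),(31,5),(32,3),(32,5),(33,5),(34,4),(35,5),(36,5),(39,4),(40,1),(42,5),(43,3),(43,5),(44,5),(45,5),(47,1),(47,4),(49,5),(50,4),(51,1),(53,5),(55,5),(58,1),(58,4),(60,5),(61,1),(61,4),(64,3),(64,4),(64,5),(68,4),(69,1),(71,5),(74,3),(74,4),(74,5),(79,5),(80,1),(80,4),(81,0),(82,5),(85,5),(88,5),(90,5),(91,1),(91,4),(92,0),(93,4),(94,4),(96,1),(96,3),(96,4),(96,5),(97,1),(97,5),(99,5),(101,5),(104,4),(107,3),(107,5),(109,0),(110,5),(111,5),(115,4),(117,1),(118,5),(61,5),(85,0),(85,3),(91,5),(93,0),(102,5),(108,5),(109,5),(117,2)]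
def rls : List (List ℕ) := [[0,0,0],[1,1,1,1,1],[2,2],[2,0,2,0,0],[2,1,2,1,1,1,1],[0,1,0,1,2]]
def tt (a i : ℕ) : ℕ := (tbl.getD a []).getD i 0
def wd (i : ℕ) : List ℕ := wordT.getD i []

theorem hcheck : check tt 3 120 wd rls treeL dedL = true := by decide +kernel

def xA : Matrix.SpecialLinearGroup (Fin 2) (ZMod 5) := ⟨!![0,1;4,4], by decide +kernel⟩
def yA : Matrix.SpecialLinearGroup (Fin 2) (ZMod 5) := ⟨!![0,4;1,2], by decide +kernel⟩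
def zA : Matrix.SpecialLinearGroup (Fin 2) (ZMod 5) := ⟨!![4,0;0,4], by decide +kernel⟩
def qq : ℕ → Matrix.SpecialLinearGroup (Fin 2) (ZMod 5) := fun a => ![xA, yA, zA] (Fin.ofNat 3 a)

theorem hsep : ∀ i, i < 120 → ∀ j, j < 120 → ev qq (wd i) = ev qq (wd j) → i = j := by decide +kernel

/-- the relator set -/
abbrev RR : Set (FreeGroup (Fin 3)) := {FreeGroup.of (0 : Fin 3) ^ 3, FreeGroup.of (1 : Fin 3) ^ 5, FreeGroup.of (2 : Fin 3) ^ 2,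
        (FreeGroup.of (2 : Fin 3))⁻¹ * FreeGroup.of 0 * FreeGroup.of 2 * (FreeGroup.of (0 : Fin 3))⁻¹,
        (FreeGroup.of (2 : Fin 3))⁻¹ * FreeGroup.of 1 * FreeGroup.of 2 * (FreeGroup.of (1 : Fin 3))⁻¹,
        (FreeGroup.of (0 : Fin 3) * FreeGroup.of 1) ^ 2 * (FreeGroup.of (2 : Fin 3))⁻¹}

theorem presented_card_and_equiv :
    Nonempty (PresentedGroup RR ≃* Matrix.SpecialLinearGroup (Fin 2) (ZMod 5)) := by
  classical
  let f : Fin 3 → Matrix.SpecialLinearGroup (Fin 2) (ZMod 5) := ![xA, yA, zA]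
  have hf : ∀ r ∈ RR, FreeGroup.lift f r = 1 := by
    intro r hr
    rcases hr with rfl | rfl | rfl | rfl | rfl | rfl
    · simp only [map_pow, FreeGroup.lift_apply_of]
      decide +kernel
    · simp only [map_pow, FreeGroup.lift_apply_of]
      decide +kernel
    · simp only [map_pow, FreeGroup.lift_apply_of]
      decide +kernel
    · simp only [map_mul, map_inv, FreeGroup.lift_apply_of]
      decide +kernel
    · simp only [map_mul, map_inv, FreeGroup.lift_apply_of]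
      decide +kernel
    · simp only [map_mul, map_pow, map_inv, FreeGroup.lift_apply_of]
      decide +kernel
  let F : PresentedGroup RR →* Matrix.SpecialLinearGroup (Fin 2) (ZMod 5) := PresentedGroup.toGroup hf
  have hF : ∀ a : ℕ, F (gOf RR a) = qq a := by
    intro a
    exact PresentedGroup.toGroup.of hf
  have hrel : ∀ r ∈ rls, ev (gOf RR) r = 1 := by
    intro r hr
    have mk1 : ∀ x ∈ RR, PresentedGroup.mk RR x = 1 := fun x hx =>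
      PresentedGroup.mk_eq_one_iff.2 (Subgroup.subset_normalClosure hx)
    have e0 : gOf RR 0 = PresentedGroup.mk RR (FreeGroup.of (0 : Fin 3)) := rfl
    have e1 : gOf RR 1 = PresentedGroup.mk RR (FreeGroup.of (1 : Fin 3)) := rfl
    have e2 : gOf RR 2 = PresentedGroup.mk RR (FreeGroup.of (2 : Fin 3)) := rfl
    have r1 : gOf RR 0 ^ 3 = 1 := by
      rw [e0, ← map_pow]
      exact mk1 _ (Or.inl rfl)
    have r2 : gOf RR 1 ^ 5 = 1 := by
      rw [e1, ← map_pow]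
      exact mk1 _ (Or.inr (Or.inl rfl))
    have r3 : gOf RR 2 ^ 2 = 1 := by
      rw [e2, ← map_pow]
      exact mk1 _ (Or.inr (Or.inr (Or.inl rfl)))
    have r4 : (gOf RR 2)⁻¹ * gOf RR 0 * gOf RR 2 * (gOf RR 0)⁻¹ = 1 := by
      rw [e0, e2, ← map_inv, ← map_inv, ← map_mul, ← map_mul, ← map_mul]
      exact mk1 _ (Or.inr (Or.inr (Or.inr (Or.inl rfl))))
    have r5 : (gOf RR 2)⁻¹ * gOf RR 1 * gOf RR 2 * (gOf RR 1)⁻¹ = 1 := by
      rw [e1, e2, ← map_inv, ← map_inv, ← map_mul, ← map_mul, ← map_mul]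
      exact mk1 _ (Or.inr (Or.inr (Or.inr (Or.inr (Or.inl rfl)))))
    have r6 : (gOf RR 0 * gOf RR 1) ^ 2 * (gOf RR 2)⁻¹ = 1 := by
      rw [e0, e1, e2, ← map_inv, ← map_mul, ← map_pow, ← map_mul]
      exact mk1 _ (Or.inr (Or.inr (Or.inr (Or.inr (Or.inr rfl)))))
    have hZi : (gOf RR 2)⁻¹ = gOf RR 2 := inv_eq_of_mul_eq_one_left (by
      rw [← pow_two]; exact r3)
    have hXi : (gOf RR 0)⁻¹ = gOf RR 0 * gOf RR 0 := inv_eq_of_mul_eq_one_right (by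
      simp only [pow_succ, pow_zero, one_mul] at r1
      rw [← r1, mul_assoc])
    have hYi : (gOf RR 1)⁻¹ = gOf RR 1 * (gOf RR 1 * (gOf RR 1 * gOf RR 1)) := inv_eq_of_mul_eq_one_right (by
      simp only [pow_succ, pow_zero, one_mul] at r2
      rw [← r2]
      simp only [mul_assoc])
    rw [hZi, hXi] at r4
    rw [hZi, hYi] at r5
    rw [hZi] at r6
    simp only [rls, List.mem_cons, List.not_mem_nil, or_false] at hr
    rcases hr with rfl | rfl | rfl | rfl | rfl | rfl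
    · simp only [ev, mul_one]
      rw [← r1]
      simp only [pow_succ, pow_zero, one_mul, mul_assoc]
    · simp only [ev, mul_one]
      rw [← r2]
      simp only [pow_succ, pow_zero, one_mul, mul_assoc]
    · simp only [ev, mul_one]
      rw [← r3]
      simp only [pow_succ, pow_zero, one_mul, mul_assoc]
    · simp only [ev, mul_one]
      rw [← r4]
      simp only [mul_assoc]
    · simp only [ev, mul_one]
      rw [← r5]
      simp only [mul_assoc]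
    · simp only [ev, mul_one]
      rw [← r6]
      simp only [pow_succ, pow_zero, one_mul, mul_assoc]
  have hlet : ∀ r ∈ rls, ∀ a ∈ r, a < 3 := by decide +kernel
  have hcard : Nat.card (Matrix.SpecialLinearGroup (Fin 2) (ZMod 5)) = 120 := by
    rw [Nat.card_eq_fintype_card]
    decide +kernel
  have hbij := bijective_of_check (t := tt) (word := wd) (tree := treeL) (ded := dedL) (N := 120) hrel hlet hcheck
    (by decide +kernel) (by norm_num) (closure_gOf RR) F hcard (by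
      simp only [hF]
      exact hsep)
  exact ⟨MulEquiv.ofBijective F hbij⟩


/-- Every non-solvable group of order 120 whose Sylow 2-subgroups are quaternion of order 8 is isomorphic to SL(2,5), and SL(2,5) has the presentation ⟨x, y, z | x³ = y⁵ = z² = 1, z⁻¹xz = x, z⁻¹yz = y, (xy)² = z⟩. -/
theorem result :
    (∀ (G : Type*) [Group G] [Finite G], Nat.card G = 120 → ¬ Group.IsSolvable G →
      (∀ P : Sylow 2 G, Nonempty ((P : Subgroup G) ≃* QuaternionGroup 2)) →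
      Nonempty (G ≃* Matrix.SpecialLinearGroup (Fin 2) (ZMod 5))) ∧
    Nonempty (PresentedGroup ({FreeGroup.of (0 : Fin 3) ^ 3, FreeGroup.of (1 : Fin 3) ^ 5, FreeGroup.of (2 : Fin 3) ^ 2,
        (FreeGroup.of (2 : Fin 3))⁻¹ * FreeGroup.of 0 * FreeGroup.of 2 * (FreeGroup.of (0 : Fin 3))⁻¹,
        (FreeGroup.of (2 : Fin 3))⁻¹ * FreeGroup.of 1 * FreeGroup.of 2 * (FreeGroup.of (1 : Fin 3))⁻¹,
        (FreeGroup.of (0 : Fin 3) * FreeGroup.of 1) ^ 2 * (FreeGroup.of (2 : Fin 3))⁻¹} : Set (FreeGroup (Fin 3)))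
      ≃* Matrix.SpecialLinearGroup (Fin 2) (ZMod 5)) := by
  refine ⟨?_, presented_card_and_equiv⟩
  intro G _ _ hc hns hQ
  obtain ⟨x, y, z, hx, hy, hz, hzc, hxy, hgen⟩ := H16.sl25_gens G hc hns hQ
  obtain ⟨e⟩ := presented_card_and_equiv
  let f : Fin 3 → G := ![x, y, z]
  have hf : ∀ r ∈ RR, FreeGroup.lift f r = 1 := by
    have f0 : f 0 = x := rfl
    have f1 : f 1 = y := rfl
    have f2 : f 2 = z := rfl
    intro r hr
    rcases hr with rfl | rfl | rfl | rfl | rfl | rfl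
    · simp only [map_pow, FreeGroup.lift_apply_of, f0]
      exact hx
    · simp only [map_pow, FreeGroup.lift_apply_of, f1]
      exact hy
    · simp only [map_pow, FreeGroup.lift_apply_of, f2]
      exact hz
    · simp only [map_mul, map_inv, FreeGroup.lift_apply_of, f0, f2]
      rw [mul_assoc z⁻¹, ← hzc x]
      group
    · simp only [map_mul, map_inv, FreeGroup.lift_apply_of, f1, f2]
      rw [mul_assoc z⁻¹, ← hzc y]
      group
    · simp only [map_mul, map_pow, map_inv, FreeGroup.lift_apply_of, f0, f1, f2]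
      rw [hxy]
      group
  let Φ : PresentedGroup RR →* G := PresentedGroup.toGroup hf
  have hsurj : Function.Surjective Φ := by
    rw [← MonoidHom.range_eq_top, eq_top_iff, ← hgen, Subgroup.closure_le]
    rintro a (rfl | rfl | rfl)
    · exact ⟨PresentedGroup.of 0, PresentedGroup.toGroup.of hf⟩
    · exact ⟨PresentedGroup.of 1, PresentedGroup.toGroup.of hf⟩
    · exact ⟨PresentedGroup.of 2, PresentedGroup.toGroup.of hf⟩
  have hcard : Nat.card (PresentedGroup RR) = 120 := by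
    rw [Nat.card_congr e.toEquiv, Nat.card_eq_fintype_card]
    decide +kernel
  haveI : Finite (PresentedGroup RR) := Nat.finite_of_card_ne_zero (by omega)
  have hbij : Function.Bijective Φ := hsurj.bijective_of_nat_card_le (by rw [hc, hcard])
  exact ⟨(MulEquiv.ofBijective Φ hbij).symm.trans e⟩

end Cfsg.Agent.S3378
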