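import Cfsg.Statements.S3374
import Cfsg.Agent.S3378

set_option autoImplicit false
open Cfsg

namespace Cfsg.Agent.S3374
open Cfsg.Agent.H16.Enum
open Cfsg.Agent.S3378 (tt wd rls treeL dedL hcheck RR)

abbrev M := Matrix.SpecialLinearGroup (Fin 2) (ZMod 11)
abbrev V := Fin 2 → ZMod 11

def xB : M := ⟨!![0,1;10,10], by decide +kernel⟩
def yB : M := ⟨!![0,2;5,3], by decide +kernel⟩
def zB : M := ⟨!![10,0;0,10], by decide +kernel⟩
def qB : ℕ → M := fun a => ![xB, yB, zB] (Fin.ofNat 3 a)

theorem hsepB : ∀ i, i < 120 → ∀ j, j < 120 → ev qB (wd i) = ev qB (wd j) → i = j := by decide +kernel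

def Fpf (g : M) : Prop := ∀ a b : ZMod 11, (a ≠ 0 ∨ b ≠ 0) → g.1.mulVec ![a, b] ≠ ![a, b]

instance : DecidablePred Fpf := fun g => by
  unfold Fpf
  infer_instance

theorem hfpf : ∀ i, i < 120 → ev qB (wd i) ≠ 1 → Fpf (ev qB (wd i)) := by decide +kernel

theorem hrelB : ∀ r ∈ rls, ev qB r = 1 := by decide +kernel

/-- The subgroup generated by the three matrices. -/
def G₁ : Subgroup M := Subgroup.closure {xB, yB, zB}

theorem qB_mem (a : ℕ) : qB a ∈ G₁ := by
  apply Subgroup.subset_closure
  show ![xB, yB, zB] (Fin.ofNat 3 a) ∈ _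
  generalize Fin.ofNat 3 a = c
  fin_cases c
  · exact Or.inl rfl
  · exact Or.inr (Or.inl rfl)
  · exact Or.inr (Or.inr rfl)

def gs (a : ℕ) : G₁ := ⟨qB a, qB_mem a⟩

theorem ev_gs (r : List ℕ) : ((ev gs r : G₁) : M) = ev qB r :=
  ev_map (g := gs) G₁.subtype r

theorem gs_surj : ∀ x : G₁, ∃ i, i < 120 ∧ ev gs (wd i) = x := by
  apply surj_of_check (t := tt) (k := 3) (word := wd) (rels := rls) (tree := treeL) (ded := dedL)
  · intro r hr
    apply Subtype.ext
    rw [ev_gs]
    exact hrelB r hr
  · decide +kernel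
  · exact hcheck
  · decide +kernel
  · norm_num
  · have h0 : Subgroup.closure (Subtype.val ⁻¹' ({xB, yB, zB} : Set M) : Set G₁) = ⊤ :=
      Subgroup.closure_closure_coe_preimage
    rw [eq_top_iff, ← h0]
    apply Subgroup.closure_mono
    rintro ⟨x, hx⟩ hx2
    rcases hx2 with rfl | rfl | rfl
    · exact ⟨0, by norm_num, rfl⟩
    · exact ⟨1, by norm_num, rfl⟩
    · exact ⟨2, by norm_num, rfl⟩

theorem gs_inj : ∀ i, i < 120 → ∀ j, j < 120 → ev gs (wd i) = ev gs (wd j) → i = j := by
  intro i hi j hj h
  apply hsepB i hi j hj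
  rw [← ev_gs, ← ev_gs, h]

theorem G₁_finite : Finite G₁ := by
  infer_instance

theorem G₁_card : Nat.card G₁ = 120 := by
  have h : Function.Bijective (fun i : Fin 120 => ev gs (wd i)) := by
    constructor
    · intro i j hij
      exact Fin.ext (gs_inj i i.2 j j.2 hij)
    · intro x
      obtain ⟨i, hi, he⟩ := gs_surj x
      exact ⟨⟨i, hi⟩, he⟩
  rw [← Nat.card_congr (Equiv.ofBijective _ h), Nat.card_eq_fintype_card, Fintype.card_fin]

/-- The action. -/
def act (g : G₁) : MulAut (Multiplicative V) where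
  toFun v := Multiplicative.ofAdd ((g : M).1.mulVec (Multiplicative.toAdd v))
  invFun v := Multiplicative.ofAdd (((g⁻¹ : G₁) : M).1.mulVec (Multiplicative.toAdd v))
  left_inv v := by
    show Multiplicative.ofAdd (_) = v
    simp only [toAdd_ofAdd, Matrix.mulVec_mulVec]
    have : ((g⁻¹ : G₁) : M).1 * (g : M).1 = 1 := by
      have h := congrArg Subtype.val (congrArg Subtype.val (inv_mul_cancel g))
      exact h
    rw [this, Matrix.one_mulVec]
    rfl
  right_inv v := by
    show Multiplicative.ofAdd (_) = v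
    simp only [toAdd_ofAdd, Matrix.mulVec_mulVec]
    have : (g : M).1 * ((g⁻¹ : G₁) : M).1 = 1 := by
      have h := congrArg Subtype.val (congrArg Subtype.val (mul_inv_cancel g))
      exact h
    rw [this, Matrix.one_mulVec]
    rfl
  map_mul' u v := by
    show Multiplicative.ofAdd ((g : M).1.mulVec (Multiplicative.toAdd u + Multiplicative.toAdd v)) = _
    rw [Matrix.mulVec_add]
    rfl

def actHom : G₁ →* MulAut (Multiplicative V) where
  toFun := act
  map_one' := by
    refine MulEquiv.ext fun v => ?_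
    have h1 : ((1 : G₁) : M).1 = 1 := rfl
    show Multiplicative.ofAdd (((1 : G₁) : M).1.mulVec (Multiplicative.toAdd v)) = v
    rw [h1, Matrix.one_mulVec]
    rfl
  map_mul' a b := by
    refine MulEquiv.ext fun v => ?_
    have h1 : ((a * b : G₁) : M).1 = (a : M).1 * (b : M).1 := rfl
    show Multiplicative.ofAdd (((a * b : G₁) : M).1.mulVec (Multiplicative.toAdd v)) =
      Multiplicative.ofAdd ((a : M).1.mulVec ((b : M).1.mulVec (Multiplicative.toAdd v)))
    rw [h1, Matrix.mulVec_mulVec]

abbrev L := SemidirectProduct (Multiplicative V) G₁ actHom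

instance : Finite L := Finite.of_equiv _ SemidirectProduct.equivProd.symm

theorem fpf_all (a : G₁) (ha : a ≠ 1) (v : Multiplicative V) (hv : actHom a v = v) : v = 1 := by
  obtain ⟨i, hi, he⟩ := gs_surj a
  have hne : ev qB (wd i) ≠ 1 := by
    rw [← ev_gs, he]
    intro h
    exact ha (Subtype.ext h)
  by_contra hv1
  have hv2 : (Multiplicative.toAdd v) 0 ≠ 0 ∨ (Multiplicative.toAdd v) 1 ≠ 0 := by
    by_contra hcon
    push Not at hcon
    apply hv1
    apply Multiplicative.toAdd.injective
    ext j
    fin_cases j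
    · exact hcon.1
    · exact hcon.2
  apply hfpf i hi hne _ _ hv2
  have e1 : ![(Multiplicative.toAdd v) 0, (Multiplicative.toAdd v) 1] = Multiplicative.toAdd v := by
    ext j
    fin_cases j <;> rfl
  rw [e1, ← ev_gs, he]
  exact congrArg Multiplicative.toAdd hv


/-- SL(2,5) occurs as a Frobenius complement: there is a finite group L with a subgroup H isomorphic to SL(2,5) which is a non-trivial proper subgroup meeting each conjugate gHg⁻¹ with g outside H trivially. -/
theorem result :
    ∃ (L : Type) (_ : Group L) (_ : Finite L) (H : Subgroup L),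
      Cfsg.IsFrobeniusComplement H ∧ Nonempty (H ≃* Matrix.SpecialLinearGroup (Fin 2) (ZMod 5)) := by
  obtain ⟨e⟩ := Cfsg.Agent.S3378.presented_card_and_equiv
  let f : Fin 3 → G₁ := ![⟨xB, qB_mem 0⟩, ⟨yB, qB_mem 1⟩, ⟨zB, qB_mem 2⟩]
  have hf : ∀ r ∈ RR, FreeGroup.lift f r = 1 := by
    have f0 : f 0 = ⟨xB, qB_mem 0⟩ := rfl
    have f1 : f 1 = ⟨yB, qB_mem 1⟩ := rfl
    have f2 : f 2 = ⟨zB, qB_mem 2⟩ := rfl
    intro r hr
    rcases hr with rfl | rfl | rfl | rfl | rfl | rfl
    · simp only [map_pow, FreeGroup.lift_apply_of, f0]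
      apply Subtype.ext
      decide +kernel
    · simp only [map_pow, FreeGroup.lift_apply_of, f1]
      apply Subtype.ext
      decide +kernel
    · simp only [map_pow, FreeGroup.lift_apply_of, f2]
      apply Subtype.ext
      decide +kernel
    · simp only [map_mul, map_inv, FreeGroup.lift_apply_of, f0, f2]
      apply Subtype.ext
      decide +kernel
    · simp only [map_mul, map_inv, FreeGroup.lift_apply_of, f1, f2]
      apply Subtype.ext
      decide +kernel
    · simp only [map_mul, map_pow, map_inv, FreeGroup.lift_apply_of, f0, f1, f2]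
      apply Subtype.ext
      decide +kernel
  let Φ : PresentedGroup RR →* G₁ := PresentedGroup.toGroup hf
  have hΦ : ∀ a : ℕ, Φ (gOf RR a) = gs a := by
    intro a
    have h1 : Φ (gOf RR a) = f (Fin.ofNat 3 a) := PresentedGroup.toGroup.of hf
    rw [h1]
    apply Subtype.ext
    show _ = ![xB, yB, zB] (Fin.ofNat 3 a)
    generalize Fin.ofNat 3 a = c
    fin_cases c <;> rfl
  have hsurj : Function.Surjective Φ := by
    intro x
    obtain ⟨i, _, he⟩ := gs_surj x
    refine ⟨ev (gOf RR) (wd i), ?_⟩
    rw [ev_map (g := gOf RR) Φ]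
    simp only [hΦ]
    exact he
  have hcard : Nat.card (PresentedGroup RR) = 120 := by
    rw [Nat.card_congr e.toEquiv, Nat.card_eq_fintype_card]
    decide +kernel
  haveI : Finite (PresentedGroup RR) := Nat.finite_of_card_ne_zero (by omega)
  have hbij : Function.Bijective Φ := hsurj.bijective_of_nat_card_le (by rw [G₁_card, hcard])
  let e2 : PresentedGroup RR ≃* G₁ := MulEquiv.ofBijective Φ hbij
  let inrL : G₁ →* L := SemidirectProduct.inr
  let H : Subgroup L := inrL.range
  have hinj : Function.Injective inrL := SemidirectProduct.inr_injective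
  refine ⟨L, inferInstance, inferInstance, H, ⟨?_, ?_, ?_⟩, ⟨(MonoidHom.ofInjective hinj).symm.trans (e2.symm.trans e)⟩⟩
  · -- nontrivial
    intro h
    have h1 : inrL ⟨xB, qB_mem 0⟩ ∈ H := ⟨_, rfl⟩
    rw [h, Subgroup.mem_bot] at h1
    have h2 : (⟨xB, qB_mem 0⟩ : G₁) = 1 := hinj (by rw [h1, map_one])
    have h3 : xB = 1 := congrArg Subtype.val h2
    revert h3
    decide +kernel
  · -- proper
    intro h
    let v : Multiplicative V := Multiplicative.ofAdd ![1, 0]
    have h1 : (SemidirectProduct.inl v : L) ∈ H := by rw [h]; trivial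
    obtain ⟨a, ha⟩ := h1
    have h2 := congrArg SemidirectProduct.left ha
    have h3 : (1 : Multiplicative V) = v := h2
    have h4 := congrArg (fun w : Multiplicative V => (Multiplicative.toAdd w) 0) h3
    revert h4
    decide +kernel
  · intro g hg
    rw [eq_bot_iff]
    rintro b ⟨⟨a, rfl⟩, hb2⟩
    obtain ⟨c', ⟨c, rfl⟩, hc⟩ := hb2
    have heq : inrL a * g = g * inrL c := by
      have h1 : g * inrL c * g⁻¹ = inrL a := hc
      rw [← h1]
      group
    have hleft := congrArg SemidirectProduct.left heq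
    rw [SemidirectProduct.mul_left, SemidirectProduct.mul_left] at hleft
    have hl1 : actHom a g.left = g.left := by
      have h3 : (inrL a).left = 1 := rfl
      have h4 : (inrL a).right = a := rfl
      have h5 : (inrL c).left = 1 := rfl
      rw [h3, h4, h5, one_mul, map_one, mul_one] at hleft
      exact hleft
    have ha1 : a = 1 := by
      by_contra ha
      have hv := fpf_all a ha g.left hl1
      apply hg
      refine ⟨g.right, ?_⟩
      apply SemidirectProduct.ext
      · rw [hv]
        rfl
      · rfl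
    rw [ha1, map_one]
    exact Subgroup.one_mem _

end Cfsg.Agent.S3374
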