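import Cfsg.Statements.S3375


set_option autoImplicit false
open Cfsg

namespace Cfsg.Agent.S3375

/-- Let γ be an automorphism of order 2 of a finite group H. (i) If γ fixes only the identity, then H is abelian and γ inverts every element. (ii) If γ has exactly two fixed points and H has a subgroup of index 2, then H has a γ-invariant abelian subgroup of index 2 on which γ acts by inversion. -/
theorem result {H : Type*} [Group H] [Finite H] (γ : MulAut H) (hγ : orderOf γ = 2) :
    ((∀ h : H, γ h = h → h = 1) → (∀ a b : H, a * b = b * a) ∧ ∀ h : H, γ h = h⁻¹) ∧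
    ((Nat.card {h : H // γ h = h} = 2 ∧ ∃ M : Subgroup H, M.index = 2) →
      ∃ A : Subgroup H, A.index = 2 ∧ IsMulCommutative A ∧ (∀ a ∈ A, γ a ∈ A) ∧ ∀ a ∈ A, γ a = a⁻¹) := by
  classical
  have : Fintype H := Fintype.ofFinite H
  have hγ2 : ∀ x : H, γ (γ x) = x := by
    intro x
    have h2 : γ ^ 2 = 1 := by rw [← hγ]; exact pow_orderOf_eq_one γ
    have := congrArg (fun f : MulAut H => f x) h2
    simpa [pow_two, MulAut.mul_apply] using this
  -- inverted elements
  have hinv : ∀ x : H, γ (x⁻¹ * γ x) = (x⁻¹ * γ x)⁻¹ := by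
    intro x
    rw [map_mul, map_inv, hγ2]
    group
  -- fibers
  have hfib : ∀ x y : H, x⁻¹ * γ x = y⁻¹ * γ y → γ (y * x⁻¹) = y * x⁻¹ := by
    intro x y hxy
    rw [map_mul, map_inv]
    have : γ x = x * (y⁻¹ * γ y) := by rw [← hxy]; group
    rw [this]
    group
  constructor
  · intro hfree
    have hinj : Function.Injective (fun x : H => x⁻¹ * γ x) := by
      intro x y hxy
      have := hfree _ (hfib x y hxy)
      have h3 := mul_inv_eq_one.mp this
      exact h3.symm
    have hsurj := Finite.surjective_of_injective hinj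
    have hall : ∀ h : H, γ h = h⁻¹ := by
      intro h
      obtain ⟨x, rfl⟩ := hsurj h
      exact hinv x
    refine ⟨?_, hall⟩
    intro a b
    have h1 := hall (a * b)
    rw [map_mul, hall a, hall b, mul_inv_rev] at h1
    have h2 := congrArg (fun x => x⁻¹) h1
    simp only [mul_inv_rev, inv_inv] at h2
    exact h2.symm
  · rintro ⟨hfix, M, hM⟩
    -- γ-invariant subgroup of index two
    have hexA : ∃ A : Subgroup H, A.index = 2 ∧ ∀ a, a ∈ A ↔ γ a ∈ A := by
      by_cases hinvM : ∀ a, a ∈ M ↔ γ a ∈ M
      · exact ⟨M, hM, hinvM⟩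
      · push Not at hinvM
        obtain ⟨a₀, ha₀⟩ := hinvM
        have hmul : ∀ a b : H, a * b ∈ M ↔ (a ∈ M ↔ b ∈ M) := fun a b =>
          Subgroup.mul_mem_iff_of_index_two hM
        let A : Subgroup H :=
          { carrier := {x | x ∈ M ↔ γ x ∈ M}
            one_mem' := by simp [M.one_mem]
            mul_mem' := by
              intro a b ha hb
              simp only [Set.mem_ofPred_eq] at ha hb ⊢
              rw [map_mul, hmul, hmul, ha, hb]
            inv_mem' := by
              intro a ha
              simp only [Set.mem_ofPred_eq] at ha ⊢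
              rw [map_inv, M.inv_mem_iff, M.inv_mem_iff]
              exact ha }
        have hmemA : ∀ x, x ∈ A ↔ (x ∈ M ↔ γ x ∈ M) := fun x => Iff.rfl
        have hmulA : ∀ a b : H, (a * b ∈ A) ↔ (a ∈ A ↔ b ∈ A) := by
          intro a b
          simp only [hmemA, map_mul, hmul]
          tauto
        have ha₀A : a₀ ∉ A := by
          rw [hmemA]
          tauto
        refine ⟨A, ?_, ?_⟩
        · rw [Subgroup.index_eq_two_iff]
          refine ⟨a₀, fun b => ?_⟩
          rw [hmulA]
          rw [xor_iff_not_iff']
          tauto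
        · intro a
          simp only [hmemA, hγ2]
          tauto
    obtain ⟨A, hAi, hAinv⟩ := hexA
    refine ⟨A, hAi, ?_⟩
    have hmulA : ∀ a b : H, (a * b ∈ A) ↔ (a ∈ A ↔ b ∈ A) := fun a b =>
      Subgroup.mul_mem_iff_of_index_two hAi
    have hinA : ∀ x : H, x⁻¹ * γ x ∈ A := by
      intro x
      rw [hmulA, A.inv_mem_iff]
      exact hAinv x
    -- counting
    have hcard : Fintype.card H = 2 * Nat.card A := by
      have := A.card_mul_index
      rw [hAi] at this
      rw [← Nat.card_eq_fintype_card, ← this, mul_comm]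
    have hfixcard : (Finset.univ.filter (fun h : H => γ h = h)).card = 2 := by
      rw [← hfix, Nat.card_eq_fintype_card, Fintype.card_subtype]
    have hfibcard : ∀ b ∈ (Finset.univ.image (fun x : H => x⁻¹ * γ x)),
        (Finset.univ.filter (fun x : H => x⁻¹ * γ x = b)).card ≤ 2 := by
      intro b hb
      rw [Finset.mem_image] at hb
      obtain ⟨x, -, rfl⟩ := hb
      rw [← hfixcard]
      apply Finset.card_le_card_of_injOn (fun y : H => y * x⁻¹)
      · intro y hy
        simp only [Finset.coe_filter, Finset.mem_univ, true_and, Set.mem_ofPred_eq] at hy ⊢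
        exact hfib x y hy.symm
      · intro y _ z _ hyz
        exact mul_right_cancel hyz
    have hle := Finset.card_le_mul_card_image (f := fun x : H => x⁻¹ * γ x) Finset.univ 2 hfibcard
    rw [Finset.card_univ, hcard] at hle
    have hle' : Nat.card A ≤ (Finset.univ.image (fun x : H => x⁻¹ * γ x)).card := by omega
    have hsub : (Finset.univ.image (fun x : H => x⁻¹ * γ x)) ⊆ Finset.univ.filter (fun a : H => a ∈ A) := by
      intro b hb
      rw [Finset.mem_image] at hb
      obtain ⟨x, -, rfl⟩ := hb
      simp only [Finset.mem_filter, Finset.mem_univ, true_and]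
      exact hinA x
    have hAcard : (Finset.univ.filter (fun a : H => a ∈ A)).card = Nat.card A := by
      rw [Nat.card_eq_fintype_card, Fintype.card_subtype]
    have hEq := Finset.eq_of_subset_of_card_le hsub (by rw [hAcard]; exact hle')
    have hAinv' : ∀ a ∈ A, γ a = a⁻¹ := by
      intro a ha
      have : a ∈ (Finset.univ.image (fun x : H => x⁻¹ * γ x)) := by
        rw [hEq]
        simp only [Finset.mem_filter, Finset.mem_univ, true_and]
        exact ha
      rw [Finset.mem_image] at this
      obtain ⟨x, -, rfl⟩ := this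
      exact hinv x
    refine ⟨?_, fun a ha => (hAinv a).1 ha, hAinv'⟩
    refine ⟨⟨fun a b => ?_⟩⟩
    apply Subtype.ext
    have h1 := hAinv' (a * b : A) (a * b : A).2
    simp only [Subgroup.coe_mul, map_mul, hAinv' a a.2, hAinv' b b.2, mul_inv_rev] at h1
    have h2 := congrArg (fun x => x⁻¹) h1
    simp only [mul_inv_rev, inv_inv] at h2
    simpa using h2.symm

end Cfsg.Agent.S3375
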