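import Cfsg.Statements.S3379

set_option autoImplicit false
open Cfsg

namespace Cfsg.Agent.S3379

set_option linter.style.haveILetI false
open scoped commutatorElement


/-- Let G be a finite group all of whose Sylow subgroups are cyclic. Then G is generated by two elements x and y of coprime orders n and m with x⁻¹yx = y^r, where gcd(r − 1, m) = 1 and r^n ≡ 1 (mod m). -/
theorem result {G : Type*} [Group G] [Finite G]
    (hZ : ∀ (p : ℕ) [Fact p.Prime] (P : Sylow p G), IsCyclic (P : Subgroup G)) :
    ∃ (x y : G) (n m r : ℕ), Subgroup.closure {x, y} = ⊤ ∧ orderOf x = n ∧ orderOf y = m ∧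
      x⁻¹ * y * x = y ^ r ∧ Nat.Coprime (r - 1) m ∧ Nat.Coprime n m ∧ 1 ≤ r ∧ r ^ n % m = 1 % m := by
  classical
  haveI hZG : IsZGroup G := ⟨fun p hp P => by
    haveI := Fact.mk hp
    exact hZ p P⟩
  have hcop := IsZGroup.coprime_commutator_index G
  obtain ⟨H, hH⟩ := Subgroup.exists_right_complement'_of_coprime hcop
  have hcH : IsCyclic H := by
    have h1 : Abelianization G ≃* H := hH.symm.QuotientMulEquiv
    exact isCyclic_of_surjective _ h1.surjective
  have hcN : IsCyclic (commutator G) := IsZGroup.isCyclic_commutator G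
  obtain ⟨x₀, hx₀⟩ := hcH.exists_generator
  obtain ⟨y₀, hy₀⟩ := hcN.exists_generator
  set x : G := (x₀ : G) with hxdef
  set y : G := (y₀ : G) with hydef
  have hxz : Subgroup.zpowers x = H := by
    apply le_antisymm
    · rw [Subgroup.zpowers_le]
      exact x₀.2
    · intro h hh
      obtain ⟨k, hk⟩ := hx₀ ⟨h, hh⟩
      exact ⟨k, by simpa using congrArg Subtype.val hk⟩
  have hyz : Subgroup.zpowers y = commutator G := by
    apply le_antisymm
    · rw [Subgroup.zpowers_le]
      exact y₀.2
    · intro h hh
      obtain ⟨k, hk⟩ := hy₀ ⟨h, hh⟩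
      exact ⟨k, by simpa using congrArg Subtype.val hk⟩
  have hNn : (commutator G).Normal := inferInstance
  have hxo : orderOf x = Nat.card H := by rw [← hxz, Nat.card_zpowers]
  have hyo : orderOf y = Nat.card (commutator G) := by rw [← hyz, Nat.card_zpowers]
  have hcopnm : Nat.Coprime (orderOf x) (orderOf y) := by
    rw [hxo, hyo]
    have h1 : (commutator G).index = Nat.card H := by
      have := hH.symm.index_eq_card
      exact this
    rw [← h1]
    exact hcop.symm
  have hypos : 0 < orderOf y := orderOf_pos y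
  -- conjugation powers
  have hconj : ∀ g : G, ∃ e : ℕ, g * y * g⁻¹ = y ^ e := by
    intro g
    have h1 : g * y * g⁻¹ ∈ commutator G := hNn.conj_mem y y₀.2 g
    rw [← hyz, ← mem_powers_iff_mem_zpowers] at h1
    obtain ⟨e, he⟩ := h1
    exact ⟨e, he.symm⟩
  obtain ⟨r₀, hr₀⟩ := hconj x⁻¹
  have hr : x⁻¹ * y * x = y ^ (r₀ + orderOf y) := by
    rw [pow_add, pow_orderOf_eq_one, mul_one, ← hr₀]
    simp
  set r := r₀ + orderOf y with hrdef
  have hr1 : 1 ≤ r := by omega
  -- generation
  have hgen : Subgroup.closure {x, y} = ⊤ := by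
    rw [eq_top_iff, ← hH.sup_eq_top, ← hxz, ← hyz]
    apply sup_le
    · rw [Subgroup.zpowers_le]
      exact Subgroup.subset_closure (by simp)
    · rw [Subgroup.zpowers_le]
      exact Subgroup.subset_closure (by simp)
  -- r^n
  have hxpow : ∀ k : ℕ, (x⁻¹) ^ k * y * x ^ k = y ^ r ^ k := by
    intro k
    induction k with
    | zero => simp
    | succ k ih =>
      calc (x⁻¹) ^ (k + 1) * y * x ^ (k + 1) = x⁻¹ * ((x⁻¹) ^ k * y * x ^ k) * x := by
            rw [pow_succ' (x⁻¹), pow_succ x k]
            group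
        _ = x⁻¹ * y ^ r ^ k * x := by rw [ih]
        _ = (x⁻¹ * y * x) ^ r ^ k := by
            have := conj_pow (a := x⁻¹) (b := y) (i := r ^ k)
            simpa using this.symm
        _ = y ^ r ^ (k + 1) := by
            rw [hr, ← pow_mul, pow_succ, mul_comm]
  have hmod : r ^ orderOf x % orderOf y = 1 % orderOf y := by
    have h1 := hxpow (orderOf x)
    rw [inv_pow, pow_orderOf_eq_one] at h1
    simp only [inv_one, one_mul, mul_one] at h1
    have h2 : y ^ 1 = y ^ r ^ orderOf x := by rw [pow_one]; exact h1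
    have h3 := (pow_eq_pow_iff_modEq).1 h2
    exact h3.symm
  -- `r - 1` is coprime to `m`
  have hcoprime : Nat.Coprime (r - 1) (orderOf y) := by
    let M : Subgroup G := Subgroup.zpowers (y ^ (r - 1))
    have hMn : M.Normal := by
      constructor
      rintro _ ⟨i, rfl⟩ g
      obtain ⟨e, he⟩ := hconj g
      refine ⟨e * i, ?_⟩
      change (y ^ (r - 1)) ^ ((e : ℤ) * i) = g * (y ^ (r - 1)) ^ i * g⁻¹
      rw [← conj_zpow, ← conj_pow, he]
      rw [zpow_mul, zpow_natCast, ← pow_mul, ← pow_mul, mul_comm]
    have hyM : x⁻¹ * y * x * y⁻¹ ∈ M := by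
      rw [hr]
      refine ⟨1, ?_⟩
      have : y ^ r = y ^ (r - 1) * y := by
        rw [← pow_succ, Nat.sub_add_cancel hr1]
      rw [this]
      simp
    -- the quotient is abelian
    have hcomm : commutator G ≤ M := by
      let Q := G ⧸ M
      let c : Q := (x : Q)
      let d : Q := (y : Q)
      have hcd : c * d = d * c := by
        have h1 : ((x⁻¹ * y * x * y⁻¹ : G) : Q) = 1 := (QuotientGroup.eq_one_iff _).2 hyM
        have h2 : (c⁻¹ * d * c * d⁻¹ : Q) = 1 := h1
        have h3 : d * c = c * d := by
          have := mul_inv_eq_one.1 h2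
          calc d * c = c * (c⁻¹ * d * c) := by group
            _ = c * d := by rw [this]
        exact h3.symm
      have htop : Subgroup.closure ({c, d} : Set Q) = ⊤ := by
        have h1 := MonoidHom.map_closure (QuotientGroup.mk' M) ({x, y} : Set G)
        rw [hgen, Subgroup.map_top_of_surjective _ (QuotientGroup.mk'_surjective M)] at h1
        rw [h1]
        congr 1
        rw [Set.image_pair]
        rfl
      have hcommQ : ∀ u v : Q, u * v = v * u := by
        have hk : ∀ a ∈ ({c, d} : Set Q), ∀ b ∈ ({c, d} : Set Q), a * b = b * a := by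
          rintro a (rfl | rfl) b (rfl | rfl)
          · rfl
          · exact hcd
          · exact hcd.symm
          · rfl
        intro u v
        have hu : u ∈ Subgroup.closure ({c, d} : Set Q) := by rw [htop]; trivial
        have hv : v ∈ Subgroup.closure ({c, d} : Set Q) := by rw [htop]; trivial
        have := Subgroup.isMulCommutative_closure hk
        have h2 := this.is_comm.comm (⟨u, hu⟩) (⟨v, hv⟩)
        exact congrArg Subtype.val h2
      rw [commutator_def, Subgroup.commutator_le]
      intro a _ b _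
      have h1 : ((a * b * a⁻¹ * b⁻¹ : G) : Q) = 1 := by
        change (a : Q) * (b : Q) * (a : Q)⁻¹ * (b : Q)⁻¹ = 1
        rw [hcommQ (a : Q) (b : Q)]
        group
      exact (QuotientGroup.eq_one_iff _).1 h1
    have hyM' : y ∈ M := hcomm y₀.2
    rw [← mem_powers_iff_mem_zpowers] at hyM'
    obtain ⟨i, hi⟩ := hyM'
    have h2 : y ^ ((r - 1) * i) = y ^ 1 := by
      rw [pow_mul, pow_one]
      exact hi
    have h3 := (pow_eq_pow_iff_modEq).1 h2
    exact Nat.coprime_of_mul_modEq_one i h3
  exact ⟨x, y, orderOf x, orderOf y, r, hgen, rfl, rfl, hr, hcoprime, hcopnm, hr1, hmod⟩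

end Cfsg.Agent.S3379
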