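import Cfsg.Statements.S3380
import Cfsg.Agent.Lib.H18.Roquette
import Cfsg.Agent.Lib.H18.AbIdx
import Cfsg.Agent.Lib.H13.CoprimeGen
import Cfsg.Agent.Lib.H19.Kulakoff2
import Cfsg.Agent.Lib.H19.KulId
import Cfsg.Agent.Lib.H15.CIT
import Cfsg.Agent.Lib.H06.Nilp
import Mathlib

set_option autoImplicit false
set_option linter.style.haveILetI false
set_option linter.unusedVariables false
set_option linter.unusedSectionVars false
set_option linter.unusedSimpArgs false

open Cfsg

namespace Cfsg.Agent.S3380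

open scoped Pointwise

lemma zpow_pow_comm_aux {G : Type*} [Group G] {x : G} {p : ℕ} (h : x ^ p = 1) (i : ℤ) :
    (x ^ i) ^ p = 1 := by
  rw [← zpow_natCast, ← zpow_mul, mul_comm, zpow_mul, zpow_natCast, h, one_zpow]

lemma zpow_two_aux {G : Type*} [Group G] {x : G} (h : x ^ 2 = 1) : x ^ (2 : ℤ) = 1 := by
  exact_mod_cast h

section core

variable {q : ℕ} [Fact q.Prime] {V : Type*} [AddCommGroup V] [Module (ZMod q) V] [Finite V]
  {G : Type*} [Group G] [Finite G] (ρ : G →* (V ≃ₗ[ZMod q] V))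

lemma rho_mul (a b : G) (v : V) : ρ (a * b) v = ρ a (ρ b v) := by
  rw [map_mul]; rfl

lemma rho_one (v : V) : ρ 1 v = v := by
  rw [map_one]; rfl

/-- Fixed subspace of a subgroup. -/
def Fx (K : Subgroup G) : Submodule (ZMod q) V where
  carrier := {v | ∀ k ∈ K, ρ k v = v}
  add_mem' := by
    intro a b ha hb k hk
    rw [map_add, ha k hk, hb k hk]
  zero_mem' := by
    intro k _
    exact map_zero _
  smul_mem' := by
    intro c a ha k hk
    rw [map_smul, ha k hk]

lemma mem_Fx {K : Subgroup G} {v : V} : v ∈ Fx ρ K ↔ ∀ k ∈ K, ρ k v = v := Iff.rfl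

lemma mem_conj {g k : G} {K : Subgroup G} : k ∈ (MulAut.conj g • K : Subgroup G) ↔ g⁻¹ * k * g ∈ K := by
  rw [Subgroup.mem_pointwise_smul_iff_inv_smul_mem, MulAut.smul_def]
  exact Iff.rfl

lemma Fx_conj (g : G) (K : Subgroup G) :
    (Fx ρ K).map ((ρ g : V ≃ₗ[ZMod q] V) : V →ₗ[ZMod q] V) = Fx ρ (MulAut.conj g • K) := by
  ext v
  rw [Submodule.mem_map]
  constructor
  · rintro ⟨w, hw, rfl⟩
    intro k hk
    have h1 : g⁻¹ * k * g ∈ K := mem_conj.1 hk
    have h2 := hw _ h1
    show ρ k (ρ g w) = ρ g w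
    rw [← rho_mul, show k * g = g * (g⁻¹ * k * g) by group, rho_mul, h2]
  · intro hv
    refine ⟨ρ g⁻¹ v, ?_, ?_⟩
    · intro k hk
      have h1 : g * k * g⁻¹ ∈ (MulAut.conj g • K : Subgroup G) := by
        rw [mem_conj]
        convert hk using 1
        group
      have h2 := hv _ h1
      rw [← rho_mul, show k * g⁻¹ = g⁻¹ * (g * k * g⁻¹) by group, rho_mul, h2]
    · show ρ g (ρ g⁻¹ v) = v
      rw [← rho_mul, mul_inv_cancel, rho_one]

/-- Norm operator of a subgroup. -/
noncomputable def Nm (K : Subgroup G) : V →ₗ[ZMod q] V :=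
  letI := Fintype.ofFinite K
  ∑ k : K, ((ρ (k : G) : V ≃ₗ[ZMod q] V) : V →ₗ[ZMod q] V)

lemma Nm_apply (K : Subgroup G) [Fintype K] (v : V) : Nm ρ K v = ∑ k : K, ρ (k : G) v := by
  unfold Nm
  have : (Fintype.ofFinite K) = ‹Fintype K› := Subsingleton.elim _ _
  rw [this]
  simp [LinearMap.sum_apply]

lemma Nm_fixed (K : Subgroup G) (v : V) : Nm ρ K v ∈ Fx ρ K := by
  classical
  intro k₀ hk₀
  letI := Fintype.ofFinite K
  rw [Nm_apply, map_sum]
  simp only [← rho_mul]
  exact Fintype.sum_equiv (Equiv.mulLeft (⟨k₀, hk₀⟩ : K)) _ _ (fun k => rfl)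

lemma Nm_of_mem (K : Subgroup G) {v : V} (hv : v ∈ Fx ρ K) : Nm ρ K v = (Nat.card K) • v := by
  classical
  letI := Fintype.ofFinite K
  rw [Nm_apply, Finset.sum_congr rfl (fun (k : K) _ => hv k k.2)]
  simp [Nat.card_eq_fintype_card]

/-- Stabilizer of a vector. -/
def Stb (v : V) : Subgroup G where
  carrier := {g | ρ g v = v}
  mul_mem' := by
    intro a b ha hb
    show ρ (a * b) v = v
    rw [rho_mul, show ρ b v = v from hb, show ρ a v = v from ha]
  one_mem' := rho_one ρ v
  inv_mem' := by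
    intro a ha
    show ρ a⁻¹ v = v
    have ha' : ρ a v = v := ha
    conv_lhs => rw [← ha']
    rw [← rho_mul, inv_mul_cancel, rho_one]

lemma stab_sup {K K' : Subgroup G} {v : V} (h1 : v ∈ Fx ρ K) (h2 : v ∈ Fx ρ K') :
    v ∈ Fx ρ (K ⊔ K') := by
  have hS : K ⊔ K' ≤ Stb ρ v := sup_le h1 h2
  intro k hk
  exact hS hk

lemma mem_Fx_zpowers {x : G} {v : V} (h : ρ x v = v) : v ∈ Fx ρ (Subgroup.zpowers x) := by
  have hS : Subgroup.zpowers x ≤ Stb ρ v := Subgroup.zpowers_le.2 h
  intro k hk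
  exact hS hk

/-- The action on the multiplicative version of `V`. -/
def actM : G →* MulAut (Multiplicative V) where
  toFun g := AddEquiv.toMultiplicative (ρ g).toAddEquiv
  map_one' := by
    ext v
    exact rho_one ρ (Multiplicative.toAdd v)
  map_mul' a b := by
    ext v
    exact rho_mul ρ a b (Multiplicative.toAdd v)

lemma actM_apply (g : G) (v : Multiplicative V) :
    Multiplicative.toAdd (actM ρ g v) = ρ g (Multiplicative.toAdd v) := rfl

/-- Conjugation action on subgroups. -/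
abbrev cjA (G : Type*) [Group G] : MulAction G (Subgroup G) :=
  MulAction.compHom (Subgroup G) (MulAut.conj : G →* MulAut G)

theorem core {p : ℕ} [hpf : Fact p.Prime] [Nontrivial V] (hG : IsPGroup p G)
    (hρ : Function.Injective ρ)
    (hirr : ∀ W : Submodule (ZMod q) V, (∀ g : G, ∀ w ∈ W, ρ g w ∈ W) → W = ⊥ ∨ W = ⊤)
    (hqp : q ≠ p)
    (E : Subgroup G) (hEn : E.Normal) (hEc : Nat.card E = p ^ 2) (hEe : ∀ e ∈ E, e ^ p = 1) :
    ∃ (H : Subgroup G) (W : Fin p → Submodule (ZMod q) V), H.index = p ∧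
      iSup W = ⊤ ∧ iSupIndep W ∧
      (∀ h ∈ H, ∀ i, ∀ w ∈ W i, ρ h w ∈ W i) ∧
      (∀ i, ∃ h ∈ H, h ≠ 1 ∧ ∀ w ∈ W i, ρ h w = w) ∧
      ∀ g : G, g ∉ H → ∃ σ : Equiv.Perm (Fin p), orderOf σ = p ∧
        ∀ i, (W i).map (ρ g : V →ₗ[ZMod q] V) = W (σ i) := by
  classical
  have hp : p.Prime := hpf.out
  have hq : q.Prime := Fact.out
  have hpne : (p : ZMod q) ≠ 0 := by
    rw [Ne, ZMod.natCast_eq_zero_iff]
    intro h
    exact hqp ((Nat.prime_dvd_prime_iff_eq hq hp).1 h)
  have hsm : ∀ v : V, (p • v : V) = 0 → v = 0 := by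
    intro v hv
    rw [← Nat.cast_smul_eq_nsmul (ZMod q) p v] at hv
    exact (smul_eq_zero.1 hv).resolve_left hpne
  have htriv : ∀ k : G, (∀ v : V, ρ k v = v) → k = 1 := by
    intro k hk
    apply hρ
    rw [map_one]
    ext v
    exact hk v
  haveI := hG.isNilpotent
  have hp2 : p < p ^ 2 := by
    have := hp.two_le
    nlinarith
  have hEne : E ≠ ⊥ := by
    rintro rfl
    rw [Subgroup.card_bot] at hEc
    have := hp.two_le
    nlinarith
  have hEcomm : ∀ a ∈ E, ∀ b ∈ E, a * b = b * a := by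
    intro a ha b hb
    haveI := IsPGroup.isMulCommutative_of_card_eq_prime_sq (G := E) (p := p) hEc
    have h1 : (⟨a, ha⟩ : E) * ⟨b, hb⟩ = ⟨b, hb⟩ * ⟨a, ha⟩ := mul_comm' _ _
    exact congrArg Subtype.val h1
  obtain ⟨z, hzE, hz1, hzc⟩ := Cfsg.Agent.H06.exists_central_of_normal hEn hEne
  have hzcomm : ∀ g : G, g * z = z * g := fun g => (Subgroup.mem_center_iff.1 hzc g)
  set Z : Subgroup G := Subgroup.zpowers z with hZdef
  have hZcard : Nat.card Z = p := by
    rw [hZdef, Nat.card_zpowers, orderOf_eq_prime (hEe z hzE) hz1]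
  have hZE : Z ≤ E := Subgroup.zpowers_le.2 hzE
  have hZF : Fx ρ Z = ⊥ := by
    have hinv : ∀ g : G, ∀ w ∈ Fx ρ Z, ρ g w ∈ Fx ρ Z := by
      intro g w hw k hk
      obtain ⟨j, rfl⟩ := Subgroup.mem_zpowers_iff.1 hk
      have hcm : z ^ j * g = g * z ^ j := ((Commute.zpow_left (show Commute z g from (hzcomm g).symm) j)).eq
      rw [← rho_mul, hcm, rho_mul, hw _ hk]
    rcases hirr _ hinv with h | h
    · exact h
    · exfalso
      apply hz1
      apply htriv
      intro v
      have : v ∈ Fx ρ Z := by rw [h]; trivial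
      exact this z (Subgroup.mem_zpowers z)
  obtain ⟨s, hsE, hsZ⟩ : ∃ s ∈ E, s ∉ Z := by
    by_contra hcon
    push Not at hcon
    have h1 : E ≤ Z := hcon
    have h2 := Nat.le_of_dvd Nat.card_pos (Subgroup.card_dvd_of_le h1)
    omega
  -- the fixed point lemma
  have hcop : (Nat.card (Multiplicative V)).Coprime p := by
    haveI := Fintype.ofFinite V
    have h1 : Nat.card (Multiplicative V) = Nat.card V := rfl
    have h2 : Nat.card V = q ^ (Module.finrank (ZMod q) V) := by
      rw [Nat.card_eq_fintype_card, Module.card_eq_pow_finrank (K := ZMod q) (V := V), ZMod.card]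
    rw [h1, h2]
    exact Nat.Coprime.pow_left _ ((Nat.coprime_primes hq hp).2 hqp)
  have hcomm : Commute (actM ρ s) (actM ρ z) := by
    show actM ρ s * actM ρ z = actM ρ z * actM ρ s
    rw [← map_mul, ← map_mul, hzcomm s]
  have hfix := Cfsg.Agent.H13.exists_fixed_rank_two hcop (actM ρ s) (actM ρ z) hcomm
    (by rw [← map_pow, hEe s hsE, map_one]) (by rw [← map_pow, hEe z hzE, map_one])
    (by
      obtain ⟨v, hv⟩ := exists_ne (0 : V)
      exact ⟨Multiplicative.ofAdd v, fun h => hv (Multiplicative.ofAdd.injective h)⟩)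
  have hZno : ∀ v : V, ρ z v = v → v = 0 := by
    intro v hv
    have h1 : v ∈ Fx ρ Z := mem_Fx_zpowers ρ hv
    rw [hZF] at h1
    exact h1
  obtain ⟨x, hxE, hxZ, hxF⟩ : ∃ x ∈ E, x ∉ Z ∧ ∃ v : V, v ≠ 0 ∧ ρ x v = v := by
    rcases hfix with ⟨v, hv1, hv⟩ | ⟨i, _, v, hv1, hv⟩
    · exfalso
      have h1 : ρ z (Multiplicative.toAdd v) = Multiplicative.toAdd v := by
        rw [← actM_apply, hv]
      exact hv1 (hZno _ h1)
    · refine ⟨s * z ^ i, E.mul_mem hsE (E.pow_mem hzE i), ?_, Multiplicative.toAdd v, hv1, ?_⟩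
      · intro h
        apply hsZ
        have h2 := Z.mul_mem h (Z.inv_mem (Z.pow_mem (Subgroup.mem_zpowers z) i))
        simpa using h2
      · rw [← actM_apply, map_mul, map_pow, hv]
  obtain ⟨v₀, hv₀, hxv₀⟩ := hxF
  have hx1 : x ≠ 1 := by
    rintro rfl
    exact hxZ Z.one_mem
  set K₁ : Subgroup G := Subgroup.zpowers x with hK₁def
  have hK₁card : Nat.card K₁ = p := by
    rw [hK₁def, Nat.card_zpowers, orderOf_eq_prime (hEe x hxE) hx1]
  have hK₁E : K₁ ≤ E := Subgroup.zpowers_le.2 hxE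
  have hK₁F : v₀ ∈ Fx ρ K₁ := mem_Fx_zpowers ρ hxv₀
  have hK₁Z : K₁ ≠ Z := by
    intro h
    apply hxZ
    rw [← h]
    exact Subgroup.mem_zpowers x
  letI := cjA G
  have hsmul_def : ∀ (g : G) (K : Subgroup G), g • K = MulAut.conj g • K := fun _ _ => rfl
  -- orbit properties
  set O : Set (Subgroup G) := MulAction.orbit G K₁ with hOdef
  have hOprop : ∀ K ∈ O, K ≤ E ∧ Nat.card K = p ∧ K ≠ Z ∧ Fx ρ K ≠ ⊥ := by
    rintro K ⟨g, rfl⟩
    have hK : (fun m => m • K₁) g = MulAut.conj g • K₁ := rfl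
    rw [hK]
    refine ⟨?_, ?_, ?_, ?_⟩
    · intro k hk
      have h1 : g⁻¹ * k * g ∈ K₁ := mem_conj.1 hk
      have h2 := hEn.conj_mem _ (hK₁E h1) g
      convert h2 using 1
      group
    · rw [Cfsg.Agent.H19.conj_smul_card, hK₁card]
    · intro h
      apply hK₁Z
      ext k
      constructor
      · intro hk
        have h1 : g * k * g⁻¹ ∈ (MulAut.conj g • K₁ : Subgroup G) := by
          rw [mem_conj]
          convert hk using 1
          group
        rw [h] at h1
        obtain ⟨j, hj⟩ := Subgroup.mem_zpowers_iff.1 h1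
        have hcm : k = z ^ j := by
          have h3 : g⁻¹ * (z ^ j) * g = z ^ j := by
            have hcm : z ^ j * g = g * z ^ j :=
              ((Commute.zpow_left (show Commute z g from (hzcomm g).symm) j)).eq
            rw [mul_assoc, hcm]
            group
          calc k = g⁻¹ * (g * k * g⁻¹) * g := by group
            _ = g⁻¹ * (z ^ j) * g := by rw [hj]
            _ = z ^ j := h3
        rw [hcm]
        exact Subgroup.zpow_mem_zpowers z j
      · intro hk
        obtain ⟨j, rfl⟩ := Subgroup.mem_zpowers_iff.1 hk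
        have h1 : z ^ j ∈ (MulAut.conj g • K₁ : Subgroup G) := by
          rw [h]
          exact Subgroup.zpow_mem_zpowers z j
        have h2 := mem_conj.1 h1
        have h3 : g⁻¹ * (z ^ j) * g = z ^ j := by
          have hcm : z ^ j * g = g * z ^ j :=
            ((Commute.zpow_left (show Commute z g from (hzcomm g).symm) j)).eq
          rw [mul_assoc, hcm]
          group
        rwa [h3] at h2
    · intro h
      rw [← Fx_conj] at h
      have h2 : ρ g v₀ ∈ (Fx ρ K₁).map ((ρ g : V ≃ₗ[ZMod q] V) : V →ₗ[ZMod q] V) :=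
        ⟨v₀, hK₁F, rfl⟩
      rw [h] at h2
      have h3 : ρ g v₀ = 0 := h2
      exact hv₀ ((ρ g).map_eq_zero_iff.1 h3)
  -- elements of `E` stabilize subgroups of `E`
  have hEst : ∀ e ∈ E, ∀ K : Subgroup G, K ≤ E → e • K = K := by
    intro e he K hK
    rw [hsmul_def]
    ext k
    rw [mem_conj]
    constructor
    · intro h1
      have h2 : k ∈ E := by
        have h3 := E.mul_mem (E.mul_mem he (hK h1)) (E.inv_mem he)
        convert h3 using 1
        group
      have h4 : e⁻¹ * k * e = k := by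
        rw [mul_assoc, hEcomm k h2 e he]
        group
      rwa [h4] at h1
    · intro h1
      have h4 : e⁻¹ * k * e = k := by
        rw [mul_assoc, hEcomm k (hK h1) e he]
        group
      rwa [h4]
  -- stabilizer
  set H : Subgroup G := MulAction.stabilizer G K₁ with hHdef
  have hEH : E ≤ H := fun e he => hEst e he K₁ hK₁E
  have hHne : H ≠ ⊤ := by
    intro htop
    have hinv : ∀ g : G, ∀ w ∈ Fx ρ K₁, ρ g w ∈ Fx ρ K₁ := by
      intro g w hw
      have h1 : g • K₁ = K₁ := by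
        have : g ∈ H := by rw [htop]; trivial
        exact this
      have h2 : ρ g w ∈ (Fx ρ K₁).map ((ρ g : V ≃ₗ[ZMod q] V) : V →ₗ[ZMod q] V) := ⟨w, hw, rfl⟩
      rw [Fx_conj, ← hsmul_def, h1] at h2
      exact h2
    rcases hirr _ hinv with h | h
    · have : v₀ ∈ (⊥ : Submodule (ZMod q) V) := h ▸ hK₁F
      exact hv₀ this
    · apply hx1
      apply htriv
      intro v
      have : v ∈ Fx ρ K₁ := by rw [h]; trivial
      exact this x (Subgroup.mem_zpowers x)
  have hOcard_le : Nat.card O ≤ p := by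
    haveI : Fact p.Prime := hpf
    have hncE : ¬ IsCyclic E := by
      intro hc
      obtain ⟨⟨g, hg⟩, hgen⟩ := IsCyclic.exists_generator (α := E)
      have h1 := orderOf_eq_card_of_forall_mem_zpowers hgen
      have h2 : orderOf (⟨g, hg⟩ : E) ∣ p := by
        apply orderOf_dvd_of_pow_eq_one
        exact Subtype.ext (hEe g hg)
      rw [h1, hEc] at h2
      have := Nat.le_of_dvd hp.pos h2
      omega
    have hcount := Cfsg.Agent.H18.card_subgroups_order_p (Q := E) (p := p) hEc hncE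
    have hcardsub : ∀ K : Subgroup G, K ≤ E → Nat.card (K.subgroupOf E) = Nat.card K := by
      intro K hK
      exact Nat.card_congr (Subgroup.subgroupOfEquivOfLe hK).toEquiv
    let f : Option O → {C : Subgroup E // Nat.card C = p} := fun a =>
      match a with
      | none => ⟨Z.subgroupOf E, by rw [hcardsub Z hZE, hZcard]⟩
      | some K => ⟨K.1.subgroupOf E, by
          rw [hcardsub K.1 (hOprop K.1 K.2).1, (hOprop K.1 K.2).2.1]⟩
    have hf : Function.Injective f := by
      rintro (_ | ⟨K⟩) (_ | ⟨K'⟩) h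
      · rfl
      · exfalso
        have h1 : Z.subgroupOf E = K'.1.subgroupOf E := congrArg Subtype.val h
        rw [Subgroup.subgroupOf_inj, inf_eq_left.2 hZE, inf_eq_left.2 (hOprop K'.1 K'.2).1] at h1
        exact (hOprop K'.1 K'.2).2.2.1 h1.symm
      · exfalso
        have h1 : K.1.subgroupOf E = Z.subgroupOf E := congrArg Subtype.val h
        rw [Subgroup.subgroupOf_inj, inf_eq_left.2 hZE, inf_eq_left.2 (hOprop K.1 K.2).1] at h1
        exact (hOprop K.1 K.2).2.2.1 h1
      · have h1 : K.1.subgroupOf E = K'.1.subgroupOf E := congrArg Subtype.val h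
        rw [Subgroup.subgroupOf_inj, inf_eq_left.2 (hOprop K.1 K.2).1,
          inf_eq_left.2 (hOprop K'.1 K'.2).1] at h1
        rw [Subtype.ext h1]
    have h2 := Nat.card_le_card_of_injective f hf
    rw [hcount, Finite.card_option] at h2
    omega
  have hindex : H.index = p := by
    have h1 : H.index = Nat.card O := by
      rw [hHdef, MulAction.index_stabilizer, Nat.card_coe_set_eq]
    have h2 : H.index ∣ Nat.card G := Subgroup.index_dvd_card H
    obtain ⟨n, hn⟩ := IsPGroup.iff_card.1 hG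
    rw [hn] at h2
    obtain ⟨a, ha, ha2⟩ := (Nat.dvd_prime_pow hp).1 h2
    have ha0 : a ≠ 0 := by
      rintro rfl
      rw [pow_zero] at ha2
      exact hHne (Subgroup.index_eq_one.1 ha2)
    have ha1 : a = 1 := by
      by_contra hne
      have h3 : p ^ 2 ≤ p ^ a := Nat.pow_le_pow_right hp.pos (by omega)
      omega
    rw [ha2, ha1, pow_one]
  have hOcard : Nat.card O = p := by
    rw [← hindex, hHdef, MulAction.index_stabilizer, Nat.card_coe_set_eq]
  have hHn : H.Normal := by
    apply Subgroup.normal_of_index_eq_minFac_card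
    obtain ⟨n, hn⟩ := IsPGroup.iff_card.1 hG
    have hn0 : n ≠ 0 := by
      rintro rfl
      rw [pow_zero] at hn
      have : Subsingleton G := (Nat.card_eq_one_iff_unique.1 hn).1
      exact hEne (Subsingleton.elim _ _)
    rw [hindex, hn, Nat.Prime.pow_minFac hp hn0]
  -- H stabilizes the members of the orbit
  have hHst : ∀ h ∈ H, ∀ K ∈ O, h • K = K := by
    rintro h hh K ⟨g, rfl⟩
    have h1 : g⁻¹ * h * g ∈ H := by
      have := hHn.conj_mem h hh g⁻¹
      simpa using this
    have h2 : (g⁻¹ * h * g) • K₁ = K₁ := h1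
    show h • g • K₁ = g • K₁
    rw [← mul_smul]
    conv_rhs => rw [← h2]
    rw [← mul_smul]
    congr 1
    group
  -- two different members of the orbit
  have hsupE : ∀ K ∈ O, ∀ K' ∈ O, K ≠ K' → K ⊔ K' = E := by
    intro K hK K' hK' hne
    obtain ⟨hKE, hKc, -, -⟩ := hOprop K hK
    obtain ⟨hKE', hKc', -, -⟩ := hOprop K' hK'
    apply Subgroup.eq_of_le_of_card_ge (sup_le hKE hKE')
    have h1 : Nat.card (K ⊔ K' : Subgroup G) ∣ p ^ 2 := hEc ▸ Subgroup.card_dvd_of_le (sup_le hKE hKE')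
    obtain ⟨a, ha, ha2⟩ := (Nat.dvd_prime_pow hp).1 h1
    have h2 : a = 2 := by
      have ha3 : a ≠ 0 := by
        rintro rfl
        rw [pow_zero] at ha2
        have h3 := Subgroup.card_dvd_of_le (le_sup_left : K ≤ K ⊔ K')
        rw [ha2, hKc] at h3
        have := hp.two_le
        have := Nat.le_of_dvd one_pos h3
        omega
      have ha4 : a ≠ 1 := by
        rintro rfl
        rw [pow_one] at ha2
        have e1 : K = K ⊔ K' := Subgroup.eq_of_le_of_card_ge le_sup_left (by rw [ha2, hKc])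
        have e2 : K' = K ⊔ K' := Subgroup.eq_of_le_of_card_ge le_sup_right (by rw [ha2, hKc'])
        exact hne (e1.trans e2.symm)
      omega
    rw [ha2, h2, hEc]
  have hNm0 : ∀ K ∈ O, ∀ K' ∈ O, K ≠ K' → ∀ w ∈ Fx ρ K', Nm ρ K w = 0 := by
    intro K hK K' hK' hne w hw
    have h1 : Nm ρ K w ∈ Fx ρ K := Nm_fixed ρ K w
    have h2 : Nm ρ K w ∈ Fx ρ K' := by
      intro k' hk'
      letI := Fintype.ofFinite K
      rw [Nm_apply, map_sum]
      apply Finset.sum_congr rfl
      intro k _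
      have hcm : k' * (k : G) = k * k' :=
        hEcomm k' ((hOprop K' hK').1 hk') k ((hOprop K hK).1 k.2)
      rw [← rho_mul, hcm, rho_mul, hw k' hk']
    have h3 := stab_sup ρ h1 h2
    rw [hsupE K hK K' hK' hne] at h3
    have h4 : ρ z (Nm ρ K w) = Nm ρ K w := h3 z hzE
    exact hZno _ h4
  -- the indexing
  let e : Fin p ≃ O := (Finite.equivFinOfCardEq hOcard).symm
  let W : Fin p → Submodule (ZMod q) V := fun i => Fx ρ (e i).1
  have hKne : ∀ i j, i ≠ j → (e i).1 ≠ (e j).1 := by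
    intro i j hij h
    exact hij (e.injective (Subtype.ext h))
  let τ : G →* Equiv.Perm (Fin p) :=
    (e.symm.permCongrHom.toMonoidHom).comp (MulAction.toPermHom G O)
  have hτ : ∀ g i, (e (τ g i)).1 = g • (e i).1 := by
    intro g i
    have : τ g i = e.symm (g • e i) := rfl
    rw [this, Equiv.apply_symm_apply]
    rfl
  have hmapW : ∀ g i, (W i).map (ρ g : V →ₗ[ZMod q] V) = W (τ g i) := by
    intro g i
    show (Fx ρ (e i).1).map ((ρ g : V ≃ₗ[ZMod q] V) : V →ₗ[ZMod q] V) = Fx ρ (e (τ g i)).1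
    rw [hτ, Fx_conj]
    rfl
  refine ⟨H, W, hindex, ?_, ?_, ?_, ?_, ?_⟩
  · -- span
    have hinv : ∀ g : G, ∀ w ∈ iSup W, ρ g w ∈ iSup W := by
      intro g w hw
      have h1 : ρ g w ∈ (iSup W).map ((ρ g : V ≃ₗ[ZMod q] V) : V →ₗ[ZMod q] V) := ⟨w, hw, rfl⟩
      rw [Submodule.map_iSup] at h1
      refine (iSup_le (fun i => ?_) : _ ≤ iSup W) h1
      rw [hmapW]
      exact le_iSup W _
    rcases hirr _ hinv with h | h
    · exfalso
      have hK₁O : K₁ ∈ O := MulAction.mem_orbit_self K₁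
      have h1 : v₀ ∈ W (e.symm ⟨K₁, hK₁O⟩) := by
        show v₀ ∈ Fx ρ (e (e.symm ⟨K₁, hK₁O⟩)).1
        rw [Equiv.apply_symm_apply]
        exact hK₁F
      have h2 : v₀ ∈ iSup W := (le_iSup W _) h1
      rw [h] at h2
      exact hv₀ h2
    · exact h
  · -- independence
    rw [iSupIndep_def]
    intro i
    rw [Submodule.disjoint_def]
    intro x hx hx2
    have h1 : (⨆ j, ⨆ (_ : j ≠ i), W j) ≤ LinearMap.ker (Nm ρ (e i).1) := by
      apply iSup₂_le
      intro j hj w hw
      exact hNm0 _ (e i).2 _ (e j).2 (hKne i j hj.symm) w hw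
    have h2 : Nm ρ (e i).1 x = 0 := h1 hx2
    rw [Nm_of_mem ρ _ hx, (hOprop _ (e i).2).2.1] at h2
    exact hsm x h2
  · -- invariance
    intro h hh i w hw k hk
    have h1 : h • (e i).1 = (e i).1 := hHst h hh _ (e i).2
    have h2 : h⁻¹ * k * h ∈ (e i).1 := by
      have : k ∈ h • (e i).1 := by rw [h1]; exact hk
      exact mem_conj.1 this
    rw [← rho_mul, show k * h = h * (h⁻¹ * k * h) by group, rho_mul, hw _ h2]
  · -- not faithful
    intro i
    obtain ⟨hE', hc', -, -⟩ := hOprop _ (e i).2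
    haveI : Fact p.Prime := hpf
    have h1 : (e i).1 ≠ ⊥ := by
      intro h
      rw [h, Subgroup.card_bot] at hc'
      have := hp.two_le
      omega
    obtain ⟨⟨k, hk⟩, hk1⟩ := Subgroup.ne_bot_iff_exists_ne_one.1 h1
    exact ⟨k, hEH (hE' hk), fun h => hk1 (Subtype.ext h), fun w hw => hw k hk⟩
  · -- permutation
    intro g hg
    refine ⟨τ g, ?_, hmapW g⟩
    haveI : Fact p.Prime := hpf
    apply orderOf_eq_prime
    · rw [← map_pow]
      have h1 : g ^ p ∈ H := by
        have := Subgroup.pow_index_mem H g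
        rwa [hindex] at this
      ext i
      apply congrArg
      apply e.injective
      apply Subtype.ext
      rw [hτ]
      simp only [map_one, Equiv.Perm.coe_one, id_eq]
      exact hHst _ h1 _ (e i).2
    · intro h1
      apply hg
      have hK₁O : K₁ ∈ O := MulAction.mem_orbit_self K₁
      have h2 := hτ g (e.symm ⟨K₁, hK₁O⟩)
      rw [h1] at h2
      simp only [Equiv.Perm.coe_one, id_eq, Equiv.apply_symm_apply] at h2
      exact h2.symm

end core

section EE

variable {G : Type*} [Group G] [Finite G] {p : ℕ} [hpf : Fact p.Prime]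

lemma sup_props (hG : IsPGroup p G) {z y : G} (hzc : ∀ g : G, g * z = z * g) (hz1 : z ≠ 1)
    (hzp : z ^ p = 1) (hyp : y ^ p = 1) (hy : y ∉ Subgroup.zpowers z) :
    Nat.card ↥(Subgroup.zpowers z ⊔ Subgroup.zpowers y) = p ^ 2 ∧
      ∀ e ∈ Subgroup.zpowers z ⊔ Subgroup.zpowers y, e ^ p = 1 := by
  classical
  have hp := hpf.out
  haveI hZn : (Subgroup.zpowers z).Normal := by
    constructor
    intro n hn g
    obtain ⟨j, rfl⟩ := Subgroup.mem_zpowers_iff.1 hn
    have hcm : g * z ^ j = z ^ j * g :=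
      ((Commute.zpow_right (show Commute g z from hzc g) j)).eq
    rw [hcm]
    simpa using Subgroup.zpow_mem_zpowers z j
  have hy1 : y ≠ 1 := by
    rintro rfl
    exact hy (Subgroup.one_mem _)
  have hzo : orderOf z = p := orderOf_eq_prime hzp hz1
  have hyo : orderOf y = p := orderOf_eq_prime hyp hy1
  set E : Subgroup G := Subgroup.zpowers z ⊔ Subgroup.zpowers y with hE
  have hdec : ∀ e ∈ E, ∃ a ∈ Subgroup.zpowers z, ∃ b ∈ Subgroup.zpowers y, a * b = e := by
    intro e he
    have h1 : e ∈ ((E : Subgroup G) : Set G) := he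
    rw [hE, Subgroup.normal_mul] at h1
    obtain ⟨a, ha, b, hb, rfl⟩ := Set.mem_mul.1 h1
    exact ⟨a, ha, b, hb, rfl⟩
  have hexp : ∀ e ∈ E, e ^ p = 1 := by
    intro e he
    obtain ⟨a, ha, b, hb, rfl⟩ := hdec e he
    obtain ⟨i, rfl⟩ := Subgroup.mem_zpowers_iff.1 ha
    obtain ⟨j, rfl⟩ := Subgroup.mem_zpowers_iff.1 hb
    have hc : Commute (z ^ i) (y ^ j) :=
      Commute.zpow_zpow (show Commute z y from (hzc y).symm) i j
    rw [hc.mul_pow, zpow_pow_comm_aux hzp i, zpow_pow_comm_aux hyp j, one_mul]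
  refine ⟨?_, hexp⟩
  have hZc : Nat.card (Subgroup.zpowers z) = p := by rw [Nat.card_zpowers, hzo]
  have hYc : Nat.card (Subgroup.zpowers y) = p := by rw [Nat.card_zpowers, hyo]
  have hle : Nat.card E ≤ p ^ 2 := by
    let f : ↥(Subgroup.zpowers z) × ↥(Subgroup.zpowers y) → E := fun t =>
      ⟨t.1.1 * t.2.1, E.mul_mem ((le_sup_left : _ ≤ E) t.1.2) ((le_sup_right : _ ≤ E) t.2.2)⟩
    have hf : Function.Surjective f := by
      rintro ⟨e, he⟩
      obtain ⟨a, ha, b, hb, rfl⟩ := hdec e he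
      exact ⟨(⟨a, ha⟩, ⟨b, hb⟩), rfl⟩
    have := Nat.card_le_card_of_surjective f hf
    rw [Nat.card_prod, hZc, hYc] at this
    nlinarith
  have hdv : Nat.card E ∣ p ^ (Nat.log p (Nat.card G)) ∨ True := Or.inr trivial
  obtain ⟨n, hn⟩ := IsPGroup.iff_card.1 (hG.to_subgroup E)
  have hZle : Subgroup.zpowers z ≤ E := le_sup_left
  have hn2 : 2 ≤ n := by
    by_contra hlt
    have hn' : n = 0 ∨ n = 1 := by omega
    rcases hn' with rfl | rfl
    · have h1 := Subgroup.card_dvd_of_le hZle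
      rw [hn, hZc] at h1
      have := hp.two_le
      simp at h1
      omega
    · have h1 : Subgroup.zpowers z = E :=
        Subgroup.eq_of_le_of_card_ge hZle (by rw [hn, hZc, pow_one])
      apply hy
      rw [h1]
      exact (le_sup_right : _ ≤ E) (Subgroup.mem_zpowers y)
  rw [hn] at hle ⊢
  have h3 : n ≤ 2 := (Nat.pow_le_pow_iff_right hp.one_lt).1 hle
  have : n = 2 := by omega
  rw [this]

/-- From an abelian noncyclic normal subgroup of a `2`-group. -/
theorem exists_E_two (hG : IsPGroup 2 G) (A : Subgroup G) (hAn : A.Normal)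
    (hAc : IsMulCommutative A) (hnc : ¬ IsCyclic A) :
    ∃ E : Subgroup G, E.Normal ∧ Nat.card E = 2 ^ 2 ∧ ∀ e ∈ E, e ^ 2 = 1 := by
  classical
  haveI : Fact (Nat.Prime 2) := ⟨Nat.prime_two⟩
  haveI := hG.isNilpotent
  have hAcomm : ∀ a ∈ A, ∀ b ∈ A, a * b = b * a := by
    intro a ha b hb
    have h1 : (⟨a, ha⟩ : A) * ⟨b, hb⟩ = ⟨b, hb⟩ * ⟨a, ha⟩ := mul_comm' _ _
    exact congrArg Subtype.val h1
  let Om : Subgroup G :=
    { carrier := {a | a ∈ A ∧ a ^ 2 = 1}
      mul_mem' := by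
        rintro a b ⟨ha, ha2⟩ ⟨hb, hb2⟩
        refine ⟨A.mul_mem ha hb, ?_⟩
        have hc : Commute a b := hAcomm a ha b hb
        rw [hc.mul_pow, ha2, hb2, one_mul]
      one_mem' := ⟨A.one_mem, one_pow _⟩
      inv_mem' := by
        rintro a ⟨ha, ha2⟩
        exact ⟨A.inv_mem ha, by rw [inv_pow, ha2, inv_one]⟩ }
  have hOmn : Om.Normal := by
    constructor
    rintro n ⟨hn, hn2⟩ g
    refine ⟨hAn.conj_mem n hn g, ?_⟩
    rw [conj_pow, hn2]
    group
  -- two different involutions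
  obtain ⟨a, b, hao, hbo, hab⟩ : ∃ a b : A, orderOf a = 2 ∧ orderOf b = 2 ∧ a ≠ b := by
    by_contra hcon
    push Not at hcon
    apply hnc
    apply Cfsg.Agent.H15.isCyclic_of_comm_two
    · intro x y
      exact mul_comm' _ _
    · exact hG.to_subgroup A
    · exact hcon
  have hinvol : ∀ c : A, orderOf c = 2 → (c : G) ∈ Om := by
    intro c hc
    refine ⟨c.2, ?_⟩
    have h1 : c ^ 2 = 1 := by rw [← hc]; exact pow_orderOf_eq_one c
    exact congrArg Subtype.val h1
  have hOmne : Om ≠ ⊥ := by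
    intro h
    have h1 : (a : G) ∈ Om := hinvol a hao
    rw [h] at h1
    have h2 : a = 1 := Subtype.ext h1
    rw [h2, orderOf_one] at hao
    omega
  obtain ⟨z, hzO, hz1, hzc⟩ := Cfsg.Agent.H06.exists_central_of_normal hOmn hOmne
  have hzcomm : ∀ g : G, g * z = z * g := fun g => (Subgroup.mem_center_iff.1 hzc g)
  have hz2 : z ^ 2 = 1 := hzO.2
  haveI hZn : (Subgroup.zpowers z).Normal := by
    constructor
    intro n hn g
    obtain ⟨j, rfl⟩ := Subgroup.mem_zpowers_iff.1 hn
    have hcm : g * z ^ j = z ^ j * g :=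
      ((Commute.zpow_right (show Commute g z from hzcomm g) j)).eq
    rw [hcm]
    simpa using Subgroup.zpow_mem_zpowers z j
  -- an element outside
  have hoz : orderOf z = 2 := orderOf_eq_prime hz2 hz1
  have houtside : ∃ y ∈ Om, y ∉ Subgroup.zpowers z := by
    by_contra hcon
    push Not at hcon
    have hin : ∀ c : A, orderOf c = 2 → (c : G) = z := by
      intro c hc
      have h1 := hcon _ (hinvol c hc)
      obtain ⟨j, hj⟩ := Subgroup.mem_zpowers_iff.1 h1
      have hc1 : (c : G) ≠ 1 := by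
        intro h
        have h2 : c = 1 := Subtype.ext h
        rw [h2, orderOf_one] at hc
        omega
      rcases Int.even_or_odd' j with ⟨k, rfl | rfl⟩
      · exfalso
        apply hc1
        rw [← hj, zpow_mul, zpow_two_aux hz2, one_zpow]
      · rw [← hj, zpow_add, zpow_mul, zpow_two_aux hz2, one_zpow, one_mul, zpow_one]
    apply hab
    apply Subtype.ext
    rw [hin a hao, hin b hbo]
  let π : G →* G ⧸ Subgroup.zpowers z := QuotientGroup.mk' _
  have hπs : Function.Surjective π := QuotientGroup.mk'_surjective _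
  haveI : Group.IsNilpotent (G ⧸ Subgroup.zpowers z) := nilpotent_of_surjective π hπs
  have hmapn : (Om.map π).Normal := hOmn.map π hπs
  have hmapne : Om.map π ≠ ⊥ := by
    intro h
    obtain ⟨y, hy, hy2⟩ := houtside
    have h1 : π y ∈ Om.map π := ⟨y, hy, rfl⟩
    rw [h] at h1
    exact hy2 ((QuotientGroup.eq_one_iff y).1 h1)
  obtain ⟨_, ⟨y, hyO, rfl⟩, hy1, hyc⟩ := Cfsg.Agent.H06.exists_central_of_normal hmapn hmapne
  have hyZ : y ∉ Subgroup.zpowers z := fun h => hy1 ((QuotientGroup.eq_one_iff y).2 h)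
  have hcomm : ∀ g : G, g * y * g⁻¹ * y⁻¹ ∈ Subgroup.zpowers z := by
    intro g
    have h1 : π g * π y = π y * π g := Subgroup.mem_center_iff.1 hyc (π g)
    have h2 : π (g * y * g⁻¹ * y⁻¹) = 1 := by
      rw [map_mul, map_mul, map_mul, map_inv, map_inv, h1]
      group
    exact (QuotientGroup.eq_one_iff _).1 h2
  obtain ⟨hcard, hexp⟩ := sup_props hG hzcomm hz1 hz2 hyO.2 hyZ
  refine ⟨_, ?_, hcard, hexp⟩
  constructor
  intro n hn g
  have hle : Subgroup.zpowers z ⊔ Subgroup.zpowers y ≤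
      (Subgroup.zpowers z ⊔ Subgroup.zpowers y).comap (MulAut.conj g).toMonoidHom := by
    apply sup_le
    · rw [Subgroup.zpowers_le, Subgroup.mem_comap]
      have : (MulAut.conj g).toMonoidHom z = z := by
        show g * z * g⁻¹ = z
        rw [hzcomm g]
        group
      rw [this]
      exact (le_sup_left : _ ≤ Subgroup.zpowers z ⊔ Subgroup.zpowers y) (Subgroup.mem_zpowers z)
    · rw [Subgroup.zpowers_le, Subgroup.mem_comap]
      have h1 := (le_sup_left : _ ≤ Subgroup.zpowers z ⊔ Subgroup.zpowers y) (hcomm g)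
      have h2 := (le_sup_right : _ ≤ Subgroup.zpowers z ⊔ Subgroup.zpowers y)
        (Subgroup.mem_zpowers y)
      have h3 := Subgroup.mul_mem _ h1 h2
      convert h3 using 1
      show g * y * g⁻¹ = _
      group
  exact hle hn

theorem exists_E_odd (hp2 : p ≠ 2) (hG : IsPGroup p G) (hnc : ¬ IsCyclic G) :
    ∃ E : Subgroup G, E.Normal ∧ Nat.card E = p ^ 2 ∧ ∀ e ∈ E, e ^ p = 1 := by
  classical
  have hp : p.Prime := Fact.out
  haveI := hG.isNilpotent
  haveI := Fintype.ofFinite G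
  obtain ⟨n, hn⟩ := IsPGroup.iff_card.1 hG
  have hn2 : 2 ≤ n := by
    by_contra hlt
    apply hnc
    have hn' : n = 0 ∨ n = 1 := by omega
    rcases hn' with rfl | rfl
    · rw [pow_zero] at hn
      have : Subsingleton G := (Nat.card_eq_one_iff_unique.1 hn).1
      infer_instance
    · rw [pow_one] at hn
      exact isCyclic_of_prime_card hn
  have hnt : (⊤ : Subgroup G) ≠ ⊥ := by
    intro h
    have h1 : Nat.card (⊤ : Subgroup G) = Nat.card (⊥ : Subgroup G) := by rw [h]
    rw [Subgroup.card_top, Subgroup.card_bot, hn] at h1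
    have : 1 < p ^ n := Nat.one_lt_pow (by omega) hp.one_lt
    omega
  obtain ⟨z₀, -, hz₀1, hz₀c⟩ := Cfsg.Agent.H06.exists_central_of_normal
    (inferInstance : (⊤ : Subgroup G).Normal) hnt
  -- element of order p in the centre
  obtain ⟨k, hk⟩ := hG z₀
  have hexk : ∃ k : ℕ, z₀ ^ (p ^ k) = 1 := ⟨k, hk⟩
  have hfind0 : Nat.find hexk ≠ 0 := by
    intro h
    have h1 := Nat.find_spec hexk
    rw [h, pow_zero, pow_one] at h1
    exact hz₀1 h1
  obtain ⟨j, hj⟩ := Nat.exists_eq_succ_of_ne_zero hfind0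
  set z : G := z₀ ^ (p ^ j) with hzdef
  have hz1 : z ≠ 1 := Nat.find_min hexk (by omega : j < Nat.find hexk)
  have hzp : z ^ p = 1 := by
    have h1 := Nat.find_spec hexk
    rw [hj, Nat.succ_eq_add_one, pow_succ, pow_mul] at h1
    exact h1
  have hzcomm : ∀ g : G, g * z = z * g := by
    intro g
    have h1 : Commute g z₀ := Subgroup.mem_center_iff.1 hz₀c g
    exact (h1.pow_right _).eq
  set Z : Subgroup G := Subgroup.zpowers z with hZdef
  have hzo : orderOf z = p := orderOf_eq_prime hzp hz1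
  have hZc : Nat.card Z = p := by rw [hZdef, Nat.card_zpowers, hzo]
  have hZexp : ∀ a ∈ Z, a ^ p = 1 := by
    intro a ha
    obtain ⟨i, rfl⟩ := Subgroup.mem_zpowers_iff.1 ha
    exact zpow_pow_comm_aux hzp i
  let 𝓔 := {E : Subgroup G // Z ≤ E ∧ Nat.card E = p ^ 2 ∧ ∀ e ∈ E, e ^ p = 1}
  let S := {x : G // x ^ p = 1 ∧ x ∉ Z}
  let f : S → 𝓔 := fun x =>
    ⟨Z ⊔ Subgroup.zpowers x.1, le_sup_left, (sup_props hG hzcomm hz1 hzp x.2.1 x.2.2).1,
      (sup_props hG hzcomm hz1 hzp x.2.1 x.2.2).2⟩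
  haveI : Finite 𝓔 := inferInstance
  haveI : Fintype 𝓔 := Fintype.ofFinite _
  have hfiber : ∀ E : 𝓔, Nat.card {x : S // f x = E} = p ^ 2 - p := by
    intro E
    have h1 : Nat.card {x : S // f x = E} = Nat.card {x : G // x ∈ E.1 ∧ x ∉ Z} := by
      apply Nat.card_congr
      refine ⟨fun x => ⟨x.1.1, ?_, x.1.2.2⟩, fun x => ⟨⟨x.1, E.2.2.2 _ x.2.1, x.2.2⟩, ?_⟩, ?_, ?_⟩
      · have h2 : x.1.1 ∈ (f x.1).1 := (le_sup_right : _ ≤ Z ⊔ Subgroup.zpowers x.1.1)
          (Subgroup.mem_zpowers _)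
        rw [x.2] at h2
        exact h2
      · apply Subtype.ext
        show Z ⊔ Subgroup.zpowers x.1 = E.1
        apply Subgroup.eq_of_le_of_card_ge
        · exact sup_le E.2.1 (Subgroup.zpowers_le.2 x.2.1)
        · rw [E.2.2.1, (sup_props hG hzcomm hz1 hzp (E.2.2.2 _ x.2.1) x.2.2).1]
      · intro x; rfl
      · intro x; rfl
    rw [h1]
    have h2 := Cfsg.Agent.H19.KulH.card_split (α := G) (fun x => x ∈ E.1) (fun x => x ∈ Z)
    have h3 : Nat.card {x // x ∈ E.1} = p ^ 2 := E.2.2.1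
    have h4 : Nat.card {x : G // x ∈ E.1 ∧ x ∈ Z} = p := by
      refine Eq.trans ?_ hZc
      apply Nat.card_congr
      exact ⟨fun x => ⟨x.1, x.2.2⟩, fun x => ⟨x.1, E.2.1 x.2, x.2⟩, fun x => rfl, fun x => rfl⟩
    rw [h3, h4] at h2
    omega
  have hS : Nat.card S = Nat.card 𝓔 * (p ^ 2 - p) := by
    rw [← Nat.card_congr (Equiv.sigmaFiberEquiv f), Nat.card_sigma]
    simp only [hfiber]
    rw [Finset.sum_const, Finset.card_univ, ← Nat.card_eq_fintype_card, smul_eq_mul]
  have hsol : Cfsg.Agent.H19.sol G p = Nat.card S + p := by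
    have h2 := Cfsg.Agent.H19.KulH.card_split (α := G) (fun x => x ^ p = 1) (fun x => x ∈ Z)
    have h4 : Nat.card {x : G // x ^ p = 1 ∧ x ∈ Z} = p := by
      refine Eq.trans ?_ hZc
      apply Nat.card_congr
      exact ⟨fun x => ⟨x.1, x.2.2⟩, fun x => ⟨x.1, hZexp _ x.2, x.2⟩, fun x => rfl, fun x => rfl⟩
    unfold Cfsg.Agent.H19.sol
    rw [h2, h4]
    have : Nat.card {x : G // x ^ p = 1 ∧ ¬ x ∈ Z} = Nat.card S := rfl
    omega
  have hkul := Cfsg.Agent.H19.kulakoff hp2 _ G rfl hG hnc 1 le_rfl (by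
    rw [hn]
    exact Nat.pow_le_pow_right hp.pos hn2)
  rw [pow_one, hsol, hS] at hkul
  have hnd : ¬ p ∣ Nat.card 𝓔 := by
    rintro ⟨c, hc⟩
    have h1 : p ^ (1 + 1) ∣ Nat.card 𝓔 * (p ^ 2 - p) := by
      rw [hc]
      have h2 : p ^ 2 - p = p * (p - 1) := by
        rw [Nat.mul_sub, mul_one, sq]
      rw [h2]
      exact ⟨c * (p - 1), by ring⟩
    have h2 : p ^ (1 + 1) ∣ p := (Nat.dvd_add_right h1).1 hkul
    have h3 := Nat.le_of_dvd hp.pos h2
    have h4 : p * p ≤ p := by
      have h5 : p ^ (1 + 1) = p * p := by ring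
      rwa [h5] at h3
    have := hp.two_le
    nlinarith
  -- fixed point
  let act : G → 𝓔 → 𝓔 := fun g E =>
    ⟨MulAut.conj g • E.1, by
      intro a ha
      rw [mem_conj]
      have h1 : g⁻¹ * a * g = a := by
        obtain ⟨i, rfl⟩ := Subgroup.mem_zpowers_iff.1 ha
        have hcm : z ^ i * g = g * z ^ i :=
          ((Commute.zpow_left (show Commute z g from (hzcomm g).symm) i)).eq
        rw [mul_assoc, hcm]
        group
      rw [h1]
      exact E.2.1 ha, by
      rw [Cfsg.Agent.H19.conj_smul_card, E.2.2.1], by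
      intro e he
      have h1 := E.2.2.2 _ (mem_conj.1 he)
      have h2 : (g⁻¹ * e * g) ^ p = g⁻¹ * e ^ p * g := by
        have := conj_pow (a := g⁻¹) (b := e) (i := p)
        simpa using this
      rw [h2] at h1
      have h3 : e ^ p = g * (g⁻¹ * e ^ p * g) * g⁻¹ := by group
      rw [h3, h1]
      group⟩
  have hact1 : ∀ E, act 1 E = E := by
    intro E
    apply Subtype.ext
    show MulAut.conj (1 : G) • E.1 = E.1
    rw [map_one, one_smul]
  have hact2 : ∀ g h E, act (g * h) E = act g (act h E) := by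
    intro g h E
    apply Subtype.ext
    show MulAut.conj (g * h) • E.1 = MulAut.conj g • MulAut.conj h • E.1
    rw [map_mul, mul_smul]
  have hmod := Cfsg.Agent.H19.card_modEq_fixed hG act hact1 hact2
  have hne : Nonempty {x : 𝓔 // ∀ g, act g x = x} := by
    by_contra hemp
    rw [not_nonempty_iff] at hemp
    rw [Nat.card_of_isEmpty (α := {x : 𝓔 // ∀ g, act g x = x})] at hmod
    exact hnd ((Nat.modEq_zero_iff_dvd).1 hmod)
  obtain ⟨⟨E, hE⟩⟩ := hne
  refine ⟨E.1, ?_, E.2.2.1, E.2.2.2⟩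
  constructor
  intro n hnE g
  have h1 : MulAut.conj g • E.1 = E.1 := congrArg Subtype.val (hE g)
  rw [← h1, mem_conj]
  convert hnE using 1
  group

end EE

/-- Let a finite p-group G act faithfully and irreducibly on a non-trivial finite vector space V over the field with q elements (q prime), and suppose G is not cyclic, generalized quaternion, dihedral or semidihedral. Then G has a subgroup H of index p and V is the direct sum of p subspaces, each invariant under H, on none of which H acts faithfully, and which every element of G outside H permutes in a single p-cycle. -/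
theorem result
    (q : ℕ) [Fact q.Prime] {V : Type*} [AddCommGroup V] [Module (ZMod q) V] [Finite V] [Nontrivial V]
    {G : Type*} [Group G] [Finite G] (p : ℕ) [Fact p.Prime] (hG : IsPGroup p G)
    (ρ : G →* (V ≃ₗ[ZMod q] V)) (hρ : Function.Injective ρ)
    (hirr : ∀ W : Submodule (ZMod q) V, (∀ g : G, ∀ w ∈ W, ρ g w ∈ W) → W = ⊥ ∨ W = ⊤)
    (hnc : ¬ IsCyclic G) (hnq : ∀ n : ℕ, ¬ Nonempty (G ≃* QuaternionGroup n))
    (hnd : ∀ n : ℕ, ¬ Nonempty (G ≃* DihedralGroup n)) (hnsd : ¬ Cfsg.IsQuasiDihedral G) :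
    ∃ (H : Subgroup G) (W : Fin p → Submodule (ZMod q) V), H.index = p ∧
      iSup W = ⊤ ∧ iSupIndep W ∧
      (∀ h ∈ H, ∀ i, ∀ w ∈ W i, ρ h w ∈ W i) ∧
      (∀ i, ∃ h ∈ H, h ≠ 1 ∧ ∀ w ∈ W i, ρ h w = w) ∧
      ∀ g : G, g ∉ H → ∃ σ : Equiv.Perm (Fin p), orderOf σ = p ∧ ∀ i, (W i).map (ρ g : V →ₗ[ZMod q] V) = W (σ i) := by
  classical
  have hp : p.Prime := Fact.out
  have hq : q.Prime := Fact.out
  have hqp : q ≠ p := by
    rintro rfl
    -- fixed point
    apply hnc
    haveI : Finite V := inferInstance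
    letI : MulAction G V :=
      { smul := fun g v => ρ g v
        one_smul := fun v => rho_one ρ v
        mul_smul := fun a b v => rho_mul ρ a b v }
    have hmod := hG.card_modEq_card_fixedPoints V
    have hV : q ∣ Nat.card V := by
      haveI := Fintype.ofFinite V
      have h2 : Nat.card V = q ^ (Module.finrank (ZMod q) V) := by
        rw [Nat.card_eq_fintype_card, Module.card_eq_pow_finrank (K := ZMod q) (V := V), ZMod.card]
      rw [h2]
      apply dvd_pow_self
      exact Module.finrank_pos.ne'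
    have hdiv : q ∣ Nat.card (MulAction.fixedPoints G V) :=
      (Nat.modEq_zero_iff_dvd.1 (hmod.symm.trans ((Nat.modEq_zero_iff_dvd).2 hV)))
    have hnt : Nontrivial (MulAction.fixedPoints G V) := by
      have h0 : (0 : V) ∈ MulAction.fixedPoints G V := fun g => map_zero (ρ g)
      haveI : Nonempty (MulAction.fixedPoints G V) := ⟨⟨0, h0⟩⟩
      exact (Finite.one_lt_card_iff_nontrivial.1
        (lt_of_lt_of_le hq.one_lt (Nat.le_of_dvd Nat.card_pos hdiv)))
    obtain ⟨⟨v, hv⟩, hv0⟩ := exists_ne (⟨0, fun g => map_zero (ρ g)⟩ : MulAction.fixedPoints G V)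
    have hv0' : v ≠ 0 := fun h => hv0 (Subtype.ext h)
    let W : Submodule (ZMod q) V :=
      { carrier := {u | ∀ g : G, ρ g u = u}
        add_mem' := by
          intro a b ha hb g
          rw [map_add, ha g, hb g]
        zero_mem' := fun g => map_zero _
        smul_mem' := by
          intro c a ha g
          rw [map_smul, ha g] }
    have hW : W = ⊥ ∨ W = ⊤ := by
      apply hirr
      intro g w hw g'
      rw [← rho_mul, hw (g' * g)]
      exact (hw g).symm
    rcases hW with h | h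
    · exfalso
      have h1 : v ∈ W := hv
      rw [h] at h1
      exact hv0' h1
    · have htriv : ∀ g : G, g = 1 := by
        intro g
        apply hρ
        rw [map_one]
        ext u
        have : u ∈ W := by rw [h]; trivial
        exact this g
      haveI : Subsingleton G := ⟨fun a b => by rw [htriv a, htriv b]⟩
      infer_instance
  obtain ⟨E, hEn, hEc, hEe⟩ : ∃ E : Subgroup G, E.Normal ∧ Nat.card E = p ^ 2 ∧ ∀ e ∈ E, e ^ p = 1 := by
    by_cases hp2 : p = 2
    · subst hp2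
      have hA : ∃ A : Subgroup G, A.Normal ∧ IsMulCommutative A ∧ ¬ IsCyclic A := by
        by_contra hcon
        push Not at hcon
        rcases Cfsg.Agent.H18.roquette_two hG hcon hnc with ⟨n, hn⟩ | ⟨n, _, hn⟩ | h
        · exact hnq n hn
        · exact hnd n hn
        · exact hnsd h
      obtain ⟨A, hAn, hAc, hAnc⟩ := hA
      exact exists_E_two hG A hAn hAc hAnc
    · exact exists_E_odd hp2 hG hnc
  exact core ρ hG hρ hirr hqp E hEn hEc hEe

end Cfsg.Agent.S3380
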