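import Cfsg.Statements.S3381

set_option autoImplicit false
open Cfsg

namespace Cfsg.Agent.S3381

set_option linter.style.haveILetI false

section Aux

variable {R V : Type*} [Ring R] [AddCommGroup V] [Module R V] [Finite V]

theorem card_mul_le_of_inf (A B : Submodule R V) (h : ∀ x, x ∈ A → x ∈ B → x = 0) :
    Nat.card A * Nat.card B ≤ Nat.card V := by
  rw [← Nat.card_prod]
  apply Nat.card_le_card_of_injective (fun p : A × B => (p.1 : V) + p.2)
  rintro ⟨⟨a, ha⟩, ⟨b, hb⟩⟩ ⟨⟨c, hc⟩, ⟨d, hd⟩⟩ he
  have he' : a + b = c + d := he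
  have h1 : a - c = d - b := by
    rw [sub_eq_sub_iff_add_eq_add, add_comm d c]
    exact he'
  have h2 : a - c = 0 := h _ (A.sub_mem ha hc) (h1 ▸ B.sub_mem hd hb)
  have h3 : a = c := sub_eq_zero.1 h2
  have h4 : d = b := by
    rw [h2] at h1
    exact (sub_eq_zero.1 h1.symm)
  subst h3
  subst h4
  rfl

theorem card_mul_eq_of_compl (A B : Submodule R V) (h : ∀ x, x ∈ A → x ∈ B → x = 0)
    (hs : ∀ v : V, ∃ a ∈ A, ∃ b ∈ B, a + b = v) :
    Nat.card A * Nat.card B = Nat.card V := by
  rw [← Nat.card_prod]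
  apply Nat.card_eq_of_bijective (fun p : A × B => (p.1 : V) + p.2)
  constructor
  · rintro ⟨⟨a, ha⟩, ⟨b, hb⟩⟩ ⟨⟨c, hc⟩, ⟨d, hd⟩⟩ he
    have he' : a + b = c + d := he
    have h1 : a - c = d - b := by
      rw [sub_eq_sub_iff_add_eq_add, add_comm d c]
      exact he'
    have h2 : a - c = 0 := h _ (A.sub_mem ha hc) (h1 ▸ B.sub_mem hd hb)
    have h3 : a = c := sub_eq_zero.1 h2
    have h4 : d = b := by
      rw [h2] at h1
      exact (sub_eq_zero.1 h1.symm)
    subst h3
    subst h4
    rfl
  · intro v
    obtain ⟨a, ha, b, hb, h⟩ := hs v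
    exact ⟨(⟨a, ha⟩, ⟨b, hb⟩), h⟩

end Aux


/-- Let G be a finite group acting faithfully and linearly on a non-trivial finite vector space V over the field with q elements (q prime) so that every non-zero vector has a stabilizer of order 2, and suppose G has a central involution. Then V has q^(2r) elements for some r and G contains exactly q^r + 1 non-central involutions. -/
theorem result
    (q : ℕ) [Fact q.Prime] {V : Type*} [AddCommGroup V] [Module (ZMod q) V] [Finite V] [Nontrivial V]
    {G : Type*} [Group G] [Finite G] (ρ : G →* (V ≃ₗ[ZMod q] V)) (hρ : Function.Injective ρ)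
    (hstab : ∀ v : V, v ≠ 0 → Nat.card {g : G // ρ g v = v} = 2)
    (z : G) (hz : orderOf z = 2) (hzc : z ∈ Subgroup.center G) :
    ∃ r : ℕ, Nat.card V = q ^ (2 * r) ∧
      Nat.card {g : G // orderOf g = 2 ∧ g ∉ Subgroup.center G} = q ^ r + 1 := by
  classical
  have hqp : q.Prime := Fact.out
  -- fixed spaces
  let Fx : G → Submodule (ZMod q) V := fun g => LinearMap.ker ((ρ g : V →ₗ[ZMod q] V) - LinearMap.id)
  have hFx : ∀ g v, v ∈ Fx g ↔ ρ g v = v := by
    intro g v
    simp only [Fx, LinearMap.mem_ker, LinearMap.sub_apply, LinearMap.id_apply, sub_eq_zero]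
    rfl
  have hmulv : ∀ a b : G, ∀ v, ρ (a * b) v = ρ a (ρ b v) := by
    intro a b v
    rw [map_mul]
    rfl
  have honev : ∀ v, ρ 1 v = v := by
    intro v
    rw [map_one]
    rfl
  -- the stabilisers
  have hst : ∀ v : V, v ≠ 0 → ∃ t : G, t ≠ 1 ∧ ρ t v = v ∧ (t * t = 1) ∧ ∀ g, ρ g v = v → g = 1 ∨ g = t := by
    intro v hv
    have h2 := hstab v hv
    rw [Nat.card_eq_two_iff] at h2
    obtain ⟨⟨a, ha⟩, ⟨b, hb⟩, hab, huniv⟩ := h2
    have hmem : ∀ g, ρ g v = v → g = a ∨ g = b := by
      intro g hg
      have : (⟨g, hg⟩ : {g : G // ρ g v = v}) ∈ ({⟨a, ha⟩, ⟨b, hb⟩} : Set {g : G // ρ g v = v}) := by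
        rw [huniv]
        trivial
      rcases this with h | h
      · exact Or.inl (congrArg Subtype.val h)
      · exact Or.inr (congrArg Subtype.val h)
    have hab' : a ≠ b := fun h => hab (Subtype.ext h)
    have key : ∃ t : G, t ≠ 1 ∧ ρ t v = v ∧ ∀ g, ρ g v = v → g = 1 ∨ g = t := by
      rcases hmem 1 (honev v) with h | h
      · refine ⟨b, ?_, hb, ?_⟩
        · rw [h]
          exact hab'.symm
        · intro g hg
          rw [h]
          exact hmem g hg
      · refine ⟨a, ?_, ha, ?_⟩
        · rw [h]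
          exact hab'
        · intro g hg
          rw [h]
          rcases hmem g hg with h' | h'
          · exact Or.inr h'
          · exact Or.inl h'
    obtain ⟨t, ht1, htv, htu⟩ := key
    refine ⟨t, ht1, htv, ?_, htu⟩
    have h3 : ρ (t * t) v = v := by rw [hmulv, htv, htv]
    rcases htu _ h3 with h | h
    · exact h
    · exfalso
      apply ht1
      have : t * t = t * 1 := by rw [mul_one]; exact h
      exact mul_left_cancel this
  have huniq : ∀ x : V, x ≠ 0 → ∀ a b : G, a ≠ 1 → b ≠ 1 → ρ a x = x → ρ b x = x → a = b := by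
    intro x hx a b ha hb hax hbx
    obtain ⟨t, _, _, _, htu⟩ := hst x hx
    rcases htu a hax with h | h
    · exact absurd h ha
    · rcases htu b hbx with h' | h'
      · exact absurd h' hb
      · rw [h, h']
  have hz1 : z ≠ 1 := by
    intro h
    rw [h, orderOf_one] at hz
    omega
  have hzz : z * z = 1 := by
    have := pow_orderOf_eq_one z
    rw [hz, pow_two] at this
    exact this
  have hzcomm : ∀ (g : G) v, ρ g (ρ z v) = ρ z (ρ g v) := by
    intro g v
    rw [← hmulv, ← hmulv, Subgroup.mem_center_iff.1 hzc g]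
  have hzzv : ∀ v, ρ z (ρ z v) = v := by
    intro v
    rw [← hmulv, hzz, honev]
  -- a vector moved by `z`
  obtain ⟨v₁, hv₁⟩ : ∃ v, ρ z v ≠ v := by
    by_contra hcon
    push Not at hcon
    apply hz1
    apply hρ
    rw [map_one]
    ext v
    exact hcon v
  -- `z` has no fixed vectors
  have hW : ∀ w, ρ z w = w → w = 0 := by
    intro w hw
    by_contra hw0
    have hv0 : v₁ ≠ 0 := by
      rintro rfl
      exact hv₁ (map_zero _)
    obtain ⟨t₀, ht₀1, ht₀v, ht₀2, _⟩ := hst v₁ hv0
    have ht₀z : t₀ ≠ z := by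
      rintro rfl
      exact hv₁ ht₀v
    -- (a)
    have hvm : v₁ + ρ z v₁ = 0 := by
      by_contra hx
      apply ht₀z
      apply huniq _ hx t₀ z ht₀1 hz1
      · rw [map_add, ht₀v, hzcomm, ht₀v]
      · rw [map_add, hzzv, add_comm]
    -- (b)
    have hv'ne : ρ z (w + v₁) ≠ w + v₁ := by
      rw [map_add, hw]
      intro h
      exact hv₁ (add_left_cancel h)
    have hv'0 : w + v₁ ≠ 0 := by
      intro h
      rw [h] at hv'ne
      exact hv'ne (map_zero _)
    obtain ⟨t, ht1, htv, _, _⟩ := hst _ hv'0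
    have htz : t ≠ z := by
      rintro rfl
      exact hv'ne htv
    have hww : w + w = 0 := by
      by_contra hx
      apply htz
      have e : (w + v₁) + ρ z (w + v₁) = w + w := by
        rw [map_add, hw]
        have := hvm
        calc w + v₁ + (w + ρ z v₁) = w + w + (v₁ + ρ z v₁) := by abel
          _ = w + w := by rw [hvm, add_zero]
      apply huniq _ hx t z ht1 hz1
      · rw [← e, map_add, htv, hzcomm, htv]
      · rw [map_add, hw]
    -- (c)
    have hwt : w + ρ t₀ w = 0 := by
      by_contra hx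
      apply ht₀z
      apply huniq _ hx t₀ z ht₀1 hz1
      · rw [map_add, ← hmulv, ht₀2, honev, add_comm]
      · rw [map_add, hw, ← hzcomm, hw]
    have h1 : ρ t₀ w = w := by
      have h2 : ρ t₀ w = -w := by
        rw [eq_neg_iff_add_eq_zero, add_comm]
        exact hwt
      rw [h2]
      rw [neg_eq_iff_add_eq_zero]
      exact hww
    exact ht₀z (huniq w hw0 t₀ z ht₀1 hz1 h1 hw)
  have hzneg : ∀ v, ρ z v = -v := by
    intro v
    have h1 := hW (v + ρ z v) (by rw [map_add, hzzv, add_comm])
    rw [eq_neg_iff_add_eq_zero, add_comm]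
    exact h1
  have h2ne : (2 : ZMod q) ≠ 0 := by
    intro h2
    apply hv₁
    rw [hzneg]
    rw [neg_eq_iff_add_eq_zero, ← two_smul (ZMod q) v₁, h2, zero_smul]
  let half : ZMod q := (2 : ZMod q)⁻¹
  have hhalf : half + half = 1 := by
    change (2 : ZMod q)⁻¹ + (2 : ZMod q)⁻¹ = 1
    rw [← two_mul, mul_inv_cancel₀ h2ne]
  -- involutions other than `z`
  have hneg_inj : ∀ g, (∀ v, ρ g v = -v) → g = z := by
    intro g hg
    apply hρ
    ext v
    rw [hg, hzneg]
  let I := {g : G // orderOf g = 2 ∧ g ∉ Subgroup.center G}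
  have hinvol : ∀ t : G, t ≠ 1 → t * t = 1 → orderOf t = 2 := by
    intro t ht1 ht2
    haveI : Fact (Nat.Prime 2) := ⟨Nat.prime_two⟩
    exact orderOf_eq_prime (by rw [pow_two]; exact ht2) ht1
  have hIiff : ∀ g : G, (orderOf g = 2 ∧ g ∉ Subgroup.center G) ↔ (g ≠ 1 ∧ g * g = 1 ∧ g ≠ z) := by
    intro g
    constructor
    · rintro ⟨h1, h2⟩
      refine ⟨?_, ?_, ?_⟩
      · rintro rfl
        rw [orderOf_one] at h1
        omega
      · have := pow_orderOf_eq_one g
        rw [h1, pow_two] at this
        exact this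
      · rintro rfl
        exact h2 hzc
    · rintro ⟨h1, h2, h3⟩
      refine ⟨hinvol g h1 h2, ?_⟩
      intro hc
      apply h3
      -- a central involution is `z`
      apply hneg_inj
      have hc' : ∀ (a : G) v, ρ a (ρ g v) = ρ g (ρ a v) := by
        intro a v
        rw [← hmulv, ← hmulv, Subgroup.mem_center_iff.1 hc a]
      have hgg : ∀ v, ρ g (ρ g v) = v := by
        intro v
        rw [← hmulv, h2, honev]
      have hFix0 : ∀ w, ρ g w = w → w = 0 := by
        -- `g z` would be non trivial and fix `w`; use the uniqueness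
        intro w hw
        by_contra hw0
        -- the element `g` fixes `w`, every vector `v + g v` is fixed
        have hg_ne_z : g ≠ z := h3
        -- pick `x` fixed by `g`, and `y` with `g y = -y`
        -- then `g z` fixes `y`
        -- if `g = -1` on all of `V` then `g = z`: contradiction
        have hmoved : ∃ y, y + ρ g y = 0 ∧ y ≠ 0 := by
          by_contra hcon
          push Not at hcon
          -- then `g = 1` on `V`
          apply h1
          apply hρ
          rw [map_one]
          ext v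
          have h5 := hcon (v - ρ g v) (by
            rw [map_sub, hgg]
            abel)
          exact (sub_eq_zero.1 h5).symm
        obtain ⟨y, hy, hy0⟩ := hmoved
        have hgy : ρ g y = -y := by
          rw [eq_neg_iff_add_eq_zero, add_comm]
          exact hy
        -- `w + y` has a stabiliser commuting with `g`
        have hv0 : w + y ≠ 0 := by
          intro h
          have h5 : ρ g (w + y) = 0 := by rw [h, map_zero]
          rw [map_add, hw, hgy] at h5
          have h6 : w = y := by
            have := sub_eq_zero.1 ((sub_eq_add_neg w y).trans h5)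
            exact this
          rw [h6] at h
          have h7 := congrArg (fun u => half • u) h
          simp only [smul_add, smul_zero] at h7
          have h8 : (half + half) • y = 0 := by rw [add_smul]; exact h7
          rw [hhalf, one_smul] at h8
          exact hy0 h8
        obtain ⟨s, hs1, hsv, hs2, _⟩ := hst _ hv0
        -- `s` fixes `w + y` and commutes with `g`, so fixes `w - y`, hence `w` and `y`
        have hsw : ρ s (w - y) = w - y := by
          have h5 : ρ g (w + y) = w - y := by
            rw [map_add, hw, hgy, sub_eq_add_neg]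
          rw [← h5, hc', hsv]
        have hsw2 : ρ s w = w := by
          have h5 : w = half • ((w + y) + (w - y)) := by
            have : (w + y) + (w - y) = (2 : ZMod q) • w := by
              rw [two_smul]
              abel
            rw [this, smul_smul]
            change w = ((2 : ZMod q)⁻¹ * 2) • w
            rw [inv_mul_cancel₀ h2ne, one_smul]
          rw [h5, map_smul, map_add, hsv, hsw]
        have hsy : ρ s y = y := by
          have h5 : ρ s (w + y) = w + y := hsv
          rw [map_add, hsw2] at h5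
          exact add_left_cancel h5
        -- `s` fixes `w`, as does `g`, so `s = g`; but `g` does not fix `y`
        have hsg : s = g := huniq w hw0 s g hs1 h1 hsw2 hw
        rw [hsg, hgy] at hsy
        have h7 : y + y = 0 := by
          have := congrArg (fun u => y + u) hsy
          simp only [add_neg_cancel] at this
          exact this.symm
        have h8 : (half + half) • (y + y) = 0 := by rw [h7, smul_zero]
        rw [hhalf, one_smul] at h8
        have h9 : (2 : ZMod q) • y = 0 := by rw [two_smul]; exact h7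
        have h10 := (smul_eq_zero.1 h9).resolve_left h2ne
        exact hy0 h10
      intro v
      have h5 := hFix0 (v + ρ g v) (by rw [map_add, hgg, add_comm])
      rw [eq_neg_iff_add_eq_zero, add_comm]
      exact h5
  have hfix_ne : ∀ t : G, t ≠ 1 → t * t = 1 → t ≠ z → ∃ x, x ≠ 0 ∧ ρ t x = x := by
    intro t ht1 ht2 htz
    by_contra hcon
    push Not at hcon
    apply htz
    apply hneg_inj
    intro v
    by_contra hv
    have h1 : v + ρ t v ≠ 0 := by
      intro h
      apply hv
      rw [eq_neg_iff_add_eq_zero, add_comm]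
      exact h
    apply hcon _ h1
    rw [map_add, ← hmulv, ht2, honev, add_comm]
  have hnofix : ∀ x, x ≠ 0 → ρ z x ≠ x := fun x hx h => hx (hW x h)
  have hdisj : ∀ a b : G, a ≠ 1 → b ≠ 1 → a ≠ b → ∀ x, x ∈ Fx a → x ∈ Fx b → x = 0 := by
    intro a b ha hb hab x hxa hxb
    by_contra hx
    exact hab (huniq x hx a b ha hb ((hFx _ _).1 hxa) ((hFx _ _).1 hxb))
  have hZ : ∀ t : G, t ≠ 1 → t * t = 1 → t ≠ z → z * t ≠ 1 ∧ (z * t) * (z * t) = 1 ∧ z * t ≠ z := by
    intro t ht1 ht2 htz
    refine ⟨?_, ?_, ?_⟩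
    · intro h
      apply htz
      calc t = z * (z * t) := by rw [← mul_assoc, hzz, one_mul]
        _ = z := by rw [h, mul_one]
    · calc (z * t) * (z * t) = z * (t * z) * t := by group
        _ = z * (z * t) * t := by rw [Subgroup.mem_center_iff.1 hzc t]
        _ = (z * z) * (t * t) := by group
        _ = 1 := by rw [hzz, ht2, one_mul]
    · intro h
      apply ht1
      have : z * t = z * 1 := by rw [mul_one]; exact h
      exact mul_left_cancel this
  have hcompl : ∀ t : G, t ≠ 1 → t * t = 1 → t ≠ z →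
      Nat.card (Fx t) * Nat.card (Fx (z * t)) = Nat.card V := by
    intro t ht1 ht2 htz
    obtain ⟨h1, h2, h3⟩ := hZ t ht1 ht2 htz
    have hne : t ≠ z * t := by
      intro h
      apply hz1
      have : 1 * t = z * t := by rw [one_mul]; exact h
      exact (mul_right_cancel this).symm
    apply card_mul_eq_of_compl _ _ (hdisj t (z * t) ht1 h1 hne)
    intro v
    refine ⟨half • (v + ρ t v), ?_, half • (v - ρ t v), ?_, ?_⟩
    · rw [hFx, map_smul, map_add, ← hmulv, ht2, honev, add_comm]
    · rw [hFx, map_smul, hmulv, map_sub, ← hmulv t t, ht2, honev, map_sub, hzneg, hzneg]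
      congr 1
      abel
    · rw [← smul_add]
      have : v + ρ t v + (v - ρ t v) = (2 : ZMod q) • v := by
        rw [two_smul]
        abel
      rw [this, smul_smul]
      change ((2 : ZMod q)⁻¹ * 2) • v = v
      rw [inv_mul_cancel₀ h2ne, one_smul]
  have hle : ∀ a b : G, a ≠ 1 → b ≠ 1 → a ≠ b → Nat.card (Fx a) * Nat.card (Fx b) ≤ Nat.card V :=
    fun a b ha hb hab => card_mul_le_of_inf _ _ (hdisj a b ha hb hab)
  have hnpos : 0 < Nat.card V := Nat.card_pos
  have hmain : ∀ t : G, t ≠ 1 → t * t = 1 → t ≠ z → Nat.card (Fx t) ^ 2 = Nat.card V := by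
    intro t ht1 ht2 htz
    obtain ⟨hz1', hz2', hz3'⟩ := hZ t ht1 ht2 htz
    have hztz : z * t ≠ z := hz3'
    obtain ⟨a, ha0, ha⟩ := hfix_ne t ht1 ht2 htz
    obtain ⟨b, hb0, hb⟩ := hfix_ne (z * t) hz1' hz2' hz3'
    have hne : t ≠ z * t := by
      intro h
      apply hz1
      have : 1 * t = z * t := by rw [one_mul]; exact h
      exact (mul_right_cancel this).symm
    have hab0 : a + b ≠ 0 := by
      intro h
      have h1 : a = -b := eq_neg_of_add_eq_zero_left h
      have h2 : a ∈ Fx (z * t) := by
        rw [h1]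
        exact (Fx (z * t)).neg_mem ((hFx _ _).2 hb)
      exact ha0 (hdisj t (z * t) ht1 hz1' hne a ((hFx _ _).2 ha) h2)
    obtain ⟨t', ht'1, ht'v, ht'2, _⟩ := hst _ hab0
    have ht'z : t' ≠ z := by
      rintro rfl
      exact hnofix _ hab0 ht'v
    have ht't : t' ≠ t := by
      rintro rfl
      have h1 : ρ t' b = b := by
        have h2 := ht'v
        rw [map_add, ha] at h2
        exact add_left_cancel h2
      exact hb0 (hdisj t' (z * t') ht1 hz1' hne b ((hFx _ _).2 h1) ((hFx _ _).2 hb))
    have ht'zt : t' ≠ z * t := by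
      rintro rfl
      have h1 : ρ (z * t) a = a := by
        have h2 := ht'v
        rw [map_add, hb] at h2
        exact add_right_cancel h2
      exact ha0 (hdisj t (z * t) ht1 hz1' hne a ((hFx _ _).2 ha) ((hFx _ _).2 h1))
    obtain ⟨hy1, hy2, hy3⟩ := hZ t' ht'1 ht'2 ht'z
    have hyt : z * t' ≠ t := by
      intro h
      apply ht'zt
      rw [← h, ← mul_assoc, hzz, one_mul]
    have hyzt : z * t' ≠ z * t := by
      intro h
      exact ht't (mul_left_cancel h)
    have c3 := hcompl t' ht'1 ht'2 ht'z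
    have c4 := hcompl t ht1 ht2 htz
    have c1 := hle t' t ht'1 ht1 ht't
    have c2 := hle (z * t') t hy1 ht1 hyt
    have c5 := hle t' (z * t) ht'1 hz1' ht'zt
    have c6 := hle (z * t') (z * t) hy1 hz1' hyzt
    generalize Nat.card (Fx t) = A at *
    generalize Nat.card (Fx (z * t)) = B at *
    generalize Nat.card (Fx t') = X at *
    generalize Nat.card (Fx (z * t')) = Y at *
    generalize Nat.card V = n at *
    have hA : A ^ 2 ≤ n := by
      by_contra hlt
      push Not at hlt
      have h1 : (X * A) * (Y * A) ≤ n * n := Nat.mul_le_mul c1 c2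
      have h2 : (X * A) * (Y * A) = (X * Y) * A ^ 2 := by ring
      rw [h2, c3] at h1
      have h3 : n * n < n * A ^ 2 := Nat.mul_lt_mul_of_pos_left hlt hnpos
      omega
    have hB : B ^ 2 ≤ n := by
      by_contra hlt
      push Not at hlt
      have h1 : (X * B) * (Y * B) ≤ n * n := Nat.mul_le_mul c5 c6
      have h2 : (X * B) * (Y * B) = (X * Y) * B ^ 2 := by ring
      rw [h2, c3] at h1
      have h3 : n * n < n * B ^ 2 := Nat.mul_lt_mul_of_pos_left hlt hnpos
      omega
    apply le_antisymm hA
    by_contra hlt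
    push Not at hlt
    have hB0 : 0 < B := by
      rcases Nat.eq_zero_or_pos B with h | h
      · rw [h, mul_zero] at c4
        omega
      · exact h
    have h1 : A ^ 2 * B ^ 2 = n * n := by
      rw [← c4]
      ring
    have h2 : A ^ 2 * B ^ 2 < n * B ^ 2 := Nat.mul_lt_mul_of_pos_right hlt (by positivity)
    have h3 : n * B ^ 2 ≤ n * n := Nat.mul_le_mul_left n hB
    omega
  -- a base involution
  obtain ⟨v₀, hv₀⟩ := exists_ne (0 : V)
  obtain ⟨t₁, ht₁1, ht₁v, ht₁2, _⟩ := hst v₀ hv₀
  have ht₁z : t₁ ≠ z := by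
    rintro rfl
    exact hnofix _ hv₀ ht₁v
  set s := Nat.card (Fx t₁) with hs
  have hs2 : s ^ 2 = Nat.card V := hmain t₁ ht₁1 ht₁2 ht₁z
  have hspow : ∃ r : ℕ, s = q ^ r := by
    refine ⟨Module.finrank (ZMod q) (Fx t₁), ?_⟩
    rw [hs, Module.natCard_eq_pow_finrank (K := ZMod q) (V := Fx t₁), Nat.card_zmod]
  obtain ⟨r, hr⟩ := hspow
  have hs1 : 1 < s := by
    rw [hs]
    haveI : Nontrivial (Fx t₁) := ⟨⟨⟨v₀, (hFx _ _).2 ht₁v⟩, 0, fun h => hv₀ (congrArg Subtype.val h)⟩⟩
    exact Finite.one_lt_card
  refine ⟨r, ?_, ?_⟩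
  · rw [← hs2, hr, ← pow_mul, mul_comm]
  -- counting
  have hIall : ∀ t : I, Nat.card (Fx t.1) = s := by
    intro t
    obtain ⟨h1, h2, h3⟩ := (hIiff t.1).1 t.2
    have h4 := hmain t.1 h1 h2 h3
    have h5 : Nat.card (Fx t.1) ^ 2 = s ^ 2 := by rw [h4, hs2]
    exact (Nat.pow_left_injective (n := 2) (by norm_num)) h5
  have hφ : ∀ v : {v : V // v ≠ 0}, ∃ t : I, ρ t.1 v.1 = v.1 := by
    rintro ⟨v, hv⟩
    obtain ⟨t, ht1, htv, ht2, _⟩ := hst v hv
    have htz : t ≠ z := by
      rintro rfl
      exact hnofix _ hv htv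
    exact ⟨⟨t, (hIiff t).2 ⟨ht1, ht2, htz⟩⟩, htv⟩
  choose φ hφv using hφ
  have hfib : ∀ t : I, Nat.card {v : {v : V // v ≠ 0} // φ v = t} = s - 1 := by
    intro t
    have h1 : Nat.card {v : {v : V // v ≠ 0} // φ v = t} = Nat.card {x : Fx t.1 // x ≠ 0} := by
      apply Nat.card_congr
      refine
        { toFun := fun v => ⟨⟨v.1.1, (hFx _ _).2 (by have h9 := hφv v.1; rw [v.2] at h9; exact h9)⟩,
            fun h => v.1.2 (congrArg Subtype.val h)⟩
          invFun := fun x => ⟨⟨x.1.1, fun h => x.2 (Subtype.ext h)⟩, ?_⟩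
          left_inv := fun v => rfl
          right_inv := fun x => rfl }
      obtain ⟨h1, _, _⟩ := (hIiff t.1).1 t.2
      obtain ⟨h2, _, _⟩ := (hIiff _).1 (φ ⟨x.1.1, fun h => x.2 (Subtype.ext h)⟩).2
      apply Subtype.ext
      exact huniq x.1.1 (fun h => x.2 (Subtype.ext h)) _ _ h2 h1 (hφv _) ((hFx _ _).1 x.1.2)
    rw [h1]
    have h2 := Nat.card_congr (Equiv.optionSubtypeNe (0 : Fx t.1))
    rw [Finite.card_option, hIall t] at h2
    omega
  haveI : Fintype I := Fintype.ofFinite _
  have hsum : Nat.card {v : V // v ≠ 0} = Nat.card I * (s - 1) := by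
    have h1 := Nat.card_congr (Equiv.sigmaFiberEquiv φ)
    rw [Nat.card_sigma] at h1
    rw [← h1, Finset.sum_congr rfl (fun t _ => hfib t), Finset.sum_const, Finset.card_univ, smul_eq_mul,
      Nat.card_eq_fintype_card]
  have hV1 : Nat.card {v : V // v ≠ 0} + 1 = Nat.card V := by
    have h2 := Nat.card_congr (Equiv.optionSubtypeNe (0 : V))
    rw [Finite.card_option] at h2
    exact h2
  have hfinal : Nat.card I * (s - 1) = (s + 1) * (s - 1) := by
    rw [← hsum]
    have h3 : (s + 1) * (s - 1) + 1 = s ^ 2 := by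
      obtain ⟨u, hu⟩ : ∃ u, s = u + 1 := ⟨s - 1, by omega⟩
      rw [hu]
      simp only [Nat.add_sub_cancel]
      ring
    omega
  have hI : Nat.card I = s + 1 := Nat.eq_of_mul_eq_mul_right (by omega) hfinal
  change Nat.card I = q ^ r + 1
  rw [hI, hr]

end Cfsg.Agent.S3381
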