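import Cfsg.Statements.S3382
-- import your own Cfsg.Agent.* helpers here

set_option autoImplicit false
open Cfsg

namespace Cfsg.Agent.S3382

theorem iter_fix {T : Type*} [Group T] (β : MulAut T) (x u : T) (h1 : β x = x * u) (h2 : β u = u) (k : ℕ) :
    (β ^ k) x = x * u ^ k := by
  induction k with
  | zero => simp
  | succ k ih =>
    rw [pow_succ', MulAut.mul_apply, ih, map_mul, map_pow, h1, h2, pow_succ', mul_assoc]

theorem eq_one_of_iter {T : Type*} [Group T] (β : MulAut T) (n : ℕ) (hn : Odd n) (hβ : β ^ n = 1) (x u : T)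
    (h1 : β x = x * u) (h2 : β u = u) (e : ℕ) (hu : u ^ (2 ^ e) = 1) : u = 1 := by
  have h3 := iter_fix β x u h1 h2 n
  rw [hβ] at h3
  have h4 : u ^ n = 1 := by
    have h5 : x = x * u ^ n := h3
    exact (mul_eq_left.1 h5.symm)
  have h5 : orderOf u ∣ n := orderOf_dvd_of_pow_eq_one h4
  have h6 : orderOf u ∣ 2 ^ e := orderOf_dvd_of_pow_eq_one hu
  have h7 : Nat.Coprime n (2 ^ e) := Nat.Coprime.pow_right e (Nat.coprime_two_right.2 hn)
  exact orderOf_eq_one_iff.1 (Nat.eq_one_of_dvd_coprimes h7 h5 h6)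

theorem main_abs {T : Type*} [Group T] (D : Subgroup T) (β : MulAut T) (n : ℕ) (hn : Odd n) (hβ : β ^ n = 1)
    (E : ℕ) (hE : ∀ x : T, x ^ (2 ^ E) = 1) (hab : ∀ x ∈ D, ∀ y ∈ D, x * y = y * x)
    (hix : ∀ x, x ∉ D → ∀ y, y ∉ D → x * y ∈ D) (hinv : ∀ x ∈ D, β x ∈ D)
    (hfix : ∀ x ∈ D, x ^ 2 = 1 → β x = x) : ∀ x, β x = x := by
  have hD : ∀ e : ℕ, ∀ x ∈ D, x ^ (2 ^ e) = 1 → β x = x := by
    intro e
    induction e with
    | zero =>
      intro x _ h
      have : x = 1 := by simpa using h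
      rw [this, map_one]
    | succ e ih =>
      intro x hx h
      have h2 : β (x ^ 2) = x ^ 2 := by
        apply ih _ (D.pow_mem hx 2)
        rw [← pow_mul, ← pow_succ']
        exact h
      have hbx := hinv x hx
      have ht : x⁻¹ * β x ∈ D := D.mul_mem (D.inv_mem hx) hbx
      have ht2 : (x⁻¹ * β x) ^ 2 = 1 := by
        have hc : (β x) * x⁻¹ = x⁻¹ * β x := hab _ hbx _ (D.inv_mem hx)
        have h3 : (β x) ^ 2 = x ^ 2 := by rw [← map_pow, h2]
        rw [pow_two, mul_assoc, ← mul_assoc (β x), hc, mul_assoc x⁻¹, ← pow_two, h3, pow_two]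
        group
      have hft := hfix _ ht ht2
      have h1 : β x = x * (x⁻¹ * β x) := by group
      have hone := eq_one_of_iter β n hn hβ x (x⁻¹ * β x) h1 hft E (hE _)
      rw [h1, hone, mul_one]
  have hD' : ∀ x ∈ D, β x = x := fun x hx => hD E x hx (hE x)
  intro x
  by_cases hx : x ∈ D
  · exact hD' x hx
  · have hbx : β x ∉ D := by
      intro h
      have h1 := hD' _ h
      have h2 : β x = x := β.injective h1
      rw [h2] at h
      exact hx h
    have hx' : x⁻¹ ∉ D := fun h => hx (by simpa using D.inv_mem h)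
    have ht := hix _ hx' _ hbx
    have h1 : β x = x * (x⁻¹ * β x) := by group
    have hone := eq_one_of_iter β n hn hβ x (x⁻¹ * β x) h1 (hD' _ ht) E (hE _)
    rw [h1, hone, mul_one]

section conc

variable {q : ℕ} [Fact q.Prime]

abbrev VV (q : ℕ) := Fin 2 → ZMod q

/-- diagonal linear map -/
def IsDs (f : VV q ≃ₗ[ZMod q] VV q) (σ : ZMod q) : Prop :=
  ∃ a : ZMod q, a ≠ 0 ∧ ∀ v, f v = ![a * v 0, σ * a⁻¹ * v 1]

def IsAs (f : VV q ≃ₗ[ZMod q] VV q) (σ : ZMod q) : Prop :=
  ∃ a : ZMod q, a ≠ 0 ∧ ∀ v, f v = ![σ * a⁻¹ * v 1, a * v 0]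

theorem sig_inv {σ : ZMod q} (h : σ * σ = 1) : σ ≠ 0 := by
  rintro rfl
  simp at h

theorem ds_ds {f g : VV q ≃ₗ[ZMod q] VV q} {σ τ : ZMod q} (hf : IsDs f σ) (hg : IsDs g τ) :
    IsDs (f * g) (σ * τ) := by
  obtain ⟨a, ha, hf⟩ := hf
  obtain ⟨b, hb, hg⟩ := hg
  refine ⟨a * b, mul_ne_zero ha hb, fun v => ?_⟩
  rw [LinearEquiv.mul_apply, hg, hf]
  ext i
  fin_cases i
  · simp
    ring
  · simp
    field_simp

theorem as_as {f g : VV q ≃ₗ[ZMod q] VV q} {σ τ : ZMod q} (hσ : σ * σ = 1) (hf : IsAs f σ) (hg : IsAs g τ) :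
    IsDs (f * g) (σ * τ) := by
  obtain ⟨a, ha, hf⟩ := hf
  obtain ⟨b, hb, hg⟩ := hg
  have hs := sig_inv hσ
  refine ⟨σ * a⁻¹ * b, by simp [ha, hb, hs], fun v => ?_⟩
  rw [LinearEquiv.mul_apply, hg, hf]
  ext i
  fin_cases i
  · simp
    ring
  · simp
    field_simp

theorem ds_as {f g : VV q ≃ₗ[ZMod q] VV q} {σ τ : ZMod q} (hσ : σ * σ = 1) (hf : IsDs f σ) (hg : IsAs g τ) :
    IsAs (f * g) (σ * τ) := by
  obtain ⟨a, ha, hf⟩ := hf
  obtain ⟨b, hb, hg⟩ := hg
  have hs := sig_inv hσ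
  refine ⟨σ * a⁻¹ * b, by simp [ha, hb, hs], fun v => ?_⟩
  rw [LinearEquiv.mul_apply, hg, hf]
  ext i
  fin_cases i
  · simp
    field_simp
  · simp
    ring

theorem as_ds {f g : VV q ≃ₗ[ZMod q] VV q} {σ τ : ZMod q} (hf : IsAs f σ) (hg : IsDs g τ) :
    IsAs (f * g) (σ * τ) := by
  obtain ⟨a, ha, hf⟩ := hf
  obtain ⟨b, hb, hg⟩ := hg
  refine ⟨a * b, mul_ne_zero ha hb, fun v => ?_⟩
  rw [LinearEquiv.mul_apply, hg, hf]
  ext i
  fin_cases i
  · simp
    field_simp
  · simp
    ring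

theorem ds_not_as {f : VV q ≃ₗ[ZMod q] VV q} {σ τ : ZMod q} (hf : IsDs f σ) (hg : IsAs f τ) : False := by
  obtain ⟨a, ha, hf⟩ := hf
  obtain ⟨b, hb, hg⟩ := hg
  have h1 := hf ![1, 0]
  rw [hg] at h1
  have h2 := congrFun h1 0
  simp at h2
  exact ha h2.symm

theorem ds_one : IsDs (1 : VV q ≃ₗ[ZMod q] VV q) 1 := by
  refine ⟨1, one_ne_zero, fun v => ?_⟩
  ext i
  fin_cases i <;> simp


theorem ds_unique {f : VV q ≃ₗ[ZMod q] VV q} {σ τ : ZMod q} (hf : IsDs f σ) (hg : IsDs f τ) : σ = τ := by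
  obtain ⟨a, ha, hf⟩ := hf
  obtain ⟨b, hb, hg⟩ := hg
  have h1 := hf ![1, 1]
  rw [hg] at h1
  have h2 := congrFun h1 0
  have h3 := congrFun h1 1
  simp at h2 h3
  subst h2
  field_simp at h3
  exact h3.symm

theorem as_unique {f : VV q ≃ₗ[ZMod q] VV q} {σ τ : ZMod q} (hf : IsAs f σ) (hg : IsAs f τ) : σ = τ := by
  obtain ⟨a, ha, hf⟩ := hf
  obtain ⟨b, hb, hg⟩ := hg
  have h1 := hf ![1, 1]
  rw [hg] at h1
  have h2 := congrFun h1 0
  have h3 := congrFun h1 1
  simp at h2 h3
  subst h3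
  field_simp at h2
  exact h2.symm

theorem ds_comm {f g : VV q ≃ₗ[ZMod q] VV q} {σ τ : ZMod q} (hf : IsDs f σ) (hg : IsDs g τ) : f * g = g * f := by
  obtain ⟨a, ha, hf⟩ := hf
  obtain ⟨b, hb, hg⟩ := hg
  apply LinearEquiv.ext
  intro v
  rw [LinearEquiv.mul_apply, LinearEquiv.mul_apply, hg, hf, hf, hg]
  ext i
  fin_cases i
  · simp
    ring
  · simp
    ring

noncomputable def dg (a s : ZMod q) (ha : a ≠ 0) (hs : s * s = 1) : VV q ≃ₗ[ZMod q] VV q where
  toFun v := ![a * v 0, s * a⁻¹ * v 1]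
  map_add' u v := by
    ext i
    fin_cases i <;> simp <;> ring
  map_smul' c v := by
    ext i
    fin_cases i <;> simp <;> ring
  invFun v := ![a⁻¹ * v 0, s * a * v 1]
  left_inv v := by
    ext i
    fin_cases i
    · simp [ha]
    · have h : s * a * (s * a⁻¹ * v 1) = (s * s) * (a * a⁻¹) * v 1 := by ring
      simp [h, hs, ha]
  right_inv v := by
    ext i
    fin_cases i
    · simp [ha]
    · have h : s * a⁻¹ * (s * a * v 1) = (s * s) * (a * a⁻¹) * v 1 := by ring
      simp [h, hs, ha]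

noncomputable def ag (a s : ZMod q) (ha : a ≠ 0) (hs : s * s = 1) : VV q ≃ₗ[ZMod q] VV q where
  toFun v := ![s * a⁻¹ * v 1, a * v 0]
  map_add' u v := by
    ext i
    fin_cases i <;> simp <;> ring
  map_smul' c v := by
    ext i
    fin_cases i <;> simp <;> ring
  invFun v := ![a⁻¹ * v 1, s * a * v 0]
  left_inv v := by
    ext i
    fin_cases i
    · simp [ha]
    · have h : s * a * (s * a⁻¹ * v 1) = (s * s) * (a * a⁻¹) * v 1 := by ring
      simp [h, hs, ha]
  right_inv v := by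
    ext i
    fin_cases i
    · have h : s * a⁻¹ * (s * a * v 0) = (s * s) * (a * a⁻¹) * v 0 := by ring
      simp [h, hs, ha]
    · simp [ha]

theorem dg_apply (a s : ZMod q) (ha : a ≠ 0) (hs : s * s = 1) (v : VV q) :
    dg a s ha hs v = ![a * v 0, s * a⁻¹ * v 1] := rfl

theorem ag_apply (a s : ZMod q) (ha : a ≠ 0) (hs : s * s = 1) (v : VV q) :
    ag a s ha hs v = ![s * a⁻¹ * v 1, a * v 0] := rfl

theorem pow_ds {f : VV q ≃ₗ[ZMod q] VV q} {σ : ZMod q} (a : ZMod q) (hf : ∀ v, f v = ![a * v 0, σ * a⁻¹ * v 1]) (k : ℕ) (v : VV q) :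
    (f ^ k) v = ![a ^ k * v 0, (σ * a⁻¹) ^ k * v 1] := by
  induction k generalizing v with
  | zero =>
    ext i
    fin_cases i <;> simp
  | succ k ih =>
    rw [pow_succ, LinearEquiv.mul_apply, ih, hf]
    ext i
    fin_cases i
    · simp
      ring
    · simp
      ring

theorem two_pow_ds (m : ℕ) (hq : q = 2 ^ m + 1) {f : VV q ≃ₗ[ZMod q] VV q} {σ : ZMod q} (hσ : σ * σ = 1) (hf : IsDs f σ) : f ^ (2 ^ m) = 1 := by
  obtain ⟨a, ha, hf⟩ := hf
  have hs := sig_inv hσ
  have h1 : ∀ c : ZMod q, c ≠ 0 → c ^ (2 ^ m) = 1 := by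
    intro c hc
    have := ZMod.pow_card_sub_one_eq_one hc
    have hm : q - 1 = 2 ^ m := Nat.sub_eq_of_eq_add hq
    rwa [hm] at this
  apply LinearEquiv.ext
  intro v
  rw [pow_ds a hf, h1 a ha, h1 _ (by simp [ha, hs])]
  ext i
  fin_cases i <;> simp

variable (T : Subgroup (VV q ≃ₗ[ZMod q] VV q))

def HT : Prop := ∀ f, f ∈ T ↔ ∃ a s : ZMod q, a ≠ 0 ∧ (s = 1 ∨ s = -1) ∧
      ((∀ v, f v = ![a * v 0, s * a⁻¹ * v 1]) ∨ (∀ v, f v = ![s * a⁻¹ * v 1, a * v 0]))

variable {T}

theorem T_cases (hT : HT T) (x : T) : IsDs x.1 1 ∨ IsDs x.1 (-1) ∨ IsAs x.1 1 ∨ IsAs x.1 (-1) := by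
  obtain ⟨a, s, ha, hs, h | h⟩ := (hT x.1).1 x.2
  · rcases hs with rfl | rfl
    · exact Or.inl ⟨a, ha, h⟩
    · exact Or.inr (Or.inl ⟨a, ha, h⟩)
  · rcases hs with rfl | rfl
    · exact Or.inr (Or.inr (Or.inl ⟨a, ha, h⟩))
    · exact Or.inr (Or.inr (Or.inr ⟨a, ha, h⟩))

theorem one_sq : (1 : ZMod q) * 1 = 1 := by simp
theorem neg_one_sq : (-1 : ZMod q) * (-1) = 1 := by simp

def DD (hT : HT T) : Subgroup T where
  carrier := {x | IsDs x.1 1 ∨ IsDs x.1 (-1)}
  one_mem' := Or.inl ds_one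
  mul_mem' := by
    rintro x y (hx | hx) (hy | hy)
    · left; simpa using ds_ds hx hy
    · right; simpa using ds_ds hx hy
    · right; simpa using ds_ds hx hy
    · left; simpa using ds_ds hx hy
  inv_mem' := by
    intro x hx
    have h1 : (x * x⁻¹).1 = 1 := by rw [mul_inv_cancel]; rfl
    rcases T_cases hT x⁻¹ with h | h | h | h
    · exact Or.inl h
    · exact Or.inr h
    · exfalso
      rcases hx with hx | hx
      · have := ds_as one_sq hx h
        change IsAs (x * x⁻¹).1 _ at this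
        rw [h1] at this
        exact ds_not_as ds_one this
      · have := ds_as neg_one_sq hx h
        change IsAs (x * x⁻¹).1 _ at this
        rw [h1] at this
        exact ds_not_as ds_one this
    · exfalso
      rcases hx with hx | hx
      · have := ds_as one_sq hx h
        change IsAs (x * x⁻¹).1 _ at this
        rw [h1] at this
        exact ds_not_as ds_one this
      · have := ds_as neg_one_sq hx h
        change IsAs (x * x⁻¹).1 _ at this
        rw [h1] at this
        exact ds_not_as ds_one this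

def QQ (hT : HT T) : Subgroup T where
  carrier := {x | IsDs x.1 1 ∨ IsAs x.1 (-1)}
  one_mem' := Or.inl ds_one
  mul_mem' := by
    rintro x y (hx | hx) (hy | hy)
    · left; simpa using ds_ds hx hy
    · right; simpa using ds_as one_sq hx hy
    · right; simpa using as_ds hx hy
    · left; simpa using as_as neg_one_sq hx hy
  inv_mem' := by
    intro x hx
    have h1 : (x * x⁻¹).1 = 1 := by rw [mul_inv_cancel]; rfl
    rcases T_cases hT x⁻¹ with h | h | h | h
    · exact Or.inl h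
    · rcases hx with hx | hx
      · have := ds_ds hx h
        change IsDs (x * x⁻¹).1 _ at this
        rw [h1] at this
        have h2 := ds_unique this ds_one
        left
        rw [one_mul] at h2
        rw [h2] at h
        exact h
      · have := as_ds hx h
        change IsAs (x * x⁻¹).1 _ at this
        rw [h1] at this
        exact (ds_not_as ds_one this).elim
    · rcases hx with hx | hx
      · have := ds_as one_sq hx h
        change IsAs (x * x⁻¹).1 _ at this
        rw [h1] at this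
        exact (ds_not_as ds_one this).elim
      · have := as_as neg_one_sq hx h
        change IsDs (x * x⁻¹).1 _ at this
        rw [h1] at this
        have h2 := ds_unique this ds_one
        right
        have h3 : (1 : ZMod q) = -1 := by simpa using h2.symm
        rw [← h3] at *
        exact h
    · exact Or.inr h

theorem hE_T (hT : HT T) (m : ℕ) (hq : q = 2 ^ m + 1) (x : T) : x ^ (2 ^ (m + 1)) = 1 := by
  have key : ∀ {σ : ZMod q}, σ * σ = 1 → IsDs x.1 σ → x ^ (2 ^ (m + 1)) = 1 := by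
    intro σ hσ h
    apply Subtype.ext
    show (x.1) ^ (2 ^ (m + 1)) = 1
    rw [pow_succ, mul_comm, pow_mul, pow_two]
    have := two_pow_ds m hq hσ h
    rw [← pow_two, ← pow_mul, mul_comm, pow_mul, this, one_pow]
  have key2 : ∀ {σ : ZMod q}, σ * σ = 1 → IsAs x.1 σ → x ^ (2 ^ (m + 1)) = 1 := by
    intro σ hσ h
    apply Subtype.ext
    show (x.1) ^ (2 ^ (m + 1)) = 1
    rw [pow_succ, mul_comm, pow_mul, pow_two]
    exact two_pow_ds m hq (by linear_combination (σ * σ + 1) * hσ) (as_as hσ h h)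
  rcases T_cases hT x with h | h | h | h
  · exact key one_sq h
  · exact key neg_one_sq h
  · exact key2 one_sq h
  · exact key2 neg_one_sq h

theorem not_DD (hT : HT T) (x : T) (hx : x ∉ DD hT) : IsAs x.1 1 ∨ IsAs x.1 (-1) := by
  rcases T_cases hT x with h | h | h | h
  · exact (hx (Or.inl h)).elim
  · exact (hx (Or.inr h)).elim
  · exact Or.inl h
  · exact Or.inr h

theorem DD_ix (hT : HT T) (x : T) (hx : x ∉ DD hT) (y : T) (hy : y ∉ DD hT) : x * y ∈ DD hT := by
  rcases not_DD hT x hx with h1 | h1 <;> rcases not_DD hT y hy with h2 | h2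
  · left; simpa using as_as one_sq h1 h2
  · right; simpa using as_as one_sq h1 h2
  · right; simpa using as_as neg_one_sq h1 h2
  · left; simpa using as_as neg_one_sq h1 h2

theorem DD_ab (hT : HT T) (x : T) (hx : x ∈ DD hT) (y : T) (hy : y ∈ DD hT) : x * y = y * x := by
  apply Subtype.ext
  show x.1 * y.1 = y.1 * x.1
  rcases hx with h1 | h1 <;> rcases hy with h2 | h2 <;> exact ds_comm h1 h2

theorem not_QQ (hT : HT T) (x : T) (hx : x ∉ QQ hT) : IsDs x.1 (-1) ∨ IsAs x.1 1 := by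
  rcases T_cases hT x with h | h | h | h
  · exact (hx (Or.inl h)).elim
  · exact Or.inl h
  · exact Or.inr h
  · exact (hx (Or.inr h)).elim

theorem QQ_ix (hT : HT T) (x : T) (hx : x ∉ QQ hT) (y : T) (hy : y ∉ QQ hT) : x * y ∈ QQ hT := by
  rcases not_QQ hT x hx with h1 | h1 <;> rcases not_QQ hT y hy with h2 | h2
  · left; simpa using ds_ds h1 h2
  · right; simpa using ds_as neg_one_sq h1 h2
  · right; simpa using as_ds h1 h2
  · left; simpa using as_as one_sq h1 h2


theorem fix_of_exists_b (hT : HT T) (β : MulAut T) (n : ℕ) (hn : Odd n) (hβ : β ^ n = 1) (m : ℕ) (hq : q = 2 ^ m + 1)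
    (b i : ZMod q) (hb : b ≠ 0) (hb4 : b * b * (b * b) ≠ 1) (hi : i * i = -1) (h2 : (1 : ZMod q) ≠ -1) : ∀ x, β x = x := by
  -- the diagonal subgroup is characteristic
  have hi0 : i ≠ 0 := by
    rintro rfl
    simp at hi
  let y : T := ⟨dg b 1 hb one_sq, (hT _).2 ⟨b, 1, hb, Or.inl rfl, Or.inl fun v => rfl⟩⟩
  let t : T := ⟨dg i 1 hi0 one_sq, (hT _).2 ⟨i, 1, hi0, Or.inl rfl, Or.inl fun v => rfl⟩⟩
  let z : T := ⟨dg (-1) 1 (by simp) one_sq, (hT _).2 ⟨-1, 1, by simp, Or.inl rfl, Or.inl fun v => rfl⟩⟩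
  have hsq : ∀ s : T, s ^ 2 ∈ DD hT := by
    intro s
    by_cases hs : s ∈ DD hT
    · exact (DD hT).pow_mem hs 2
    · rw [pow_two]
      exact DD_ix hT s hs s hs
  have hchar : ∀ x : T, x ∈ DD hT ↔ ∀ s : T, x * s ^ 2 = s ^ 2 * x := by
    intro x
    constructor
    · intro hx s
      exact DD_ab hT x hx _ (hsq s)
    · intro h
      by_contra hx
      have h1 : x * (y * y) = y * y * x := by
        have := h y
        rwa [pow_two] at this
      obtain ⟨σ, a, ha, hxa⟩ : ∃ σ a : ZMod q, a ≠ 0 ∧ ∀ v, x.1 v = ![σ * a⁻¹ * v 1, a * v 0] := by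
        rcases not_DD hT x hx with ⟨a, ha, h⟩ | ⟨a, ha, h⟩
        · exact ⟨1, a, ha, h⟩
        · exact ⟨-1, a, ha, h⟩
      have hy : ∀ v, y.1 v = ![b * v 0, 1 * b⁻¹ * v 1] := fun v => rfl
      have h3 : x.1 (y.1 (y.1 ![1, 0])) = y.1 (y.1 (x.1 ![1, 0])) := congrArg (fun s : T => s.1 ![1, 0]) h1
      have h4 := congrFun h3 1
      simp [hy, hxa] at h4
      apply hb4
      field_simp at h4
      linear_combination h4
  have hinv : ∀ x ∈ DD hT, β x ∈ DD hT := by
    intro x hx
    rw [hchar] at hx ⊢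
    intro s
    have h1 := congrArg β (hx (β.symm s))
    simpa using h1
  have hy : ∀ v, z.1 v = ![-1 * v 0, 1 * (-1)⁻¹ * v 1] := fun v => rfl
  have hz1 : z ≠ 1 := by
    intro h
    have h3 : z.1 ![1, 0] = ![1, 0] := by rw [h]; rfl
    rw [hy] at h3
    have h4 := congrFun h3 0
    simp at h4
    exact h2 h4.symm
  have htt : t * t = z := by
    apply Subtype.ext
    apply LinearEquiv.ext
    intro v
    show t.1 (t.1 v) = z.1 v
    have ht : ∀ v, t.1 v = ![i * v 0, 1 * i⁻¹ * v 1] := fun v => rfl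
    rw [ht, ht, hy]
    ext j
    fin_cases j
    · simp
      linear_combination (v 0) * hi
    · simp
      have hii : i⁻¹ * i⁻¹ = -1 := by rw [← mul_inv, hi, inv_neg_one]
      linear_combination (v 1) * hii
  have ht : t ∈ DD hT := Or.inl ⟨i, hi0, fun v => rfl⟩
  have hsqform : ∀ w ∈ DD hT, ∃ c : ZMod q, c ≠ 0 ∧ ∀ v, (w * w).1 v = ![c * v 0, c⁻¹ * v 1] := by
    intro w hw
    obtain ⟨σ, hσ, a, ha, h⟩ : ∃ σ : ZMod q, σ * σ = 1 ∧ IsDs w.1 σ := by
      rcases hw with hw | hw
      · exact ⟨1, one_sq, hw⟩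
      · exact ⟨-1, neg_one_sq, hw⟩
    refine ⟨a * a, mul_ne_zero ha ha, fun v => ?_⟩
    show w.1 (w.1 v) = _
    rw [h, h]
    ext j
    fin_cases j
    · simp
      ring
    · simp
      field_simp
      linear_combination (v 1) * hσ
  have h1eq : ∀ x : T, (∀ v, x.1 v = v) → x = 1 := by
    intro x h
    apply Subtype.ext
    apply LinearEquiv.ext
    exact h
  have hzeq : ∀ x : T, (∀ v, x.1 v = ![-v 0, -v 1]) → x = z := by
    intro x h
    apply Subtype.ext
    apply LinearEquiv.ext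
    intro v
    rw [h, hy]
    ext j
    fin_cases j <;> simp
  have hbz : β z = z := by
    have h3 : β z = β t * β t := by rw [← map_mul, htt]
    obtain ⟨c, hc, hcv⟩ := hsqform _ (hinv t ht)
    have hz2 : z * z = 1 := by
      apply h1eq
      intro v
      show z.1 (z.1 v) = v
      rw [hy, hy]
      ext j
      fin_cases j <;> simp
    have h4 : β z * β z = 1 := by rw [← map_mul, hz2, map_one]
    have h5 : c * c = 1 := by
      rw [h3] at h4
      have h6 : ((β t * β t) * (β t * β t)).1 ![1, 0] = ![1, 0] := by rw [h4]; rfl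
      have h7 : (β t * β t).1 ((β t * β t).1 ![1, 0]) = ![1, 0] := h6
      rw [hcv, hcv] at h7
      have h8 := congrFun h7 0
      simpa using h8
    have h6 : c = 1 ∨ c = -1 := mul_self_eq_one_iff.1 h5
    rcases h6 with rfl | rfl
    · exfalso
      apply hz1
      apply β.injective
      rw [map_one, h3]
      apply h1eq
      intro v
      rw [hcv]
      ext j
      fin_cases j <;> simp
    · rw [h3]
      apply hzeq
      intro v
      rw [hcv]
      ext j
      fin_cases j <;> simp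
  have hinvform : ∀ x ∈ DD hT, x ^ 2 = 1 → x = 1 ∨ x = z ∨ (∀ v, x.1 v = ![v 0, - v 1]) ∨ (∀ v, x.1 v = ![- v 0, v 1]) := by
    intro x hx hx2
    obtain ⟨σ, hσ, a, ha, h⟩ : ∃ σ : ZMod q, σ * σ = 1 ∧ IsDs x.1 σ := by
      rcases hx with hw | hw
      · exact ⟨1, one_sq, hw⟩
      · exact ⟨-1, neg_one_sq, hw⟩
    have h3 : x.1 (x.1 ![1, 1]) = ![1, 1] := by
      have : (x * x).1 ![1, 1] = ![1, 1] := by
        rw [← pow_two, hx2]
        rfl
      exact this
    obtain ⟨A, B, hAB⟩ : ∃ A B : ZMod q, ∀ v, x.1 v = ![A * v 0, B * v 1] := ⟨a, σ * a⁻¹, h⟩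
    rw [hAB, hAB] at h3
    have h4 := congrFun h3 0
    have h5 := congrFun h3 1
    simp at h4 h5
    have h6 : A * A = 1 := by simpa using h4
    have h7 : B * B = 1 := by simpa using h5
    have h8 : A = 1 ∨ A = -1 := mul_self_eq_one_iff.1 h6
    have h9 : B = 1 ∨ B = -1 := mul_self_eq_one_iff.1 h7
    rcases h8 with h8 | h8 <;> rcases h9 with h9 | h9
    · left
      apply h1eq
      intro v
      rw [hAB, h8, h9]
      ext j
      fin_cases j <;> simp
    · right; right; left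
      intro v
      rw [hAB, h8, h9]
      ext j
      fin_cases j <;> simp
    · right; right; right
      intro v
      rw [hAB, h8, h9]
      ext j
      fin_cases j <;> simp
    · right; left
      apply hzeq
      intro v
      rw [hAB, h8, h9]
      ext j
      fin_cases j <;> simp
  have hfix : ∀ x ∈ DD hT, x ^ 2 = 1 → β x = x := by
    intro x hx hx2
    have hbx : β x ∈ DD hT := hinv x hx
    have hbx2 : (β x) ^ 2 = 1 := by rw [← map_pow, hx2, map_one]
    have hone : ∀ v : VV q, (1 : T).1 v = v := fun v => rfl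
    rcases hinvform x hx hx2 with h | h | h | h
    · rw [h, map_one]
    · rw [h]
      exact hbz
    · rcases hinvform _ hbx hbx2 with h' | h' | h' | h'
      · exfalso
        have h3 : x = 1 := β.injective (by rw [h', map_one])
        rw [h3] at h
        have h4 := congrFun (h ![0, 1]) 1
        simp at h4
        exact h2 h4
      · exfalso
        have h3 : x = z := β.injective (by rw [h', hbz])
        rw [h3] at h
        have h4 := congrFun (h ![1, 0]) 0
        rw [hy] at h4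
        simp at h4
        exact h2 h4.symm
      · apply Subtype.ext
        apply LinearEquiv.ext
        intro v
        rw [h', h]
      · have hb : β x = x * z := by
          apply Subtype.ext
          apply LinearEquiv.ext
          intro v
          show (β x).1 v = x.1 (z.1 v)
          rw [h', h, hy]
          ext j
          fin_cases j <;> simp
        exact (hz1 (eq_one_of_iter β n hn hβ x z hb hbz (m + 1) (hE_T hT m hq z))).elim
    · rcases hinvform _ hbx hbx2 with h' | h' | h' | h'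
      · exfalso
        have h3 : x = 1 := β.injective (by rw [h', map_one])
        rw [h3] at h
        have h4 := congrFun (h ![1, 0]) 0
        simp at h4
        exact h2 h4
      · exfalso
        have h3 : x = z := β.injective (by rw [h', hbz])
        rw [h3] at h
        have h4 := congrFun (h ![0, 1]) 1
        rw [hy] at h4
        simp at h4
        exact h2 h4.symm
      · have hb : β x = x * z := by
          apply Subtype.ext
          apply LinearEquiv.ext
          intro v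
          show (β x).1 v = x.1 (z.1 v)
          rw [h', h, hy]
          ext j
          fin_cases j <;> simp
        exact (hz1 (eq_one_of_iter β n hn hβ x z hb hbz (m + 1) (hE_T hT m hq z))).elim
      · apply Subtype.ext
        apply LinearEquiv.ext
        intro v
        rw [h', h]
  exact main_abs (DD hT) β n hn hβ (m + 1) (hE_T hT m hq) (DD_ab hT) (DD_ix hT) hinv hfix

theorem fix_large (hT : HT T) (β : MulAut T) (n : ℕ) (hn : Odd n) (hβ : β ^ n = 1) (m : ℕ) (hq : q = 2 ^ (m + 3) + 1) : ∀ x, β x = x := by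
  have hcyc : IsCyclic (ZMod q)ˣ := inferInstance
  obtain ⟨g, hg⟩ := IsCyclic.exists_ofOrder_eq_natCard (α := (ZMod q)ˣ)
  have hcard : Nat.card (ZMod q)ˣ = 2 ^ (m + 3) := by
    rw [Nat.card_eq_fintype_card, ZMod.card_units q]
    exact Nat.sub_eq_of_eq_add hq
  rw [hcard] at hg
  have h2 : (1 : ZMod q) ≠ -1 := by
    intro h
    have h3 : ((2 : ℕ) : ZMod q) = 0 := by
      push_cast
      linear_combination h
    rw [ZMod.natCast_eq_zero_iff] at h3
    have h4 := Nat.le_of_dvd (by norm_num) h3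
    have h6 : 2 ^ (m + 3) = 8 * 2 ^ m := by ring
    have h7 : 1 ≤ 2 ^ m := Nat.one_le_two_pow
    rw [h6] at hq
    omega
  have hne : ∀ e, e < m + 3 → g ^ (2 ^ e) ≠ 1 := by
    intro e he h
    have h3 := orderOf_dvd_of_pow_eq_one h
    rw [hg] at h3
    have := (Nat.pow_dvd_pow_iff_le_right (by norm_num : 1 < 2)).1 h3
    omega
  have hg1 : g ^ (2 ^ (m + 3)) = 1 := by
    rw [← hg, pow_orderOf_eq_one]
  let b : ZMod q := (g : ZMod q)
  let i : ZMod q := ((g ^ (2 ^ (m + 1)) : (ZMod q)ˣ) : ZMod q)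
  have hb : b ≠ 0 := g.ne_zero
  have hb4 : b * b * (b * b) ≠ 1 := by
    intro h
    have h3 : g ^ 4 = 1 := by
      apply Units.ext
      push_cast
      linear_combination h
    have h4 := orderOf_dvd_of_pow_eq_one h3
    rw [hg] at h4
    have h5 := Nat.le_of_dvd (by norm_num) h4
    have h6 : 2 ^ (m + 3) = 8 * 2 ^ m := by ring
    have h7 : 1 ≤ 2 ^ m := Nat.one_le_two_pow
    omega
  have hi : i * i = -1 := by
    have h3 : (g ^ (2 ^ (m + 1))) * (g ^ (2 ^ (m + 1))) = g ^ (2 ^ (m + 2)) := by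
      rw [← pow_add]
      congr 1
      ring
    have h4 : (g ^ (2 ^ (m + 2))) * (g ^ (2 ^ (m + 2))) = 1 := by
      rw [← pow_add, ← hg1]
      congr 1
      ring
    have h5 : ((g ^ (2 ^ (m + 2)) : (ZMod q)ˣ) : ZMod q) * ((g ^ (2 ^ (m + 2)) : (ZMod q)ˣ) : ZMod q) = 1 := by
      rw [← Units.val_mul, h4]
      rfl
    have h6 := mul_self_eq_one_iff.1 h5
    have h7 : i * i = ((g ^ (2 ^ (m + 2)) : (ZMod q)ˣ) : ZMod q) := by
      show ((g ^ (2 ^ (m + 1)) : (ZMod q)ˣ) : ZMod q) * ((g ^ (2 ^ (m + 1)) : (ZMod q)ˣ) : ZMod q) = _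
      rw [← Units.val_mul, h3]
    rw [h7]
    rcases h6 with h6 | h6
    · exfalso
      apply hne (m + 2) (by omega)
      apply Units.ext
      rw [h6]
      rfl
    · exact h6
  exact fix_of_exists_b hT β n hn hβ (m + 3) hq b i hb hb4 hi h2

end conc

theorem fix_two {T : Subgroup (VV 2 ≃ₗ[ZMod 2] VV 2)} (hT : HT T) (β : MulAut T) (n : ℕ) (hn : Odd n) (hβ : β ^ n = 1) : ∀ x, β x = x := by
  have hone : ∀ x ∈ DD hT, x = 1 := by
    intro x hx
    have h1 : ∀ a : ZMod 2, a ≠ 0 → a = 1 := by decide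
    have h2 : (-1 : ZMod 2) = 1 := by decide
    have hx' : IsDs x.1 1 := by
      rcases hx with hx | hx
      · exact hx
      · rwa [h2] at hx
    obtain ⟨a, ha, h⟩ := hx'
    rw [h1 a ha] at h
    apply Subtype.ext
    apply LinearEquiv.ext
    intro v
    rw [h]
    ext j
    fin_cases j <;> simp
  apply main_abs (DD hT) β n hn hβ (0 + 1) (hE_T hT 0 (by norm_num)) (DD_ab hT) (DD_ix hT)
  · intro x hx
    rw [hone x hx, map_one]
    exact (DD hT).one_mem
  · intro x hx _
    rw [hone x hx, map_one]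

theorem fix_three {T : Subgroup (VV 3 ≃ₗ[ZMod 3] VV 3)} (hT : HT T) (β : MulAut T) (n : ℕ) (hn : Odd n) (hβ : β ^ n = 1) : ∀ x, β x = x := by
  have h1 : ∀ a : ZMod 3, a ≠ 0 → a = 1 ∨ a = -1 := by decide
  have h2 : (1 : ZMod 3) ≠ -1 := by decide
  have h3 : (-1 : ZMod 3) ≠ 0 := by decide
  have hinv1 : ∀ a : ZMod 3, a ≠ 0 → a⁻¹ = a := by
    intro a ha
    rcases h1 a ha with rfl | rfl <;> simp
  let z : T := ⟨dg (-1) 1 h3 one_sq, (hT _).2 ⟨-1, 1, h3, Or.inl rfl, Or.inl fun v => rfl⟩⟩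
  let f : T := ⟨ag 1 (-1) one_ne_zero neg_one_sq, (hT _).2 ⟨1, -1, one_ne_zero, Or.inr rfl, Or.inr fun v => rfl⟩⟩
  have hz : ∀ v, z.1 v = ![-v 0, -v 1] := by
    intro v
    show ![(-1) * v 0, 1 * (-1)⁻¹ * v 1] = _
    ext j
    fin_cases j <;> simp
  have hz1 : z ≠ 1 := by
    intro h
    have h4 : z.1 ![1, 0] = ![1, 0] := by rw [h]; rfl
    rw [hz] at h4
    have h5 := congrFun h4 0
    simp at h5
    exact h2 h5.symm
  have heq1 : ∀ x : T, (∀ v, x.1 v = v) → x = 1 := fun x h => Subtype.ext (LinearEquiv.ext h)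
  have heqz : ∀ x : T, (∀ v, x.1 v = ![-v 0, -v 1]) → x = z := fun x h => Subtype.ext (LinearEquiv.ext fun v => by rw [h, hz])
  -- squares
  have hsq : ∀ y : T, y * y = 1 ∨ (y * y = z ∧ y ∈ QQ hT) := by
    intro y
    have hds : ∀ σ : ZMod 3, σ * σ = 1 → IsDs y.1 σ → y * y = 1 := by
      rintro σ hσ ⟨a, ha, h⟩
      apply heq1
      intro v
      show y.1 (y.1 v) = v
      rw [h, h, hinv1 a ha]
      have h4 : a * a = 1 := mul_self_eq_one_iff.2 (h1 a ha)
      ext j
      fin_cases j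
      · simp
        linear_combination (v 0) * h4
      · simp
        linear_combination (v 1) * (a * a) * hσ + (v 1) * h4
    rcases T_cases hT y with h | h | h | h
    · exact Or.inl (hds 1 one_sq h)
    · exact Or.inl (hds (-1) neg_one_sq h)
    · left
      obtain ⟨a, ha, h⟩ := h
      apply heq1
      intro v
      show y.1 (y.1 v) = v
      rw [h, h]
      ext j
      fin_cases j <;> simp [ha]
    · right
      refine ⟨?_, Or.inr h⟩
      obtain ⟨a, ha, h⟩ := h
      apply heqz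
      intro v
      show y.1 (y.1 v) = _
      rw [h, h]
      ext j
      fin_cases j <;> simp [ha]
  have hz' : IsDs z.1 1 := ⟨-1, h3, fun v => rfl⟩
  have hf' : f * f = z := by
    rcases hsq f with h | h
    · exfalso
      have h4 : (f * f).1 ![1, 0] = ![1, 0] := by rw [h]; rfl
      have h5 : f.1 (f.1 ![1, 0]) = ![1, 0] := h4
      have hf : ∀ v, f.1 v = ![(-1) * 1⁻¹ * v 1, 1 * v 0] := fun v => rfl
      rw [hf, hf] at h5
      have h6 := congrFun h5 0
      simp at h6
      exact h2 h6.symm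
    · exact h.1
  have hbz : β z = z := by
    rw [← hf', map_mul, hf']
    rcases hsq (β f) with h | h
    · exfalso
      apply hz1
      apply β.injective
      rw [map_one, ← hf', map_mul, h]
    · exact h.1
  have htri : ∀ x ∈ QQ hT, x = 1 ∨ x = z ∨ x * x = z := by
    intro x hx
    rcases hx with ⟨a, ha, h⟩ | hx
    · rcases h1 a ha with rfl | rfl
      · left
        apply heq1
        intro v
        rw [h]
        ext j
        fin_cases j <;> simp
      · right; left
        apply heqz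
        intro v
        rw [h]
        ext j
        fin_cases j <;> simp
    · right; right
      rcases hsq x with h | h
      · exfalso
        obtain ⟨a, ha, h'⟩ := hx
        have h4 : (x * x).1 ![1, 0] = ![1, 0] := by rw [h]; rfl
        have h5 : x.1 (x.1 ![1, 0]) = ![1, 0] := h4
        rw [h', h'] at h5
        have h6 := congrFun h5 0
        simp [ha] at h6
        exact h2 h6.symm
      · exact h.1
  have hinv : ∀ x ∈ QQ hT, β x ∈ QQ hT := by
    intro x hx
    rcases htri x hx with rfl | rfl | h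
    · rw [map_one]
      exact (QQ hT).one_mem
    · rw [hbz]
      exact Or.inl hz'
    · have h4 : β x * β x = z := by rw [← map_mul, h, hbz]
      rcases hsq (β x) with h5 | h5
      · exact (hz1 (h4.symm.trans h5)).elim
      · exact h5.2
  have hfix : ∀ x ∈ QQ hT, x ^ 2 = 1 → β x = x := by
    intro x hx hx2
    rw [pow_two] at hx2
    rcases htri x hx with rfl | rfl | h
    · rw [map_one]
    · exact hbz
    · exact (hz1 (h.symm.trans hx2)).elim
  have hab : ∀ x ∈ QQ hT, ∀ y ∈ QQ hT, x * y = y * x := by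
    intro x hx y hy
    apply Subtype.ext
    show x.1 * y.1 = y.1 * x.1
    apply LinearEquiv.ext
    intro v
    rw [LinearEquiv.mul_apply, LinearEquiv.mul_apply]
    rcases hx with ⟨a, ha, hx⟩ | ⟨a, ha, hx⟩ <;> rcases hy with ⟨b, hb, hy⟩ | ⟨b, hb, hy⟩ <;>
      rw [hx, hy, hx, hy, hinv1 a ha, hinv1 b hb] <;> ext j <;> fin_cases j <;> simp <;> ring
  exact main_abs (QQ hT) β n hn hβ (1 + 1) (hE_T hT 1 (by norm_num)) hab (QQ_ix hT) hinv hfix

theorem fix_all (q m : ℕ) [Fact q.Prime] (hq : q = 2 ^ m + 1) (hq5 : q ≠ 5)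
    {T : Subgroup (VV q ≃ₗ[ZMod q] VV q)} (hT : HT T) (β : MulAut T) (n : ℕ) (hn : Odd n) (hβ : β ^ n = 1) :
    ∀ x, β x = x := by
  match m, hq with
  | 0, hq =>
    obtain rfl : q = 2 := by simpa using hq
    exact fix_two hT β n hn hβ
  | 1, hq =>
    obtain rfl : q = 3 := by simpa using hq
    exact fix_three hT β n hn hβ
  | 2, hq => exact absurd (by simpa using hq) hq5
  | (m + 3), hq => exact fix_large hT β n hn hβ m hq


/-- Let q = 2^m + 1 be a prime other than 5. Then the automorphism group of the group of linear maps of F_q² of the forms (x, y) ↦ (a x, ± a⁻¹ y) and (x, y) ↦ (± a⁻¹ y, a x) with a ≠ 0 is itself a 2-group. -/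
theorem result (q m : ℕ) [Fact q.Prime] (hq : q = 2 ^ m + 1) (hq5 : q ≠ 5)
    (T : Subgroup ((Fin 2 → ZMod q) ≃ₗ[ZMod q] (Fin 2 → ZMod q)))
    (hT : ∀ f, f ∈ T ↔ ∃ a s : ZMod q, a ≠ 0 ∧ (s = 1 ∨ s = -1) ∧
      ((∀ v, f v = ![a * v 0, s * a⁻¹ * v 1]) ∨ (∀ v, f v = ![s * a⁻¹ * v 1, a * v 0]))) :
    IsPGroup 2 (MulAut T) := by
  classical
  have : Finite (VV q ≃ₗ[ZMod q] VV q) := Finite.of_injective (fun f => (f : VV q → VV q)) (fun f g h => LinearEquiv.ext (congrFun h))
  intro g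
  have hpos : 0 < orderOf g := orderOf_pos g
  obtain ⟨e, n, hn, hord⟩ := Nat.exists_eq_two_pow_mul_odd hpos.ne'
  refine ⟨e, ?_⟩
  have hβ : (g ^ (2 ^ e)) ^ n = 1 := by
    rw [← pow_mul, ← hord, pow_orderOf_eq_one]
  have h := fix_all q m hq hq5 (T := T) hT (g ^ (2 ^ e)) n hn hβ
  exact MulEquiv.ext h

end Cfsg.Agent.S3382
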