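import Cfsg.Statements.S3383


set_option autoImplicit false
open Cfsg

namespace Cfsg.Agent.S3383

open scoped Pointwise

/-- Let H be a Frobenius complement in a finite group L and K the Frobenius kernel (as a subgroup). Then K is characteristic in L, and every normal subgroup of L either contains K or is contained in K. -/
theorem result {L : Type*} [Group L] [Finite L]
    (H : Subgroup L) (hH : Cfsg.IsFrobeniusComplement H)
    (K : Subgroup L) (hK : (K : Set L) = Cfsg.frobeniusKernel H) :
    K.Characteristic ∧ ∀ N : Subgroup L, N.Normal → K ≤ N ∨ N ≤ K := by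
  classical
  have hker : ∀ x : L, x ∈ K ↔ x = 1 ∨ ∀ g : L, g⁻¹ * x * g ∉ H := by
    intro x
    have h1 : x ∈ K ↔ x ∈ frobeniusKernel H := by
      rw [← hK]; rfl
    rw [h1]
    have h2 : ∀ g : L, x ∈ MulAut.conj g • H ↔ g⁻¹ * x * g ∈ H := by
      intro g
      rw [Subgroup.mem_pointwise_smul_iff_inv_smul_mem]
      simp [MulAut.smul_def]
    simp only [frobeniusKernel, Set.mem_ofPred_eq, h2]
  have hKnorm : K.Normal := by
    constructor
    intro x hx h
    rw [hker] at hx ⊢
    rcases hx with rfl | hx
    · left; simp
    · right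
      intro g
      have := hx (h⁻¹ * g)
      simpa [mul_assoc] using this
  have hmain : ∀ N : Subgroup L, N.Normal → K ≤ N ∨ N ≤ K := by
    intro N hN
    by_cases hNK : N ≤ K
    · exact Or.inr hNK
    · left
      rw [SetLike.not_le_iff_exists] at hNK
      obtain ⟨y, hyN, hyK⟩ := hNK
      rw [hker] at hyK
      push Not at hyK
      obtain ⟨hy1, g, hg⟩ := hyK
      set x := g⁻¹ * y * g with hx
      have hxN : x ∈ N := by
        have := hN.conj_mem y hyN g⁻¹
        simpa [hx] using this
      have hx1 : x ≠ 1 := by
        intro h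
        apply hy1
        have h2 : y = g * x * g⁻¹ := by rw [hx]; group
        rw [h2, h]
        group
      have hfK : ∀ k ∈ K, k⁻¹ * x * k * x⁻¹ ∈ K := by
        intro k hk
        have h3 := hKnorm.conj_mem k hk x
        have : k⁻¹ * x * k * x⁻¹ = k⁻¹ * (x * k * x⁻¹) := by group
        rw [this]
        exact K.mul_mem (K.inv_mem hk) h3
      have hfN : ∀ k : L, k⁻¹ * x * k * x⁻¹ ∈ N := by
        intro k
        have h3 := hN.conj_mem x hxN k⁻¹
        rw [inv_inv] at h3
        exact N.mul_mem h3 (N.inv_mem hxN)
      let f : K → K := fun k => ⟨k⁻¹ * x * k * x⁻¹, hfK k k.2⟩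
      have hf : Function.Injective f := by
        intro k l hkl
        have h3 : (k : L)⁻¹ * x * k * x⁻¹ = (l : L)⁻¹ * x * l * x⁻¹ := congrArg Subtype.val hkl
        have h4 : (k : L)⁻¹ * x * k = (l : L)⁻¹ * x * l := mul_right_cancel h3
        set z : L := l * (k : L)⁻¹ with hz
        have hzK : z ∈ K := K.mul_mem l.2 (K.inv_mem k.2)
        have h5 : z * x * z⁻¹ = x := by
          rw [hz]
          calc (l : L) * (k : L)⁻¹ * x * (l * (k : L)⁻¹)⁻¹ = l * ((k : L)⁻¹ * x * k) * (l : L)⁻¹ := by group
            _ = l * ((l : L)⁻¹ * x * l) * (l : L)⁻¹ := by rw [h4]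
            _ = x := by group
        by_cases hz1 : z = 1
        · apply Subtype.ext
          have h6 : (l : L) = k := by
            rw [hz] at hz1
            exact (mul_inv_eq_one.mp hz1)
          exact h6.symm
        · exfalso
          have hzH : z ∉ H := by
            rw [hker] at hzK
            rcases hzK with h | h
            · exact absurd h hz1
            · have := h 1
              simpa using this
          have h7 := hH.2.2 z hzH
          have h8 : x ∈ H ⊓ (MulAut.conj z • H) := by
            refine Subgroup.mem_inf.2 ⟨hg, ?_⟩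
            rw [Subgroup.mem_pointwise_smul_iff_inv_smul_mem]
            have h9 : z⁻¹ * x * z = x := by
              calc z⁻¹ * x * z = z⁻¹ * (z * x * z⁻¹) * z := by rw [h5]
                _ = x := by group
            simp only [MulAut.smul_def, map_inv, MulAut.conj_inv_apply, h9]
            exact hg
          rw [h7] at h8
          exact hx1 (Subgroup.mem_bot.1 h8)
      have hs := Finite.surjective_of_injective hf
      intro k hk
      obtain ⟨k', hk'⟩ := hs ⟨k, hk⟩
      have h10 : (k' : L)⁻¹ * x * k' * x⁻¹ = k := congrArg Subtype.val hk'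
      rw [← h10]
      exact hfN k'
  refine ⟨?_, hmain⟩
  rw [Subgroup.characteristic_iff_map_eq]
  intro φ
  have hmapn : (K.map φ.toMonoidHom).Normal := Subgroup.Normal.map hKnorm _ φ.surjective
  have hcard : Nat.card (K.map φ.toMonoidHom) = Nat.card K :=
    Subgroup.card_map_of_injective φ.injective
  rcases hmain _ hmapn with h | h
  · exact (Subgroup.eq_of_le_of_card_ge h hcard.le).symm
  · exact Subgroup.eq_of_le_of_card_ge h hcard.ge

end Cfsg.Agent.S3383
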