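import Cfsg.Statements.S3419
import Cfsg.Agent.Lib.H16.AltSpec

set_option autoImplicit false
open Cfsg

namespace Cfsg.Agent.S3419
theorem no_order {G : Type*} [Group G] (n : ℕ)
    (hspec : Set.range (orderOf : G → ℕ) = Set.range (orderOf : ↥(alternatingGroup (Fin n)) → ℕ))
    {p q : ℕ} (hp : p.Prime) (hq : q.Prime) (hpq : p ≠ q) (hn : n < p + q) :
    ∀ x : G, orderOf x ≠ p * q := by
  intro x hx
  have : orderOf x ∈ Set.range (orderOf : ↥(alternatingGroup (Fin n)) → ℕ) := by
    rw [← hspec]
    exact ⟨x, rfl⟩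
  obtain ⟨σ, hσ⟩ := this
  have := H16.alt_order_mul_le σ hp hq hpq (hσ.trans hx)
  omega

theorem solv_core {G : Type*} [Group G] [Finite G] [Group.IsSolvable G] {p q a b k : ℕ} (hp : p.Prime)
    (hq : q.Prime) (hpq : p ≠ q) (ha : 1 ≤ a) (hb : 1 ≤ b)
    (hcard : Nat.card G = (p ^ a * q ^ b) * k) (hcop : Nat.Coprime (p ^ a * q ^ b) k)
    (h1 : ∀ i, 1 ≤ i → i ≤ b → ¬ q ^ i ≡ 1 [MOD p])
    (h2 : ∀ j, 1 ≤ j → j ≤ a → ¬ p ^ j ≡ 1 [MOD q]) : ∃ g : G, orderOf g = p * q := by
  obtain ⟨H, hH, -⟩ := H01.hall_containment _ G rfl _ _ hcard hcop ⊥ (by simp)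
  obtain ⟨x, hx⟩ := H16.exists_order_mul_of_sylow hp hq hpq ha hb hH h1 h2
  exact ⟨x, by rw [← Subgroup.orderOf_coe] at hx; exact hx⟩

/-- Let n ≥ 5 and let G be a finite group with the same order and the same set of element orders as the alternating group of degree n. Then G is not solvable. -/
theorem result {G : Type*} [Group G] [Finite G] (n : ℕ) (hn : 5 ≤ n)
    (hcard : Nat.card G = Nat.card ↥(alternatingGroup (Fin n)))
    (hspec : Set.range (orderOf : G → ℕ) = Set.range (orderOf : ↥(alternatingGroup (Fin n)) → ℕ)) :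
    ¬ Group.IsSolvable G := by
  intro hsolv
  have hne : ∀ {p q : ℕ}, p.Prime → q.Prime → p ≠ q → n < p + q → ∀ x : G, orderOf x ≠ p * q :=
    fun hp hq hpq hn' => no_order n hspec hp hq hpq hn'
  have h2 := H16.card_alt_facts n hn hcard
  by_cases h11 : 11 ≤ n
  · obtain ⟨p, q, hp, hq, hqp, hpn, hnq, hq2⟩ := H16.two_primes_half n h11
    have hpq : p ≠ q := hqp.ne'
    have hq3 : 3 ≤ q := hq2
    have hp3 : 3 ≤ p := by omega
    have hqn : q ≤ n := by omega
    have hdp := H16.prime_dvd_card_of_alt h2 hp hp3 hpn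
    have hdq := H16.prime_dvd_card_of_alt h2 hq hq3 hqn
    have hdp2 := H16.prime_sq_not_dvd_card_of_alt h2 hp hp3 hpn (by omega)
    have hdq2 := H16.prime_sq_not_dvd_card_of_alt h2 hq hq3 hqn (by omega)
    have hcopp : Nat.Coprime p q := (Nat.coprime_primes hp hq).2 hpq
    obtain ⟨k, hk⟩ : p * q ∣ Nat.card G := hcopp.mul_dvd_of_dvd_of_dvd hdp hdq
    have hck1 : Nat.Coprime p k := by
      rw [Nat.Prime.coprime_iff_not_dvd hp]
      rintro ⟨l, rfl⟩
      apply hdp2
      rw [hk]
      exact ⟨q * l, by ring⟩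
    have hck2 : Nat.Coprime q k := by
      rw [Nat.Prime.coprime_iff_not_dvd hq]
      rintro ⟨l, rfl⟩
      apply hdq2
      rw [hk]
      exact ⟨p * l, by ring⟩
    obtain ⟨g, hg⟩ := solv_core (G := G) hp hq hpq (a := 1) (b := 1) (k := k) le_rfl le_rfl
      (by simp only [pow_one]; exact hk) (by simp only [pow_one]; exact Nat.Coprime.mul_left hck1 hck2)
      (by
        intro i hi1 hi2
        have hi : i = 1 := by omega
        subst hi
        rw [pow_one, Nat.ModEq, Nat.mod_eq_of_lt hqp, Nat.mod_eq_of_lt hp.one_lt]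
        omega)
      (by
        intro j hj1 hj2
        have hj : j = 1 := by omega
        subst hj
        rw [pow_one]
        intro hm
        have := (Nat.modEq_iff_dvd' hp.one_lt.le).1 hm.symm
        exact H16.not_dvd_pred_of_lt hp hq hqp (by omega) hq2 this)
    exact hne hp hq hpq (by omega) g hg
  · have hcases : n = 5 ∨ n = 6 ∨ n = 7 ∨ n = 8 ∨ n = 9 ∨ n = 10 := by omega
    have p3 : Nat.Prime 3 := by norm_num
    have p5 : Nat.Prime 5 := by norm_num
    have p7 : Nat.Prime 7 := by norm_num
    rcases hcases with rfl | rfl | rfl | rfl | rfl | rfl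
    · obtain ⟨g, hg⟩ := solv_core (G := G) (a := 1) (b := 1) (k := 4) p5 p3 (by norm_num) le_rfl le_rfl
        (by norm_num [Nat.factorial] at h2 ⊢; omega) (by norm_num)
        (by intro i hi1 hi2; obtain rfl : i = 1 := by omega
            decide)
        (by intro i hi1 hi2; obtain rfl : i = 1 := by omega
            decide)
      exact hne p5 p3 (by norm_num) (by norm_num) g hg
    · obtain ⟨g, hg⟩ := solv_core (G := G) (a := 1) (b := 2) (k := 8) p5 p3 (by norm_num) le_rfl (by norm_num)
        (by norm_num [Nat.factorial] at h2 ⊢; omega) (by norm_num)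
        (by intro i hi1 hi2; obtain rfl | rfl : i = 1 ∨ i = 2 := by omega
            all_goals decide)
        (by intro i hi1 hi2; obtain rfl : i = 1 := by omega
            decide)
      exact hne p5 p3 (by norm_num) (by norm_num) g hg
    · obtain ⟨g, hg⟩ := solv_core (G := G) (a := 1) (b := 1) (k := 72) p7 p5 (by norm_num) le_rfl le_rfl
        (by norm_num [Nat.factorial] at h2 ⊢; omega) (by norm_num)
        (by intro i hi1 hi2; obtain rfl : i = 1 := by omega
            decide)
        (by intro i hi1 hi2; obtain rfl : i = 1 := by omega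
            decide)
      exact hne p7 p5 (by norm_num) (by norm_num) g hg
    · obtain ⟨g, hg⟩ := solv_core (G := G) (a := 1) (b := 1) (k := 576) p7 p5 (by norm_num) le_rfl le_rfl
        (by norm_num [Nat.factorial] at h2 ⊢; omega) (by norm_num)
        (by intro i hi1 hi2; obtain rfl : i = 1 := by omega
            decide)
        (by intro i hi1 hi2; obtain rfl : i = 1 := by omega
            decide)
      exact hne p7 p5 (by norm_num) (by norm_num) g hg
    · obtain ⟨g, hg⟩ := solv_core (G := G) (a := 1) (b := 1) (k := 5184) p7 p5 (by norm_num) le_rfl le_rfl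
        (by norm_num [Nat.factorial] at h2 ⊢; omega) (by norm_num)
        (by intro i hi1 hi2; obtain rfl : i = 1 := by omega
            decide)
        (by intro i hi1 hi2; obtain rfl : i = 1 := by omega
            decide)
      exact hne p7 p5 (by norm_num) (by norm_num) g hg
    · obtain ⟨g, hg⟩ := solv_core (G := G) (a := 1) (b := 2) (k := 10368) p7 p5 (by norm_num) le_rfl (by norm_num)
        (by norm_num [Nat.factorial] at h2 ⊢; omega) (by norm_num)
        (by intro i hi1 hi2; obtain rfl | rfl : i = 1 ∨ i = 2 := by omega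
            all_goals decide)
        (by intro i hi1 hi2; obtain rfl : i = 1 := by omega
            decide)
      exact hne p7 p5 (by norm_num) (by norm_num) g hg

end Cfsg.Agent.S3419
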