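import Cfsg.Statements.S3420
import Cfsg.Agent.Lib.H16.AltSpec

set_option autoImplicit false
open Cfsg

namespace Cfsg.Agent.S3420
theorem no_order {G : Type*} [Group G] (n : ℕ)
    (hspec : Set.range (orderOf : G → ℕ) = Set.range (orderOf : ↥(alternatingGroup (Fin n)) → ℕ))
    {p q : ℕ} (hp : p.Prime) (hq : q.Prime) (hpq : p ≠ q) (hn : n < p + q) :
    ∀ x : G, orderOf x ≠ p * q := by
  intro x hx
  have : orderOf x ∈ Set.range (orderOf : ↥(alternatingGroup (Fin n)) → ℕ) := by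
    rw [← hspec]
    exact ⟨x, rfl⟩
  obtain ⟨σ, hσ⟩ := this
  have := H16.alt_order_mul_le σ hp hq hpq (hσ.trans hx)
  omega

/-- The section isomorphism. -/
theorem section_equiv {G : Type*} [Group G] (N : Subgroup G) [N.Normal] (A : Subgroup (G ⧸ N)) :
    Nonempty (↥(A.comap (QuotientGroup.mk' N)) ⧸ N.subgroupOf (A.comap (QuotientGroup.mk' N)) ≃* ↥A) := by
  set H : Subgroup G := A.comap (QuotientGroup.mk' N) with hH
  let φ : ↥H →* ↥A :=
    { toFun := fun h => ⟨QuotientGroup.mk' N (h : G), h.2⟩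
      map_one' := by
        apply Subtype.ext
        simp
      map_mul' := by
        intro a b
        apply Subtype.ext
        simp }
  have hφs : Function.Surjective φ := by
    rintro ⟨a, ha⟩
    obtain ⟨g, rfl⟩ := QuotientGroup.mk'_surjective N a
    exact ⟨⟨g, ha⟩, rfl⟩
  have hker : φ.ker = N.subgroupOf H := by
    ext h
    rw [MonoidHom.mem_ker, Subgroup.mem_subgroupOf]
    constructor
    · intro hh
      have h1 : QuotientGroup.mk' N (h : G) = 1 := congrArg Subtype.val hh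
      exact (QuotientGroup.eq_one_iff _).1 h1
    · intro hh
      apply Subtype.ext
      exact (QuotientGroup.eq_one_iff _).2 hh
  haveI : (φ.ker).Normal := inferInstance
  exact ⟨(QuotientGroup.quotientMulEquivOfEq hker.symm).trans
    (QuotientGroup.quotientKerEquivOfSurjective φ hφs)⟩

/-- The abstract form. -/
theorem section_of_rho {G : Type*} [Group G] [Finite G] (ρ : ℕ → Prop) (hprime : ∀ p, ρ p → p.Prime)
    (h1 : ∀ p, ρ p → p ∣ Nat.card G) (h1' : ∀ p, ρ p → ¬ p ^ 2 ∣ Nat.card G)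
    (h2 : ∀ p q, ρ p → ρ q → p ≠ q → ∀ g : G, orderOf g ≠ p * q)
    (h3 : ∀ p q, ρ p → ρ q → p ≠ q → ¬ q ∣ p - 1) {p₀ q₀ : ℕ} (hp₀ : ρ p₀) (hq₀ : ρ q₀)
    (hpq₀ : p₀ ≠ q₀) :
    ∃ (N H : Subgroup G) (_ : N.Normal), H.Normal ∧ N < H ∧
      IsSimpleGroup (↥H ⧸ N.subgroupOf H) ∧ ¬ IsMulCommutative (↥H ⧸ N.subgroupOf H) ∧
      ∀ p : ℕ, ρ p → p ∣ Nat.card (↥H ⧸ N.subgroupOf H) := by
  -- Lemma X
  have hX : ∀ (K : Subgroup G), K.Normal → ∀ p q, ρ p → ρ q → p ∣ Nat.card K → q ∣ Nat.card K := by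
    intro K hK p q hp hq hpK
    by_cases hpq : p = q
    · exact hpq ▸ hpK
    by_contra hqK
    obtain ⟨g, hg⟩ := H16.exists_order_mul_of_normal (hprime p hp) (hprime q hq) hpq
      (h3 p q hp hq hpq) (h1' p hp) (h1 q hq) hK hpK hqK
    exact h2 p q hp hq hpq g hg
  -- choice of N
  let S : Set (Subgroup G) := {N | N.Normal ∧ ¬ p₀ ∣ Nat.card N}
  have hS : S.Nonempty := by
    refine ⟨⊥, inferInstance, ?_⟩
    rw [Subgroup.card_bot]
    intro h
    exact (hprime p₀ hp₀).one_lt.ne' (Nat.dvd_one.1 h)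
  obtain ⟨N, hNm⟩ := S.toFinite.exists_maximal hS
  obtain ⟨hNn, hNp⟩ := hNm.1
  haveI := hNn
  have hNq : ∀ q, ρ q → ¬ q ∣ Nat.card N := fun q hq hd => hNp (hX N hNn q p₀ hq hp₀ hd)
  have hQd : ∀ q, ρ q → q ∣ Nat.card (G ⧸ N) := by
    intro q hq
    have hd := h1 q hq
    rw [Subgroup.card_eq_card_quotient_mul_card_subgroup N] at hd
    rcases (Nat.Prime.dvd_mul (hprime q hq)).1 hd with h | h
    · exact h
    · exact absurd h (hNq q hq)
  haveI : Nontrivial (G ⧸ N) := by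
    apply (Finite.one_lt_card_iff_nontrivial).1
    have := Nat.le_of_dvd Nat.card_pos (hQd p₀ hp₀)
    have := (hprime p₀ hp₀).two_le
    omega
  obtain ⟨A, hAn, hAne, hAmin⟩ := H01.exists_minimal_normal (G := G ⧸ N)
  haveI := hAn
  set H : Subgroup G := A.comap (QuotientGroup.mk' N) with hH
  have hHn : H.Normal := hAn.comap _
  have hNH : N ≤ H := by
    intro x hx
    have h0 : QuotientGroup.mk' N x = 1 := (QuotientGroup.eq_one_iff x).2 hx
    show QuotientGroup.mk' N x ∈ A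
    rw [h0]
    exact A.one_mem
  have hNlt : N < H := by
    refine lt_of_le_of_ne hNH ?_
    intro he
    apply hAne
    rw [eq_bot_iff]
    intro a ha
    obtain ⟨g, rfl⟩ := QuotientGroup.mk'_surjective N a
    have : g ∈ H := ha
    rw [← he] at this
    rw [Subgroup.mem_bot]
    exact (QuotientGroup.eq_one_iff g).2 this
  have hcardH : Nat.card H = Nat.card A * Nat.card N := H01.card_comap_mk N A
  have hp₀H : p₀ ∣ Nat.card H := by
    by_contra hnd
    have hmem : H ∈ S := ⟨hHn, hnd⟩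
    exact hNlt.not_ge (hNm.2 hmem hNH)
  have hAd : ∀ q, ρ q → q ∣ Nat.card A := by
    intro q hq
    have hd := hX H hHn p₀ q hp₀ hq hp₀H
    rw [hcardH] at hd
    rcases (Nat.Prime.dvd_mul (hprime q hq)).1 hd with h | h
    · exact h
    · exact absurd h (hNq q hq)
  have hAG : Nat.card A ∣ Nat.card G := by
    rw [Subgroup.card_eq_card_quotient_mul_card_subgroup N]
    exact (Subgroup.card_subgroup_dvd_card A).trans (Nat.dvd_mul_right _ _)
  obtain ⟨T, m, hm1, hTs, ⟨e⟩⟩ := H17.minNormal_equiv_pi A hAn hAne hAmin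
  have hcA : Nat.card A = Nat.card T ^ m := by
    rw [Nat.card_congr e.toEquiv, Nat.card_fun]
    simp
  have hm : m = 1 := by
    by_contra hne
    have hm2 : 2 ≤ m := by omega
    have hpT : p₀ ∣ Nat.card T := by
      have := hAd p₀ hp₀
      rw [hcA] at this
      exact (hprime p₀ hp₀).dvd_of_dvd_pow this
    have : p₀ ^ 2 ∣ Nat.card T ^ m := (pow_dvd_pow_of_dvd hpT 2).trans (pow_dvd_pow _ hm2)
    rw [← hcA] at this
    exact h1' p₀ hp₀ (this.trans hAG)
  subst hm
  obtain ⟨f⟩ := section_equiv N A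
  haveI : IsSimpleGroup ↥A := by
    haveI := hTs
    exact (e.trans (MulEquiv.funUnique (Fin 1) T)).isSimpleGroup
  refine ⟨N, H, hNn, hHn, hNlt, f.isSimpleGroup, ?_, ?_⟩
  · intro hc
    have hAc : ∀ a b : A, a * b = b * a := by
      intro a b
      have := hc.is_comm.comm (f.symm a) (f.symm b)
      have h3 := congrArg f this
      simpa using h3
    obtain ⟨u, hu⟩ := exists_prime_orderOf_dvd_card' (hp := ⟨hprime p₀ hp₀⟩) p₀ (hAd p₀ hp₀)
    obtain ⟨v, hv⟩ := exists_prime_orderOf_dvd_card' (hp := ⟨hprime q₀ hq₀⟩) q₀ (hAd q₀ hq₀)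
    have hcomm : Commute u v := hAc u v
    have hord : orderOf (u * v) = p₀ * q₀ := by
      rw [hcomm.orderOf_mul_eq_mul_orderOf_of_coprime (by
        rw [hu, hv]
        exact (Nat.coprime_primes (hprime p₀ hp₀) (hprime q₀ hq₀)).2 hpq₀), hu, hv]
    obtain ⟨g, hg⟩ := H16.exists_order_of_quotient (N := N) (m := p₀ * q₀)
      (Nat.mul_ne_zero (hprime p₀ hp₀).ne_zero (hprime q₀ hq₀).ne_zero)
      ⟨(u * v : A), by rw [Subgroup.orderOf_coe]; exact hord⟩
    exact h2 p₀ q₀ hp₀ hq₀ hpq₀ g hg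
  · intro p hp
    rw [Nat.card_congr f.toEquiv]
    exact hAd p hp

/-- Let n ≥ 11 and let G be a finite group with the same order and the same set of element orders as the alternating group of degree n. Then G has normal subgroups N < H such that H/N is a non-abelian simple group whose order is divisible by every prime p with n/2 < p ≤ n. -/
theorem result {G : Type*} [Group G] [Finite G] (n : ℕ) (hn : 11 ≤ n)
    (hcard : Nat.card G = Nat.card ↥(alternatingGroup (Fin n)))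
    (hspec : Set.range (orderOf : G → ℕ) = Set.range (orderOf : ↥(alternatingGroup (Fin n)) → ℕ)) :
    ∃ (N H : Subgroup G) (_ : N.Normal), H.Normal ∧ N < H ∧
      IsSimpleGroup (↥H ⧸ N.subgroupOf H) ∧ ¬ IsMulCommutative (↥H ⧸ N.subgroupOf H) ∧
      ∀ p : ℕ, p.Prime → n < 2 * p → p ≤ n → p ∣ Nat.card (↥H ⧸ N.subgroupOf H) := by
  have h2 := H16.card_alt_facts n (by omega) hcard
  obtain ⟨p₀, q₀, hp₀, hq₀, hqp, hpn, hnq, hq2⟩ := H16.two_primes_half n hn
  have hrho : ∀ p : ℕ, (p.Prime ∧ n < 2 * p ∧ p ≤ n) → 3 ≤ p := by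
    rintro p ⟨_, h5, _⟩
    omega
  have := section_of_rho (G := G) (fun p => p.Prime ∧ n < 2 * p ∧ p ≤ n) (fun p hp => hp.1)
    (fun p hp => H16.prime_dvd_card_of_alt h2 hp.1 (hrho p hp) hp.2.2)
    (fun p hp => H16.prime_sq_not_dvd_card_of_alt h2 hp.1 (hrho p hp) hp.2.2 hp.2.1)
    (fun p q hp hq hpq => no_order n hspec hp.1 hq.1 hpq (by
      have := hp.2.1
      have := hq.2.1
      omega))
    (fun p q hp hq hpq => by
      rcases lt_or_gt_of_ne hpq with h | h
      · intro hd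
        have hpos : 0 < p - 1 := by
          have := hrho p hp
          omega
        have := Nat.le_of_dvd hpos hd
        omega
      · exact H16.not_dvd_pred_of_lt hp.1 hq.1 h (by
          have := hp.2.2
          have := hq.2.1
          omega) (hrho q hq))
    (p₀ := p₀) (q₀ := q₀) ⟨hp₀, by omega, hpn⟩ ⟨hq₀, hnq, by omega⟩ hqp.ne'
  obtain ⟨N, H, hN, hH, hlt, hs, hnc, hall⟩ := this
  exact ⟨N, H, hN, hH, hlt, hs, hnc, fun p hp h5 h6 => hall p ⟨hp, h5, h6⟩⟩

end Cfsg.Agent.S3420
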