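import Cfsg.Statements.S3430
import Mathlib

set_option autoImplicit false
set_option linter.style.haveILetI false
set_option linter.unusedVariables false

open Cfsg

namespace Cfsg.Agent.S3430

open Polynomial

/-- value of the cyclotomic polynomial at `q` -/
noncomputable def phiV (q n : ℕ) : ℤ := (cyclotomic n ℤ).eval (q : ℤ)

lemma prod_phiV (q n : ℕ) (hn : 0 < n) : ∏ d ∈ n.divisors, phiV q d = (q : ℤ) ^ n - 1 := by
  have := congrArg (Polynomial.eval (q : ℤ)) (prod_cyclotomic_eq_X_pow_sub_one hn ℤ)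
  simpa [eval_prod, phiV] using this

lemma phiV_pos (q n : ℕ) (hq : 2 ≤ q) : 0 < phiV q n :=
  cyclotomic_pos' n (by exact_mod_cast (by omega : 1 < q))

/-- the factor `1 - q^{-d}` -/
noncomputable def sF (q d : ℕ) : ℚ := 1 - 1 / (q : ℚ) ^ d

lemma sF_pos (q d : ℕ) (hq : 2 ≤ q) (hd : 0 < d) : 0 < sF q d := by
  unfold sF
  have h1 : (1 : ℚ) < (q : ℚ) ^ d :=
    one_lt_pow₀ (by exact_mod_cast (by omega : 1 < q)) (by omega)
  have : 1 / (q : ℚ) ^ d < 1 := by
    rw [div_lt_one (by linarith)]; exact h1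
  linarith

lemma sF_le_one (q d : ℕ) (hq : 2 ≤ q) : sF q d ≤ 1 := by
  unfold sF
  have : (0 : ℚ) ≤ 1 / (q : ℚ) ^ d := by positivity
  linarith

lemma sF_ge (q d : ℕ) (hq : 2 ≤ q) : 1 - 1 / (2 : ℚ) ^ d ≤ sF q d := by
  unfold sF
  have h2 : (2 : ℚ) ≤ q := by exact_mod_cast hq
  have : 1 / (q : ℚ) ^ d ≤ 1 / (2 : ℚ) ^ d := by
    apply one_div_le_one_div_of_le (by positivity)
    exact pow_le_pow_left₀ (by norm_num) h2 d
  linarith

lemma prod_Icc_ge (q N : ℕ) (hq : 2 ≤ q) (hN : 1 ≤ N) :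
    1 / 4 + 1 / (2 : ℚ) ^ (N + 1) ≤ ∏ d ∈ Finset.Icc 1 N, sF q d := by
  induction N, hN using Nat.le_induction with
  | base =>
    simp only [Finset.Icc_self, Finset.prod_singleton]
    have := sF_ge q 1 hq
    norm_num at this ⊢
    linarith
  | succ N hN ih =>
    rw [Finset.prod_Icc_succ_top (by omega)]
    have h1 := sF_ge q (N + 1) hq
    have hp : (0 : ℚ) < 1 / (2 : ℚ) ^ (N + 1) := by positivity
    have hp2 : 1 / (2 : ℚ) ^ (N + 1) ≤ 1 / 4 := by
      rw [div_le_div_iff₀ (by positivity) (by norm_num)]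
      have : (2 : ℚ) ^ 2 ≤ 2 ^ (N + 1) := pow_le_pow_right₀ (by norm_num) (by omega)
      linarith
    have e : 1 / (2 : ℚ) ^ (N + 1 + 1) = (1 / (2 : ℚ) ^ (N + 1)) / 2 := by
      rw [pow_succ (2 : ℚ) (N + 1)]; field_simp
    rw [e]
    set t : ℚ := 1 / (2 : ℚ) ^ (N + 1) with ht
    have hs : 1 - t ≤ sF q (N + 1) := h1
    have hpos : (0 : ℚ) ≤ 1 / 4 + t := by linarith
    calc 1 / 4 + t / 2 ≤ (1 / 4 + t) * (1 - t) := by nlinarith
      _ ≤ (∏ d ∈ Finset.Icc 1 N, sF q d) * sF q (N + 1) := by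
          apply mul_le_mul ih hs (by linarith) (by linarith)

lemma prod_sub_ge (q : ℕ) (hq : 2 ≤ q) (T : Finset ℕ) (hT : ∀ d ∈ T, 0 < d) (hT' : T.Nonempty) :
    1 / 4 ≤ ∏ d ∈ T, sF q d := by
  obtain ⟨m, hm⟩ := hT'
  set N := T.sup id with hN
  have hsub : T ⊆ Finset.Icc 1 N := by
    intro d hd
    rw [Finset.mem_Icc]
    exact ⟨hT d hd, Finset.le_sup (f := id) hd⟩
  have hN1 : 1 ≤ N := le_trans (hT m hm) (Finset.le_sup (f := id) hm)
  have h1 := prod_Icc_ge q N hq hN1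
  have h2 : ∏ d ∈ Finset.Icc 1 N, sF q d =
      (∏ d ∈ Finset.Icc 1 N \ T, sF q d) * ∏ d ∈ T, sF q d :=
    (Finset.prod_sdiff hsub).symm
  have h3 : ∏ d ∈ Finset.Icc 1 N \ T, sF q d ≤ 1 := by
    apply Finset.prod_le_one
    · intro i hi
      have : 0 < i := by
        have := (Finset.mem_sdiff.1 hi).1
        rw [Finset.mem_Icc] at this; omega
      exact (sF_pos q i hq this).le
    · intro i _; exact sF_le_one q i hq
  have h4 : 0 ≤ ∏ d ∈ T, sF q d :=
    Finset.prod_nonneg fun i hi => (sF_pos q i hq (hT i hi)).le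
  have h5 : ∏ d ∈ Finset.Icc 1 N, sF q d ≤ ∏ d ∈ T, sF q d := by
    rw [h2]
    exact mul_le_of_le_one_left h4 h3
  have h6 : (0 : ℚ) < 1 / (2 : ℚ) ^ (N + 1) := by positivity
  linarith

/-- `q^φ(n) ≤ 4 Φ_n(q)`. -/
lemma lower_bound (q n : ℕ) (hq : 2 ≤ q) (hn : 0 < n) :
    (q : ℚ) ^ (Nat.totient n) ≤ 4 * (phiV q n : ℚ) := by
  have hq0 : (0 : ℚ) < q := by exact_mod_cast (by omega : 0 < q)
  let h : ℕ → ℚ := fun d => (phiV q d : ℚ) / (q : ℚ) ^ (Nat.totient d)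
  have hprod : ∀ m > 0, ∏ d ∈ m.divisors, h d = sF q m := by
    intro m hm
    simp only [h, Finset.prod_div_distrib]
    have e1 : ∏ d ∈ m.divisors, (phiV q d : ℚ) = (q : ℚ) ^ m - 1 := by
      have := prod_phiV q m hm
      exact_mod_cast congrArg (fun z : ℤ => (z : ℚ)) this
    have e2 : ∏ d ∈ m.divisors, (q : ℚ) ^ (Nat.totient d) = (q : ℚ) ^ m := by
      rw [Finset.prod_pow_eq_pow_sum, Nat.sum_totient]
    rw [e1, e2]
    unfold sF
    field_simp
  have hh : ∀ m : ℕ, 0 < m → h m ≠ 0 := by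
    intro m _
    have : (0 : ℚ) < phiV q m := by exact_mod_cast phiV_pos q m hq
    positivity
  have hs : ∀ m : ℕ, 0 < m → sF q m ≠ 0 := fun m hm => (sF_pos q m hq hm).ne'
  have hmob := (ArithmeticFunction.prod_eq_iff_prod_pow_moebius_eq_of_nonzero hh hs).1 hprod n hn
  have hge : ∏ d ∈ n.divisors, sF q d ≤ h n := by
    rw [← hmob, ← Nat.prod_divisorsAntidiagonal' (f := fun a b => sF q b)]
    apply Finset.prod_le_prod
    · intro x hx
      have : 0 < x.2 := Nat.pos_of_mem_divisors ((Nat.snd_mem_divisors_of_mem_antidiagonal hx))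
      exact (sF_pos q x.2 hq this).le
    · intro x hx
      have hx1 : 0 < x.2 := Nat.pos_of_mem_divisors ((Nat.snd_mem_divisors_of_mem_antidiagonal hx))
      have hp := sF_pos q x.2 hq hx1
      have hl := sF_le_one q x.2 hq
      rcases ArithmeticFunction.moebius_eq_or x.1 with h0 | h0 | h0 <;> rw [h0]
      · simpa using hl
      · simp
      · rw [zpow_neg, zpow_one]
        have : 1 ≤ (sF q x.2)⁻¹ := (one_le_inv₀ hp).2 hl
        linarith
  have h14 : 1 / 4 ≤ ∏ d ∈ n.divisors, sF q d :=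
    prod_sub_ge q hq _ (fun d hd => Nat.pos_of_mem_divisors hd) ⟨1, by simp [hn.ne']⟩
  have : 1 / 4 ≤ h n := le_trans h14 hge
  simp only [h] at this
  have hp : (0 : ℚ) < (q : ℚ) ^ (Nat.totient n) := by positivity
  rw [le_div_iff₀ hp] at this
  linarith

lemma totient_sq (n : ℕ) : (0 < n → n ≤ 2 * (Nat.totient n) ^ 2) ∧ (Odd n → n ≤ (Nat.totient n) ^ 2) := by
  induction n using Nat.recOnPosPrimePosCoprime with
  | prime_pow p k hp hk =>
    obtain ⟨k, rfl⟩ : ∃ j, k = j + 1 := ⟨k - 1, by omega⟩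
    rw [Nat.totient_prime_pow_succ hp]
    have hp2 := hp.two_le
    have hA : 1 ≤ p ^ k := Nat.one_le_pow _ _ (by omega)
    constructor
    · intro _
      rw [pow_succ]
      obtain ⟨r, rfl⟩ : ∃ r, p = r + 1 := ⟨p - 1, by omega⟩
      simp only [Nat.add_sub_cancel]
      have hr : 1 ≤ r := by omega
      have : (r + 1) ≤ 2 * (r * r) := by nlinarith
      calc (r + 1) ^ k * (r + 1) ≤ (r + 1) ^ k * (2 * (r * r)) := Nat.mul_le_mul_left _ this
        _ ≤ 2 * ((r + 1) ^ k * r) ^ 2 := by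
          have hB : (r + 1) ^ k ≤ ((r + 1) ^ k) ^ 2 := by nlinarith
          calc (r + 1) ^ k * (2 * (r * r)) = 2 * (r * r) * (r + 1) ^ k := by ring
            _ ≤ 2 * (r * r) * ((r + 1) ^ k) ^ 2 := Nat.mul_le_mul_left _ hB
            _ = _ := by ring
    · intro ho
      have hp3 : 3 ≤ p := by
        rcases hp.eq_two_or_odd with h | h
        · subst h
          exfalso
          have : Even (2 ^ (k + 1)) := (Nat.even_pow.2 ⟨even_two, by omega⟩)
          exact (Nat.not_even_iff_odd.2 ho) this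
        · omega
      rw [pow_succ]
      obtain ⟨r, rfl⟩ : ∃ r, p = r + 1 := ⟨p - 1, by omega⟩
      simp only [Nat.add_sub_cancel]
      have hr : 2 ≤ r := by omega
      have : (r + 1) ≤ r * r := by nlinarith
      calc (r + 1) ^ k * (r + 1) ≤ (r + 1) ^ k * (r * r) := Nat.mul_le_mul_left _ this
        _ ≤ ((r + 1) ^ k * r) ^ 2 := by
          have hB : (r + 1) ^ k ≤ ((r + 1) ^ k) ^ 2 := by nlinarith
          calc (r + 1) ^ k * (r * r) = (r * r) * (r + 1) ^ k := by ring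
            _ ≤ (r * r) * ((r + 1) ^ k) ^ 2 := Nat.mul_le_mul_left _ hB
            _ = _ := by ring
  | zero => simp
  | one => simp
  | coprime a b ha hb hab iha ihb =>
    rw [Nat.totient_mul hab]
    have hA := iha.1 (by omega)
    have hB := ihb.1 (by omega)
    constructor
    · intro _
      by_cases hoa : Odd a
      · have := iha.2 hoa
        calc a * b ≤ (Nat.totient a) ^ 2 * (2 * (Nat.totient b) ^ 2) := Nat.mul_le_mul this hB
          _ = _ := by ring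
      · have hob : Odd b := by
          rcases Nat.even_or_odd b with h | h
          · exfalso
            have h2 : 2 ∣ Nat.gcd a b := Nat.dvd_gcd (Nat.not_odd_iff_even.1 hoa).two_dvd h.two_dvd
            rw [hab] at h2
            omega
          · exact h
        have := ihb.2 hob
        calc a * b ≤ (2 * (Nat.totient a) ^ 2) * (Nat.totient b) ^ 2 := Nat.mul_le_mul hA this
          _ = _ := by ring
    · intro ho
      obtain ⟨h1, h2⟩ := Nat.odd_mul.1 ho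
      calc a * b ≤ (Nat.totient a) ^ 2 * (Nat.totient b) ^ 2 := Nat.mul_le_mul (iha.2 h1) (ihb.2 h2)
        _ = _ := by ring

lemma pow_big (k : ℕ) (hk : 22 ≤ k) : 16 * k ^ 4 + 8 * k ^ 2 < 2 ^ k := by
  induction k, hk using Nat.le_induction with
  | base => norm_num
  | succ k hk ih =>
    rw [pow_succ 2 k]
    have h1 : 22 * k ^ 3 ≤ k ^ 4 := by
      have : k ^ 4 = k * k ^ 3 := by ring
      rw [this]; exact Nat.mul_le_mul_right _ hk
    have h2 : 22 * k ^ 2 ≤ k ^ 3 := by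
      have : k ^ 3 = k * k ^ 2 := by ring
      rw [this]; exact Nat.mul_le_mul_right _ hk
    have h3 : 22 * k ≤ k ^ 2 := by
      have : k ^ 2 = k * k := by ring
      rw [this]; exact Nat.mul_le_mul_right _ hk
    have h4 : 22 ≤ k := hk
    have e : 16 * (k + 1) ^ 4 + 8 * (k + 1) ^ 2 =
        16 * k ^ 4 + 64 * k ^ 3 + 104 * k ^ 2 + 80 * k + 24 := by ring
    rw [e]
    omega

/-- prime-level analysis: primes dividing `Φ_n(q)` -/
lemma root_of_dvd (q n p : ℕ) [Fact p.Prime] (h : (p : ℤ) ∣ phiV q n) :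
    (cyclotomic n (ZMod p)).IsRoot (q : ZMod p) := by
  rw [Polynomial.IsRoot.def, ← map_cyclotomic_int]
  have h1 := Polynomial.eval_intCast_map (Int.castRingHom (ZMod p)) (cyclotomic n ℤ) (q : ℤ)
  simp only [Int.cast_natCast] at h1
  rw [h1]
  exact (ZMod.intCast_zmod_eq_zero_iff_dvd _ _).2 h

lemma prime_not_dvd (q n p : ℕ) (hq : 2 ≤ q) (hn : 0 < n) (hp : p.Prime)
    (h : (p : ℤ) ∣ phiV q n) (hpn : ¬ p ∣ n) :
    (∀ i, 1 ≤ i → i < n → ¬ p ∣ q ^ i - 1) ∧ p ∣ q ^ n - 1 ∧ n ∣ p - 1 := by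
  haveI : Fact p.Prime := ⟨hp⟩
  haveI : NeZero (n : ZMod p) := ⟨by rwa [Ne, ZMod.natCast_eq_zero_iff]⟩
  have hroot : (cyclotomic (p ^ 0 * n) (ZMod p)).IsRoot (q : ZMod p) := by
    rw [pow_zero, one_mul]
    exact root_of_dvd q n p h
  have hprim : IsPrimitiveRoot (q : ZMod p) n :=
    (isRoot_cyclotomic_prime_pow_mul_iff_of_charP (m := n) (k := 0) (p := p)).1 hroot
  have hcast : ∀ i, p ∣ q ^ i - 1 ↔ (q : ZMod p) ^ i = 1 := by
    intro i
    have h1 : 1 ≤ q ^ i := Nat.one_le_pow _ _ (by omega)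
    rw [← ZMod.natCast_eq_zero_iff, Nat.cast_sub h1]
    push_cast
    rw [sub_eq_zero]
  refine ⟨?_, ?_, ?_⟩
  · intro i hi hin hd
    have := hprim.dvd_of_pow_eq_one i ((hcast i).1 hd)
    have := Nat.le_of_dvd (by omega) this
    omega
  · exact (hcast n).2 hprim.pow_eq_one
  · have hne : (q : ZMod p) ≠ 0 := hprim.ne_zero hn.ne'
    have h1 := ZMod.pow_card_sub_one_eq_one hne
    exact hprim.dvd_of_pow_eq_one _ h1

lemma cyclo_dvd (q n p : ℕ) (hq : 2 ≤ q) (hp : p.Prime) (hpn : p ∣ n) (hn : 0 < n) :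
    phiV q n * ((q : ℤ) ^ (n / p) - 1) ∣ (q : ℤ) ^ n - 1 := by
  have hn' : 0 < n / p := Nat.div_pos (Nat.le_of_dvd hn hpn) hp.pos
  rw [← prod_phiV q n hn, ← prod_phiV q (n / p) hn']
  have hlt : n / p < n := Nat.div_lt_self hn hp.one_lt
  have hnot : n ∉ (n / p).divisors := by
    intro h
    have := Nat.le_of_dvd hn' (Nat.dvd_of_mem_divisors h)
    omega
  rw [← Finset.prod_insert hnot]
  apply Finset.prod_dvd_prod_of_subset
  intro d hd
  rw [Finset.mem_insert] at hd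
  rcases hd with rfl | hd
  · simp [hn.ne']
  · rw [Nat.mem_divisors]
    exact ⟨(Nat.dvd_of_mem_divisors hd).trans (Nat.div_dvd_of_dvd hpn), hn.ne'⟩

lemma zmod2_aux : ∀ x : ZMod 2, x ≠ 0 → x = 1 := by decide

lemma prime_dvd_sq (q n p : ℕ) (hq : 2 ≤ q) (hn : 3 ≤ n) (hp : p.Prime)
    (h : (p : ℤ) ∣ phiV q n) (hpn : p ∣ n) : ¬ ((p : ℤ) ^ 2 ∣ phiV q n) := by
  haveI : Fact p.Prime := ⟨hp⟩
  obtain ⟨k, m, hm, hnm⟩ := Nat.exists_eq_pow_mul_and_not_dvd (n := n) (by omega) p hp.ne_one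
  have hk : k ≠ 0 := by
    rintro rfl
    rw [pow_zero, one_mul] at hnm
    exact hm (hnm ▸ hpn)
  haveI : NeZero (m : ZMod p) := ⟨by rwa [Ne, ZMod.natCast_eq_zero_iff]⟩
  have hroot : (cyclotomic (p ^ k * m) (ZMod p)).IsRoot (q : ZMod p) := by
    rw [← hnm]
    exact root_of_dvd q n p h
  have hprim : IsPrimitiveRoot (q : ZMod p) m :=
    (isRoot_cyclotomic_prime_pow_mul_iff_of_charP (m := m) (k := k) (p := p)).1 hroot
  have hm0 : 0 < m := by
    rcases Nat.eq_zero_or_pos m with h0 | h0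
    · subst h0; exact absurd (dvd_zero p) hm
    · exact h0
  rcases hp.eq_two_or_odd' with h2 | hodd
  · -- p = 2
    subst h2
    have hm1 : m = 1 := by
      have hq1 : (q : ZMod 2) = 1 := by
        have hne : (q : ZMod 2) ≠ 0 := hprim.ne_zero hm0.ne'
        exact zmod2_aux _ hne
      rw [hq1] at hprim
      exact Nat.dvd_one.1 (hprim.dvd_of_pow_eq_one 1 (by simp))
    subst hm1
    rw [mul_one] at hnm
    obtain ⟨j, rfl⟩ : ∃ j, k = j + 2 := by
      rcases k with _ | _ | j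
      · omega
      · simp at hnm; omega
      · exact ⟨j, by omega⟩
    subst hnm
    have hqodd : Odd q := by
      have hne : (q : ZMod 2) ≠ 0 := hprim.ne_zero one_ne_zero
      rcases Nat.even_or_odd q with h | h
      · exfalso; apply hne
        exact (ZMod.natCast_eq_zero_iff _ _).2 h.two_dvd
      · exact h
    have e : phiV q (2 ^ (j + 2)) = 1 + ((q : ℤ) ^ (2 ^ j)) ^ 2 := by
      unfold phiV
      rw [show j + 2 = (j + 1) + 1 from rfl, cyclotomic_prime_pow_eq_geom_sum (R := ℤ) (p := 2) (n := j + 1) Nat.prime_two]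
      simp [Finset.sum_range_succ, eval_pow]
      ring
    rw [e]
    intro hd
    have hoddz : Odd ((q : ℤ) ^ (2 ^ j)) := by
      apply Odd.pow
      exact_mod_cast hqodd
    have h4 := Int.sq_mod_four_eq_one_of_odd hoddz
    have hd' : (4 : ℤ) ∣ 1 + ((q : ℤ) ^ (2 ^ j)) ^ 2 := by
      simpa using hd
    omega
  · -- p odd
    intro hd
    have hdvd := cyclo_dvd q n p hq hp hpn (by omega)
    have hqm : p ∣ q ^ m - 1 := by
      have h1 : 1 ≤ q ^ m := Nat.one_le_pow _ _ (by omega)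
      rw [← ZMod.natCast_eq_zero_iff, Nat.cast_sub h1]
      push_cast
      rw [sub_eq_zero]
      exact hprim.pow_eq_one
    have hqp : ¬ p ∣ q ^ m := by
      intro hdq
      have hne : (q : ZMod p) ≠ 0 := hprim.ne_zero hm0.ne'
      have hz : ((q ^ m : ℕ) : ZMod p) = 0 := (ZMod.natCast_eq_zero_iff _ _).2 hdq
      push_cast at hz
      exact hne (pow_eq_zero_iff hm0.ne' |>.1 hz)
    have hlt : 1 < q ^ m := Nat.one_lt_pow hm0.ne' (by omega)
    have lte : ∀ t : ℕ, t ≠ 0 → padicValNat p ((q ^ m) ^ t - 1 ^ t) =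
        padicValNat p (q ^ m - 1) + padicValNat p t := fun t ht =>
      padicValNat.pow_sub_pow hodd hlt hqm hqp ht
    have e1 : n = m * p ^ k := by rw [hnm]; ring
    obtain ⟨k', rfl⟩ : ∃ k', k = k' + 1 := ⟨k - 1, by omega⟩
    have e2 : n / p = m * p ^ k' := by
      rw [e1, pow_succ, ← mul_assoc]
      exact Nat.mul_div_cancel _ hp.pos
    have v1 := lte (p ^ (k' + 1)) (pow_ne_zero _ hp.ne_zero)
    have v2 := lte (p ^ k') (pow_ne_zero _ hp.ne_zero)
    rw [one_pow, ← pow_mul, padicValNat.prime_pow] at v1 v2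
    rw [← e1] at v1
    rw [← e2] at v2
    -- convert divisibility to naturals
    have hA : 1 ≤ q ^ n := Nat.one_le_pow _ _ (by omega)
    have hB : 1 ≤ q ^ (n / p) := Nat.one_le_pow _ _ (by omega)
    have hn1 : 0 < n / p := by rw [e2]; exact Nat.mul_pos hm0 (pow_pos hp.pos _)
    have hB' : 1 < q ^ (n / p) := Nat.one_lt_pow hn1.ne' (by omega)
    have hA' : 1 < q ^ n := Nat.one_lt_pow (by omega) (by omega)
    have castA : ((q ^ n - 1 : ℕ) : ℤ) = (q : ℤ) ^ n - 1 := by push_cast [Nat.cast_sub hA]; ring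
    have castB : ((q ^ (n / p) - 1 : ℕ) : ℤ) = (q : ℤ) ^ (n / p) - 1 := by
      push_cast [Nat.cast_sub hB]; ring
    have hZ : (p : ℤ) ^ 2 * ((q ^ (n / p) - 1 : ℕ) : ℤ) ∣ ((q ^ n - 1 : ℕ) : ℤ) := by
      rw [castA, castB]
      exact (mul_dvd_mul_right hd _).trans hdvd
    have hN : p ^ 2 * (q ^ (n / p) - 1) ∣ q ^ n - 1 := by exact_mod_cast hZ
    have hne1 : q ^ n - 1 ≠ 0 := by omega
    have hne2 : q ^ (n / p) - 1 ≠ 0 := by omega
    have hval := padicValNat_dvd_iff_le (p := p) hne1 |>.1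
      ((pow_dvd_pow _ (le_refl _)).trans
        (by
          obtain ⟨c, hc⟩ := pow_padicValNat_dvd (p := p) (n := q ^ (n / p) - 1)
          exact (show p ^ (2 + padicValNat p (q ^ (n / p) - 1)) ∣ q ^ n - 1 from by
            rw [pow_add]
            exact (mul_dvd_mul_left _ (pow_padicValNat_dvd (p := p) (n := q ^ (n / p) - 1))).trans hN)))
    omega

/-- The finite list of small pairs. -/
def smallN : List ℕ := [3, 4, 5, 6, 7, 8, 9, 10, 12, 14, 15, 16, 18, 20, 22, 24, 30, 36, 42]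

lemma small_n_check : ∀ n ∈ List.range 883, 3 ≤ n → 2 ^ (Nat.totient n) ≤ 4 * n * (n + 1) →
    n ∈ smallN := by
  decide +kernel

/-- The certificates `(q, n, p)`. -/
def certs : List (ℕ × ℕ × ℕ) :=
  [(2, 3, 7), (3, 3, 13), (4, 3, 7), (5, 3, 31), (6, 3, 43), (4, 4, 17), (5, 4, 13), (6, 4, 37),
   (7, 4, 5), (8, 4, 13), (2, 5, 31), (3, 5, 11), (4, 6, 13), (6, 6, 31), (7, 6, 43), (8, 6, 19),
   (9, 6, 73), (10, 6, 13), (11, 6, 37), (12, 6, 19), (2, 7, 127), (2, 8, 17), (3, 8, 41),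
   (4, 8, 257), (2, 9, 73), (3, 10, 61), (4, 10, 41), (3, 12, 73), (4, 12, 241), (2, 14, 43),
   (3, 14, 547), (2, 15, 151), (2, 16, 257), (3, 18, 37), (2, 20, 41), (2, 22, 683), (2, 24, 241),
   (2, 30, 331), (2, 36, 109), (2, 42, 5419)]

lemma small_q_check : ∀ n ∈ smallN, ∀ q ∈ List.range 85, 2 ≤ q →
    q ^ (Nat.totient n) ≤ 4 * n * (n + 1) →
    (q = 2 ∧ (n = 4 ∨ n = 6 ∨ n = 10 ∨ n = 12 ∨ n = 18)) ∨ (q = 3 ∧ (n = 4 ∨ n = 6)) ∨
      (q = 5 ∧ n = 6) ∨ ∃ p, (q, n, p) ∈ certs := by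
  have : ∀ n ∈ smallN, ∀ q ∈ List.range 85, 2 ≤ q →
    q ^ (Nat.totient n) ≤ 4 * n * (n + 1) →
    (q = 2 ∧ (n = 4 ∨ n = 6 ∨ n = 10 ∨ n = 12 ∨ n = 18)) ∨ (q = 3 ∧ (n = 4 ∨ n = 6)) ∨
      (q = 5 ∧ n = 6) ∨ (q, n) ∈ certs.map (fun x => (x.1, x.2.1)) := by
    decide +kernel
  intro n hn q hq h2 hle
  rcases this n hn q hq h2 hle with h | h | h | h
  · exact Or.inl h
  · exact Or.inr (Or.inl h)
  · exact Or.inr (Or.inr (Or.inl h))
  · obtain ⟨x, hx, he⟩ := List.mem_map.1 h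
    refine Or.inr (Or.inr (Or.inr ⟨x.2.2, ?_⟩))
    have h1 : x.1 = q := congrArg Prod.fst he
    have h2 : x.2.1 = n := congrArg Prod.snd he
    rw [← h1, ← h2]
    exact hx

/-- The primes occurring in the certificates. -/
def primeL : List ℕ := [7, 13, 31, 43, 17, 37, 5, 11, 19, 73, 127, 41, 257, 61, 241, 547, 151, 683,
  331, 109, 5419]

lemma primeL_ok : ∀ p ∈ primeL, p.Prime := by
  simp only [primeL, List.forall_mem_cons, List.not_mem_nil, false_imp_iff, implies_true, and_true]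
  norm_num

lemma certs_ok' : ∀ x ∈ certs, x.2.2 ∈ primeL ∧ x.2.2 ∣ x.1 ^ x.2.1 - 1 ∧
    (∀ i ∈ List.range x.2.1, 1 ≤ i → ¬ x.2.2 ∣ x.1 ^ i - 1) ∧
    (x.2.1 + 1 < x.2.2 ∨ x.2.2 ^ 2 ∣ x.1 ^ x.2.1 - 1) := by
  decide +kernel

lemma certs_ok : ∀ x ∈ certs, x.2.2.Prime ∧ x.2.2 ∣ x.1 ^ x.2.1 - 1 ∧
    (∀ i ∈ List.range x.2.1, 1 ≤ i → ¬ x.2.2 ∣ x.1 ^ i - 1) ∧
    (x.2.1 + 1 < x.2.2 ∨ x.2.2 ^ 2 ∣ x.1 ^ x.2.1 - 1) := by
  intro x hx
  obtain ⟨h1, h2⟩ := certs_ok' x hx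
  exact ⟨primeL_ok _ h1, h2⟩

theorem case_n_ge_three (q n : ℕ) (hq : 2 ≤ q) (hn : 3 ≤ n)
    (h2 : ¬ (q = 2 ∧ (n = 4 ∨ n = 6 ∨ n = 10 ∨ n = 12 ∨ n = 18)))
    (h3 : ¬ (q = 3 ∧ (n = 4 ∨ n = 6))) (h4 : ¬ (q = 5 ∧ n = 6)) :
    ∃ p : ℕ, p.Prime ∧ p ∣ q ^ n - 1 ∧ (∀ i : ℕ, 1 ≤ i → i < n → ¬ p ∣ q ^ i - 1) ∧
      (n + 1 < p ∨ p ^ 2 ∣ q ^ n - 1) := by
  by_contra hcon
  push Not at hcon
  have hnpos : 0 < n := by omega
  have hqn : 1 < q ^ n := Nat.one_lt_pow (by omega) (by omega)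
  have hcastN : ((q ^ n - 1 : ℕ) : ℤ) = (q : ℤ) ^ n - 1 := by
    push_cast [Nat.cast_sub hqn.le]; ring
  -- Phi as a natural number
  obtain ⟨N, hN⟩ : ∃ N : ℕ, (N : ℤ) = phiV q n :=
    ⟨(phiV q n).toNat, Int.toNat_of_nonneg (phiV_pos q n hq).le⟩
  have hNpos : 0 < N := by
    have := phiV_pos q n hq
    rw [← hN] at this
    exact_mod_cast this
  have hNdvd : N ∣ q ^ n - 1 := by
    have h1 : phiV q n ∣ (q : ℤ) ^ n - 1 := by
      rw [← prod_phiV q n hnpos]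
      exact Finset.dvd_prod_of_mem _ (by simp [hnpos.ne'])
    rw [← hN, ← hcastN] at h1
    exact_mod_cast h1
  have hdvdN : N ∣ n * (n + 1) := by
    rw [← Nat.factorization_prime_le_iff_dvd hNpos.ne' (by positivity)]
    intro p hp
    haveI : Fact p.Prime := ⟨hp⟩
    by_cases hpN : p ∣ N
    · have hpZ : (p : ℤ) ∣ phiV q n := by rw [← hN]; exact_mod_cast hpN
      by_cases hpn : p ∣ n
      · have hsq := prime_dvd_sq q n p hq hn hp hpZ hpn
        have hle : N.factorization p ≤ 1 := by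
          by_contra hgt
          push Not at hgt
          have : p ^ 2 ∣ N :=
            (Nat.Prime.pow_dvd_iff_le_factorization hp hNpos.ne').2 hgt
          apply hsq
          rw [← hN]; exact_mod_cast this
        have h1 : 1 ≤ (n * (n + 1)).factorization p :=
          hp.dvd_iff_one_le_factorization (by positivity) |>.1 (hpn.mul_right _)
        omega
      · obtain ⟨hA, hB, hC⟩ := prime_not_dvd q n p hq hnpos hp hpZ hpn
        have hnp := hcon p hp hB hA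
        have hlt : p ≤ n + 1 := hnp.1
        have hsq : ¬ p ^ 2 ∣ q ^ n - 1 := hnp.2
        have hp1 : n ≤ p - 1 := Nat.le_of_dvd (by have := hp.two_le; omega) hC
        have hpe : p = n + 1 := by have := hp.two_le; omega
        have hle : N.factorization p ≤ 1 := by
          by_contra hgt
          push Not at hgt
          have : p ^ 2 ∣ N :=
            (Nat.Prime.pow_dvd_iff_le_factorization hp hNpos.ne').2 hgt
          exact hsq (this.trans hNdvd)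
        have h1 : 1 ≤ (n * (n + 1)).factorization p :=
          hp.dvd_iff_one_le_factorization (by positivity) |>.1 (hpe ▸ dvd_mul_left _ _)
        omega
    · rw [Nat.factorization_eq_zero_of_not_dvd hpN]
      exact Nat.zero_le _
  have hNle : N ≤ n * (n + 1) := Nat.le_of_dvd (by positivity) hdvdN
  have hlow := lower_bound q n hq hnpos
  have hbound : q ^ (Nat.totient n) ≤ 4 * n * (n + 1) := by
    rw [← hN] at hlow
    have h1 : q ^ (Nat.totient n) ≤ 4 * N := by exact_mod_cast hlow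
    nlinarith
  -- now bound
  have hb2 : 2 ^ (Nat.totient n) ≤ 4 * n * (n + 1) :=
    le_trans (Nat.pow_le_pow_left hq _) hbound
  have htot := (totient_sq n).1 hnpos
  have hphi : Nat.totient n < 22 := by
    by_contra hge
    push Not at hge
    have hbig := pow_big _ hge
    set k := Nat.totient n
    have h1 : 4 * n * (n + 1) ≤ 4 * (2 * k ^ 2) * (2 * k ^ 2 + 1) := by
      apply Nat.mul_le_mul (Nat.mul_le_mul_left _ htot) (by omega)
    have h3 : 4 * (2 * k ^ 2) * (2 * k ^ 2 + 1) = 16 * k ^ 4 + 8 * k ^ 2 := by ring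
    omega
  have hn883 : n < 883 := by
    have h1 : Nat.totient n ^ 2 ≤ 21 ^ 2 := Nat.pow_le_pow_left (by omega) 2
    omega
  have hsmall := small_n_check n (List.mem_range.2 hn883) hn hb2
  have hphi2 : 2 ≤ Nat.totient n := by
    have hne : ∀ m ∈ smallN, 2 ≤ Nat.totient m := by decide +kernel
    exact hne n hsmall
  have hn42 : n ≤ 42 := by
    have hne : ∀ m ∈ smallN, m ≤ 42 := by decide +kernel
    exact hne n hsmall
  have hq85 : q < 85 := by
    by_contra hge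
    push Not at hge
    have h1 : 85 ^ 2 ≤ q ^ 2 := Nat.pow_le_pow_left hge 2
    have h2' : q ^ 2 ≤ q ^ (Nat.totient n) := Nat.pow_le_pow_right (by omega) hphi2
    have h5 : 4 * n * (n + 1) ≤ 4 * 42 * 43 := by
      apply Nat.mul_le_mul (Nat.mul_le_mul_left _ hn42) (by omega)
    omega
  rcases small_q_check n hsmall q (List.mem_range.2 hq85) hq hbound with h | h | h | ⟨p, hp⟩
  · exact h2 h
  · exact h3 h
  · exact h4 h
  · obtain ⟨a, b, c, d⟩ := certs_ok _ hp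
    simp only at a b c d
    have := hcon p a b (fun i hi hin => c i (List.mem_range.2 hin) hi)
    rcases d with d | d
    · exact absurd d (by have := this.1; omega)
    · exact this.2 d

theorem case_two (q : ℕ) (hq : 2 ≤ q)
    (h1 : ¬ (∃ s t : ℕ, t ≤ 1 ∧ q + 1 = 2 ^ s * 3 ^ t)) :
    ∃ p : ℕ, p.Prime ∧ p ∣ q ^ 2 - 1 ∧ (∀ i : ℕ, 1 ≤ i → i < 2 → ¬ p ∣ q ^ i - 1) ∧
      (2 + 1 < p ∨ p ^ 2 ∣ q ^ 2 - 1) := by
  have hfac : q ^ 2 - 1 = (q - 1) * (q + 1) := by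
    obtain ⟨r, rfl⟩ : ∃ r, q = r + 1 := ⟨q - 1, by omega⟩
    simp only [Nat.add_sub_cancel]
    have : (r + 1) ^ 2 = r * (r + 1 + 1) + 1 := by ring
    rw [this]; simp
  have hprim : ∀ p : ℕ, p.Prime → p ≠ 2 → p ∣ q + 1 → ∀ i : ℕ, 1 ≤ i → i < 2 → ¬ p ∣ q ^ i - 1 := by
    intro p hp hp2 hd i hi hi2
    obtain rfl : i = 1 := by omega
    rw [pow_one]
    intro hd2
    have h3 : p ∣ (q + 1) - (q - 1) := Nat.dvd_sub hd hd2
    have h4 : (q + 1) - (q - 1) = 2 := by omega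
    rw [h4] at h3
    exact hp2 ((Nat.prime_dvd_prime_iff_eq hp Nat.prime_two).1 h3)
  obtain ⟨s, m, hm2, hm⟩ := Nat.exists_eq_pow_mul_and_not_dvd (n := q + 1) (by omega) 2 (by norm_num)
  have hm0 : m ≠ 0 := by
    rintro rfl
    simp at hm
  obtain ⟨t, m', hm3, hm'⟩ := Nat.exists_eq_pow_mul_and_not_dvd (n := m) hm0 3 (by norm_num)
  by_cases hm1 : m' = 1
  · subst hm1
    rw [mul_one] at hm'
    subst hm'
    have ht : 2 ≤ t := by
      by_contra hlt
      exact h1 ⟨s, t, by omega, hm⟩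
    have hd3 : 3 ∣ q + 1 := by
      rw [hm]
      exact Dvd.dvd.mul_left (dvd_pow_self 3 (by omega)) _
    have hd9 : 3 ^ 2 ∣ q + 1 := by
      rw [hm]
      exact Dvd.dvd.mul_left (pow_dvd_pow 3 ht) _
    refine ⟨3, by norm_num, ?_, hprim 3 (by norm_num) (by norm_num) hd3, Or.inr ?_⟩
    · rw [hfac]; exact Dvd.dvd.mul_left hd3 _
    · rw [hfac]; exact Dvd.dvd.mul_left hd9 _
  · have hm'0 : m' ≠ 0 := by
      rintro rfl
      simp at hm'
      exact hm0 hm'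
    obtain ⟨p, hp, hpm⟩ := Nat.exists_prime_and_dvd hm1
    have hp2 : p ≠ 2 := by
      rintro rfl
      apply hm2
      rw [hm']
      exact Dvd.dvd.mul_left hpm _
    have hp3 : p ≠ 3 := by
      rintro rfl
      exact hm3 hpm
    have hdq : p ∣ q + 1 := by
      rw [hm, hm']
      exact Dvd.dvd.mul_left (Dvd.dvd.mul_left hpm _) _
    have hbig : 2 + 1 < p := by
      have := hp.two_le
      omega
    exact ⟨p, hp, by rw [hfac]; exact Dvd.dvd.mul_left hdq _, hprim p hp hp2 hdq, Or.inl hbig⟩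

/-- Let q, n ≥ 2 be integers. Unless (n = 2 and q + 1 = 2^s·3^t for some s ≥ 0 and t ≤ 1), or (q = 2 and n ∈ {4, 6, 10, 12, 18}), or (q = 3 and n ∈ {4, 6}), or (q, n) = (5, 6), there is a prime p dividing q^n − 1 but no q^i − 1 with 1 ≤ i < n (a primitive prime divisor), such that p > n + 1 or p² divides q^n − 1. -/
theorem result (q n : ℕ) (hq : 2 ≤ q) (hn : 2 ≤ n)
    (h1 : ¬ (n = 2 ∧ ∃ s t : ℕ, t ≤ 1 ∧ q + 1 = 2 ^ s * 3 ^ t))
    (h2 : ¬ (q = 2 ∧ (n = 4 ∨ n = 6 ∨ n = 10 ∨ n = 12 ∨ n = 18)))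
    (h3 : ¬ (q = 3 ∧ (n = 4 ∨ n = 6))) (h4 : ¬ (q = 5 ∧ n = 6)) :
    ∃ p : ℕ, p.Prime ∧ p ∣ q ^ n - 1 ∧ (∀ i : ℕ, 1 ≤ i → i < n → ¬ p ∣ q ^ i - 1) ∧ (n + 1 < p ∨ p ^ 2 ∣ q ^ n - 1) := by
  rcases Nat.lt_or_ge n 3 with h | h
  · obtain rfl : n = 2 := by omega
    exact case_two q hq (fun hh => h1 ⟨rfl, hh⟩)
  · exact case_n_ge_three q n hq h h2 h3 h4

end Cfsg.Agent.S3430
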