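import Cfsg.Statements.S3704

set_option autoImplicit false
set_option linter.style.haveILetI false
open Cfsg

namespace Cfsg.Agent.S3704

open MulAction

section key
variable {G Q Ω : Type*} [Group G] [MulAction G Q] [MulAction G Ω] [Fintype Q] [Fintype Ω]

lemma sum_smul (k : G) (F : Q → ℚ) : ∑ q, F (k • q) = ∑ q, F q :=
  Equiv.sum_comp (MulAction.toPerm k) F

/-- The two-transitive Gram matrix argument: an invariant `0/1` matrix `f`, nonconstant on a row,
is a square matrix of full rank and every other invariant matrix is a combination of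
`f` and the all-ones matrix. -/
lemma key (hcard : Fintype.card Q = Fintype.card Ω)
    (h2 : ∀ x y x' y' : Ω, x ≠ y → x' ≠ y' → ∃ k : G, k • x = x' ∧ k • y = y')
    (htr : ∀ x x' : Ω, ∃ k : G, k • x = x')
    (f f' : Q → Ω → ℚ)
    (hf : ∀ (k : G) q x, f (k • q) (k • x) = f q x)
    (hf' : ∀ (k : G) q x, f' (k • q) (k • x) = f' q x)
    (h01 : ∀ q x, f q x = 0 ∨ f q x = 1)
    (q0 : Q) (p0 p1 : Ω) (hp : p0 ≠ p1) (h0 : f q0 p0 = 1) (h1 : f q0 p1 = 0) :
    ∃ μ l : ℚ, ∀ q x, f' q x = μ * f q x + l := by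
  classical
  have hfnn : ∀ q x, 0 ≤ f q x := by
    intro q x
    rcases h01 q x with h | h <;> rw [h] <;> norm_num
  have hfle : ∀ q x, f q x ≤ 1 := by
    intro q x
    rcases h01 q x with h | h <;> rw [h] <;> norm_num
  set N : Ω → Ω → ℚ := fun x y => ∑ q, f q x * f q y with hN
  set N' : Ω → Ω → ℚ := fun x y => ∑ q, f q x * f' q y with hN'
  set D : Ω → ℚ := fun x => ∑ q, f q x with hD
  have hNinv : ∀ (k : G) x y, N (k • x) (k • y) = N x y := by
    intro k x y
    simp only [hN]
    rw [← sum_smul k]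
    simp only [hf]
  have hN'inv : ∀ (k : G) x y, N' (k • x) (k • y) = N' x y := by
    intro k x y
    simp only [hN']
    rw [← sum_smul k]
    simp only [hf, hf']
  have hDinv : ∀ (k : G) x, D (k • x) = D x := by
    intro k x
    simp only [hD]
    rw [← sum_smul k]
    simp only [hf]
  set a := N p0 p1 with ha
  set b := N p0 p0 with hb
  set a' := N' p0 p1 with ha'
  set b' := N' p0 p0 with hb'
  set d := D p0 with hd
  have hNa : ∀ x y, x ≠ y → N x y = a := by
    intro x y hxy
    obtain ⟨k, rfl, rfl⟩ := h2 p0 p1 x y hp hxy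
    exact hNinv k p0 p1
  have hNb : ∀ x, N x x = b := by
    intro x
    obtain ⟨k, rfl⟩ := htr p0 x
    exact hNinv k p0 p0
  have hN'a : ∀ x y, x ≠ y → N' x y = a' := by
    intro x y hxy
    obtain ⟨k, rfl, rfl⟩ := h2 p0 p1 x y hp hxy
    exact hN'inv k p0 p1
  have hN'b : ∀ x, N' x x = b' := by
    intro x
    obtain ⟨k, rfl⟩ := htr p0 x
    exact hN'inv k p0 p0
  have hDc : ∀ x, D x = d := by
    intro x
    obtain ⟨k, rfl⟩ := htr p0 x
    exact hDinv k p0
  have hdpos : 0 < d := by
    have h3 : f q0 p0 ≤ d :=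
      Finset.single_le_sum (f := fun q => f q p0) (fun q _ => hfnn q p0) (Finset.mem_univ q0)
    linarith
  have hapos : 0 ≤ a := Finset.sum_nonneg (fun q _ => mul_nonneg (hfnn q p0) (hfnn q p1))
  have hcpos : 0 < b - a := by
    have h3 : b - a = ∑ q, f q p0 * (f q p0 - f q p1) := by
      simp only [hb, ha, hN]
      rw [← Finset.sum_sub_distrib]
      apply Finset.sum_congr rfl
      intro q _
      ring
    rw [h3]
    have h4 : f q0 p0 * (f q0 p0 - f q0 p1) ≤ ∑ q, f q p0 * (f q p0 - f q p1) := by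
      apply Finset.single_le_sum (f := fun q => f q p0 * (f q p0 - f q p1))
      · intro q _
        rcases h01 q p0 with h | h
        · simp only [h]; norm_num
        · simp only [h]
          have := hfle q p1
          linarith
      · exact Finset.mem_univ q0
    rw [h0, h1] at h4
    linarith
  -- injectivity of the matrix `f`
  let L : (Ω → ℚ) →ₗ[ℚ] (Q → ℚ) := Matrix.mulVecLin (Matrix.of f)
  have hL : ∀ v q, L v q = ∑ x, f q x * v x := fun v q => rfl
  have hinj : Function.Injective L := by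
    rw [← LinearMap.ker_eq_bot, LinearMap.ker_eq_bot']
    intro v hv
    have h3 : ∀ x', (b - a) * v x' + a * ∑ y, v y = 0 := by
      intro x'
      have h4 : ∑ q, f q x' * L v q = 0 := by simp [hv]
      have h5 : ∑ q, f q x' * L v q = ∑ y, N x' y * v y := by
        simp only [hL, hN, Finset.mul_sum, Finset.sum_mul]
        rw [Finset.sum_comm]
        refine Finset.sum_congr rfl fun y _ => Finset.sum_congr rfl fun q _ => ?_
        ring
      rw [h5] at h4
      have h6 : ∑ y, N x' y * v y = ∑ y, ((if y = x' then (b - a) else 0) * v y + a * v y) := by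
        apply Finset.sum_congr rfl
        intro y _
        by_cases hy : y = x'
        · subst hy
          rw [hNb, if_pos rfl]
          ring
        · rw [hNa x' y (Ne.symm hy), if_neg hy]
          ring
      rw [h6, Finset.sum_add_distrib, ← Finset.mul_sum] at h4
      simpa using h4
    have hS : ∑ y, v y = 0 := by
      have h4 : ∑ x', ((b - a) * v x' + a * ∑ y, v y) = 0 := by simp [h3]
      rw [Finset.sum_add_distrib, ← Finset.mul_sum, Finset.sum_const, nsmul_eq_mul] at h4
      have h5 : ((b - a) + (Fintype.card Ω : ℚ) * a) * ∑ y, v y = 0 := by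
        simp only [Finset.card_univ] at h4
        linarith
      have h6 : (b - a) + (Fintype.card Ω : ℚ) * a > 0 := by positivity
      exact (mul_eq_zero.1 h5).resolve_left h6.ne'
    ext x'
    have := h3 x'
    rw [hS, mul_zero, add_zero] at this
    exact (mul_eq_zero.1 this).resolve_left hcpos.ne'
  have hsurj : Function.Surjective L := by
    apply (LinearMap.injective_iff_surjective_of_finrank_eq_finrank _).1 hinj
    simp [hcard]
  -- the vanishing argument
  have hzero : ∀ u : Q → ℚ, (∀ x, ∑ q, f q x * u q = 0) → u = 0 := by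
    intro u hu
    obtain ⟨v, rfl⟩ := hsurj u
    have h3 : ∑ q, L v q * L v q = 0 := by
      have h4 : ∑ q, L v q * L v q = ∑ x, v x * ∑ q, f q x * L v q := by
        simp only [Finset.mul_sum]
        conv_lhs =>
          arg 2
          ext q
          rw [hL v q, Finset.sum_mul]
        rw [Finset.sum_comm]
        refine Finset.sum_congr rfl fun y _ => Finset.sum_congr rfl fun q _ => ?_
        rw [← hL]
        ring
      rw [h4]
      simp [hu]
    ext q
    have h4 := (Finset.sum_eq_zero_iff_of_nonneg (fun q _ => mul_self_nonneg (L v q))).1 h3 q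
      (Finset.mem_univ q)
    simpa using h4
  set μ := (b' - a') / (b - a) with hμ
  set l := (a' - μ * a) / d with hl
  refine ⟨μ, l, ?_⟩
  intro q y
  have hμc : μ * (b - a) = b' - a' := by
    rw [hμ]
    field_simp
  have hld : l * d = a' - μ * a := by
    rw [hl]
    field_simp
  have := hzero (fun q => f' q y - μ * f q y - l) (by
    intro x
    have h3 : ∑ q, f q x * (f' q y - μ * f q y - l) = N' x y - μ * N x y - l * D x := by
      simp only [hN', hN, hD, Finset.mul_sum, Finset.sum_mul, ← Finset.sum_sub_distrib]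
      apply Finset.sum_congr rfl
      intro q _
      ring
    rw [h3, hDc]
    by_cases hxy : x = y
    · subst hxy
      rw [hNb, hN'b]
      linear_combination hμc.symm - hld
    · rw [hNa x y hxy, hN'a x y hxy]
      linear_combination - hld)
  have h4 := congrFun this q
  simp only [Pi.zero_apply] at h4
  linarith

end key

lemma mem_iff {G Ω : Type*} [Group G] [MulAction G Ω] (H : Subgroup G) (O : Set Ω)
    (hO : ∀ h ∈ H, ∀ y, h • y ∈ O ↔ y ∈ O) (k : G) (q : G ⧸ H) (x : Ω) :
    (Quotient.out (k • q))⁻¹ • (k • x) ∈ O ↔ (Quotient.out q)⁻¹ • x ∈ O := by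
  have h1 : ((k * Quotient.out q : G) : G ⧸ H) = ((Quotient.out (k • q) : G) : G ⧸ H) := by
    rw [QuotientGroup.out_eq']
    exact MulAction.Quotient.mk_smul_out H k q
  have hmem : (k * Quotient.out q)⁻¹ * Quotient.out (k • q) ∈ H := QuotientGroup.eq.1 h1
  have heq : (Quotient.out (k • q))⁻¹ • (k • x) =
      ((k * Quotient.out q)⁻¹ * Quotient.out (k • q))⁻¹ • ((Quotient.out q)⁻¹ • x) := by
    simp only [mul_inv_rev, inv_inv, smul_smul]
    congr 1
    group
  rw [heq]
  exact hO _ (H.inv_mem hmem) _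

lemma mem_one_iff {G Ω : Type*} [Group G] [MulAction G Ω] (H : Subgroup G) (O : Set Ω)
    (hO : ∀ h ∈ H, ∀ y, h • y ∈ O ↔ y ∈ O) (x : Ω) :
    (Quotient.out ((1 : G) : G ⧸ H))⁻¹ • x ∈ O ↔ x ∈ O := by
  have h1 : ((1 : G) : G ⧸ H) = ((Quotient.out ((1 : G) : G ⧸ H) : G) : G ⧸ H) := by
    rw [QuotientGroup.out_eq']
  have hmem : (1 : G)⁻¹ * Quotient.out ((1 : G) : G ⧸ H) ∈ H := QuotientGroup.eq.1 h1
  rw [inv_one, one_mul] at hmem
  exact hO _ (H.inv_mem hmem) _

theorem result {G Ω : Type*} [Group G] [Finite G] [MulAction G Ω] [FaithfulSMul G Ω] [Finite Ω] (h2 : MulAction.IsMultiplyPretransitive G Ω 2) (H : Subgroup G) (hidx : H.index = Nat.card Ω) (hnt : ¬ MulAction.IsPretransitive H Ω) (hfix : ∀ a : Ω, ∃ h : H, h • a ≠ a) : Nat.card (MulAction.orbitRel.Quotient H Ω) = 2 := by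
  classical
  haveI := h2
  have h2' : ∀ x y x' y' : Ω, x ≠ y → x' ≠ y' → ∃ k : G, k • x = x' ∧ k • y = y' :=
    fun x y x' y' h h' => is_two_pretransitive_iff.1 h2 h h'
  haveI htr : IsPretransitive G Ω := isPretransitive_of_is_two_pretransitive
  haveI : Fintype (G ⧸ H) := Fintype.ofFinite _
  haveI : Fintype Ω := Fintype.ofFinite _
  have hcard : Fintype.card (G ⧸ H) = Fintype.card Ω := by
    rw [← Nat.card_eq_fintype_card, ← Nat.card_eq_fintype_card]
    exact hidx
  by_contra hne
  set Qu := orbitRel.Quotient H Ω with hQu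
  haveI : Fintype Qu := Fintype.ofFinite _
  have h3 : 2 < Fintype.card Qu := by
    rw [← Nat.card_eq_fintype_card]
    by_contra hc
    have h4 : Nat.card Qu ≤ 1 := by omega
    rw [Finite.card_le_one_iff_subsingleton] at h4
    apply hnt
    refine ⟨fun a b => ?_⟩
    have h5 : (Quotient.mk'' a : Qu) = Quotient.mk'' b := Subsingleton.elim _ _
    have h6 := Quotient.eq''.1 h5
    rw [orbitRel_apply] at h6
    obtain ⟨g, hg⟩ := h6
    exact ⟨g⁻¹, by rw [← hg, inv_smul_smul]⟩
  obtain ⟨q1, q2, q3, h12, h13, h23⟩ := Fintype.two_lt_card_iff.1 h3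
  -- three points in different orbits
  obtain ⟨x1, rfl⟩ := Quotient.mk''_surjective q1
  obtain ⟨x2, rfl⟩ := Quotient.mk''_surjective q2
  obtain ⟨x3, rfl⟩ := Quotient.mk''_surjective q3
  have hnot : ∀ x y : Ω, (Quotient.mk'' x : Qu) ≠ Quotient.mk'' y → y ∉ orbit H x := by
    intro x y hxy hmem
    apply hxy
    apply Quotient.sound'
    rw [orbitRel_apply]
    obtain ⟨g, hg⟩ := hmem
    have hg' : g • x = y := hg
    exact ⟨g⁻¹, by show g⁻¹ • y = x; rw [← hg', inv_smul_smul]⟩
  have hinv : ∀ x : Ω, ∀ h ∈ H, ∀ y, h • y ∈ orbit H x ↔ y ∈ orbit H x := by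
    intro x h hh y
    constructor
    · rintro ⟨g, hg⟩
      have hg' : g • x = h • y := hg
      refine ⟨(⟨h, hh⟩ : H)⁻¹ * g, ?_⟩
      show ((⟨h, hh⟩ : H)⁻¹ * g) • x = y
      rw [mul_smul, hg']
      exact inv_smul_smul (⟨h, hh⟩ : H) y
    · rintro ⟨g, hg⟩
      have hg' : g • x = y := hg
      refine ⟨(⟨h, hh⟩ : H) * g, ?_⟩
      show ((⟨h, hh⟩ : H) * g) • x = h • y
      rw [mul_smul, hg']
      rfl
  let χ : Ω → G ⧸ H → Ω → ℚ := fun O q x => if (Quotient.out q)⁻¹ • x ∈ orbit H O then 1 else 0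
  have hχ : ∀ O (k : G) q x, χ O (k • q) (k • x) = χ O q x := by
    intro O k q x
    simp only [χ]
    by_cases h : (Quotient.out q)⁻¹ • x ∈ orbit H O
    · rw [if_pos h, if_pos ((mem_iff H _ (hinv O) k q x).2 h)]
    · rw [if_neg h, if_neg (fun h' => h ((mem_iff H _ (hinv O) k q x).1 h'))]
  have hχ1 : ∀ O x, χ O ((1 : G) : G ⧸ H) x = if x ∈ orbit H O then 1 else 0 := by
    intro O x
    simp only [χ]
    by_cases h : x ∈ orbit H O
    · rw [if_pos h, if_pos ((mem_one_iff H _ (hinv O) x).2 h)]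
    · rw [if_neg h, if_neg (fun h' => h ((mem_one_iff H _ (hinv O) x).1 h'))]
  have h01 : ∀ O q x, χ O q x = 0 ∨ χ O q x = 1 := by
    intro O q x
    simp only [χ]
    split_ifs <;> simp
  have hx12 : x1 ≠ x2 := by
    rintro rfl
    exact h12 rfl
  have h1 : χ x1 ((1 : G) : G ⧸ H) x1 = 1 := by
    rw [hχ1, if_pos (mem_orbit_self x1)]
  have h2'' : χ x1 ((1 : G) : G ⧸ H) x2 = 0 := by
    rw [hχ1, if_neg (hnot _ _ h12)]
  obtain ⟨μ, l, hμ⟩ := key (G := G) hcard h2' (fun x x' => MulAction.exists_smul_eq G x x')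
    (χ x1) (χ x2) (hχ x1) (hχ x2) (h01 x1) _ x1 x2 hx12 h1 h2''
  have h3a := hμ ((1 : G) : G ⧸ H) x2
  have h3b := hμ ((1 : G) : G ⧸ H) x3
  rw [h2'', hχ1, if_pos (mem_orbit_self x2)] at h3a
  rw [hχ1, hχ1, if_neg (hnot _ _ h13), if_neg (hnot _ _ h23)] at h3b
  linarith

end Cfsg.Agent.S3704
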