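import Cfsg.Statements.S3707

set_option autoImplicit false
set_option linter.style.haveILetI false
open Cfsg

namespace Cfsg.Agent.S3707

open MulAction Pointwise

section Jordan

variable (G : Type*) {Ω : Type*} [Group G] [MulAction G Ω]

/-- Jordan sets (in the form of the statement). -/
def J (Δ : Set Ω) : Prop :=
  ∀ x ∈ Δ, ∀ y ∈ Δ, ∃ g : G, (∀ z, z ∉ Δ → g • z = z) ∧ g • x = y

variable {G}

lemma J.smul {Δ : Set Ω} (h : J G Δ) (g : G) : J G (g • Δ) := by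
  rintro _ ⟨x, hx, rfl⟩ _ ⟨y, hy, rfl⟩
  obtain ⟨k, hk, hkxy⟩ := h x hx y hy
  refine ⟨g * k * g⁻¹, ?_, ?_⟩
  · intro z hz
    have hz' : g⁻¹ • z ∉ Δ := by
      intro hc
      exact hz ⟨_, hc, smul_inv_smul g z⟩
    rw [mul_smul, mul_smul, hk _ hz', smul_inv_smul]
  · show (g * k * g⁻¹) • g • x = g • y
    rw [mul_smul, mul_smul, inv_smul_smul, hkxy]

lemma J.union {A B : Set Ω} (hA : J G A) (hB : J G B) (hne : (A ∩ B).Nonempty) : J G (A ∪ B) := by
  obtain ⟨w, hwA, hwB⟩ := hne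
  have key : ∀ x ∈ A ∪ B, ∃ g : G, (∀ z, z ∉ A ∪ B → g • z = z) ∧ g • x = w := by
    intro x hx
    rcases hx with hx | hx
    · obtain ⟨g, hg, hgx⟩ := hA x hx w hwA
      exact ⟨g, fun z hz => hg z (fun h => hz (Or.inl h)), hgx⟩
    · obtain ⟨g, hg, hgx⟩ := hB x hx w hwB
      exact ⟨g, fun z hz => hg z (fun h => hz (Or.inr h)), hgx⟩
  intro x hx y hy
  obtain ⟨g, hg, hgx⟩ := key x hx
  obtain ⟨g', hg', hgy⟩ := key y hy
  refine ⟨g'⁻¹ * g, ?_, ?_⟩
  · intro z hz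
    rw [mul_smul, hg z hz, inv_smul_eq_iff, hg' z hz]
  · rw [mul_smul, hgx, inv_smul_eq_iff, hgy]

variable [Finite Ω]

/-- Consequence of maximality among Jordan sets with at least `k` points outside. -/
lemma union_max {k m : ℕ} {A B : Set Ω} (hA : J G A) (hB : J G B)
    (hcA : A.ncard = m) (hcB : B.ncard = m) (hm : 2 ≤ m)
    (hmax : ∀ Δ' : Set Ω, J G Δ' → 2 ≤ Δ'.ncard → Δ'.ncard + k ≤ Nat.card Ω → Δ'.ncard ≤ m)
    (hne : (A ∩ B).Nonempty) (hk : (A ∪ B).ncard + k ≤ Nat.card Ω) : A = B := by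
  have hAB : (A ∪ B).ncard ≤ m := by
    apply hmax _ (hA.union hB hne) _ hk
    calc 2 ≤ A.ncard := by omega
      _ ≤ (A ∪ B).ncard := Set.ncard_le_ncard Set.subset_union_left (Set.toFinite _)
  have h1 : A = A ∪ B := Set.eq_of_subset_of_ncard_le Set.subset_union_left (by omega)
    (Set.toFinite _)
  have h2 : B = A ∪ B := Set.eq_of_subset_of_ncard_le Set.subset_union_right (by omega)
    (Set.toFinite _)
  rw [h1, ← h2]

lemma ncard_add_one_le {S : Set Ω} {z : Ω} (hz : z ∉ S) : S.ncard + 1 ≤ Nat.card Ω := by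
  rw [← Set.ncard_insert_of_notMem hz (Set.toFinite _), ← Set.ncard_univ]
  exact Set.ncard_le_ncard (Set.subset_univ _) (Set.toFinite _)

lemma ncard_add_two_le {S : Set Ω} {u v : Ω} (huv : u ≠ v) (hu : u ∉ S) (hv : v ∉ S) :
    S.ncard + 2 ≤ Nat.card Ω := by
  have h1 : v ∉ insert u S := by
    rintro (h | h)
    · exact huv h.symm
    · exact hv h
  have h2 := ncard_add_one_le h1
  rw [Set.ncard_insert_of_notMem hu (Set.toFinite _)] at h2
  omega

/-- A family of "lines" forming a Steiner system with `≥ 3` points per line cannot coexist with a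
Jordan set `Γ` of at most half of the points. -/
lemma steiner_false (𝓛 : Set (Set Ω)) (hinv : ∀ g : G, ∀ L ∈ 𝓛, g • L ∈ 𝓛)
    (h3 : ∀ L ∈ 𝓛, ∀ u v : Ω, ∃ t ∈ L, t ≠ u ∧ t ≠ v)
    (huniq : ∀ L ∈ 𝓛, ∀ M ∈ 𝓛, ∀ u v : Ω, u ≠ v → u ∈ L → v ∈ L → u ∈ M → v ∈ M → L = M)
    (hexist : ∀ u v : Ω, u ≠ v → ∃ L ∈ 𝓛, u ∈ L ∧ v ∈ L)
    (hne : ∀ L ∈ 𝓛, ∃ p, p ∉ L)
    (Γ : Set Ω) (hJ : J G Γ) (h1 : 1 < Γ.ncard) (hc : Γ.ncard ≤ (Γᶜ).ncard) : False := by
  classical
  obtain ⟨a, b, haΓ, hbΓ, hab⟩ := (Set.one_lt_ncard_iff (Set.toFinite Γ)).1 h1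
  by_cases hsub : ∀ L ∈ 𝓛, ∀ u v : Ω, u ≠ v → u ∈ L → v ∈ L → u ∉ Γ → v ∉ Γ → ∀ t ∈ L, t ∉ Γ
  · -- every line through two points outside Γ misses Γ
    set w := a with hw
    have hex : ∀ u, u ∉ Γ → ∃ t L, L ∈ 𝓛 ∧ u ∈ L ∧ w ∈ L ∧ t ∈ L ∧ t ≠ u ∧ t ≠ w := by
      intro u hu
      have huw : u ≠ w := fun h => hu (h ▸ haΓ)
      obtain ⟨L, hL, huL, hwL⟩ := hexist u w huw
      obtain ⟨t, htL, htu, htw⟩ := h3 L hL u w
      exact ⟨t, L, hL, huL, hwL, htL, htu, htw⟩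
    choose! t L hL huL hwL htL htu htw using hex
    have htΓ : ∀ u, u ∉ Γ → t u ∈ Γ := by
      intro u hu
      by_contra hc
      exact hsub (L u) (hL u hu) u (t u) (htu u hu).symm (huL u hu) (htL u hu) hu hc w (hwL u hu) haΓ
    have hle : (Γᶜ).ncard ≤ (Γ \ {w}).ncard := by
      apply Set.ncard_le_ncard_of_injOn t
      · intro u hu
        exact ⟨htΓ u hu, htw u hu⟩
      · intro u hu v hv huv
        by_contra hne'
        have hLeq : L u = L v := by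
          apply huniq _ (hL u hu) _ (hL v hv) (t u) w (htw u hu) (htL u hu) (hwL u hu) _ (hwL v hv)
          rw [huv]
          exact htL v hv
        exact hsub (L u) (hL u hu) u v hne' (huL u hu) (hLeq ▸ huL v hv) hu hv w (hwL u hu) haΓ
    have h5 : (Γ \ {w}).ncard < Γ.ncard :=
      Set.ncard_diff_singleton_lt_of_mem haΓ (Set.toFinite _)
    omega
  · push Not at hsub
    obtain ⟨L, hL, u, v, huv, huL, hvL, huΓ, hvΓ, w, hwL, hwΓ⟩ := hsub
    -- the fixing subgroup stabilizes `L`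
    have hfixL : ∀ k : G, (∀ z, z ∉ Γ → k • z = z) → k • L = L := by
      intro k hk
      apply huniq _ (hinv k L hL) _ hL u v huv _ _ huL hvL
      · exact ⟨u, huL, hk u huΓ⟩
      · exact ⟨v, hvL, hk v hvΓ⟩
    have hΓL : Γ ⊆ L := by
      intro x hx
      obtain ⟨k, hk, hkx⟩ := hJ w hwΓ x hx
      rw [← hfixL k hk, ← hkx]
      exact ⟨w, hwL, rfl⟩
    obtain ⟨p, hp⟩ := hne L hL
    have hpΓ : p ∉ Γ := fun h => hp (hΓL h)
    have hpw : p ≠ w := fun h => hp (h ▸ hwL)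
    obtain ⟨M, hM, hpM, hwM⟩ := hexist p w hpw
    obtain ⟨q, hqM, hqp, hqw⟩ := h3 M hM p w
    have hqL : q ∉ L := by
      intro h
      have := huniq L hL M hM q w hqw h hwL hqM hwM
      exact hp (this ▸ hpM)
    have hqΓ : q ∉ Γ := fun h => hqL (hΓL h)
    obtain ⟨x, hxΓ, hxw⟩ : ∃ x ∈ Γ, x ≠ w := by
      by_cases h : a = w
      · exact ⟨b, hbΓ, fun h' => hab (h.trans h'.symm)⟩
      · exact ⟨a, haΓ, h⟩
    obtain ⟨k, hk, hkx⟩ := hJ w hwΓ x hxΓ
    have hkM : k • M = M := by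
      apply huniq _ (hinv k M hM) _ hM p q hqp.symm _ _ hpM hqM
      · exact ⟨p, hpM, hk p hpΓ⟩
      · exact ⟨q, hqM, hk q hqΓ⟩
    have hxM : x ∈ M := by
      rw [← hkM, ← hkx]
      exact ⟨w, hwM, rfl⟩
    have := huniq L hL M hM x w hxw (hΓL hxΓ) hwL hxM hwM
    exact hp (this ▸ hpM)

end Jordan

section Main

variable {G Ω : Type*} [Group G] [MulAction G Ω] [Finite Ω]

lemma ncard_ge_two_of_not_subsingleton {S : Set Ω} (h : 2 ≤ S.ncard) : ¬ S.Subsingleton := by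
  intro hs
  have := Set.ncard_le_one_iff_subsingleton.2 hs
  omega

/-- Step 1: a proper Jordan set of a primitive group gives a Jordan set missing one point. -/
lemma exists_compl_singleton (hprim : IsPreprimitive G Ω) (Γ : Set Ω) (hJ : J G Γ)
    (h1 : 2 ≤ Γ.ncard) (h2 : Γ.ncard + 1 ≤ Nat.card Ω) : ∃ x : Ω, J G ({x}ᶜ : Set Ω) := by
  classical
  haveI := hprim
  -- maximal element
  let P : Set Ω → Prop := fun Δ => J G Δ ∧ 2 ≤ Δ.ncard ∧ Δ.ncard + 1 ≤ Nat.card Ω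
  haveI : Nonempty {Δ : Set Ω // P Δ} := ⟨⟨Γ, hJ, h1, h2⟩⟩
  obtain ⟨⟨Δ, hΔJ, hΔ2, hΔn⟩, hmax⟩ := Finite.exists_max (fun Δ : {Δ : Set Ω // P Δ} => Δ.1.ncard)
  have hmax' : ∀ Δ' : Set Ω, J G Δ' → 2 ≤ Δ'.ncard → Δ'.ncard + 1 ≤ Nat.card Ω →
      Δ'.ncard ≤ Δ.ncard := fun Δ' a b c => hmax ⟨Δ', a, b, c⟩
  have hΔne : Δ ≠ Set.univ := by
    rintro rfl
    rw [Set.ncard_univ] at hΔn
    omega
  have hunion : ∀ g : G, ((g • Δ) ∩ Δ).Nonempty → (g • Δ ∪ Δ).ncard + 1 ≤ Nat.card Ω → g • Δ = Δ := by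
    intro g hne hk
    exact union_max (hΔJ.smul g) hΔJ (Set.ncard_smul_set g Δ) rfl hΔ2 hmax' hne hk
  by_cases hsmall : 2 * Δ.ncard ≤ Nat.card Ω
  · -- Δ is a block
    exfalso
    have hB : IsBlock G Δ := by
      rw [isBlock_iff_smul_eq_of_nonempty]
      intro g hne
      apply hunion g hne
      have h3 := Set.ncard_union_add_ncard_inter (g • Δ) Δ (Set.toFinite _) (Set.toFinite _)
      have h4 : 0 < ((g • Δ) ∩ Δ).ncard := (Set.ncard_pos (Set.toFinite _)).2 hne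
      rw [Set.ncard_smul_set] at h3
      omega
    rcases hB.subsingleton_or_eq_univ with h | h
    · exact ncard_ge_two_of_not_subsingleton hΔ2 h
    · exact hΔne h
  · -- the complement is a block
    have hB : IsBlock G Δᶜ := by
      rw [isBlock_iff_smul_eq_of_nonempty]
      intro g hne
      obtain ⟨z, hz1, hz2⟩ := hne
      have hz1' : z ∉ g • Δ := by
        rw [Set.smul_set_compl] at hz1
        exact hz1
      have hz2' : z ∉ Δ := hz2
      have hzU : z ∉ g • Δ ∪ Δ := by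
        rintro (h | h)
        · exact hz1' h
        · exact hz2' h
      have hk := ncard_add_one_le hzU
      have hne' : ((g • Δ) ∩ Δ).Nonempty := by
        by_contra hc
        rw [Set.not_nonempty_iff_eq_empty] at hc
        have h3 := Set.ncard_union_add_ncard_inter (g • Δ) Δ (Set.toFinite _) (Set.toFinite _)
        rw [hc, Set.ncard_empty, Set.ncard_smul_set] at h3
        omega
      rw [Set.smul_set_compl, hunion g hne' hk]
    rcases hB.subsingleton_or_eq_univ with h | h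
    · obtain ⟨x, hx⟩ := (Set.ne_univ_iff_exists_notMem Δ).1 hΔne
      refine ⟨x, ?_⟩
      have hE : Δᶜ = {x} := h.eq_singleton_of_mem hx
      rw [← hE, compl_compl]
      exact hΔJ
    · exfalso
      have hΔe : Δ = ∅ := by
        rw [← compl_compl Δ, h, Set.compl_univ]
      rw [hΔe] at hΔ2
      simp at hΔ2

/-- Step 2: two-transitivity. -/
lemma two_trans (hprim : IsPreprimitive G Ω) (x : Ω) (hx : J G ({x}ᶜ : Set Ω)) (a b c d : Ω)
    (hab : a ≠ b) (hcd : c ≠ d) : ∃ g : G, g • a = c ∧ g • b = d := by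
  haveI := hprim
  obtain ⟨h0, hh0⟩ := MulAction.exists_smul_eq G x d
  have hJd : J G ({d}ᶜ : Set Ω) := by
    have := hx.smul h0
    rwa [Set.smul_set_compl, Set.smul_set_singleton, hh0] at this
  obtain ⟨h1, hh1⟩ := MulAction.exists_smul_eq G b d
  have ha : h1 • a ∈ ({d}ᶜ : Set Ω) := by
    intro h
    apply hab
    apply MulAction.injective h1
    show h1 • a = h1 • b
    rw [hh1]
    exact h
  obtain ⟨k, hk, hka⟩ := hJd _ ha c hcd
  refine ⟨k * h1, ?_, ?_⟩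
  · rw [mul_smul, hka]
  · rw [mul_smul, hh1]
    exact hk d (by simp)

/-- Step 3: a Jordan set missing exactly two points. -/
lemma exists_compl_pair (hprim : IsPreprimitive G Ω)
    (h2t : ∀ a b c d : Ω, a ≠ b → c ≠ d → ∃ g : G, g • a = c ∧ g • b = d)
    (Γ : Set Ω) (hJ : J G Γ)
    (h1 : 1 < Γ.ncard) (h2 : 2 * Γ.ncard ≤ Nat.card Ω) :
    ∃ x y : Ω, x ≠ y ∧ J G ({x, y}ᶜ : Set Ω) := by
  classical
  haveI := hprim
  let P : Set Ω → Prop := fun Δ => J G Δ ∧ 2 ≤ Δ.ncard ∧ Δ.ncard + 2 ≤ Nat.card Ω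
  haveI : Nonempty {Δ : Set Ω // P Δ} := ⟨⟨Γ, hJ, h1, by omega⟩⟩
  obtain ⟨⟨Δ, hΔJ, hΔ2, hΔn⟩, hmax⟩ := Finite.exists_max (fun Δ : {Δ : Set Ω // P Δ} => Δ.1.ncard)
  have hmax' : ∀ Δ' : Set Ω, J G Δ' → 2 ≤ Δ'.ncard → Δ'.ncard + 2 ≤ Nat.card Ω →
      Δ'.ncard ≤ Δ.ncard := fun Δ' a b c => hmax ⟨Δ', a, b, c⟩
  have hΔne : Δ ≠ Set.univ := by
    rintro rfl
    rw [Set.ncard_univ] at hΔn
    omega
  have hunion : ∀ g h : G, ((g • Δ) ∩ (h • Δ)).Nonempty → (g • Δ ∪ h • Δ).ncard + 2 ≤ Nat.card Ω →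
      g • Δ = h • Δ := by
    intro g h hne hk
    exact union_max (hΔJ.smul g) (hΔJ.smul h) (Set.ncard_smul_set g Δ) (Set.ncard_smul_set h Δ)
      hΔ2 hmax' hne hk
  -- `Δ` is large
  have hlarge : Nat.card Ω ≤ 2 * Δ.ncard := by
    by_contra hsmall
    have hB : IsBlock G Δ := by
      rw [isBlock_iff_smul_eq_of_nonempty]
      intro g hne
      have := hunion g 1 (by rwa [one_smul]) (by
        rw [one_smul]
        have h3 := Set.ncard_union_add_ncard_inter (g • Δ) Δ (Set.toFinite _) (Set.toFinite _)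
        have h4 : 0 < ((g • Δ) ∩ Δ).ncard := (Set.ncard_pos (Set.toFinite _)).2 hne
        rw [Set.ncard_smul_set] at h3
        omega)
      rwa [one_smul] at this
    rcases hB.subsingleton_or_eq_univ with h | h
    · exact ncard_ge_two_of_not_subsingleton hΔ2 h
    · exact hΔne h
  have hE : Δ.ncard + (Δᶜ).ncard = Nat.card Ω := Set.ncard_add_ncard_compl Δ
  by_cases hE2 : (Δᶜ).ncard = 2
  · obtain ⟨x, y, hxy, hEq⟩ := Set.ncard_eq_two.1 hE2
    refine ⟨x, y, hxy, ?_⟩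
    rw [← hEq, compl_compl]
    exact hΔJ
  · exfalso
    have hE3 : 3 ≤ (Δᶜ).ncard := by omega
    apply steiner_false (G := G) {L | ∃ g : G, L = g • Δᶜ} _ _ _ _ _ Γ hJ h1
    · have := Set.ncard_add_ncard_compl Γ
      omega
    · rintro k L ⟨g, rfl⟩
      exact ⟨k * g, by rw [mul_smul]⟩
    · rintro L ⟨g, rfl⟩ u v
      have h4 : ({u, v} : Set Ω).ncard < (g • Δᶜ).ncard := by
        rw [Set.ncard_smul_set]
        have := Set.ncard_insert_le u ({v} : Set Ω)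
        rw [Set.ncard_singleton] at this
        omega
      obtain ⟨t, ht, hnot⟩ := Set.exists_mem_notMem_of_ncard_lt_ncard h4 (Set.toFinite _)
      refine ⟨t, ht, fun h => hnot (Or.inl h), fun h => hnot (Or.inr h)⟩
    · rintro L ⟨g, rfl⟩ M ⟨h, rfl⟩ u v huv hu hv hu' hv'
      rw [Set.smul_set_compl] at hu hv hu' hv' ⊢
      rw [Set.smul_set_compl]
      have hU : u ∉ g • Δ ∪ h • Δ := by
        rintro (hh | hh)
        · exact hu hh
        · exact hu' hh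
      have hV : v ∉ g • Δ ∪ h • Δ := by
        rintro (hh | hh)
        · exact hv hh
        · exact hv' hh
      have hk := ncard_add_two_le huv hU hV
      have hne : ((g • Δ) ∩ (h • Δ)).Nonempty := by
        by_contra hc
        rw [Set.not_nonempty_iff_eq_empty] at hc
        have h3 := Set.ncard_union_add_ncard_inter (g • Δ) (h • Δ) (Set.toFinite _) (Set.toFinite _)
        rw [hc, Set.ncard_empty, Set.ncard_smul_set, Set.ncard_smul_set] at h3
        omega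
      rw [hunion g h hne hk]
    · intro u v huv
      have h4 : 1 < (Δᶜ).ncard := by omega
      obtain ⟨e1, e2, he1, he2, he12⟩ := (Set.one_lt_ncard_iff (Set.toFinite _)).1 h4
      obtain ⟨g, hg1, hg2⟩ := h2t e1 e2 u v he12 huv
      exact ⟨g • Δᶜ, ⟨g, rfl⟩, ⟨e1, he1, hg1⟩, ⟨e2, he2, hg2⟩⟩
    · rintro L ⟨g, rfl⟩
      have h4 : 0 < Δ.ncard := by omega
      obtain ⟨d, hd⟩ := (Set.ncard_pos (Set.toFinite _)).1 h4
      refine ⟨g • d, ?_⟩
      rw [Set.smul_set_compl]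
      intro h
      exact h ⟨d, hd, rfl⟩

end Main

theorem result {G Ω : Type*} [Group G] [Finite G] [MulAction G Ω] [FaithfulSMul G Ω] [Finite Ω] (hprim : MulAction.IsPreprimitive G Ω) (Γ : Set Ω) (h1 : 1 < Γ.ncard) (h2 : 2 * Γ.ncard ≤ Nat.card Ω) (htr : ∀ x ∈ Γ, ∀ y ∈ Γ, ∃ g : G, (∀ z ∉ Γ, g • z = z) ∧ g • x = y) : MulAction.IsMultiplyPretransitive G Ω 3 := by
  classical
  have hJ : J G Γ := htr
  obtain ⟨x0, hx0⟩ := exists_compl_singleton hprim Γ hJ h1 (by omega)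
  have h2t := two_trans hprim x0 hx0
  obtain ⟨x, y, hxy, hJxy⟩ := exists_compl_pair hprim h2t Γ hJ h1 h2
  refine ⟨fun j j' => ?_⟩
  have h01 : j 0 ≠ j 1 := fun h => by simpa using j.injective h
  have h02 : j 0 ≠ j 2 := fun h => by simpa using j.injective h
  have h12 : j 1 ≠ j 2 := fun h => by simpa using j.injective h
  have h01' : j' 0 ≠ j' 1 := fun h => by simpa using j'.injective h
  have h02' : j' 0 ≠ j' 2 := fun h => by simpa using j'.injective h
  have h12' : j' 1 ≠ j' 2 := fun h => by simpa using j'.injective h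
  obtain ⟨g, hg0, hg1⟩ := h2t (j 0) (j 1) (j' 0) (j' 1) h01 h01'
  obtain ⟨h, hh0, hh1⟩ := h2t x y (j' 0) (j' 1) hxy h01'
  have hJ' : J G (({j' 0, j' 1} : Set Ω)ᶜ) := by
    have := hJxy.smul h
    rwa [Set.smul_set_compl, Set.smul_set_insert, Set.smul_set_singleton, hh0, hh1] at this
  have hg2 : g • j 2 ∈ (({j' 0, j' 1} : Set Ω)ᶜ) := by
    rintro (hh | hh)
    · rw [← hg0] at hh
      exact h02 (MulAction.injective g hh).symm
    · rw [Set.mem_singleton_iff, ← hg1] at hh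
      exact h12 (MulAction.injective g hh).symm
  have hj2 : j' 2 ∈ (({j' 0, j' 1} : Set Ω)ᶜ) := by
    rintro (hh | hh)
    · exact h02' hh.symm
    · rw [Set.mem_singleton_iff] at hh
      exact h12' hh.symm
  obtain ⟨k, hk, hk2⟩ := hJ' _ hg2 _ hj2
  refine ⟨k * g, ?_⟩
  ext i
  show (k * g) • j i = j' i
  fin_cases i
  · show (k * g) • j 0 = j' 0
    rw [mul_smul, hg0]
    exact hk _ (by simp)
  · show (k * g) • j 1 = j' 1
    rw [mul_smul, hg1]
    exact hk _ (by simp)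
  · show (k * g) • j 2 = j' 2
    rw [mul_smul, hk2]

end Cfsg.Agent.S3707
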