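import Cfsg.Statements.S3733
import Mathlib

set_option autoImplicit false
open Cfsg

namespace Cfsg.Agent.S3733

open scoped BigOperators

/-- Let A and V be subgroups of a finite group with V abelian and nontrivial and A normalizing V. Suppose a nonempty finite family of proper subgroups of A partitions A: every non-identity element of A lies in exactly one member. If the number of members minus one is coprime to the order of V, then some member B of the family has a non-identity fixed point on V, that is V ∩ C(B) ≠ 1. -/
theorem result {G : Type*} [Group G] [Finite G] (A V : Subgroup G) (hVab : IsMulCommutative V) (hV : V ≠ ⊥) (hAV : A ≤ Subgroup.normalizer (V : Set G)) (𝒜 : Finset (Subgroup G)) (hne : 𝒜.Nonempty) (hprop : ∀ B ∈ 𝒜, B < A) (hpart : ∀ a ∈ A, a ≠ 1 → ∃! B, B ∈ 𝒜 ∧ a ∈ B) (hk : (𝒜.card - 1).Coprime (Nat.card V)) : ∃ B ∈ 𝒜, V ⊓ Subgroup.centralizer (B : Set G) ≠ ⊥ := by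
  classical
  by_contra hcon
  push Not at hcon
  have : Fintype G := Fintype.ofFinite G
  -- conjugation action of a ∈ A on V
  have hconj : ∀ a ∈ A, ∀ v ∈ V, a * v * a⁻¹ ∈ V := by
    intro a ha v hv
    exact (Subgroup.mem_normalizer_iff.mp (hAV ha) v).mp hv
  -- work in the commutative group V
  let _ : CommGroup V := { (inferInstance : Group V) with
    mul_comm := fun a b => by
      have := hVab.is_comm.comm a b
      exact this }
  let act : A → V → V := fun a v => ⟨(a : G) * v * (a : G)⁻¹, hconj a a.2 v v.2⟩
  have act_val : ∀ (a : A) (v : V), ((act a v : V) : G) = (a : G) * v * (a : G)⁻¹ := fun _ _ => rfl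
  have act_mul : ∀ (a b : A) (v : V), act (a * b) v = act a (act b v) := by
    intro a b v
    ext
    simp [act_val, mul_assoc]
  have act_one : ∀ v : V, act 1 v = v := by
    intro v
    ext
    simp [act_val]
  have act_hom : ∀ (a : A) (v w : V), act a (v * w) = act a v * act a w := by
    intro a v w
    ext
    simp [act_val, mul_assoc]
  -- norm over a subgroup
  -- For B in the family every norm vanishes
  have hle : ∀ B ∈ 𝒜, B ≤ A := fun B hB => (hprop B hB).le
  -- the product over elements of G in a subgroup
  let norm : Finset A → V → V := fun S v => ∏ a ∈ S, act a v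
  let elts : Subgroup G → Finset A := fun B => Finset.univ.filter (fun a : A => (a : G) ∈ B)
  have hnorm_fixed : ∀ B ∈ 𝒜, ∀ v : V, norm (elts B) v = 1 := by
    intro B hB v
    have hfix : ((norm (elts B) v : V) : G) ∈ V ⊓ Subgroup.centralizer (B : Set G) := by
      refine Subgroup.mem_inf.mpr ⟨(norm (elts B) v).2, Subgroup.mem_centralizer_iff.mpr ?_⟩
      intro b hb
      have hbA : b ∈ A := hle B hB hb
      -- conjugating by b permutes
      let b' : A := ⟨b, hbA⟩
      have : act b' (norm (elts B) v) = norm (elts B) v := by
        have hmap : ∀ (S : Finset A) (w : V), act b' (∏ a ∈ S, act a w) = ∏ a ∈ S, act b' (act a w) := by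
          intro S w
          induction S using Finset.induction_on with
          | empty =>
            simp only [Finset.prod_empty]
            ext
            simp [act_val]
          | insert x S hx ih =>
            rw [Finset.prod_insert hx, act_hom, ih, Finset.prod_insert hx]
        change act b' (∏ a ∈ elts B, act a v) = ∏ a ∈ elts B, act a v
        rw [hmap]
        refine Finset.prod_bij (fun a _ => b' * a) ?_ ?_ ?_ ?_
        · intro a ha
          simp only [elts, Finset.mem_filter, Finset.mem_univ, true_and] at ha ⊢
          exact B.mul_mem hb ha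
        · intro a _ c _ h
          exact mul_left_cancel h
        · intro a ha
          refine ⟨b'⁻¹ * a, ?_, by simp⟩
          simp only [elts, Finset.mem_filter, Finset.mem_univ, true_and] at ha ⊢
          simpa using B.mul_mem (B.inv_mem hb) ha
        · intro a _
          rw [act_mul]
      have h2 := congrArg (Subtype.val) this
      simp only [act_val] at h2
      have h3 : b * ((norm (elts B) v : V) : G) * b⁻¹ = ((norm (elts B) v : V) : G) := h2
      calc b * ((norm (elts B) v : V) : G) = (b * ((norm (elts B) v : V) : G) * b⁻¹) * b := by group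
        _ = _ := by rw [h3]
    rw [hcon B hB] at hfix
    ext
    simpa using hfix
  -- the total norm over A is fixed by A and hence by every B
  obtain ⟨B₀, hB₀⟩ := hne
  have hnormA : ∀ v : V, norm Finset.univ v = 1 := by
    intro v
    have hfix : ((norm Finset.univ v : V) : G) ∈ V ⊓ Subgroup.centralizer (B₀ : Set G) := by
      refine Subgroup.mem_inf.mpr ⟨(norm Finset.univ v).2, Subgroup.mem_centralizer_iff.mpr ?_⟩
      intro b hb
      have hbA : b ∈ A := hle B₀ hB₀ hb
      let b' : A := ⟨b, hbA⟩
      have : act b' (norm Finset.univ v) = norm Finset.univ v := by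
        have hmap : ∀ (S : Finset A) (w : V), act b' (∏ a ∈ S, act a w) = ∏ a ∈ S, act b' (act a w) := by
          intro S w
          induction S using Finset.induction_on with
          | empty =>
            simp only [Finset.prod_empty]
            ext
            simp [act_val]
          | insert x S hx ih =>
            rw [Finset.prod_insert hx, act_hom, ih, Finset.prod_insert hx]
        change act b' (∏ a ∈ Finset.univ, act a v) = ∏ a ∈ Finset.univ, act a v
        rw [hmap]
        refine Finset.prod_bij (fun a _ => b' * a) (fun _ _ => Finset.mem_univ _) ?_ ?_ ?_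
        · intro a _ c _ h
          exact mul_left_cancel h
        · intro a _
          exact ⟨b'⁻¹ * a, Finset.mem_univ _, by simp⟩
        · intro a _
          rw [act_mul]
      have h2 := congrArg (Subtype.val) this
      simp only [act_val] at h2
      have h3 : b * ((norm Finset.univ v : V) : G) * b⁻¹ = ((norm Finset.univ v : V) : G) := h2
      calc b * ((norm Finset.univ v : V) : G) = (b * ((norm Finset.univ v : V) : G) * b⁻¹) * b := by group
        _ = _ := by rw [h3]
    rw [hcon B₀ hB₀] at hfix
    ext
    simpa using hfix
  -- Counting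
  have hkey : ∀ v : V, v ^ (𝒜.card - 1) = 1 := by
    intro v
    -- product over the family of the norms
    have h1 : ∏ B ∈ 𝒜, norm (elts B) v = 1 := Finset.prod_eq_one (fun B hB => hnorm_fixed B hB v)
    -- rewrite as double product
    have h2 : ∏ B ∈ 𝒜, norm (elts B) v = v ^ (𝒜.card - 1) * norm Finset.univ v := by
      have hswap : ∏ B ∈ 𝒜, ∏ a ∈ elts B, act a v
          = ∏ a : A, (act a v) ^ ((𝒜.filter (fun B => (a : G) ∈ B)).card) := by
        have : ∀ B ∈ 𝒜, ∏ a ∈ elts B, act a v = ∏ a : A, (if (a : G) ∈ B then act a v else 1) := by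
          intro B _
          simp only [elts]
          rw [Finset.prod_filter]
        rw [Finset.prod_congr rfl this, Finset.prod_comm]
        refine Finset.prod_congr rfl ?_
        intro a _
        rw [← Finset.prod_filter]
        simp
      change ∏ B ∈ 𝒜, ∏ a ∈ elts B, act a v = v ^ (𝒜.card - 1) * ∏ a ∈ Finset.univ, act a v
      rw [hswap]
      -- card of filter: 1 for a ≠ 1, |𝒜| for a = 1
      have hcard1 : ∀ a : A, a ≠ 1 → (𝒜.filter (fun B => (a : G) ∈ B)).card = 1 := by
        intro a ha
        have ha' : (a : G) ≠ 1 := by
          intro h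
          exact ha (Subtype.ext h)
        obtain ⟨B, ⟨hB, haB⟩, huniq⟩ := hpart a a.2 ha'
        rw [Finset.card_eq_one]
        refine ⟨B, ?_⟩
        ext C
        simp only [Finset.mem_filter, Finset.mem_singleton]
        constructor
        · intro ⟨hC, haC⟩
          exact huniq C ⟨hC, haC⟩
        · rintro rfl
          exact ⟨hB, haB⟩
      have hcard0 : (𝒜.filter (fun B => ((1 : A) : G) ∈ B)).card = 𝒜.card := by
        congr 1
        apply Finset.filter_true_of_mem
        intro B _
        exact B.one_mem
      have hpos : 1 ≤ 𝒜.card := Finset.card_pos.mpr ⟨B₀, hB₀⟩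
      rw [← Finset.mul_prod_erase Finset.univ _ (Finset.mem_univ (1 : A)),
        ← Finset.mul_prod_erase (Finset.univ : Finset A) (fun a => act a v) (Finset.mem_univ (1 : A))]
      rw [hcard0, act_one]
      have hrest : ∏ a ∈ Finset.univ.erase (1 : A), (act a v) ^ ((𝒜.filter (fun B => (a : G) ∈ B)).card)
          = ∏ a ∈ Finset.univ.erase (1 : A), act a v := by
        refine Finset.prod_congr rfl ?_
        intro a ha
        rw [hcard1 a (Finset.ne_of_mem_erase ha), pow_one]
      rw [hrest, ← mul_assoc]
      congr 1
      rw [← pow_succ]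
      congr 1
      omega
    rw [h2, hnormA v, mul_one] at h1
    exact h1
  -- Coprimality forces V trivial
  apply hV
  rw [eq_bot_iff]
  intro v hv
  have hv1 : (⟨v, hv⟩ : V) ^ (𝒜.card - 1) = 1 := hkey ⟨v, hv⟩
  have hv2 : (⟨v, hv⟩ : V) ^ (Nat.card V) = 1 := pow_card_eq_one'
  have hv3 : (⟨v, hv⟩ : V) = 1 := by
    have := pow_gcd_eq_one.mpr ⟨hv1, hv2⟩
    rw [hk.gcd_eq_one] at this
    simpa using this
  rw [Subgroup.mem_bot]
  exact congrArg Subtype.val hv3

end Cfsg.Agent.S3733
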