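import Cfsg.Statements.S3734
import Cfsg.Agent.Lib.H17.AbelianIrred
import Cfsg.Agent.Lib.H01.Coprime3
import Cfsg.Agent.Lib.H01.Basic

set_option autoImplicit false
set_option linter.style.haveILetI false
open Cfsg

namespace Cfsg.Agent.S3734

open Subgroup H01

variable {X : Type*} [Group X] [Finite X]

/-- the subgroups with cyclic quotient -/
abbrev cycSet (A : Subgroup X) : Set (Subgroup X) :=
  {B : Subgroup X | B ≤ A ∧ ∃ a ∈ A, B ⊔ Subgroup.zpowers a = A}

lemma le_normalizer_of_conj {A H : Subgroup X} (h : ∀ a ∈ A, ∀ x ∈ H, a * x * a⁻¹ ∈ H) :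
    A ≤ normalizer (H : Set X) := by
  intro a ha
  rw [Subgroup.mem_normalizer_iff]
  intro x
  constructor
  · exact h a ha x
  · intro hx
    have := h a⁻¹ (A.inv_mem ha) _ hx
    simpa [mul_assoc] using this

lemma conj_mem {A H : Subgroup X} (h : A ≤ normalizer (H : Set X)) {a x : X} (ha : a ∈ A)
    (hx : x ∈ H) : a * x * a⁻¹ ∈ H :=
  (Subgroup.mem_normalizer_iff.1 (h ha) x).1 hx

/-- The family of candidate subgroups is not empty. -/
lemma exists_candidate (A P R : Subgroup X) (p : ℕ) [Fact p.Prime] (hP : IsPGroup p P)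
    (hAP : A ≤ normalizer (P : Set X)) (hRP : R ≤ P) (hAR : A ≤ normalizer (R : Set X))
    (hne : R ≠ P) :
    ∃ Q : Subgroup X, R ≤ Q ∧ Q ≤ P ∧ Q ≠ P ∧ A ≤ normalizer (Q : Set X) ∧
      P ≤ normalizer (Q : Set X) ∧ ∀ x ∈ P, ∀ y ∈ P, x * y * x⁻¹ * y⁻¹ ∈ Q := by
  have hR' : R.subgroupOf P ≠ ⊤ := by
    intro h
    apply hne
    apply le_antisymm hRP
    intro x hx
    have : (⟨x, hx⟩ : P) ∈ R.subgroupOf P := by rw [h]; trivial
    exact this
  obtain ⟨M, hM, hle⟩ := (eq_top_or_exists_le_coatom (R.subgroupOf P)).resolve_left hR'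
  obtain ⟨hMn, -⟩ := isCoatom_normal_index hP hM
  set M' : Subgroup X := M.map P.subtype with hM'
  have hM'P : M' ≤ P := by
    rintro _ ⟨y, _, rfl⟩
    exact y.2
  have hRM' : R ≤ M' := by
    intro r hr
    exact ⟨⟨r, hRP hr⟩, hle hr, rfl⟩
  have hPM' : ∀ y ∈ P, ∀ x ∈ M', y * x * y⁻¹ ∈ M' := by
    rintro y hy _ ⟨x, hx, rfl⟩
    refine ⟨⟨y, hy⟩ * x * ⟨y, hy⟩⁻¹, hMn.conj_mem x hx _, rfl⟩
  have hcommM : ∀ x ∈ P, ∀ y ∈ P, x * y * x⁻¹ * y⁻¹ ∈ M' := by
    intro x hx y hy
    have h1 : (⟨x, hx⟩ : P) * ⟨y, hy⟩ * (⟨x, hx⟩ : P)⁻¹ * (⟨y, hy⟩ : P)⁻¹ ∈ commutator P := by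
      rw [_root_.commutator_def]
      exact Subgroup.commutator_mem_commutator (Subgroup.mem_top _) (Subgroup.mem_top _)
    have h2 := (mem_frattini_iff.1 (commutator_le_frattini_of_isPGroup hP h1)) M hM
    exact ⟨_, h2, rfl⟩
  let Q₀ : Subgroup X := ⨅ a : A, M'.comap (MulAut.conj (a : X)).toMonoidHom
  have hQ₀ : ∀ x, x ∈ Q₀ ↔ ∀ a ∈ A, a * x * a⁻¹ ∈ M' := by
    intro x
    simp only [Q₀, Subgroup.mem_iInf, Subgroup.mem_comap]
    constructor
    · intro h a ha
      exact h ⟨a, ha⟩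
    · intro h a
      exact h a a.2
  have hQ₀M : Q₀ ≤ M' := by
    intro x hx
    have := (hQ₀ x).1 hx 1 (one_mem _)
    simpa using this
  refine ⟨Q₀, ?_, hQ₀M.trans hM'P, ?_, ?_, ?_, ?_⟩
  · intro r hr
    rw [hQ₀]
    intro a ha
    exact hRM' (conj_mem hAR ha hr)
  · intro h
    apply hM.1
    rw [eq_top_iff]
    intro y _
    have h1 : (y : X) ∈ Q₀ := by rw [h]; exact y.2
    obtain ⟨z, hz, hzy⟩ := hQ₀M h1
    have : z = y := Subtype.ext hzy
    rwa [← this]
  · apply le_normalizer_of_conj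
    intro a₀ ha₀ x hx
    rw [hQ₀] at hx ⊢
    intro a ha
    have := hx (a * a₀) (A.mul_mem ha ha₀)
    have h2 : a * (a₀ * x * a₀⁻¹) * a⁻¹ = a * a₀ * x * (a * a₀)⁻¹ := by group
    rwa [h2]
  · apply le_normalizer_of_conj
    intro y hy x hx
    rw [hQ₀] at hx ⊢
    intro a ha
    have h1 := hPM' _ (conj_mem hAP ha hy) _ (hx a ha)
    have h2 : a * (y * x * y⁻¹) * a⁻¹ = (a * y * a⁻¹) * (a * x * a⁻¹) * (a * y * a⁻¹)⁻¹ := by group
    rwa [h2]
  · intro x hx y hy
    rw [hQ₀]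
    intro a ha
    have h1 := hcommM _ (conj_mem hAP ha hx) _ (conj_mem hAP ha hy)
    have h2 : a * (x * y * x⁻¹ * y⁻¹) * a⁻¹ =
        (a * x * a⁻¹) * (a * y * a⁻¹) * (a * x * a⁻¹)⁻¹ * (a * y * a⁻¹)⁻¹ := by group
    rwa [h2]


lemma exists_gen_of_quot {A P : Type*} [CommGroup A] [Finite A] [Group P] (α : A →* MulAut P)
    (N : Subgroup P) [hNn : N.Normal]
    (hcomm : ∀ x y : P, x * y * x⁻¹ * y⁻¹ ∈ N) (hN : ∀ a, ∀ x ∈ N, α a x ∈ N) (hne : N ≠ ⊤)
    (hmax : ∀ M : Subgroup P, N ≤ M → (∀ a, ∀ x ∈ M, α a x ∈ M) → M = N ∨ M = ⊤) :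
    ∃ a : A, ∀ a' : A, ∃ k : ℤ, ∀ x : P, (α a' x)⁻¹ * α (a ^ k) x ∈ N := by
  letI inst : CommGroup (P ⧸ N) := { (inferInstance : Group (P ⧸ N)) with
    mul_comm := by
      intro x y
      induction x using QuotientGroup.induction_on with
      | H x =>
      induction y using QuotientGroup.induction_on with
      | H y =>
      rw [← QuotientGroup.mk_mul, ← QuotientGroup.mk_mul, QuotientGroup.eq]
      have := hcomm y x
      have h2 : (x * y)⁻¹ * (y * x) = y⁻¹ * (x⁻¹ * ((y * x * y⁻¹ * x⁻¹) * x)) * y := by group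
      rw [h2]
      have h3 := hNn.conj_mem _ this x⁻¹
      have h4 := hNn.conj_mem _ h3 y⁻¹
      have h5 : y⁻¹ * (x⁻¹ * (y * x * y⁻¹ * x⁻¹) * x⁻¹⁻¹) * y⁻¹⁻¹ =
          y⁻¹ * (x⁻¹ * ((y * x * y⁻¹ * x⁻¹) * x)) * y := by group
      rwa [h5] at h4 }
  let β : A → (P ⧸ N) →* (P ⧸ N) := fun a =>
    QuotientGroup.map N N ((α a : MulAut P) : P ≃* P).toMonoidHom (fun x hx => hN a x hx)
  have hβ : ∀ (a : A) (x : P), β a (x : P ⧸ N) = ((α a x : P) : P ⧸ N) := fun a x => rfl
  let φ : A →* AddMonoid.End (Additive (P ⧸ N)) :=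
    { toFun := fun a => MonoidHom.toAdditive (β a)
      map_one' := by
        apply AddMonoidHom.ext
        intro x
        induction x using Additive.rec with
        | ofMul x =>
        induction x using QuotientGroup.induction_on with
        | H x =>
        show Additive.ofMul (β 1 (x : P ⧸ N)) = Additive.ofMul (x : P ⧸ N)
        rw [hβ]
        simp
      map_mul' := by
        intro a b
        apply AddMonoidHom.ext
        intro x
        induction x using Additive.rec with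
        | ofMul x =>
        induction x using QuotientGroup.induction_on with
        | H x =>
        show Additive.ofMul (β (a * b) (x : P ⧸ N)) = Additive.ofMul (β a (β b (x : P ⧸ N)))
        rw [hβ, hβ, hβ]
        simp }
  have hφ : ∀ (a : A) (x : P), φ a (Additive.ofMul (x : P ⧸ N)) = Additive.ofMul ((α a x : P) : P ⧸ N) :=
    fun a x => rfl
  haveI : Nontrivial (P ⧸ N) := by
    obtain ⟨x, hx⟩ : ∃ x, x ∉ N := by
      by_contra h
      push Not at h
      exact hne (eq_top_iff.2 fun x _ => h x)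
    exact ⟨⟨(x : P ⧸ N), 1, fun h => hx ((QuotientGroup.eq_one_iff x).1 h)⟩⟩
  have hirr : ∀ U : AddSubgroup (Additive (P ⧸ N)), (∀ a, ∀ u ∈ U, φ a u ∈ U) → U = ⊥ ∨ U = ⊤ := by
    intro U hU
    let M : Subgroup P :=
      { carrier := {x | Additive.ofMul (x : P ⧸ N) ∈ U}
        one_mem' := by
          show Additive.ofMul ((1 : P) : P ⧸ N) ∈ U
          exact U.zero_mem
        mul_mem' := by
          intro x y hx hy
          show Additive.ofMul ((x * y : P) : P ⧸ N) ∈ U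
          rw [QuotientGroup.mk_mul, ofMul_mul]
          exact U.add_mem hx hy
        inv_mem' := by
          intro x hx
          show Additive.ofMul ((x⁻¹ : P) : P ⧸ N) ∈ U
          rw [QuotientGroup.mk_inv, ofMul_inv]
          exact U.neg_mem hx }
    have hNM : N ≤ M := by
      intro x hx
      show Additive.ofMul (x : P ⧸ N) ∈ U
      have : (x : P ⧸ N) = 1 := (QuotientGroup.eq_one_iff x).2 hx
      rw [this]
      exact U.zero_mem
    rcases hmax M hNM (fun a x hx => hU a _ hx) with h | h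
    · left
      rw [eq_bot_iff]
      intro u hu
      induction u using Additive.rec with
      | ofMul u =>
      induction u using QuotientGroup.induction_on with
      | H u =>
      have h1 : u ∈ M := hu
      rw [h] at h1
      have : (u : P ⧸ N) = 1 := (QuotientGroup.eq_one_iff u).2 h1
      rw [this]
      exact AddSubgroup.zero_mem _
    · right
      rw [eq_top_iff]
      intro u _
      induction u using Additive.rec with
      | ofMul u =>
      induction u using QuotientGroup.induction_on with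
      | H u =>
      have h1 : u ∈ M := by rw [h]; trivial
      exact h1
  obtain ⟨a, ha⟩ := H17.exists_gen_of_irreducible φ hirr
  refine ⟨a, fun a' => ?_⟩
  obtain ⟨k, hk⟩ := ha a'
  refine ⟨k, fun x => ?_⟩
  rw [← QuotientGroup.eq]
  have := congrArg (fun f : AddMonoid.End (Additive (P ⧸ N)) => f (Additive.ofMul (x : P ⧸ N))) hk
  simp only [hφ] at this
  exact this

lemma p_case (A P R : Subgroup X) (hAab : ∀ a ∈ A, ∀ b ∈ A, a * b = b * a)
    (hAP : A ≤ normalizer (P : Set X)) (hcop : (Nat.card A).Coprime (Nat.card P)) (p : ℕ)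
    [Fact p.Prime] (hP : IsPGroup p P) (hRP : R ≤ P) (hAR : A ≤ normalizer (R : Set X))
    (hB : ∀ B ∈ cycSet A, P ⊓ centralizer (B : Set X) ≤ R) : R = P := by
  by_contra hne
  let 𝓕 : Set (Subgroup X) := {Q | R ≤ Q ∧ Q ≤ P ∧ Q ≠ P ∧ A ≤ normalizer (Q : Set X) ∧
    P ≤ normalizer (Q : Set X) ∧ ∀ x ∈ P, ∀ y ∈ P, x * y * x⁻¹ * y⁻¹ ∈ Q}
  have hne𝓕 : 𝓕.Nonempty := by
    obtain ⟨Q, hQ⟩ := exists_candidate A P R p hP hAP hRP hAR hne
    exact ⟨Q, hQ⟩
  obtain ⟨Q, hQ, hmaxQ⟩ := Set.Finite.exists_maximal (Set.toFinite 𝓕) hne𝓕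
  obtain ⟨hRQ, hQP, hQne, hAQ, hPQ, hcomQ⟩ := hQ
  letI cA : CommGroup A := { (inferInstance : Group A) with
    mul_comm := fun a b => Subtype.ext (hAab a a.2 b b.2) }
  let α : A →* MulAut P := P.normalizerMonoidHom.comp (Subgroup.inclusion hAP)
  have hα : ∀ (a : A) (x : P), ((α a x : P) : X) = (a : X) * x * (a : X)⁻¹ := fun a x => rfl
  let N : Subgroup P := Q.subgroupOf P
  have hNmem : ∀ x : P, x ∈ N ↔ (x : X) ∈ Q := fun x => Subgroup.mem_subgroupOf
  haveI hNn : N.Normal := ⟨fun n hn g => by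
    rw [hNmem] at hn ⊢
    exact conj_mem hPQ g.2 hn⟩
  obtain ⟨a, ha⟩ := exists_gen_of_quot α N
    (fun x y => by
      rw [hNmem]
      exact hcomQ _ x.2 _ y.2)
    (fun a x hx => by
      rw [hNmem] at hx ⊢
      rw [hα]
      exact conj_mem hAQ a.2 hx)
    (by
      intro h
      apply hQne
      apply le_antisymm hQP
      intro x hx
      have : (⟨x, hx⟩ : P) ∈ N := by rw [h]; trivial
      exact (hNmem _).1 this)
    (by
      intro M hNM hM
      let Q' : Subgroup X := M.map P.subtype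
      have hQ'mem : ∀ x : P, (x : X) ∈ Q' ↔ x ∈ M := by
        intro x
        constructor
        · rintro ⟨y, hy, hyx⟩
          have : y = x := Subtype.ext hyx
          rwa [← this]
        · intro h
          exact ⟨x, h, rfl⟩
      have hQ'P : Q' ≤ P := by
        rintro _ ⟨y, _, rfl⟩
        exact y.2
      have hQQ' : Q ≤ Q' := by
        intro x hx
        have hxP := hQP hx
        exact (hQ'mem ⟨x, hxP⟩).2 (hNM ((hNmem _).2 hx))
      have hAQ' : A ≤ normalizer (Q' : Set X) := by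
        apply le_normalizer_of_conj
        rintro a ha _ ⟨y, hy, rfl⟩
        exact (hQ'mem (α ⟨a, ha⟩ y)).2 (hM _ _ hy)
      have hPQ' : P ≤ normalizer (Q' : Set X) := by
        apply le_normalizer_of_conj
        intro y hy x hx
        have h1 : y * x * y⁻¹ = (y * x * y⁻¹ * x⁻¹) * x := by group
        rw [h1]
        exact Q'.mul_mem (hQQ' (hcomQ _ hy _ (hQ'P hx))) hx
      by_cases hQ'ne : Q' = P
      · right
        rw [eq_top_iff]
        intro x _
        have : (x : X) ∈ Q' := by rw [hQ'ne]; exact x.2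
        exact (hQ'mem x).1 this
      · left
        have hQ'𝓕 : Q' ∈ 𝓕 := ⟨hRQ.trans hQQ', hQ'P, hQ'ne, hAQ', hPQ',
          fun x hx y hy => hQQ' (hcomQ x hx y hy)⟩
        have hle := hmaxQ hQ'𝓕 hQQ'
        apply le_antisymm _ hNM
        intro x hx
        exact (hNmem _).2 (hle ((hQ'mem x).2 hx)))
  -- the kernel
  let B : Subgroup X :=
    { carrier := {b | b ∈ A ∧ ∀ x ∈ P, b * x * b⁻¹ * x⁻¹ ∈ Q}
      one_mem' := ⟨A.one_mem, fun x _ => by simp [Q.one_mem]⟩
      mul_mem' := by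
        rintro b c ⟨hb, hbx⟩ ⟨hc, hcx⟩
        refine ⟨A.mul_mem hb hc, fun x hx => ?_⟩
        have hyP : c * x * c⁻¹ ∈ P := conj_mem hAP hc hx
        have h1 : (b * c) * x * (b * c)⁻¹ * x⁻¹ =
            (b * (c * x * c⁻¹) * b⁻¹ * (c * x * c⁻¹)⁻¹) * (c * x * c⁻¹ * x⁻¹) := by group
        rw [h1]
        exact Q.mul_mem (hbx _ hyP) (hcx x hx)
      inv_mem' := by
        rintro b ⟨hb, hbx⟩
        refine ⟨A.inv_mem hb, fun x hx => ?_⟩
        have hyP : b⁻¹ * x * b⁻¹⁻¹ ∈ P := conj_mem hAP (A.inv_mem hb) hx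
        have h0 := Q.inv_mem (hbx _ hyP)
        have h1 : b⁻¹ * x * b⁻¹⁻¹ * x⁻¹ = (b * (b⁻¹ * x * b⁻¹⁻¹) * b⁻¹ * (b⁻¹ * x * b⁻¹⁻¹)⁻¹)⁻¹ := by
          group
        rw [h1]
        exact h0 }
  have hBA : B ≤ A := fun b hb => hb.1
  have hBcyc : B ∈ cycSet A := by
    refine ⟨hBA, (a : X), a.2, le_antisymm (sup_le hBA ?_) ?_⟩
    · rw [Subgroup.zpowers_le]
      exact a.2
    · intro a' ha'
      obtain ⟨k, hk⟩ := ha ⟨a', ha'⟩
      have hakA : ((a : X)) ^ k ∈ A := A.zpow_mem a.2 k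
      have hb : a' * ((a : X) ^ k)⁻¹ ∈ B := by
        refine ⟨A.mul_mem ha' (A.inv_mem hakA), fun x hx => ?_⟩
        set c := (a : X) ^ k with hc
        have hxP : c⁻¹ * x * c⁻¹⁻¹ ∈ P := conj_mem hAP (A.inv_mem hakA) hx
        have h1 := hk ⟨_, hxP⟩
        rw [hNmem] at h1
        have h2 : (((α ⟨a', ha'⟩ ⟨_, hxP⟩)⁻¹ * α (a ^ k) ⟨_, hxP⟩ : P) : X) =
            (a' * (c⁻¹ * x * c⁻¹⁻¹) * a'⁻¹)⁻¹ * (c * (c⁻¹ * x * c⁻¹⁻¹) * c⁻¹) := by
          rw [Subgroup.coe_mul, Subgroup.coe_inv, hα, hα]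
          simp [c]
        rw [h2] at h1
        have hxQ := conj_mem hPQ hx h1
        have h3 := Q.inv_mem hxQ
        have h4 : a' * c⁻¹ * x * (a' * c⁻¹)⁻¹ * x⁻¹ =
            (x * ((a' * (c⁻¹ * x * c⁻¹⁻¹) * a'⁻¹)⁻¹ * (c * (c⁻¹ * x * c⁻¹⁻¹) * c⁻¹)) * x⁻¹)⁻¹ := by
          group
        rw [h4]
        exact h3
      have : a' = (a' * ((a : X) ^ k)⁻¹) * (a : X) ^ k := by group
      rw [this]
      exact Subgroup.mul_mem_sup hb (Subgroup.zpow_mem_zpowers _ _)
  apply hQne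
  apply le_antisymm hQP
  intro x hx
  have hcopB : (Nat.card B).Coprime (Nat.card P) :=
    Nat.Coprime.coprime_dvd_left (Subgroup.card_dvd_of_le hBA) hcop
  have hsolv : Group.IsSolvable B ∨ Group.IsSolvable P := by
    right
    haveI := hP.isNilpotent
    infer_instance
  obtain ⟨c, hc, hxc⟩ := coset_fixed (hBA.trans hAP) hcopB hsolv hQP hPQ (hBA.trans hAQ) hx
    (fun b hb => hb.2 x hx)
  have hcQ : c ∈ Q := hRQ (hB B hBcyc hc)
  have : x⁻¹ = (x⁻¹ * c) * c⁻¹ := by group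
  have h2 : x⁻¹ ∈ Q := by
    rw [this]
    exact Q.mul_mem hxc (Q.inv_mem hcQ)
  simpa using Q.inv_mem h2

lemma conj_inf_centralizer {A G B : Subgroup X} (hAab : ∀ a ∈ A, ∀ b ∈ A, a * b = b * a)
    (hAG : A ≤ normalizer (G : Set X)) (hBA : B ≤ A) {a x : X} (ha : a ∈ A)
    (hx : x ∈ G ⊓ centralizer (B : Set X)) : a * x * a⁻¹ ∈ G ⊓ centralizer (B : Set X) := by
  refine ⟨conj_mem hAG ha hx.1, ?_⟩
  show a * x * a⁻¹ ∈ centralizer (B : Set X)
  rw [Subgroup.mem_centralizer_iff]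
  intro b hb
  have h1 : b * x = x * b := (Subgroup.mem_centralizer_iff.1 hx.2) b hb
  have h2 : b * a = a * b := hAab b (hBA hb) a ha
  calc b * (a * x * a⁻¹) = (b * a) * x * a⁻¹ := by group
    _ = a * (b * x) * a⁻¹ := by rw [h2]; group
    _ = a * x * (a⁻¹ * (a * b * a⁻¹)) := by rw [h1]; group
    _ = a * x * a⁻¹ * (a * b * a⁻¹) := by group
    _ = a * x * a⁻¹ * b := by
      rw [← h2]
      group

theorem part1 (A G : Subgroup X) (hAab : ∀ a ∈ A, ∀ b ∈ A, a * b = b * a)
    (hAG : A ≤ normalizer (G : Set X)) (hcop : (Nat.card A).Coprime (Nat.card G)) :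
    (⨆ B ∈ cycSet A, G ⊓ centralizer (B : Set X)) = G := by
  set R : Subgroup X := ⨆ B ∈ cycSet A, G ⊓ centralizer (B : Set X) with hR
  have hRG : R ≤ G := iSup₂_le fun B _ => inf_le_left
  have hAR : A ≤ normalizer (R : Set X) := by
    apply le_normalizer_of_conj
    intro a ha x hx
    have h1 : R ≤ R.comap (MulAut.conj a).toMonoidHom := by
      refine iSup₂_le fun B hB y hy => ?_
      have h2 := conj_inf_centralizer hAab hAG hB.1 ha hy
      have h3 : G ⊓ centralizer (B : Set X) ≤ R := le_iSup₂_of_le B hB le_rfl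
      exact h3 h2
    exact h1 hx
  apply le_antisymm hRG
  have hsolv : Group.IsSolvable A ∨ Group.IsSolvable G := by
    left
    letI cA : CommGroup A := { (inferInstance : Group A) with
      mul_comm := fun a b => Subtype.ext (hAab a a.2 b b.2) }
    infer_instance
  have hind : (R.subgroupOf G).index = 1 := by
    by_contra hne
    obtain ⟨p, hp, hpd⟩ := Nat.exists_prime_and_dvd hne
    haveI : Fact p.Prime := ⟨hp⟩
    obtain ⟨P, hP⟩ := exists_invariant_sylow hAG hcop hsolv p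
    set P' : Subgroup X := (P : Subgroup G).map G.subtype with hP'
    have hP'G : P' ≤ G := by
      rintro _ ⟨y, _, rfl⟩
      exact y.2
    have hP'p : IsPGroup p P' := P.isPGroup'.map G.subtype
    have hcopP : (Nat.card A).Coprime (Nat.card P') :=
      Nat.Coprime.coprime_dvd_right (Subgroup.card_dvd_of_le hP'G) hcop
    have hinf : A ≤ normalizer ((P' ⊓ R : Subgroup X) : Set X) := by
      apply le_normalizer_of_conj
      intro a ha x hx
      exact ⟨conj_mem hP ha hx.1, conj_mem hAR ha hx.2⟩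
    have hcase := p_case A P' (P' ⊓ R) hAab hP hcopP p hP'p inf_le_left hinf (by
      intro B hB x hx
      refine ⟨hx.1, ?_⟩
      have h3 : G ⊓ centralizer (B : Set X) ≤ R := le_iSup₂_of_le B hB le_rfl
      exact h3 ⟨hP'G hx.1, hx.2⟩)
    have hle : (P : Subgroup G) ≤ R.subgroupOf G := by
      intro y hy
      have h1 : (y : X) ∈ P' := ⟨y, hy, rfl⟩
      rw [← hcase] at h1
      exact Subgroup.mem_subgroupOf.2 h1.2
    have hdvd := Subgroup.index_dvd_of_le hle
    exact P.not_dvd_index (hpd.trans hdvd)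
  rw [Subgroup.index_eq_one] at hind
  intro x hx
  have : (⟨x, hx⟩ : G) ∈ R.subgroupOf G := by rw [hind]; trivial
  exact Subgroup.mem_subgroupOf.1 this

theorem part2 (A G : Subgroup X) (hAab : ∀ a ∈ A, ∀ b ∈ A, a * b = b * a)
    (hAG : A ≤ normalizer (G : Set X)) (hcop : (Nat.card A).Coprime (Nat.card G)) :
    (⨆ B ∈ cycSet A, ⁅G ⊓ centralizer (B : Set X), A⁆) = ⁅G, A⁆ := by
  set L : Subgroup X := ⨆ B ∈ cycSet A, ⁅G ⊓ centralizer (B : Set X), A⁆ with hL
  set H : Subgroup X := ⁅G, A⁆ with hH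
  have hsolv : Group.IsSolvable A := by
    letI cA : CommGroup A := { (inferInstance : Group A) with
      mul_comm := fun a b => Subtype.ext (hAab a a.2 b b.2) }
    infer_instance
  have hHG : H ≤ G := by
    rw [hH, Subgroup.commutator_le]
    intro k hk a ha
    show k * a * k⁻¹ * a⁻¹ ∈ G
    have : k * a * k⁻¹ * a⁻¹ = k * (a * k⁻¹ * a⁻¹) := by group
    rw [this]
    exact G.mul_mem hk (conj_mem hAG ha (G.inv_mem hk))
  have hAH : A ≤ normalizer (H : Set X) := fun a ha =>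
    mem_normalizer_commutator (hAG ha) (Subgroup.le_normalizer ha)
  have hLH : L ≤ H := iSup₂_le fun B _ => Subgroup.commutator_mono inf_le_left le_rfl
  have hcopH : (Nat.card A).Coprime (Nat.card H) :=
    Nat.Coprime.coprime_dvd_right (Subgroup.card_dvd_of_le hHG) hcop
  have hHH : ⁅H, A⁆ = H := commutator_commutator_eq hAG hcop (Or.inl hsolv)
  have hAL : A ≤ normalizer (L : Set X) := by
    apply le_normalizer_of_conj
    intro a ha x hx
    have h1 : L ≤ L.comap (MulAut.conj a).toMonoidHom := by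
      refine iSup₂_le fun B hB y hy => ?_
      have h2 : a ∈ normalizer ((G ⊓ centralizer (B : Set X) : Subgroup X) : Set X) :=
        le_normalizer_of_conj (A := A) (fun a ha x hx => conj_inf_centralizer hAab hAG hB.1 ha hx) ha
      have h3 := mem_normalizer_commutator h2 (Subgroup.le_normalizer ha)
      have h4 : ⁅G ⊓ centralizer (B : Set X), A⁆ ≤ L := le_iSup₂_of_le B hB le_rfl
      exact h4 (conj_mem (le_refl _) h3 hy)
    exact h1 hx
  let T : Subgroup X := H ⊓ centralizer (A : Set X)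
  have hTL : T ≤ normalizer (L : Set X) := by
    apply le_normalizer_of_conj
    intro t ht x hx
    have h1 : L ≤ L.comap (MulAut.conj t).toMonoidHom := by
      refine iSup₂_le fun B hB y hy => ?_
      have htB : t ∈ G ⊓ centralizer (B : Set X) :=
        ⟨hHG ht.1, Subgroup.centralizer_le (fun b hb => hB.1 hb) ht.2⟩
      have h2 : t ∈ normalizer ((G ⊓ centralizer (B : Set X) : Subgroup X) : Set X) :=
        Subgroup.le_normalizer htB
      have h3 : t ∈ normalizer (A : Set X) :=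
        (le_normalizer_of_conj (A := centralizer (A : Set X)) (H := A) (fun c hc x hx => by
          have h6 : x * c = c * x := (Subgroup.mem_centralizer_iff.1 hc) x hx
          have h7 : c * x * c⁻¹ = x := by rw [← h6]; group
          rwa [h7])) ht.2
      have h5 := mem_normalizer_commutator h2 h3
      have h4 : ⁅G ⊓ centralizer (B : Set X), A⁆ ≤ L := le_iSup₂_of_le B hB le_rfl
      exact h4 (conj_mem (le_refl _) h5 hy)
    exact h1 hx
  have hHLT : H ≤ L ⊔ T := by
    have h1 := part1 A H hAab hAH hcopH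
    rw [← h1]
    refine iSup₂_le fun B hB => ?_
    have hBn : A ≤ normalizer ((H ⊓ centralizer (B : Set X) : Subgroup X) : Set X) :=
      le_normalizer_of_conj (fun a ha x hx => conj_inf_centralizer hAab hAH hB.1 ha hx)
    have hcopB : (Nat.card A).Coprime (Nat.card (H ⊓ centralizer (B : Set X) : Subgroup X)) :=
      Nat.Coprime.coprime_dvd_right (Subgroup.card_dvd_of_le inf_le_left) hcopH
    have h2 := commutator_sup_centralizer hBn hcopB (Or.inl hsolv)
    rw [← h2]
    refine sup_le_sup ?_ ?_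
    · have h4 : ⁅G ⊓ centralizer (B : Set X), A⁆ ≤ L := le_iSup₂_of_le B hB le_rfl
      exact (Subgroup.commutator_mono (inf_le_inf_right _ hHG) le_rfl).trans h4
    · intro x hx
      exact ⟨hx.1.1, hx.2⟩
  apply le_antisymm hLH
  rw [← hHH, Subgroup.commutator_le]
  intro h hh a ha
  obtain ⟨l, hl, t, ht, rfl⟩ := exists_mul_of_mem_sup hTL (hHLT hh)
  have hta : t * a = a * t := ((Subgroup.mem_centralizer_iff.1 ht.2) a ha).symm
  have h1 : l * t * a * (l * t)⁻¹ * a⁻¹ = l * (a * l⁻¹ * a⁻¹) := by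
    calc l * t * a * (l * t)⁻¹ * a⁻¹ = l * (t * a) * t⁻¹ * l⁻¹ * a⁻¹ := by group
      _ = l * a * l⁻¹ * a⁻¹ := by rw [hta]; group
      _ = l * (a * l⁻¹ * a⁻¹) := by group
  show l * t * a * (l * t)⁻¹ * a⁻¹ ∈ L
  rw [h1]
  exact L.mul_mem hl (conj_mem hAL ha (L.inv_mem hl))

/-- Let A and G be subgroups of a finite group with A abelian, A normalizing G and the orders of A and G coprime. Then G is generated by the fixed-point subgroups C_G(B) of those subgroups B of A for which A/B is cyclic (that is, A = ⟨B, a⟩ for some a), and [G, A] is generated by the commutator subgroups [C_G(B), A] over the same subgroups B. -/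
theorem result {X : Type*} [Group X] [Finite X] (A G : Subgroup X) (hAab : IsMulCommutative A) (hAG : A ≤ Subgroup.normalizer (G : Set X)) (hcop : (Nat.card A).Coprime (Nat.card G)) : (⨆ B ∈ {B : Subgroup X | B ≤ A ∧ ∃ a ∈ A, B ⊔ Subgroup.zpowers a = A}, G ⊓ Subgroup.centralizer (B : Set X)) = G ∧ (⨆ B ∈ {B : Subgroup X | B ≤ A ∧ ∃ a ∈ A, B ⊔ Subgroup.zpowers a = A}, ⁅G ⊓ Subgroup.centralizer (B : Set X), A⁆) = ⁅G, A⁆ := by
  have hab : ∀ a ∈ A, ∀ b ∈ A, a * b = b * a := fun a ha b hb =>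
    congrArg Subtype.val (hAab.is_comm.comm ⟨a, ha⟩ ⟨b, hb⟩)
  exact ⟨part1 A G hab hAG hcop, part2 A G hab hAG hcop⟩

end Cfsg.Agent.S3734
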