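import Cfsg.Statements.S3735
import Mathlib
import Cfsg.Agent.Lib.H05.Comp2
import Cfsg.Agent.Lib.H18.Basic

set_option autoImplicit false
open Cfsg

namespace Cfsg.Agent.S3735


open Subgroup

/-- `A` normalizes the join. -/
theorem normalizes_sup {G : Type*} [Group G] {A X Y : Subgroup G} (hX : A ≤ normalizer (X : Set G))
    (hY : A ≤ normalizer (Y : Set G)) : A ≤ normalizer ((X ⊔ Y : Subgroup G) : Set G) := by
  intro a ha
  apply H18.mem_normalizer_of_map_conj_eq
  rw [Subgroup.map_sup, H18.map_conj_eq_of_mem_normalizer (hX ha), H18.map_conj_eq_of_mem_normalizer (hY ha)]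

theorem normalizes_inf {G : Type*} [Group G] {A X Y : Subgroup G} (hX : A ≤ normalizer (X : Set G))
    (hY : A ≤ normalizer (Y : Set G)) : A ≤ normalizer ((X ⊓ Y : Subgroup G) : Set G) := by
  intro a ha
  apply H18.mem_normalizer_of_map_conj_eq
  rw [Subgroup.map_inf _ _ _ (MulAut.conj a).injective, H18.map_conj_eq_of_mem_normalizer (hX ha),
    H18.map_conj_eq_of_mem_normalizer (hY ha)]

/-- minimal `A`-invariant nontrivial subgroups of `V` -/
def IsMinInv {G : Type*} [Group G] (A V T : Subgroup G) : Prop :=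
  T ≠ ⊥ ∧ T ≤ V ∧ A ≤ normalizer (T : Set G) ∧
    ∀ T' : Subgroup G, T' ≠ ⊥ → T' ≤ T → A ≤ normalizer (T' : Set G) → T' = T

theorem exists_minInv {G : Type*} [Group G] [Finite G] (A V C : Subgroup G) (hCV : C ≤ V)
    (hC : A ≤ normalizer (C : Set G)) (hne : C ≠ ⊥) : ∃ T, IsMinInv A V T ∧ T ≤ C := by
  classical
  let S : Set (Subgroup G) := {T | T ≠ ⊥ ∧ T ≤ C ∧ A ≤ normalizer (T : Set G)}
  have hS : S.Nonempty := ⟨C, hne, le_rfl, hC⟩
  obtain ⟨T, hT⟩ := S.toFinite.exists_minimal hS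
  obtain ⟨h1, h2, h3⟩ := hT.1
  refine ⟨T, ⟨h1, h2.trans hCV, h3, ?_⟩, h2⟩
  intro T' hT'1 hT'2 hT'3
  exact le_antisymm hT'2 (hT.2 ⟨hT'1, hT'2.trans h2, hT'3⟩ hT'2)

theorem minInv_conj {G : Type*} [Group G] {H A V T : Subgroup G} (hHV : H ≤ normalizer (V : Set G)) (hAH : A ≤ H)
    (hAn : H ≤ normalizer (A : Set G)) (hT : IsMinInv A V T) {h : G} (hh : h ∈ H) :
    IsMinInv A V (T.map (MulAut.conj h).toMonoidHom) := by
  obtain ⟨h1, h2, h3, h4⟩ := hT
  have hinv : ∀ X : Subgroup G, A ≤ normalizer (X : Set G) → ∀ k ∈ H,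
      A ≤ normalizer ((X.map (MulAut.conj k).toMonoidHom : Subgroup G) : Set G) := by
    intro X hX k hk a ha
    apply H18.mem_normalizer_of_map_conj_eq
    have ha' : k⁻¹ * a * k ∈ A := by
      have h5 := (Subgroup.mem_normalizer_iff.1 (hAn (H.inv_mem hk)) a).1 ha
      simpa using h5
    have e : a * k = k * (k⁻¹ * a * k) := by group
    rw [← H18.map_conj_mul, e, H18.map_conj_mul, H18.map_conj_eq_of_mem_normalizer (hX ha')]
  refine ⟨?_, ?_, hinv T h3 h hh, ?_⟩
  · intro e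
    apply h1
    rwa [Subgroup.map_eq_bot_iff_of_injective _ (MulAut.conj h).injective] at e
  · rw [← H18.map_conj_eq_of_mem_normalizer (hHV hh)]
    exact Subgroup.map_mono h2
  · intro T' hT'1 hT'2 hT'3
    have h5 := h4 (T'.map (MulAut.conj h⁻¹).toMonoidHom) ?_ ?_ (hinv T' hT'3 _ (H.inv_mem hh))
    · rw [← h5, H18.map_conj_inv_map_conj]
    · intro e
      apply hT'1
      rwa [Subgroup.map_eq_bot_iff_of_injective _ (MulAut.conj h⁻¹).injective] at e
    · rw [H18.map_conj_le_iff, inv_inv]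
      exact hT'2


/-- Clifford's Theorem for actions on finite abelian groups, first part. Let H and V be subgroups of a finite group with V abelian and H normalizing V, and let A be a normal subgroup of H. If every H-invariant subgroup of V has an H-invariant complement in V, then every A-invariant subgroup of V has an A-invariant complement in V. -/
theorem result {G : Type*} [Group G] [Finite G] (H A V : Subgroup G) (hVab : IsMulCommutative V) (hHV : H ≤ Subgroup.normalizer (V : Set G)) (hAH : A ≤ H) (hAn : H ≤ Subgroup.normalizer (A : Set G)) (hss : ∀ U : Subgroup G, U ≤ V → H ≤ Subgroup.normalizer (U : Set G) → ∃ W : Subgroup G, W ≤ V ∧ H ≤ Subgroup.normalizer (W : Set G) ∧ U ⊓ W = ⊥ ∧ U ⊔ W = V) (U : Subgroup G) (hUV : U ≤ V) (hAU : A ≤ Subgroup.normalizer (U : Set G)) : ∃ W : Subgroup G, W ≤ V ∧ A ≤ Subgroup.normalizer (W : Set G) ∧ U ⊓ W = ⊥ ∧ U ⊔ W = V := by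
  classical
  have hcomm : ∀ a ∈ V, ∀ b ∈ V, a * b = b * a := by
    intro a ha b hb
    have := hVab.is_comm.comm (⟨a, ha⟩ : V) ⟨b, hb⟩
    exact congrArg Subtype.val this
  -- the socle
  let Soc : Subgroup G := sSup {T | IsMinInv A V T}
  have hSocV : Soc ≤ V := sSup_le fun T hT => hT.2.1
  have hSocH : H ≤ normalizer (Soc : Set G) := by
    intro h hh
    rw [H18.mem_normalizer_of_map_conj_eq_iff_le, Subgroup.map_le_iff_le_comap]
    refine sSup_le fun T hT => ?_
    rw [← Subgroup.map_le_iff_le_comap]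
    exact le_sSup (minInv_conj hHV hAH hAn hT hh)
  have hSoc : Soc = V := by
    obtain ⟨C, hCV, hCH, hinf, hsup⟩ := hss Soc hSocV hSocH
    by_cases hC : C = ⊥
    · rw [← hsup, hC, sup_bot_eq]
    · exfalso
      obtain ⟨T, hT, hTC⟩ := exists_minInv A V C hCV (hAH.trans hCH) hC
      have h1 : T ≤ Soc := le_sSup hT
      have h2 : T ≤ Soc ⊓ C := le_inf h1 hTC
      rw [hinf, le_bot_iff] at h2
      exact hT.1 h2
  -- a maximal complement candidate
  let S : Set (Subgroup G) := {W | W ≤ V ∧ A ≤ normalizer (W : Set G) ∧ U ⊓ W = ⊥}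
  have hS : S.Nonempty := by
    refine ⟨⊥, bot_le, ?_, inf_bot_eq _⟩
    intro a _
    rw [Subgroup.mem_normalizer_iff]
    intro x
    simp only [Subgroup.mem_bot]
    constructor
    · rintro rfl; simp
    · intro h
      have : x = a⁻¹ * (a * x * a⁻¹) * a := by group
      rw [this, h]
      group
  obtain ⟨W, hW⟩ := S.toFinite.exists_maximal hS
  obtain ⟨hWV, hWA, hUW⟩ := hW.1
  refine ⟨W, hWV, hWA, hUW, ?_⟩
  apply le_antisymm (sup_le hUV hWV)
  rw [← hSoc]
  refine sSup_le ?_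
  intro T hT
  by_contra hTle
  obtain ⟨hT1, hTV, hTA, hTmin⟩ := hT
  -- `T ∩ (U W) = 1`
  have hinfbot : T ⊓ (U ⊔ W) = ⊥ := by
    by_contra hne
    have h1 := hTmin _ hne inf_le_left (normalizes_inf hTA (normalizes_sup hAU hWA))
    apply hTle
    rw [← h1]
    exact inf_le_right
  have hmem : W ⊔ T ∈ S := by
    refine ⟨sup_le hWV hTV, normalizes_sup hWA hTA, ?_⟩
    rw [eq_bot_iff]
    rintro u ⟨hu, huWT⟩
    obtain ⟨w, hw, t, ht, rfl⟩ := H05.mem_sup_of_commute (fun a ha b hb => hcomm a (hWV ha) b (hTV hb)) huWT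
    have ht' : t ∈ U ⊔ W := by
      have e : t = w⁻¹ * (w * t) := by group
      rw [e, hcomm _ (V.inv_mem (hWV hw)) _ (V.mul_mem (hWV hw) (hTV ht))]
      exact mul_mem (Subgroup.mem_sup_left hu) (Subgroup.mem_sup_right (W.inv_mem hw))
    have ht1 : t = 1 := by
      have : t ∈ T ⊓ (U ⊔ W) := ⟨ht, ht'⟩
      rw [hinfbot] at this
      exact this
    rw [ht1, mul_one] at hu ⊢
    have : w ∈ U ⊓ W := ⟨hu, hw⟩
    rw [hUW] at this
    exact this
  have hle := hW.2 hmem le_sup_left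
  apply hTle
  exact (le_sup_right.trans hle).trans le_sup_right

end Cfsg.Agent.S3735
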