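import Cfsg.Statements.S3737
import Mathlib
import Cfsg.Agent.Lib.H01.Basic
import Cfsg.Agent.Lib.H18.Baer
import Cfsg.Agent.Lib.H18.HHRed

set_option autoImplicit false
open Cfsg

namespace Cfsg.Agent.S3737

open scoped commutatorElement


/-- Thompson's strengthening of the P × Q lemma for odd primes. Let p be an odd prime and let P, Q and G be subgroups of a finite group with P a p-group, Q of order prime to p and normalized by P, and G a p-group normalized by both P and Q. If every element of G centralized by P is centralized by Q, then Q centralizes G. -/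
theorem result {X : Type*} [Group X] [Finite X] {p : ℕ} [Fact p.Prime] (hp : p ≠ 2) (P Q G : Subgroup X) (hP : IsPGroup p P) (hQ : (Nat.card Q).Coprime p) (hPQ : P ≤ Subgroup.normalizer (Q : Set X)) (hG : IsPGroup p G) (hPG : P ≤ Subgroup.normalizer (G : Set X)) (hQG : Q ≤ Subgroup.normalizer (G : Set X)) (hC : G ⊓ Subgroup.centralizer (P : Set X) ≤ Subgroup.centralizer (Q : Set X)) : Q ≤ Subgroup.centralizer (G : Set X) := by
  classical
by_contra hcon
have hnt0 : ⁅G, Q⁆ ≠ ⊥ := by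
  intro h
  apply hcon
  rw [Subgroup.commutator_comm] at h
  exact Subgroup.commutator_eq_bot_iff_le_centralizer.1 h
have hBn : P ⊔ Q ≤ Subgroup.normalizer (G : Set X) := sup_le hPG hQG
let S : Set (Subgroup X) := {U | U ≤ G ∧ P ⊔ Q ≤ Subgroup.normalizer (U : Set X) ∧ ⁅U, Q⁆ ≠ ⊥}
have hGS : G ∈ S := ⟨le_rfl, hBn, hnt0⟩
obtain ⟨K, hKle, hKmin⟩ := (Set.toFinite S).exists_le_minimal hGS
obtain ⟨hKG, hKB, hKnt⟩ := hKmin.1
have hKp : IsPGroup p K := hG.to_le hKG
have hmin : ∀ U : Subgroup X, U < K → P ⊔ Q ≤ Subgroup.normalizer (U : Set X) → ⁅U, Q⁆ = ⊥ := by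
  intro U hU hUB
  by_contra hne
  have h1 : U ∈ S := ⟨hU.le.trans hKG, hUB, hne⟩
  exact absurd (hKmin.2 h1 hU.le) (not_le_of_gt hU)
have hQn : P ⊔ Q ≤ Subgroup.normalizer (Q : Set X) := sup_le hPQ Subgroup.le_normalizer
obtain ⟨-, h2, -, -, h5⟩ := H18.hh_main (P ⊔ Q) Q K hKp hKB le_sup_right hQn hQ hKnt hmin
have hcl : H18.ClassLeTwo K := by
  intro x y z
  have h1 : ⁅x, y⁆ ∈ frattini K :=
    H01.commutator_le_frattini_of_isPGroup hKp (Subgroup.commutator_mem_commutator (Subgroup.mem_top _) (Subgroup.mem_top _))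
  exact (Subgroup.mem_center_iff.1 (h2 _ h1) z).symm
have hfin := H18.baer_step hp P Q K hP hQ hPQ hKp (le_sup_left.trans hKB) (le_sup_right.trans hKB)
  (fun x hx => hC ⟨hKG hx.1, hx.2⟩) (h5 hp) hcl
apply hKnt
rw [Subgroup.commutator_comm]
exact Subgroup.commutator_eq_bot_iff_le_centralizer.2 hfin

end Cfsg.Agent.S3737
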