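import Cfsg.Statements.S3738
import Mathlib
import Cfsg.Prelude.Def_CaseTheorems
import Cfsg.Agent.Lib.H18.ChevW
import Cfsg.Agent.Lib.H18.HHRed
import Cfsg.Agent.Lib.H18.PGroup

set_option autoImplicit false
open Cfsg

namespace Cfsg.Agent.S3738


open scoped commutatorElement

/-- A free action: the group order divides the set size. -/
theorem card_dvd_of_free {Γ S : Type*} [Group Γ] [MulAction Γ S] [Finite Γ] [Finite S]
    (h : ∀ (g : Γ) (s : S), g • s = s → g = 1) : Nat.card Γ ∣ Nat.card S := by
  classical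
  letI := Fintype.ofFinite S
  letI := Fintype.ofFinite (MulAction.orbitRel.Quotient Γ S)
  have e := MulAction.selfEquivSigmaOrbits Γ S
  rw [Nat.card_congr e, Nat.card_sigma]
  apply Finset.dvd_sum
  intro ω _
  have h1 := MulAction.index_stabilizer Γ (Quotient.out ω : S)
  have h2 : MulAction.stabilizer Γ (Quotient.out ω : S) = ⊥ := by
    rw [eq_bot_iff]
    intro g hg
    exact Subgroup.mem_bot.2 (h g _ hg)
  rw [h2, Subgroup.index_bot] at h1
  rw [h1, Nat.card_coe_set_eq]

/-- An anisotropic squaring map bounds the group. -/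
theorem card_quot_le_of_aniso {G : Type*} [Group G] [Finite G]
    (hZ2 : ∀ z ∈ Subgroup.center G, z ^ 2 = 1) (hc : ∀ x y : G, ⁅x, y⁆ ∈ Subgroup.center G)
    (hs : ∀ x : G, x ^ 2 ∈ Subgroup.center G) (hani : ∀ x : G, x ^ 2 = 1 → x ∈ Subgroup.center G) :
    Nat.card (G ⧸ Subgroup.center G) ≤ Nat.card (Subgroup.center G) ^ 2 := by
  have hcen : ∀ x y z : G, ⁅x, y⁆ * z = z * ⁅x, y⁆ := fun x y z => (Subgroup.mem_center_iff.1 (hc x y) z).symm
  have hdata : ∀ x y : G, y * x = ⁅y, x⁆ * x * y := by
    intro x y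
    rw [commutatorElement_def]
    group
  have hmulsq : ∀ x y : G, (x * y) ^ 2 = x ^ 2 * y ^ 2 * ⁅y, x⁆ := by
    intro x y
    have h := (H13.mul_pow_of_central (hdata x y) (hcen y x x) (hcen y x y) 2).2
    simpa using h
  have hcmul : ∀ x y z : G, ⁅x * y, z⁆ = ⁅x, z⁆ * ⁅y, z⁆ := by
    intro x y z
    have h1 : y * z * y⁻¹ = ⁅y, z⁆ * z := by
      rw [commutatorElement_def]
      group
    have h2 : ⁅x * y, z⁆ = x * (y * z * y⁻¹) * x⁻¹ * z⁻¹ := by
      rw [commutatorElement_def]
      group
    rw [h2, h1, commutatorElement_def x z]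
    have h3 : x * (⁅y, z⁆ * z) = ⁅y, z⁆ * (x * z) := by
      rw [← mul_assoc, ← hcen y z x, mul_assoc]
    rw [h3]
    have h4 := hcen y z (x * z * x⁻¹ * z⁻¹)
    rw [← h4]
    group
  have hcmul' : ∀ x y z : G, ⁅x, y * z⁆ = ⁅x, y⁆ * ⁅x, z⁆ := by
    intro x y z
    rw [← commutatorElement_inv, hcmul, mul_inv_rev, commutatorElement_inv, commutatorElement_inv]
    exact hcen x z _
  set W₀ := Subgroup.center G with hW
  haveI : W₀.Normal := inferInstance
  have hQc : ∀ a b : G ⧸ W₀, a * b = b * a := by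
    intro a b
    induction a using QuotientGroup.induction_on with | _ x => ?_
    induction b using QuotientGroup.induction_on with | _ y => ?_
    rw [← QuotientGroup.mk_mul, ← QuotientGroup.mk_mul, QuotientGroup.eq]
    have h1 : (x * y)⁻¹ * (y * x) = ⁅y⁻¹, x⁻¹⁆ := by
      rw [commutatorElement_def]
      group
    rw [h1]
    exact hc _ _
  have hQ2 : ∀ a : G ⧸ W₀, a ^ 2 = 1 := by
    intro a
    induction a using QuotientGroup.induction_on with | _ x => ?_
    rw [← QuotientGroup.mk_pow]
    exact (QuotientGroup.eq_one_iff _).2 (hs x)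
  have hW2 : ∀ w : W₀, w ^ 2 = 1 := fun w => Subtype.ext (hZ2 _ w.2)
  have hWc : ∀ a b : W₀, a * b = b * a := fun a b => Subtype.ext ((Subgroup.mem_center_iff.1 b.2 a))
  let fG : G → W₀ := fun x => ⟨x ^ 2, hs x⟩
  let BG : G → G → W₀ := fun x y => ⟨⁅y, x⁆, hc y x⟩
  let f : G ⧸ W₀ → W₀ := fun q => fG q.out
  let B : G ⧸ W₀ → G ⧸ W₀ → W₀ := fun p q => BG p.out q.out
  have hcomm_w : ∀ (w : W₀) (y : G), ⁅(w : G), y⁆ = 1 := by
    intro w y
    exact commutatorElement_eq_one_iff_mul_comm.2 ((Subgroup.mem_center_iff.1 w.2 y)).symm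
  have hcomm_w' : ∀ (y : G) (w : W₀), ⁅y, (w : G)⁆ = 1 := by
    intro y w
    exact commutatorElement_eq_one_iff_mul_comm.2 ((Subgroup.mem_center_iff.1 w.2 y))
  have hf1 : ∀ x : G, f (x : G ⧸ W₀) = fG x := by
    intro x
    obtain ⟨w, hw⟩ := QuotientGroup.mk_out_eq_mul W₀ x
    apply Subtype.ext
    show ((x : G ⧸ W₀).out) ^ 2 = x ^ 2
    rw [hw, hmulsq, hcomm_w w x, mul_one, hZ2 _ w.2, mul_one]
  have hB1' : ∀ x y : G, B (x : G ⧸ W₀) (y : G ⧸ W₀) = BG x y := by
    intro x y
    obtain ⟨w, hw⟩ := QuotientGroup.mk_out_eq_mul W₀ x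
    obtain ⟨v, hv⟩ := QuotientGroup.mk_out_eq_mul W₀ y
    apply Subtype.ext
    show ⁅(y : G ⧸ W₀).out, (x : G ⧸ W₀).out⁆ = ⁅y, x⁆
    rw [hw, hv, hcmul, hcmul', hcmul', hcomm_w' _ w, hcomm_w v x, hcomm_w v w]
    simp
  have hB_left : ∀ a b c, B (a * b) c = B a c * B b c := by
    intro a b c
    induction a using QuotientGroup.induction_on with | _ x => ?_
    induction b using QuotientGroup.induction_on with | _ y => ?_
    induction c using QuotientGroup.induction_on with | _ z => ?_
    rw [← QuotientGroup.mk_mul, hB1', hB1', hB1']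
    exact Subtype.ext (hcmul' _ _ _)
  have hB_right : ∀ a b c, B a (b * c) = B a b * B a c := by
    intro a b c
    induction a using QuotientGroup.induction_on with | _ x => ?_
    induction b using QuotientGroup.induction_on with | _ y => ?_
    induction c using QuotientGroup.induction_on with | _ z => ?_
    rw [← QuotientGroup.mk_mul, hB1', hB1', hB1']
    exact Subtype.ext (hcmul _ _ _)
  have hf_mul : ∀ a b, f (a * b) = f a * f b * B a b := by
    intro a b
    induction a using QuotientGroup.induction_on with | _ x => ?_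
    induction b using QuotientGroup.induction_on with | _ y => ?_
    rw [← QuotientGroup.mk_mul, hB1', hf1, hf1, hf1]
    exact Subtype.ext (hmulsq x y)
  have hf_zero : ∀ q, f q = 1 ↔ q ∈ (⊥ : Subgroup (G ⧸ W₀)) := by
    intro q
    induction q using QuotientGroup.induction_on with | _ x => ?_
    rw [hf1, Subgroup.mem_bot, QuotientGroup.eq_one_iff]
    constructor
    · intro h
      exact hani x (congrArg Subtype.val h)
    · intro h
      exact Subtype.ext (hZ2 x h)
  have hmain := H18.lemA_mul (Y := G ⧸ W₀) (W := W₀) hQc hWc hQ2 hW2 f B hB_left hB_right hf_mul ⊥ hf_zero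
  rwa [Subgroup.card_bot, one_mul] at hmain


/-- Let d be a non-identity 3-element of a finite group and P a 2-subgroup normalized by d on which ⟨d⟩ acts faithfully (no non-identity power of d centralizes P) and without non-identity fixed points (C_P(d) = 1). If every abelian subgroup of P has 2-rank at most 2, then d has order 3. -/
theorem result {X : Type*} [Group X] [Finite X] (d : X) (n : ℕ) (hn : 1 ≤ n) (hd : orderOf d = 3 ^ n) (P : Subgroup X) (hP : IsPGroup 2 P) (hdP : d ∈ Subgroup.normalizer (P : Set X)) (hfaith : Subgroup.zpowers d ⊓ Subgroup.centralizer (P : Set X) = ⊥) (hfpf : P ⊓ Subgroup.centralizer {d} = ⊥) (hrank : ∀ V : Subgroup X, V ≤ P → IsMulCommutative V → Cfsg.PRankLE 2 2 V) : orderOf d = 3 := by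
  classical
  by_contra hne
  have hn2 : 2 ≤ n := by
    by_contra h
    apply hne
    have : n = 1 := by omega
    rw [hd, this, pow_one]
  have hp3 : Nat.Prime 3 := by norm_num
  haveI : Fact (Nat.Prime 3) := ⟨hp3⟩
  haveI : Fact (Nat.Prime 2) := ⟨Nat.prime_two⟩
  have hdpos : 3 ^ n ≠ 0 := by positivity
  set e := d ^ 3 ^ (n - 2) with he
  have he9 : orderOf e = 9 := by
    rw [he, orderOf_pow_of_dvd (by positivity) (by rw [hd]; exact pow_dvd_pow _ (by omega)), hd]
    have : 3 ^ n = 3 ^ (n - 2) * 9 := by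
      have h9 : (9 : ℕ) = 3 ^ 2 := by norm_num
      rw [h9, ← pow_add]
      congr 1
      omega
    rw [this]
    exact Nat.mul_div_cancel_left _ (by positivity)
  set y := e ^ 3 with hy
  have hy3 : orderOf y = 3 := by
    rw [hy, orderOf_pow_of_dvd (by norm_num) (by rw [he9]; norm_num), he9]
  have hyd : y ∈ Subgroup.zpowers d := by
    rw [hy, he, ← pow_mul]
    exact Subgroup.pow_mem _ (Subgroup.mem_zpowers _) _
  have hy1 : y ≠ 1 := by
    intro h
    rw [h, orderOf_one] at hy3
    omega
  set B := Subgroup.zpowers d with hB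
  set A := Subgroup.zpowers y with hA
  have hAB : A ≤ B := (Subgroup.zpowers_le).2 hyd
  have hBab : ∀ a ∈ B, ∀ b ∈ B, a * b = b * a := by
    intro a ha b hb
    obtain ⟨k, rfl⟩ := ha
    obtain ⟨l, rfl⟩ := hb
    exact (Commute.refl d).zpow_zpow k l
  have hAn : B ≤ Subgroup.normalizer (A : Set X) := by
    intro g hg
    rw [Subgroup.mem_normalizer_iff]
    intro h
    have hgh : ∀ h ∈ A, g * h * g⁻¹ = h := by
      intro h hh
      rw [hBab g hg h (hAB hh)]
      group
    constructor
    · intro hh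
      rw [hgh h hh]
      exact hh
    · intro hh
      have h2 := hBab g⁻¹ (B.inv_mem hg) _ (hAB hh)
      have h3 : h = (g⁻¹ * (g * h * g⁻¹)) * g := by group
      rw [h3, h2]
      simpa using hh
  have hdB : ∀ g ∈ B, g ∈ Subgroup.normalizer (P : Set X) := by
    have : B ≤ Subgroup.normalizer (P : Set X) := (Subgroup.zpowers_le).2 hdP
    exact this
  -- the minimal invariant subgroup
  let F : Set (Subgroup X) := {U | U ≤ P ∧ B ≤ Subgroup.normalizer (U : Set X) ∧ ⁅U, A⁆ ≠ ⊥}
  have hPF : P ∈ F := by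
    refine ⟨le_rfl, hdB, ?_⟩
    intro h
    rw [Subgroup.commutator_eq_bot_iff_le_centralizer] at h
    have h1 : y ∈ Subgroup.centralizer (P : Set X) := by
      rw [Subgroup.mem_centralizer_iff]
      intro x hx
      have := Subgroup.mem_centralizer_iff.1 (h hx) y (Subgroup.mem_zpowers y)
      exact this.symm
    have h2 : y ∈ B ⊓ Subgroup.centralizer (P : Set X) := ⟨hyd, h1⟩
    rw [hfaith, Subgroup.mem_bot] at h2
    exact hy1 h2
  obtain ⟨Q, hQ⟩ := F.toFinite.exists_minimal ⟨P, hPF⟩
  obtain ⟨hQP, hBQ, hnt⟩ := hQ.1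
  have hQp : IsPGroup 2 Q := hP.to_le hQP
  have hAcard : Nat.card A = 3 := by
    rw [hA, Nat.card_zpowers, hy3]
  have hAp : (Nat.card A).Coprime 2 := by
    rw [hAcard]
    norm_num
  have hmin : ∀ U : Subgroup X, U < Q → B ≤ Subgroup.normalizer (U : Set X) → ⁅U, A⁆ = ⊥ := by
    intro U hU hUB
    by_contra hne
    have hUF : U ∈ F := ⟨hU.le.trans hQP, hUB, hne⟩
    exact absurd (hQ.2 hUF hU.le) (not_le_of_gt hU)
  obtain ⟨hfixD, hΦc, hstruct, hirr, -⟩ := H18.hh_main B A Q hQp hBQ hAB hAn hAp hnt hmin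
  have hQcomm := H18.hh_comm_eq B A Q hQp hBQ hAB hAn hAp hnt hmin
  have hAQ : A ≤ Subgroup.normalizer (Q : Set X) := hAB.trans hBQ
  set D := (frattini Q).map Q.subtype with hD
  have hDB : B ≤ Subgroup.normalizer (D : Set X) := fun g hg => H18.hh_char_map_normalized Q (frattini Q) (hBQ hg)
  have heB : e ∈ B := by
    rw [he]
    exact Subgroup.pow_mem _ (Subgroup.mem_zpowers _) _
  have hΓB : Subgroup.zpowers e ≤ B := (Subgroup.zpowers_le).2 heB
  -- the free action
  let T := {x : X // x ∈ Q ∧ x ∉ D}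
  letI actT : MulAction (Subgroup.zpowers e) T :=
    { smul := fun g x => ⟨(g : X) * x.1 * (g : X)⁻¹,
        H01.conj_mem_of_mem_normalizer (hBQ (hΓB g.2)) x.2.1,
        fun h => x.2.2 (by
          have h2 := H01.conj_inv_mem_of_mem_normalizer (hDB (hΓB g.2)) h
          have h3 : (g : X)⁻¹ * ((g : X) * x.1 * (g : X)⁻¹) * (g : X) = x.1 := by group
          rwa [h3] at h2)⟩
      one_smul := fun x => Subtype.ext (by
        show ((1 : Subgroup.zpowers e) : X) * x.1 * ((1 : Subgroup.zpowers e) : X)⁻¹ = x.1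
        simp)
      mul_smul := fun g h x => Subtype.ext (by
        show ((g * h : Subgroup.zpowers e) : X) * x.1 * ((g * h : Subgroup.zpowers e) : X)⁻¹ =
          (g : X) * ((h : X) * x.1 * (h : X)⁻¹) * (g : X)⁻¹
        push_cast
        group) }
  have hfree : ∀ (g : Subgroup.zpowers e) (x : T), g • x = x → g = 1 := by
    rintro ⟨g, hg⟩ ⟨x, hxQ, hxD⟩ h
    have h1 : g * x * g⁻¹ = x := congrArg Subtype.val h
    by_contra hg1
    have hg1' : g ≠ 1 := fun h2 => hg1 (Subtype.ext h2)
    apply hxD
    rw [← mem_powers_iff_mem_zpowers] at hg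
    obtain ⟨k, rfl⟩ := hg
    have h0 : (fun t : ℕ => e ^ t) k = e ^ (k % 9) := by
      show e ^ k = _
      rw [← he9, pow_mod_orderOf]
    have hk0 : k % 9 ≠ 0 := by
      intro h2
      apply hg1'
      rw [h0, h2, pow_zero]
    have hj : ∃ j, (k % 9) * j % 9 = 3 := by
      have hlt : k % 9 < 9 := Nat.mod_lt _ (by norm_num)
      generalize k % 9 = m at hlt hk0
      interval_cases m
      · exact absurd rfl hk0
      · exact ⟨3, rfl⟩
      · exact ⟨6, rfl⟩
      · exact ⟨1, rfl⟩
      · exact ⟨3, rfl⟩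
      · exact ⟨6, rfl⟩
      · exact ⟨2, rfl⟩
      · exact ⟨3, rfl⟩
      · exact ⟨6, rfl⟩
    obtain ⟨j, hj⟩ := hj
    have h2 : ∀ t : ℕ, ((fun t : ℕ => e ^ t) k) ^ t * x * (((fun t : ℕ => e ^ t) k) ^ t)⁻¹ = x := by
      intro t
      induction t with
      | zero => simp
      | succ t ih =>
        rw [pow_succ]
        calc _ = ((fun t : ℕ => e ^ t) k) ^ t * (((fun t : ℕ => e ^ t) k) * x * ((fun t : ℕ => e ^ t) k)⁻¹) *
              (((fun t : ℕ => e ^ t) k) ^ t)⁻¹ := by group
          _ = x := by rw [h1, ih]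
    have h3 : ((fun t : ℕ => e ^ t) k) ^ j = y := by
      rw [h0, ← pow_mul, hy, ← he9, ← pow_mod_orderOf, he9, hj]
    have h4 := h2 j
    rw [h3] at h4
    apply H18.hh_fixed_mod_frattini hQp hAp hAQ hQcomm hxQ
    intro a ha
    obtain ⟨l, rfl⟩ := ha
    have h5 : ∀ l : ℤ, y ^ l * x * (y ^ l)⁻¹ = x := by
      have hc : Commute y x := by
        have : y * x = x * y := by
          rw [← mul_inv_eq_iff_eq_mul]
          exact h4
        exact this
      intro l
      rw [(hc.zpow_left l).eq]
      group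
    show y ^ l * x * (y ^ l)⁻¹ * x⁻¹ ∈ D
    rw [h5 l]
    simp
  have hdvd9 : 9 ∣ Nat.card T := by
    have := card_dvd_of_free hfree
    rwa [Nat.card_zpowers, he9] at this
  -- counting
  have hDcard : Nat.card D = Nat.card (frattini Q) := Nat.card_congr
    ((frattini Q).equivMapOfInjective Q.subtype Q.subtype_injective).toEquiv.symm
  set v := Nat.card (Q ⧸ frattini Q) with hv
  have hQcard : Nat.card Q = v * Nat.card D := by
    rw [hDcard]
    exact Subgroup.card_eq_card_quotient_mul_card_subgroup _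
  have hDQ : D ≤ Q := by
    rintro _ ⟨x, -, rfl⟩
    exact x.2
  have hTcard : Nat.card T = (v - 1) * Nat.card D := by
    have h1 : Nat.card T = Set.ncard ((Q : Set X) \ (D : Set X)) := by
      rw [← Nat.card_coe_set_eq]
      rfl
    have h2 : Set.ncard ((Q : Set X) \ (D : Set X)) = Nat.card Q - Nat.card D := by
      rw [Set.ncard_sdiff (SetLike.coe_subset_coe.2 hDQ) (Set.toFinite _), ← Nat.card_coe_set_eq, ← Nat.card_coe_set_eq]
      rfl
    rw [h1, h2, hQcard, Nat.sub_mul, one_mul]
  obtain ⟨a, ha⟩ := IsPGroup.iff_card.1 (hQp.to_le hDQ)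
  have hcop9 : Nat.Coprime 9 (Nat.card D) := by
    rw [ha]
    exact Nat.Coprime.pow_right _ (by norm_num)
  have h9v : 9 ∣ v - 1 := by
    rw [hTcard] at hdvd9
    exact hcop9.dvd_of_dvd_mul_right hdvd9
  obtain ⟨k, hk⟩ := IsPGroup.iff_card.1 (hQp.to_quotient (frattini Q))
  have hQnt : Nontrivial Q := by
    by_contra hc
    rw [not_nontrivial_iff_subsingleton] at hc
    apply hnt
    rw [eq_bot_iff, hQcomm]
    intro x hx
    have := Subsingleton.elim (⟨x, hx⟩ : Q) 1
    exact Subgroup.mem_bot.2 (congrArg Subtype.val this)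
  have hv1 : v ≠ 1 := by
    intro h
    have h1 : (frattini Q).index = 1 := h
    rw [Subgroup.index_eq_one] at h1
    obtain ⟨M, hM, -⟩ := (eq_top_or_exists_le_coatom (⊥ : Subgroup Q)).resolve_left bot_ne_top
    have h2 := frattini_le_coatom hM
    rw [h1] at h2
    exact hM.1 (top_le_iff.1 h2)
  have hk5 : 5 ≤ k := by
    by_contra hlt
    have hk4 : k ≤ 4 := by omega
    have hk' : v = 2 ^ k := hk
    rw [hk'] at h9v hv1
    interval_cases k <;> revert h9v hv1 <;> decide
  have hv32 : 32 ≤ v := by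
    have hk' : v = 2 ^ k := hk
    rw [hk']
    calc 32 = 2 ^ 5 := by norm_num
      _ ≤ 2 ^ k := Nat.pow_le_pow_right (by norm_num) hk5
  have hDpos : 0 < Nat.card D := Nat.card_pos
  rcases hstruct with ⟨hab, hexp⟩ | hs
  · have h4 := hrank Q hQP hab ⊤ (by
      rw [isMulCommutative_iff]
      intro a b
      exact Subtype.ext ((isMulCommutative_iff.1 hab) a.1 b.1)) (by
      intro a _
      exact Subtype.ext (hexp _ a.2))
    rw [Subgroup.card_top, hQcard] at h4
    nlinarith
  · obtain ⟨-, hfr, hcm⟩ := hs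
    have hxc : ∀ x y : Q, y * x = ⁅y, x⁆ * x * y := by
      intro x y
      rw [commutatorElement_def]
      group
    have hcZ : ∀ x y : Q, ⁅x, y⁆ ∈ Subgroup.center Q := by
      intro x y
      rw [← hcm]
      exact Subgroup.commutator_mem_commutator (Subgroup.mem_top _) (Subgroup.mem_top _)
    have hsZ : ∀ x : Q, x ^ 2 ∈ Subgroup.center Q := by
      intro x
      rw [← hfr]
      exact H01.pow_mem_frattini_of_isPGroup hQp x
    have hcen : ∀ x y z : Q, Commute ⁅x, y⁆ z := fun x y z => (Subgroup.mem_center_iff.1 (hcZ x y) z).symm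
    have hc2 : ∀ x y : Q, ⁅y, x⁆ ^ 2 = 1 := by
      intro x y
      have h1 := (H13.mul_pow_of_central (hxc x y) (hcen y x x) (hcen y x y) 2).1
      have h2 : y ^ 2 * x = x * y ^ 2 := (Subgroup.mem_center_iff.1 (hsZ y) x).symm
      rw [h2] at h1
      have h3 : x * y ^ 2 = ⁅y, x⁆ ^ 2 * (x * y ^ 2) := by
        rw [← mul_assoc]
        exact h1
      exact (mul_eq_right.1 h3.symm)
    have hZab : ∀ a b : Q, a ∈ Subgroup.center Q → a * b = b * a := fun a b ha => (Subgroup.mem_center_iff.1 ha b).symm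
    -- the exponent of the centre
    let K : Subgroup Q :=
      { carrier := {x | x ∈ Subgroup.center Q ∧ x ^ 2 = 1}
        mul_mem' := by
          rintro u v ⟨hu1, hu2⟩ ⟨hv1, hv2⟩
          refine ⟨Subgroup.mul_mem _ hu1 hv1, ?_⟩
          have : Commute u v := hZab u v hu1
          rw [this.mul_pow, hu2, hv2, one_mul]
        one_mem' := ⟨Subgroup.one_mem _, one_pow 2⟩
        inv_mem' := by
          rintro u ⟨hu1, hu2⟩
          exact ⟨Subgroup.inv_mem _ hu1, by rw [inv_pow, hu2, inv_one]⟩ }
    have hZ2 : ∀ z ∈ Subgroup.center Q, z ^ 2 = 1 := by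
      intro z hz
      have h1 : commutator Q ≤ K := by
        rw [commutator_def, Subgroup.commutator_le]
        intro a _ b _
        exact ⟨hcZ a b, hc2 b a⟩
      rw [← hcm] at hz
      exact (h1 hz).2
    have hrk : ∀ W : Subgroup Q, (∀ a ∈ W, ∀ b ∈ W, a * b = b * a) → (∀ a ∈ W, a ^ 2 = 1) → Nat.card W ≤ 4 := by
      intro W hW1 hW2
      have hab : IsMulCommutative (W.map Q.subtype) := by
        rw [isMulCommutative_iff]
        rintro ⟨_, a, ha, rfl⟩ ⟨_, b, hb, rfl⟩
        apply Subtype.ext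
        show (a : X) * (b : X) = (b : X) * (a : X)
        exact congrArg Subtype.val (hW1 a ha b hb)
      have h1 : W.map Q.subtype ≤ P := by
        rintro _ ⟨a, -, rfl⟩
        exact hQP a.2
      have h2 := hrank _ h1 hab ⊤ (by
        rw [isMulCommutative_iff]
        intro a b
        exact Subtype.ext ((isMulCommutative_iff.1 hab) a.1 b.1)) (by
        rintro ⟨_, a, ha, rfl⟩ _
        apply Subtype.ext
        show (a : X) ^ 2 = 1
        have := congrArg Subtype.val (hW2 a ha)
        simpa using this)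
      rw [Subgroup.card_top] at h2
      have h3 : Nat.card (W.map Q.subtype) = Nat.card W :=
        Nat.card_congr (W.equivMapOfInjective Q.subtype Q.subtype_injective).toEquiv.symm
      rw [h3] at h2
      simpa using h2
    have hZ4 : Nat.card (Subgroup.center Q) ≤ 4 := hrk _ (fun a ha b _ => hZab a b ha) hZ2
    by_cases hani : ∀ x : Q, x ^ 2 = 1 → x ∈ Subgroup.center Q
    · have h1 := card_quot_le_of_aniso hZ2 hcZ hsZ hani
      have h2 : v = Nat.card (Q ⧸ Subgroup.center Q) := by
        rw [hv, hfr]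
      rw [← h2] at h1
      have h3 : Nat.card (Subgroup.center Q) ^ 2 ≤ 4 ^ 2 := Nat.pow_le_pow_left hZ4 2
      omega
    · push Not at hani
      obtain ⟨x, hx2, hxZ⟩ := hani
      -- the centre has order four
      have hZne : Subgroup.center Q ≠ ⊥ := by
        intro h
        have h1 : commutator Q = ⊥ := by rw [hcm, h]
        have h2 : Subgroup.center Q = ⊤ := by
          rw [eq_top_iff]
          intro g _
          rw [Subgroup.mem_center_iff]
          intro g'
          have h3 : ⁅g', g⁆ ∈ commutator Q :=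
            Subgroup.commutator_mem_commutator (Subgroup.mem_top _) (Subgroup.mem_top _)
          rw [h1, Subgroup.mem_bot, commutatorElement_eq_one_iff_mul_comm] at h3
          exact h3
        rw [h] at h2
        exact bot_ne_top h2
      have hZcard : Nat.card (Subgroup.center Q) = 4 := by
        obtain ⟨c, hc⟩ := IsPGroup.iff_card.1 (hQp.to_subgroup (Subgroup.center Q))
        have hc2 : c ≤ 2 := by
          rw [hc] at hZ4
          have : 2 ^ c ≤ 2 ^ 2 := by simpa using hZ4
          exact (Nat.pow_le_pow_iff_right (by norm_num)).1 this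
        interval_cases c
        · exfalso
          apply hZne
          rw [pow_zero] at hc
          exact Subgroup.card_eq_one.1 hc
        · exfalso
          rw [pow_one] at hc
          obtain ⟨z, hz⟩ : ∃ z : Subgroup.center Q, z ≠ 1 := by
            by_contra hall
            push Not at hall
            apply hZne
            rw [eq_bot_iff]
            intro w hw
            have := hall ⟨w, hw⟩
            exact Subgroup.mem_bot.2 (congrArg Subtype.val this)
          have huniq := (Nat.card_eq_two_iff' (1 : Subgroup.center Q)).1 hc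
          have hdN : d ∈ Subgroup.normalizer (((Subgroup.center Q).map Q.subtype : Subgroup X) : Set X) :=
            H18.hh_char_map_normalized Q (Subgroup.center Q) (hBQ (Subgroup.mem_zpowers d))
          have h1 : d * ((z : Q) : X) * d⁻¹ ∈ (Subgroup.center Q).map Q.subtype :=
            H01.conj_mem_of_mem_normalizer hdN ⟨z.1, z.2, rfl⟩
          obtain ⟨w, hw, hwz⟩ := h1
          have hw1 : (⟨w, hw⟩ : Subgroup.center Q) ≠ 1 := by
            intro h2
            have h3 : w = 1 := congrArg Subtype.val h2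
            rw [h3] at hwz
            have h4 : d * ((z : Q) : X) * d⁻¹ = 1 := by
              rw [← hwz]
              rfl
            have h5 : ((z : Q) : X) = 1 := by
              have h6 : d * ((z : Q) : X) = d := mul_inv_eq_one.1 h4
              exact mul_eq_left.1 h6
            apply hz
            exact Subtype.ext (Subtype.ext h5)
          have h2 := huniq.unique hw1 hz
          have h3 : w = (z : Q) := congrArg Subtype.val h2
          rw [h3] at hwz
          have h4 : ((z : Q) : X) ∈ P ⊓ Subgroup.centralizer {d} := by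
            refine Subgroup.mem_inf.2 ⟨hQP (z : Q).2, Subgroup.mem_centralizer_singleton_iff.2 ?_⟩
            have h5 : d * ((z : Q) : X) * d⁻¹ = ((z : Q) : X) := hwz.symm
            rw [mul_inv_eq_iff_eq_mul] at h5
            exact h5.symm
          rw [hfpf, Subgroup.mem_bot] at h4
          apply hz
          exact Subtype.ext (Subtype.ext h4)
        · rw [hc]
          norm_num
      -- the elementary abelian subgroup of order at least 8
      let E : Subgroup Q := Subgroup.center Q ⊔ Subgroup.zpowers x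
      have hElt : Subgroup.center Q < E := by
        refine lt_of_le_of_ne le_sup_left ?_
        intro h
        apply hxZ
        rw [h]
        exact (le_sup_right : Subgroup.zpowers x ≤ E) (Subgroup.mem_zpowers x)
      have hE8 : 2 * Nat.card (Subgroup.center Q) ≤ Nat.card E := H18.card_mul_le_of_lt hQp hElt
      have hE4 : Nat.card E ≤ 4 := by
        apply hrk
        · intro a ha b hb
          obtain ⟨z₁, hz₁, w₁, hw₁, rfl⟩ := H18.mem_sup_normal_left.1 ha
          obtain ⟨z₂, hz₂, w₂, hw₂, rfl⟩ := H18.mem_sup_normal_left.1 hb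
          obtain ⟨k₁, rfl⟩ := hw₁
          obtain ⟨k₂, rfl⟩ := hw₂
          have hc1 : Commute z₁ ((fun t : ℤ => x ^ t) k₁) := hZab _ _ hz₁
          have hc2 : Commute z₁ z₂ := hZab _ _ hz₁
          have hc3 : Commute z₁ ((fun t : ℤ => x ^ t) k₂) := hZab _ _ hz₁
          have hc4 : Commute z₂ ((fun t : ℤ => x ^ t) k₁) := hZab _ _ hz₂
          have hc5 : Commute z₂ ((fun t : ℤ => x ^ t) k₂) := hZab _ _ hz₂
          have hc6 : Commute ((fun t : ℤ => x ^ t) k₁) ((fun t : ℤ => x ^ t) k₂) :=
            (Commute.refl x).zpow_zpow k₁ k₂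
          exact Commute.mul_left (hc2.mul_right hc3) (hc4.symm.mul_right hc6)
        · intro a ha
          obtain ⟨z₁, hz₁, w₁, hw₁, rfl⟩ := H18.mem_sup_normal_left.1 ha
          obtain ⟨k₁, rfl⟩ := hw₁
          have hc1 : Commute z₁ ((fun t : ℤ => x ^ t) k₁) := hZab _ _ hz₁
          rw [hc1.mul_pow, hZ2 _ hz₁, one_mul]
          show (x ^ k₁) ^ 2 = 1
          rw [← zpow_natCast, ← zpow_mul, mul_comm, zpow_mul, zpow_natCast, hx2, one_zpow]
      rw [hZcard] at hE8
      omega

end Cfsg.Agent.S3738
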