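import Cfsg.Statements.S3739
import Cfsg.Agent.S3738
import Cfsg.Agent.Lib.H29.FpfThree2
import Cfsg.Agent.Lib.H13.CharP2
import Cfsg.Agent.Lib.H01.Coprime
import Cfsg.Agent.Lib.H01.Fitting
-- import your own Cfsg.Agent.* helpers here

set_option autoImplicit false
open Cfsg

namespace Cfsg.Agent.S3739

open scoped commutatorElement
open Cfsg

lemma elem_sup {G : Type*} [Group G] (A B : Subgroup G) (hA : IsElementaryAbelian 2 A)
    (hB : IsElementaryAbelian 2 B) (hc : ∀ a ∈ A, ∀ b ∈ B, a * b = b * a) :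
    IsElementaryAbelian 2 (A ⊔ B) := by
  have hnorm : B ≤ Subgroup.normalizer (A : Set G) := by
    intro b hb
    rw [Subgroup.mem_normalizer_iff]
    intro a
    have h1 : ∀ a ∈ A, b * a * b⁻¹ = a := by
      intro a ha
      rw [← hc a ha b hb]; group
    constructor
    · intro ha
      show b * a * b⁻¹ ∈ A
      rw [h1 a ha]; exact ha
    · intro ha
      have ha' : b * a * b⁻¹ ∈ A := ha
      have h7 : b⁻¹ * (b * a * b⁻¹) * b = b * a * b⁻¹ := by
        rw [← hc _ ha' b⁻¹ (B.inv_mem hb)]; group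
      have h8 : a = b⁻¹ * (b * a * b⁻¹) * b := by group
      rw [h8, h7]; exact ha'
  have hcA : ∀ a ∈ A, ∀ a' ∈ A, a * a' = a' * a := fun a ha a' ha' =>
    congrArg Subtype.val (hA.1.is_comm.comm ⟨a, ha⟩ ⟨a', ha'⟩)
  have hcB : ∀ a ∈ B, ∀ a' ∈ B, a * a' = a' * a := fun a ha a' ha' =>
    congrArg Subtype.val (hB.1.is_comm.comm ⟨a, ha⟩ ⟨a', ha'⟩)
  refine ⟨⟨⟨?_⟩⟩, ?_⟩
  · rintro ⟨x, hx⟩ ⟨y, hy⟩
    apply Subtype.ext
    obtain ⟨a, ha, b, hb, rfl⟩ := H01.exists_mul_of_mem_sup hnorm hx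
    obtain ⟨a', ha', b', hb', rfl⟩ := H01.exists_mul_of_mem_sup hnorm hy
    show a * b * (a' * b') = a' * b' * (a * b)
    calc a * b * (a' * b') = a * (b * a') * b' := by group
      _ = a * (a' * b) * b' := by rw [hc a' ha' b hb]
      _ = (a * a') * (b * b') := by group
      _ = (a' * a) * (b' * b) := by rw [hcA a ha a' ha', hcB b hb b' hb']
      _ = a' * (a * b') * b := by group
      _ = a' * (b' * a) * b := by rw [hc a ha b' hb']
      _ = _ := by group
  · intro x hx
    obtain ⟨a, ha, b, hb, rfl⟩ := H01.exists_mul_of_mem_sup hnorm hx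
    have h1 := hA.2 a ha
    have h2 := hB.2 b hb
    calc (a * b) ^ 2 = a * (b * a) * b := by simp only [pow_two, mul_assoc]
      _ = a * (a * b) * b := by rw [hc a ha b hb]
      _ = a ^ 2 * b ^ 2 := by simp only [pow_two, mul_assoc]
      _ = 1 := by rw [h1, h2, one_mul]

lemma rk_le {G : Type*} [Group G] [Finite G] (hno : ¬ ∃ E : Subgroup G, IsElementaryAbelian 2 E ∧ Nat.card E = 8)
    (E : Subgroup G) (hE : IsElementaryAbelian 2 E) : Nat.card E ≤ 4 := by
  by_contra h
  push Not at h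
  haveI : Fact (Nat.Prime 2) := ⟨Nat.prime_two⟩
  have hp : IsPGroup 2 E := by
    intro x
    refine ⟨1, ?_⟩
    apply Subtype.ext
    simpa using hE.2 x x.2
  obtain ⟨k, hk⟩ := IsPGroup.iff_card.1 hp
  have h3 : 3 ≤ k := by
    by_contra h3
    push Not at h3
    have : 2 ^ k ≤ 2 ^ 2 := Nat.pow_le_pow_right (by norm_num) (by omega)
    omega
  have hdvd : 2 ^ 3 ∣ Nat.card E := by
    rw [hk]; exact pow_dvd_pow 2 h3
  obtain ⟨K, hK⟩ := Sylow.exists_subgroup_card_pow_prime 2 hdvd
  apply hno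
  refine ⟨K.map E.subtype, ⟨⟨⟨?_⟩⟩, ?_⟩, ?_⟩
  · rintro ⟨x, u, hu, rfl⟩ ⟨y, v, hv, rfl⟩
    apply Subtype.ext
    have := hE.1.is_comm.comm u v
    show (u : G) * v = v * u
    exact congrArg Subtype.val this
  · rintro x ⟨u, hu, rfl⟩
    exact hE.2 u u.2
  · rw [Subgroup.card_map_of_injective E.subtype_injective, hK]
    norm_num

lemma zpowers_elem {G : Type*} [Group G] (s : G) (hs : s ^ 2 = 1) : IsElementaryAbelian 2 (Subgroup.zpowers s) := by
  refine ⟨inferInstance, ?_⟩
  rintro _ ⟨k, rfl⟩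
  show (s ^ k) ^ 2 = 1
  rw [← zpow_natCast, ← zpow_mul, mul_comm, zpow_mul, zpow_natCast, hs, one_zpow]

lemma inv_mem_of_comm {G : Type*} [Group G] [Finite G]
    (hno : ¬ ∃ E : Subgroup G, IsElementaryAbelian 2 E ∧ Nat.card E = 8) (A : Subgroup G)
    (hA : IsElementaryAbelian 2 A) (hcard : Nat.card A = 4) (s : G) (hs : s ^ 2 = 1)
    (hc : ∀ a ∈ A, a * s = s * a) : s ∈ A := by
  have h1 : IsElementaryAbelian 2 (A ⊔ Subgroup.zpowers s) := by
    apply elem_sup A _ hA (zpowers_elem s hs)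
    rintro a ha _ ⟨k, rfl⟩
    exact (show Commute a (s ^ k) from (show Commute a s from hc a ha).zpow_right k)
  have h2 := rk_le hno _ h1
  have h3 : A = A ⊔ Subgroup.zpowers s := by
    apply Subgroup.eq_of_le_of_card_ge le_sup_left
    rw [hcard]; exact h2
  rw [h3]
  exact Subgroup.mem_sup_right (Subgroup.mem_zpowers s)

lemma exists_involution_pow {G : Type*} [Group G] (x : G) (k : ℕ) (hk : x ^ 2 ^ k = 1) (hx : x ≠ 1) :
    ∃ m : ℕ, x ^ 2 ^ m ≠ 1 ∧ (x ^ 2 ^ m) ^ 2 = 1 := by
  classical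
  have hex : ∃ k : ℕ, x ^ 2 ^ k = 1 := ⟨k, hk⟩
  have h0 : Nat.find hex ≠ 0 := by
    intro h
    have := Nat.find_spec hex
    rw [h] at this
    exact hx (by simpa using this)
  obtain ⟨m, hm⟩ := Nat.exists_eq_succ_of_ne_zero h0
  refine ⟨m, Nat.find_min hex (by omega), ?_⟩
  have := Nat.find_spec hex
  rw [hm, Nat.succ_eq_add_one, pow_succ, pow_mul] at this
  exact this

lemma card_five {G : Type*} [DecidableEq G] (a b c e f : G) (h1 : a ≠ b) (h2 : a ≠ c) (h3 : a ≠ e) (h4 : a ≠ f)
    (h5 : b ≠ c) (h6 : b ≠ e) (h7 : b ≠ f) (h8 : c ≠ e) (h9 : c ≠ f) (h10 : e ≠ f) :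
    ({a, b, c, e, f} : Finset G).card = 5 := by
  rw [Finset.card_insert_of_notMem, Finset.card_insert_of_notMem, Finset.card_insert_of_notMem,
    Finset.card_insert_of_notMem, Finset.card_singleton] <;> simp [*]

lemma eq_one_of_pows {G : Type*} [Group G] (x : G) (j n : ℕ) (h1 : x ^ 2 ^ j = 1) (h2 : x ^ 3 ^ n = 1) : x = 1 := by
  have h3 : orderOf x ∣ Nat.gcd (2 ^ j) (3 ^ n) :=
    Nat.dvd_gcd (orderOf_dvd_of_pow_eq_one h1) (orderOf_dvd_of_pow_eq_one h2)
  have h4 : Nat.gcd (2 ^ j) (3 ^ n) = 1 := Nat.Coprime.pow _ _ (by norm_num)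
  rw [h4] at h3
  exact orderOf_eq_one_iff.1 (Nat.dvd_one.1 h3)


/-- Let G be a finite group with C_G(O₂(G)) ≤ O₂(G) containing an element of order 6, and let d be a non-identity 3-element of G normalizing a nontrivial elementary abelian 2-subgroup W with C_W(d) = 1. Then G has an elementary abelian subgroup of order 8. -/
theorem result {G : Type*} [Group G] [Finite G] (hchar : Subgroup.centralizer (Cfsg.pCore 2 G : Set G) ≤ Cfsg.pCore 2 G) (hsix : ∃ g : G, orderOf g = 6) (d : G) (hd1 : d ≠ 1) (hd : IsPGroup 3 ↥(Subgroup.zpowers d)) (W : Subgroup G) (hW : Cfsg.IsElementaryAbelian 2 W) (hW1 : W ≠ ⊥) (hdW : d ∈ Subgroup.normalizer (W : Set G)) (hfpf : W ⊓ Subgroup.centralizer {d} = ⊥) : ∃ E : Subgroup G, Cfsg.IsElementaryAbelian 2 E ∧ Nat.card E = 8 := by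
  classical
  by_contra hno
  haveI : Fact (Nat.Prime 2) := ⟨Nat.prime_two⟩
  haveI : Fact (Nat.Prime 3) := ⟨Nat.prime_three⟩
  have hrk := rk_le hno
  have hWc : ∀ a ∈ W, ∀ b ∈ W, a * b = b * a := fun a ha b hb =>
    congrArg Subtype.val (hW.1.is_comm.comm ⟨a, ha⟩ ⟨b, hb⟩)
  have hWsq := hW.2
  have hWinv : ∀ a ∈ W, a⁻¹ = a := by
    intro a ha
    have : a * a = 1 := by rw [← pow_two]; exact hWsq a ha
    exact inv_eq_of_mul_eq_one_left this
  have hWp : IsPGroup 2 W := by
    intro x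
    refine ⟨1, Subtype.ext ?_⟩
    simpa using hWsq x x.2
  have hdWm : ∀ u ∈ W, d * u * d⁻¹ ∈ W := fun u hu => H01.conj_mem_of_mem_normalizer hdW hu
  have hdfix : ∀ u ∈ W, u ≠ 1 → d * u * d⁻¹ ≠ u := by
    intro u hu hu1 h
    apply hu1
    have : u ∈ W ⊓ Subgroup.centralizer {d} := by
      refine ⟨hu, ?_⟩
      show u ∈ Subgroup.centralizer {d}
      rw [Subgroup.mem_centralizer_singleton_iff]
      rw [mul_inv_eq_iff_eq_mul] at h
      exact h.symm
    rw [hfpf] at this
    exact this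
  -- the order of `d`
  obtain ⟨n, hnd⟩ : ∃ n, orderOf d = 3 ^ n := by
    obtain ⟨n, hn⟩ := IsPGroup.iff_card.1 hd
    exact ⟨n, by rw [← Nat.card_zpowers, hn]⟩
  have hn1 : 1 ≤ n := by
    by_contra h
    have : n = 0 := by omega
    rw [this, pow_zero] at hnd
    exact hd1 (orderOf_eq_one_iff.1 hnd)
  -- card of `W`
  have hW4 : Nat.card W = 4 := by
    obtain ⟨k, hk⟩ := IsPGroup.iff_card.1 hWp
    have hle := hrk W hW
    have hk2 : k ≤ 2 := by
      by_contra h
      push Not at h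
      have : 2 ^ 3 ≤ 2 ^ k := Nat.pow_le_pow_right (by norm_num) (by omega)
      omega
    interval_cases k
    · exfalso
      apply hW1
      rw [pow_zero] at hk
      exact Subgroup.card_eq_one.1 hk
    · exfalso
      obtain ⟨⟨u, hu⟩, hu1'⟩ := (Subgroup.ne_bot_iff_exists_ne_one).1 hW1
      have hu1 : u ≠ 1 := fun h => hu1' (Subtype.ext h)
      rw [pow_one] at hk
      obtain ⟨v, hv, hv2⟩ := (Nat.card_eq_two_iff' (1 : W)).1 hk
      have e1 : (⟨u, hu⟩ : W) = v := hv2 _ (fun h => hu1 (congrArg Subtype.val h))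
      have h2 : d * u * d⁻¹ ≠ 1 := by
        intro h
        apply hu1
        have : u = d⁻¹ * (d * u * d⁻¹) * d := by group
        rw [this, h]; group
      have e2 : (⟨d * u * d⁻¹, hdWm u hu⟩ : W) = v := hv2 _ (fun h => h2 (congrArg Subtype.val h))
      exact hdfix u hu hu1 (congrArg Subtype.val (e2.trans e1.symm))
    · simpa using hk
  -- a five element subset is impossible
  have hfive : ∀ s : Finset G, (∀ x ∈ s, x ∈ W) → s.card ≤ 4 := by
    intro s hs
    have h1 : (s : Set G).ncard ≤ (W : Set G).ncard :=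
      Set.ncard_le_ncard (fun x hx => hs x hx) (Set.toFinite _)
    rw [Set.ncard_coe_finset, ← Nat.card_coe_set_eq] at h1
    have h2 : Nat.card ((W : Subgroup G) : Set G) = Nat.card W := rfl
    omega
  -- `d * d` fixes nothing either
  have hd2 : ∀ u : G, (d * d) * u * (d * d)⁻¹ = u → d * u * d⁻¹ = u := by
    intro u h
    have hcop : Nat.Coprime 2 (orderOf d) := by
      rw [hnd]
      exact Nat.Coprime.pow_right _ (by norm_num)
    obtain ⟨m, hm⟩ := Nat.exists_mul_mod_eq_one_of_coprime hcop (by rw [hnd]; exact Nat.one_lt_pow (by omega) (by norm_num))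
    have hmem : d * d ∈ Subgroup.centralizer {u} := by
      rw [Subgroup.mem_centralizer_singleton_iff]
      rw [mul_inv_eq_iff_eq_mul] at h
      exact h
    have h1 : d ^ (2 * m) ∈ Subgroup.centralizer {u} := by
      rw [pow_mul, pow_two]
      exact Subgroup.pow_mem _ hmem _
    have h2 : d ^ (2 * m) = d := by
      rw [← pow_mod_orderOf, hm.2, pow_one]
    rw [h2, Subgroup.mem_centralizer_singleton_iff] at h1
    rw [mul_inv_eq_iff_eq_mul]
    exact h1
  -- transitivity
  have htrans : ∀ u ∈ W, u ≠ 1 → ∀ v ∈ W, v ≠ 1 → v = u ∨ v = d * u * d⁻¹ ∨ v = d * (d * u * d⁻¹) * d⁻¹ := by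
    intro u hu hu1 v hv hv1
    by_contra hcon
    push Not at hcon
    obtain ⟨h1, h2, h3⟩ := hcon
    have hdu : d * u * d⁻¹ ∈ W := hdWm u hu
    have hddu : d * (d * u * d⁻¹) * d⁻¹ ∈ W := hdWm _ hdu
    have ne1 : d * u * d⁻¹ ≠ 1 := by
      intro h
      apply hu1
      have : u = d⁻¹ * (d * u * d⁻¹) * d := by group
      rw [this, h]; group
    have ne2 : d * (d * u * d⁻¹) * d⁻¹ ≠ 1 := by
      intro h
      apply ne1
      have : d * u * d⁻¹ = d⁻¹ * (d * (d * u * d⁻¹) * d⁻¹) * d := by group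
      rw [this, h]; group
    have ne3 : u ≠ d * u * d⁻¹ := fun h => hdfix u hu hu1 h.symm
    have ne4 : d * u * d⁻¹ ≠ d * (d * u * d⁻¹) * d⁻¹ := fun h => hdfix _ hdu ne1 h.symm
    have ne5 : u ≠ d * (d * u * d⁻¹) * d⁻¹ := by
      intro h
      apply hdfix u hu hu1
      apply hd2
      rw [mul_inv_rev]
      conv_rhs => rw [h]
      group
    have hc := card_five (1 : G) u (d * u * d⁻¹) (d * (d * u * d⁻¹) * d⁻¹) v hu1.symm ne1.symm ne2.symm hv1.symm
      ne3 ne5 (Ne.symm h1) ne4 (Ne.symm h2) (Ne.symm h3)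
    have hsub : ∀ x ∈ ({(1 : G), u, d * u * d⁻¹, d * (d * u * d⁻¹) * d⁻¹, v} : Finset G), x ∈ W := by
      intro x hx
      simp only [Finset.mem_insert, Finset.mem_singleton] at hx
      rcases hx with rfl | rfl | rfl | rfl | rfl
      · exact W.one_mem
      · exact hu
      · exact hdu
      · exact hddu
      · exact hv
    have := hfive _ hsub
    omega
  -- the `2`-core
  have hQn : (pCore 2 G).Normal := H01.pCore_normal 2
  have hQ2 : IsPGroup 2 (pCore 2 G) := H01.pCore_isPGroup 2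
  obtain ⟨g, hg⟩ := hsix
  have hQne : pCore 2 G ≠ ⊥ := by
    intro h
    rw [h] at hchar
    have h1 : g ∈ Subgroup.centralizer (((⊥ : Subgroup G) : Subgroup G) : Set G) := by
      rw [Subgroup.mem_centralizer_iff]
      intro x hx
      have : x = 1 := hx
      rw [this]; group
    have h2 : g = 1 := hchar h1
    rw [h2, orderOf_one] at hg
    omega
  -- central involutions of the core
  let Z₁ : Subgroup G :=
    { carrier := {x | x ∈ pCore 2 G ∧ (∀ y ∈ pCore 2 G, x * y = y * x) ∧ x ^ 2 = 1}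
      one_mem' := ⟨Subgroup.one_mem _, fun y _ => by simp, by simp⟩
      mul_mem' := by
        rintro a b ⟨ha, ha', ha2⟩ ⟨hb, hb', hb2⟩
        refine ⟨Subgroup.mul_mem _ ha hb, fun y hy => ?_, ?_⟩
        · calc a * b * y = a * (b * y) := by group
            _ = a * (y * b) := by rw [hb' y hy]
            _ = (a * y) * b := by group
            _ = (y * a) * b := by rw [ha' y hy]
            _ = _ := by group
        · calc (a * b) ^ 2 = a * (b * a) * b := by simp only [pow_two, mul_assoc]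
            _ = a * (a * b) * b := by rw [ha' b hb]
            _ = a ^ 2 * b ^ 2 := by simp only [pow_two, mul_assoc]
            _ = 1 := by rw [ha2, hb2, one_mul]
      inv_mem' := by
        rintro a ⟨ha, ha', ha2⟩
        refine ⟨Subgroup.inv_mem _ ha, fun y hy => ?_, by simp [ha2]⟩
        have := ha' y hy
        calc a⁻¹ * y = a⁻¹ * (y * a) * a⁻¹ := by group
          _ = a⁻¹ * (a * y) * a⁻¹ := by rw [this]
          _ = _ := by group }
  have hZmem : ∀ x, x ∈ Z₁ ↔ x ∈ pCore 2 G ∧ (∀ y ∈ pCore 2 G, x * y = y * x) ∧ x ^ 2 = 1 := fun x => Iff.rfl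
  have hZconj : ∀ h : G, ∀ x ∈ Z₁, h * x * h⁻¹ ∈ Z₁ := by
    intro h x hx
    obtain ⟨hx1, hx2, hx3⟩ := hx
    refine ⟨hQn.conj_mem x hx1 h, fun y hy => ?_, ?_⟩
    · have h1 : h⁻¹ * y * h ∈ pCore 2 G := by
        simpa using hQn.conj_mem y hy h⁻¹
      have h2 := hx2 _ h1
      calc h * x * h⁻¹ * y = h * (x * (h⁻¹ * y * h)) * h⁻¹ := by group
        _ = h * ((h⁻¹ * y * h) * x) * h⁻¹ := by rw [h2]
        _ = _ := by group
    · rw [conj_pow, hx3]; group
  have hZelem : IsElementaryAbelian 2 Z₁ := by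
    refine ⟨⟨⟨?_⟩⟩, fun a ha => ha.2.2⟩
    rintro ⟨a, ha⟩ ⟨b, hb⟩
    apply Subtype.ext
    exact ha.2.1 b hb.1
  have hZne : Z₁ ≠ ⊥ := by
    haveI : Nontrivial (pCore 2 G) := (Subgroup.nontrivial_iff_ne_bot _).2 hQne
    haveI := hQ2.center_nontrivial
    obtain ⟨c, hc1⟩ := exists_ne (1 : Subgroup.center (pCore 2 G))
    have hc2 : (((c : pCore 2 G) : G)) ≠ 1 := fun h => hc1 (Subtype.ext (Subtype.ext h))
    obtain ⟨k, hk⟩ := hQ2 (c : pCore 2 G)
    have hk' : ((c : pCore 2 G) : G) ^ 2 ^ k = 1 := by simpa using congrArg Subtype.val hk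
    obtain ⟨m, hm1, hm2⟩ := exists_involution_pow _ k hk' hc2
    intro hbot
    apply hm1
    have hmem : ((c : pCore 2 G) : G) ^ 2 ^ m ∈ Z₁ := by
      refine ⟨Subgroup.pow_mem _ (c : pCore 2 G).2 _, fun y hy => ?_, hm2⟩
      have h1 : Commute ((c : pCore 2 G) : G) y := by
        have := (Subgroup.mem_center_iff.1 c.2) ⟨y, hy⟩
        exact (congrArg Subtype.val this).symm
      exact (h1.pow_left _)
    rw [hbot] at hmem
    exact hmem
  -- a central element of a Sylow subgroup
  obtain ⟨S, hWS⟩ := hWp.exists_le_sylow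
  have hQS : pCore 2 G ≤ (S : Subgroup G) := H01.pCore_le_sylow 2 S
  have hne := H13.inf_center_ne_bot_of_pgroup (R := Z₁) (T := (S : Subgroup G)) S.isPGroup'
    (fun x hx => hQS hx.1) hZne (fun x _ => by
      rw [Subgroup.mem_normalizer_iff]
      intro y
      constructor
      · exact hZconj x y
      · intro hy
        have := hZconj x⁻¹ _ hy
        have e : x⁻¹ * (x * y * x⁻¹) * x⁻¹⁻¹ = y := by group
        rwa [e] at this)
  obtain ⟨⟨z, hzmem⟩, hz1'⟩ := (Subgroup.ne_bot_iff_exists_ne_one).1 hne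
  have hz1 : z ≠ 1 := fun h => hz1' (Subtype.ext h)
  have hzZ : z ∈ Z₁ := hzmem.1
  have hzS : z ∈ Subgroup.centralizer ((S : Subgroup G) : Set G) := hzmem.2.2
  have hzW : z ∈ W := by
    apply inv_mem_of_comm hno W hW hW4 z hzZ.2.2
    intro a ha
    exact (Subgroup.mem_centralizer_iff.1 hzS) a (hWS ha)
  -- `W` is `Z₁`
  have hWZ : W ≤ Z₁ := by
    intro v hv
    by_cases hv1 : v = 1
    · rw [hv1]; exact Z₁.one_mem
    rcases htrans z hzW hz1 v hv hv1 with h | h | h
    · rw [h]; exact hzZ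
    · rw [h]; exact hZconj _ _ hzZ
    · rw [h]; exact hZconj _ _ (hZconj _ _ hzZ)
  have hWeq : W = Z₁ := by
    apply Subgroup.eq_of_le_of_card_ge hWZ
    rw [hW4]
    exact hrk Z₁ hZelem
  have hWconj : ∀ h : G, ∀ x ∈ W, h * x * h⁻¹ ∈ W := by
    rw [hWeq]; exact hZconj
  have hWQ : W ≤ pCore 2 G := fun x hx => (hWZ hx).1
  have hWcQ : ∀ x ∈ W, ∀ y ∈ pCore 2 G, x * y = y * x := fun x hx => (hWZ hx).2.1
  -- the involutions of the core
  have hQinv : ∀ x ∈ pCore 2 G, x ^ 2 = 1 → x ∈ W := by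
    intro x hx hx2
    apply inv_mem_of_comm hno W hW hW4 x hx2
    intro a ha
    exact hWcQ a ha x hx
  -- fixed point free on the core
  have hdfpf : ∀ x ∈ pCore 2 G, d * x * d⁻¹ = x → x = 1 := by
    intro x hx hdx
    by_contra hx1
    obtain ⟨k, hk⟩ := hQ2 ⟨x, hx⟩
    have hk' : x ^ 2 ^ k = 1 := by simpa using congrArg Subtype.val hk
    obtain ⟨m, hm1, hm2⟩ := exists_involution_pow _ k hk' hx1
    have h1 : x ^ 2 ^ m ∈ W := hQinv _ (Subgroup.pow_mem _ hx _) hm2
    apply hdfix _ h1 hm1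
    rw [← conj_pow, hdx]
  -- `d` has order three
  have hord3 : orderOf d = 3 := by
    apply Cfsg.Agent.S3738.result d n hn1 hnd (pCore 2 G) hQ2
    · rw [Subgroup.mem_normalizer_iff]
      intro y
      exact ⟨fun hy => hQn.conj_mem y hy d, fun hy => by
        have := hQn.conj_mem _ hy d⁻¹
        have e : d⁻¹ * (d * y * d⁻¹) * d⁻¹⁻¹ = y := by group
        rwa [e] at this⟩
    · rw [eq_bot_iff]
      rintro x ⟨hx1, hx2⟩
      have hxQ : x ∈ pCore 2 G := hchar hx2
      obtain ⟨k, hk⟩ := hQ2 ⟨x, hxQ⟩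
      have hk' : x ^ 2 ^ k = 1 := by simpa using congrArg Subtype.val hk
      obtain ⟨i, rfl⟩ := hx1
      have h3 : (d ^ i) ^ 3 ^ n = 1 := by
        rw [← zpow_natCast, ← zpow_mul, mul_comm, zpow_mul, zpow_natCast, ← hnd, pow_orderOf_eq_one, one_zpow]
      exact eq_one_of_pows _ k n hk' h3
    · rw [eq_bot_iff]
      rintro x ⟨hx1, hx2⟩
      have h2 : x ∈ Subgroup.centralizer {d} := hx2
      rw [Subgroup.mem_centralizer_singleton_iff] at h2
      apply hdfpf x hx1
      rw [← h2]; group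
    · intro V hVQ _ A hAc hA2
      have h1 : IsElementaryAbelian 2 (A.map V.subtype) := by
        refine ⟨⟨⟨?_⟩⟩, ?_⟩
        · rintro ⟨x, u, hu, rfl⟩ ⟨y, v, hv, rfl⟩
          apply Subtype.ext
          have := hAc.is_comm.comm ⟨u, hu⟩ ⟨v, hv⟩
          exact congrArg (fun w : A => ((w : V) : G)) this
        · rintro x ⟨u, hu, rfl⟩
          have := hA2 u hu
          simpa using congrArg Subtype.val this
      have h2 := hrk _ h1
      rw [Subgroup.card_map_of_injective V.subtype_injective] at h2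
      simpa using h2
  -- the automorphisms of the core
  haveI := hQn
  haveI : Group.IsNilpotent (pCore 2 G) := hQ2.isNilpotent
  have hd3 : d ^ 3 = 1 := by rw [← hord3]; exact pow_orderOf_eq_one d
  let σ : pCore 2 G ≃* pCore 2 G := MulAut.conjNormal d
  have hσ : ∀ x : pCore 2 G, ((σ x : pCore 2 G) : G) = d * x * d⁻¹ := fun x => MulAut.conjNormal_apply d x
  have hσ3 : ∀ x, σ (σ (σ x)) = x := by
    intro x
    apply Subtype.ext
    rw [hσ, hσ, hσ]
    have hd3' : d * d * d = 1 := by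
      rw [← hd3, pow_succ, pow_two]
    calc d * (d * (d * (x : G) * d⁻¹) * d⁻¹) * d⁻¹ = (d * d * d) * x * (d * d * d)⁻¹ := by group
      _ = x := by rw [hd3']; group
  have hσf : ∀ x, σ x = x → x = 1 := by
    intro x hx
    have h1 := hdfpf x x.2 (by rw [← hσ, hx])
    exact Subtype.ext h1
  have hcl := H29.Fpf3.class_two σ hσ3 hσf
  have hs := H29.Fpf3.split_of_fpf σ hσ3 hσf
  have hsc := H29.Fpf3.comm_of_split σ hs hσ3
  -- the elements `t` and `s`
  have hg6 : g ^ 6 = 1 := by rw [← hg]; exact pow_orderOf_eq_one g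
  let t := g ^ 2
  let r := g ^ 3
  have ht3 : t * t * t = 1 := by
    show g ^ 2 * g ^ 2 * g ^ 2 = 1
    rw [← pow_add, ← pow_add]; exact hg6
  have hr2 : r * r = 1 := by
    show g ^ 3 * g ^ 3 = 1
    rw [← pow_add]; exact hg6
  have htr : t * r = r * t := by
    show g ^ 2 * g ^ 3 = g ^ 3 * g ^ 2
    rw [← pow_add, ← pow_add]
  have ht1 : t ≠ 1 := by
    intro h
    have h1 : orderOf g ∣ 2 := orderOf_dvd_of_pow_eq_one h
    rw [hg] at h1
    omega
  -- fixed point of an involution on `W`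
  have hP2 : ∀ x : G, x * x = 1 → ∃ v ∈ W, v ≠ 1 ∧ x * v * x⁻¹ = v := by
    intro x hx
    by_cases h0 : x * z * x⁻¹ = z
    · exact ⟨z, hzW, hz1, h0⟩
    · have hm := hWconj x z hzW
      refine ⟨z * (x * z * x⁻¹), W.mul_mem hzW hm, ?_, ?_⟩
      · intro h
        apply h0
        have h2 := eq_inv_of_mul_eq_one_right h
        rw [h2, hWinv z hzW]
      · have h1 : x⁻¹ = x := inv_eq_of_mul_eq_one_left hx
        calc x * (z * (x * z * x⁻¹)) * x⁻¹ = (x * z * x⁻¹) * ((x * x) * z * (x⁻¹ * x⁻¹)) := by group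
          _ = (x * z * x⁻¹) * z := by
            rw [hx, h1, hx]; group
          _ = _ := hWc _ hm _ hzW
  -- an element of order three with a fixed point
  have hP3 : ∀ x : G, x * x * x = 1 → ∀ v ∈ W, v ≠ 1 → x * v * x⁻¹ = v → ∀ w ∈ W, x * w * x⁻¹ = w := by
    intro x hx v hv hv1 hxv w hw
    by_contra hcon
    have hw1 : w ≠ 1 := by
      rintro rfl
      apply hcon; group
    have hwv : w ≠ v := by
      rintro rfl
      exact hcon hxv
    have hy := hWconj x w hw
    have hyne1 : x * w * x⁻¹ ≠ 1 := by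
      intro h
      apply hw1
      have : w = x⁻¹ * (x * w * x⁻¹) * x := by group
      rw [this, h]; group
    have hyv : x * w * x⁻¹ ≠ v := by
      intro h
      apply hwv
      have h1 : x * w * x⁻¹ = x * v * x⁻¹ := by rw [h, hxv]
      have h2 : x * w = x * v := mul_right_cancel h1
      exact mul_left_cancel h2
    have hvw := W.mul_mem hv hw
    have hvw1 : v * w ≠ 1 := by
      intro h
      apply hwv
      have h2 := eq_inv_of_mul_eq_one_left h
      rw [h2, hWinv w hw] at *
    have hvwv : v * w ≠ v := fun h => hw1 (by simpa using h)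
    have hvww : v * w ≠ w := fun h => hv1 (by simpa using h)
    have hyeq : x * w * x⁻¹ = v * w := by
      by_contra hne
      have hc := card_five (1 : G) v w (v * w) (x * w * x⁻¹) hv1.symm hw1.symm hvw1.symm hyne1.symm
        (Ne.symm hwv) hvwv.symm hyv.symm hvww.symm (Ne.symm hcon) (Ne.symm hne)
      have hsub : ∀ y ∈ ({(1 : G), v, w, v * w, x * w * x⁻¹} : Finset G), y ∈ W := by
        intro y hy'
        simp only [Finset.mem_insert, Finset.mem_singleton] at hy'
        rcases hy' with rfl | rfl | rfl | rfl | rfl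
        · exact W.one_mem
        · exact hv
        · exact hw
        · exact hvw
        · exact hy
      have := hfive _ hsub
      omega
    apply hcon
    -- two applications give `w`
    have h1 : x * (x * w * x⁻¹) * x⁻¹ = w := by
      rw [hyeq]
      calc x * (v * w) * x⁻¹ = (x * v * x⁻¹) * (x * w * x⁻¹) := by group
        _ = v * (v * w) := by rw [hxv, hyeq]
        _ = (v * v) * w := by group
        _ = w := by
          have : v * v = 1 := by rw [← pow_two]; exact hWsq v hv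
          rw [this, one_mul]
    have hxinv : x⁻¹ = x * x := by
      have : x * (x * x) = 1 := by rw [← mul_assoc]; exact hx
      exact inv_eq_of_mul_eq_one_right this
    have h2 : x * (x * (x * w * x⁻¹) * x⁻¹) * x⁻¹ = w := by
      calc x * (x * (x * w * x⁻¹) * x⁻¹) * x⁻¹ = (x * x * x) * w * (x * x * x)⁻¹ := by group
        _ = w := by rw [hx]; group
    rw [h1] at h2
    exact h2
  -- `t` centralizes `W`
  have htW : ∀ w ∈ W, t * w * t⁻¹ = w := by
    obtain ⟨v, hv, hv1, hrv⟩ := hP2 r hr2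
    by_cases h0 : t * v * t⁻¹ = v
    · exact hP3 t ht3 v hv hv1 h0
    · -- all elements of `W` are fixed by `r`
      have hrW : ∀ w ∈ W, r * w * r⁻¹ = w := by
        intro w hw
        by_cases hw1 : w = 1
        · rw [hw1]; group
        have e1 : ∀ y : G, r * (t * y * t⁻¹) * r⁻¹ = t * (r * y * r⁻¹) * t⁻¹ := by
          intro y
          have h1 : r * t = t * r := htr.symm
          calc r * (t * y * t⁻¹) * r⁻¹ = (r * t) * y * (r * t)⁻¹ := by group
            _ = (t * r) * y * (t * r)⁻¹ := by rw [h1]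
            _ = _ := by group
        have hv2 : r * (t * v * t⁻¹) * r⁻¹ = t * v * t⁻¹ := by rw [e1, hrv]
        have hv3 : r * (t * (t * v * t⁻¹) * t⁻¹) * r⁻¹ = t * (t * v * t⁻¹) * t⁻¹ := by rw [e1, hv2]
        by_contra hne
        have hw2 : w ≠ v := by
          rintro rfl
          exact hne hrv
        have hw3 : w ≠ t * v * t⁻¹ := by
          rintro rfl
          exact hne hv2
        have hw4 : w ≠ t * (t * v * t⁻¹) * t⁻¹ := by
          rintro rfl
          exact hne hv3
        have hm1 := hWconj t v hv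
        have hm2 := hWconj t _ hm1
        have ne1 : t * v * t⁻¹ ≠ 1 := by
          intro h
          apply hv1
          have : v = t⁻¹ * (t * v * t⁻¹) * t := by group
          rw [this, h]; group
        have ne2 : t * (t * v * t⁻¹) * t⁻¹ ≠ 1 := by
          intro h
          apply ne1
          have : t * v * t⁻¹ = t⁻¹ * (t * (t * v * t⁻¹) * t⁻¹) * t := by group
          rw [this, h]; group
        have ne3 : t * (t * v * t⁻¹) * t⁻¹ ≠ t * v * t⁻¹ := by
          intro h
          apply h0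
          have h2 := mul_right_cancel h
          exact mul_left_cancel h2
        have ne4 : t * (t * v * t⁻¹) * t⁻¹ ≠ v := by
          intro h
          apply h0
          have h2 : t * (t * (t * v * t⁻¹) * t⁻¹) * t⁻¹ = (t * t * t) * v * (t * t * t)⁻¹ := by group
          rw [ht3, h] at h2
          rw [h2]; group
        have hc := card_five (1 : G) v (t * v * t⁻¹) (t * (t * v * t⁻¹) * t⁻¹) w hv1.symm ne1.symm ne2.symm (Ne.symm hw1)
          (Ne.symm h0) (Ne.symm ne4) (Ne.symm hw2) (Ne.symm ne3) (Ne.symm hw3) (Ne.symm hw4)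
        have hsub : ∀ y ∈ ({(1 : G), v, t * v * t⁻¹, t * (t * v * t⁻¹) * t⁻¹, w} : Finset G), y ∈ W := by
          intro y hy'
          simp only [Finset.mem_insert, Finset.mem_singleton] at hy'
          rcases hy' with rfl | rfl | rfl | rfl | rfl
          · exact W.one_mem
          · exact hv
          · exact hm1
          · exact hm2
          · exact hw
        have := hfive _ hsub
        omega
      have hrmem : r ∈ W := by
        apply inv_mem_of_comm hno W hW hW4 r (by rw [pow_two]; exact hr2)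
        intro a ha
        have := hrW a ha
        rw [mul_inv_eq_iff_eq_mul] at this
        exact this.symm
      have hr1 : r ≠ 1 := by
        intro h
        have h1 : orderOf g ∣ 3 := orderOf_dvd_of_pow_eq_one h
        rw [hg] at h1
        omega
      exact hP3 t ht3 r hrmem hr1 (by rw [htr]; group)
  -- the conclusion
  let τ : pCore 2 G ≃* pCore 2 G := MulAut.conjNormal t
  have hτ : ∀ x : pCore 2 G, ((τ x : pCore 2 G) : G) = t * x * t⁻¹ := fun x => MulAut.conjNormal_apply t x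
  have hfinal : ∀ x : pCore 2 G, τ x = x := by
    apply H29.Fpf3.tau_trivial hQ2 σ τ hcl hσ3 hs hsc (W.subgroupOf (pCore 2 G))
    · intro w hw
      rw [Subgroup.mem_center_iff]
      intro y
      apply Subtype.ext
      exact (hWcQ _ hw y y.2).symm
    · intro w hw
      apply Subtype.ext
      simpa using hWsq _ hw
    · intro x hx
      apply hQinv _ x.2
      simpa using congrArg Subtype.val hx
    · intro w hw
      show ((σ w : pCore 2 G) : G) ∈ W
      rw [hσ]
      exact hdWm _ hw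
    · intro u hu hu1 v hv hv1
      have hu1' : (u : G) ≠ 1 := fun h => hu1 (Subtype.ext h)
      have hv1' : (v : G) ≠ 1 := fun h => hv1 (Subtype.ext h)
      rcases htrans _ hu hu1' _ hv hv1' with h | h | h
      · exact Or.inl (Subtype.ext h)
      · exact Or.inr (Or.inl (Subtype.ext (by rw [hσ]; exact h)))
      · exact Or.inr (Or.inr (Subtype.ext (by rw [hσ, hσ]; exact h)))
    · intro x
      apply Subtype.ext
      rw [hτ, hτ, hτ]
      calc t * (t * (t * (x : G) * t⁻¹) * t⁻¹) * t⁻¹ = (t * t * t) * x * (t * t * t)⁻¹ := by group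
        _ = x := by rw [ht3]; group
    · intro w hw
      apply Subtype.ext
      rw [hτ]
      exact htW _ hw
  have htQ : t ∈ pCore 2 G := by
    apply hchar
    rw [Subgroup.mem_centralizer_iff]
    intro y hy
    have := congrArg Subtype.val (hfinal ⟨y, hy⟩)
    rw [hτ] at this
    rw [mul_inv_eq_iff_eq_mul] at this
    exact this.symm
  obtain ⟨k, hk⟩ := hQ2 ⟨t, htQ⟩
  have hk' : t ^ 2 ^ k = 1 := by simpa using congrArg Subtype.val hk
  have ht3' : t ^ 3 ^ 1 = 1 := by
    rw [pow_one, pow_succ, pow_two]; exact ht3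
  exact ht1 (eq_one_of_pows _ k 1 hk' ht3')

end Cfsg.Agent.S3739
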