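import Cfsg.Statements.S3740
import Cfsg.Agent.Lib.H01.Coprime3
import Cfsg.Agent.Lib.H14.UniqueSub
import Cfsg.Agent.Lib.H13.SL23Rec

set_option autoImplicit false
open Cfsg

namespace Cfsg.Agent.S3740
open Matrix

variable {F : Type} [Field F]

abbrev M2 (F : Type) [Field F] := Matrix (Fin 2) (Fin 2) F

lemma ch2 (M : M2 F) : M * M = (M 0 0 + M 1 1) • M - M.det • 1 := by
  ext i j
  fin_cases i <;> fin_cases j <;>
    simp [Matrix.mul_apply, Fin.sum_univ_two, Matrix.det_fin_two] <;> ring

lemma two_ne {p : ℕ} [Fact p.Prime] [CharP F p] (hp : p ≠ 2) : (2 : F) ≠ 0 := by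
  intro h
  have h1 : ((2 : ℕ) : F) = 0 := by exact_mod_cast h
  rw [CharP.cast_eq_zero_iff F p] at h1
  exact hp ((Nat.prime_dvd_prime_iff_eq (Fact.out) Nat.prime_two).1 h1)

lemma mat_ext {A B : M2 F} (h00 : A 0 0 = B 0 0) (h01 : A 0 1 = B 0 1) (h10 : A 1 0 = B 1 0)
    (h11 : A 1 1 = B 1 1) : A = B := by
  ext i j
  fin_cases i <;> fin_cases j <;> assumption

lemma unip_pow {y : M2 F} (hy : y * y = 0) (c : F) (m : ℕ) :
    (1 + c • y) ^ m = 1 + ((m : F) * c) • y := by
  induction m with
  | zero => simp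
  | succ m ih =>
    rw [pow_succ, ih]
    simp only [add_mul, mul_add, one_mul, mul_one, smul_mul_assoc, mul_smul_comm, hy, smul_zero,
      add_zero, Nat.cast_add, Nat.cast_one, add_smul]
    abel

/-- Lemma C: an element commuting with a nonzero square-zero matrix of order prime to `p` is `±1`. -/
lemma lemC {p : ℕ} [Fact p.Prime] [CharP F p] (hp : p ≠ 2) {n x : M2 F} (hn : n ≠ 0)
    (htr : n 0 0 + n 1 1 = 0) (hdet : n.det = 0) (hc : x * n = n * x) (hx : x.det = 1)
    {k : ℕ} (hk : x ^ k = 1) (hk' : k.Coprime p) : x = 1 ∨ x = -1 := by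
  have h2 : (2 : F) ≠ 0 := two_ne hp
  have hn11 : n 1 1 = - n 0 0 := by linear_combination htr
  have h00 := congrFun (congrFun hc 0) 0
  have h01 := congrFun (congrFun hc 0) 1
  have h10 := congrFun (congrFun hc 1) 0
  simp only [Matrix.mul_apply, Fin.sum_univ_two, hn11] at h00 h01 h10
  rw [Matrix.det_fin_two, hn11] at hdet
  rw [Matrix.det_fin_two] at hx
  set u := n 0 0 with hu
  set v := n 0 1 with hv
  set w := n 1 0 with hw
  set E := x 0 0 - x 1 1 with hE
  set f := x 0 1 with hf
  set g := x 1 0 with hg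
  set S := x 0 0 + x 1 1 with hS
  have r1 : E * v = 2 * u * f := by rw [hE]; linear_combination h01
  have r2 : E * w = 2 * u * g := by rw [hE]; linear_combination -h10
  have r3 : f * w = g * v := by linear_combination h00
  have r4 : u * u + v * w = 0 := by linear_combination -hdet
  have key : E * E + 4 * (f * g) = 0 := by
    by_cases hu0 : u = 0
    · by_cases hv0 : v = 0
      · have hw0 : w ≠ 0 := by
          intro hw0
          apply hn
          apply mat_ext
          · simpa using hu0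
          · simpa using hv0
          · simpa using hw0
          · simpa [hn11] using hu0
        have e1 : E = 0 := by
          have : E * w = 0 := by rw [r2, hu0]; ring
          exact (mul_eq_zero.1 this).resolve_right hw0
        have e2 : f = 0 := by
          have : f * w = 0 := by rw [r3, hv0]; ring
          exact (mul_eq_zero.1 this).resolve_right hw0
        rw [e1, e2]; ring
      · have e1 : E = 0 := by
          have : E * v = 0 := by rw [r1, hu0]; ring
          exact (mul_eq_zero.1 this).resolve_right hv0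
        have e2 : w = 0 := by
          have : v * w = 0 := by linear_combination r4 - u * hu0
          exact (mul_eq_zero.1 this).resolve_left hv0
        have e3 : g = 0 := by
          have : g * v = 0 := by rw [← r3, e2]; ring
          exact (mul_eq_zero.1 this).resolve_right hv0
        rw [e1, e3]; ring
    · have : (E * E + 4 * (f * g)) * (u * u) = 0 := by
        have : (E * E + 4 * (f * g)) * (u * u) = E * E * (u * u) + (2 * u * f) * (2 * u * g) := by ring
        rw [this, ← r1, ← r2]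
        linear_combination E * E * r4
      exact (mul_eq_zero.1 this).resolve_right (mul_ne_zero hu0 hu0)
  have hS2 : S * S = 4 := by
    rw [hS]
    have hh : x 0 0 * x 1 1 - f * g = 1 := hx
    linear_combination 4 * hh + key
  set s := S / 2 with hs
  have hss : s * s = 1 := by
    rw [hs]; field_simp; linear_combination hS2
  have hsS : 2 * s = S := by rw [hs]; field_simp
  set y : M2 F := x - s • 1 with hy
  have hx_eq : x = s • 1 + y := by rw [hy]; abel
  have hyent : y = !![E / 2, f; g, - E / 2] := by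
    apply mat_ext
    · simp [hy, hE]
      rw [show s = (x 0 0 + x 1 1) / 2 from rfl]; field_simp; ring
    · simp [hy, hf]
    · simp [hy, hg]
    · simp [hy, hE]
      rw [show s = (x 0 0 + x 1 1) / 2 from rfl]; field_simp; ring
  have hyy : y * y = 0 := by
    rw [hyent]
    apply mat_ext
    · simp [Matrix.mul_apply, Fin.sum_univ_two]
      field_simp
      linear_combination key
    · simp [Matrix.mul_apply, Fin.sum_univ_two]
      ring
    · simp [Matrix.mul_apply, Fin.sum_univ_two]
      ring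
    · simp [Matrix.mul_apply, Fin.sum_univ_two]
      field_simp
      linear_combination key
  have hxx : x * x = 1 + (2 * s) • y := by
    have e1 : (s • (1 : M2 F) + y) * (s • 1 + y) = (s * s) • 1 + (2 * s) • y + y * y := by
      simp only [add_mul, mul_add, smul_mul_assoc, mul_smul_comm, one_mul, mul_one, smul_add,
        smul_smul, add_smul, two_mul]
      abel
    rw [hx_eq, e1, hss, hyy, one_smul, add_zero]
  have hp1 : (x * x) ^ p = 1 := by
    rw [hxx, unip_pow hyy, CharP.cast_eq_zero F p]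
    simp
  have h2p : x ^ (2 * p) = 1 := by rw [pow_mul, pow_two]; exact hp1
  have hd1 : orderOf x ∣ 2 * p := orderOf_dvd_of_pow_eq_one h2p
  have hd2 : orderOf x ∣ k := orderOf_dvd_of_pow_eq_one hk
  have hd3 : orderOf x ∣ 2 := by
    have hc1 : (orderOf x).Coprime p := Nat.Coprime.coprime_dvd_left hd2 hk'
    exact hc1.dvd_of_dvd_mul_right hd1
  have hx2 : x * x = 1 := by
    rw [← pow_two]; exact orderOf_dvd_iff_pow_eq_one.1 hd3
  have hy0 : y = 0 := by
    have h1 : (2 * s) • y = 0 := by
      have := hxx.symm.trans hx2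
      simpa using this
    have h3 : 2 * s ≠ 0 := by
      apply mul_ne_zero h2
      intro h0
      rw [h0] at hss
      simp at hss
    exact (smul_eq_zero.1 h1).resolve_left h3
  have hs1 : s = 1 ∨ s = -1 := by
    have : (s - 1) * (s + 1) = 0 := by linear_combination hss
    rcases mul_eq_zero.1 this with h | h
    · left; linear_combination h
    · right; linear_combination h
  rw [hx_eq, hy0, add_zero]
  rcases hs1 with h | h
  · left; rw [h]; simp
  · right; rw [h]; simp


variable {p : ℕ} [Fact p.Prime] [CharP F p]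

abbrev SL2 (F : Type) [Field F] := Matrix.SpecialLinearGroup (Fin 2) F

lemma unip_props {M : M2 F} (hdet : M.det = 1) {m : ℕ} (hm : M ^ (p ^ m) = 1) :
    (M - 1) 0 0 + (M - 1) 1 1 = 0 ∧ (M - 1).det = 0 ∧ (M - 1) * (M - 1) = 0 := by
  set n := M - 1 with hn
  have hc := ch2 M
  rw [hdet, one_smul] at hc
  have hnn : n * n = (M 0 0 + M 1 1 - 2) • M := by
    rw [hn]
    simp only [sub_mul, mul_sub, mul_one, one_mul, hc, sub_smul, two_smul]
    abel
  have hpow : n ^ p ^ m = 0 := by
    rw [hn, sub_pow_char_pow_of_commute p m (Commute.one_right M)]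
    simp [hm]
  have hτ : M 0 0 + M 1 1 - 2 = 0 := by
    by_contra hne
    have hdet2 : n.det * n.det = (M 0 0 + M 1 1 - 2) ^ 2 := by
      rw [← Matrix.det_mul, hnn, Matrix.det_smul, hdet]
      simp
    have hdn : n.det ≠ 0 := by
      intro h0
      rw [h0] at hdet2
      exact hne (by simpa using hdet2.symm)
    have h0 : (n ^ p ^ m).det = 0 := by rw [hpow]; simp
    rw [Matrix.det_pow] at h0
    exact hdn (pow_eq_zero_iff (pow_ne_zero m (Fact.out : p.Prime).ne_zero) |>.1 h0)
  have hnn0 : n * n = 0 := by rw [hnn, hτ, zero_smul]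
  refine ⟨?_, ?_, hnn0⟩
  · rw [hn]
    simp only [Matrix.sub_apply, Matrix.one_apply_eq]
    linear_combination hτ
  · have h0 : n.det * n.det = 0 := by rw [← Matrix.det_mul, hnn0]; simp
    exact mul_self_eq_zero.1 h0

lemma coe_pow' (g : SL2 F) (k : ℕ) : ((g ^ k : SL2 F) : M2 F) = (g : M2 F) ^ k := by
  simp

lemma lemE (hp : p ≠ 2) {a z : SL2 F} (hap : a ^ p = 1)
    (hn : (a : M2 F) - 1 ≠ 0) (htr : ((a : M2 F) - 1) 0 0 + ((a : M2 F) - 1) 1 1 = 0)
    (hdet : ((a : M2 F) - 1).det = 0)
    {k : ℕ} (hk : z ^ k = 1) (hk' : k.Coprime p)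
    (hcomm : z * (a * z * a⁻¹) = (a * z * a⁻¹) * z) :
    (z : M2 F) = 1 ∨ (z : M2 F) = -1 := by
  have hzk : (z : M2 F) ^ k = 1 := by
    rw [← coe_pow', hk]; rfl
  have hC : a * z = z * a → (z : M2 F) = 1 ∨ (z : M2 F) = -1 := by
    intro h
    refine lemC hp hn htr hdet ?_ z.2 hzk hk'
    have h1 : (a : M2 F) * z = z * a := by
      have := congrArg (fun g : SL2 F => (g : M2 F)) h
      simpa using this
    rw [mul_sub, sub_mul, mul_one, one_mul, h1]
  set w : SL2 F := a * z * a⁻¹ with hw
  have hwz : (z : M2 F) * w = w * z := by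
    have := congrArg (fun g : SL2 F => (g : M2 F)) hcomm
    simpa using this
  have htrw : (w : M2 F) 0 0 + (w : M2 F) 1 1 = (z : M2 F) 0 0 + (z : M2 F) 1 1 := by
    rw [← Matrix.trace_fin_two, ← Matrix.trace_fin_two, hw]
    simp only [Matrix.SpecialLinearGroup.coe_mul]
    rw [Matrix.trace_mul_comm, ← mul_assoc, ← Matrix.SpecialLinearGroup.coe_mul,
      inv_mul_cancel, Matrix.SpecialLinearGroup.coe_one, one_mul]
  set t := (z : M2 F) 0 0 + (z : M2 F) 1 1 with ht
  have hcz := ch2 (z : M2 F)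
  have hcw := ch2 (w : M2 F)
  rw [z.2, one_smul, ← ht] at hcz
  rw [w.2, one_smul, htrw] at hcw
  set A : M2 F := (w : M2 F) - z with hA
  set B : M2 F := (w : M2 F) + z - t • 1 with hB
  have hAB : A * B = 0 := by
    rw [hA, hB]
    simp only [sub_mul, mul_sub, add_mul, mul_add, hcz, hcw, hwz, mul_smul_comm, mul_one, smul_sub]
    abel
  have htrA : A 0 0 + A 1 1 = 0 := by
    rw [hA]
    simp only [Matrix.sub_apply]
    linear_combination htrw
  by_cases hdA : A.det = 0
  · by_cases hA0 : A = 0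
    · apply hC
      have h1 : w = z := by
        apply Subtype.ext
        exact sub_eq_zero.1 hA0
      rw [hw] at h1
      exact mul_inv_eq_iff_eq_mul.1 h1
    · refine lemC hp hA0 htrA hdA ?_ z.2 hzk hk'
      rw [hA, mul_sub, sub_mul, hwz]
  · have hB0 : B = 0 := by
      have hu : IsUnit A := (Matrix.isUnit_iff_isUnit_det A).2 (isUnit_iff_ne_zero.2 hdA)
      exact (hu.mul_right_eq_zero).1 hAB
    have h1 : (w : M2 F) * z = 1 := by
      have : (w : M2 F) = t • 1 - z := by
        rw [hB] at hB0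
        rw [eq_sub_iff_add_eq]
        exact sub_eq_zero.1 hB0
      rw [this, sub_mul, smul_mul_assoc, one_mul, hcz]
      abel
    have h2 : w * z = 1 := by
      apply Subtype.ext
      simpa using h1
    have h3 : w = z⁻¹ := eq_inv_of_mul_eq_one_left h2
    -- `a^2` commutes with `z`
    have h4 : a * a * z = z * (a * a) := by
      have h5 : a * (a * z * a⁻¹) * a⁻¹ = z := by
        rw [← hw, h3]
        have h6 : a * z⁻¹ * a⁻¹ = (a * z * a⁻¹)⁻¹ := by group
        rw [h6, ← hw, h3, inv_inv]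
      calc a * a * z = (a * (a * z * a⁻¹) * a⁻¹) * (a * a) := by group
        _ = z * (a * a) := by rw [h5]
    have hodd : Odd p := (Fact.out : p.Prime).odd_of_ne_two hp
    obtain ⟨m, hm⟩ := hodd
    have h7 : a = (a * a) ^ (m + 1) := by
      rw [← pow_two, ← pow_mul]
      have : 2 * (m + 1) = p + 1 := by omega
      rw [this, pow_succ, hap, one_mul]
    apply hC
    rw [h7]
    exact (Commute.pow_left (show Commute (a * a) z from h4) (m + 1))

lemma lemInv (hp : p ≠ 2) {x : M2 F} (hdet : x.det = 1) (hx : x * x = 1) : x = 1 ∨ x = -1 := by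
  have h2 : (2 : F) ≠ 0 := two_ne hp
  have hc := ch2 x
  rw [hdet, one_smul, hx] at hc
  set S := x 0 0 + x 1 1 with hS
  have h1 : S • x = (2 : F) • (1 : M2 F) := by
    rw [two_smul]
    have : S • x = 1 + 1 := by rw [eq_sub_iff_add_eq] at hc; rw [← hc]
    exact this
  have hS0 : S ≠ 0 := by
    intro h0
    rw [h0, zero_smul] at h1
    have := (smul_eq_zero.1 h1.symm).resolve_left h2
    exact one_ne_zero this
  have hx' : x = (2 / S) • (1 : M2 F) := by
    have : x = S⁻¹ • (S • x) := by rw [smul_smul, inv_mul_cancel₀ hS0, one_smul]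
    rw [this, h1, smul_smul]
    congr 1
    field_simp
  have hd : (2 / S) * (2 / S) = 1 := by
    have := hdet
    rw [hx', Matrix.det_smul, Matrix.det_one, mul_one, Fintype.card_fin] at this
    linear_combination this
  have hs1 : (2 / S) = 1 ∨ (2 / S) = -1 := by
    have : ((2 / S) - 1) * ((2 / S) + 1) = 0 := by linear_combination hd
    rcases mul_eq_zero.1 this with h | h
    · left; linear_combination h
    · right; linear_combination h
  rcases hs1 with h | h
  · left; rw [hx', h]; simp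
  · right; rw [hx', h]; simp


set_option maxRecDepth 100000 in
lemma q8_data : ∀ u₀ u₁ u₂ : QuaternionGroup 2, u₀ * u₁ ≠ u₁ * u₀ → u₁ * u₂ ≠ u₂ * u₁ →
    u₀ * u₂ ≠ u₂ * u₀ →
    (u₀ ^ 4 = 1 ∧ u₁ * u₁ = u₀ * u₀ ∧ u₁ * u₀ * u₁⁻¹ = u₀⁻¹ ∧ u₂ = u₀ * u₁) ∨
    (u₀⁻¹ ^ 4 = 1 ∧ u₁⁻¹ * u₁⁻¹ = u₀⁻¹ * u₀⁻¹ ∧ u₁⁻¹ * u₀⁻¹ * u₁⁻¹⁻¹ = u₀⁻¹⁻¹ ∧ u₂⁻¹ = u₀⁻¹ * u₁⁻¹) := by
  decide

set_option maxRecDepth 100000 in
lemma q8_gen : ∀ u₀ u₁ x : QuaternionGroup 2, u₀ * u₁ ≠ u₁ * u₀ →
    ∃ m n : Fin 4, x = u₀ ^ m.val * u₁ ^ n.val := by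
  decide


open Subgroup in
/-- the final identification -/
lemma finish {G : Type} [Group G] [Finite G] {R : Subgroup G} {a i j : G}
    (haR : a ∈ Subgroup.normalizer (R : Set G)) (ha3 : a ^ 3 = 1) (ha1 : a ≠ 1)
    (hR8 : Nat.card R = 8) (hi : i ∈ R) (hj : j ∈ R)
    (hi4 : i ^ 4 = 1) (hj2 : j * j = i * i) (hji : j * i * j⁻¹ = i⁻¹)
    (hyi : a * i * a⁻¹ = j) (hyj : a * j * a⁻¹ = i * j)
    (hgen : ∀ x ∈ R, ∃ m n : Fin 4, x = i ^ m.val * j ^ n.val) :
    Nonempty (↥(R ⊔ zpowers a) ≃* Matrix.SpecialLinearGroup (Fin 2) (ZMod 3)) := by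
  have hord : orderOf a = 3 := orderOf_eq_prime ha3 ha1
  have hza : Nat.card (zpowers a) = 3 := by rw [Nat.card_zpowers, hord]
  have hcard : Nat.card R * Nat.card (zpowers a) = Nat.card ↥(R ⊔ zpowers a) :=
    Cfsg.Agent.H01.card_sup_of_le_normalizer (Subgroup.zpowers_le.2 haR)
      (by rw [hR8, hza]; norm_num)
  have hclo : closure ({i, j, a} : Set G) = R ⊔ zpowers a := by
    apply le_antisymm
    · rw [closure_le]
      rintro x (rfl | rfl | hx)
      · exact (le_sup_left : R ≤ R ⊔ zpowers a) hi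
      · exact (le_sup_left : R ≤ R ⊔ zpowers a) hj
      · have hx' : x = a := hx
        rw [hx']
        exact (le_sup_right : zpowers a ≤ R ⊔ zpowers a) (mem_zpowers _)
    · apply sup_le
      · intro x hx
        obtain ⟨m, n, rfl⟩ := hgen x hx
        exact mul_mem (pow_mem (subset_closure (by simp)) _) (pow_mem (subset_closure (by simp)) _)
      · rw [zpowers_le]
        exact subset_closure (by simp)
  have h24 : Nat.card (closure ({i, j, a} : Set G)) = 24 := by
    rw [hclo, ← hcard, hR8, hza]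
  obtain ⟨e⟩ := Cfsg.Agent.H13.closure_mulEquiv_slThree hi4 hj2 hji ha3 hyi hyj h24
  exact ⟨(MulEquiv.subgroupCongr hclo).symm.trans e⟩

open Subgroup in
theorem main (F : Type) [Field F] [Fintype F] {p : ℕ} [Fact p.Prime] [CharP F p] (hp : p ≠ 2)
    (a : Matrix.SpecialLinearGroup (Fin 2) F) (ha : IsPGroup p ↥(Subgroup.zpowers a))
    (R : Subgroup (Matrix.SpecialLinearGroup (Fin 2) F)) (hR : (Nat.card R).Coprime p)
    (haR : a ∈ Subgroup.normalizer (R : Set (Matrix.SpecialLinearGroup (Fin 2) F)))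
    (hnt : ⁅R, Subgroup.zpowers a⁆ ≠ ⊥) :
    p = 3 ∧ Nonempty (↥R ≃* QuaternionGroup 2) ∧
      Nonempty (↥(R ⊔ Subgroup.zpowers a) ≃* Matrix.SpecialLinearGroup (Fin 2) (ZMod 3)) := by
  have hpp : p.Prime := Fact.out
  obtain ⟨m, hm⟩ := ha ⟨a, Subgroup.mem_zpowers a⟩
  have hm' : a ^ (p ^ m) = 1 := by simpa using congrArg Subtype.val hm
  have hM : (a : M2 F) ^ (p ^ m) = 1 := by
    rw [← coe_pow', hm']; rfl
  obtain ⟨htr, hdet, hnn⟩ := unip_props a.2 hM
  have hconj : ∀ x ∈ R, a * x * a⁻¹ ∈ R := fun x hx => (Subgroup.mem_normalizer_iff.1 haR x).1 hx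
  -- noncommuting element
  have hx0 : ∃ x ∈ R, a * x ≠ x * a := by
    by_contra hcon
    push_neg at hcon
    apply hnt
    rw [eq_bot_iff, Subgroup.commutator_le]
    intro x hx g hg
    obtain ⟨i, rfl⟩ := Subgroup.mem_zpowers_iff.1 hg
    have h1 : Commute x (a ^ i) := ((show Commute a x from hcon x hx).symm).zpow_right i
    rw [commutatorElement_eq_one_iff_commute.2 h1]
    exact one_mem _
  obtain ⟨x0, hx0R, hx0a⟩ := hx0
  have hn : (a : M2 F) - 1 ≠ 0 := by
    intro h
    have h1 : a = 1 := by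
      apply Subtype.ext
      exact sub_eq_zero.1 h
    apply hx0a
    rw [h1]; simp
  have hap : a ^ p = 1 := by
    apply Subtype.ext
    have h1 := unip_pow hnn 1 p
    rw [one_smul, add_sub_cancel, CharP.cast_eq_zero F p] at h1
    simpa using h1
  have hpowR : ∀ z ∈ R, z ^ (Nat.card R) = 1 := by
    intro z hz
    have := pow_card_eq_one' (x := (⟨z, hz⟩ : R))
    simpa only [SubgroupClass.coe_pow, OneMemClass.coe_one] using congrArg Subtype.val this
  have hE : ∀ z ∈ R, z * (a * z * a⁻¹) = (a * z * a⁻¹) * z → (z : M2 F) = 1 ∨ (z : M2 F) = -1 :=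
    fun z hz h => lemE hp hap hn htr hdet (hpowR z hz) hR h
  have hC : ∀ z ∈ R, a * z = z * a → (z : M2 F) = 1 ∨ (z : M2 F) = -1 := by
    intro z hz h
    apply hE z hz
    have : a * z * a⁻¹ = z := mul_inv_eq_iff_eq_mul.2 h
    rw [this]
  -- `±1` commute with `a`
  have hpmcomm : ∀ z : SL2 F, ((z : M2 F) = 1 ∨ (z : M2 F) = -1) → a * z = z * a := by
    intro z hz
    apply Subtype.ext
    rcases hz with h | h
    · simp [h]
    · simp [h]
  have hinvol : ∀ z : SL2 F, z * z = 1 → (z : M2 F) = 1 ∨ (z : M2 F) = -1 := by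
    intro z hz
    apply lemInv hp z.2
    have := congrArg Subtype.val hz
    simpa using this
  have hne1 : ((-1 : M2 F)) ≠ 1 := by
    intro h
    have h2 : (2 : F) ≠ 0 := two_ne hp
    have := congrFun (congrFun h 0) 0
    simp at this
    apply h2
    linear_combination -this
  have hnc0 : x0 * (a * x0 * a⁻¹) ≠ (a * x0 * a⁻¹) * x0 := by
    intro h
    exact hx0a (hpmcomm x0 (hE x0 hx0R h))
  -- `R` is a `2`-group
  have hfR : Finite R := inferInstance
  have h2grp : IsPGroup 2 R := by
    have hcardne : Nat.card R ≠ 0 := Nat.card_pos.ne'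
    have h1 : Nat.card R = 2 ^ (Nat.card R).primeFactorsList.length := by
      apply Nat.eq_prime_pow_of_unique_prime_dvd hcardne
      intro r hr hrd
      by_contra hr2
      haveI : Fact r.Prime := ⟨hr⟩
      have hA : zpowers a ≤ Subgroup.normalizer (R : Set (SL2 F)) := Subgroup.zpowers_le.2 haR
      have hcop2 : (Nat.card (zpowers a)).Coprime (Nat.card R) := by
        obtain ⟨k, hk⟩ := IsPGroup.iff_card.1 ha
        rw [hk]
        exact Nat.Coprime.pow_left _ hR.symm
      obtain ⟨P, hP⟩ := Cfsg.Agent.H01.exists_invariant_sylow hA hcop2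
        (Or.inl (by infer_instance)) r
      set Q : Subgroup (SL2 F) := (P : Subgroup R).map R.subtype with hQ
      have hQp : IsPGroup r Q := P.isPGroup'.map R.subtype
      have hQne : Nontrivial Q := by
        rw [Subgroup.nontrivial_iff_ne_bot, hQ]
        intro h0
        exact (P.ne_bot_of_dvd_card hrd)
          ((Subgroup.map_eq_bot_iff_of_injective _ R.subtype_injective).1 h0)
      haveI := hQp.center_nontrivial
      obtain ⟨z, hz⟩ := exists_ne (1 : center Q)
      set z' : SL2 F := ((z : Q) : SL2 F) with hz'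
      have hz'Q : z' ∈ Q := (z : Q).2
      have hz'R : z' ∈ R := by
        obtain ⟨y, _, hy⟩ := hz'Q
        rw [← hy]
        exact y.2
      have hw : a * z' * a⁻¹ ∈ Q := (mem_normalizer_iff.1 (hP (mem_zpowers a)) z').1 hz'Q
      have hcomm : z' * (a * z' * a⁻¹) = (a * z' * a⁻¹) * z' := by
        have := (Subgroup.mem_center_iff.1 z.2) ⟨_, hw⟩
        exact (congrArg Subtype.val this).symm
      have hpm := hE z' hz'R hcomm
      have hzz : z' * z' = 1 := by
        apply Subtype.ext
        rcases hpm with h | h <;> simp [h]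
      obtain ⟨t, ht⟩ := hQp ⟨z', hz'Q⟩
      have ht' : z' ^ (r ^ t) = 1 := by
        simpa only [SubgroupClass.coe_pow, OneMemClass.coe_one] using congrArg Subtype.val ht
      have hz1 : z' = 1 := by
        have h1 : orderOf z' ∣ 2 := orderOf_dvd_of_pow_eq_one (by rw [pow_two]; exact hzz)
        have h2 : orderOf z' ∣ r ^ t := orderOf_dvd_of_pow_eq_one ht'
        have hcop : Nat.Coprime 2 (r ^ t) :=
          Nat.Coprime.pow_right _ ((Nat.coprime_primes Nat.prime_two hr).2 (Ne.symm hr2))
        exact orderOf_eq_one_iff.1 (Nat.eq_one_of_dvd_coprimes hcop h1 h2)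
      apply hz
      apply Subtype.ext
      apply Subtype.ext
      exact hz1
    exact IsPGroup.of_card h1
  -- involutions
  have hinv2 : ∀ x : R, orderOf x = 2 → ((x : SL2 F) : M2 F) = -1 := by
    intro x hx
    have h1 : x ^ 2 = 1 := by
      have h0 := pow_orderOf_eq_one x
      rwa [hx] at h0
    have h2 : (x : SL2 F) * x = 1 := by
      have := congrArg Subtype.val h1
      rw [pow_two] at this
      exact this
    rcases hinvol _ h2 with h | h
    · exfalso
      have h3 : x = 1 := Subtype.ext (Subtype.ext h)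
      rw [h3, orderOf_one] at hx
      omega
    · exact h
  have huniq : Cfsg.Agent.H14.UniqueP 2 R := by
    intro x y hx hy
    have h1 : x = y := Subtype.ext (Subtype.ext ((hinv2 x hx).trans (hinv2 y hy).symm))
    rw [h1]
    exact mem_zpowers y
  have hQ8 : Nonempty (R ≃* QuaternionGroup 2) := by
    rcases Cfsg.Agent.H14.isCyclic_or_quaternion h2grp huniq with hcyc | ⟨-, k, hk, ⟨e⟩⟩
    · exfalso
      apply hnc0
      letI := IsCyclic.commGroup (α := R)
      have h1 : (⟨x0, hx0R⟩ : R) * ⟨_, hconj x0 hx0R⟩ = ⟨_, hconj x0 hx0R⟩ * ⟨x0, hx0R⟩ :=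
        mul_comm _ _
      exact congrArg Subtype.val h1
    · have hk1 : k = 1 := by
        by_contra hk1
        have hk2 : 2 ≤ k := by omega
        have hpow4 : 4 ≤ 2 ^ k := by
          calc 4 = 2 ^ 2 := by norm_num
            _ ≤ 2 ^ k := Nat.pow_le_pow_right (by norm_num) hk2
        haveI : NeZero (2 ^ k) := ⟨by positivity⟩
        set x : R := e.symm (QuaternionGroup.a 1) with hx
        have hordx : orderOf x = 2 * 2 ^ k := by
          rw [hx, MulEquiv.orderOf_eq]
          exact QuaternionGroup.orderOf_a_one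
        set y : R := ⟨a * x.1 * a⁻¹, hconj _ x.2⟩ with hy
        have hordy : orderOf y = orderOf x := by
          rw [← Subgroup.orderOf_coe y, ← Subgroup.orderOf_coe x]
          exact (MulAut.conj a).orderOf_eq x.1
        have hey : ∃ j, e y = QuaternionGroup.a j := by
          cases h : e y with
          | a j => exact ⟨j, rfl⟩
          | xa j =>
            exfalso
            have h4 := QuaternionGroup.orderOf_xa (n := 2 ^ k) j
            rw [← h, MulEquiv.orderOf_eq, hordy, hordx] at h4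
            omega
        obtain ⟨j, hj⟩ := hey
        have hcomm : x * y = y * x := by
          apply e.injective
          rw [map_mul, map_mul, hj, hx, e.apply_symm_apply, QuaternionGroup.a_mul_a,
            QuaternionGroup.a_mul_a, add_comm]
        have hpm := hE x.1 x.2 (congrArg Subtype.val hcomm)
        have hxx : x * x = 1 := by
          apply Subtype.ext
          apply Subtype.ext
          rcases hpm with h | h <;> simp [h]
        have h2 : orderOf x ∣ 2 := orderOf_dvd_of_pow_eq_one (by rw [pow_two]; exact hxx)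
        rw [hordx] at h2
        have := Nat.le_of_dvd (by norm_num) h2
        omega
      subst hk1
      exact ⟨e⟩
  obtain ⟨e⟩ := hQ8
  have hR8 : Nat.card R = 8 := by
    rw [Nat.card_congr e.toEquiv, Nat.card_eq_fintype_card]
    decide
  -- the involution
  obtain ⟨c, hc⟩ : ∃ c : R, orderOf c = 2 :=
    exists_prime_orderOf_dvd_card' 2 (by rw [hR8]; norm_num)
  have hcm := hinv2 c hc
  have hle : zpowers a ≤ normalizer (R : Set (SL2 F)) := zpowers_le.2 haR
  let ψ : zpowers a →* MulAut R := R.normalizerMonoidHom.comp (Subgroup.inclusion hle)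
  letI : MulAction (zpowers a) R := MulAction.compHom R ψ
  have hsmul : ∀ (g : zpowers a) (x : R), ((g • x : R) : SL2 F) = g.1 * x.1 * g.1⁻¹ := by
    intro g x
    rfl
  have hmod := IsPGroup.card_modEq_card_fixedPoints (α := R) ha
  have hc1 : c ≠ 1 := by
    intro h
    rw [h, orderOf_one] at hc
    omega
  have hfp : MulAction.fixedPoints (zpowers a) R = {1, c} := by
    ext x
    constructor
    · intro hx
      have h1 := hx ⟨a, mem_zpowers a⟩
      have h2 : a * x.1 * a⁻¹ = x.1 := by
        have := congrArg Subtype.val h1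
        rwa [hsmul] at this
      have h3 : a * x.1 = x.1 * a := mul_inv_eq_iff_eq_mul.1 h2
      rcases hC x.1 x.2 h3 with h | h
      · left
        exact Subtype.ext (Subtype.ext h)
      · right
        exact Subtype.ext (Subtype.ext (h.trans hcm.symm))
    · rintro (rfl | rfl)
      · intro g
        apply Subtype.ext
        rw [hsmul]
        simp
      · intro g
        apply Subtype.ext
        rw [hsmul]
        apply Subtype.ext
        have h : ((g.1 : SL2 F) : M2 F) * ((g.1⁻¹ : SL2 F) : M2 F) = 1 := by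
          rw [← Matrix.SpecialLinearGroup.coe_mul, mul_inv_cancel, Matrix.SpecialLinearGroup.coe_one]
        rw [Matrix.SpecialLinearGroup.coe_mul, Matrix.SpecialLinearGroup.coe_mul, hcm, mul_neg,
          mul_one, neg_mul, h]
  have hcard2 : Nat.card (MulAction.fixedPoints (zpowers a) R) = 2 := by
    rw [hfp, Nat.card_coe_set_eq, Set.ncard_pair hc1.symm]
  rw [hcard2, hR8] at hmod
  have hd6 : p ∣ 6 := (Nat.modEq_iff_dvd' (by norm_num)).1 hmod.symm
  have hp3 : p = 3 := by
    have h6 : p ∣ 2 * 3 := hd6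
    rcases (Nat.Prime.dvd_mul hpp).1 h6 with h | h
    · exact absurd ((Nat.prime_dvd_prime_iff_eq hpp Nat.prime_two).1 h) hp
    · exact (Nat.prime_dvd_prime_iff_eq hpp Nat.prime_three).1 h
  refine ⟨hp3, ⟨e⟩, ?_⟩
  have ha3 : a ^ 3 = 1 := hp3 ▸ hap
  have ha1 : a ≠ 1 := by
    intro h
    apply hx0a
    rw [h]; simp
  have ha2inv : a * a = a⁻¹ := by
    rw [eq_inv_iff_mul_eq_one, ← pow_three' a]
    exact ha3
  -- the elements
  let X0 : R := ⟨x0, hx0R⟩
  let X1 : R := ⟨a * x0 * a⁻¹, hconj _ hx0R⟩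
  let X2 : R := ⟨a * (a * x0 * a⁻¹) * a⁻¹, hconj _ (hconj _ hx0R)⟩
  have hfin : ∀ i j : R, i ^ 4 = 1 → j * j = i * i → j * i * j⁻¹ = i⁻¹ → a * i.1 * a⁻¹ = j.1 →
      a * j.1 * a⁻¹ = (i * j).1 → e i * e j ≠ e j * e i →
      Nonempty (↥(R ⊔ zpowers a) ≃* Matrix.SpecialLinearGroup (Fin 2) (ZMod 3)) := by
    intro i j h1 h2 h3 h4 h5 h6
    refine finish haR ha3 ha1 hR8 i.2 j.2 ?_ ?_ ?_ h4 h5 ?_
    · simpa only [SubgroupClass.coe_pow, OneMemClass.coe_one] using congrArg Subtype.val h1
    · exact congrArg Subtype.val h2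
    · exact congrArg Subtype.val h3
    · intro x hx
      obtain ⟨m, n, hmn⟩ := q8_gen (e i) (e j) (e ⟨x, hx⟩) h6
      refine ⟨m, n, ?_⟩
      have h7 : (⟨x, hx⟩ : R) = i ^ m.val * j ^ n.val := by
        apply e.injective
        rw [hmn, map_mul, map_pow, map_pow]
      have := congrArg Subtype.val h7
      simpa only [Subgroup.coe_mul, SubgroupClass.coe_pow] using this
  have hne01 : X0 * X1 ≠ X1 * X0 := by
    intro h
    exact hnc0 (congrArg Subtype.val h)
  have hne12 : X1 * X2 ≠ X2 * X1 := by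
    intro h
    apply hnc0
    have h1 := congrArg Subtype.val h
    have h2 : a * (x0 * (a * x0 * a⁻¹)) * a⁻¹ = a * ((a * x0 * a⁻¹) * x0) * a⁻¹ := by
      calc a * (x0 * (a * x0 * a⁻¹)) * a⁻¹ = X1.1 * X2.1 := by
            simp only [X1, X2]; group
        _ = X2.1 * X1.1 := h1
        _ = a * ((a * x0 * a⁻¹) * x0) * a⁻¹ := by
            simp only [X1, X2]; group
    exact mul_left_cancel (mul_right_cancel h2)
  have hne02 : X0 * X2 ≠ X2 * X0 := by
    intro h
    apply hnc0
    have h1 := congrArg Subtype.val h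
    have h3 : a * (a * (a * x0 * a⁻¹) * a⁻¹) * a⁻¹ = x0 := by
      have h4 : a * (a * (a * x0 * a⁻¹) * a⁻¹) * a⁻¹ = (a * a * a) * x0 * (a⁻¹ * a⁻¹ * a⁻¹) := by
        simp only [mul_assoc]
      have ha3' : a * a * a = 1 := by rw [← pow_three']; exact ha3
      have ha3i : a⁻¹ * a⁻¹ * a⁻¹ = 1 := by
        have h7 : a⁻¹ ^ 3 = 1 := by rw [inv_pow, ha3, inv_one]
        rwa [pow_three'] at h7
      rw [h4, ha3', ha3i, one_mul, mul_one]
    have h2 : a * (x0 * (a * (a * x0 * a⁻¹) * a⁻¹)) * a⁻¹ = a * ((a * (a * x0 * a⁻¹) * a⁻¹) * x0) * a⁻¹ :=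
      congrArg (fun t => a * t * a⁻¹) h1
    have h5 : a * (x0 * (a * (a * x0 * a⁻¹) * a⁻¹)) * a⁻¹ = (a * x0 * a⁻¹) * (a * (a * (a * x0 * a⁻¹) * a⁻¹) * a⁻¹) := by
      group
    have h6 : a * ((a * (a * x0 * a⁻¹) * a⁻¹) * x0) * a⁻¹ = (a * (a * (a * x0 * a⁻¹) * a⁻¹) * a⁻¹) * (a * x0 * a⁻¹) := by
      group
    rw [h5, h6, h3] at h2
    exact h2.symm
  have h01' : e X0 * e X1 ≠ e X1 * e X0 := by
    intro h
    apply hne01
    apply e.injective
    rw [map_mul, map_mul, h]
  have h12' : e X1 * e X2 ≠ e X2 * e X1 := by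
    intro h
    apply hne12
    apply e.injective
    rw [map_mul, map_mul, h]
  have h02' : e X0 * e X2 ≠ e X2 * e X0 := by
    intro h
    apply hne02
    apply e.injective
    rw [map_mul, map_mul, h]
  rcases q8_data _ _ _ h01' h12' h02' with ⟨h1, h2, h3, h4⟩ | ⟨h1, h2, h3, h4⟩
  · refine hfin X0 X1 ?_ ?_ ?_ rfl ?_ h01'
    · apply e.injective; rw [map_pow, h1, map_one]
    · apply e.injective; rw [map_mul, map_mul, h2]
    · apply e.injective; rw [map_mul, map_mul, map_inv, map_inv, h3]
    · have : X2 = X0 * X1 := by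
        apply e.injective; rw [map_mul, h4]
      exact congrArg Subtype.val this
  · refine hfin X0⁻¹ X1⁻¹ ?_ ?_ ?_ ?_ ?_ ?_
    · apply e.injective; rw [map_pow, map_inv, h1, map_one]
    · apply e.injective; simp only [map_mul, map_inv]; exact h2
    · apply e.injective; simp only [map_mul, map_inv]; exact h3
    · simp only [Subgroup.coe_inv, X0, X1]; group
    · have : X2⁻¹ = X0⁻¹ * X1⁻¹ := by
        apply e.injective; rw [map_mul, map_inv, map_inv, map_inv, h4]
      have h5 := congrArg Subtype.val this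
      rw [← h5]
      simp only [Subgroup.coe_inv, X1, X2, _root_.mul_inv_rev, inv_inv, mul_assoc]
    · simp only [map_inv]
      intro h
      apply h01'
      have : (e X1 * e X0)⁻¹ = (e X0 * e X1)⁻¹ := by
        rw [_root_.mul_inv_rev, _root_.mul_inv_rev]; exact h
      exact (inv_injective this).symm



/-- Let F be a finite field of odd characteristic p and let a be a p-element of SL₂(F) normalizing a subgroup R of order prime to p with [R, a] ≠ 1. Then p = 3, R is a quaternion group of order 8, and R⟨a⟩ is isomorphic to SL₂(3). -/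
theorem result (F : Type) [Field F] [Fintype F] {p : ℕ} [Fact p.Prime] [CharP F p] (hp : p ≠ 2) (a : Matrix.SpecialLinearGroup (Fin 2) F) (ha : IsPGroup p ↥(Subgroup.zpowers a)) (R : Subgroup (Matrix.SpecialLinearGroup (Fin 2) F)) (hR : (Nat.card R).Coprime p) (haR : a ∈ Subgroup.normalizer (R : Set (Matrix.SpecialLinearGroup (Fin 2) F))) (hnt : ⁅R, Subgroup.zpowers a⁆ ≠ ⊥) : p = 3 ∧ Nonempty (↥R ≃* QuaternionGroup 2) ∧ Nonempty (↥(R ⊔ Subgroup.zpowers a) ≃* Matrix.SpecialLinearGroup (Fin 2) (ZMod 3)) := by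
  exact main F hp a ha R hR haR hnt

end Cfsg.Agent.S3740
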