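import Cfsg.Statements.S3741
import Mathlib
import Cfsg.Agent.Lib.H03.PGroup
import Cfsg.Agent.Lib.H18.Syl

set_option autoImplicit false
open Cfsg

namespace Cfsg.Agent.S3741


open scoped commutatorElement
open Finset

theorem double_count {X Y : Type*} [Fintype X] [Fintype Y] (r : X → Y → Prop) [DecidableRel r]
    {p : ℕ} (hp : 1 < p)
    (hX : ∀ x, (∀ y, r x y) ∨ p * (univ.filter (r x)).card = Fintype.card Y)
    (hY : ∀ y, (∀ x, r x y) ∨ p * (univ.filter (fun x => r x y)).card = Fintype.card X) :
    (univ.filter (fun x => ∀ y, r x y)).card * Fintype.card Y =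
      (univ.filter (fun y => ∀ x, r x y)).card * Fintype.card X := by
  classical
  set α := (univ.filter (fun x => ∀ y, r x y)).card with hα
  set β := (univ.filter (fun y => ∀ x, r x y)).card with hβ
  set a := Fintype.card X with ha
  set b := Fintype.card Y with hb
  have hswap : ∑ x : X, (univ.filter (r x)).card = ∑ y : Y, (univ.filter (fun x => r x y)).card :=
    Finset.sum_card_bipartiteAbove_eq_sum_card_bipartiteBelow r
  have h1 : p * ∑ x : X, (univ.filter (r x)).card + α * b = α * (p * b) + a * b := by
    have e1 : ∀ x : X, p * (univ.filter (r x)).card + (if ∀ y, r x y then b else 0) =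
        (if ∀ y, r x y then p * b else 0) + b := by
      intro x
      by_cases hx : ∀ y, r x y
      · have : (univ.filter (r x)) = univ := Finset.filter_true_of_mem (fun y _ => hx y)
        rw [if_pos hx, if_pos hx, this]
        rfl
      · rcases hX x with h | h
        · exact absurd h hx
        · rw [if_neg hx, if_neg hx, h]
          simp [hb]
    have e2 := Finset.sum_congr rfl (fun x (_ : x ∈ (univ : Finset X)) => e1 x)
    rw [Finset.sum_add_distrib, Finset.sum_add_distrib, ← Finset.mul_sum, Finset.sum_ite, Finset.sum_ite] at e2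
    simp only [Finset.sum_const, Finset.sum_const_zero, add_zero, smul_eq_mul, Finset.card_univ] at e2
    rw [← hα] at e2
    exact e2
  have h2 : p * ∑ y : Y, (univ.filter (fun x => r x y)).card + β * a = β * (p * a) + b * a := by
    have e1 : ∀ y : Y, p * (univ.filter (fun x => r x y)).card + (if ∀ x, r x y then a else 0) =
        (if ∀ x, r x y then p * a else 0) + a := by
      intro y
      by_cases hy : ∀ x, r x y
      · have : (univ.filter (fun x => r x y)) = univ := Finset.filter_true_of_mem (fun x _ => hy x)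
        rw [if_pos hy, if_pos hy, this]
        rfl
      · rcases hY y with h | h
        · exact absurd h hy
        · rw [if_neg hy, if_neg hy, h]
          simp [ha]
    have e2 := Finset.sum_congr rfl (fun y (_ : y ∈ (univ : Finset Y)) => e1 y)
    rw [Finset.sum_add_distrib, Finset.sum_add_distrib, ← Finset.mul_sum, Finset.sum_ite, Finset.sum_ite] at e2
    simp only [Finset.sum_const, Finset.sum_const_zero, add_zero, smul_eq_mul, Finset.card_univ] at e2
    rw [← hβ] at e2
    exact e2
  rw [hswap] at h1
  have hz : (α : ℤ) * b * (p - 1) = β * a * (p - 1) := by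
    have h3 : (p : ℤ) * (∑ y : Y, ((univ.filter (fun x => r x y)).card : ℤ)) + α * b = α * (p * b) + a * b := by
      exact_mod_cast h1
    have h4 : (p : ℤ) * (∑ y : Y, ((univ.filter (fun x => r x y)).card : ℤ)) + β * a = β * (p * a) + b * a := by
      exact_mod_cast h2
    linear_combination h4 - h3
  have hp1 : ((p : ℤ) - 1) ≠ 0 := by
    have : (1 : ℤ) < p := by exact_mod_cast hp
    omega
  have := mul_right_cancel₀ hp1 hz
  exact_mod_cast this

variable {G : Type*} [Group G] [Finite G]

/-- The commutator map `b ↦ [a,b]` is a homomorphism into a subgroup of order `p` commuting with `B`. -/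
theorem count_fibre {A B Z : Subgroup G} {p : ℕ} (hp : p.Prime) (hZcard : Nat.card Z = p)
    (hmem : ∀ b ∈ B, ∀ a ∈ A, a * b * a⁻¹ * b⁻¹ ∈ Z) (hcen : ∀ z ∈ Z, ∀ b ∈ B, z * b = b * z)
    (hcomm : ∀ z ∈ Z, ∀ z' ∈ Z, z * z' = z' * z)
    (a : G) (ha : a ∈ A) :
    (∀ b ∈ B, a * b = b * a) ∨ p * Nat.card {b : B // a * b = b * a} = Nat.card B := by
  classical
  let φ : B →* Z :=
    { toFun := fun b => ⟨a * b * a⁻¹ * (b : G)⁻¹, hmem b b.2 a ha⟩
      map_one' := by ext; simp
      map_mul' := by
        rintro ⟨b, hb⟩ ⟨c, hc⟩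
        ext
        simp only [Subgroup.coe_mul]
        have h1 := hcen _ (hmem c hc a ha) b⁻¹ (B.inv_mem hb)
        have h2 := hcomm _ (hmem b hb a ha) _ (hmem c hc a ha)
        rw [h2]
        have h3 := hcen _ (hmem c hc a ha) _ hb
        calc a * (b * c) * a⁻¹ * (b * c)⁻¹
            = a * b * a⁻¹ * (a * c * a⁻¹ * c⁻¹) * b⁻¹ := by group
          _ = a * b * a⁻¹ * ((a * c * a⁻¹ * c⁻¹) * b⁻¹) := by group
          _ = a * b * a⁻¹ * (b⁻¹ * (a * c * a⁻¹ * c⁻¹)) := by rw [h1]
          _ = (a * c * a⁻¹ * c⁻¹) * (a * b * a⁻¹ * b⁻¹) := by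
            rw [← h2]; group }
  have hker : ∀ b : B, b ∈ φ.ker ↔ a * b = b * a := by
    intro b
    rw [MonoidHom.mem_ker]
    constructor
    · intro h
      have h1 : a * b * a⁻¹ * (b : G)⁻¹ = 1 := congrArg Subtype.val h
      have h2 : a * b * a⁻¹ = b := by
        have := congrArg (· * (b : G)) h1
        simpa using this
      calc a * b = a * b * a⁻¹ * a := by group
        _ = b * a := by rw [h2]
    · intro h
      ext
      change a * b * a⁻¹ * (b : G)⁻¹ = 1
      rw [h]
      group
  have hcardker : Nat.card {b : B // a * b = b * a} = Nat.card φ.ker :=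
    Nat.card_congr (Equiv.subtypeEquivRight (fun b => (hker b).symm))
  by_cases hall : ∀ b ∈ B, a * b = b * a
  · exact Or.inl hall
  right
  have hrange : φ.range = ⊤ := by
    haveI := Fact.mk hp
    have hpr : (Nat.card Z).Prime := hZcard ▸ hp
    haveI : Fact (Nat.card Z).Prime := ⟨hpr⟩
    have := Subgroup.eq_bot_or_eq_top_of_prime_card (G := Z) φ.range
    rcases this with h | h
    · exfalso
      apply hall
      intro b hb
      have h1 : φ ⟨b, hb⟩ ∈ φ.range := ⟨_, rfl⟩
      rw [h, Subgroup.mem_bot] at h1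
      exact (hker ⟨b, hb⟩).1 h1
    · exact h
  rw [hcardker]
  have h1 := Subgroup.card_mul_index φ.ker
  rw [Subgroup.index_ker, hrange, Subgroup.card_top, hZcard] at h1
  rw [← h1, mul_comm]

theorem card_filter_eq {A : Subgroup G} (P : A → Prop) [DecidablePred P] [Fintype A] :
    (univ.filter P).card = Nat.card {a : A // P a} := by
  rw [Nat.card_eq_fintype_card, Fintype.card_subtype]


/-- Let A and B be subgroups of a finite p-group with [A, B] ≤ A ∩ B and [A, B] of order at most p. Then |A : C_A(B)| = |B : C_B(A)|. -/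
theorem result {G : Type*} [Group G] [Finite G] {p : ℕ} [Fact p.Prime] (hG : IsPGroup p G) (A B : Subgroup G) (hAB : ⁅A, B⁆ ≤ A ⊓ B) (hcard : Nat.card ↥⁅A, B⁆ ≤ p) : (A ⊓ Subgroup.centralizer (B : Set G)).relIndex A = (B ⊓ Subgroup.centralizer (A : Set G)).relIndex B := by
  classical
  have hp := (Fact.out : p.Prime)
  set Z := ⁅A, B⁆ with hZ
  -- `A` and `B` normalize `[A,B]`
  have hnormA : A ≤ Subgroup.normalizer (Z : Set G) := by
    intro x hx
    rw [H18.mem_normalizer_of_map_conj_eq_iff_le, Subgroup.map_le_iff_le_comap, hZ, Subgroup.commutator_le]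
    intro a ha b hb
    rw [Subgroup.mem_comap]
    change x * ⁅a, b⁆ * x⁻¹ ∈ ⁅A, B⁆
    have h1 : ⁅x * a, b⁆ ∈ ⁅A, B⁆ := Subgroup.commutator_mem_commutator (A.mul_mem hx ha) hb
    have h2 : ⁅x, b⁆ ∈ ⁅A, B⁆ := Subgroup.commutator_mem_commutator hx hb
    have h3 := Subgroup.mul_mem _ h1 (Subgroup.inv_mem _ h2)
    have e : x * ⁅a, b⁆ * x⁻¹ = ⁅x * a, b⁆ * ⁅x, b⁆⁻¹ := by
      simp only [commutatorElement_def]; group
    rw [e]; exact h3
  have hnormB : B ≤ Subgroup.normalizer (Z : Set G) := by
    intro y hy
    rw [H18.mem_normalizer_of_map_conj_eq_iff_le, Subgroup.map_le_iff_le_comap, hZ, Subgroup.commutator_le]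
    intro a ha b hb
    rw [Subgroup.mem_comap]
    change y * ⁅a, b⁆ * y⁻¹ ∈ ⁅A, B⁆
    have h1 : ⁅a, y * b⁆ ∈ ⁅A, B⁆ := Subgroup.commutator_mem_commutator ha (B.mul_mem hy hb)
    have h2 : ⁅a, y⁆ ∈ ⁅A, B⁆ := Subgroup.commutator_mem_commutator ha hy
    have h3 := Subgroup.mul_mem _ (Subgroup.inv_mem _ h2) h1
    have e : y * ⁅a, b⁆ * y⁻¹ = ⁅a, y⁆⁻¹ * ⁅a, y * b⁆ := by
      simp only [commutatorElement_def]; group
    rw [e]; exact h3
  have hmemAB : ∀ b ∈ B, ∀ a ∈ A, a * b * a⁻¹ * b⁻¹ ∈ Z := fun b hb a ha =>
    Subgroup.commutator_mem_commutator ha hb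
  have hmemBA : ∀ a ∈ A, ∀ b ∈ B, b * a * b⁻¹ * a⁻¹ ∈ Z := fun a ha b hb => by
    have := Z.inv_mem (hmemAB b hb a ha)
    have e : b * a * b⁻¹ * a⁻¹ = (a * b * a⁻¹ * b⁻¹)⁻¹ := by group
    rw [e]; exact this
  have hindex := H18.card_inf_mul_relIndex (A ⊓ Subgroup.centralizer (B : Set G)) A
  have hindex' := H18.card_inf_mul_relIndex (B ⊓ Subgroup.centralizer (A : Set G)) B
  have hinf : (A ⊓ Subgroup.centralizer (B : Set G)) ⊓ A = A ⊓ Subgroup.centralizer (B : Set G) :=
    inf_eq_left.2 inf_le_left
  have hinf' : (B ⊓ Subgroup.centralizer (A : Set G)) ⊓ B = B ⊓ Subgroup.centralizer (A : Set G) :=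
    inf_eq_left.2 inf_le_left
  rw [hinf] at hindex
  rw [hinf'] at hindex'
  set α := Nat.card (A ⊓ Subgroup.centralizer (B : Set G) : Subgroup G) with hα
  set β := Nat.card (B ⊓ Subgroup.centralizer (A : Set G) : Subgroup G) with hβ
  have hαpos : 0 < α := Nat.card_pos
  have hβpos : 0 < β := Nat.card_pos
  -- the main identity
  have hmain : α * Nat.card B = β * Nat.card A := by
    -- cardinality of `Z`
    have hZcases : Nat.card Z = 1 ∨ Nat.card Z = p := by
      obtain ⟨n, hn⟩ := IsPGroup.iff_card.1 (hG.to_subgroup Z)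
      rcases n with _ | n
      · left; simpa using hn
      · right
        rcases n with _ | n
        · simpa using hn
        · exfalso
          rw [hn] at hcard
          have h1 : p * p ≤ p ^ (n + 1 + 1) := by
            have : p ^ (n + 1 + 1) = p * p * p ^ n := by ring
            rw [this]
            exact Nat.le_mul_of_pos_right _ (pow_pos hp.pos n)
          have h2 : 1 * p < p * p := Nat.mul_lt_mul_of_pos_right hp.one_lt hp.pos
          omega
    rcases hZcases with h1 | hZp
    · -- trivial commutator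
      have hbot : Z = ⊥ := Subgroup.card_eq_one.1 h1
      have hcomm : ∀ a ∈ A, ∀ b ∈ B, a * b = b * a := by
        intro a ha b hb
        have := hmemAB b hb a ha
        rw [hbot, Subgroup.mem_bot] at this
        have h2 : a * b * a⁻¹ = b := by
          have h3 := congrArg (· * b) this
          simpa using h3
        calc a * b = a * b * a⁻¹ * a := by group
          _ = b * a := by rw [h2]
      have e1 : A ⊓ Subgroup.centralizer (B : Set G) = A := by
        apply inf_eq_left.2
        intro a ha
        rw [Subgroup.mem_centralizer_iff]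
        intro b hb
        exact (hcomm a ha b hb).symm
      have e2 : B ⊓ Subgroup.centralizer (A : Set G) = B := by
        apply inf_eq_left.2
        intro b hb
        rw [Subgroup.mem_centralizer_iff]
        intro a ha
        exact hcomm a ha b hb
      rw [hα, hβ, e1, e2, mul_comm]
    · -- `Z` has order `p`, hence is central in `N(Z)`
      set N := Subgroup.normalizer (Z : Set G) with hN
      haveI : (Z.subgroupOf N).Normal := Subgroup.normal_in_normalizer
      have hZne : Z.subgroupOf N ≠ ⊥ := by
        intro h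
        have h1 := H18.card_subgroupOf Z N
        rw [h, Subgroup.card_bot, inf_eq_left.2 (Subgroup.le_normalizer), hZp] at h1
        exact hp.one_lt.ne h1
      obtain ⟨z, hzK, hzc, hzord⟩ := Cfsg.Agent.H03.exists_central_of_order_p
        (hG.to_subgroup N) (Z.subgroupOf N) hZne
      have hzZ : (z : G) ∈ Z := Subgroup.mem_subgroupOf.1 hzK
      have hzorder : orderOf (z : G) = p := by simpa using hzord
      have hZeq : Z = Subgroup.zpowers (z : G) := by
        symm
        apply Subgroup.eq_of_le_of_card_ge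
        · rw [Subgroup.zpowers_le]; exact hzZ
        · rw [hZp, Nat.card_zpowers, hzorder]
      have hcen : ∀ w ∈ Z, ∀ x ∈ N, w * x = x * w := by
        intro w hw x hx
        rw [hZeq] at hw
        obtain ⟨i, rfl⟩ := Subgroup.mem_zpowers_iff.1 hw
        have h1 : Commute (z : G) x := by
          have h2 := (Subgroup.mem_center_iff.1 hzc) ⟨x, hx⟩
          exact (congrArg Subtype.val h2).symm
        exact (h1.zpow_left i).eq
      have hcomm : ∀ w ∈ Z, ∀ w' ∈ Z, w * w' = w' * w := by
        intro w hw w' hw'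
        exact hcen w hw w' (Subgroup.le_normalizer hw')
      haveI := Fintype.ofFinite A
      haveI := Fintype.ofFinite B
      let r : A → B → Prop := fun a b => (a : G) * b = b * a
      have hX : ∀ x : A, (∀ y, r x y) ∨ p * (univ.filter (r x)).card = Fintype.card B := by
        intro x
        rcases count_fibre hp hZp hmemAB (fun w hw b hb => hcen w hw b (hnormB hb)) hcomm x.1 x.2 with h | h
        · left
          intro y
          exact h y y.2
        · right
          rw [card_filter_eq, ← Nat.card_eq_fintype_card]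
          exact h
      have hY : ∀ y : B, (∀ x, r x y) ∨ p * (univ.filter (fun x => r x y)).card = Fintype.card A := by
        intro y
        rcases count_fibre (A := B) (B := A) hp hZp hmemBA (fun w hw a ha => hcen w hw a (hnormA ha)) hcomm y.1 y.2 with h | h
        · left
          intro x
          exact (h x x.2).symm
        · right
          rw [card_filter_eq, ← Nat.card_eq_fintype_card, ← h]
          have : Nat.card {x : A // r x y} = Nat.card {a : A // (y : G) * a = a * y} :=
            Nat.card_congr (Equiv.subtypeEquivRight (fun x => eq_comm))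
          rw [this]
      have hd := double_count r hp.one_lt hX hY
      rw [← Nat.card_eq_fintype_card, ← Nat.card_eq_fintype_card, card_filter_eq, card_filter_eq] at hd
      have e1 : Nat.card {x : A // ∀ y, r x y} = α := by
        rw [hα]
        apply Nat.card_congr
        refine ⟨fun x => ⟨x.1.1, Subgroup.mem_inf.2 ⟨x.1.2, ?_⟩⟩, fun x => ⟨⟨x.1, (Subgroup.mem_inf.1 x.2).1⟩, ?_⟩, ?_, ?_⟩
        · rw [Subgroup.mem_centralizer_iff]
          intro b hb
          exact (x.2 ⟨b, hb⟩).symm
        · intro y
          exact ((Subgroup.mem_centralizer_iff.1 (Subgroup.mem_inf.1 x.2).2) y y.2).symm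
        · intro x; rfl
        · intro x; rfl
      have e2 : Nat.card {y : B // ∀ x, r x y} = β := by
        rw [hβ]
        apply Nat.card_congr
        refine ⟨fun y => ⟨y.1.1, Subgroup.mem_inf.2 ⟨y.1.2, ?_⟩⟩, fun y => ⟨⟨y.1, (Subgroup.mem_inf.1 y.2).1⟩, ?_⟩, ?_, ?_⟩
        · rw [Subgroup.mem_centralizer_iff]
          intro a ha
          exact y.2 ⟨a, ha⟩
        · intro x
          exact (Subgroup.mem_centralizer_iff.1 (Subgroup.mem_inf.1 y.2).2) x x.2
        · intro x; rfl
        · intro x; rfl
      rw [e1, e2] at hd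
      exact hd
  -- conclude
  rw [← hindex, ← hindex'] at hmain
  have h1 : α * β * (B ⊓ Subgroup.centralizer (A : Set G)).relIndex B =
      α * β * (A ⊓ Subgroup.centralizer (B : Set G)).relIndex A := by
    calc _ = α * (β * (B ⊓ Subgroup.centralizer (A : Set G)).relIndex B) := by ring
      _ = β * (α * (A ⊓ Subgroup.centralizer (B : Set G)).relIndex A) := hmain
      _ = _ := by ring
  exact (Nat.eq_of_mul_eq_mul_left (Nat.mul_pos hαpos hβpos) h1).symm

end Cfsg.Agent.S3741
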