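import Cfsg.Statements.S3742
import Mathlib

set_option autoImplicit false
open Cfsg

namespace Cfsg.Agent.S3742


open QuaternionGroup

abbrev Q := QuaternionGroup 2

def code : Q → ℕ
  | a i => ZMod.val i
  | xa i => 4 + ZMod.val i

def rawTable : List (List (Fin 4)) := [[], [], [], [], [], [], [], [], [], [], [], [], [0,1,2,3], [2,0,3,1], [3,2,1,0], [1,3,0,2], [], [], [], [], [], [], [], [], [], [], [], [], [2,3,0,1], [3,1,2,0], [1,0,3,2], [0,2,1,3], [], [1,0,2,3], [], [3,2,0,1], [], [0,3,1,2], [], [2,1,3,0], [], [0,2,3,1], [], [1,3,2,0], [3,0,1,2], [], [2,1,0,3], [], [], [2,3,1,0], [], [0,1,3,2], [], [1,2,0,3], [], [3,0,2,1], [], [3,1,0,2], [], [2,0,1,3], [1,2,3,0], [], [0,3,2,1], []]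

def τ (u v : Q) (k : Fin 4) : Fin 4 :=
  ((rawTable.getD (code u * 8 + code v) []).getD (k : ℕ) 0)

/-- The 24 pairs of generators of `Q`. -/
def valid (u v : Q) : Prop := u ^ 2 ≠ 1 ∧ v ^ 2 = u ^ 2 ∧ v * u * v⁻¹ = u⁻¹

instance (u v : Q) : Decidable (valid u v) := by
  unfold valid; infer_instance

def h (u v : Q) : Q → Q
  | a i => u ^ (ZMod.val i)
  | xa i => v * u ^ (ZMod.val i)

theorem h_mul : ∀ u v : Q, valid u v → ∀ g g' : Q, h u v (g * g') = h u v g * h u v g' := by
  decide +kernel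

theorem h_inj : ∀ u v : Q, valid u v → ∀ g g' : Q, h u v g = h u v g' → g = g' := by
  decide +kernel

theorem h_gen1 : ∀ u v : Q, h u v (a 1) = u := by decide +kernel

theorem h_gen2 : ∀ u v : Q, h u v (xa 0) = v := by decide +kernel

theorem valid_gen : valid (a 1) (xa 0) := by decide +kernel

theorem τ_one : ∀ k, τ (a 1) (xa 0) k = k := by decide +kernel

theorem τ_mul : ∀ u v u' v' : Q, valid u v → valid u' v' → ∀ k,
    τ (h u v u') (h u v v') k = τ u v (τ u' v' k) := by
  decide +kernel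

theorem τ_inj : ∀ u v u' v' : Q, valid u v → valid u' v' → (∀ k, τ u v k = τ u' v' k) →
    u = u' ∧ v = v' := by
  decide +kernel

theorem τ_surj : ∀ σ : Equiv.Perm (Fin 4), ∃ u v : Q, valid u v ∧ ∀ k, τ u v k = σ k := by
  decide +kernel

theorem valid_aut (f : MulAut Q) : valid (f (a 1)) (f (xa 0)) := by
  obtain ⟨h1, h2, h3⟩ := valid_gen
  refine ⟨?_, ?_, ?_⟩
  · rw [← map_pow]
    intro h
    exact h1 (f.injective (by rw [h, map_one]))
  · rw [← map_pow, ← map_pow, h2]
  · rw [← map_mul, ← map_inv, ← map_mul, h3, map_inv]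

theorem aut_eq_h (f : MulAut Q) : ∀ g : Q, f g = h (f (a 1)) (f (xa 0)) g := by
  intro g
  cases g with
  | a i =>
    change f (a i) = f (a 1) ^ (ZMod.val i)
    rw [← map_pow, a_one_pow]
    congr 2
    haveI : NeZero (2 * 2) := ⟨by norm_num⟩
    simp
  | xa i =>
    change f (xa i) = f (xa 0) * f (a 1) ^ (ZMod.val i)
    rw [← map_pow, a_one_pow, ← map_mul, xa_mul_a, zero_add]
    congr 2
    haveI : NeZero (2 * 2) := ⟨by norm_num⟩
    simp

/-- The action on the four diagonals. -/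
def act (f : MulAut Q) (k : Fin 4) : Fin 4 := τ (f (a 1)) (f (xa 0)) k

theorem act_one (k : Fin 4) : act 1 k = k := τ_one k

theorem act_mul (f g : MulAut Q) (k : Fin 4) : act (f * g) k = act f (act g k) := by
  unfold act
  have h1 : (f * g) (a 1) = h (f (a 1)) (f (xa 0)) (g (a 1)) := aut_eq_h f _
  have h2 : (f * g) (xa 0) = h (f (a 1)) (f (xa 0)) (g (xa 0)) := aut_eq_h f _
  rw [h1, h2]
  exact τ_mul _ _ _ _ (valid_aut f) (valid_aut g) k

/-- The automorphism attached to a pair of generators. -/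
noncomputable def autOf (u v : Q) (hv : valid u v) : MulAut Q :=
  MulEquiv.ofBijective
    (MonoidHom.mk' (h u v) (h_mul u v hv))
    (Finite.injective_iff_bijective.1 (fun g g' e => h_inj u v hv g g' e))

theorem autOf_apply (u v : Q) (hv : valid u v) (g : Q) : autOf u v hv g = h u v g := rfl


/-- The automorphism group of the quaternion group of order 8 is isomorphic to the symmetric group of degree 4. -/
theorem result : Nonempty (MulAut (QuaternionGroup 2) ≃* Equiv.Perm (Fin 4)) := by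
  letI : MulAction (MulAut Q) (Fin 4) :=
    { smul := act
      one_smul := act_one
      mul_smul := act_mul }
  let Φ : MulAut Q →* Equiv.Perm (Fin 4) := MulAction.toPermHom (MulAut Q) (Fin 4)
  have hΦ : ∀ f k, Φ f k = τ (f (a 1)) (f (xa 0)) k := fun f k => rfl
  refine ⟨MulEquiv.ofBijective Φ ⟨?_, ?_⟩⟩
  · intro f g e
    have h1 : ∀ k, τ (f (a 1)) (f (xa 0)) k = τ (g (a 1)) (g (xa 0)) k := by
      intro k
      rw [← hΦ, ← hΦ, e]
    obtain ⟨h2, h3⟩ := τ_inj _ _ _ _ (valid_aut f) (valid_aut g) h1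
    ext x
    rw [aut_eq_h f x, aut_eq_h g x, h2, h3]
  · intro σ
    obtain ⟨u, v, hv, hσ⟩ := τ_surj σ
    refine ⟨autOf u v hv, ?_⟩
    ext k
    rw [hΦ, autOf_apply, autOf_apply, h_gen1, h_gen2, hσ]

end Cfsg.Agent.S3742
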