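import Cfsg.Statements.S3744
import Mathlib
import Cfsg.Agent.Lib.H03.PSolv
import Cfsg.Agent.Lib.H01.SZ2
import Cfsg.Agent.Lib.H18.Zipper
import Cfsg.Agent.Lib.H18.Syl
import Cfsg.Agent.Lib.H18.Basic

set_option autoImplicit false
open Cfsg

namespace Cfsg.Agent.S3744


open Subgroup
open scoped Pointwise

universe u

/-- `H` is a `p`-complement -/
def IsComp (p : ℕ) {G : Type*} [Group G] (H : Subgroup G) : Prop :=
  (Nat.card H).Coprime p ∧ ∃ k : ℕ, H.index = p ^ k

theorem map_conj_map {G Q : Type*} [Group G] [Group Q] (f : G →* Q) (g : G) (X : Subgroup G) :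
    (X.map (MulAut.conj g).toMonoidHom).map f = (X.map f).map (MulAut.conj (f g)).toMonoidHom := by
  rw [Subgroup.map_map, Subgroup.map_map]
  congr 1
  ext x
  simp [MulAut.conj_apply]

theorem isComp_map {p : ℕ} [hp : Fact p.Prime] {G Q : Type*} [Group G] [Group Q] [Finite G] {f : G →* Q}
    (hf : Function.Surjective f) {H : Subgroup G} (hH : IsComp p H) : IsComp p (H.map f) := by
  obtain ⟨h1, k, hk⟩ := hH
  refine ⟨Nat.Coprime.coprime_dvd_left (H01.card_map_dvd' f H) h1, ?_⟩
  have h2 : (H.map f).index ∣ p ^ k := hk ▸ Subgroup.index_map_dvd H hf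
  obtain ⟨j, _, hj⟩ := (Nat.dvd_prime_pow hp.out).1 h2
  exact ⟨j, hj⟩

theorem le_of_isComp {p : ℕ} [hp : Fact p.Prime] {G : Type*} [Group G] [Finite G] {H M : Subgroup G} [M.Normal]
    (hH : IsComp p H) (hM : (Nat.card M).Coprime p) : M ≤ H := by
  obtain ⟨h1, k, hk⟩ := hH
  have h2 : H.relIndex M ∣ p ^ k := hk ▸ H18.relIndex_dvd_index_of_normal_right H M
  have h3 : H.relIndex M ∣ Nat.card M := Subgroup.relIndex_dvd_card H M
  have h4 : H.relIndex M = 1 := by
    apply Nat.eq_one_of_dvd_coprimes (hM.pow_right k) h3 h2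
  exact Subgroup.relIndex_eq_one.1 h4

/-- two complements of a normal `p`-subgroup in their common join are conjugate -/
theorem complement_conj {G : Type u} [Group G] [Finite G] (M : Subgroup G) [M.Normal] {p : ℕ} [hp : Fact p.Prime]
    (hM : IsPGroup p M) (X Y : Subgroup G) (hX : (Nat.card X).Coprime p) (hY : (Nat.card Y).Coprime p)
    (h : X ⊔ M = Y ⊔ M) : ∃ e : G, Y = X.map (MulAut.conj e).toMonoidHom := by
  classical
  set W := M ⊔ X with hW
  have hMW : M ≤ W := le_sup_left
  have hXW : X ≤ W := le_sup_right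
  have hYW : Y ≤ W := by
    rw [hW, sup_comm, h]
    exact le_sup_left
  haveI hM'n : (M.subgroupOf W).Normal := Subgroup.Normal.subgroupOf inferInstance W
  obtain ⟨k, hk⟩ := IsPGroup.iff_card.1 hM
  have hcopX : (Nat.card M).Coprime (Nat.card X) := by
    rw [hk]
    exact Nat.Coprime.pow_left _ hX.symm
  have hcopY : (Nat.card M).Coprime (Nat.card Y) := by
    rw [hk]
    exact Nat.Coprime.pow_left _ hY.symm
  have hcardM : Nat.card (M.subgroupOf W) = Nat.card M := Nat.card_congr (Subgroup.subgroupOfEquivOfLe hMW).toEquiv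
  have hcardX : Nat.card (X.subgroupOf W) = Nat.card X := Nat.card_congr (Subgroup.subgroupOfEquivOfLe hXW).toEquiv
  have hcardY : Nat.card (Y.subgroupOf W) = Nat.card Y := Nat.card_congr (Subgroup.subgroupOfEquivOfLe hYW).toEquiv
  have hcX : (M.subgroupOf W).IsComplement' (X.subgroupOf W) := by
    apply H01.isComplement'_of_normal
    · apply Subgroup.disjoint_of_coprime_natCard
      rw [hcardM, hcardX]
      exact hcopX
    · rw [← H18.sup_subgroupOf_of_le hMW hXW, Subgroup.subgroupOf_self]
  have hcY : (M.subgroupOf W).IsComplement' (Y.subgroupOf W) := by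
    apply H01.isComplement'_of_normal
    · apply Subgroup.disjoint_of_coprime_natCard
      rw [hcardM, hcardY]
      exact hcopY
    · rw [← H18.sup_subgroupOf_of_le hMW hYW]
      have : M ⊔ Y = W := by rw [sup_comm, ← h, sup_comm]
      rw [this, Subgroup.subgroupOf_self]
  have hcop : (Nat.card (M.subgroupOf W)).Coprime (M.subgroupOf W).index := by
    rw [hcX.symm.index_eq_card, hcardM, hcardX]
    exact hcopX
  have hsolv : Group.IsSolvable (M.subgroupOf W) := by
    haveI : Group.IsNilpotent M := hM.isNilpotent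
    exact Group.isSolvable_of_surjective (f := (Subgroup.subgroupOfEquivOfLe hMW).symm.toMonoidHom)
      (Subgroup.subgroupOfEquivOfLe hMW).symm.surjective
  obtain ⟨e, he⟩ := H01.sz_conj (M.subgroupOf W) hcop _ _ hcX hcY (Or.inl hsolv)
  refine ⟨e, ?_⟩
  ext y
  rw [H18.mem_conj]
  constructor
  · intro hy
    have h1 : (⟨y, hYW hy⟩ : W) ∈ Y.subgroupOf W := hy
    rw [← he, H01.mem_conj_smul_iff] at h1
    exact h1
  · intro hy
    have hyW : y ∈ W := by
      have h1 : (e : G) * ((e : G)⁻¹ * y * e) * (e : G)⁻¹ ∈ W :=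
        W.mul_mem (W.mul_mem e.2 (hXW hy)) (W.inv_mem e.2)
      have e2 : (e : G) * ((e : G)⁻¹ * y * e) * (e : G)⁻¹ = y := by group
      rwa [e2] at h1
    have h1 : (⟨y, hyW⟩ : W) ∈ MulAut.conj e • X.subgroupOf W := by
      rw [H01.mem_conj_smul_iff]
      exact hy
    rw [he] at h1
    exact h1

theorem main_aux (p : ℕ) [hp : Fact p.Prime] : ∀ (n : ℕ) (G : Type u) [Group G] [Finite G], Nat.card G = n →
    Cfsg.IsPSolvable p G →
    (∃ H : Subgroup G, IsComp p H) ∧
    (∀ H₁ H₂ : Subgroup G, IsComp p H₁ → IsComp p H₂ → ∃ g : G, H₂ = H₁.map (MulAut.conj g).toMonoidHom) ∧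
    (∀ U : Subgroup G, (Nat.card U).Coprime p → ∃ H : Subgroup G, IsComp p H ∧ ∃ g : G,
      U.map (MulAut.conj g).toMonoidHom ≤ H) := by
  intro n
  induction n using Nat.strong_induction_on with
  | _ n ih =>
  intro G _ _ hn hG
  classical
  by_cases hnt : Nontrivial G
  swap
  · rw [not_nontrivial_iff_subsingleton] at hnt
    have hone : ∀ H : Subgroup G, IsComp p H := by
      intro H
      refine ⟨?_, 0, ?_⟩
      · have : Nat.card H = 1 := Nat.card_unique (α := H) 
        rw [this]
        exact Nat.coprime_one_left p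
      · have : H = ⊤ := Subsingleton.elim _ _
        rw [this, Subgroup.index_top, pow_zero]
    refine ⟨⟨⊥, hone _⟩, ?_, ?_⟩
    · intro H₁ H₂ _ _
      exact ⟨1, Subsingleton.elim _ _⟩
    · intro U _
      exact ⟨⊥, hone _, 1, by
        have : ∀ X Y : Subgroup G, X = Y := fun X Y => Subsingleton.elim _ _
        exact (this _ _).le⟩
  obtain ⟨M, -, hMn, hMne, hM⟩ := H03.exists_normal_le_of_isPSolvable hG (normal_top) (top_ne_bot)
  haveI := hMn
  let Q := G ⧸ M
  let π : G →* Q := QuotientGroup.mk' M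
  have hπs : Function.Surjective π := QuotientGroup.mk'_surjective M
  have hπk : π.ker = M := QuotientGroup.ker_mk' M
  have hcardG : Nat.card G = Nat.card Q * Nat.card M := Subgroup.card_eq_card_quotient_mul_card_subgroup M
  have hQlt : Nat.card Q < n := by
    rw [← hn, hcardG]
    have h1 : 1 < Nat.card M := by
      haveI : Nontrivial M := (Subgroup.nontrivial_iff_ne_bot M).2 hMne
      exact Finite.one_lt_card
    have h2 : 0 < Nat.card Q := Nat.card_pos
    nlinarith
  obtain ⟨ihA, ihB, ihC⟩ := ih _ hQlt Q rfl (H03.isPSolvable_of_surjective hπs hG)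
  -- facts on `comap`
  have hcardcomap : ∀ H : Subgroup Q, Nat.card (H.comap π) = Nat.card H * Nat.card M := by
    intro H
    have h1 : (H.comap π).index = H.index := Subgroup.index_comap_of_surjective H hπs
    have h2 : Nat.card (H.comap π) * (H.comap π).index = Nat.card G := Subgroup.card_mul_index _
    have h3 : Nat.card H * H.index = Nat.card Q := Subgroup.card_mul_index _
    have h4 : 0 < H.index := Nat.pos_of_ne_zero Subgroup.index_ne_zero_of_finite
    rw [h1] at h2
    apply Nat.eq_of_mul_eq_mul_right h4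
    rw [h2, hcardG, ← h3]
    ring
  rcases hM with hMp | hMc
  · -- `M` is a `p`-group
    obtain ⟨k, hk⟩ := IsPGroup.iff_card.1 hMp
    have hlift : ∀ Hb : Subgroup Q, IsComp p Hb → ∃ H : Subgroup G, IsComp p H ∧ H ⊔ M = Hb.comap π := by
      rintro Hb ⟨hb1, a, ha⟩
      set E := Hb.comap π with hE
      have hME : M ≤ E := by
        intro m hm
        change π m ∈ Hb
        have : π m = 1 := by
          rw [← MonoidHom.mem_ker, hπk]
          exact hm
        rw [this]
        exact one_mem _
      haveI hM'n : (M.subgroupOf E).Normal := Subgroup.Normal.subgroupOf inferInstance E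
      have hM'card : Nat.card (M.subgroupOf E) = Nat.card M := Nat.card_congr (Subgroup.subgroupOfEquivOfLe hME).toEquiv
      have hM'idx : (M.subgroupOf E).index = Nat.card Hb := by
        have h1 : Nat.card (M.subgroupOf E) * (M.subgroupOf E).index = Nat.card E := Subgroup.card_mul_index _
        have h2 := hcardcomap Hb
        rw [hM'card] at h1
        have hpos : 0 < Nat.card M := Nat.card_pos
        apply Nat.eq_of_mul_eq_mul_left hpos
        rw [h1, h2]
        ring
      have hcop : (Nat.card (M.subgroupOf E)).Coprime (M.subgroupOf E).index := by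
        rw [hM'card, hM'idx, hk]
        exact Nat.Coprime.pow_left _ hb1.symm
      obtain ⟨K, hK⟩ := Subgroup.exists_right_complement'_of_coprime hcop
      have hKcard : Nat.card K = Nat.card Hb := by
        rw [← hK.symm.index_eq_card, hM'idx]
      let H : Subgroup G := K.map E.subtype
      have hHcard : Nat.card H = Nat.card Hb := by
        rw [← hKcard]
        exact Nat.card_congr (K.equivMapOfInjective _ E.subtype_injective).toEquiv.symm
      refine ⟨H, ⟨?_, a + k, ?_⟩, ?_⟩
      · rw [hHcard]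
        exact hb1
      · have h1 : Nat.card H * H.index = Nat.card G := Subgroup.card_mul_index _
        have h3 : Nat.card Hb * Hb.index = Nat.card Q := Subgroup.card_mul_index _
        have hpos : 0 < Nat.card Hb := Nat.card_pos
        apply Nat.eq_of_mul_eq_mul_left hpos
        rw [← hHcard, h1, hcardG, hHcard, ← h3, ha, hk, pow_add]
        ring
      · have h1 : (M.subgroupOf E) ⊔ K = ⊤ := hK.sup_eq_top
        have h2 := congrArg (Subgroup.map E.subtype) h1
        rw [Subgroup.map_sup, Subgroup.map_subgroupOf_eq_of_le hME, ← MonoidHom.range_eq_map,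
          Subgroup.range_subtype] at h2
        rw [sup_comm]
        exact h2
    refine ⟨?_, ?_, ?_⟩
    · obtain ⟨Hb, hHb⟩ := ihA
      obtain ⟨H, hH, _⟩ := hlift Hb hHb
      exact ⟨H, hH⟩
    · intro H₁ H₂ h₁ h₂
      obtain ⟨gb, hgb⟩ := ihB _ _ (isComp_map hπs h₁) (isComp_map hπs h₂)
      obtain ⟨g, rfl⟩ := hπs gb
      have h1 : (H₁.map (MulAut.conj g).toMonoidHom).map π = H₂.map π := by
        rw [map_conj_map, hgb]
      have h2 : H₁.map (MulAut.conj g).toMonoidHom ⊔ M = H₂ ⊔ M := by
        have h3 := congrArg (Subgroup.comap π) h1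
        rw [Subgroup.comap_map_eq, Subgroup.comap_map_eq, hπk] at h3
        exact h3
      have hcX : (Nat.card (H₁.map (MulAut.conj g).toMonoidHom)).Coprime p := by
        rw [H18.card_map_conj]
        exact h₁.1
      obtain ⟨e, he⟩ := complement_conj M hMp _ _ hcX h₂.1 h2
      refine ⟨e * g, ?_⟩
      rw [he, H18.map_conj_mul]
    · intro U hU
      have hUb : (Nat.card (U.map π)).Coprime p :=
        Nat.Coprime.coprime_dvd_left (H01.card_map_dvd' π U) hU
      obtain ⟨Hb, hHb, gb, hgb⟩ := ihC _ hUb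
      obtain ⟨g, rfl⟩ := hπs gb
      obtain ⟨H, hH, hHM⟩ := hlift Hb hHb
      set U' := U.map (MulAut.conj g).toMonoidHom with hU'
      have hU'card : (Nat.card U').Coprime p := by
        rw [hU', H18.card_map_conj]
        exact hU
      have hU'E : U' ≤ H ⊔ M := by
        rw [hHM, ← Subgroup.map_le_iff_le_comap, hU', map_conj_map]
        exact hgb
      let K' : Subgroup G := H ⊓ (U' ⊔ M)
      have hK'card : (Nat.card K').Coprime p :=
        Nat.Coprime.coprime_dvd_left (Subgroup.card_dvd_of_le inf_le_left) hH.1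
      have hsup : U' ⊔ M = K' ⊔ M := by
        apply le_antisymm
        · apply sup_le _ le_sup_right
          intro u hu
          have h3 : u ∈ M ⊔ H := by rw [sup_comm]; exact hU'E hu
          obtain ⟨m, hm, h', hh', rfl⟩ := H18.mem_sup_normal_left.1 h3
          have h4 : h' ∈ U' ⊔ M := by
            have e : h' = m⁻¹ * (m * h') := by group
            rw [e]
            exact mul_mem (Subgroup.mem_sup_right (M.inv_mem hm)) (Subgroup.mem_sup_left hu)
          exact mul_mem (Subgroup.mem_sup_right hm) (Subgroup.mem_sup_left ⟨hh', h4⟩)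
        · exact sup_le (inf_le_right) le_sup_right
      obtain ⟨e, he⟩ := complement_conj M hMp U' K' hU'card hK'card hsup
      refine ⟨H, hH, e * g, ?_⟩
      rw [H18.map_conj_mul, ← hU', ← he]
      exact inf_le_left
  · -- `M` is a `p'`-group
    refine ⟨?_, ?_, ?_⟩
    · obtain ⟨Hb, hb1, a, ha⟩ := ihA
      refine ⟨Hb.comap π, ?_, a, ?_⟩
      · rw [hcardcomap]
        exact Nat.Coprime.mul_left hb1 hMc
      · rw [Subgroup.index_comap_of_surjective Hb hπs, ha]
    · intro H₁ H₂ h₁ h₂
      obtain ⟨gb, hgb⟩ := ihB _ _ (isComp_map hπs h₁) (isComp_map hπs h₂)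
      obtain ⟨g, rfl⟩ := hπs gb
      refine ⟨g, ?_⟩
      have hM1 : M ≤ H₁ := le_of_isComp h₁ hMc
      have hM2 : M ≤ H₂ := le_of_isComp h₂ hMc
      have hM3 : M ≤ H₁.map (MulAut.conj g).toMonoidHom := by
        rw [← H18.map_conj_eq_of_mem_normalizer (n := g) (K := M) (by
          rw [Subgroup.normalizer_eq_top M]; trivial)]
        exact Subgroup.map_mono hM1
      have h1 : (H₁.map (MulAut.conj g).toMonoidHom).map π = H₂.map π := by
        rw [map_conj_map, hgb]
      have h3 := congrArg (Subgroup.comap π) h1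
      rw [Subgroup.comap_map_eq, Subgroup.comap_map_eq, hπk, sup_eq_left.2 hM3, sup_eq_left.2 hM2] at h3
      exact h3.symm
    · intro U hU
      have hUb : (Nat.card (U.map π)).Coprime p :=
        Nat.Coprime.coprime_dvd_left (H01.card_map_dvd' π U) hU
      obtain ⟨Hb, hHb, gb, hgb⟩ := ihC _ hUb
      obtain ⟨g, rfl⟩ := hπs gb
      refine ⟨Hb.comap π, ⟨?_, ?_⟩, g, ?_⟩
      · rw [hcardcomap]
        exact Nat.Coprime.mul_left hHb.1 hMc
      · obtain ⟨a, ha⟩ := hHb.2
        exact ⟨a, by rw [Subgroup.index_comap_of_surjective Hb hπs, ha]⟩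
      · rw [← Subgroup.map_le_iff_le_comap, map_conj_map]
        exact hgb


/-- A finite p-soluble group has a p-complement, all its p-complements are conjugate, and every subgroup of order prime to p lies in one of them. Here a p-complement is a subgroup of order prime to p whose index is a power of p. -/
theorem result {G : Type*} [Group G] [Finite G] {p : ℕ} [Fact p.Prime] (hG : Cfsg.IsPSolvable p G) : (∃ H : Subgroup G, (Nat.card H).Coprime p ∧ ∃ n : ℕ, H.index = p ^ n) ∧ (∀ H₁ H₂ : Subgroup G, (Nat.card H₁).Coprime p → (∃ n : ℕ, H₁.index = p ^ n) → (Nat.card H₂).Coprime p → (∃ n : ℕ, H₂.index = p ^ n) → ∃ g : G, H₂ = H₁.map (MulAut.conj g).toMonoidHom) ∧ (∀ U : Subgroup G, (Nat.card U).Coprime p → ∃ H : Subgroup G, (Nat.card H).Coprime p ∧ (∃ n : ℕ, H.index = p ^ n) ∧ ∃ g : G, U.map (MulAut.conj g).toMonoidHom ≤ H) := by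
  obtain ⟨h1, h2, h3⟩ := main_aux p _ G rfl hG
  refine ⟨?_, ?_, ?_⟩
  · obtain ⟨H, hH⟩ := h1
    exact ⟨H, hH.1, hH.2⟩
  · intro H₁ H₂ a b c d
    exact h2 H₁ H₂ ⟨a, b⟩ ⟨c, d⟩
  · intro U hU
    obtain ⟨H, hH, g, hg⟩ := h3 U hU
    exact ⟨H, hH.1, hH.2, g, hg⟩

end Cfsg.Agent.S3744
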