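import Cfsg.Statements.S3745
import Mathlib
import Cfsg.Prelude.Def_OddOrderLocal
import Cfsg.Agent.Lib.H19.Lifts
import Cfsg.Agent.Lib.H01.Hall
import Cfsg.Agent.Lib.H01.Coprime3
import Cfsg.Agent.Lib.H06.Dade
import Cfsg.Agent.Lib.H18.Syl

set_option autoImplicit false
open Cfsg

namespace Cfsg.Agent.S3745


open Cfsg
open scoped Pointwise commutatorElement

universe u

section

variable {X : Type u} [Group X] [Finite X]

theorem exists_pi_split (π : Set ℕ) : ∀ N : ℕ, 0 < N → ∃ m n : ℕ, N = m * n ∧ m.Coprime n ∧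
    (∀ p : ℕ, p.Prime → p ∣ m → p ∈ π) ∧ (∀ p : ℕ, p.Prime → p ∣ n → p ∉ π) := by
  intro N
  induction N using Nat.recOnPosPrimePosCoprime with
  | zero => intro h; omega
  | one =>
    intro _
    refine ⟨1, 1, rfl, Nat.coprime_one_left 1, ?_, ?_⟩ <;>
    · intro p hp h
      exact absurd (Nat.dvd_one.mp h) hp.ne_one
  | prime_pow p k hp hk =>
    intro _
    classical
    by_cases hpi : p ∈ π
    · refine ⟨p ^ k, 1, by simp, Nat.coprime_one_right _, ?_, ?_⟩
      · intro q hq h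
        rw [(Nat.prime_dvd_prime_iff_eq hq hp).mp (hq.dvd_of_dvd_pow h)]
        exact hpi
      · intro q hq h
        exact absurd (Nat.dvd_one.mp h) hq.ne_one
    · refine ⟨1, p ^ k, by simp, Nat.coprime_one_left _, ?_, ?_⟩
      · intro q hq h
        exact absurd (Nat.dvd_one.mp h) hq.ne_one
      · intro q hq h
        rw [(Nat.prime_dvd_prime_iff_eq hq hp).mp (hq.dvd_of_dvd_pow h)]
        exact hpi
  | coprime a b ha hb hab iha ihb =>
    intro _
    obtain ⟨m₁, n₁, rfl, h1, h2, h3⟩ := iha (by omega)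
    obtain ⟨m₂, n₂, rfl, h4, h5, h6⟩ := ihb (by omega)
    refine ⟨m₁ * m₂, n₁ * n₂, by ring, ?_, ?_, ?_⟩
    · apply Nat.Coprime.mul_left
      · apply Nat.Coprime.mul_right h1
        exact Nat.Coprime.coprime_dvd_right (Dvd.intro_left _ rfl)
          (Nat.Coprime.coprime_dvd_left (Dvd.intro _ rfl) hab)
      · apply Nat.Coprime.mul_right
        · exact Nat.Coprime.coprime_dvd_right (Dvd.intro_left _ rfl)
            (Nat.Coprime.coprime_dvd_left (Dvd.intro _ rfl) hab.symm) |> Nat.Coprime.symm |> Nat.Coprime.symm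
        · exact h4
    · intro p hp h
      rcases (hp.dvd_mul).mp h with h | h
      · exact h2 p hp h
      · exact h5 p hp h
    · intro p hp h
      rcases (hp.dvd_mul).mp h with h | h
      · exact h3 p hp h
      · exact h6 p hp h

theorem card_mul_relIndex {H G : Subgroup X} (h : H ≤ G) :
    Nat.card H * H.relIndex G = Nat.card G := by
  have := H18.card_inf_mul_relIndex H G
  rwa [inf_of_le_left h] at this

/-- Characterisation of Hall subgroups by order. -/
theorem isPiHallOf_iff {π : Set ℕ} {G H : Subgroup X} {m n : ℕ} (hG : Nat.card G = m * n)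
    (hc : m.Coprime n) (hm : ∀ p : ℕ, p.Prime → p ∣ m → p ∈ π)
    (hn : ∀ p : ℕ, p.Prime → p ∣ n → p ∉ π) :
    IsPiHallOf π H G ↔ H ≤ G ∧ Nat.card H = m := by
  have hm0 : 0 < m * n := by rw [← hG]; exact Nat.card_pos
  constructor
  · rintro ⟨hHG, h1, h2⟩
    refine ⟨hHG, ?_⟩
    have h3 := card_mul_relIndex hHG
    rw [hG] at h3
    have hco1 : (Nat.card H).Coprime n := by
      rw [Nat.coprime_iff_gcd_eq_one]
      by_contra hne
      obtain ⟨p, hp, hpd⟩ := Nat.exists_prime_and_dvd hne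
      exact hn p hp (hpd.trans (Nat.gcd_dvd_right _ _)) (h1 p hp (hpd.trans (Nat.gcd_dvd_left _ _)))
    have hco2 : m.Coprime (H.relIndex G) := by
      rw [Nat.coprime_iff_gcd_eq_one]
      by_contra hne
      obtain ⟨p, hp, hpd⟩ := Nat.exists_prime_and_dvd hne
      exact h2 p hp (hm p hp (hpd.trans (Nat.gcd_dvd_left _ _))) (hpd.trans (Nat.gcd_dvd_right _ _))
    apply Nat.dvd_antisymm
    · apply hco1.dvd_of_dvd_mul_right
      rw [← h3]
      exact Dvd.intro _ rfl
    · apply hco2.dvd_of_dvd_mul_right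
      rw [h3]
      exact Dvd.intro _ rfl
  · rintro ⟨hHG, hcard⟩
    refine ⟨hHG, ?_, ?_⟩
    · intro p hp h
      rw [hcard] at h
      exact hm p hp h
    · intro p hp hpi h
      have h3 := card_mul_relIndex hHG
      rw [hG, hcard] at h3
      have h4 : H.relIndex G = n := by
        have hmpos : 0 < m := Nat.pos_of_mul_pos_right hm0 |> fun _ => by
          rcases Nat.eq_zero_or_pos m with h0 | h0
          · subst h0; simp at hm0
          · exact h0
        exact Nat.eq_of_mul_eq_mul_left hmpos h3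
      rw [h4] at h
      exact hn p hp h hpi

theorem exists_hall (G : Subgroup X) (hsolv : Group.IsSolvable G) {m n : ℕ}
    (hG : Nat.card G = m * n) (hc : m.Coprime n) (U : Subgroup X) (hUG : U ≤ G)
    (hU : (Nat.card U).Coprime n) : ∃ H : Subgroup X, H ≤ G ∧ Nat.card H = m ∧ U ≤ H := by
  have hcU : Nat.card (U.subgroupOf G) = Nat.card U := H01.card_subgroupOf_of_le hUG
  obtain ⟨H', hH', hUH'⟩ := H01.hall_containment _ G rfl m n hG hc (U.subgroupOf G) (by rw [hcU]; exact hU)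
  refine ⟨H'.map G.subtype, ?_, ?_, ?_⟩
  · rintro _ ⟨x, -, rfl⟩
    exact x.2
  · rw [← hH']
    exact Nat.card_congr (H'.equivMapOfInjective G.subtype G.subtype_injective).symm.toEquiv
  · intro u hu
    exact ⟨⟨u, hUG hu⟩, hUH' hu, rfl⟩

theorem hall_conj' (G : Subgroup X) (hsolv : Group.IsSolvable G) {m n : ℕ}
    (hG : Nat.card G = m * n) (hc : m.Coprime n) (H K : Subgroup X) (hH : H ≤ G) (hK : K ≤ G)
    (hHc : Nat.card H = m) (hKc : Nat.card K = m) :
    ∃ g ∈ G, MulAut.conj g • H = K := by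
  have h1 : Nat.card (H.subgroupOf G) = m := by rw [H01.card_subgroupOf_of_le hH, hHc]
  have h2 : Nat.card (K.subgroupOf G) = m := by rw [H01.card_subgroupOf_of_le hK, hKc]
  obtain ⟨g, hg⟩ := H01.hall_conj _ G rfl m n hG hc (H.subgroupOf G) (K.subgroupOf G) h1 h2
  refine ⟨g, g.2, ?_⟩
  ext x
  rw [H01.mem_conj_smul_iff]
  constructor
  · intro hx
    have hxG : (g : X)⁻¹ * x * g ∈ G := hH hx
    have h3 : (⟨(g : X)⁻¹ * x * g, hxG⟩ : G) ∈ H.subgroupOf G := hx
    have h4 : MulAut.conj g • (⟨(g : X)⁻¹ * x * g, hxG⟩ : G) ∈ MulAut.conj g • H.subgroupOf G :=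
      Subgroup.smul_mem_pointwise_smul _ _ _ h3
    rw [hg] at h4
    have h5 : ((MulAut.conj g • (⟨(g : X)⁻¹ * x * g, hxG⟩ : G) : G) : X) ∈ K := h4
    have h6 : ((MulAut.conj g • (⟨(g : X)⁻¹ * x * g, hxG⟩ : G) : G) : X) = x := by
      show (g : X) * ((g : X)⁻¹ * x * g) * (g : X)⁻¹ = x
      group
    rwa [h6] at h5
  · intro hx
    have hxG : x ∈ G := hK hx
    have h3 : (⟨x, hxG⟩ : G) ∈ K.subgroupOf G := hx
    rw [← hg, H01.mem_conj_smul_iff] at h3
    exact h3

end

section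

variable {X : Type u} [Group X] [Finite X]

/-- The invariant Hall subgroup exists. -/
theorem exists_invariant_hall {A G : Subgroup X} (hAG : A ≤ Subgroup.normalizer (G : Set X))
    (hcop : (Nat.card A).Coprime (Nat.card G)) (hsolv : Group.IsSolvable G) {m n : ℕ}
    (hG : Nat.card G = m * n) (hc : m.Coprime n) :
    ∃ H : Subgroup X, H ≤ G ∧ Nat.card H = m ∧ A ≤ Subgroup.normalizer (H : Set X) := by
  let Γ : Subgroup X := G ⊔ A
  have hGΓ : G ≤ Γ := le_sup_left
  have hAΓ : A ≤ Γ := le_sup_right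
  have hΓ : Γ ≤ Subgroup.normalizer (G : Set X) := sup_le Subgroup.le_normalizer hAG
  let Ω := {H : Subgroup X // H ≤ G ∧ Nat.card H = m}
  have hstay : ∀ (g : Γ) (H : Ω), MulAut.conj (g : X) • H.1 ≤ G ∧
      Nat.card (MulAut.conj (g : X) • H.1 : Subgroup X) = m := by
    rintro ⟨g, hg⟩ ⟨H, hH, hHc⟩
    constructor
    · intro x hx
      rw [H01.mem_conj_smul_iff] at hx
      have h1 := hH hx
      have h2 := (Subgroup.mem_normalizer_iff.mp (hΓ hg) _).mp h1
      have h3 : g * (g⁻¹ * x * g) * g⁻¹ = x := by group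
      rwa [h3] at h2
    · exact (Nat.card_congr (H.equivSMul (MulAut.conj g)).symm.toEquiv).trans hHc
  let ρ : Γ →* Equiv.Perm Ω :=
    { toFun := fun g =>
        { toFun := fun H => ⟨MulAut.conj (g : X) • H.1, hstay g H⟩
          invFun := fun H => ⟨MulAut.conj ((g⁻¹ : Γ) : X) • H.1, hstay g⁻¹ H⟩
          left_inv := fun H => by
            apply Subtype.ext
            show MulAut.conj ((g⁻¹ : Γ) : X) • MulAut.conj (g : X) • H.1 = H.1
            rw [← H01.conj_mul_smul]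
            simp
          right_inv := fun H => by
            apply Subtype.ext
            show MulAut.conj (g : X) • MulAut.conj ((g⁻¹ : Γ) : X) • H.1 = H.1
            rw [← H01.conj_mul_smul]
            simp }
      map_one' := by
        ext H : 2
        show MulAut.conj ((1 : Γ) : X) • H.1 = H.1
        simp
      map_mul' := fun a b => by
        ext H : 2
        show MulAut.conj ((a * b : Γ) : X) • H.1 = MulAut.conj (a : X) • MulAut.conj (b : X) • H.1
        rw [show ((a * b : Γ) : X) = (a : X) * b from rfl, H01.conj_mul_smul] }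
  have hρ : ∀ (g : Γ) (H : Ω), (ρ g H).1 = MulAut.conj (g : X) • H.1 := fun _ _ => rfl
  have hN₀ : (G.subgroupOf Γ).Normal := (Subgroup.normal_subgroupOf_iff_le_normalizer hGΓ).mpr hΓ
  have hcardΓ : Nat.card G * Nat.card A = Nat.card Γ :=
    H01.card_sup_of_le_normalizer hAG hcop.symm
  have hc' : (G.subgroupOf Γ).IsComplement' (A.subgroupOf Γ) := by
    apply Subgroup.isComplement'_of_coprime
    · rw [H01.card_subgroupOf_of_le hGΓ, H01.card_subgroupOf_of_le hAΓ, hcardΓ]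
    · rw [H01.card_subgroupOf_of_le hGΓ, H01.card_subgroupOf_of_le hAΓ]; exact hcop.symm
  have hcop₀ : (Nat.card (G.subgroupOf Γ)).Coprime (G.subgroupOf Γ).index := by
    rw [hc'.symm.index_eq_card, H01.card_subgroupOf_of_le hGΓ, H01.card_subgroupOf_of_le hAΓ]
    exact hcop.symm
  have hsolv₀ : Group.IsSolvable (G.subgroupOf Γ) ∨ Group.IsSolvable (A.subgroupOf Γ) := by
    left
    exact Group.isSolvable_of_surjective (f := ((Subgroup.subgroupOfEquivOfLe hGΓ).symm : G →* _))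
      (Subgroup.subgroupOfEquivOfLe hGΓ).symm.surjective
  have htrans : ∀ x y : Ω, ∃ k ∈ G.subgroupOf Γ, ρ k x = y := by
    intro x y
    obtain ⟨g, hg, h⟩ := hall_conj' G hsolv hG hc x.1 y.1 x.2.1 y.2.1 x.2.2 y.2.2
    refine ⟨⟨g, hGΓ hg⟩, hg, ?_⟩
    apply Subtype.ext
    exact h
  obtain ⟨H₀, hH₀, hH₀c, -⟩ := exists_hall G hsolv hG hc ⊥ bot_le
    (by simp)
  obtain ⟨P, hP⟩ := H01.glauberman_fixed ρ (G.subgroupOf Γ) (A.subgroupOf Γ) hc' hcop₀ hsolv₀ htrans
    ⟨H₀, hH₀, hH₀c⟩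
  refine ⟨P.1, P.2.1, P.2.2, ?_⟩
  intro a ha
  rw [H01.mem_normalizer_iff_smul]
  have := hP ⟨a, hAΓ ha⟩ ha
  have h2 := congrArg Subtype.val this
  rw [hρ] at h2
  exact h2

/-- Conjugacy under `C_G(A)`. -/
theorem conj_invariant_hall {A G : Subgroup X} (hAG : A ≤ Subgroup.normalizer (G : Set X))
    (hcop : (Nat.card A).Coprime (Nat.card G)) (hsolv : Group.IsSolvable G) {m n : ℕ}
    (hG : Nat.card G = m * n) (hc : m.Coprime n) (P₁ Q₁ : Subgroup X) (hP1 : P₁ ≤ G) (hQ1 : Q₁ ≤ G)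
    (hPc : Nat.card P₁ = m) (hQc : Nat.card Q₁ = m)
    (hP : A ≤ Subgroup.normalizer (P₁ : Set X)) (hQ : A ≤ Subgroup.normalizer (Q₁ : Set X)) :
    ∃ c ∈ G ⊓ Subgroup.centralizer (A : Set X), MulAut.conj c • P₁ = Q₁ := by
  obtain ⟨k, hkG, hkP⟩ := hall_conj' G hsolv hG hc P₁ Q₁ hP1 hQ1 hPc hQc
  let N : Subgroup X := G ⊓ Subgroup.normalizer (Q₁ : Set X)
  have hAN : A ≤ Subgroup.normalizer (N : Set X) := by
    intro a ha
    rw [H01.mem_normalizer_iff_smul, Subgroup.smul_inf, H01.conj_smul_of_mem_normalizer (hAG ha)]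
    congr 1
    have h1 : MulAut.conj a • Subgroup.normalizer (Q₁ : Set X)
        = (Subgroup.normalizer (Q₁ : Set X)).map (MulAut.conj a).toMonoidHom := rfl
    rw [h1, Subgroup.map_equiv_normalizer_eq]
    have h2 : Q₁.map (MulAut.conj a).toMonoidHom = MulAut.conj a • Q₁ := rfl
    rw [h2, H01.conj_smul_of_mem_normalizer (hQ ha)]
  obtain ⟨n', hn, hc'⟩ := H01.key_lemma (A := A) (K := G) (N := N) (k := k) inf_le_left hAN hAG hcop
    (Or.inr hsolv) hkG (by
      intro a ha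
      constructor
      · have : k * a * k⁻¹ * a⁻¹ = k * (a * k⁻¹ * a⁻¹) := by group
        rw [this]
        exact G.mul_mem hkG (H01.conj_mem_of_mem_normalizer (hAG ha) (G.inv_mem hkG))
      · apply Subgroup.mul_mem _ _ (inv_mem (hQ ha))
        rw [H01.mem_normalizer_iff_smul, H01.conj_mul_smul, H01.conj_mul_smul, map_inv]
        calc MulAut.conj k • MulAut.conj a • (MulAut.conj k)⁻¹ • Q₁
            = MulAut.conj k • MulAut.conj a • (MulAut.conj k)⁻¹ •
                MulAut.conj k • P₁ := by rw [hkP]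
          _ = MulAut.conj k • MulAut.conj a • P₁ := by rw [inv_smul_smul]
          _ = MulAut.conj k • P₁ := by rw [H01.conj_smul_of_mem_normalizer (hP ha)]
          _ = Q₁ := hkP)
  refine ⟨n' * k, hc', ?_⟩
  rw [H01.conj_mul_smul, hkP, H01.conj_smul_of_mem_normalizer hn.2]

end

/-- A nontrivial invariant normal `r`-subgroup. -/
theorem exists_invariant_normal_prime {X : Type u} [Group X] [Finite X] {A G : Subgroup X}
    (hAG : A ≤ Subgroup.normalizer (G : Set X))
    (hsolv : Group.IsSolvable G) (hne : G ≠ ⊥) :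
    ∃ (r : ℕ) (N : Subgroup X), r.Prime ∧ N ≠ ⊥ ∧ N ≤ G ∧ G ≤ Subgroup.normalizer (N : Set X) ∧
      A ≤ Subgroup.normalizer (N : Set X) ∧ IsPGroup r N := by
  let S : Set (Subgroup X) := {N | N ≠ ⊥ ∧ N ≤ G ∧ G ≤ Subgroup.normalizer (N : Set X) ∧
    A ≤ Subgroup.normalizer (N : Set X)}
  have hS : S.Nonempty := ⟨G, hne, le_rfl, Subgroup.le_normalizer, hAG⟩
  obtain ⟨N, hN, hmin⟩ := S.toFinite.exists_minimal hS
  obtain ⟨hNne, hNG, hNn, hNA⟩ := hN
  have hnorm_comm : ∀ x ∈ Subgroup.normalizer (N : Set X),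
      x ∈ Subgroup.normalizer ((⁅N, N⁆ : Subgroup X) : Set X) := by
    intro x hx
    rw [H01.mem_normalizer_iff_smul] at hx ⊢
    have h1 : ∀ H : Subgroup X, MulAut.conj x • H = H.map (MulAut.conj x).toMonoidHom := fun _ => rfl
    rw [h1] at hx ⊢
    rw [Subgroup.map_commutator, hx]
  have hcomm : ⁅N, N⁆ = ⊥ := by
    by_contra hne2
    have hle : ⁅N, N⁆ ≤ N := by
      rw [Subgroup.commutator_le]
      intro a ha b hb
      exact N.mul_mem (N.mul_mem (N.mul_mem ha hb) (N.inv_mem ha)) (N.inv_mem hb)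
    have hmem : ⁅N, N⁆ ∈ S := ⟨hne2, hle.trans hNG, fun x hx => hnorm_comm x (hNn hx),
      fun x hx => hnorm_comm x (hNA hx)⟩
    have h2 : N ≤ ⁅N, N⁆ := hmin hmem hle
    have h3 : ⁅N, N⁆ = N := le_antisymm hle h2
    -- perfect + solvable
    haveI hsN : Group.IsSolvable N :=
      Group.isSolvable_of_isSolvable_injective (Subgroup.inclusion_injective hNG)
    have hNt : Nontrivial N := (Subgroup.nontrivial_iff_ne_bot N).mpr hNne
    have h4 := Group.IsSolvable.commutator_lt_top_of_nontrivial N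
    apply ne_of_lt h4
    rw [commutator_def, eq_top_iff]
    rintro ⟨x, hx⟩ -
    rw [← h3] at hx
    have h5 : (⁅(⊤ : Subgroup N), (⊤ : Subgroup N)⁆).map N.subtype = N := by
      rw [Subgroup.map_commutator]
      have h6 : (⊤ : Subgroup N).map N.subtype = N := by
        rw [← MonoidHom.range_eq_map, Subgroup.range_subtype]
      rw [h6, h3]
    have hx' : x ∈ N := by rw [h3] at hx; exact hx
    rw [← h5] at hx'
    obtain ⟨y, hy, hyx⟩ := hx'
    have : y = ⟨x, by rw [h3] at hx; exact hx⟩ := Subtype.ext hyx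
    rw [← this]
    exact hy
  have hab : ∀ x ∈ N, ∀ y ∈ N, x * y = y * x := by
    intro x hx y hy
    have := Subgroup.commutator_mem_commutator hx hy
    rw [hcomm, Subgroup.mem_bot] at this
    exact commutatorElement_eq_one_iff_mul_comm.mp this
  obtain ⟨r, hr, hrd⟩ : ∃ r, r.Prime ∧ r ∣ Nat.card N := by
    have : Nontrivial N := (Subgroup.nontrivial_iff_ne_bot N).mpr hNne
    have h1 : Nat.card N ≠ 1 := Finite.one_lt_card.ne'
    exact Nat.exists_prime_and_dvd h1
  haveI : Fact r.Prime := ⟨hr⟩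
  obtain ⟨z, hz⟩ := exists_prime_orderOf_dvd_card' r hrd
  let k := Nat.card N
  let T : Subgroup X :=
    { carrier := {x | x ∈ N ∧ x ^ r ^ k = 1}
      mul_mem' := by
        rintro a b ⟨ha, ha2⟩ ⟨hb, hb2⟩
        refine ⟨N.mul_mem ha hb, ?_⟩
        have hc : Commute a b := hab a ha b hb
        rw [hc.mul_pow, ha2, hb2, one_mul]
      one_mem' := ⟨N.one_mem, one_pow _⟩
      inv_mem' := by
        rintro a ⟨ha, ha2⟩
        exact ⟨N.inv_mem ha, by rw [inv_pow, ha2, inv_one]⟩ }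
  have hmemT : ∀ x, x ∈ T ↔ x ∈ N ∧ x ^ r ^ k = 1 := fun _ => Iff.rfl
  have hTne : T ≠ ⊥ := by
    intro h
    have h1 : (z : X) ∈ T := by
      rw [hmemT]
      refine ⟨z.2, ?_⟩
      have hk : r ∣ r ^ k := dvd_pow_self r (Nat.card_pos.ne')
      have h2 : z ^ r = 1 := by rw [← hz]; exact pow_orderOf_eq_one z
      obtain ⟨c, hc⟩ := hk
      rw [hc, pow_mul]
      have h3 : (z : X) ^ r = 1 := by
        have := congrArg (fun y : N => (y : X)) h2
        simpa using this
      rw [h3, one_pow]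
    rw [h, Subgroup.mem_bot] at h1
    have h2 : z = 1 := Subtype.ext h1
    rw [h2, orderOf_one] at hz
    exact hr.ne_one hz.symm
  have hTn : ∀ x ∈ Subgroup.normalizer (N : Set X), x ∈ Subgroup.normalizer (T : Set X) := by
    intro x hx
    apply H19.mem_normalizer_of_conj_le
    rintro y ⟨hy, hy2⟩
    refine ⟨(Subgroup.mem_normalizer_iff.mp hx y).mp hy, ?_⟩
    rw [conj_pow, hy2]
    simp
  have hTN : T ≤ N := fun x hx => hx.1
  have hTS : T ∈ S := ⟨hTne, hTN.trans hNG, fun x hx => hTn x (hNn hx), fun x hx => hTn x (hNA hx)⟩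
  have hNT : N ≤ T := hmin hTS hTN
  refine ⟨r, N, hr, hNne, hNG, hNn, hNA, ?_⟩
  intro x
  refine ⟨k, ?_⟩
  apply Subtype.ext
  exact (hNT x.2).2

/-- The quotient step. -/
theorem quotient_step {π : Set ℕ} {n₀ : ℕ} {X : Type u} [Group X] [Finite X]
    (IH : ∀ (X' : Type u) [Group X'] [Finite X'] (A' G' : Subgroup X'), Nat.card G' < n₀ →
      A' ≤ Subgroup.normalizer (G' : Set X') → (Nat.card A').Coprime (Nat.card G') →
      Group.IsSolvable G' → ∀ U' : Subgroup X', U' ≤ G' → A' ≤ Subgroup.normalizer (U' : Set X') →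
      (∀ p : ℕ, p.Prime → p ∣ Nat.card U' → p ∈ π) → ∃ H : Subgroup X', IsPiHallOf π H G' ∧
      A' ≤ Subgroup.normalizer (H : Set X') ∧ U' ≤ H)
    {A G N U : Subgroup X} (hG₀ : Nat.card G = n₀)
    (hAG : A ≤ Subgroup.normalizer (G : Set X))
    (hcop : (Nat.card A).Coprime (Nat.card G)) (hsolv : Group.IsSolvable G)
    (hNne : N ≠ ⊥) (hNG : N ≤ G) (hNn : G ≤ Subgroup.normalizer (N : Set X))
    (hNA : A ≤ Subgroup.normalizer (N : Set X))
    (hUG : U ≤ G) (hUA : A ≤ Subgroup.normalizer (U : Set X))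
    (hU : ∀ p : ℕ, p.Prime → p ∣ Nat.card U → p ∈ π) :
    ∃ H : Subgroup X, N ≤ H ∧ H ≤ G ∧ U ≤ H ∧ A ≤ Subgroup.normalizer (H : Set X) ∧
      (∀ p : ℕ, p.Prime → p ∣ N.relIndex H → p ∈ π) ∧
      (∀ p : ℕ, p.Prime → p ∈ π → ¬ p ∣ H.relIndex G) := by
  let Γ : Subgroup X := G ⊔ A
  have hGΓ : G ≤ Γ := le_sup_left
  have hAΓ : A ≤ Γ := le_sup_right
  have hNΓ : N ≤ Γ := hNG.trans hGΓ
  have hΓN : Γ ≤ Subgroup.normalizer (N : Set X) := sup_le hNn hNA
  have hΓG : Γ ≤ Subgroup.normalizer (G : Set X) := sup_le Subgroup.le_normalizer hAG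
  let N' : Subgroup Γ := N.subgroupOf Γ
  haveI hN' : N'.Normal := (Subgroup.normal_subgroupOf_iff_le_normalizer hNΓ).mpr hΓN
  let f : Γ →* Γ ⧸ N' := QuotientGroup.mk' N'
  have hf : Function.Surjective f := QuotientGroup.mk'_surjective N'
  have hker : f.ker = N' := QuotientGroup.ker_mk' N'
  let G' : Subgroup Γ := G.subgroupOf Γ
  let A' : Subgroup Γ := A.subgroupOf Γ
  let U' : Subgroup Γ := U.subgroupOf Γ
  have hrel : ∀ (K : Subgroup X), K ≤ Γ → N.relIndex K = Nat.card ((K.subgroupOf Γ).map f) := by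
    intro K hK
    rw [← Subgroup.relIndex_bot_left, ← Subgroup.relIndex_comap, MonoidHom.comap_bot, hker]
    exact (Subgroup.relIndex_subgroupOf hK).symm
  have hcardG : Nat.card (G'.map f) = N.relIndex G := (hrel G hGΓ).symm
  have hlt : Nat.card (G'.map f) < n₀ := by
    rw [hcardG, ← hG₀, ← card_mul_relIndex hNG]
    have h1 : 1 < Nat.card N := by
      have : Nontrivial N := (Subgroup.nontrivial_iff_ne_bot N).mpr hNne
      exact Finite.one_lt_card
    have h2 : 0 < N.relIndex G := by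
      rw [← hcardG]; exact Nat.card_pos
    nlinarith
  have hconj : ∀ (K : Subgroup X) (a : Γ), (a : X) ∈ Subgroup.normalizer (K : Set X) →
      f a ∈ Subgroup.normalizer (((K.subgroupOf Γ).map f : Subgroup _) : Set _) := by
    intro K a ha
    apply H19.mem_normalizer_of_conj_le
    rintro _ ⟨y, hy, rfl⟩
    refine ⟨a * y * a⁻¹, ?_, by simp⟩
    exact (Subgroup.mem_normalizer_iff.mp ha y).mp hy
  obtain ⟨Ht, hHt, hHtA, hUHt⟩ := IH (Γ ⧸ N') (A'.map f) (G'.map f) hlt
    (by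
      rintro _ ⟨a, ha, rfl⟩
      exact hconj G a (hAG ha))
    (by
      apply Nat.Coprime.coprime_dvd_left (Subgroup.card_map_dvd _ _)
      apply Nat.Coprime.coprime_dvd_right (Subgroup.card_map_dvd _ _)
      rw [show Nat.card A' = Nat.card A from H01.card_subgroupOf_of_le hAΓ,
        show Nat.card G' = Nat.card G from H01.card_subgroupOf_of_le hGΓ]
      exact hcop)
    (by
      have hsG' : Group.IsSolvable G' :=
        Group.isSolvable_of_surjective (f := ((Subgroup.subgroupOfEquivOfLe hGΓ).symm : G →* _))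
          (Subgroup.subgroupOfEquivOfLe hGΓ).symm.surjective
      exact Group.isSolvable_of_surjective (f := f.subgroupMap G') (f.subgroupMap_surjective G'))
    (U'.map f) (Subgroup.map_mono (fun x hx => hUG hx))
    (by
      rintro _ ⟨a, ha, rfl⟩
      exact hconj U a (hUA ha))
    (by
      intro p hp hd
      apply hU p hp
      apply hd.trans
      apply (Subgroup.card_map_dvd _ _).trans
      rw [show Nat.card U' = Nat.card U from H01.card_subgroupOf_of_le (hUG.trans hGΓ)])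
  obtain ⟨hHG', hHp, hHi⟩ := hHt
  let H' : Subgroup Γ := Ht.comap f
  let H : Subgroup X := H'.map Γ.subtype
  have hHΓ : H ≤ Γ := by
    rintro _ ⟨x, -, rfl⟩
    exact x.2
  have hHsub : H.subgroupOf Γ = H' := Subgroup.comap_map_eq_self_of_injective Γ.subtype_injective _
  have hmemH : ∀ x : Γ, (x : X) ∈ H ↔ f x ∈ Ht := by
    intro x
    constructor
    · rintro ⟨y, hy, hyx⟩
      have : y = x := Subtype.ext hyx
      rw [← this]
      exact hy
    · intro h
      exact ⟨x, h, rfl⟩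
  have hNH : N ≤ H := by
    intro x hx
    have hxΓ : x ∈ Γ := hNΓ hx
    rw [show x = ((⟨x, hxΓ⟩ : Γ) : X) from rfl, hmemH]
    have : f ⟨x, hxΓ⟩ = 1 := by
      rw [← MonoidHom.mem_ker, hker]
      exact hx
    rw [this]
    exact Ht.one_mem
  have hHG : H ≤ G := by
    intro x hx
    have hxΓ : x ∈ Γ := hHΓ hx
    have h1 := (hmemH ⟨x, hxΓ⟩).mp hx
    obtain ⟨y, hy, hyx⟩ := hHG' h1
    have h2 : y⁻¹ * ⟨x, hxΓ⟩ ∈ f.ker := by
      rw [MonoidHom.mem_ker, map_mul, map_inv, hyx]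
      simp
    rw [hker] at h2
    have h3 : (y : X)⁻¹ * x ∈ N := h2
    have h4 : (y : X) ∈ G := hy
    have h5 : x = y * ((y : X)⁻¹ * x) := by group
    rw [h5]
    exact G.mul_mem h4 (hNG h3)
  refine ⟨H, hNH, hHG, ?_, ?_, ?_, ?_⟩
  · intro u hu
    have huΓ : u ∈ Γ := hGΓ (hUG hu)
    rw [show u = ((⟨u, huΓ⟩ : Γ) : X) from rfl, hmemH]
    exact hUHt ⟨⟨u, huΓ⟩, hu, rfl⟩
  · intro a ha
    have haΓ : a ∈ Γ := hAΓ ha
    apply H19.mem_normalizer_of_conj_le
    intro x hx
    have hxΓ : x ∈ Γ := hHΓ hx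
    have h1 := (hmemH ⟨x, hxΓ⟩).mp hx
    have h2 : a * x * a⁻¹ = (((⟨a, haΓ⟩ : Γ) * ⟨x, hxΓ⟩ * (⟨a, haΓ⟩ : Γ)⁻¹ : Γ) : X) := rfl
    rw [h2, hmemH, map_mul, map_mul, map_inv]
    have h3 : f ⟨a, haΓ⟩ ∈ A'.map f := ⟨⟨a, haΓ⟩, ha, rfl⟩
    exact (Subgroup.mem_normalizer_iff.mp (hHtA h3) _).mp h1
  · intro p hp hd
    rw [hrel H hHΓ, hHsub] at hd
    have h1 : H'.map f = Ht := Subgroup.map_comap_eq_self_of_surjective hf Ht
    rw [h1] at hd
    exact hHp p hp hd
  · intro p hp hpi hd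
    apply hHi p hp hpi
    rw [← Subgroup.relIndex_subgroupOf hGΓ, hHsub, Subgroup.relIndex_comap] at hd
    exact hd

/-- The containment theorem. -/
theorem hall_main (π : Set ℕ) : ∀ (n₀ : ℕ) (X : Type u) [Group X] [Finite X] (A G : Subgroup X),
    Nat.card G = n₀ →
    A ≤ Subgroup.normalizer (G : Set X) → (Nat.card A).Coprime (Nat.card G) →
    Group.IsSolvable G → ∀ U : Subgroup X, U ≤ G → A ≤ Subgroup.normalizer (U : Set X) →
    (∀ p : ℕ, p.Prime → p ∣ Nat.card U → p ∈ π) → ∃ H : Subgroup X, IsPiHallOf π H G ∧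
    A ≤ Subgroup.normalizer (H : Set X) ∧ U ≤ H := by
  intro n₀
  induction n₀ using Nat.strong_induction_on with
  | _ n₀ ih =>
  intro X _ _ A G hG₀ hAG hcop hsolv U hUG hUA hU
  by_cases hne : G = ⊥
  · subst hne
    refine ⟨⊥, ⟨le_rfl, ?_, ?_⟩, ?_, hUG⟩
    · intro p hp h
      simp at h
      exact absurd h hp.ne_one
    · intro p hp _ h
      simp at h
      exact absurd h hp.ne_one
    · exact hAG
  obtain ⟨r, N, hr, hNne, hNG, hNn, hNA, hNr⟩ := exists_invariant_normal_prime hAG hsolv hne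
  have IH' : ∀ (X' : Type u) [Group X'] [Finite X'] (A' G' : Subgroup X'), Nat.card G' < n₀ →
      A' ≤ Subgroup.normalizer (G' : Set X') → (Nat.card A').Coprime (Nat.card G') →
      Group.IsSolvable G' → ∀ U' : Subgroup X', U' ≤ G' → A' ≤ Subgroup.normalizer (U' : Set X') →
      (∀ p : ℕ, p.Prime → p ∣ Nat.card U' → p ∈ π) → ∃ H : Subgroup X', IsPiHallOf π H G' ∧
      A' ≤ Subgroup.normalizer (H : Set X') ∧ U' ≤ H :=
    fun X' _ _ A' G' hlt => ih _ hlt X' A' G' rfl
  obtain ⟨H, hNH, hHG, hUH, hHA, h1, h2⟩ := quotient_step IH' hG₀ hAG hcop hsolv hNne hNG hNn hNA hUG hUA hU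
  haveI : Fact r.Prime := ⟨hr⟩
  have hNprime : ∀ p : ℕ, p.Prime → p ∣ Nat.card N → p = r := by
    intro p hp hd
    obtain ⟨k, hk⟩ := IsPGroup.iff_card.mp hNr
    rw [hk] at hd
    exact (Nat.prime_dvd_prime_iff_eq hp hr).mp (hp.dvd_of_dvd_pow hd)
  by_cases hrπ : r ∈ π
  · refine ⟨H, ⟨hHG, ?_, h2⟩, hHA, hUH⟩
    intro p hp hd
    rw [← card_mul_relIndex hNH, hp.dvd_mul] at hd
    rcases hd with hd | hd
    · rw [hNprime p hp hd]; exact hrπ
    · exact h1 p hp hd
  by_cases hHeq : H = G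
  swap
  · have hlt : Nat.card H < n₀ := by
      rw [← hG₀]
      exact lt_of_le_of_ne (Nat.le_of_dvd Nat.card_pos (Subgroup.card_dvd_of_le hHG))
        (fun h => hHeq (Subgroup.eq_of_le_of_card_ge hHG h.ge))
    obtain ⟨T, ⟨hTH, hTp, hTi⟩, hTA, hUT⟩ := IH' X A H hlt hHA
      (Nat.Coprime.coprime_dvd_right (Subgroup.card_dvd_of_le hHG) hcop)
      (Group.isSolvable_of_isSolvable_injective (Subgroup.inclusion_injective hHG)) U hUH hUA hU
    refine ⟨T, ⟨hTH.trans hHG, hTp, ?_⟩, hTA, hUT⟩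
    intro p hp hpi hd
    rw [← Subgroup.relIndex_mul_relIndex T H G hTH hHG, hp.dvd_mul] at hd
    rcases hd with hd | hd
    · exact hTi p hp hpi hd
    · exact h2 p hp hpi hd
  subst hHeq
  -- `N` is a normal Hall `π'`-subgroup
  have hGm : Nat.card H = N.relIndex H * Nat.card N := by
    rw [← card_mul_relIndex hNH, mul_comm]
  have hm : ∀ p : ℕ, p.Prime → p ∣ N.relIndex H → p ∈ π := h1
  have hn : ∀ p : ℕ, p.Prime → p ∣ Nat.card N → p ∉ π := by
    intro p hp hd
    rw [hNprime p hp hd]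
    exact hrπ
  have hcopπ : ∀ m : ℕ, (∀ p : ℕ, p.Prime → p ∣ m → p ∈ π) → m.Coprime (Nat.card N) := by
    intro m hm'
    rw [Nat.coprime_iff_gcd_eq_one]
    by_contra hne2
    obtain ⟨p, hp, hpd⟩ := Nat.exists_prime_and_dvd hne2
    exact hn p hp (hpd.trans (Nat.gcd_dvd_right _ _)) (hm' p hp (hpd.trans (Nat.gcd_dvd_left _ _)))
  have hc : (N.relIndex H).Coprime (Nat.card N) := hcopπ _ hm
  obtain ⟨W, hWH, hWc, hWA⟩ := exists_invariant_hall hHA hcop hsolv hGm hc
  -- `K = N U`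
  let K : Subgroup X := N ⊔ U
  have hKH : K ≤ H := sup_le hNH hUH
  have hsmul : ∀ (a : X) (L : Subgroup X), MulAut.conj a • L = L.map (MulAut.conj a).toMonoidHom :=
    fun _ _ => rfl
  have hKA : A ≤ Subgroup.normalizer (K : Set X) := by
    intro a ha
    rw [H01.mem_normalizer_iff_smul, hsmul, Subgroup.map_sup, ← hsmul, ← hsmul,
      H01.conj_smul_of_mem_normalizer (hNA ha), H01.conj_smul_of_mem_normalizer (hUA ha)]
  have hUN : U ≤ Subgroup.normalizer (N : Set X) := hUH.trans hNn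
  have hUc : (Nat.card U).Coprime (Nat.card N) := hcopπ _ hU
  have hKcard : Nat.card K = Nat.card U * Nat.card N := by
    rw [mul_comm]
    exact (H01.card_sup_of_le_normalizer hUN hUc.symm).symm
  have hWN : W ≤ Subgroup.normalizer (N : Set X) := hWH.trans hNn
  have hWcop : (Nat.card W).Coprime (Nat.card N) := by rw [hWc]; exact hc
  have hsupW : N ⊔ W = H := by
    apply Subgroup.eq_of_le_of_card_ge (sup_le hNH hWH)
    rw [← H01.card_sup_of_le_normalizer hWN hWcop.symm, hGm, hWc, mul_comm]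
  let W₁ : Subgroup X := W ⊓ K
  have hW₁K : W₁ ≤ K := inf_le_right
  have hW₁N : W₁ ≤ Subgroup.normalizer (N : Set X) := inf_le_left.trans hWN
  have hW₁cop : (Nat.card W₁).Coprime (Nat.card N) :=
    Nat.Coprime.coprime_dvd_left (Subgroup.card_dvd_of_le inf_le_left) hWcop
  have hsupW₁ : N ⊔ W₁ = K := by
    apply le_antisymm (sup_le le_sup_left hW₁K)
    intro x hx
    have hxH : x ∈ N ⊔ W := by rw [hsupW]; exact hKH hx
    obtain ⟨n, hn', d, hd, rfl⟩ := H06.mem_sup_of_normalizes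
      (fun d hd n hn => (Subgroup.mem_normalizer_iff.mp (hWN hd) n).mp hn) hxH
    have hnK : n ∈ K := (le_sup_left : N ≤ K) hn'
    have hdK : d ∈ K := by
      have h3 : d = n⁻¹ * (n * d) := by group
      rw [h3]
      exact K.mul_mem (K.inv_mem hnK) hx
    exact Subgroup.mul_mem_sup hn' ⟨hd, hdK⟩
  have hW₁c : Nat.card W₁ = Nat.card U := by
    have h3 := H01.card_sup_of_le_normalizer hW₁N hW₁cop.symm
    rw [hsupW₁, hKcard, mul_comm] at h3
    exact Nat.eq_of_mul_eq_mul_right Nat.card_pos h3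
  have hW₁A : A ≤ Subgroup.normalizer (W₁ : Set X) := by
    intro a ha
    rw [H01.mem_normalizer_iff_smul, Subgroup.smul_inf, H01.conj_smul_of_mem_normalizer (hWA ha),
      H01.conj_smul_of_mem_normalizer (hKA ha)]
  obtain ⟨c, ⟨hcK, hcA⟩, hcU⟩ := conj_invariant_hall hKA
    (Nat.Coprime.coprime_dvd_right (Subgroup.card_dvd_of_le hKH) hcop)
    (Group.isSolvable_of_isSolvable_injective (Subgroup.inclusion_injective hKH)) hKcard hUc W₁ U
    hW₁K le_sup_right hW₁c rfl hW₁A hUA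
  have hcH : c ∈ H := hKH hcK
  refine ⟨MulAut.conj c • W, ?_, ?_, ?_⟩
  · rw [isPiHallOf_iff hGm hc hm hn]
    constructor
    · intro x hx
      rw [H01.mem_conj_smul_iff] at hx
      have h3 := H.mul_mem (H.mul_mem hcH (hWH hx)) (H.inv_mem hcH)
      have h4 : c * (c⁻¹ * x * c) * c⁻¹ = x := by group
      rwa [h4] at h3
    · rw [← hWc]
      exact Nat.card_congr (W.equivSMul (MulAut.conj c)).symm.toEquiv
  · intro a ha
    rw [H01.mem_normalizer_iff_smul, ← H01.conj_mul_smul]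
    have h3 : a * c = c * a := (Subgroup.mem_centralizer_iff.mp hcA a ha)
    rw [h3, H01.conj_mul_smul, H01.conj_smul_of_mem_normalizer (hWA ha)]
  · rw [← hcU]
    intro x hx
    rw [H01.mem_conj_smul_iff] at hx ⊢
    exact hx.1



/-- Coprime action on a solvable group and Hall subgroups. Let A and G be subgroups of a finite group with A normalizing G, the orders of A and G coprime, and G solvable, and let π be a set of primes. Then (a) G has an A-invariant Hall π-subgroup; (b) any two A-invariant Hall π-subgroups of G are conjugate by an element of C_G(A); (c) every A-invariant π-subgroup of G lies in an A-invariant Hall π-subgroup of G. -/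
theorem result {X : Type*} [Group X] [Finite X] (A G : Subgroup X) (hAG : A ≤ Subgroup.normalizer (G : Set X)) (hcop : (Nat.card A).Coprime (Nat.card G)) (hsolv : Group.IsSolvable G) (π : Set ℕ) : (∃ H : Subgroup X, Cfsg.IsPiHallOf π H G ∧ A ≤ Subgroup.normalizer (H : Set X)) ∧ (∀ H₁ H₂ : Subgroup X, Cfsg.IsPiHallOf π H₁ G → A ≤ Subgroup.normalizer (H₁ : Set X) → Cfsg.IsPiHallOf π H₂ G → A ≤ Subgroup.normalizer (H₂ : Set X) → ∃ c ∈ G ⊓ Subgroup.centralizer (A : Set X), H₂ = H₁.map (MulAut.conj c).toMonoidHom) ∧ (∀ U : Subgroup X, U ≤ G → A ≤ Subgroup.normalizer (U : Set X) → (∀ p : ℕ, p.Prime → p ∣ Nat.card U → p ∈ π) → ∃ H : Subgroup X, Cfsg.IsPiHallOf π H G ∧ A ≤ Subgroup.normalizer (H : Set X) ∧ U ≤ H) := by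
  have hpos : 0 < Nat.card G := Nat.card_pos
  obtain ⟨m, n, hG, hc, hm, hn⟩ := exists_pi_split π (Nat.card G) hpos
  refine ⟨?_, ?_, ?_⟩
  · obtain ⟨H, hHG, hHc, hHA⟩ := exists_invariant_hall hAG hcop hsolv hG hc
    exact ⟨H, (isPiHallOf_iff hG hc hm hn).mpr ⟨hHG, hHc⟩, hHA⟩
  · intro H₁ H₂ h1 h1A h2 h2A
    rw [isPiHallOf_iff hG hc hm hn] at h1 h2
    obtain ⟨c, hc1, hc2⟩ := conj_invariant_hall hAG hcop hsolv hG hc H₁ H₂ h1.1 h2.1 h1.2 h2.2 h1A h2A
    exact ⟨c, hc1, hc2.symm⟩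
  · intro U hUG hUA hU
    exact hall_main π _ X A G rfl hAG hcop hsolv U hUG hUA hU

end Cfsg.Agent.S3745
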