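import Cfsg.Statements.S3746
import Mathlib
import Cfsg.Agent.Lib.H05.Comp2

set_option autoImplicit false
open Cfsg

namespace Cfsg.Agent.S3746

theorem comm_mul_central' {G : Type*} [Group G] {x a b : G}
    (h : (x * b * x⁻¹ * b⁻¹) * a⁻¹ = a⁻¹ * (x * b * x⁻¹ * b⁻¹))
    (h' : (x * a * x⁻¹ * a⁻¹) * (x * b * x⁻¹ * b⁻¹) = (x * b * x⁻¹ * b⁻¹) * (x * a * x⁻¹ * a⁻¹)) :
    x * (a * b) * x⁻¹ * (a * b)⁻¹ = (x * a * x⁻¹ * a⁻¹) * (x * b * x⁻¹ * b⁻¹) := by
  calc x * (a * b) * x⁻¹ * (a * b)⁻¹
      = x * a * x⁻¹ * ((x * b * x⁻¹ * b⁻¹) * a⁻¹) := by group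
    _ = x * a * x⁻¹ * (a⁻¹ * (x * b * x⁻¹ * b⁻¹)) := by rw [h]
    _ = _ := by group

/-- Let Z ≤ Z(G) be a central subgroup of a finite group G and E a subgroup of G containing Z whose image E/Z is a component of G/Z (subnormal and quasisimple). Then the derived subgroup [E, E] is a component of G. -/
theorem result {G : Type*} [Group G] [Finite G] (Z : Subgroup G) (hZ : Z ≤ Subgroup.center G) [Z.Normal] (E : Subgroup G) (hZE : Z ≤ E) (hE : Cfsg.IsComponent (E.map (QuotientGroup.mk' Z))) : Cfsg.IsComponent ⁅E, E⁆ := by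
  classical
  obtain ⟨hEsn, hEqs⟩ := hE
  set π := QuotientGroup.mk' Z with hπ
  set Ebar := E.map π with hEbar
  have hπZ : ∀ x, π x = 1 ↔ x ∈ Z := fun x => QuotientGroup.eq_one_iff x
  -- `E` is subnormal
  have hEs : E.IsSubnormal := by
    have h1 := hEsn.comap π
    have h2 : Ebar.comap π = E := by
      ext x
      rw [Subgroup.mem_comap]
      constructor
      · rintro ⟨y, hy, e⟩
        have h3 : y⁻¹ * x ∈ Z := by
          rw [← hπZ, map_mul, map_inv, e, inv_mul_cancel]
        have := E.mul_mem hy (hZE h3)
        simpa using this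
      · intro hx
        exact ⟨x, hx, rfl⟩
    rwa [h2] at h1
  let f : E →* Ebar := π.subgroupMap E
  have hf : Function.Surjective f := π.subgroupMap_surjective E
  have hfv : ∀ x : E, (f x : G ⧸ Z) = π x := fun x => rfl
  let g : E →* Ebar ⧸ Subgroup.center Ebar := (QuotientGroup.mk' _).comp f
  have hg : Function.Surjective g := (QuotientGroup.mk'_surjective _).comp hf
  -- `E = [E,E] Z`
  have hperf : commutator Ebar = ⊤ := H05.qs_perfect hEqs
  have hdecomp : ∀ y : E, ∃ w ∈ commutator E, (w⁻¹ * y : E).1 ∈ Z := by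
    intro y
    have h1 : f y ∈ (commutator E).map f := by
      have h2 : (commutator E).map f = commutator Ebar := by
        rw [commutator_def, commutator_def, Subgroup.map_commutator,
          Subgroup.map_top_of_surjective f hf]
      rw [h2, hperf]; trivial
    obtain ⟨w, hw, e⟩ := h1
    refine ⟨w, hw, ?_⟩
    rw [← hπZ, ← hfv, map_mul, map_inv, e]
    simp
  have hker : g.ker = Subgroup.center E := by
    ext x
    rw [MonoidHom.mem_ker]
    have e1 : g x = (QuotientGroup.mk' (Subgroup.center Ebar)) (f x) := rfl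
    rw [e1, QuotientGroup.mk'_apply, QuotientGroup.eq_one_iff]
    constructor
    · intro hx
      -- the commutator map with `x`
      have hcz : ∀ y : E, (x : G) * (y : G) * (x : G)⁻¹ * (y : G)⁻¹ ∈ Z := by
        intro y
        have h1 : ((x * y * x⁻¹ * y⁻¹ : E) : G) ∈ Z := by
          rw [← hπZ, ← hfv, map_mul, map_mul, map_mul, map_inv, map_inv]
          have h2 := Subgroup.mem_center_iff.1 hx (f y)
          rw [← h2]
          simp
        exact h1
      have hzc : ∀ z ∈ Z, ∀ g : G, g * z = z * g := fun z hz g => Subgroup.mem_center_iff.1 (hZ hz) g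
      let c : E →* Z :=
        { toFun := fun y => ⟨(x : G) * (y : G) * (x : G)⁻¹ * (y : G)⁻¹, hcz y⟩
          map_one' := by ext; simp
          map_mul' := by
            intro a b
            ext
            simp only [Subgroup.coe_mul, Subgroup.coe_inv]
            exact comm_mul_central' (hzc _ (hcz b) _).symm (hzc _ (hcz b) _) }
      have hcommZ : ∀ a b : Z, a * b = b * a := by
        intro a b
        ext
        exact (hzc a.1 a.2 b.1).symm
      have hcker : commutator E ≤ c.ker := by
        rw [commutator_def, Subgroup.commutator_le]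
        intro a _ b _
        rw [MonoidHom.mem_ker, map_commutatorElement, commutatorElement_eq_one_iff_mul_comm]
        exact hcommZ _ _
      rw [Subgroup.mem_center_iff]
      intro y
      obtain ⟨w, hw, hz⟩ := hdecomp y
      have h6 : c w = 1 := hcker hw
      have h7 : (x * w * x⁻¹ * w⁻¹ : E) = 1 := by
        have : (x : G) * (w : G) * (x : G)⁻¹ * (w : G)⁻¹ = 1 := congrArg Subtype.val h6
        exact Subtype.ext this
      have h8 : x * w = w * x := by
        have : x * w * x⁻¹ = w := by
          have h9 := congrArg (· * w) h7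
          simpa using h9
        calc x * w = x * w * x⁻¹ * x := by group
          _ = w * x := by rw [this]
      have h9 : y = w * (w⁻¹ * y) := by group
      have h10 : x * (w⁻¹ * y) = (w⁻¹ * y) * x :=
        Subtype.ext (hzc _ hz x.1)
      calc y * x = w * ((w⁻¹ * y) * x) := by group
        _ = w * (x * (w⁻¹ * y)) := by rw [h10]
        _ = (w * x) * (w⁻¹ * y) := by group
        _ = (x * w) * (w⁻¹ * y) := by rw [h8]
        _ = x * y := by group
    · intro hx
      rw [Subgroup.mem_center_iff]
      intro y
      obtain ⟨y', rfl⟩ := hf y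
      rw [← map_mul, ← map_mul, Subgroup.mem_center_iff.1 hx y']
  have e : (E ⧸ Subgroup.center E) ≃* (Ebar ⧸ Subgroup.center Ebar) :=
    (QuotientGroup.quotientMulEquivOfEq hker.symm).trans (QuotientGroup.quotientKerEquivOfSurjective g hg)
  have hs : IsSimpleGroup (E ⧸ Subgroup.center E) := by
    haveI := hEqs.2
    exact e.isSimpleGroup
  have hna : ¬ IsMulCommutative (E ⧸ Subgroup.center E) := by
    intro hc
    have hcomm : ∀ a b : Ebar ⧸ Subgroup.center Ebar, a * b = b * a := by
      intro a b
      apply e.symm.injective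
      rw [map_mul, map_mul]
      exact hc.is_comm.comm _ _
    apply H05.qs_center_ne_top hEqs
    rw [eq_top_iff, ← hperf, commutator_def, Subgroup.commutator_le]
    intro a _ b _
    rw [← QuotientGroup.eq_one_iff, commutatorElement_def, QuotientGroup.mk_mul, QuotientGroup.mk_mul, QuotientGroup.mk_mul,
      QuotientGroup.mk_inv, QuotientGroup.mk_inv, hcomm a]
    group
  have hqs := H05.commutator_quasisimple hs hna
  have hcomp : IsComponent (commutator E) := ⟨Subgroup.Normal.isSubnormal inferInstance, hqs⟩
  have := (H05.isComponent_map_iff hEs (commutator E)).1 hcomp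
  rwa [Subgroup.map_subtype_commutator] at this

end Cfsg.Agent.S3746
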