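import Cfsg.Statements.S3747
import Mathlib
import Cfsg.Agent.Lib.H01.Fitting
import Cfsg.Agent.Lib.H07.FStar
import Cfsg.Agent.Lib.H05.Comp3

set_option autoImplicit false
open Cfsg

namespace Cfsg.Agent.S3747


theorem part_a {G : Type*} [Group G] [Finite G] (K : Subgroup G) (hK : Cfsg.IsComponent K)
    (hc : Subgroup.center ↥K = ⊥) :
    (Subgroup.normalClosure (K : Set G) ≠ ⊥ ∧ ∀ N : Subgroup G, N.Normal →
      N ≤ Subgroup.normalClosure (K : Set G) → N = ⊥ ∨ N = Subgroup.normalClosure (K : Set G)) := by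
  classical
  have hKC : K ≤ Subgroup.normalClosure (K : Set G) := Subgroup.le_normalClosure
  constructor
  · intro h
    have h1 : K = ⊥ := le_bot_iff.1 (h ▸ hKC)
    haveI h2 := H05.qs_nontrivial hK.2
    subst h1
    exact not_subsingleton ↥(⊥ : Subgroup G) inferInstance
  intro N hN hNC
  rcases H05.comp_le_or_comm hK.1 hK.2 hN.isSubnormal with h | h
  · right
    exact le_antisymm hNC (Subgroup.normalClosure_le_normal h)
  left
  -- family of conjugates
  let H : G → Subgroup G := fun g => K.map (MulAut.conj g).toMonoidHom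
  have hHc : ∀ g, Cfsg.IsComponent (H g) := fun g => H07.isComponent_map_equiv _ hK
  -- pass to a finite index set of distinct conjugates
  let ι := {L : Subgroup G // ∃ g, L = H g}
  haveI : Finite ι := inferInstance
  haveI : Fintype ι := Fintype.ofFinite ι
  let H' : ι → Subgroup G := fun L => L.1
  have hcomm : ∀ i j, i ≠ j → ∀ a ∈ H' i, ∀ b ∈ H' j, a * b = b * a := by
    rintro ⟨L₁, g₁, rfl⟩ ⟨L₂, g₂, rfl⟩ hne a ha b hb
    rcases H05.comp_eq_or_comm (hHc g₁) (hHc g₂) with h3 | h3
    · exact absurd (Subtype.ext h3) hne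
    · exact H05.comm_bot_iff.1 h3 a ha b hb
  have hNcomm : ∀ z ∈ N, ∀ i, ∀ a ∈ H' i, z * a = a * z := by
    rintro z hz ⟨L, g, rfl⟩ a ⟨k, hk, rfl⟩
    have h3 : g⁻¹ * z * g ∈ N := by
      have := hN.conj_mem z hz g⁻¹
      simpa using this
    have h4 := H05.comm_bot_iff.1 h k hk _ h3
    change z * (g * k * g⁻¹) = (g * k * g⁻¹) * z
    calc z * (g * k * g⁻¹) = g * ((g⁻¹ * z * g) * k) * g⁻¹ := by group
      _ = g * (k * (g⁻¹ * z * g)) * g⁻¹ := by rw [h4]
      _ = _ := by group
  have hCle : Subgroup.normalClosure (K : Set G) ≤ ⨆ i ∈ (Finset.univ : Finset ι), H' i := by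
    rw [Subgroup.normalClosure, Subgroup.closure_le]
    intro x hx
    rw [Group.mem_conjugatesOfSet_iff] at hx
    obtain ⟨k, hk, hkx⟩ := hx
    obtain ⟨g, hg⟩ := isConj_iff.1 hkx
    have h3 : x ∈ H g := ⟨k, hk, hg⟩
    exact Subgroup.mem_iSup_of_mem (⟨H g, g, rfl⟩ : ι) (Subgroup.mem_iSup_of_mem (Finset.mem_univ _) h3)
  have hbot : ∀ i, H' i ⊓ Subgroup.centralizer (H' i : Set G) = ⊥ := by
    rintro ⟨L, g, rfl⟩
    rw [eq_bot_iff]
    rintro x ⟨⟨k, hk, rfl⟩, hx2⟩
    have h3 : (⟨k, hk⟩ : K) ∈ Subgroup.center K := by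
      rw [Subgroup.mem_center_iff]
      rintro ⟨k', hk'⟩
      ext
      have h4 := Subgroup.mem_centralizer_iff.1 hx2 (g * k' * g⁻¹) ⟨k', hk', rfl⟩
      change (g * k' * g⁻¹) * (g * k * g⁻¹) = (g * k * g⁻¹) * (g * k' * g⁻¹) at h4
      change k' * k = k * k'
      have h5 : g * (k' * k) * g⁻¹ = g * (k * k') * g⁻¹ := by
        calc g * (k' * k) * g⁻¹ = (g * k' * g⁻¹) * (g * k * g⁻¹) := by group
          _ = (g * k * g⁻¹) * (g * k' * g⁻¹) := h4
          _ = _ := by group
      simpa using h5
    rw [hc] at h3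
    have h4 : k = 1 := by simpa using h3
    simp [h4]
  rw [eq_bot_iff]
  intro z hz
  have h5 := H05.center_iSup_aux H' hcomm Finset.univ z (hCle (hNC hz))
    (fun i _ a ha => hNcomm z hz i a ha)
  have h6 : (⨆ i ∈ (Finset.univ : Finset ι), (H' i ⊓ Subgroup.centralizer (H' i : Set G))) = ⊥ := by
    simp [hbot]
  rwa [h6] at h5

theorem part_b {G : Type*} [Group G] [Finite G]
    (hF : Cfsg.fittingSubgroup G = ⊥) :
    sSup {N : Subgroup G | N ≠ ⊥ ∧ N.Normal ∧ ∀ N' : Subgroup G, N'.Normal → N' ≤ N → N' = ⊥ ∨ N' = N}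
      = Cfsg.layer G := by
  classical
  apply le_antisymm
  · refine sSup_le ?_
    rintro N ⟨hne, hN, hmin⟩
    have hchar : ∀ C : Subgroup N, C.Characteristic → C.map N.subtype = ⊥ ∨ C.map N.subtype = N := by
      intro C hC
      apply hmin
      · exact ConjAct.normal_of_characteristic_of_normal
      · rintro _ ⟨a, _, rfl⟩
        exact a.2
    have hcoe : ∀ C : Subgroup N, C.map N.subtype = N → C = ⊤ := by
      intro C hC
      rw [eq_top_iff]
      rintro x -
      have : (x : G) ∈ C.map N.subtype := by rw [hC]; exact x.2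
      obtain ⟨y, hy, e⟩ := this
      have : y = x := Subtype.ext e
      rwa [← this]
    have hbotmap : ∀ C : Subgroup N, C.map N.subtype = ⊥ → C = ⊥ := by
      intro C hC
      rwa [Subgroup.map_eq_bot_iff_of_injective _ N.subtype_injective] at hC
    -- F(N) is trivial
    have hFN : Cfsg.fittingSubgroup N = ⊥ := by
      rcases hchar _ (H07.fitting_characteristic N) with h | h
      · exact hbotmap _ h
      · exfalso
        have h1 := hcoe _ h
        apply hne
        have hnil : Group.IsNilpotent N := by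
          have h2 := H01.fitting_nilpotent (G := N)
          rw [h1] at h2
          exact Group.nilpotent_of_surjective (Subgroup.topEquiv (G := N)).toMonoidHom (Subgroup.topEquiv (G := N)).surjective
        have : N ≤ Cfsg.fittingSubgroup G := le_sSup ⟨hN, hnil⟩
        rw [hF] at this
        exact le_bot_iff.1 this
    -- E(N) is nontrivial
    have hEN : Cfsg.layer N ≠ ⊥ := by
      intro h
      have hFs : Cfsg.generalizedFittingSubgroup N = ⊥ := by
        rw [Cfsg.generalizedFittingSubgroup, h, hFN, sup_bot_eq]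
      have h1 := H05.centralizer_fstar_le (G := N)
      rw [hFs] at h1
      apply hne
      rw [eq_bot_iff]
      intro x hx
      have h2 : (⟨x, hx⟩ : N) ∈ (⊥ : Subgroup N) := by
        apply h1
        rw [Subgroup.mem_centralizer_iff]
        intro y hy
        have : y = 1 := by simpa using hy
        simp [this]
      have h3 : (⟨x, hx⟩ : N) = 1 := by simpa using h2
      simpa using congrArg Subtype.val h3
    rcases hchar _ (H07.layer_characteristic N) with h | h
    · exact absurd (hbotmap _ h) hEN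
    · rw [← h]
      exact H05.layer_map_le hN.isSubnormal
  · refine sSup_le ?_
    intro K hK
    have hc : Subgroup.center ↥K = ⊥ := by
      have h1 : ((Subgroup.center K).map K.subtype).IsSubnormal :=
        (Subgroup.Normal.isSubnormal inferInstance).trans' hK.1
      have hnil : Group.IsNilpotent ((Subgroup.center K).map K.subtype) := by
        haveI : IsMulCommutative ((Subgroup.center K).map K.subtype) := by
          refine ⟨⟨?_⟩⟩
          rintro ⟨_, a, ha, rfl⟩ ⟨_, b, hb, rfl⟩
          apply Subtype.ext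
          change (a : G) * (b : G) = (b : G) * (a : G)
          have h3 : a * b = b * a := (Subgroup.mem_center_iff.1 hb a)
          exact congrArg Subtype.val h3
        exact ⟨1, Subgroup.upperCentralSeries_one_eq_top_iff.mpr inferInstance⟩
      have h2 := H05.sn_nil_le_fitting h1 hnil
      rw [hF, le_bot_iff] at h2
      rwa [Subgroup.map_eq_bot_iff_of_injective _ K.subtype_injective] at h2
    obtain ⟨h1, h2⟩ := part_a K hK hc
    have h3 : Subgroup.normalClosure (K : Set G) ≤ sSup {N : Subgroup G | N ≠ ⊥ ∧ N.Normal ∧ ∀ N' : Subgroup G, N'.Normal → N' ≤ N → N' = ⊥ ∨ N' = N} :=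
      le_sSup ⟨h1, inferInstance, h2⟩
    exact Subgroup.le_normalClosure.trans h3


/-- Let G be a finite group. (a) If K is a component of G with trivial centre, then the normal closure of K in G is a minimal normal subgroup of G. (b) If the Fitting subgroup of G is trivial, then the layer E(G) is generated by the minimal normal subgroups of G. -/
theorem result {G : Type*} [Group G] [Finite G] : (∀ K : Subgroup G, Cfsg.IsComponent K → Subgroup.center ↥K = ⊥ → (Subgroup.normalClosure (K : Set G) ≠ ⊥ ∧ ∀ N : Subgroup G, N.Normal → N ≤ Subgroup.normalClosure (K : Set G) → N = ⊥ ∨ N = Subgroup.normalClosure (K : Set G))) ∧ (Cfsg.fittingSubgroup G = ⊥ → sSup {N : Subgroup G | N ≠ ⊥ ∧ N.Normal ∧ ∀ N' : Subgroup G, N'.Normal → N' ≤ N → N' = ⊥ ∨ N' = N} = Cfsg.layer G) := by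
  exact ⟨fun K hK hc => part_a K hK hc, part_b⟩

end Cfsg.Agent.S3747
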