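import Cfsg.Statements.S3748
import Mathlib
import Cfsg.Agent.Lib.H01.Fitting
import Cfsg.Agent.Lib.H18.Basic
import Cfsg.Agent.Lib.H18.Join

set_option autoImplicit false
open Cfsg

namespace Cfsg.Agent.S3748

/-- Call a proper subgroup M of G primitive when M = N_G(N) for every non-trivial normal subgroup N of M. If M is a primitive subgroup of the finite group G, then no non-trivial subnormal subgroup of G is contained in M; in particular M ∩ F(G) = 1. -/
theorem result {G : Type*} [Group G] [Finite G] (M : Subgroup G) (hM : M ≠ ⊤) (hprim : ∀ N : Subgroup G, N ≤ M → M ≤ Subgroup.normalizer (N : Set G) → N ≠ ⊥ → Subgroup.normalizer (N : Set G) = M) : (∀ L : Subgroup G, L.IsSubnormal → L ≤ M → L = ⊥) ∧ M ⊓ Cfsg.fittingSubgroup G = ⊥ := by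
  classical
  have hsn : ∀ L : Subgroup G, L.IsSubnormal → L ≤ M → L = ⊥ := by
    intro L₀ hL₀ hL₀M
    by_contra hne
    let S : Set (Subgroup G) := {L | L.IsSubnormal ∧ L ≤ M ∧ L₀ ≤ L}
    have hS : S.Nonempty := ⟨L₀, hL₀, hL₀M, le_rfl⟩
    obtain ⟨L, hL⟩ := S.toFinite.exists_maximal hS
    obtain ⟨hLs, hLM, hL₀L⟩ := hL.1
    have hLne : L ≠ ⊥ := by
      intro e
      rw [e, le_bot_iff] at hL₀L
      exact hne hL₀L
    have hMN : M ≤ Subgroup.normalizer (L : Set G) := by
      intro m hm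
      rw [H18.mem_normalizer_of_map_conj_eq_iff_le]
      have hmem : L ⊔ L.map (MulAut.conj m).toMonoidHom ∈ S := by
        refine ⟨H18.isSubnormal_sup hLs (hLs.map (MulAut.conj m).surjective), sup_le hLM ?_,
          hL₀L.trans le_sup_left⟩
        rintro _ ⟨l, hl, rfl⟩
        exact M.mul_mem (M.mul_mem hm (hLM hl)) (M.inv_mem hm)
      exact le_sup_right.trans (hL.2 hmem le_sup_left)
    have hNM := hprim L hLM hMN hLne
    have hLtop : L ≠ ⊤ := by
      intro e
      apply hM
      rw [eq_top_iff, ← e]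
      exact hLM
    rcases (Subgroup.IsSubnormal.iff_eq_top_or_exists (H := L)).1 hLs with h | ⟨K, hLK, hKs, hKn⟩
    · exact hLtop h
    · have hKM : K ≤ M := by
        rw [← hNM]
        exact (Subgroup.normal_subgroupOf_iff_le_normalizer hLK.le).1 hKn
      have hmem : K ∈ S := ⟨hKs, hKM, hL₀L.trans hLK.le⟩
      exact absurd (hL.2 hmem hLK.le) (not_le_of_gt hLK)
  refine ⟨hsn, hsn _ ?_ inf_le_left⟩
  haveI hFn : (Cfsg.fittingSubgroup G).Normal := H01.fitting_normal
  haveI hFnil : Group.IsNilpotent (Cfsg.fittingSubgroup G) := H01.fitting_nilpotent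
  have h1 : ((M ⊓ Cfsg.fittingSubgroup G).subgroupOf (Cfsg.fittingSubgroup G)).IsSubnormal :=
    H18.isSubnormal_of_isNilpotent _
  exact h1.trans inf_le_right hFn.isSubnormal

end Cfsg.Agent.S3748
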