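import Cfsg.Statements.S3749
import Mathlib
import Cfsg.Agent.Lib.H01.Fitting
import Cfsg.Agent.Lib.H01.Coprime3
import Cfsg.Agent.Lib.H06.Dade
import Cfsg.Agent.Lib.H06.Nilp
import Cfsg.Agent.Lib.H18.Syl
import Cfsg.Agent.Lib.H18.Basic

set_option autoImplicit false
open Cfsg

namespace Cfsg.Agent.S3749


open Subgroup
open scoped Pointwise


/-- Call a proper subgroup M of G primitive when M = N_G(N) for every non-trivial normal subgroup N of M. Let M be a primitive subgroup of the finite group G, p a prime with O_p(M) ≠ 1, and N a normal subgroup of G with M ∩ N = 1. Then p does not divide the order of N; for every prime q there is exactly one Sylow q-subgroup of N normalized by M; and if the order of N has at least two prime divisors then M is not a maximal subgroup of G. -/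
theorem result {G : Type*} [Group G] [Finite G] (M : Subgroup G) (hM : M ≠ ⊤) (hprim : ∀ N : Subgroup G, N ≤ M → M ≤ Subgroup.normalizer (N : Set G) → N ≠ ⊥ → Subgroup.normalizer (N : Set G) = M) {p : ℕ} [Fact p.Prime] (hOp : Cfsg.pCore p ↥M ≠ ⊥) (N : Subgroup G) [N.Normal] (hMN : M ⊓ N = ⊥) : ¬ p ∣ Nat.card N ∧ (∀ q : ℕ, [Fact q.Prime] → ∃! Q : Sylow q ↥N, M ≤ Subgroup.normalizer ((Q : Subgroup ↥N).map N.subtype : Set G)) ∧ ((∃ q r : ℕ, q.Prime ∧ r.Prime ∧ q ≠ r ∧ q ∣ Nat.card N ∧ r ∣ Nat.card N) → ¬ IsCoatom M) := by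
  classical
  -- the `p`-core
  set P₀ : Subgroup G := (Cfsg.pCore p ↥M).map M.subtype with hP₀
  have hP₀M : P₀ ≤ M := by
    rintro _ ⟨x, _, rfl⟩
    exact x.2
  have hP₀ne : P₀ ≠ ⊥ := by
    intro h
    apply hOp
    rwa [hP₀, Subgroup.map_eq_bot_iff_of_injective _ M.subtype_injective] at h
  have hP₀p : IsPGroup p P₀ := by
    have h1 : IsPGroup p (Cfsg.pCore p ↥M) := H01.pCore_isPGroup p
    exact h1.map M.subtype
  have hMnP₀ : M ≤ normalizer (P₀ : Set G) := by
    intro m hm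
    apply H18.mem_normalizer_of_map_conj_eq
    haveI : (Cfsg.pCore p ↥M).Normal := H01.pCore_normal p
    apply le_antisymm
    · rintro _ ⟨_, ⟨x, hx, rfl⟩, rfl⟩
      exact ⟨⟨m, hm⟩ * x * ⟨m, hm⟩⁻¹, ‹(Cfsg.pCore p ↥M).Normal›.conj_mem x hx _, rfl⟩
    · rintro _ ⟨x, hx, rfl⟩
      refine ⟨_, ⟨⟨m, hm⟩⁻¹ * x * (⟨m, hm⟩⁻¹)⁻¹, ‹(Cfsg.pCore p ↥M).Normal›.conj_mem x hx _, rfl⟩, ?_⟩
      simp [mul_assoc]
  have hNP₀ : normalizer (P₀ : Set G) = M := hprim P₀ hP₀M hMnP₀ hP₀ne
  have hCP₀ : centralizer (P₀ : Set G) ≤ M := by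
    rw [← hNP₀]
    exact Subgroup.centralizer_le_normalizer _
  have hNM : ∀ x ∈ M, x ∈ N → x = 1 := by
    intro x h1 h2
    have : x ∈ M ⊓ N := ⟨h1, h2⟩
    rw [hMN] at this
    exact this
  -- (1)
  have h1 : ¬ p ∣ Nat.card N := by
    intro hdvd
    obtain ⟨T, hT⟩ := hP₀p.exists_le_sylow
    have hne : ((T : Subgroup G) ⊓ N).subgroupOf (T : Subgroup G) ≠ ⊥ := by
      intro hb
      have h2 := (H18.sylowOfNormal T N).not_dvd_index
      apply h2
      have h3 : (H18.sylowOfNormal T N : Subgroup N) = ⊥ := by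
        rw [H18.coe_sylowOfNormal, eq_bot_iff]
        rintro ⟨x, hx⟩ hx2
        have h4 : (⟨x, hx2⟩ : (T : Subgroup G)) ∈ ((T : Subgroup G) ⊓ N).subgroupOf (T : Subgroup G) :=
          ⟨hx2, hx⟩
        rw [hb, Subgroup.mem_bot] at h4
        have h5 : x = 1 := congrArg Subtype.val h4
        exact Subtype.ext h5
      rw [h3, Subgroup.index_bot]
      exact hdvd
    haveI hTnil : Group.IsNilpotent (T : Subgroup G) := T.isPGroup'.isNilpotent
    have hn : (((T : Subgroup G) ⊓ N).subgroupOf (T : Subgroup G)).Normal := by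
      rw [Subgroup.inf_subgroupOf_left]
      exact Subgroup.Normal.subgroupOf inferInstance _
    obtain ⟨z, hz, hz1, hzc⟩ := H06.exists_central_of_normal hn hne
    have hzN : (z : G) ∈ N := hz.2
    have hzC : (z : G) ∈ centralizer (P₀ : Set G) := by
      rw [Subgroup.mem_centralizer_iff]
      intro a ha
      have := Subgroup.mem_center_iff.1 hzc ⟨a, hT ha⟩
      exact congrArg Subtype.val this
    have := hNM _ (hCP₀ hzC) hzN
    exact hz1 (Subtype.ext this)
  -- coprime action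
  have hcop : (Nat.card P₀).Coprime (Nat.card N) := by
    obtain ⟨k, hk⟩ := IsPGroup.iff_card.1 hP₀p
    rw [hk]
    exact Nat.Coprime.pow_left _ ((Nat.Prime.coprime_iff_not_dvd Fact.out).2 h1)
  have hAK : P₀ ≤ normalizer (N : Set G) := by
    rw [Subgroup.normalizer_eq_top N]
    exact le_top
  have hsolv : Group.IsSolvable P₀ ∨ Group.IsSolvable N := by
    left
    haveI : Group.IsNilpotent P₀ := hP₀p.isNilpotent
    infer_instance
  have huniq : ∀ (q : ℕ) [Fact q.Prime] (Q Q' : Sylow q N),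
      P₀ ≤ normalizer ((Q : Subgroup N).map N.subtype : Set G) →
      P₀ ≤ normalizer ((Q' : Subgroup N).map N.subtype : Set G) → Q = Q' := by
    intro q _ Q Q' hQ hQ'
    obtain ⟨c, hc, e⟩ := H01.conj_invariant_sylow hAK hcop hsolv q Q Q' hQ hQ'
    have hc1 : (c : G) = 1 := hNM _ (hCP₀ hc) c.2
    have hc2 : c = 1 := Subtype.ext hc1
    rw [hc2] at e
    simpa using e
  have hinv : ∀ (q : ℕ) [Fact q.Prime] (Q : Sylow q N),
      P₀ ≤ normalizer ((Q : Subgroup N).map N.subtype : Set G) →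
      M ≤ normalizer ((Q : Subgroup N).map N.subtype : Set G) := by
    intro q _ Q hQ m hm
    apply H18.mem_normalizer_of_map_conj_eq
    let φ : MulAut N := MulAut.conjNormal m
    have hφ : ∀ x : N, ((φ x : N) : G) = m * x * m⁻¹ := fun x => rfl
    let Q₁ : Sylow q N := φ • Q
    have hQ₁ : (Q₁ : Subgroup N).map N.subtype =
        ((Q : Subgroup N).map N.subtype).map (MulAut.conj m).toMonoidHom := by
      ext y
      constructor
      · rintro ⟨x, hx, rfl⟩
        have h2 : φ⁻¹ • x ∈ (Q : Subgroup N) := by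
          have h3 : x ∈ φ • (Q : Subgroup N) := hx
          exact Subgroup.mem_pointwise_smul_iff_inv_smul_mem.1 h3
        refine ⟨_, ⟨_, h2, rfl⟩, ?_⟩
        have h4 : φ (φ⁻¹ • x) = x := by simp [MulAut.smul_def]
        have h5 := hφ (φ⁻¹ • x)
        rw [h4] at h5
        exact h5.symm
      · rintro ⟨_, ⟨x, hx, rfl⟩, rfl⟩
        refine ⟨φ x, ?_, rfl⟩
        have h3 : φ x ∈ φ • (Q : Subgroup N) := Subgroup.mem_pointwise_smul_iff_inv_smul_mem.2 (by
          have h4 : φ⁻¹ • φ x = x := by simp [MulAut.smul_def]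
          rw [h4]
          exact hx)
        exact h3
    have hQ₁inv : P₀ ≤ normalizer ((Q₁ : Subgroup N).map N.subtype : Set G) := by
      rw [hQ₁]
      intro a ha
      apply H18.mem_normalizer_of_map_conj_eq
      have ha' : m⁻¹ * a * m ∈ P₀ := by
        have h5 := (Subgroup.mem_normalizer_iff.1 (hMnP₀ (M.inv_mem hm)) a).1 ha
        simpa using h5
      have e : a * m = m * (m⁻¹ * a * m) := by group
      rw [← H18.map_conj_mul, e, H18.map_conj_mul, H18.map_conj_eq_of_mem_normalizer (hQ ha')]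
    have hQe := huniq q Q₁ Q hQ₁inv hQ
    rw [← hQ₁, hQe]
  refine ⟨h1, ?_, ?_⟩
  · intro q _
    obtain ⟨Q, hQ⟩ := H01.exists_invariant_sylow hAK hcop hsolv q
    refine ⟨Q, hinv q Q hQ, ?_⟩
    intro Q' hQ'
    exact huniq q Q' Q (hP₀M.trans hQ') hQ
  · rintro ⟨q, r, hq, hr, hqr, hqd, hrd⟩ hcoat
    haveI := Fact.mk hq
    obtain ⟨Q, hQ⟩ := H01.exists_invariant_sylow hAK hcop hsolv q
    have hQM := hinv q Q hQ
    set Q' := (Q : Subgroup N).map N.subtype with hQ'
    have hQ'N : Q' ≤ N := by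
      rintro _ ⟨x, _, rfl⟩
      exact x.2
    have hQ'ne : Q' ≠ ⊥ := by
      intro h
      rw [hQ', Subgroup.map_eq_bot_iff_of_injective _ N.subtype_injective] at h
      apply Q.not_dvd_index
      rw [h, Subgroup.index_bot]
      exact hqd
    have hQ'M : ¬ Q' ≤ M := by
      intro h
      apply hQ'ne
      rw [eq_bot_iff]
      intro x hx
      exact hNM x (h hx) (hQ'N hx)
    have hsup : M ⊔ Q' = ⊤ := by
      apply hcoat.2
      exact lt_of_le_of_ne le_sup_left (fun e => hQ'M (e ▸ le_sup_right))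
    have hNQ' : N ≤ Q' := by
      intro n hn
      have hn2 : n ∈ Q' ⊔ M := by rw [sup_comm, hsup]; trivial
      obtain ⟨y, hy, m, hm, rfl⟩ := H06.mem_sup_of_normalizes (fun d hd y hy => (Subgroup.mem_normalizer_iff.1 (hQM hd) y).1 hy) hn2
      have hm' : m ∈ N := by
        have e : m = y⁻¹ * (y * m) := by group
        rw [e]
        exact N.mul_mem (N.inv_mem (hQ'N hy)) hn
      rw [hNM m hm hm', mul_one]
      exact hy
    have hcardQ : Nat.card N = Nat.card Q := by
      have h2 : Q' = N := le_antisymm hQ'N hNQ'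
      have h3 : Nat.card Q' = Nat.card Q :=
        Nat.card_congr ((Q : Subgroup N).equivMapOfInjective _ N.subtype_injective).toEquiv.symm
      rw [← h3, h2]
    obtain ⟨k, hk⟩ := IsPGroup.iff_card.1 Q.isPGroup'
    rw [hcardQ, hk] at hrd
    exact hqr ((Nat.prime_dvd_prime_iff_eq hr hq).1 (hr.dvd_of_dvd_pow hrd)).symm

end Cfsg.Agent.S3749
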