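import Cfsg.Statements.S3750
import Mathlib
import Cfsg.Agent.Lib.H01.Fitting
import Cfsg.Agent.Lib.H05.Comp3
import Cfsg.Agent.Lib.H07.FStar

set_option autoImplicit false
open Cfsg

namespace Cfsg.Agent.S3750


set_option linter.unusedSectionVars false
set_option linter.style.haveILetI false
open Subgroup
open scoped commutatorElement

theorem layer_comm_fitting {H : Type*} [Group H] [Finite H] :
    ∀ e ∈ layer H, ∀ f ∈ fittingSubgroup H, e * f = f * e := by
  intro e he f hf
  have hFn := H01.fitting_normal (G := H)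
  have hFnil := H01.fitting_nilpotent (G := H)
  have hsolv : Group.IsSolvable (fittingSubgroup H) := inferInstance
  have hle : layer H ≤ centralizer (fittingSubgroup H : Set H) := by
    apply sSup_le
    intro L hL
    have := H05.comp_comm_solvable hL hsolv (by
      rw [normalizer_eq_top_iff.2 hFn]; exact le_top)
    exact (Subgroup.commutator_eq_bot_iff_le_centralizer).1 this
  exact (mem_centralizer_iff.1 (hle he) f hf).symm


/-- Call a proper subgroup M of G primitive when M = N_G(N) for every non-trivial normal subgroup N of M. Let M be a primitive subgroup of the finite group G and N a normal subgroup of G with M ∩ F*(N) ≠ 1. Then F(G) = 1 and F*(N) = F*(G) = E(G); in particular every minimal normal subgroup of G is contained in N. -/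
theorem result {G : Type*} [Group G] [Finite G] (M : Subgroup G) (hM : M ≠ ⊤) (hprim : ∀ N : Subgroup G, N ≤ M → M ≤ Subgroup.normalizer (N : Set G) → N ≠ ⊥ → Subgroup.normalizer (N : Set G) = M) (N : Subgroup G) [N.Normal] (hMF : M ⊓ (Cfsg.generalizedFittingSubgroup ↥N).map N.subtype ≠ ⊥) : Cfsg.fittingSubgroup G = ⊥ ∧ (Cfsg.generalizedFittingSubgroup ↥N).map N.subtype = Cfsg.generalizedFittingSubgroup G ∧ Cfsg.generalizedFittingSubgroup G = Cfsg.layer G ∧ ∀ K : Subgroup G, K.Normal → K ≠ ⊥ → (∀ K' : Subgroup G, K'.Normal → K' ≤ K → K' = ⊥ ∨ K' = K) → K ≤ N := by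
  classical
haveI hNnorm : N.Normal := inferInstance
have hNs : N.IsSubnormal := hNnorm.isSubnormal
haveI : (generalizedFittingSubgroup ↥N).Characteristic := H07.generalizedFitting_characteristic _
haveI : (fittingSubgroup ↥N).Characteristic := H07.fitting_characteristic _
set X := (generalizedFittingSubgroup ↥N).map N.subtype with hX
haveI hXn : X.Normal := by rw [hX]; infer_instance
have hXN : X ≤ N := by
  rw [hX]; exact map_subtype_le _
set A := M ⊓ X with hA
have hMnA : M ≤ normalizer (A : Set G) := by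
  intro m hm
  rw [mem_normalizer_iff]
  intro a
  constructor
  · rintro ⟨ha1, ha2⟩
    exact ⟨M.mul_mem (M.mul_mem hm ha1) (M.inv_mem hm), hXn.conj_mem a ha2 m⟩
  · rintro ⟨ha1, ha2⟩
    have e : a = m⁻¹ * (m * a * m⁻¹) * m := by group
    rw [e]
    refine ⟨M.mul_mem (M.mul_mem (M.inv_mem hm) ha1) hm, ?_⟩
    have := hXn.conj_mem _ ha2 m⁻¹
    simpa using this
have hnormA : normalizer (A : Set G) = M := hprim A inf_le_left hMnA hMF
have hcore : ∀ L : Subgroup G, L.Normal → L ≤ M → L = ⊥ := by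
  intro L hL hLM
  by_contra hne
  have h1 := hprim L hLM (by rw [normalizer_eq_top_iff.2 hL]; exact le_top) hne
  rw [normalizer_eq_top_iff.2 hL] at h1
  exact hM h1.symm
have hCA : centralizer (A : Set G) ≤ M := by
  rw [← hnormA]
  exact Subgroup.centralizer_le_normalizer _
have hAN : A ≤ N := inf_le_right.trans hXN
have hCN : centralizer (N : Set G) = ⊥ :=
  hcore _ Subgroup.normal_centralizer ((Subgroup.centralizer_le hAN).trans hCA)
have hnil : ∀ Q : Subgroup G, Q.Normal → Group.IsNilpotent Q → Q ⊓ M = ⊥ := by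
  intro Q hQ hQnil
  by_contra hne
  set R := Q ⊓ M with hR
  have hMR : M ≤ normalizer (R : Set G) := by
    intro m hm
    rw [mem_normalizer_iff]
    intro a
    constructor
    · rintro ⟨ha1, ha2⟩
      exact ⟨hQ.conj_mem a ha1 m, M.mul_mem (M.mul_mem hm ha2) (M.inv_mem hm)⟩
    · rintro ⟨ha1, ha2⟩
      have e : a = m⁻¹ * (m * a * m⁻¹) * m := by group
      rw [e]
      refine ⟨?_, M.mul_mem (M.mul_mem (M.inv_mem hm) ha2) hm⟩
      have := hQ.conj_mem _ ha1 m⁻¹
      simpa using this
  have hnorm := hprim R inf_le_right hMR hne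
  have hRQ : R ≠ Q := by
    intro h
    have : Q ≤ M := by rw [← h]; exact inf_le_right
    apply hne
    rw [hR, hcore Q hQ this, bot_inf_eq]
  have hlt : R.subgroupOf Q < ⊤ := by
    rw [lt_top_iff_ne_top]
    intro h
    apply hRQ
    apply le_antisymm inf_le_left
    intro x hx
    have : (⟨x, hx⟩ : Q) ∈ R.subgroupOf Q := by rw [h]; trivial
    exact (mem_subgroupOf.1 this)
  have hcond := Group.normalizerCondition_of_isNilpotent (G := Q) _ hlt
  obtain ⟨x, hxn, hxR⟩ := SetLike.exists_of_lt hcond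
  have hxG : (x : G) ∈ normalizer (R : Set G) := by
    rw [mem_normalizer_iff]
    intro r
    have hkey := mem_normalizer_iff.1 hxn
    constructor
    · intro hr
      have hrQ : r ∈ Q := hr.1
      have := (hkey ⟨r, hrQ⟩).1 (by simpa [mem_subgroupOf] using hr)
      simpa [mem_subgroupOf] using this
    · intro hr
      have hrQ : r ∈ Q := by
        have h1 : (x : G) * r * (x : G)⁻¹ ∈ Q := hr.1
        have e : r = (x : G)⁻¹ * ((x : G) * r * (x : G)⁻¹) * x := by group
        rw [e]
        exact Q.mul_mem (Q.mul_mem (Q.inv_mem x.2) h1) x.2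
      have := (hkey ⟨r, hrQ⟩).2 (by simpa [mem_subgroupOf] using hr)
      simpa [mem_subgroupOf] using this
  rw [hnorm] at hxG
  exact hxR (by
    rw [mem_subgroupOf]
    exact ⟨x.2, hxG⟩)
have hfpf : ∀ Q : Subgroup G, Q.Normal → Group.IsNilpotent Q → ∀ x ∈ Q,
    (∀ a ∈ A, x * a = a * x) → x = 1 := by
  intro Q hQ hQnil x hx hc
  have h1 : x ∈ centralizer (A : Set G) := by
    rw [mem_centralizer_iff]
    intro a ha
    exact (hc a ha).symm
  have h2 : x ∈ Q ⊓ M := ⟨hx, hCA h1⟩
  rw [hnil Q hQ hQnil, mem_bot] at h2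
  exact h2
-- `F(N)`
set F₁ := (fittingSubgroup ↥N).map N.subtype with hF₁
set E₁ := (layer ↥N).map N.subtype with hE₁
haveI hF₁n : F₁.Normal := by rw [hF₁]; infer_instance
have hF₁nil : Group.IsNilpotent F₁ := by
  haveI := H01.fitting_nilpotent (G := ↥N)
  exact Group.nilpotent_of_surjective (N.subtype.subgroupMap (fittingSubgroup ↥N))
    (MonoidHom.subgroupMap_surjective _ _)
have hXsup : X = E₁ ⊔ F₁ := by
  rw [hX, hE₁, hF₁, generalizedFittingSubgroup, Subgroup.map_sup]
have hEF : ∀ e ∈ E₁, ∀ f ∈ F₁, e * f = f * e := by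
  rintro _ ⟨e, he, rfl⟩ _ ⟨f, hf, rfl⟩
  have := layer_comm_fitting e he f hf
  exact congrArg N.subtype this
have hF₁bot : F₁ = ⊥ := by
  by_contra hne
  haveI : Nontrivial F₁ := (Subgroup.nontrivial_iff_ne_bot F₁).2 hne
  have hc := Group.IsNilpotent.center_ne_bot F₁
  obtain ⟨z, hz, hz1⟩ := (center F₁).bot_or_exists_ne_one.resolve_left hc
  apply hz1
  apply Subtype.ext
  refine hfpf F₁ hF₁n hF₁nil z z.2 ?_
  intro a ha
  have haX : a ∈ E₁ ⊔ F₁ := hXsup ▸ ha.2
  obtain ⟨e, he, f, hf, rfl⟩ := H05.mem_sup_of_commute hEF haX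
  have h1 : (z : G) * f = f * z := by
    have := (Subgroup.mem_center_iff.1 hz) ⟨f, hf⟩
    exact (congrArg Subtype.val this).symm
  have h2 : (z : G) * e = e * z := (hEF e he z z.2).symm
  calc (z : G) * (e * f) = (z * e) * f := by group
    _ = (e * z) * f := by rw [h2]
    _ = e * (z * f) := by group
    _ = e * (f * z) := by rw [h1]
    _ = e * f * z := by group
have hQbot : ∀ Q : Subgroup G, Q.Normal → Group.IsNilpotent Q → Q = ⊥ := by
  intro Q hQ hQnil
  by_contra hne
  obtain ⟨x, hx, hx1⟩ := Q.bot_or_exists_ne_one.resolve_left hne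
  have hex : ∃ a ∈ A, x * a ≠ a * x := by
    by_contra hcon
    push Not at hcon
    exact hx1 (hfpf Q hQ hQnil x hx hcon)
  obtain ⟨a, ha, hxa⟩ := hex
  have hc1 : ⁅x, a⁆ ≠ 1 := fun h => hxa (commutatorElement_eq_one_iff_mul_comm.1 h)
  have hcQ : ⁅x, a⁆ ∈ Q := by
    rw [commutatorElement_def, mul_assoc, mul_assoc]
    have := hQ.conj_mem _ (Q.inv_mem hx) a
    rw [mul_assoc] at this
    exact Q.mul_mem hx this
  have hcX : ⁅x, a⁆ ∈ X := by
    have ha2 : a ∈ X := ha.2
    rw [commutatorElement_def]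
    have e : x * a * x⁻¹ * a⁻¹ = (x * a * x⁻¹) * a⁻¹ := rfl
    rw [e]
    exact X.mul_mem (hXn.conj_mem a ha2 x) (X.inv_mem ha2)
  -- `Q ⊓ X` lies in `F₁`
  have hle : Q ⊓ X ≤ F₁ := by
    intro y hy
    have hyN : y ∈ N := hXN hy.2
    have hnor : ((Q ⊓ X).subgroupOf N).Normal := by
      haveI : (Q ⊓ X).Normal := Subgroup.normal_inf_normal _ _
      exact Subgroup.Normal.subgroupOf inferInstance _
    have hnl : Group.IsNilpotent ((Q ⊓ X).subgroupOf N) := by
      have h1 : Group.IsNilpotent ((Q ⊓ X).subgroupOf Q) := inferInstance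
      have e1 := (Subgroup.subgroupOfEquivOfLe (inf_le_left : Q ⊓ X ≤ Q))
      have e2 := (Subgroup.subgroupOfEquivOfLe (inf_le_right.trans hXN : Q ⊓ X ≤ N))
      exact Group.nilpotent_of_mulEquiv (e1.trans e2.symm)
    have := H01.le_fitting hnor hnl
    have hmem : (⟨y, hyN⟩ : N) ∈ (Q ⊓ X).subgroupOf N := by
      rw [mem_subgroupOf]; exact hy
    exact ⟨⟨y, hyN⟩, this hmem, rfl⟩
  have h3 := hle ⟨hcQ, hcX⟩
  rw [hF₁bot, mem_bot] at h3
  exact hc1 h3
have hFG : fittingSubgroup G = ⊥ := by
  rw [fittingSubgroup, sSup_eq_bot]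
  rintro Q ⟨hQ, hQnil⟩
  exact hQbot Q hQ hQnil
have hFN : fittingSubgroup ↥N = ⊥ := by
  rw [hF₁, map_eq_bot_iff_of_injective _ N.subtype_injective] at hF₁bot
  exact hF₁bot
have hFstarG : generalizedFittingSubgroup G = layer G := by
  rw [generalizedFittingSubgroup, hFG, sup_bot_eq]
have hXE : X = (layer ↥N).map N.subtype := by
  rw [hX, generalizedFittingSubgroup, hFN, sup_bot_eq]
refine ⟨hFG, ?_, hFstarG, ?_⟩
· rw [hFstarG]
  show X = layer G
  rw [hXE]
  apply le_antisymm (H05.layer_map_le hNs)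
  apply sSup_le
  intro L hL
  rcases H05.comp_le_or_comm hL.1 hL.2 hNs with h | h
  · have h1 : (L.subgroupOf N).map N.subtype = L := Subgroup.map_subgroupOf_eq_of_le h
    have h2 : IsComponent (L.subgroupOf N) := by
      rw [H05.isComponent_map_iff hNs, h1]; exact hL
    have h3 : L.subgroupOf N ≤ layer ↥N := le_sSup h2
    calc L = (L.subgroupOf N).map N.subtype := h1.symm
      _ ≤ _ := Subgroup.map_mono h3
  · have h1 : L ≤ centralizer (N : Set G) := (Subgroup.commutator_eq_bot_iff_le_centralizer).1 h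
    rw [hCN] at h1
    have h2 : L = ⊥ := le_bot_iff.1 h1
    exfalso
    have hq := hL.2
    have hs := hq.2
    rw [h2] at hs
    have : Subsingleton (↥(⊥ : Subgroup G) ⧸ center ↥(⊥ : Subgroup G)) := inferInstance
    exact not_subsingleton _ this
· intro K hK hK1 hmin
  rcases hmin (K ⊓ N) (Subgroup.normal_inf_normal _ _) inf_le_left with h | h
  · exfalso
    apply hK1
    have h1 : K ≤ centralizer (N : Set G) := by
      rw [← Subgroup.commutator_eq_bot_iff_le_centralizer]
      have := Subgroup.commutator_le_inf K N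
      rw [h] at this
      exact le_bot_iff.1 this
    rw [hCN] at h1
    exact le_bot_iff.1 h1
  · rw [← h]; exact inf_le_right

end Cfsg.Agent.S3750
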