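import Cfsg.Statements.S3751
import Mathlib
import Cfsg.Agent.Lib.H08.Bender2
import Cfsg.Prelude.Def_LocalEven
import Cfsg.Agent.Lib.H01.Fitting

set_option autoImplicit false
open Cfsg

namespace Cfsg.Agent.S3751


set_option linter.unusedSectionVars false
set_option linter.style.haveILetI false

open Subgroup

variable {G : Type*} [Group G]

def IsLoc (p : ℕ) (M : Subgroup G) : Prop :=
  ∃ T : Subgroup G, IsPGroup p T ∧ T ≠ ⊥ ∧ M = normalizer (T : Set G)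

def IsMx (p : ℕ) (M : Subgroup G) : Prop :=
  IsLoc p M ∧ ∀ L : Subgroup G, IsLoc p L → M ≤ L → L = M

abbrev QQ (p : ℕ) (M : Subgroup G) : Subgroup G := (pCore p M).map M.subtype

abbrev cj (g : G) (H : Subgroup G) : Subgroup G := H.map (MulAut.conj g).toMonoidHom

lemma mem_cj {g x : G} {H : Subgroup G} : x ∈ cj g H ↔ g⁻¹ * x * g ∈ H := by
  constructor
  · rintro ⟨y, hy, rfl⟩
    simpa [mul_assoc] using hy
  · intro h
    exact ⟨_, h, by simp [mul_assoc]⟩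

lemma cj_isP {p : ℕ} (g : G) {H : Subgroup G} (hH : IsPGroup p H) : IsPGroup p (cj g H) := hH.map _

lemma cj_cj (g : G) (H : Subgroup G) : cj g⁻¹ (cj g H) = H := by
  ext x
  simp [mem_cj, mul_assoc]

lemma cj_cj' (g : G) (H : Subgroup G) : cj g (cj g⁻¹ H) = H := by
  ext x
  simp [mem_cj, mul_assoc]

lemma cj_mono (g : G) {H K : Subgroup G} (h : H ≤ K) : cj g H ≤ cj g K := map_mono h

lemma cj_ne_bot (g : G) {H : Subgroup G} (h : H ≠ ⊥) : cj g H ≠ ⊥ := by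
  intro h'
  apply h
  rw [← cj_cj g H, h']
  simp

lemma cj_normalizer (g : G) (T : Subgroup G) : cj g (normalizer (T : Set G)) = normalizer ((cj g T : Subgroup G) : Set G) := by
  ext x
  rw [mem_cj, mem_normalizer_iff, mem_normalizer_iff]
  constructor
  · intro h y
    have h1 := h (g⁻¹ * y * g)
    rw [mem_cj, mem_cj]
    have e : g⁻¹ * x * g * (g⁻¹ * y * g) * (g⁻¹ * x * g)⁻¹ = g⁻¹ * (x * y * x⁻¹) * g := by group
    rw [e] at h1
    exact h1
  · intro h y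
    have h1 := h (g * y * g⁻¹)
    rw [mem_cj, mem_cj] at h1
    have e1 : g⁻¹ * (g * y * g⁻¹) * g = y := by group
    have e2 : g⁻¹ * (x * (g * y * g⁻¹) * x⁻¹) * g = g⁻¹ * x * g * y * (g⁻¹ * x * g)⁻¹ := by group
    rw [e1, e2] at h1
    exact h1

lemma cj_isLoc {p : ℕ} (g : G) {M : Subgroup G} (hM : IsLoc p M) : IsLoc p (cj g M) := by
  obtain ⟨T, h1, h2, rfl⟩ := hM
  exact ⟨cj g T, cj_isP g h1, cj_ne_bot g h2, cj_normalizer g T⟩

lemma cj_isMx {p : ℕ} (g : G) {M : Subgroup G} (hM : IsMx p M) : IsMx p (cj g M) := by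
  refine ⟨cj_isLoc g hM.1, fun L hL hle => ?_⟩
  have h1 : M ≤ cj g⁻¹ L := by
    have := cj_mono g⁻¹ hle
    rwa [cj_cj] at this
  have h2 := hM.2 _ (cj_isLoc g⁻¹ hL) h1
  rw [← h2, cj_cj']

lemma QQ_isP (p : ℕ) [Fact p.Prime] (M : Subgroup G) : IsPGroup p (QQ p M) :=
  (Agent.H01.pCore_isPGroup p).map _

lemma QQ_conj (p : ℕ) (M : Subgroup G) {m q : G} (hm : m ∈ M) (hq : q ∈ QQ p M) :
    m * q * m⁻¹ ∈ QQ p M := by
  obtain ⟨q', hq', rfl⟩ := hq
  haveI := Agent.H01.pCore_normal (G := M) p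
  exact ⟨⟨m, hm⟩ * q' * ⟨m, hm⟩⁻¹, Subgroup.Normal.conj_mem this q' hq' _, rfl⟩

lemma QQ_le (p : ℕ) (M : Subgroup G) : QQ p M ≤ M := by
  rintro _ ⟨q, -, rfl⟩
  exact q.2

lemma le_QQ (p : ℕ) [Fact p.Prime] {M X : Subgroup G} (hX : X ≤ M) (hp : IsPGroup p X)
    (hn : ∀ m ∈ M, ∀ x ∈ X, m * x * m⁻¹ ∈ X) : X ≤ QQ p M := by
  have hN : (X.subgroupOf M).Normal := by
    constructor
    intro x hx m
    rw [mem_subgroupOf] at hx ⊢
    simpa using hn m m.2 x hx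
  have hP : IsPGroup p (X.subgroupOf M) := hp.comap_of_injective _ (subtype_injective _)
  have h1 := Agent.H01.le_pCore hN hP
  intro x hx
  refine ⟨⟨x, hX hx⟩, h1 ?_, rfl⟩
  rw [mem_subgroupOf]
  exact hx

lemma conj_mem_normalizer {T : Subgroup G} {g x : G} (hg : g ∈ normalizer (T : Set G)) (hx : x ∈ T) :
    g * x * g⁻¹ ∈ T := (mem_normalizer_iff.1 hg x).1 hx

lemma QQ_ne_bot {p : ℕ} [Fact p.Prime] {M : Subgroup G} (hM : IsLoc p M) : QQ p M ≠ ⊥ := by
  obtain ⟨T, h1, h2, rfl⟩ := hM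
  have h3 : T ≤ QQ p (normalizer (T : Set G)) := by
    apply le_QQ p le_normalizer h1
    intro m hm x hx
    exact conj_mem_normalizer hm hx
  intro h
  rw [h] at h3
  exact h2 (le_bot_iff.1 h3)

lemma QQ_norm (p : ℕ) (M : Subgroup G) : M ≤ normalizer ((QQ p M : Subgroup G) : Set G) := by
  intro m hm
  rw [mem_normalizer_iff]
  intro q
  refine ⟨fun hq => QQ_conj p M hm hq, fun hq => ?_⟩
  have := QQ_conj p M (inv_mem hm) hq
  simpa [mul_assoc] using this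

lemma normalizer_QQ {p : ℕ} [Fact p.Prime] {M : Subgroup G} (hM : IsMx p M) :
    normalizer ((QQ p M : Subgroup G) : Set G) = M :=
  hM.2 _ ⟨_, QQ_isP p M, QQ_ne_bot hM.1, rfl⟩ (QQ_norm p M)

lemma charP_of_loc {p : ℕ} (hloc : IsOfLocalCharacteristic p G) {M : Subgroup G} (hM : IsLoc p M) :
    centralizer (pCore p M : Set M) ≤ pCore p M := by
  obtain ⟨T, h1, h2, rfl⟩ := hM
  exact hloc.2 T h1 h2

/-- Conjugation by an element of the normalizer as an automorphism. -/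
def cjEquiv {X : Subgroup G} {g : G} (hg : g ∈ normalizer (X : Set G)) : X ≃* X where
  toFun x := ⟨g * x * g⁻¹, conj_mem_normalizer hg x.2⟩
  invFun x := ⟨g⁻¹ * x * g, by
    have := conj_mem_normalizer (inv_mem hg) x.2
    simpa using this⟩
  left_inv x := by ext; simp [mul_assoc]
  right_inv x := by ext; simp [mul_assoc]
  map_mul' x y := by ext; simp [mul_assoc]

/-- `pCore p X` viewed in `G` is normalized by `N(X)`. -/
lemma core_norm (p : ℕ) (X : Subgroup G) :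
    normalizer (X : Set G) ≤ normalizer ((QQ p X : Subgroup G) : Set G) := by
  have hc : (pCore p X).Characteristic := Agent.H08.Bender.pCore_char p X
  have key : ∀ g : G, g ∈ normalizer (X : Set G) → ∀ q ∈ QQ p X, g * q * g⁻¹ ∈ QQ p X := by
    intro g hg q hq
    obtain ⟨q', hq', rfl⟩ := hq
    have h1 : (pCore p X).comap (cjEquiv hg).symm.toMonoidHom = pCore p X := hc.fixed _
    have h2 : cjEquiv hg q' ∈ pCore p X := by
      rw [← h1]
      show (cjEquiv hg).symm (cjEquiv hg q') ∈ pCore p X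
      rw [MulEquiv.symm_apply_apply]
      exact hq'
    exact ⟨_, h2, rfl⟩
  intro g hg
  rw [mem_normalizer_iff]
  intro q
  refine ⟨key g hg q, fun h => ?_⟩
  have := key g⁻¹ (Subgroup.inv_mem _ hg) _ h
  simpa [mul_assoc] using this

lemma norm_le {p : ℕ} [Fact p.Prime] (hloc : IsOfLocalCharacteristic p G) {A X : Subgroup G}
    (hA : IsMx p A) (hX : X ≠ ⊥) (hXA : X ≤ A) (hn : A ≤ normalizer (X : Set G)) :
    normalizer (X : Set G) ≤ A := by
  have hO : QQ p X ≠ ⊥ := by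
    intro hb
    apply hX
    rw [eq_bot_iff]
    intro x hx
    have hR : X ⊓ QQ p A ≤ QQ p X := by
      apply le_QQ p inf_le_left ((QQ_isP p A).to_le inf_le_right)
      rintro m hm y ⟨hy1, hy2⟩
      exact ⟨conj_mem_normalizer (hn (hXA hm)) hy1, QQ_conj p A (hXA hm) hy2⟩
    rw [hb, le_bot_iff] at hR
    have hcomm : ∀ q ∈ QQ p A, x * q = q * x := by
      intro q hq
      have h1 : x * q * x⁻¹ * q⁻¹ ∈ X ⊓ QQ p A := by
        refine ⟨?_, (QQ p A).mul_mem (QQ_conj p A (hXA hx) hq) ((QQ p A).inv_mem hq)⟩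
        have e : x * q * x⁻¹ * q⁻¹ = x * (q * x⁻¹ * q⁻¹) := by group
        rw [e]
        exact mul_mem hx (conj_mem_normalizer (hn (QQ_le p A hq)) (inv_mem hx))
      rw [hR, mem_bot, mul_inv_eq_one, mul_inv_eq_iff_eq_mul] at h1
      exact h1
    have hc : (⟨x, hXA hx⟩ : A) ∈ centralizer (pCore p A : Set A) := by
      rw [mem_centralizer_iff]
      intro q hq
      exact Subtype.ext (hcomm q ⟨q, hq, rfl⟩).symm
    have h2 := charP_of_loc hloc hA.1 hc
    have h3 : x ∈ QQ p A := ⟨_, h2, rfl⟩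
    have h4 : x ∈ X ⊓ QQ p A := ⟨hx, h3⟩
    rw [hR] at h4
    exact h4
  have h1 := hA.2 _ ⟨QQ p X, QQ_isP p X, hO, rfl⟩ (hn.trans (core_norm p X))
  rw [← h1]
  exact core_norm p X

lemma prim_inf {p : ℕ} [Fact p.Prime] (hloc : IsOfLocalCharacteristic p G) {A B X : Subgroup G}
    (hA : IsMx p A) (hX : X ≠ ⊥) (hXA : X ≤ A) (hn : A ≤ normalizer (X : Set G)) :
    B ⊓ normalizer (X : Set G) = A ⊓ B := by
  apply le_antisymm
  · rintro x ⟨h1, h2⟩
    exact ⟨norm_le hloc hA hX hXA hn h2, h1⟩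
  · rintro x ⟨h1, h2⟩
    exact ⟨h2, hn h1⟩

def SylLike (p : ℕ) (T A : Subgroup G) : Prop := ∀ P : Subgroup G, IsPGroup p P → T ≤ P → P ≤ A → P = T

lemma QQ_le_of_sylLike {p : ℕ} [Fact p.Prime] {T A : Subgroup G} (hT : IsPGroup p T) (hTA : T ≤ A)
    (h : SylLike p T A) : QQ p A ≤ T := by
  have hN : T ≤ normalizer ((QQ p A : Subgroup G) : Set G) := hTA.trans (QQ_norm p A)
  have h1 : IsPGroup p (T ⊔ QQ p A : Subgroup G) := IsPGroup.to_sup_of_normal_right' hT (QQ_isP p A) hN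
  have h2 := h _ h1 le_sup_left (sup_le hTA (QQ_le p A))
  rw [← h2]
  exact le_sup_right

lemma exists_norm_grow {p : ℕ} [Fact p.Prime] {T P : Subgroup G} (hP : IsPGroup p P) (hTP : T ≤ P) (hne : P ≠ T) [Finite G] :
    ∃ x ∈ P, x ∉ T ∧ x ∈ normalizer (T : Set G) := by
  haveI : Group.IsNilpotent P := hP.isNilpotent
  have hnc : NormalizerCondition P := Group.normalizerCondition_of_isNilpotent
  have hlt : T.subgroupOf P < ⊤ := by
    refine lt_top_iff_ne_top.2 fun h => hne (le_antisymm ?_ hTP)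
    intro x hx
    have : (⟨x, hx⟩ : P) ∈ T.subgroupOf P := by rw [h]; trivial
    exact this
  obtain ⟨y, hyN, hyT⟩ := SetLike.exists_of_lt (hnc _ hlt)
  refine ⟨y, y.2, hyT, ?_⟩
  rw [mem_normalizer_iff]
  intro t
  constructor
  · intro ht
    by_cases htP : t ∈ P
    · have h1 := (mem_normalizer_iff.1 hyN ⟨t, htP⟩).1 ht
      exact h1
    · exact absurd (hTP ht) htP
  · intro ht
    have h3 : (y : G) * t * (y : G)⁻¹ ∈ P := hTP ht
    have htP : t ∈ P := by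
      have := P.mul_mem (P.mul_mem (P.inv_mem y.2) h3) y.2
      simpa [mul_assoc] using this
    exact (mem_normalizer_iff.1 hyN ⟨t, htP⟩).2 ht

lemma mem_of_cj_eq {p : ℕ} [Fact p.Prime] {B : Subgroup G} (hB : IsMx p B) {x : G} (h : cj x B = B) : x ∈ B := by
  have key : ∀ g : G, cj g B = B → ∀ q ∈ QQ p B, g * q * g⁻¹ ∈ QQ p B := by
    intro g hg q hq
    have h1 : cj g (QQ p B) ≤ QQ p B := by
      apply le_QQ p
      · conv_rhs => rw [← hg]
        exact cj_mono g (QQ_le p B)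
      · exact cj_isP g (QQ_isP p B)
      · intro m hm y hy
        rw [mem_cj] at hy ⊢
        have hm' : m ∈ cj g B := by rw [hg]; exact hm
        rw [mem_cj] at hm'
        have := QQ_conj p B hm' hy
        have e : g⁻¹ * (m * y * m⁻¹) * g = g⁻¹ * m * g * (g⁻¹ * y * g) * (g⁻¹ * m * g)⁻¹ := by group
        rw [e]
        exact this
    exact h1 ⟨q, hq, rfl⟩
  have h' : cj x⁻¹ B = B := by
    conv_lhs => rw [← h]
    exact cj_cj x B
  rw [← normalizer_QQ hB, mem_normalizer_iff]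
  intro q
  refine ⟨key x h q, fun hq => ?_⟩
  have := key x⁻¹ h' _ hq
  simpa [mul_assoc] using this

lemma prim_of_sylLike {p : ℕ} [Fact p.Prime] (hloc : IsOfLocalCharacteristic p G) {A B T : Subgroup G}
    (hA : IsMx p A) (hB : IsMx p B) (hne : A ≠ B) (hT : IsPGroup p T) (hTA : T ≤ A) (hTB : T ≤ B)
    (hSA : SylLike p T A) (hSB : SylLike p T B) :
    ∃ M₁ M₂ : Subgroup G, M₁ ≠ M₂ ∧ (∀ A : Subgroup G, A ≠ ⊥ → A ≤ M₁ ⊓ M₂ → (M₁ ≤ Subgroup.normalizer (A : Set G) → M₂ ⊓ Subgroup.normalizer (A : Set G) = M₁ ⊓ M₂) ∧ (M₂ ≤ Subgroup.normalizer (A : Set G) → M₁ ⊓ Subgroup.normalizer (A : Set G) = M₁ ⊓ M₂)) ∧ Subgroup.centralizer (Cfsg.pCore p ↥M₁ : Set ↥M₁) ≤ Cfsg.pCore p ↥M₁ ∧ Subgroup.centralizer (Cfsg.pCore p ↥M₂ : Set ↥M₂) ≤ Cfsg.pCore p ↥M₂ ∧ (Cfsg.pCore p ↥M₁).map M₁.subtype ⊔ (Cfsg.pCore p ↥M₂).map M₂.subtype ≤ M₁ ⊓ M₂ := by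
  refine ⟨A, B, hne, ?_, charP_of_loc hloc hA.1, charP_of_loc hloc hB.1, ?_⟩
  · intro X hX hXle
    refine ⟨fun hn => prim_inf hloc hA hX (hXle.trans inf_le_left) hn, fun hn => ?_⟩
    rw [inf_comm A B]
    exact prim_inf hloc hB hX (hXle.trans inf_le_right) hn
  · have h1 := QQ_le_of_sylLike hT hTA hSA
    have h2 := QQ_le_of_sylLike hT hTB hSB
    exact sup_le (le_inf (QQ_le p A) (h1.trans hTB)) (le_inf (h2.trans hTA) (QQ_le p B))


/-- Two distinct subgroups M₁, M₂ of G form a primitive pair when, for {i, j} = {1, 2}, every non-trivial normal subgroup A of M_i contained in M₁ ∩ M₂ satisfies N_{M_j}(A) = M₁ ∩ M₂; the pair has characteristic p when moreover C_{M_i}(O_p(M_i)) ≤ O_p(M_i) for both i and O_p(M₁)O_p(M₂) ≤ M₁ ∩ M₂. Let G be a finite group, p a prime dividing its order, with O_p(G) = 1 and every p-local subgroup of characteristic p. Then either G has a primitive pair of characteristic p, or every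 maximal p-local subgroup M of G is strongly p-embedded in G: M is a proper subgroup, p divides its order, and for every g ∉ M the order of M ∩ gMg⁻¹ is prime to p. -/
theorem result {G : Type*} [Group G] [Finite G] {p : ℕ} [Fact p.Prime] (hloc : Cfsg.IsOfLocalCharacteristic p G) (hOp : Cfsg.pCore p G = ⊥) : (∃ M₁ M₂ : Subgroup G, M₁ ≠ M₂ ∧ (∀ A : Subgroup G, A ≠ ⊥ → A ≤ M₁ ⊓ M₂ → (M₁ ≤ Subgroup.normalizer (A : Set G) → M₂ ⊓ Subgroup.normalizer (A : Set G) = M₁ ⊓ M₂) ∧ (M₂ ≤ Subgroup.normalizer (A : Set G) → M₁ ⊓ Subgroup.normalizer (A : Set G) = M₁ ⊓ M₂)) ∧ Subgroup.centralizer (Cfsg.pCore p ↥M₁ : Set ↥M₁) ≤ Cfsg.pCore p ↥M₁ ∧ Subgroup.centralizer (Cfsg.pCore p ↥M₂ : Set ↥M₂) ≤ Cfsg.pCore p ↥M₂ ∧ (Cfsg.pCore p ↥M₁).map M₁.subtype ⊔ (Cfsg.pCore p ↥M₂).map M₂.subtype ≤ M₁ ⊓ M₂) ∨ (∀ M : Subgroup G, (∃ T : Subgroup G, IsPGroup p T ∧ T ≠ ⊥ ∧ M = Subgroup.normalizer (T : Set G)) → (∀ L : Subgroup G, (∃ T : Subgroup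 G, IsPGroup p T ∧ T ≠ ⊥ ∧ L = Subgroup.normalizer (T : Set G)) → M ≤ L → L = M) → M ≠ ⊤ ∧ p ∣ Nat.card M ∧ ∀ g : G, g ∉ M → ¬ p ∣ Nat.card ↥(M ⊓ M.map (MulAut.conj g).toMonoidHom)) := by
  classical
by_cases hprim : ∃ M₁ M₂ : Subgroup G, M₁ ≠ M₂ ∧ (∀ A : Subgroup G, A ≠ ⊥ → A ≤ M₁ ⊓ M₂ → (M₁ ≤ Subgroup.normalizer (A : Set G) → M₂ ⊓ Subgroup.normalizer (A : Set G) = M₁ ⊓ M₂) ∧ (M₂ ≤ Subgroup.normalizer (A : Set G) → M₁ ⊓ Subgroup.normalizer (A : Set G) = M₁ ⊓ M₂)) ∧ Subgroup.centralizer (Cfsg.pCore p ↥M₁ : Set ↥M₁) ≤ Cfsg.pCore p ↥M₁ ∧ Subgroup.centralizer (Cfsg.pCore p ↥M₂ : Set ↥M₂) ≤ Cfsg.pCore p ↥M₂ ∧ (Cfsg.pCore p ↥M₁).map M₁.subtype ⊔ (Cfsg.pCore p ↥M₂).map M₂.subtype ≤ M₁ ⊓ M₂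
· exact Or.inl hprim
right
intro M hML hMmax
have hM : IsMx p M := ⟨hML, hMmax⟩
refine ⟨?_, ?_, ?_⟩
· rintro rfl
  obtain ⟨T, h1, h2, h3⟩ := hML
  haveI : T.Normal := by
    rw [eq_comm, normalizer_eq_top_iff] at h3
    exact h3
  have h4 := Agent.H01.le_pCore (inferInstance : T.Normal) h1
  rw [hOp] at h4
  exact h2 (le_bot_iff.1 h4)
· obtain ⟨T, h1, h2, h3⟩ := hML
  have h4 : T ≤ M := h3 ▸ le_normalizer
  obtain ⟨k, hk⟩ := IsPGroup.iff_card.1 h1
  have hk0 : k ≠ 0 := by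
    rintro rfl
    rw [pow_zero] at hk
    exact h2 ((Subgroup.card_eq_one).1 hk)
  have h5 : p ∣ Nat.card T := by
    rw [hk]
    exact dvd_pow_self p hk0
  exact h5.trans (card_dvd_of_le h4)
· intro g hg hdvd
  exfalso
  have hMg : IsMx p (cj g M) := cj_isMx g hM
  have hneg : M ≠ cj g M := by
    intro h
    exact hg (mem_of_cj_eq hM h.symm)
  -- the set of candidates
  let S : Set (Subgroup G) := {T | IsPGroup p T ∧ T ≠ ⊥ ∧ ∃ A B : Subgroup G, IsMx p A ∧ IsMx p B ∧ A ≠ B ∧ T ≤ A ∧ T ≤ B}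
  have hSne : S.Nonempty := by
    obtain ⟨x, hx⟩ := exists_prime_orderOf_dvd_card' (G := ↥(M ⊓ cj g M)) p hdvd
    refine ⟨(zpowers x).map (M ⊓ cj g M).subtype, ?_, ?_, M, cj g M, hM, hMg, hneg, ?_, ?_⟩
    · apply IsPGroup.map
      rw [IsPGroup.iff_card]
      refine ⟨1, ?_⟩
      rw [Nat.card_zpowers, hx, pow_one]
    · intro h
      rw [map_eq_bot_iff_of_injective _ (subtype_injective _), zpowers_eq_bot] at h
      rw [h, orderOf_one] at hx
      exact (Fact.out : p.Prime).one_lt.ne hx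
    · rintro _ ⟨y, -, rfl⟩
      exact y.2.1
    · rintro _ ⟨y, -, rfl⟩
      exact y.2.2
  obtain ⟨T, hTS, hTmax⟩ := Set.exists_max_image S (fun T => Nat.card T) (Set.toFinite S) hSne
  obtain ⟨hTp, hTne, A, B, hA, hB, hAB, hTA, hTB⟩ := hTS
  -- a maximal local above `N(T)`
  obtain ⟨M₃, hM₃le, hM₃max⟩ := (Set.toFinite {L : Subgroup G | IsLoc p L}).exists_le_maximal
    (show normalizer (T : Set G) ∈ {L : Subgroup G | IsLoc p L} from ⟨T, hTp, hTne, rfl⟩)
  have hM₃ : IsMx p M₃ := ⟨hM₃max.1, fun L hL hle => le_antisymm (hM₃max.2 hL hle) hle⟩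
  -- the core argument
  have core : ∀ A' B' : Subgroup G, IsMx p A' → IsMx p B' → A' ≠ B' → T ≤ A' → T ≤ B' → ¬ SylLike p T A' →
      ∃ x, x ∉ T ∧ x ∈ A' ∧ x ∈ normalizer (T : Set G) ∧ (∃ P : Subgroup G, IsPGroup p P ∧ x ∈ P ∧ T ≤ P) ∧ A' = M₃ := by
    intro A' B' hA' hB' hne hTA' hTB' hns
    unfold SylLike at hns
    push Not at hns
    obtain ⟨P, hPp, hTP, hPA, hPne⟩ := hns
    obtain ⟨x, hxP, hxT, hxN⟩ := exists_norm_grow hPp hTP hPne
    refine ⟨x, hxT, hPA hxP, hxN, ⟨P, hPp, hxP, hTP⟩, ?_⟩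
    by_contra hne3
    have h1 : P ⊓ normalizer (T : Set G) ∈ S := by
      refine ⟨hPp.to_le inf_le_left, ?_, A', M₃, hA', hM₃, hne3, inf_le_left.trans hPA, inf_le_right.trans hM₃le⟩
      intro h
      have : T ≤ P ⊓ normalizer (T : Set G) := le_inf hTP le_normalizer
      rw [h] at this
      exact hTne (le_bot_iff.1 this)
    have h2 := hTmax _ h1
    have h3 : T ≤ P ⊓ normalizer (T : Set G) := le_inf hTP le_normalizer
    have h4 : T = P ⊓ normalizer (T : Set G) := Subgroup.eq_of_le_of_card_ge h3 h2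
    apply hxT
    rw [h4]
    exact ⟨hxP, hxN⟩
  have conclude : ∀ A' B' : Subgroup G, IsMx p A' → IsMx p B' → A' ≠ B' → T ≤ A' → T ≤ B' → ¬ SylLike p T A' → False := by
    intro A' B' hA' hB' hne hTA' hTB' hns
    obtain ⟨x, hxT, hxA, hxN, ⟨P, hPp, hxP, hTP⟩, hA3⟩ := core A' B' hA' hB' hne hTA' hTB' hns
    have hSB : SylLike p T B' := by
      by_contra hns'
      obtain ⟨-, -, -, -, -, hB3⟩ := core B' A' hB' hA' hne.symm hTB' hTA' hns'
      exact hne (hA3.trans hB3.symm)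
    have hB'' : IsMx p (cj x B') := cj_isMx x hB'
    have hne'' : B' ≠ cj x B' := by
      intro h
      have hxB : x ∈ B' := mem_of_cj_eq hB' h.symm
      have h1 := hSB (P ⊓ B') (hPp.to_le inf_le_left) (le_inf hTP hTB') inf_le_right
      apply hxT
      rw [← h1]
      exact ⟨hxP, hxB⟩
    have hxN' : x⁻¹ ∈ normalizer (T : Set G) := Subgroup.inv_mem _ hxN
    have hTB'' : T ≤ cj x B' := by
      intro t ht
      rw [mem_cj]
      apply hTB'
      have := conj_mem_normalizer hxN' ht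
      simpa using this
    have hS'' : SylLike p T (cj x B') := by
      intro P' hP'p hTP' hP'B
      have h0 : cj x⁻¹ P' = T := by
        apply hSB _ (cj_isP _ hP'p)
        · intro t ht
          rw [mem_cj, inv_inv]
          exact hTP' (conj_mem_normalizer hxN ht)
        · intro y hy
          rw [mem_cj, inv_inv] at hy
          have := hP'B hy
          rw [mem_cj] at this
          have e : x⁻¹ * (x * y * x⁻¹) * x = y := by group
          rwa [e] at this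
      apply le_antisymm _ hTP'
      intro y hy
      have h1 : x⁻¹ * y * x ∈ T := by
        rw [← h0, mem_cj, inv_inv]
        have e : x * (x⁻¹ * y * x) * x⁻¹ = y := by group
        rwa [e]
      have := conj_mem_normalizer hxN h1
      have e : x * (x⁻¹ * y * x) * x⁻¹ = y := by group
      rwa [e] at this
    exact hprim (prim_of_sylLike hloc hB' hB'' hne'' hTp hTB' hTB'' hSB hS'')
  by_cases hSA : SylLike p T A
  · by_cases hSB : SylLike p T B
    · exact hprim (prim_of_sylLike hloc hA hB hAB hTp hTA hTB hSA hSB)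
    · exact conclude B A hB hA hAB.symm hTB hTA hSB
  · exact conclude A B hA hB hAB hTA hTB hSA

end Cfsg.Agent.S3751
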