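import Cfsg.Statements.S3752
import Mathlib
import Cfsg.Agent.Lib.H08.Bender2

set_option autoImplicit false
open Cfsg

namespace Cfsg.Agent.S3752


set_option linter.unusedSectionVars false
set_option linter.style.haveILetI false

open Cfsg Cfsg.Agent.H05 Subgroup Cfsg.Agent.H08.Bender

variable {G : Type*} [Group G]

theorem comp_le_EE' [Finite G] {M N : Subgroup G} (hSN : SS M ≤ N) (hSM : SS N ≤ M)
    (L : Subgroup M) (hL : IsComponent L) : L.map M.subtype ≤ EE N := by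
  classical
  have hEMN : EE M ≤ N := (EE_le_SS M).trans hSN
  have hENM : EE N ≤ M := (EE_le_SS N).trans hSM
  have hle : FF N ≤ M := (FF_le_SS N).trans hSM
  have hLE : L.map M.subtype ≤ EE M := map_mono (comp_le_layer hL)
  have hL'N : L.map M.subtype ≤ N := hLE.trans hEMN
  have hFFn : N ≤ normalizer ((FF N : Subgroup G) : Set G) := by
    haveI := Agent.H01.fitting_normal (G := N)
    exact norm_map _
  have hEEn : N ≤ normalizer ((EE N : Subgroup G) : Set G) := by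
    haveI := layer_normal (G := N)
    exact norm_map _
  -- `L` centralizes `F(N) ∩ M`
  have hD : ∀ l ∈ L, ∀ y ∈ FF N, y ∈ M → (l : G) * y = y * l := by
    intro l hl y hyF hyM
    have hsolv : Group.IsSolvable ((FF N).comap M.subtype) := by
      haveI := FF_nilpotent N
      let f : (FF N).comap M.subtype →* FF N :=
        { toFun := fun x => ⟨(x : M), x.2⟩
          map_one' := rfl
          map_mul' := fun _ _ => rfl }
      have hinj : Function.Injective f := by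
        intro a b hab
        have h0 : ((a : M) : G) = ((b : M) : G) := congrArg (fun t : FF N => (t : G)) hab
        exact Subtype.ext (Subtype.ext h0)
      have : Group.IsNilpotent ((FF N).comap M.subtype) := nil_of_inj f hinj
      exact inferInstance
    have hnorm : L ≤ normalizer (((FF N).comap M.subtype : Subgroup M) : Set M) := by
      apply le_normalizer_of_conj
      intro g hg x hx
      have hgN : (g : G) ∈ N := hL'N ⟨g, hg, rfl⟩
      show ((g * x * g⁻¹ : M) : G) ∈ FF N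
      simpa using conj_mem_of_le_normalizer hFFn hgN hx
    have := comm_bot_iff.1 (comp_comm_solvable hL hsolv hnorm) l hl ⟨y, hyM⟩ hyF
    exact congrArg Subtype.val this
  -- `L` centralizes `F(N)`
  have hF : ∀ l ∈ L, ∀ f ∈ FF N, (l : G) * f = f * l := fun l hl f hf => hD l hl f hf (hle hf)
  -- `L` does not centralize `E(N)`
  have hnc : ¬ (∀ l ∈ L, ∀ e ∈ EE N, (l : G) * e = e * l) := by
    intro hE
    have hLF : L.map M.subtype ≤ FF N := by
      rintro _ ⟨l, hl, rfl⟩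
      apply mem_FF_of_comm (hL'N ⟨l, hl, rfl⟩)
      have hle : SS N ≤ centralizer ({(l : G)} : Set G) := by
        rw [SS_eq]
        apply sup_le
        · intro e he
          rw [mem_centralizer_singleton_iff]
          exact (hE l hl e he).symm
        · intro e he
          rw [mem_centralizer_singleton_iff]
          exact (hF l hl e he).symm
      intro s hs
      have := hle hs
      rw [mem_centralizer_singleton_iff] at this
      exact this.symm
    have hnil : Group.IsNilpotent (L.map M.subtype) := nil_of_le hLF (FF_nilpotent N)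
    have hnilL : Group.IsNilpotent L :=
      (Group.isNilpotent_congr (L.equivMapOfInjective _ (subtype_injective _))).2 hnil
    exact qs_not_nilpotent hL.2 hnilL
  -- inside `M ∩ N`
  let ι : (M ⊓ N : Subgroup G) →* M := Subgroup.inclusion inf_le_left
  have hinj : Function.Injective ι := Subgroup.inclusion_injective _
  have hr : L ≤ ι.range := by
    intro l hl
    exact ⟨⟨l, l.2, hL'N ⟨l, hl, rfl⟩⟩, rfl⟩
  have hLt : IsComponent (L.comap ι) := comp_comap ι hinj hL hr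
  have hHn : ((EE N).comap (M ⊓ N : Subgroup G).subtype).Normal := by
    constructor
    intro x hx g
    show ((g * x * g⁻¹ : (M ⊓ N : Subgroup G)) : G) ∈ EE N
    simpa using conj_mem_of_le_normalizer hEEn g.2.2 hx
  rcases comp_le_or_comm hLt.1 hLt.2 hHn.isSubnormal with h | h
  · rintro _ ⟨l, hl, rfl⟩
    have hl' : (⟨l, l.2, hL'N ⟨l, hl, rfl⟩⟩ : (M ⊓ N : Subgroup G)) ∈ L.comap ι := hl
    exact h hl'
  · exfalso
    apply hnc
    intro l hl e he
    have hl' : (⟨l, l.2, hL'N ⟨l, hl, rfl⟩⟩ : (M ⊓ N : Subgroup G)) ∈ L.comap ι := hl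
    have he' : (⟨e, hENM he, EE_le N he⟩ : (M ⊓ N : Subgroup G)) ∈ (EE N).comap (M ⊓ N : Subgroup G).subtype := he
    have := comm_bot_iff.1 h _ hl' _ he'
    exact congrArg Subtype.val this


theorem EE_le_EE' [Finite G] {M N : Subgroup G} (hSN : SS M ≤ N) (hSM : SS N ≤ M) : EE M ≤ EE N := by
  rw [EE, Subgroup.map_le_iff_le_comap]
  refine sSup_le fun L hL => ?_
  rw [← Subgroup.map_le_iff_le_comap]
  exact comp_le_EE' hSN hSM L hL

theorem QP_le_QP' [Finite G] {M N : Subgroup G} (q : ℕ) [hq : Fact q.Prime]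
    (hEM : layer M = ⊥) (hNM : FF N ≤ M) (hMN : FF M ≤ N)
    (hnorm : ∀ x ∈ M, x ∈ normalizer ((PP N q : Subgroup G) : Set G) → x ∈ N) : QP N q ≤ QP M q := by
  classical
  set K : Subgroup G := closure {g | ∃ m ∈ M, ∃ n ∈ QP N q, g = m * n * m⁻¹} with hK
  have hmemK : ∀ m ∈ M, ∀ n ∈ QP N q, m * n * m⁻¹ ∈ K := fun m hm n hn => subset_closure ⟨m, hm, n, hn, rfl⟩
  have hKN : K ≤ N := by
    rw [hK, closure_le]
    rintro _ ⟨m, hm, n, hn, rfl⟩
    apply hnorm _ (mul_mem (mul_mem hm (hNM (partOf_le _ _ hn))) (inv_mem hm))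
    apply mem_normalizer_of_comm
    intro b hb
    exact key_comm q hEM hNM hMN hm hn hb
  have hKM : K ≤ M := by
    rw [hK, closure_le]
    rintro _ ⟨m, hm, n, hn, rfl⟩
    exact mul_mem (mul_mem hm (hNM (partOf_le _ _ hn))) (inv_mem hm)
  have hKnorm : M ≤ normalizer ((K : Subgroup G) : Set G) := by
    apply le_normalizer_of_conj
    intro m' hm' x hx
    induction hx using closure_induction with
    | mem x hx =>
      obtain ⟨m, hm, n, hn, rfl⟩ := hx
      have : m' * (m * n * m⁻¹) * m'⁻¹ = (m' * m) * n * (m' * m)⁻¹ := by group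
      rw [this]
      exact hmemK _ (mul_mem hm' hm) _ hn
    | one => simp
    | mul x y _ _ hx hy =>
      have : m' * (x * y) * m'⁻¹ = (m' * x * m'⁻¹) * (m' * y * m'⁻¹) := by group
      rw [this]; exact mul_mem hx hy
    | inv x _ hx =>
      have : m' * x⁻¹ * m'⁻¹ = (m' * x * m'⁻¹)⁻¹ := by group
      rw [this]; exact inv_mem hx
  have hQPp := QP_isP N q
  have hKp : IsPGroup q K := by
    have hT : K ≤ (pCore q K).map K.subtype := by
      conv_lhs => rw [hK]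
      rw [closure_le]
      rintro g ⟨m, hm, n, hn, rfl⟩
      set C : Subgroup G := (QP N q).map (MulAut.conj m).toMonoidHom with hC
      have hCmem : ∀ n' ∈ QP N q, m * n' * m⁻¹ ∈ C := fun n' hn' => ⟨n', hn', rfl⟩
      have hCK : C ≤ K := by
        rintro _ ⟨n', hn', rfl⟩
        exact hmemK m hm n' hn'
      haveI hCn : (C.subgroupOf K).Normal := by
        constructor
        intro c hc k
        rw [mem_subgroupOf] at hc ⊢
        obtain ⟨n', hn', hn'e⟩ := hc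
        have hn'e' : m * n' * m⁻¹ = (c : G) := hn'e
        have hk' : m⁻¹ * k * m ∈ K := by
          have := conj_mem_of_le_normalizer hKnorm (inv_mem hm) k.2
          simpa using this
        have hn'' := conj_mem_of_le_normalizer (QP_norm N q) (hKN hk') hn'
        have e : ((k * c * k⁻¹ : K) : G) = m * ((m⁻¹ * k * m) * n' * (m⁻¹ * k * m)⁻¹) * m⁻¹ := by
          simp only [Subgroup.coe_mul, Subgroup.coe_inv, ← hn'e']
          group
        rw [e]
        exact hCmem _ hn''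
      have hCp : IsPGroup q (C.subgroupOf K) :=
        isPGroup_subgroupOf' (hQPp.map _)
      have h1 := Agent.H01.le_pCore hCn hCp
      have h2 : (⟨m * n * m⁻¹, hmemK m hm n hn⟩ : K) ∈ C.subgroupOf K := by
        rw [mem_subgroupOf]
        exact hCmem n hn
      exact ⟨_, h1 h2, rfl⟩
    intro x
    have hx := hT x.2
    obtain ⟨y, hy, hyx⟩ := hx
    obtain ⟨k, hk⟩ := Agent.H01.pCore_isPGroup (G := K) q ⟨y, hy⟩
    have hk' : y ^ q ^ k = 1 := by simpa using congrArg Subtype.val hk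
    have hyx' : y = x := Subtype.ext hyx
    exact ⟨k, by rw [← hyx']; exact hk'⟩
  -- `K` lies in `F(M)`
  have hKF : K ≤ FF M := by
    have hKn : (K.comap M.subtype).Normal := by
      constructor
      intro x hx m
      show ((m * x * m⁻¹ : M) : G) ∈ K
      simpa using conj_mem_of_le_normalizer hKnorm m.2 hx
    have hKp' : IsPGroup q (K.comap M.subtype) := hKp.comap_of_injective _ (subtype_injective _)
    have h1 := Agent.H01.le_fitting hKn hKp'.isNilpotent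
    intro x hx
    exact ⟨⟨x, hKM hx⟩, h1 hx, rfl⟩
  intro n hn
  have hnK : n ∈ K := by simpa using hmemK 1 (one_mem _) n hn
  apply pelem_mem_QP M q (hKF hnK)
  obtain ⟨k, hk⟩ := hQPp ⟨n, hn⟩
  exact ⟨k, by simpa using congrArg Subtype.val hk⟩


theorem mem_FF_of_comm' [Finite G] {M : Subgroup G} (hE : layer M = ⊥) {x : G} (hx : x ∈ M)
    (h : ∀ s ∈ FF M, x * s = s * x) : x ∈ FF M := by
  apply mem_FF_of_comm hx
  intro s hs
  have hE' : EE M = ⊥ := by simp [EE, hE]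
  rw [SS_eq, hE', bot_sup_eq] at hs
  exact h s hs

theorem eq_bot_of_FF_bot [Finite G] {M : Subgroup G} (hE : layer M = ⊥) (hF : FF M = ⊥) : M = ⊥ := by
  rw [eq_bot_iff]
  intro x hx
  have := mem_FF_of_comm' hE hx (fun s hs => by
    rw [hF, mem_bot] at hs
    simp [hs])
  rwa [hF] at this

theorem dvd_of_QP_ne_bot [Finite G] (M : Subgroup G) (q : ℕ) [hq : Fact q.Prime] (h : QP M q ≠ ⊥) :
    q ∣ Nat.card (fittingSubgroup M) := by
  by_contra hnd
  apply h
  rw [eq_bot_iff]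
  intro x hx
  rw [mem_bot]
  apply eq_one_of_orderOf_dvd (QP_isP M q) hx hnd
  have := orderOf_dvd_natCard (⟨x, partOf_le _ _ hx⟩ : FF M)
  rw [Subgroup.orderOf_mk, card_FF] at this
  exact this

theorem step [Finite G] {M N : Subgroup G} (hEM : layer M = ⊥) (hNM : FF N ≤ M) (hMN : FF M ≤ N)
    (hn : ∀ A : Subgroup G, A ≠ ⊥ → A ≤ N → A ≤ M → N ≤ normalizer (A : Set G) →
      ∀ x ∈ M, x ∈ normalizer (A : Set G) → x ∈ N)
    {s t : ℕ} [Fact s.Prime] [Fact t.Prime] (hts : t ≠ s) (htd : t ∣ Nat.card (fittingSubgroup N)) :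
    QP N s ≤ QP M s := by
  apply QP_le_QP' s hEM hNM hMN
  exact hn _ (PP_ne_bot N hts htd) ((partOf_le _ _).trans (FF_le N)) ((partOf_le _ _).trans hNM) (PP_norm N s)

theorem no_two [Finite G] {M N : Subgroup G} (hne : M ≠ N) (hEM : layer M = ⊥) (hEN : layer N = ⊥)
    (hNM : FF N ≤ M) (hMN : FF M ≤ N)
    (hn : ∀ A : Subgroup G, A ≠ ⊥ → A ≤ N → A ≤ M → N ≤ normalizer (A : Set G) →
      ∀ x ∈ M, x ∈ normalizer (A : Set G) → x ∈ N)
    (hn' : ∀ A : Subgroup G, A ≠ ⊥ → A ≤ M → A ≤ N → M ≤ normalizer (A : Set G) →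
      ∀ x ∈ N, x ∈ normalizer (A : Set G) → x ∈ M)
    {q r : ℕ} (hq : q.Prime) (hr : r.Prime) (hqr : q ≠ r)
    (hqd : q ∣ Nat.card (fittingSubgroup N)) (hrd : r ∣ Nat.card (fittingSubgroup N)) : False := by
  haveI := Fact.mk hq
  haveI := Fact.mk hr
  have h1 : QP N q ≤ QP M q := step hEM hNM hMN hn hqr.symm hrd
  have h2 : QP N r ≤ QP M r := step hEM hNM hMN hn hqr hqd
  have hqM : q ∣ Nat.card (fittingSubgroup M) :=
    dvd_of_QP_ne_bot M q fun h => (QP_ne_bot N q hqd) (le_bot_iff.1 (h ▸ h1))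
  have hrM : r ∣ Nat.card (fittingSubgroup M) :=
    dvd_of_QP_ne_bot M r fun h => (QP_ne_bot N r hrd) (le_bot_iff.1 (h ▸ h2))
  have h3 : QP M q ≤ QP N q := step hEN hMN hNM hn' hqr.symm hrM
  have h4 : QP M q = QP N q := le_antisymm h3 h1
  have hA : QP M q ≠ ⊥ := QP_ne_bot M q hqM
  have hMn : M ≤ normalizer ((QP M q : Subgroup G) : Set G) := QP_norm M q
  have hNn : N ≤ normalizer ((QP M q : Subgroup G) : Set G) := h4 ▸ QP_norm N q
  have hAM : QP M q ≤ M := (partOf_le _ _).trans (FF_le M)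
  have hAN : QP M q ≤ N := h4 ▸ (partOf_le _ _).trans (FF_le N)
  apply hne
  apply le_antisymm
  · intro x hx
    exact hn _ hA hAN hAM hNn x hx (hMn hx)
  · intro x hx
    exact hn' _ hA hAM hAN hMn x hx (hNn hx)

theorem pgroup_of_no_two [Finite G] {M : Subgroup G} (hnt : FF M ≠ ⊥)
    (hno : ∀ q r : ℕ, q.Prime → r.Prime → q ≠ r → q ∣ Nat.card (fittingSubgroup M) →
      r ∣ Nat.card (fittingSubgroup M) → False) :
    ∃ p : ℕ, p.Prime ∧ IsPGroup p (fittingSubgroup M) := by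
  have hFne : Nat.card (fittingSubgroup M) ≠ 1 := by
    intro h
    apply hnt
    rw [eq_bot_iff]
    rintro _ ⟨y, hy, rfl⟩
    haveI : Subsingleton (fittingSubgroup M) := (Nat.card_eq_one_iff_unique.1 h).1
    have : (⟨y, hy⟩ : fittingSubgroup M) = 1 := Subsingleton.elim _ _
    have h2 : y = 1 := congrArg Subtype.val this
    rw [h2]
    simp
  obtain ⟨p, hp, hpd⟩ := Nat.exists_prime_and_dvd hFne
  haveI := Fact.mk hp
  refine ⟨p, hp, ?_⟩
  rw [IsPGroup.iff_card]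
  refine ⟨_, Nat.eq_prime_pow_of_unique_prime_dvd Nat.card_pos.ne' (fun {q} hq hqd => ?_)⟩
  by_contra hne
  exact hno p q hp hq (Ne.symm hne) hpd hqd

theorem pCore_eq_fitting [Finite G] {M : Subgroup G} {p : ℕ} [Fact p.Prime] (h : IsPGroup p (fittingSubgroup M)) :
    pCore p M = fittingSubgroup M := by
  apply le_antisymm
  · exact Agent.H01.le_fitting inferInstance (Agent.H01.pCore_isPGroup p).isNilpotent
  · exact Agent.H01.le_pCore Agent.H01.fitting_normal h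

theorem cent_le [Finite G] {M : Subgroup G} (hE : layer M = ⊥) :
    centralizer (fittingSubgroup M : Set M) ≤ fittingSubgroup M := by
  intro x hx
  have h1 : (x : G) ∈ FF M := by
    apply mem_FF_of_comm' hE x.2
    rintro _ ⟨s, hs, rfl⟩
    have := mem_centralizer_iff.1 hx s hs
    exact (congrArg Subtype.val this).symm
  obtain ⟨y, hy, hyx⟩ := h1
  have : y = x := Subtype.ext hyx
  exact this ▸ hy


/-- Bender's Theorem on primitive pairs. Two distinct subgroups M₁, M₂ of G form a primitive pair when, for {i, j} = {1, 2}, every non-trivial normal subgroup A of M_i contained in M₁ ∩ M₂ satisfies N_{M_j}(A) = M₁ ∩ M₂; the pair has characteristic p when moreover C_{M_i}(O_p(M_i)) ≤ O_p(M_i) for both i and O_p(M₁)O_p(M₂) ≤ M₁ ∩ M₂. If (M₁, M₂) is a primitive pair of the finite group G with F*(M₁) ≤ M₂ and F*(M₂) ≤ M₁, then for some prime p the pair has characteristic p. -/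
theorem result {G : Type*} [Group G] [Finite G] (M₁ M₂ : Subgroup G) (hne : M₁ ≠ M₂) (hP : ∀ A : Subgroup G, A ≠ ⊥ → A ≤ M₁ ⊓ M₂ → (M₁ ≤ Subgroup.normalizer (A : Set G) → M₂ ⊓ Subgroup.normalizer (A : Set G) = M₁ ⊓ M₂) ∧ (M₂ ≤ Subgroup.normalizer (A : Set G) → M₁ ⊓ Subgroup.normalizer (A : Set G) = M₁ ⊓ M₂)) (h₁ : (Cfsg.generalizedFittingSubgroup ↥M₁).map M₁.subtype ≤ M₂) (h₂ : (Cfsg.generalizedFittingSubgroup ↥M₂).map M₂.subtype ≤ M₁) : ∃ p : ℕ, p.Prime ∧ Subgroup.centralizer (Cfsg.pCore p ↥M₁ : Set ↥M₁) ≤ Cfsg.pCore p ↥M₁ ∧ Subgroup.centralizer (Cfsg.pCore p ↥M₂ : Set ↥M₂) ≤ Cfsg.pCore p ↥M₂ ∧ (Cfsg.pCore p ↥M₁).map M₁.subtype ⊔ (Cfsg.pCore p ↥M₂).map M₂.subtype ≤ M₁ ⊓ M₂ := by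
  classical
have hS₁ : SS M₁ ≤ M₂ := h₁
have hS₂ : SS M₂ ≤ M₁ := h₂
have hn₁ : ∀ A : Subgroup G, A ≠ ⊥ → A ≤ M₁ → A ≤ M₂ → M₁ ≤ normalizer (A : Set G) →
    ∀ x ∈ M₂, x ∈ normalizer (A : Set G) → x ∈ M₁ := by
  intro A hA hA1 hA2 hN x hx hxN
  have h := (hP A hA (le_inf hA1 hA2)).1 hN
  have h3 : x ∈ M₂ ⊓ normalizer (A : Set G) := ⟨hx, hxN⟩
  rw [h] at h3
  exact h3.1
have hn₂ : ∀ A : Subgroup G, A ≠ ⊥ → A ≤ M₂ → A ≤ M₁ → M₂ ≤ normalizer (A : Set G) →
    ∀ x ∈ M₁, x ∈ normalizer (A : Set G) → x ∈ M₂ := by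
  intro A hA hA2 hA1 hN x hx hxN
  have h := (hP A hA (le_inf hA1 hA2)).2 hN
  have h3 : x ∈ M₁ ⊓ normalizer (A : Set G) := ⟨hx, hxN⟩
  rw [h] at h3
  exact h3.2
-- the layers vanish
have hEE : EE M₁ = EE M₂ := le_antisymm (EE_le_EE' hS₁ hS₂) (EE_le_EE' hS₂ hS₁)
have hEb : EE M₁ = ⊥ := by
  by_contra hb
  have hnn1 : M₁ ≤ normalizer ((EE M₁ : Subgroup G) : Set G) := by
    haveI := layer_normal (G := M₁)
    exact norm_map _
  have hnn2 : M₂ ≤ normalizer ((EE M₁ : Subgroup G) : Set G) := by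
    rw [hEE]
    haveI := layer_normal (G := M₂)
    exact norm_map _
  have hA1 : EE M₁ ≤ M₁ := EE_le M₁
  have hA2 : EE M₁ ≤ M₂ := hEE ▸ EE_le M₂
  apply hne
  apply le_antisymm
  · intro x hx
    exact hn₂ _ hb hA2 hA1 hnn2 x hx (hnn1 hx)
  · intro x hx
    exact hn₁ _ hb hA1 hA2 hnn1 x hx (hnn2 hx)
have hE₁ : layer M₁ = ⊥ := (map_eq_bot_iff_of_injective _ (subtype_injective _)).1 hEb
have hE₂ : layer M₂ = ⊥ := (map_eq_bot_iff_of_injective _ (subtype_injective _)).1 (hEE.symm.trans hEb)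
have hF₁₂ : FF M₁ ≤ M₂ := (FF_le_SS M₁).trans hS₁
have hF₂₁ : FF M₂ ≤ M₁ := (FF_le_SS M₂).trans hS₂
-- nontrivial Fitting subgroups
have hnt₁ : FF M₁ ≠ ⊥ := by
  intro h
  have hb1 := eq_bot_of_FF_bot hE₁ h
  have hb2 : FF M₂ = ⊥ := le_bot_iff.1 (hb1 ▸ hF₂₁)
  exact hne (hb1.trans (eq_bot_of_FF_bot hE₂ hb2).symm)
have hnt₂ : FF M₂ ≠ ⊥ := by
  intro h
  have hb1 := eq_bot_of_FF_bot hE₂ h
  have hb2 : FF M₁ = ⊥ := le_bot_iff.1 (hb1 ▸ hF₁₂)
  exact hne ((eq_bot_of_FF_bot hE₁ hb2).trans hb1.symm)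
obtain ⟨p₁, hp₁, hg₁⟩ := pgroup_of_no_two hnt₁ (fun q r hq hr hqr hqd hrd =>
  no_two hne.symm hE₂ hE₁ hF₁₂ hF₂₁ hn₁ hn₂ hq hr hqr hqd hrd)
obtain ⟨p₂, hp₂, hg₂⟩ := pgroup_of_no_two hnt₂ (fun q r hq hr hqr hqd hrd =>
  no_two hne hE₁ hE₂ hF₂₁ hF₁₂ hn₂ hn₁ hq hr hqr hqd hrd)
haveI := Fact.mk hp₁
haveI := Fact.mk hp₂
have hgg₁ : IsPGroup p₁ (FF M₁) := hg₁.map _
have hgg₂ : IsPGroup p₂ (FF M₂) := hg₂.map _
have hFFn₁ : M₁ ≤ normalizer ((FF M₁ : Subgroup G) : Set G) := by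
  haveI := Agent.H01.fitting_normal (G := M₁)
  exact norm_map _
have hFFn₂ : M₂ ≤ normalizer ((FF M₂ : Subgroup G) : Set G) := by
  haveI := Agent.H01.fitting_normal (G := M₂)
  exact norm_map _
have hpp : p₁ = p₂ := by
  by_contra hne'
  have hnd : ¬ p₂ ∣ p₁ := fun h => hne' ((Nat.prime_dvd_prime_iff_eq hp₂ hp₁).1 h).symm
  have hc : ∀ {x : G}, x ∈ FF M₁ → x ∈ FF M₂ → x = 1 := by
    intro x hx hy
    apply eq_one_of_coprime_of_pGroup hgg₁ hx
    exact order_coprime_of_pGroup hgg₂ hy hnd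
  apply hnt₂
  rw [eq_bot_iff]
  intro x hx
  rw [mem_bot]
  apply hc _ hx
  apply mem_FF_of_comm' hE₁ (hF₂₁ hx)
  intro s hs
  have h1 : x * s * x⁻¹ * s⁻¹ ∈ FF M₁ :=
    mul_mem (conj_mem_of_le_normalizer hFFn₁ (hF₂₁ hx) hs) (inv_mem hs)
  have h2 : x * s * x⁻¹ * s⁻¹ ∈ FF M₂ := by
    have e : x * s * x⁻¹ * s⁻¹ = x * (s * x⁻¹ * s⁻¹) := by group
    rw [e]
    exact mul_mem hx (conj_mem_of_le_normalizer hFFn₂ (hF₁₂ hs) (inv_mem hx))
  have h3 := hc h1 h2
  rw [mul_inv_eq_one, mul_inv_eq_iff_eq_mul] at h3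
  exact h3
subst hpp
refine ⟨p₁, hp₁, ?_⟩
rw [pCore_eq_fitting hg₁, pCore_eq_fitting hg₂]
exact ⟨cent_le hE₁, cent_le hE₂, sup_le (le_inf (FF_le M₁) hF₁₂) (le_inf hF₂₁ (FF_le M₂))⟩

end Cfsg.Agent.S3752
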