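import Mathlib
import Cfsg.Statements.S3755
import Cfsg.Agent.Lib.H14.BOS3
-- import your own Cfsg.Agent.* helpers here

set_option autoImplicit false
open Cfsg

namespace Cfsg.Agent.S3755


/-- Let M and V be subgroups of a finite group with V an elementary abelian 2-group, M normalizing V and acting faithfully on it (M ∩ C(V) = 1), and C_M(O_{2'}(M)) ≤ O_{2'}(M). If some elementary abelian 2-subgroup A of M satisfies |V : C_V(A)| < |A|², then M has a section isomorphic to the symmetric group of degree 3. -/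
theorem result {X : Type*} [Group X] [Finite X] (M V : Subgroup X) (hV : Cfsg.IsElementaryAbelian 2 V) (hMV : M ≤ Subgroup.normalizer (V : Set X)) (hfaith : M ⊓ Subgroup.centralizer (V : Set X) = ⊥) (hcon : Subgroup.centralizer (Cfsg.pPrimeCore 2 ↥M : Set ↥M) ≤ Cfsg.pPrimeCore 2 ↥M) (A : Subgroup X) (hAM : A ≤ M) (hA : Cfsg.IsElementaryAbelian 2 A) (hsmall : (V ⊓ Subgroup.centralizer (A : Set X)).relIndex V < Nat.card A ^ 2) : Cfsg.Involves (Equiv.Perm (Fin 3)) ↥M := by
  by_contra hs3
  have hF := Cfsg.Agent.H14.FFS.of_stmt hV hMV hfaith hcon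
  have hb := hF.s3_bound hs3 _ A rfl hAM hA
  have h1 := Subgroup.card_mul_index ((V ⊓ Subgroup.centralizer (A : Set X)).subgroupOf V)
  have h2 : Nat.card ↥((V ⊓ Subgroup.centralizer (A : Set X)).subgroupOf V) = Nat.card ↥(V ⊓ Subgroup.centralizer (A : Set X)) :=
    Nat.card_congr (Subgroup.subgroupOfEquivOfLe inf_le_left).toEquiv
  rw [h2] at h1
  have hpos : 0 < Nat.card ↥(V ⊓ Subgroup.centralizer (A : Set X)) := Nat.card_pos
  have h3 : (V ⊓ Subgroup.centralizer (A : Set X)).relIndex V = ((V ⊓ Subgroup.centralizer (A : Set X)).subgroupOf V).index := rfl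
  rw [← h3] at h1
  rw [← h1] at hb
  have h4 : Nat.card A ^ 2 ≤ (V ⊓ Subgroup.centralizer (A : Set X)).relIndex V := by
    have h5 : Nat.card A ^ 2 * Nat.card ↥(V ⊓ Subgroup.centralizer (A : Set X)) ≤ (V ⊓ Subgroup.centralizer (A : Set X)).relIndex V * Nat.card ↥(V ⊓ Subgroup.centralizer (A : Set X)) := by
      rw [mul_comm ((V ⊓ Subgroup.centralizer (A : Set X)).relIndex V)]
      exact hb
    exact Nat.le_of_mul_le_mul_right h5 hpos
  omega

end Cfsg.Agent.S3755
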