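import Cfsg.Statements.S3760
import Mathlib
import Cfsg.Agent.Lib.H18.Basic

set_option autoImplicit false
open Cfsg

namespace Cfsg.Agent.S3760

/-- Let the group G act transitively on a set X, let x ∈ X with stabilizer H = G_x, and let K ≤ H. Then N_G(K) acts transitively on the set of fixed points of K if and only if every G-conjugate of K contained in H is already an H-conjugate of K. -/
theorem result {G : Type*} [Group G] {X : Type*} [MulAction G X] (htrans : ∀ a b : X, ∃ g : G, g • a = b) (x : X) (K : Subgroup G) (hK : K ≤ MulAction.stabilizer G x) : (∀ a b : X, (∀ k ∈ K, k • a = a) → (∀ k ∈ K, k • b = b) → ∃ g ∈ Subgroup.normalizer (K : Set G), g • a = b) ↔ ∀ g : G, K.map (MulAut.conj g).toMonoidHom ≤ MulAction.stabilizer G x → ∃ h ∈ MulAction.stabilizer G x, K.map (MulAut.conj g).toMonoidHom = K.map (MulAut.conj h).toMonoidHom := by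
    classical
  constructor
  · intro h g hg
    have hfix : ∀ k ∈ K, k • (g⁻¹ • x) = g⁻¹ • x := by
      intro k hk
      have h1 : g * k * g⁻¹ ∈ MulAction.stabilizer G x := hg (Cfsg.Agent.H18.conj_mem_conj hk)
      have h2 : (g * k * g⁻¹) • x = x := h1
      calc k • (g⁻¹ • x) = g⁻¹ • ((g * k * g⁻¹) • x) := by simp [mul_smul]
        _ = g⁻¹ • x := by rw [h2]
    obtain ⟨n, hn, hnx⟩ := h x (g⁻¹ • x) (fun k hk => hK hk) hfix
    refine ⟨g * n, ?_, ?_⟩
    · change (g * n) • x = x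
      rw [mul_smul, hnx]; simp
    · rw [Cfsg.Agent.H18.map_conj_mul, Cfsg.Agent.H18.map_conj_eq_of_mem_normalizer hn]
  · intro h a b ha hb
    obtain ⟨g₁, rfl⟩ := htrans x a
    obtain ⟨g₂, rfl⟩ := htrans x b
    have key : ∀ g : G, (∀ k ∈ K, k • (g • x) = g • x) →
        ∃ h' ∈ MulAction.stabilizer G x, h'⁻¹ * g⁻¹ ∈ Subgroup.normalizer (K : Set G) := by
      intro g hg
      have hle : K.map (MulAut.conj g⁻¹).toMonoidHom ≤ MulAction.stabilizer G x := by
        rintro _ ⟨k, hk, rfl⟩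
        change (g⁻¹ * k * g⁻¹⁻¹) • x = x
        have := hg k hk
        simp only [inv_inv, mul_smul]
        rw [this]; simp
      obtain ⟨h', hh', e⟩ := h g⁻¹ hle
      refine ⟨h', hh', ?_⟩
      rw [Cfsg.Agent.H18.mem_normalizer_iff_map_conj, Cfsg.Agent.H18.map_conj_mul, e,
        Cfsg.Agent.H18.map_conj_map_conj_inv] 
    obtain ⟨h₁, hh₁, n₁⟩ := key g₁ ha
    obtain ⟨h₂, hh₂, n₂⟩ := key g₂ hb
    refine ⟨(h₂⁻¹ * g₂⁻¹)⁻¹ * (h₁⁻¹ * g₁⁻¹), Subgroup.mul_mem _ (Subgroup.inv_mem _ n₂) n₁, ?_⟩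
    have e1 : h₁⁻¹ • x = x := by
      have : h₁ • x = x := hh₁
      rw [inv_smul_eq_iff, this]
    have e2 : h₂ • x = x := hh₂
    simp only [mul_inv_rev, inv_inv, mul_smul, inv_smul_smul, smul_inv_smul, e1, e2]

end Cfsg.Agent.S3760
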