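import Cfsg.Statements.S3761
import Cfsg.Agent.Lib.H18.Roquette
-- import your own Cfsg.Agent.* helpers here

set_option autoImplicit false
open Cfsg

namespace Cfsg.Agent.S3761

open Subgroup

section Arith

variable {G : Type*} [Group G]

theorem conj_pow_act {g u : G} {k : ℕ} (h : g * u * g⁻¹ = u ^ k) (i : ℕ) :
    g * u ^ i * g⁻¹ = u ^ (k * i) := by
  rw [← conj_pow, h, ← pow_mul]

theorem act_mul {g h u : G} {k l : ℕ} (hg : g * u * g⁻¹ = u ^ k) (hh : h * u * h⁻¹ = u ^ l) :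
    (g * h) * u * (g * h)⁻¹ = u ^ (k * l) := by
  have : (g * h) * u * (g * h)⁻¹ = g * (h * u * h⁻¹) * g⁻¹ := by group
  rw [this, hh, conj_pow_act hg]

theorem act_pow {g u : G} {k : ℕ} (hg : g * u * g⁻¹ = u ^ k) (m : ℕ) :
    g ^ m * u * (g ^ m)⁻¹ = u ^ (k ^ m) := by
  induction m with
  | zero => simp
  | succ m ih =>
    rw [pow_succ g, act_mul ih hg, pow_succ]

theorem comm_of_act_one {g u : G} (h : g * u * g⁻¹ = u) : g * u = u * g := by
  calc g * u = g * u * g⁻¹ * g := by group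
    _ = u * g := by rw [h]

/-- Class-two power formula. -/
theorem pow_form_aux {x y w : G} (h : y * x = x * y * w) (hwy : Commute w y) (m : ℕ) :
    y ^ m * x = x * y ^ m * w ^ m := by
  induction m with
  | zero => simp
  | succ m ih =>
    have e1 : w ^ m * y = y * w ^ m := ((hwy.pow_left m).eq)
    calc y ^ (m + 1) * x = y ^ m * (y * x) := by rw [pow_succ]; group
      _ = (y ^ m * x) * y * w := by rw [h]; group
      _ = x * y ^ m * (w ^ m * y) * w := by rw [ih]; group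
      _ = x * y ^ (m + 1) * w ^ (m + 1) := by rw [e1, pow_succ, pow_succ]; group

theorem pow_form {x y w : G} (h : y * x = x * y * w) (hwx : Commute w x) (hwy : Commute w y)
    (m : ℕ) : (x * y) ^ m = x ^ m * y ^ m * w ^ (m.choose 2) := by
  induction m with
  | zero => simp
  | succ m ih =>
    have e1 : w ^ (m.choose 2) * (x * y) = (x * y) * w ^ (m.choose 2) :=
      ((hwx.pow_left _).mul_right (hwy.pow_left _)).eq
    have e2 : (m + 1).choose 2 = m + m.choose 2 := by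
      rw [Nat.choose_succ_succ' m 1, Nat.choose_one_right]
    have e3 := pow_form_aux h hwy m
    calc (x * y) ^ (m + 1) = x ^ m * y ^ m * (w ^ (m.choose 2) * (x * y)) := by
          rw [pow_succ, ih]; group
      _ = x ^ m * (y ^ m * x) * y * w ^ (m.choose 2) := by rw [e1]; group
      _ = x ^ m * x * y ^ m * (w ^ m * y) * w ^ (m.choose 2) := by rw [e3]; group
      _ = x ^ (m + 1) * y ^ (m + 1) * w ^ ((m + 1).choose 2) := by
          rw [((hwy.pow_left m).eq), e2, pow_add w, pow_succ, pow_succ]; group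

theorem exists_nat_of_mem [Finite G] {u y : G} (h : y ∈ zpowers u) : ∃ b : ℕ, y = u ^ b := by
  have h1 : y ∈ Submonoid.powers u := (mem_powers_iff_mem_zpowers).2 h
  obtain ⟨b, hb⟩ := Submonoid.mem_powers_iff _ _ |>.1 h1
  exact ⟨b, hb.symm⟩

end Arith

/-- The data. -/
structure Dat {G : Type*} [Group G] (p : ℕ) (u : G) (n : ℕ) : Prop where
  ho : orderOf u = p ^ n
  hex : ∀ g : G, ∃ k : ℕ, g * u * g⁻¹ = u ^ k
  hcen : ∀ g : G, g * u = u * g → g ∈ zpowers u

section Main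

variable {G : Type*} [Group G] [Finite G] {p : ℕ} [Fact p.Prime]
  {u : G} {n m : ℕ}

omit [Finite G] [Fact p.Prime] in
theorem Dat.pow_eq (D : Dat p u n) {a b : ℕ} : u ^ a = u ^ b ↔ a ≡ b [MOD p ^ n] := by
  rw [pow_eq_pow_iff_modEq, D.ho]

omit [Finite G] [Fact p.Prime] in
theorem Dat.pow_eq_one (D : Dat p u n) {a : ℕ} : u ^ a = 1 ↔ p ^ n ∣ a := by
  rw [orderOf_dvd_iff_pow_eq_one.symm, D.ho]

theorem Dat.exp_mod (hG : IsPGroup p G) (D : Dat p u n) (hn : 1 ≤ n) {g : G} {k : ℕ}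
    (hk : g * u * g⁻¹ = u ^ k) : k ≡ 1 [MOD p] := by
  have hpp : p.Prime := Fact.out
  obtain ⟨a, ha⟩ := hG g
  have h1 := act_pow hk (p ^ a)
  rw [ha, one_mul, inv_one, mul_one] at h1
  have h2 : 1 ≡ k ^ (p ^ a) [MOD p ^ n] := by
    have : u ^ 1 = u ^ (k ^ (p ^ a)) := by rw [pow_one]; exact h1
    exact D.pow_eq.1 this
  have h3 : 1 ≡ k ^ (p ^ a) [MOD p] := h2.of_dvd (dvd_pow_self p (by omega))
  have h4 : ((k ^ (p ^ a) : ℕ) : ZMod p) = 1 := by
    have := (ZMod.natCast_eq_natCast_iff _ _ _).2 h3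
    rw [← this]; simp
  have h5 : ((k : ℕ) : ZMod p) = 1 := by
    rw [Nat.cast_pow, ZMod.pow_card_pow] at h4
    exact h4
  have h6 : ((k : ℕ) : ZMod p) = ((1 : ℕ) : ZMod p) := by rw [h5]; simp
  exact (ZMod.natCast_eq_natCast_iff _ _ _).1 h6

/-- The centralizer of the `p`-th powers. -/
abbrev MM (p : ℕ) (u : G) : Subgroup G := centralizer (Cfsg.powerClosure p 1 (zpowers u) : Set G)

omit [Finite G] [Fact p.Prime] in
theorem mem_MM_iff {x : G} : x ∈ MM p u ↔ x * u ^ p = u ^ p * x := by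
  constructor
  · intro h
    have h1 : u ^ p ∈ Cfsg.powerClosure p 1 (zpowers u) :=
      Subgroup.subset_closure ⟨u, mem_zpowers u, by rw [pow_one]⟩
    exact (Subgroup.mem_centralizer_iff.1 h _ h1).symm
  · intro h
    rw [Subgroup.mem_centralizer_iff]
    intro y hy
    have hle : Cfsg.powerClosure p 1 (zpowers u) ≤ zpowers (u ^ p) := by
      rw [Cfsg.powerClosure, Subgroup.closure_le]
      rintro _ ⟨v, hv, rfl⟩
      obtain ⟨i, rfl⟩ := Subgroup.mem_zpowers_iff.1 hv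
      refine Subgroup.mem_zpowers_iff.2 ⟨i, ?_⟩
      rw [pow_one, ← zpow_natCast, ← zpow_natCast, ← zpow_mul, ← zpow_mul, mul_comm]
    obtain ⟨j, rfl⟩ := Subgroup.mem_zpowers_iff.1 (hle hy)
    have h2 : Commute x (u ^ p) := h
    exact (h2.zpow_right j).eq.symm

omit [Finite G] [Fact p.Prime] in
theorem MM_conj (D : Dat p u n) {x : G} (hx : x ∈ MM p u) (g : G) : g * x * g⁻¹ ∈ MM p u := by
  rw [mem_MM_iff] at hx ⊢
  obtain ⟨l, hl⟩ := D.hex g⁻¹
  have h1 : g⁻¹ * u ^ p * g = (u ^ p) ^ l := by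
    have := conj_pow_act hl p
    rw [inv_inv] at this
    rw [this, ← pow_mul, mul_comm]
  have h2 : Commute x ((u ^ p) ^ l) := Commute.pow_right hx l
  have h3 : g⁻¹ * u ^ p = (u ^ p) ^ l * g⁻¹ := by
    rw [← h1]; group
  have h4 : u ^ p * g = g * (u ^ p) ^ l := by
    rw [← h1]; group
  calc g * x * g⁻¹ * u ^ p = g * x * (g⁻¹ * u ^ p) := by group
    _ = g * (x * (u ^ p) ^ l) * g⁻¹ := by rw [h3]; group
    _ = g * ((u ^ p) ^ l * x) * g⁻¹ := by rw [h2.eq]
    _ = (g * (u ^ p) ^ l) * (x * g⁻¹) := by group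
    _ = u ^ p * (g * x * g⁻¹) := by rw [← h4]; group

/-- The element of order `p` of `⟨u⟩`. -/
abbrev zz (p m : ℕ) (u : G) : G := u ^ (p ^ (m + 1))

omit [Finite G] [Fact p.Prime] in
theorem zz_pow (D : Dat p u (m + 2)) : zz p m u ^ p = 1 := by
  rw [zz, ← pow_mul, ← pow_succ, D.pow_eq_one]

omit [Finite G] [Fact p.Prime] in
theorem zz_pow_eq_one (D : Dat p u (m + 2)) (hp : 0 < p) {j : ℕ} : zz p m u ^ j = 1 ↔ p ∣ j := by
  rw [zz, ← pow_mul, D.pow_eq_one, pow_succ p (m + 1)]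
  exact Nat.mul_dvd_mul_iff_left (pow_pos hp _)

omit [Finite G] [Fact p.Prime] in
theorem zz_comm (u : G) : Commute u (zz p m u) := (Commute.refl u).pow_right _

omit [Finite G] [Fact p.Prime] in
theorem M_of_zz (D : Dat p u (m + 2)) {x : G} {c : ℕ} (h : x * u * x⁻¹ = u * zz p m u ^ c) :
    x ∈ MM p u := by
  rw [mem_MM_iff]
  have h1 : x * u ^ p * x⁻¹ = u ^ p := by
    rw [← conj_pow, h, ((zz_comm (p := p) (m := m) u).pow_right c).mul_pow, ← pow_mul,
      mul_comm c p, pow_mul, zz_pow D, one_pow, mul_one]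
  exact comm_of_act_one h1

omit [Finite G] [Fact p.Prime] in
theorem M_of_exp (D : Dat p u (m + 2)) {x : G} {k : ℕ} (hk : x * u * x⁻¹ = u ^ k)
    (h : k ≡ 1 [MOD p ^ (m + 1)]) : x ∈ MM p u := by
  rw [mem_MM_iff]
  have h1 : x * u ^ p * x⁻¹ = u ^ p := by
    rw [conj_pow_act hk]
    have h2 : k * p ≡ 1 * p [MOD p ^ (m + 1) * p] := h.mul_right' p
    rw [← pow_succ] at h2
    rw [one_mul] at h2
    exact D.pow_eq.2 h2
  exact comm_of_act_one h1

theorem exp_of_M (hG : IsPGroup p G) (D : Dat p u (m + 2)) {x : G} {k : ℕ}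
    (hk : x * u * x⁻¹ = u ^ k) (hx : x ∈ MM p u) : k ≡ 1 [MOD p ^ (m + 1)] := by
  have hpp : p.Prime := Fact.out
  rw [mem_MM_iff] at hx
  have h1 : u ^ (k * p) = u ^ (1 * p) := by
    rw [← conj_pow_act hk, hx, one_mul]
    group
  have h2 := D.pow_eq.1 h1
  rw [pow_succ p (m + 1)] at h2
  exact Nat.ModEq.mul_right_cancel' hpp.ne_zero h2

theorem zz_of_M (hG : IsPGroup p G) (D : Dat p u (m + 2)) {x : G} (hx : x ∈ MM p u) :
    ∃ c : ℕ, x * u * x⁻¹ = u * zz p m u ^ c := by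
  have hpp : p.Prime := Fact.out
  obtain ⟨k, hk⟩ := D.hex x
  have h1 := exp_of_M hG D hk hx
  have h2 := D.exp_mod hG (by omega) hk
  have hk1 : 1 ≤ k := by
    rcases Nat.eq_zero_or_pos k with h0 | h0
    · exfalso
      rw [h0] at h2
      have h3 : p ∣ 1 := by
        have := (Nat.modEq_zero_iff_dvd (n := p) (a := 1)).1 h2.symm
        exact this
      exact hpp.one_lt.ne' (Nat.dvd_one.1 h3)
    · exact h0
  obtain ⟨c, hc⟩ := (Nat.modEq_iff_dvd' hk1).1 h1.symm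
  refine ⟨c, ?_⟩
  have h3 : k = 1 + p ^ (m + 1) * c := by omega
  rw [hk, h3, pow_add, pow_one, pow_mul]

omit [Finite G] [Fact p.Prime] in
theorem U_le_M : zpowers u ≤ MM p u := by
  rw [zpowers_le, mem_MM_iff]
  exact (Commute.refl u).pow_right p

omit [Finite G] [Fact p.Prime] in
theorem not_dvd_c (D : Dat p u (m + 2)) (hp : 0 < p) {x : G} {c : ℕ}
    (hc : x * u * x⁻¹ = u * zz p m u ^ c) (hx : x ∉ zpowers u) : ¬ p ∣ c := by
  intro h
  apply hx
  apply D.hcen
  apply comm_of_act_one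
  rw [hc, (zz_pow_eq_one D hp).2 h, mul_one]

omit [Finite G] [Fact p.Prime] in
theorem zz_comm_of_act (D : Dat p u (m + 2)) {x : G} {c : ℕ}
    (hc : x * u * x⁻¹ = u * zz p m u ^ c) : Commute x (zz p m u) := by
  have h1 : x * zz p m u * x⁻¹ = zz p m u := by
    rw [zz, ← conj_pow, hc, ((zz_comm (p := p) (m := m) u).pow_right c).mul_pow]
    have h2 : (zz p m u ^ c) ^ p ^ (m + 1) = 1 := by
      calc (zz p m u ^ c) ^ p ^ (m + 1) = zz p m u ^ (c * p ^ (m + 1)) := (pow_mul _ _ _).symm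
        _ = zz p m u ^ (p * (c * p ^ m)) := by
            rw [show c * p ^ (m + 1) = p * (c * p ^ m) by rw [pow_succ]; ring]
        _ = (zz p m u ^ p) ^ (c * p ^ m) := pow_mul _ _ _
        _ = 1 := by rw [zz_pow D, one_pow]
    rw [h2, mul_one]
  exact comm_of_act_one h1

omit [Finite G] [Fact p.Prime] in
theorem act_iter {x z : G} {c : ℕ} (hc : x * u * x⁻¹ = u * z ^ c) (hxz : Commute x z) (i : ℕ) :
    x ^ i * u * (x ^ i)⁻¹ = u * z ^ (c * i) := by
  induction i with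
  | zero => simp
  | succ i ih =>
    have h1 : x ^ (i + 1) * u * (x ^ (i + 1))⁻¹ = x ^ i * (x * u * x⁻¹) * (x ^ i)⁻¹ := by
      rw [pow_succ]; group
    have h2 : x ^ i * z ^ c * (x ^ i)⁻¹ = z ^ c := by
      have := ((hxz.pow_left i).pow_right c).eq
      rw [this]; group
    rw [h1, hc]
    calc x ^ i * (u * z ^ c) * (x ^ i)⁻¹ = (x ^ i * u * (x ^ i)⁻¹) * (x ^ i * z ^ c * (x ^ i)⁻¹) := by group
      _ = u * z ^ (c * (i + 1)) := by rw [ih, h2, mul_assoc, ← pow_add, mul_add, mul_one]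

omit [Finite G] [Fact p.Prime] in
/-- Powers of an element of the centralizer. -/
theorem form (D : Dat p u (m + 2)) {x : G} {c : ℕ} (hc : x * u * x⁻¹ = u * zz p m u ^ c) (b j : ℕ) :
    (x * u ^ b) ^ j = x ^ j * u ^ (b * j) * ((zz p m u ^ (c * b))⁻¹) ^ (j.choose 2) := by
  have hxz := zz_comm_of_act D hc
  have h0 : x * u ^ b * x⁻¹ = u ^ b * zz p m u ^ (c * b) := by
    rw [← conj_pow, hc, ((zz_comm (p := p) (m := m) u).pow_right c).mul_pow, ← pow_mul]
  have hcz : Commute x (zz p m u ^ (c * b)) := hxz.pow_right _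
  have h1 : u ^ b * x = x * u ^ b * (zz p m u ^ (c * b))⁻¹ := by
    calc u ^ b * x = (u ^ b * zz p m u ^ (c * b)) * (x * (zz p m u ^ (c * b))⁻¹) := by
          rw [(hcz.inv_right).eq]; group
      _ = x * u ^ b * (zz p m u ^ (c * b))⁻¹ := by rw [← h0]; group
  have h2 : Commute ((zz p m u ^ (c * b))⁻¹) x := hcz.inv_right.symm
  have h3 : Commute ((zz p m u ^ (c * b))⁻¹) (u ^ b) :=
    (((zz_comm (p := p) (m := m) u).pow_right _).inv_right.pow_left b).symm
  rw [pow_form h1 h2 h3 j, ← pow_mul]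

omit [Finite G] in
theorem form_odd (D : Dat p u (m + 2)) (hp2 : p ≠ 2) {x : G} {c : ℕ}
    (hc : x * u * x⁻¹ = u * zz p m u ^ c) (b : ℕ) :
    (x * u ^ b) ^ p = x ^ p * u ^ (b * p) := by
  have hpp : p.Prime := Fact.out
  have h2p : 2 < p := lt_of_le_of_ne hpp.two_le (Ne.symm hp2)
  rw [form D hc b p]
  obtain ⟨e, he⟩ := hpp.dvd_choose_self (k := 2) (by norm_num) h2p
  have h3 : ((zz p m u ^ (c * b))⁻¹) ^ (p * e) = 1 := by
    rw [inv_pow, ← pow_mul, (zz_pow_eq_one D hpp.pos).2 ⟨c * b * e, by ring⟩, inv_one]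
  rw [he, h3, mul_one]

theorem pow_in_U (D : Dat p u (m + 2)) {t : G} {c : ℕ} (hc : t * u * t⁻¹ = u * zz p m u ^ c)
    (ht : t ∉ zpowers u) : ∃ i : ℕ, t ^ p = u ^ (p * i) := by
  have hpp : p.Prime := Fact.out
  have hxz := zz_comm_of_act D hc
  have hcp := not_dvd_c D hpp.pos hc ht
  have h1 := act_iter hc hxz p
  have h2 : t ^ p ∈ zpowers u := by
    apply D.hcen
    apply comm_of_act_one
    rw [h1, mul_comm c p, pow_mul, zz_pow D, one_pow, mul_one]
  obtain ⟨e, he⟩ := exists_nat_of_mem h2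
  have h3 : t * u ^ e * t⁻¹ = u ^ e := by
    rw [← he]
    rw [(Commute.refl t).pow_right p |>.eq]
    group
  have h4 : t * u ^ e * t⁻¹ = u ^ e * zz p m u ^ (c * e) := by
    rw [← conj_pow, hc, ((zz_comm (p := p) (m := m) u).pow_right c).mul_pow, ← pow_mul]
  rw [h3] at h4
  have h5 : zz p m u ^ (c * e) = 1 := by
    have := mul_left_cancel (a := u ^ e) (b := 1) (c := zz p m u ^ (c * e)) (by rw [mul_one]; exact h4)
    exact this.symm
  have h6 := (zz_pow_eq_one D hpp.pos).1 h5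
  have h7 : p ∣ e := (hpp.dvd_mul.1 h6).resolve_left hcp
  obtain ⟨i, rfl⟩ := h7
  exact ⟨i, he⟩

/-- An element of order `p` outside `⟨u⟩`. -/
theorem exists_tp (D : Dat p u (m + 2)) (hpm : p ≠ 2 ∨ 1 ≤ m) {t : G} {c : ℕ}
    (hc : t * u * t⁻¹ = u * zz p m u ^ c) (ht : t ∉ zpowers u) :
    ∃ t' : G, t' ∈ MM p u ∧ t' ∉ zpowers u ∧ t' ^ p = 1 := by
  have hpp : p.Prime := Fact.out
  have hcp := not_dvd_c D hpp.pos hc ht
  have htM : t ∈ MM p u := M_of_zz D hc
  have hU : ∀ b : ℕ, t * u ^ b ∈ MM p u ∧ t * u ^ b ∉ zpowers u := by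
    intro b
    refine ⟨(MM p u).mul_mem htM (U_le_M ((zpowers u).pow_mem (mem_zpowers u) b)), ?_⟩
    intro h
    apply ht
    have := (zpowers u).mul_mem h ((zpowers u).inv_mem ((zpowers u).pow_mem (mem_zpowers u) b))
    simpa using this
  obtain ⟨i, hi⟩ := pow_in_U D hc ht
  have hN : p ^ (m + 2) ≠ 0 := (pow_pos hpp.pos _).ne'
  have hN1 : 1 ≤ p ^ (m + 2) := pow_pos hpp.pos _
  have hb0 : u ^ (((p ^ (m + 2) - 1) * i) * p) * u ^ (p * i) = 1 := by
    rw [← pow_add, D.pow_eq_one]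
    refine ⟨p * i, ?_⟩
    obtain ⟨N, hNe⟩ : ∃ N, p ^ (m + 2) = N + 1 := ⟨p ^ (m + 2) - 1, by omega⟩
    rw [hNe, Nat.add_sub_cancel]
    ring
  by_cases hp2 : p = 2
  · subst hp2
    have hm : 1 ≤ m := hpm.resolve_left (by norm_num)
    have hcodd : Odd c := by
      rw [← Nat.not_even_iff_odd, even_iff_two_dvd]; exact hcp
    rcases Nat.even_or_odd i with hie | hio
    · refine ⟨t * u ^ ((2 ^ (m + 2) - 1) * i), (hU _).1, (hU _).2, ?_⟩
      rw [form D hc]
      have h1 : zz 2 m u ^ (c * ((2 ^ (m + 2) - 1) * i)) = 1 := by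
        rw [zz_pow_eq_one D (by norm_num)]
        rw [even_iff_two_dvd] at hie
        exact Dvd.dvd.mul_left (Dvd.dvd.mul_left hie _) _
      rw [h1, inv_one, one_pow, mul_one, hi, ← ((Commute.refl u).pow_pow _ _).eq]
      exact hb0
    · obtain ⟨m', rfl⟩ : ∃ m', m = m' + 1 := ⟨m - 1, by omega⟩
      refine ⟨t * u ^ ((2 ^ (m' + 1 + 2) - 1) * i + 2 ^ (m' + 1)), (hU _).1, (hU _).2, ?_⟩
      rw [form D hc]
      set b := (2 ^ (m' + 1 + 2) - 1) * i + 2 ^ (m' + 1) with hb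
      have hboddb : Odd b := by
        rw [hb]
        apply Odd.add_even
        · apply Odd.mul _ hio
          have : 1 ≤ 2 ^ (m' + 1 + 2) := hN1
          rw [Nat.odd_sub this]
          simp [Nat.even_pow]
        · exact (Nat.even_pow.2 ⟨even_two, by omega⟩)
      have hzb : zz 2 (m' + 1) u ^ (c * b) = zz 2 (m' + 1) u := by
        obtain ⟨e, he⟩ := hcodd.mul hboddb
        rw [he, pow_succ, pow_mul, ((zz_pow_eq_one D (by norm_num)).2 (dvd_refl 2)), one_pow,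
          one_mul]
      have hzi : (zz 2 (m' + 1) u)⁻¹ = zz 2 (m' + 1) u := by
        rw [inv_eq_iff_mul_eq_one, ← sq]; exact (zz_pow_eq_one D (by norm_num)).2 (dvd_refl 2)
      have hch : Nat.choose 2 2 = 1 := by norm_num
      rw [hzb, hch, pow_one, hzi, hi]
      have h3 : u ^ (b * 2) = u ^ (((2 ^ (m' + 1 + 2) - 1) * i) * 2) * zz 2 (m' + 1) u := by
        rw [zz, ← pow_add, hb]
        congr 1
        ring
      have h4 : Commute (u ^ (((2 ^ (m' + 1 + 2) - 1) * i) * 2)) (u ^ (2 * i)) :=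
        (Commute.refl u).pow_pow _ _
      rw [h3]
      have h5 : zz 2 (m' + 1) u * zz 2 (m' + 1) u = 1 := by
        rw [← sq]; exact (zz_pow_eq_one D (by norm_num)).2 (dvd_refl 2)
      calc u ^ (2 * i) * (u ^ (((2 ^ (m' + 1 + 2) - 1) * i) * 2) * zz 2 (m' + 1) u) * zz 2 (m' + 1) u
          = (u ^ (2 * i) * u ^ (((2 ^ (m' + 1 + 2) - 1) * i) * 2)) * (zz 2 (m' + 1) u * zz 2 (m' + 1) u) := by
            simp only [mul_assoc]
        _ = (u ^ (((2 ^ (m' + 1 + 2) - 1) * i) * 2) * u ^ (2 * i)) * (zz 2 (m' + 1) u * zz 2 (m' + 1) u) := by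
            rw [← h4.eq]
        _ = 1 := by rw [hb0, h5, one_mul]
  · refine ⟨t * u ^ ((p ^ (m + 2) - 1) * i), (hU _).1, (hU _).2, ?_⟩
    rw [form_odd D hp2 hc, hi, ← ((Commute.refl u).pow_pow _ _).eq, hb0]

omit [Finite G] [Fact p.Prime] in
theorem mem_of_pow_mem {t : G} {K : Subgroup G} {a : ℕ} (hp : p.Prime) (h1 : t ^ p = 1)
    (hpa : ¬ p ∣ a) (h : t ^ a ∈ K) : t ∈ K := by
  have hco : Nat.Coprime a p := ((Nat.Prime.coprime_iff_not_dvd hp).2 hpa).symm
  obtain ⟨s, -, hs⟩ := Nat.exists_mul_mod_eq_one_of_coprime hco hp.one_lt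
  have h2 : t = (t ^ a) ^ s := by
    rw [← pow_mul, pow_eq_pow_mod _ h1, hs, pow_one]
  rw [h2]
  exact K.pow_mem h s

/-- Every element of the centralizer is a power of `t'` times a power of `u`. -/
theorem decomp (hG : IsPGroup p G) (D : Dat p u (m + 2)) {t' : G} (ht'M : t' ∈ MM p u)
    (ht' : t' ∉ zpowers u) {x : G} (hx : x ∈ MM p u) : ∃ a b : ℕ, x = t' ^ a * u ^ b := by
  classical
  have hpp : p.Prime := Fact.out
  haveI : NeZero p := ⟨hpp.ne_zero⟩
  obtain ⟨c', hc'⟩ := zz_of_M hG D ht'M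
  obtain ⟨c, hc⟩ := zz_of_M hG D hx
  have hc'p := not_dvd_c D hpp.pos hc' ht'
  have hxz' := zz_comm_of_act D hc'
  have hc'0 : ((c' : ℕ) : ZMod p) ≠ 0 := by
    rw [Ne, ZMod.natCast_eq_zero_iff]; exact hc'p
  let a : ℕ := (((c : ℕ) : ZMod p) * ((c' : ℕ) : ZMod p)⁻¹).val
  have ha : c' * a ≡ c [MOD p] := by
    rw [← ZMod.natCast_eq_natCast_iff]
    push_cast
    rw [ZMod.natCast_val, ZMod.cast_id', id]
    field_simp
  have h1 := act_iter hc' hxz' a
  have h2 : zz p m u ^ (c' * a) = zz p m u ^ c := by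
    rw [pow_eq_pow_iff_modEq]
    have : orderOf (zz p m u) = p := by
      apply orderOf_eq_prime (zz_pow D)
      intro h
      have := (zz_pow_eq_one (j := 1) D hpp.pos).2
      have h3 : zz p m u ^ 1 = 1 := by rw [pow_one]; exact h
      have h4 := (zz_pow_eq_one (j := 1) D hpp.pos).1 h3
      exact hpp.one_lt.ne' (Nat.dvd_one.1 h4)
    rw [this]
    exact ha
  have h3 : (t' ^ a)⁻¹ * x ∈ zpowers u := by
    apply D.hcen
    apply comm_of_act_one
    have e : (t' ^ a)⁻¹ * x * u * ((t' ^ a)⁻¹ * x)⁻¹ = (t' ^ a)⁻¹ * (x * u * x⁻¹) * t' ^ a := by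
      group
    rw [e, hc, ← h2, ← h1]
    group
  obtain ⟨b, hb⟩ := exists_nat_of_mem h3
  refine ⟨a, b, ?_⟩
  rw [← hb]
  group

/-- Elements of exponent `p` in the centralizer. -/
theorem sub_F (hG : IsPGroup p G) (D : Dat p u (m + 2)) (hpm : p ≠ 2 ∨ 1 ≤ m) {t' : G}
    (ht'M : t' ∈ MM p u) (ht' : t' ∉ zpowers u) (ht'p : t' ^ p = 1) {x : G} (hx : x ∈ MM p u)
    (hxp : x ^ p = 1) : ∃ a j : ℕ, x = t' ^ a * zz p m u ^ j := by
  have hpp : p.Prime := Fact.out
  obtain ⟨a, b, rfl⟩ := decomp hG D ht'M ht' hx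
  have hyM : t' ^ a ∈ MM p u := (MM p u).pow_mem ht'M a
  obtain ⟨c, hc⟩ := zz_of_M hG D hyM
  have hyp : (t' ^ a) ^ p = 1 := by rw [pow_right_comm, ht'p, one_pow]
  suffices hb : p ^ (m + 1) ∣ b by
    obtain ⟨j, rfl⟩ := hb
    exact ⟨a, j, by rw [zz, pow_mul]⟩
  by_cases hp2 : p = 2
  · subst hp2
    have hm : 1 ≤ m := hpm.resolve_left (by norm_num)
    rw [form D hc, hyp, one_mul] at hxp
    have hch : Nat.choose 2 2 = 1 := by norm_num
    rw [hch, pow_one] at hxp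
    have h1 : u ^ (b * 2) = zz 2 m u ^ (c * b) := by
      rw [mul_inv_eq_one] at hxp; exact hxp
    have h2 : u ^ (b * 4) = 1 := by
      have : u ^ (b * 4) = u ^ (b * 2) * u ^ (b * 2) := by rw [← pow_add]; congr 1; ring
      rw [this, h1, ← pow_add, zz_pow_eq_one D (by norm_num)]
      exact ⟨c * b, by ring⟩
    have h3 : 2 ^ (m + 2) ∣ b * 4 := D.pow_eq_one.1 h2
    have h4 : 2 ^ m ∣ b := by
      have : 2 ^ m * 4 ∣ b * 4 := by
        have e : 2 ^ (m + 2) = 2 ^ m * 4 := by ring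
        rwa [e] at h3
      exact Nat.dvd_of_mul_dvd_mul_right (by norm_num) this
    have h5 : 2 ∣ b := (dvd_pow_self 2 (by omega)).trans h4
    have h6 : zz 2 m u ^ (c * b) = 1 := (zz_pow_eq_one D (by norm_num)).2 (Dvd.dvd.mul_left h5 c)
    rw [h6] at h1
    have h7 := D.pow_eq_one.1 h1
    rw [pow_succ 2 (m + 1)] at h7
    exact Nat.dvd_of_mul_dvd_mul_right (by norm_num) h7
  · rw [form_odd D hp2 hc, hyp, one_mul] at hxp
    have h7 := D.pow_eq_one.1 hxp
    rw [pow_succ p (m + 1)] at h7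
    exact Nat.dvd_of_mul_dvd_mul_right hpp.pos h7

omit [Finite G] [Fact p.Prime] in
theorem U_normal (D : Dat p u n) : (zpowers u).Normal := by
  constructor
  intro y hy g
  obtain ⟨i, rfl⟩ := Subgroup.mem_zpowers_iff.1 hy
  obtain ⟨k, hk⟩ := D.hex g
  rw [← conj_zpow, hk]
  exact zpow_mem (pow_mem (mem_zpowers u) k) i

omit [Finite G] [Fact p.Prime] in
theorem zz_normal (D : Dat p u (m + 2)) : (zpowers (zz p m u)).Normal := by
  constructor
  intro y hy g
  obtain ⟨i, rfl⟩ := Subgroup.mem_zpowers_iff.1 hy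
  obtain ⟨k, hk⟩ := D.hex g
  rw [← conj_zpow]
  have h1 : g * zz p m u * g⁻¹ = zz p m u ^ k := by
    rw [zz, conj_pow_act hk, ← pow_mul, mul_comm]
  rw [h1]
  exact zpow_mem (pow_mem (mem_zpowers _) k) i

omit [Fact p.Prime] in
theorem inf_bot_of {t : G} {K : Subgroup G} (hp : p.Prime) (h1 : t ^ p = 1) (ht : t ∉ K) :
    K ⊓ zpowers t = ⊥ := by
  rw [Subgroup.eq_bot_iff_forall]
  rintro y ⟨hyK, hy⟩
  obtain ⟨a, rfl⟩ := exists_nat_of_mem hy
  by_cases hpa : p ∣ a
  · obtain ⟨e, rfl⟩ := hpa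
    rw [pow_mul, h1, one_pow]
  · exact absurd (mem_of_pow_mem hp h1 hpa hyK) ht

omit [Finite G] [Fact p.Prime] in
theorem card_of_relIndex {K F : Subgroup G} (h : K ≤ F) :
    Nat.card F = Nat.card K * K.relIndex F := by
  have h1 := Subgroup.card_mul_index (K.subgroupOf F)
  rw [Nat.card_congr (Subgroup.subgroupOfEquivOfLe h).toEquiv] at h1
  exact h1.symm

/-- Normal subgroups of exponent `p` lie in `Ω₁`. -/
theorem normal_le (D : Dat p u (m + 2)) {K : Subgroup G} [K.Normal] (hK : ∀ x ∈ K, x ^ p = 1) :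
    K ≤ Cfsg.omegaOne p (MM p u) := by
  have hpp : p.Prime := Fact.out
  intro x hx
  refine Subgroup.subset_closure ⟨?_, hK x hx⟩
  obtain ⟨k, hk⟩ := D.hex x
  have h1 : x * u * x⁻¹ * u⁻¹ ∈ K := by
    have : x * u * x⁻¹ * u⁻¹ = x * (u * x⁻¹ * u⁻¹) := by group
    rw [this]
    exact K.mul_mem hx (Subgroup.Normal.conj_mem ‹_› _ (K.inv_mem hx) u)
  have h2 : x * u * x⁻¹ * u⁻¹ ∈ zpowers u := by
    rw [hk]
    exact (zpowers u).mul_mem (pow_mem (mem_zpowers u) k) (inv_mem (mem_zpowers u))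
  obtain ⟨b, hb⟩ := exists_nat_of_mem h2
  have h3 := hK _ h1
  rw [hb, ← pow_mul, D.pow_eq_one, pow_succ p (m + 1)] at h3
  obtain ⟨j, rfl⟩ := Nat.dvd_of_mul_dvd_mul_right hpp.pos h3
  have h4 : x * u * x⁻¹ = u * zz p m u ^ j := by
    have h5 : x * u * x⁻¹ = u ^ (p ^ (m + 1) * j) * u := by
      rw [← hb]; group
    rw [h5, zz, ← pow_mul, ← ((Commute.refl u).pow_right _).eq]
  exact M_of_zz D h4

/-- The main case. -/
theorem right_case (hG : IsPGroup p G) (D : Dat p u (m + 2)) (hpm : p ≠ 2 ∨ 1 ≤ m) {t : G}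
    (htM : t ∈ MM p u) (ht : t ∉ zpowers u) :
    (zpowers u).relIndex (MM p u) = p ∧
      Cfsg.IsElementaryAbelian p (Cfsg.omegaOne p (MM p u)) ∧
      Nat.card ↥(Cfsg.omegaOne p (MM p u)) = p ^ 2 ∧
      (Cfsg.omegaOne p (MM p u)).Characteristic := by
  have hpp : p.Prime := Fact.out
  obtain ⟨c, hc⟩ := zz_of_M hG D htM
  obtain ⟨t', ht'M, ht', ht'p⟩ := exists_tp D hpm hc ht
  haveI := U_normal D
  haveI := zz_normal D
  have ht'1 : t' ≠ 1 := by
    rintro rfl
    exact ht' (one_mem _)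
  have hot' : orderOf t' = p := orderOf_eq_prime ht'p ht'1
  have hM : MM p u = zpowers t' ⊔ zpowers u := by
    apply le_antisymm
    · intro x hx
      obtain ⟨a, b, rfl⟩ := decomp hG D ht'M ht' hx
      exact Subgroup.mul_mem _ (Subgroup.mem_sup_left (pow_mem (mem_zpowers t') a))
        (Subgroup.mem_sup_right (pow_mem (mem_zpowers u) b))
    · exact sup_le (zpowers_le.2 ht'M) U_le_M
  have hzU : zpowers (zz p m u) ≤ zpowers u := zpowers_le.2 (pow_mem (mem_zpowers u) _)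
  have hz1 : zz p m u ≠ 1 := by
    intro h
    have h3 : zz p m u ^ 1 = 1 := by rw [pow_one]; exact h
    have h4 := (zz_pow_eq_one (j := 1) D hpp.pos).1 h3
    exact hpp.one_lt.ne' (Nat.dvd_one.1 h4)
  have hoz : orderOf (zz p m u) = p := orderOf_eq_prime (zz_pow D) hz1
  have hidx : (zpowers u).relIndex (MM p u) = p := by
    rw [hM, Subgroup.relIndex_sup_right, ← Subgroup.inf_relIndex_right,
      inf_bot_of hpp ht'p ht', Subgroup.relIndex_bot_left, Nat.card_zpowers, hot']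
  have hzt : Commute t' (zz p m u) := by
    obtain ⟨c', hc'⟩ := zz_of_M hG D ht'M
    exact zz_comm_of_act D hc'
  set E := Cfsg.omegaOne p (MM p u) with hE
  have hzM : zz p m u ∈ MM p u := U_le_M (pow_mem (mem_zpowers u) _)
  have hEF : E = zpowers t' ⊔ zpowers (zz p m u) := by
    apply le_antisymm
    · rw [hE, Cfsg.omegaOne, Subgroup.closure_le]
      rintro x ⟨hx, hxp⟩
      obtain ⟨a, j, rfl⟩ := sub_F hG D hpm ht'M ht' ht'p hx hxp
      exact Subgroup.mul_mem _ (Subgroup.mem_sup_left (pow_mem (mem_zpowers t') a))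
        (Subgroup.mem_sup_right (pow_mem (mem_zpowers _) j))
    · apply sup_le
      · exact zpowers_le.2 (Subgroup.subset_closure ⟨ht'M, ht'p⟩)
      · exact zpowers_le.2 (Subgroup.subset_closure ⟨hzM, zz_pow D⟩)
  have hform : ∀ f ∈ E, ∃ i j : ℤ, f = t' ^ i * zz p m u ^ j := by
    intro f hf
    rw [hEF] at hf
    have h1 : f ∈ ((zpowers t' ⊔ zpowers (zz p m u) : Subgroup G) : Set G) := hf
    rw [Subgroup.mul_normal, Set.mem_mul] at h1
    obtain ⟨a, ha, b, hb, rfl⟩ := h1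
    obtain ⟨i, rfl⟩ := Subgroup.mem_zpowers_iff.1 ha
    obtain ⟨j, rfl⟩ := Subgroup.mem_zpowers_iff.1 hb
    exact ⟨i, j, rfl⟩
  have hexp : ∀ a ∈ E, a ^ p = 1 := by
    intro a ha
    obtain ⟨i, j, rfl⟩ := hform a ha
    rw [((hzt.zpow_zpow i j)).mul_pow, ← zpow_natCast, ← zpow_natCast, ← zpow_mul, ← zpow_mul,
      mul_comm i, mul_comm j, zpow_mul, zpow_mul, zpow_natCast, zpow_natCast, ht'p, zz_pow D,
      one_zpow, one_zpow, one_mul]
  have hElem : Cfsg.IsElementaryAbelian p E := by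
    refine ⟨isMulCommutative_iff.2 ?_, hexp⟩
    rintro ⟨a, ha⟩ ⟨b, hb⟩
    apply Subtype.ext
    obtain ⟨i, j, rfl⟩ := hform a ha
    obtain ⟨i', j', rfl⟩ := hform b hb
    show t' ^ i * zz p m u ^ j * (t' ^ i' * zz p m u ^ j') = t' ^ i' * zz p m u ^ j' * (t' ^ i * zz p m u ^ j)
    have h1 : Commute (t' ^ i * zz p m u ^ j) (t' ^ i' * zz p m u ^ j') := by
      apply Commute.mul_left
      · exact Commute.mul_right ((Commute.refl t').zpow_zpow _ _) (hzt.zpow_zpow _ _)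
      · exact Commute.mul_right (hzt.zpow_zpow _ _).symm ((Commute.refl _).zpow_zpow _ _)
    exact h1.eq
  have hcard : Nat.card E = p ^ 2 := by
    rw [hEF, card_of_relIndex (le_sup_right : zpowers (zz p m u) ≤ _), Subgroup.relIndex_sup_right,
      ← Subgroup.inf_relIndex_right,
      inf_bot_of hpp ht'p (fun h => ht' (hzU h)), Subgroup.relIndex_bot_left, Nat.card_zpowers,
      Nat.card_zpowers, hot', hoz, sq]
  have hEnorm : E.Normal := by
    constructor
    intro x hx g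
    rw [hE, Cfsg.omegaOne] at hx ⊢
    induction hx using Subgroup.closure_induction with
    | mem x hx =>
      refine Subgroup.subset_closure ⟨MM_conj D hx.1 g, ?_⟩
      rw [conj_pow, hx.2]
      group
    | one => simp
    | mul a b _ _ ha hb =>
      have : g * (a * b) * g⁻¹ = (g * a * g⁻¹) * (g * b * g⁻¹) := by group
      rw [this]
      exact Subgroup.mul_mem _ ha hb
    | inv a _ ha =>
      have : g * a⁻¹ * g⁻¹ = (g * a * g⁻¹)⁻¹ := by group
      rw [this]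
      exact Subgroup.inv_mem _ ha
  refine ⟨hidx, hElem, hcard, ?_⟩
  rw [Subgroup.characteristic_iff_map_le]
  intro φ
  haveI : (E.map φ.toMonoidHom).Normal := hEnorm.map _ φ.surjective
  apply normal_le D
  rintro _ ⟨x, hx, rfl⟩
  rw [← map_pow, hexp x hx, map_one]

theorem exists_pow_step' (hG : IsPGroup p G) (A : Subgroup G) (t : G) (ht : t ∉ A) :
    ∃ i : ℕ, t ^ (p ^ i) ∉ A ∧ (t ^ (p ^ i)) ^ p ∈ A := by
  classical
  obtain ⟨l, hl⟩ := hG t
  have hex : ∃ i : ℕ, t ^ (p ^ i) ∈ A := ⟨l, by rw [hl]; exact A.one_mem⟩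
  have hne : Nat.find hex ≠ 0 := by
    intro h0
    have := Nat.find_spec hex
    rw [h0] at this
    simp at this
    exact ht this
  obtain ⟨i, hi⟩ := Nat.exists_eq_succ_of_ne_zero hne
  refine ⟨i, ?_, ?_⟩
  · exact Nat.find_min hex (by omega)
  · have := Nat.find_spec hex
    rw [hi, pow_succ, pow_mul] at this
    exact this

/-- Odd primes: the centralizer is bigger than `⟨u⟩`. -/
theorem exists_M_odd (hG : IsPGroup p G) (D : Dat p u (m + 2)) (hp2 : p ≠ 2) {g : G}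
    (hg : g ∉ zpowers u) : ∃ t ∈ MM p u, t ∉ zpowers u := by
  have hpp : p.Prime := Fact.out
  obtain ⟨i, h1, h2⟩ := exists_pow_step' hG (zpowers u) g hg
  refine ⟨_, ?_, h1⟩
  set h := g ^ (p ^ i) with hh
  obtain ⟨k, hk⟩ := D.hex h
  have hcom : h ^ p * u = u * h ^ p := by
    obtain ⟨e, he⟩ := exists_nat_of_mem h2
    rw [he]
    exact ((Commute.refl u).pow_left e).eq
  have h3 : h ^ p * u * (h ^ p)⁻¹ = u := by
    rw [hcom]; group
  have h4 := act_pow hk p
  rw [h3] at h4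
  have h5 : 1 ≡ k ^ p [MOD p ^ (m + 2)] := by
    have : u ^ 1 = u ^ (k ^ p) := by rw [pow_one]; exact h4
    exact D.pow_eq.1 this
  have h6 := D.exp_mod hG (by omega) hk
  have hodd : Odd p := hpp.odd_of_ne_two hp2
  have h7 : ((p ^ (m + 2) : ℕ) : ℤ) ∣ ((k ^ p : ℕ) : ℤ) - ((1 : ℕ) : ℤ) := Nat.modEq_iff_dvd.1 h5
  have h8 : ((p : ℕ) : ℤ) ∣ (k : ℤ) - 1 := by
    have := Nat.modEq_iff_dvd.1 h6.symm
    simpa using this
  have h9 : ¬ ((p : ℕ) : ℤ) ∣ (k : ℤ) := by
    intro h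
    have h10 : ((p : ℕ) : ℤ) ∣ (k : ℤ) - ((k : ℤ) - 1) := dvd_sub h h8
    have h11 : ((p : ℕ) : ℤ) ∣ 1 := by simpa using h10
    have := Int.natCast_dvd_natCast.1 (by simpa using h11 : ((p : ℕ) : ℤ) ∣ ((1 : ℕ) : ℤ))
    exact hpp.one_lt.ne' (Nat.dvd_one.1 this)
  have hl := Int.emultiplicity_pow_sub_pow hpp hodd (x := (k : ℤ)) (y := 1) (by simpa using h8) h9 p
  have h12 : ((p : ℕ) : ℤ) ^ (m + 2) ∣ (k : ℤ) ^ p - 1 ^ p := by
    have := h7
    push_cast at this
    rw [one_pow]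
    exact this
  have h13 := pow_dvd_iff_le_emultiplicity.1 h12
  rw [hl, hpp.emultiplicity_self] at h13
  have h14 : ((m + 1 : ℕ) : ℕ∞) ≤ emultiplicity ((p : ℕ) : ℤ) ((k : ℤ) - 1) := by
    have e : ((m + 2 : ℕ) : ℕ∞) = ((m + 1 : ℕ) : ℕ∞) + 1 := by push_cast; ring
    rw [e] at h13
    exact (ENat.add_le_add_iff_right (by simp)).1 h13
  have h15 := pow_dvd_iff_le_emultiplicity.2 h14
  apply M_of_exp D hk
  apply Nat.ModEq.symm
  apply Nat.modEq_iff_dvd.2
  have : (((p ^ (m + 1) : ℕ) : ℤ)) ∣ (k : ℤ) - 1 := by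
    push_cast
    exact h15
  simpa using this

end Main

section Left

variable {G : Type*} [Group G] [Finite G] [Fact (Nat.Prime 2)] {u : G} {m : ℕ}

omit [Fact (Nat.Prime 2)] in
theorem not_cyclic_of (hna : ¬ IsMulCommutative G) : ¬ IsCyclic G := by
  intro h
  apply hna
  rw [isMulCommutative_iff]
  intro a b
  obtain ⟨g, hg⟩ := h.exists_generator
  obtain ⟨i, rfl⟩ := Subgroup.mem_zpowers_iff.1 (hg a)
  obtain ⟨j, rfl⟩ := Subgroup.mem_zpowers_iff.1 (hg b)
  exact ((Commute.refl g).zpow_zpow i j).eq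

omit [Fact (Nat.Prime 2)] in
theorem cyclic_of_le {A : Subgroup G} {g : G} (h : A ≤ zpowers g) : IsCyclic A := by
  have h1 : IsCyclic (A.subgroupOf (zpowers g)) := inferInstance
  exact isCyclic_of_surjective (Subgroup.subgroupOfEquivOfLe h).toMonoidHom
    (Subgroup.subgroupOfEquivOfLe h).surjective

omit [Fact (Nat.Prime 2)] in
theorem index_two (hno : ∀ x y : G, x ∉ zpowers u → y ∉ zpowers u → x * y ∈ zpowers u)
    {g : G} (hg : g ∉ zpowers u) : (zpowers u).index = 2 := by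
  rw [Subgroup.index_eq_two_iff]
  refine ⟨g, fun b => ?_⟩
  by_cases hb : b ∈ zpowers u
  · right
    refine ⟨hb, fun h => hg ?_⟩
    have := (zpowers u).mul_mem ((zpowers u).inv_mem hb) h
    simpa using this
  · left
    exact ⟨hno _ _ hb hg, hb⟩

omit [Fact (Nat.Prime 2)] in
theorem exists_not_mem (hna : ¬ IsMulCommutative G) : ∃ g : G, g ∉ zpowers u := by
  by_contra h
  push Not at h
  apply hna
  rw [isMulCommutative_iff]
  intro a b
  obtain ⟨i, rfl⟩ := Subgroup.mem_zpowers_iff.1 (h a)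
  obtain ⟨j, rfl⟩ := Subgroup.mem_zpowers_iff.1 (h b)
  exact ((Commute.refl u).zpow_zpow i j).eq

theorem left_large (hG : IsPGroup 2 G) (D : Dat 2 u (m + 2)) (hm : 1 ≤ m)
    (hno : ∀ t ∈ MM 2 u, t ∈ zpowers u) (hna : ¬ IsMulCommutative G) :
    Nat.card G = 2 ^ (m + 2 + 1) ∧ ((∃ k : ℕ, Nonempty (G ≃* DihedralGroup k)) ∨
      (∃ k : ℕ, Nonempty (G ≃* QuaternionGroup k)) ∨ Cfsg.IsQuasiDihedral G) := by
  have key1 : ∀ h : G, h ∉ zpowers u → h * h ∈ zpowers u → ∀ k : ℕ, h * u * h⁻¹ = u ^ k →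
      2 ^ (m + 1) ∣ k + 1 := by
    intro h hh hhh k hk
    have h1 := act_mul hk hk
    have h2 : (h * h) * u = u * (h * h) := by
      obtain ⟨e, he⟩ := exists_nat_of_mem hhh
      rw [he]
      exact ((Commute.refl u).pow_left e).eq
    have h3 : (h * h) * u * (h * h)⁻¹ = u := by rw [h2]; group
    rw [h3] at h1
    have h4 : 1 ≡ k * k [MOD 2 ^ (m + 2)] := by
      have : u ^ 1 = u ^ (k * k) := by rw [pow_one]; exact h1
      exact D.pow_eq.1 this
    have h5 : (4 * (2 : ℤ) ^ m) ∣ (k : ℤ) * k - 1 := by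
      have := Nat.modEq_iff_dvd.1 h4
      push_cast at this
      have e : (2 : ℤ) ^ (m + 2) = 4 * 2 ^ m := by ring
      rwa [e] at this
    rcases H18.int_split m (k : ℤ) h5 with ⟨e, he, -⟩ | ⟨e, he, -⟩
    · exfalso
      apply hh
      apply hno
      apply M_of_exp D hk
      apply Nat.ModEq.symm
      apply Nat.modEq_iff_dvd.2
      push_cast
      exact ⟨e, by rw [he]; ring⟩
    · have h6 : ((2 ^ (m + 1) : ℕ) : ℤ) ∣ ((k + 1 : ℕ) : ℤ) := by
        push_cast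
        exact ⟨e, by rw [he]; ring⟩
      exact Int.natCast_dvd_natCast.1 h6
  have key2 : ∀ g : G, g ∉ zpowers u → g * g ∈ zpowers u := by
    intro g hg
    obtain ⟨i, h1, h2⟩ := H18.exists_pow_step hG (zpowers u) g hg
    cases i with
    | zero => simpa using h2
    | succ j =>
      exfalso
      obtain ⟨k', hk'⟩ := D.hex (g ^ (2 ^ j))
      have h3 := act_pow hk' 2
      have e : (g ^ (2 ^ j)) ^ 2 = g ^ (2 ^ (j + 1)) := by rw [← pow_mul, pow_succ]
      rw [e] at h3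
      have h4 := key1 _ h1 h2 _ h3
      have h5 : 4 ∣ k' ^ 2 + 1 := by
        refine Dvd.dvd.trans ?_ h4
        exact pow_dvd_pow 2 (show 2 ≤ m + 1 by omega)
      have h6 : (k' ^ 2 + 1) % 4 = 0 := Nat.mod_eq_zero_of_dvd h5
      have h7 : k' % 4 = 0 ∨ k' % 4 = 1 ∨ k' % 4 = 2 ∨ k' % 4 = 3 := by omega
      rcases h7 with h7 | h7 | h7 | h7 <;> simp [Nat.add_mod, Nat.pow_mod, h7] at h6
  have key3 : ∀ x y : G, x ∉ zpowers u → y ∉ zpowers u → x * y ∈ zpowers u := by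
    intro x y hx hy
    obtain ⟨kx, hkx⟩ := D.hex x
    obtain ⟨ky, hky⟩ := D.hex y
    have h1 := key1 x hx (key2 x hx) kx hkx
    have h2 := key1 y hy (key2 y hy) ky hky
    apply hno
    apply M_of_exp D (act_mul hkx hky)
    apply Nat.ModEq.symm
    apply Nat.modEq_iff_dvd.2
    have h3 : ((2 ^ (m + 1) : ℕ) : ℤ) ∣ ((kx + 1 : ℕ) : ℤ) := Int.natCast_dvd_natCast.2 h1
    have h4 : ((2 ^ (m + 1) : ℕ) : ℤ) ∣ ((ky + 1 : ℕ) : ℤ) := Int.natCast_dvd_natCast.2 h2
    have h5 : (((kx * ky : ℕ) : ℤ) - ((1 : ℕ) : ℤ)) =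
        ((kx + 1 : ℕ) : ℤ) * ((ky + 1 : ℕ) : ℤ) - ((kx + 1 : ℕ) : ℤ) - ((ky + 1 : ℕ) : ℤ) := by
      push_cast; ring
    rw [h5]
    exact dvd_sub (dvd_sub (Dvd.dvd.mul_right h3 _) h3) h4
  obtain ⟨g₀, hg₀⟩ := exists_not_mem (u := u) hna
  have hidx := index_two key3 hg₀
  have hcard : Nat.card G = 2 ^ (m + 2 + 1) := by
    have h1 := Subgroup.card_mul_index (zpowers u)
    rw [hidx, Nat.card_zpowers, D.ho] at h1
    rw [← h1]; ring
  refine ⟨hcard, ?_⟩
  have hn : ∀ A : Subgroup G, A.Normal → IsMulCommutative A → IsCyclic A := by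
    intro A hA hAc
    suffices hle : A ≤ zpowers u from cyclic_of_le hle
    intro g hgA
    by_contra hg
    obtain ⟨k, hk⟩ := D.hex g
    have h1 := key1 g hg (key2 g hg) k hk
    have hy : g * u * g⁻¹ * u⁻¹ ∈ A := by
      have : g * u * g⁻¹ * u⁻¹ = g * (u * g⁻¹ * u⁻¹) := by group
      rw [this]
      exact A.mul_mem hgA (hA.conj_mem _ (A.inv_mem hgA) u)
    have hcomm : (g * u * g⁻¹ * u⁻¹) * g = g * (g * u * g⁻¹ * u⁻¹) := by
      have := (isMulCommutative_iff.1 hAc) ⟨_, hy⟩ ⟨g, hgA⟩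
      exact congrArg Subtype.val this
    have h2 : g * (u ^ k * u⁻¹) * g⁻¹ = u ^ k * u⁻¹ := by
      rw [← hk]
      rw [mul_inv_eq_iff_eq_mul]
      rw [hk] at hcomm ⊢
      exact hcomm.symm
    have h3 : u ^ (k * k) * (u ^ k)⁻¹ = u ^ k * u⁻¹ := by
      have e : g * (u ^ k * u⁻¹) * g⁻¹ = (g * u ^ k * g⁻¹) * (g * u * g⁻¹)⁻¹ := by group
      rw [e, conj_pow_act hk, hk] at h2
      exact h2
    have h4 : u ^ (k * k + 1) = u ^ (2 * k) := by
      have e1 : u ^ (k * k + 1) = (u ^ (k * k) * (u ^ k)⁻¹) * (u ^ k * u) := by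
        rw [pow_succ, ← (((Commute.refl u).pow_right k).eq)]
        group
      rw [e1, h3]
      have e2 : u ^ (2 * k) = u ^ k * u ^ k := by rw [two_mul, pow_add]
      rw [e2, ← ((Commute.refl u).pow_right k).eq]
      group
    have h5 := D.pow_eq.1 h4
    have h6 : k * k + 1 ≡ 2 * k [MOD 8] := h5.of_dvd (by
      have : 8 = 2 ^ 3 := by norm_num
      rw [this]
      exact pow_dvd_pow 2 (by omega))
    have h7 : 4 ∣ k + 1 := (pow_dvd_pow 2 (show 2 ≤ m + 1 by omega)).trans h1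
    have h8 : k % 8 = 3 ∨ k % 8 = 7 := by omega
    have h9 : (k * k + 1) % 8 = (2 * k) % 8 := h6
    rcases h8 with h8 | h8 <;> simp [Nat.add_mod, Nat.mul_mod, h8] at h9
  have hR := H18.roquette_two hG hn (not_cyclic_of hna)
  rcases hR with ⟨k, hk⟩ | ⟨k, -, hk⟩ | h
  · exact Or.inr (Or.inl ⟨k, hk⟩)
  · exact Or.inl ⟨k, hk⟩
  · exact Or.inr (Or.inr h)

theorem left_two (hG : IsPGroup 2 G) (D : Dat 2 u 2) (hna : ¬ IsMulCommutative G) :
    Nat.card G = 2 ^ (2 + 1) ∧ ((∃ k : ℕ, Nonempty (G ≃* DihedralGroup k)) ∨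
      (∃ k : ℕ, Nonempty (G ≃* QuaternionGroup k)) ∨ Cfsg.IsQuasiDihedral G) := by
  have key1 : ∀ g : G, g ∉ zpowers u → ∀ k : ℕ, g * u * g⁻¹ = u ^ k → k % 4 = 3 := by
    intro g hg k hk
    have h1 := D.exp_mod hG (by norm_num) hk
    have h2 : k % 2 = 1 % 2 := h1
    have h3 : k % 4 = 1 ∨ k % 4 = 3 := by omega
    rcases h3 with h3 | h3
    · exfalso
      apply hg
      apply D.hcen
      apply comm_of_act_one
      rw [hk]
      have : u ^ k = u ^ 1 := D.pow_eq.2 (by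
        show k % 2 ^ 2 = 1 % 2 ^ 2
        norm_num
        exact h3)
      rw [this, pow_one]
    · exact h3
  have key3 : ∀ x y : G, x ∉ zpowers u → y ∉ zpowers u → x * y ∈ zpowers u := by
    intro x y hx hy
    obtain ⟨kx, hkx⟩ := D.hex x
    obtain ⟨ky, hky⟩ := D.hex y
    have h1 := key1 x hx kx hkx
    have h2 := key1 y hy ky hky
    apply D.hcen
    apply comm_of_act_one
    rw [act_mul hkx hky]
    have : u ^ (kx * ky) = u ^ 1 := D.pow_eq.2 (by
      show (kx * ky) % 2 ^ 2 = 1 % 2 ^ 2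
      norm_num [Nat.mul_mod, h1, h2])
    rw [this, pow_one]
  obtain ⟨g₀, hg₀⟩ := exists_not_mem (u := u) hna
  have hidx := index_two key3 hg₀
  have hcard : Nat.card G = 2 ^ (2 + 1) := by
    have h1 := Subgroup.card_mul_index (zpowers u)
    rw [hidx, Nat.card_zpowers, D.ho] at h1
    rw [← h1]; norm_num
  refine ⟨hcard, ?_⟩
  have hu4 : u ^ 4 = 1 := D.pow_eq_one.2 (by norm_num)
  by_cases hinv : ∃ x : G, x ∉ zpowers u ∧ x * x = 1
  · obtain ⟨x, hx, hxx⟩ := hinv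
    left
    refine ⟨4, H15.dihedral_of u x 4 (by norm_num) (by rw [D.ho]; norm_num) hxx ?_ (by rw [hcard]; norm_num) hx⟩
    obtain ⟨k, hk⟩ := D.hex x
    have h1 := key1 x hx k hk
    rw [hk, eq_inv_iff_mul_eq_one, ← pow_succ]
    exact D.pow_eq_one.2 (by norm_num; omega)
  · push Not at hinv
    have hn : ∀ A : Subgroup G, A.Normal → IsMulCommutative A → IsCyclic A := by
      intro A hA hAc
      by_cases hle : A ≤ zpowers u
      · exact cyclic_of_le hle
      obtain ⟨g, hgA, hg⟩ := Set.not_subset.1 hle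
      obtain ⟨k, hk⟩ := D.hex g
      have hk3 := key1 g hg k hk
      have hcomA : ∀ y ∈ A, y * g = g * y := by
        intro y hy
        exact congrArg Subtype.val ((isMulCommutative_iff.1 hAc) ⟨y, hy⟩ ⟨g, hgA⟩)
      -- elements of `A ∩ ⟨u⟩` are `1` or `u²`
      have hU : ∀ y ∈ zpowers u, y * g = g * y → y = 1 ∨ y = u ^ 2 := by
        intro y hy hyg
        obtain ⟨b, rfl⟩ := exists_nat_of_mem hy
        have h1 : g * u ^ b * g⁻¹ = u ^ b := by rw [← hyg]; group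
        rw [conj_pow_act hk] at h1
        have h2 := D.pow_eq.1 h1
        have h3 : (k * b) % 4 = b % 4 := h2
        have h4 : b % 2 = 0 := by
          have h5 : (k * b) % 4 = (3 * (b % 4)) % 4 := by
            rw [Nat.mul_mod, hk3]
          rw [h5] at h3
          omega
        rcases (by omega : b % 4 = 0 ∨ b % 4 = 2) with h5 | h5
        · left
          exact D.pow_eq_one.2 (by norm_num; omega)
        · right
          exact D.pow_eq.2 (by
            show b % 2 ^ 2 = 2 % 2 ^ 2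
            norm_num
            exact h5)
      have hgg : g * g = u ^ 2 := by
        have h1 := key3 g g hg hg
        rcases hU _ h1 (by group) with h2 | h2
        · exact absurd h2 (hinv g hg)
        · exact h2
      have hle2 : A ≤ zpowers g := by
        intro a ha
        have hgg' : u ^ 2 ∈ zpowers g := by
          rw [← hgg, ← sq]; exact pow_mem (mem_zpowers g) 2
        by_cases hau : a ∈ zpowers u
        · rcases hU a hau (hcomA a ha) with h2 | h2
          · rw [h2]; exact one_mem _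
          · rw [h2]; exact hgg'
        · have h1 := key3 a g hau hg
          have h2 : a * g * g = g * (a * g) := by
            calc a * g * g = (g * a) * g := by rw [hcomA a ha]
              _ = g * (a * g) := by group
          rcases hU _ h1 (h2) with h3 | h3
          · have : a = g⁻¹ := eq_inv_of_mul_eq_one_left h3
            rw [this]; exact inv_mem (mem_zpowers g)
          · have h4 : a = u ^ 2 * g⁻¹ := by rw [← h3]; group
            rw [h4]; exact mul_mem hgg' (inv_mem (mem_zpowers g))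
      exact cyclic_of_le hle2
    have hR := H18.roquette_two hG hn (not_cyclic_of hna)
    rcases hR with ⟨k, hk⟩ | ⟨k, h8, ⟨hk⟩⟩ | h
    · exact Or.inr (Or.inl ⟨k, hk⟩)
    · exfalso
      have h1 := Nat.card_congr hk.toEquiv
      rw [hcard, DihedralGroup.nat_card] at h1
      omega
    · exfalso
      obtain ⟨n', hn', hc, -⟩ := h
      rw [hcard] at hc
      have h1 : 2 ^ (2 + 1) < 2 ^ (n' + 1) := Nat.pow_lt_pow_right (by norm_num) (by omega)
      omega

end Left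


/-- Let G be a finite non-abelian p-group with a cyclic normal subgroup U of order p^n such that C_G(U) = U. Then either p = 2 and G is dihedral, generalized quaternion or semidihedral of order 2^(n+1); or, writing U₁ for the subgroup generated by the p-th powers of elements of U and M = C_G(U₁), the subgroup U has index p in M and the subgroup Ω₁(M) generated by the elements of M of order dividing p is elementary abelian of order p² and characteristic in G. -/
theorem result {G : Type*} [Group G] [Finite G] {p : ℕ} [Fact p.Prime] (hG : IsPGroup p G) (hna : ¬ IsMulCommutative G) (U : Subgroup G) [U.Normal] (hU : IsCyclic U) (n : ℕ) (hUn : Nat.card U = p ^ n) (hC : Subgroup.centralizer (U : Set G) = U) : (p = 2 ∧ Nat.card G = 2 ^ (n + 1) ∧ ((∃ m : ℕ, Nonempty (G ≃* DihedralGroup m)) ∨ (∃ m : ℕ, Nonempty (G ≃* QuaternionGroup m)) ∨ Cfsg.IsQuasiDihedral G)) ∨ (U.relIndex (Subgroup.centralizer (Cfsg.powerClosure p 1 U : Set G))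 = p ∧ Cfsg.IsElementaryAbelian p (Cfsg.omegaOne p (Subgroup.centralizer (Cfsg.powerClosure p 1 U : Set G))) ∧ Nat.card ↥(Cfsg.omegaOne p (Subgroup.centralizer (Cfsg.powerClosure p 1 U : Set G))) = p ^ 2 ∧ (Cfsg.omegaOne p (Subgroup.centralizer (Cfsg.powerClosure p 1 U : Set G))).Characteristic) := by
  classical
have hpp : p.Prime := Fact.out
obtain ⟨⟨u, huU⟩, hgen⟩ := hU.exists_generator
have hUz : U = zpowers u := by
  apply le_antisymm
  · intro x hx
    obtain ⟨i, hi⟩ := Subgroup.mem_zpowers_iff.1 (hgen ⟨x, hx⟩)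
    exact Subgroup.mem_zpowers_iff.2 ⟨i, by simpa using congrArg Subtype.val hi⟩
  · exact zpowers_le.2 huU
subst hUz
have D0 : Dat p u n := by
  refine ⟨by rw [← Nat.card_zpowers]; exact hUn, ?_, ?_⟩
  · intro g
    exact (exists_nat_of_mem (Subgroup.Normal.conj_mem ‹_› u (mem_zpowers u) g))
  · intro g hg
    have h2 : g ∈ Subgroup.centralizer ((zpowers u : Subgroup G) : Set G) := by
      rw [Subgroup.mem_centralizer_iff]
      intro y hy
      obtain ⟨i, rfl⟩ := Subgroup.mem_zpowers_iff.1 hy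
      have h1 : Commute g u := hg
      exact (h1.zpow_right i).eq.symm
    rwa [hC] at h2
obtain ⟨g₀, hg₀⟩ := exists_not_mem (u := u) hna
have hn2 : 2 ≤ n := by
  by_contra hn
  apply hg₀
  obtain ⟨k, hk⟩ := D0.hex g₀
  apply D0.hcen
  apply comm_of_act_one
  rw [hk]
  have : u ^ k = u ^ 1 := by
    apply D0.pow_eq.2
    rcases (by omega : n = 0 ∨ n = 1) with rfl | rfl
    · simp [Nat.modEq_one]
    · rw [pow_one]; exact D0.exp_mod hG (by norm_num) hk
  rw [this, pow_one]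
obtain ⟨m, rfl⟩ : ∃ m, n = m + 2 := ⟨n - 2, by omega⟩
by_cases hp2 : p = 2
· subst hp2
  rcases Nat.eq_zero_or_pos m with rfl | hm
  · obtain ⟨h1, h2⟩ := left_two hG D0 hna
    exact Or.inl ⟨rfl, h1, h2⟩
  · by_cases hno : ∀ t ∈ MM 2 u, t ∈ zpowers u
    · obtain ⟨h1, h2⟩ := left_large hG D0 hm hno hna
      exact Or.inl ⟨rfl, h1, h2⟩
    · push Not at hno
      obtain ⟨t, ht, ht'⟩ := hno
      exact Or.inr (right_case hG D0 (Or.inr hm) ht ht')
· obtain ⟨t, ht, ht'⟩ := exists_M_odd hG D0 hp2 hg₀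
  exact Or.inr (right_case hG D0 (Or.inl hp2) ht ht')

end Cfsg.Agent.S3761
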