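import Cfsg.Statements.S3762
import Mathlib
import Cfsg.Agent.Lib.H18.Nilp
import Cfsg.Agent.Lib.H01.OmegaApps
import Cfsg.Agent.Lib.H18.Special
import Cfsg.Agent.Lib.H18.Roquette

set_option autoImplicit false
open Cfsg

namespace Cfsg.Agent.S3762


set_option linter.unusedSectionVars false
set_option linter.style.haveILetI false

section basics
variable {G : Type*} [Group G] {p : ℕ}

/-- central elements of exponent dividing `p`. -/
def Z0 (G : Type*) [Group G] (p : ℕ) : Subgroup G where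
  carrier := {z | z ∈ Subgroup.center G ∧ z ^ p = 1}
  mul_mem' := by
    rintro a b ⟨ha, ha'⟩ ⟨hb, hb'⟩
    refine ⟨mul_mem ha hb, ?_⟩
    have hab : Commute a b := (Subgroup.mem_center_iff.1 ha b).symm
    rw [hab.mul_pow, ha', hb', one_mul]
  one_mem' := ⟨one_mem _, one_pow _⟩
  inv_mem' := by
    rintro a ⟨ha, ha'⟩
    exact ⟨inv_mem ha, by rw [inv_pow, ha', inv_one]⟩

lemma z0_comm {z : G} (hz : z ∈ Z0 G p) (g : G) : z * g = g * z :=
  (Subgroup.mem_center_iff.1 hz.1 g).symm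

lemma pow_comm_aux {c x y : G} (hc : ∀ g, c * g = g * c) (h : y * x = c * x * y) (n : ℕ) :
    y ^ n * x = c ^ n * x * y ^ n := by
  induction n with
  | zero => simp
  | succ n ih =>
    have hcn : Commute (c ^ n) y := Commute.pow_left (hc y) n
    calc y ^ (n + 1) * x = y * (y ^ n * x) := by rw [pow_succ']; group
      _ = y * (c ^ n * x * y ^ n) := by rw [ih]
      _ = (y * c ^ n) * x * y ^ n := by group
      _ = (c ^ n * y) * x * y ^ n := by rw [hcn.eq]
      _ = c ^ n * (y * x) * y ^ n := by group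
      _ = c ^ n * (c * x * y) * y ^ n := by rw [h]
      _ = c ^ (n + 1) * x * (y * y ^ n) := by rw [pow_succ]; group
      _ = c ^ (n + 1) * x * y ^ (n + 1) := by rw [pow_succ' y]

lemma mul_pow_aux {x y : G} (h : y * x * y⁻¹ * x⁻¹ ∈ Z0 G p) (n : ℕ) :
    ∃ w ∈ Z0 G p, (x * y) ^ n = x ^ n * y ^ n * w := by
  induction n with
  | zero => exact ⟨1, one_mem _, by simp⟩
  | succ n ih =>
    obtain ⟨w, hw, e⟩ := ih
    set c := y * x * y⁻¹ * x⁻¹ with hcdef
    have hc : ∀ g, c * g = g * c := z0_comm h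
    have hyx : y * x = c * x * y := by rw [hcdef]; group
    have h1 := pow_comm_aux hc hyx n
    have hcn : ∀ g, c ^ n * g = g * c ^ n := fun g => (Commute.pow_left (hc g) n).eq
    have hcnm : c ^ n ∈ Z0 G p := pow_mem h n
    refine ⟨c ^ n * w, mul_mem hcnm hw, ?_⟩
    calc (x * y) ^ (n + 1) = (x * y) ^ n * (x * y) := pow_succ _ _
      _ = x ^ n * y ^ n * w * (x * y) := by rw [e]
      _ = x ^ n * y ^ n * (x * y) * w := by
          rw [mul_assoc (x ^ n * y ^ n) w, z0_comm hw, mul_assoc (x ^ n * y ^ n)]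
      _ = x ^ n * (y ^ n * x) * y * w := by group
      _ = x ^ n * (c ^ n * x * y ^ n) * y * w := by rw [h1]
      _ = (c ^ n * x ^ n) * x * y ^ n * y * w := by
          rw [hcn (x ^ n)]; group
      _ = c ^ n * (x ^ n * x) * (y ^ n * y) * w := by group
      _ = c ^ n * x ^ (n + 1) * y ^ (n + 1) * w := by rw [pow_succ, pow_succ]
      _ = x ^ (n + 1) * c ^ n * y ^ (n + 1) * w := by rw [hcn]
      _ = x ^ (n + 1) * (c ^ n * y ^ (n + 1)) * w := by group
      _ = x ^ (n + 1) * (y ^ (n + 1) * c ^ n) * w := by rw [hcn]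
      _ = x ^ (n + 1) * y ^ (n + 1) * (c ^ n * w) := by group

/-- elements central modulo `Z0` with `p`-th power in `Z0`. -/
def TT (G : Type*) [Group G] (p : ℕ) : Subgroup G where
  carrier := {t | t ^ p ∈ Z0 G p ∧ ∀ g, t * g * t⁻¹ * g⁻¹ ∈ Z0 G p}
  mul_mem' := by
    rintro x y ⟨hx, hx'⟩ ⟨hy, hy'⟩
    refine ⟨?_, ?_⟩
    · obtain ⟨w, hw, e⟩ := mul_pow_aux (x := x) (y := y) (hy' x) p
      rw [e]
      exact mul_mem (mul_mem hx hy) hw
    · intro g
      have hcc := z0_comm (hy' g) x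
      have e : x * y * g * (x * y)⁻¹ * g⁻¹ = (y * g * y⁻¹ * g⁻¹) * (x * g * x⁻¹ * g⁻¹) := by
        calc x * y * g * (x * y)⁻¹ * g⁻¹ = x * (y * g * y⁻¹ * g⁻¹) * g * x⁻¹ * g⁻¹ := by group
          _ = (y * g * y⁻¹ * g⁻¹) * x * g * x⁻¹ * g⁻¹ := by rw [← hcc]
          _ = _ := by group
      rw [e]
      exact mul_mem (hy' g) (hx' g)
  one_mem' := ⟨by simp [one_mem], fun g => by simp [one_mem]⟩
  inv_mem' := by
    rintro t ⟨ht, ht'⟩
    refine ⟨by rw [inv_pow]; exact inv_mem ht, fun g => ?_⟩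
    have hc := ht' g
    have e : t⁻¹ * g * t⁻¹⁻¹ * g⁻¹ = (t * g * t⁻¹ * g⁻¹)⁻¹ := by
      have h2 := z0_comm hc g
      have h3 := z0_comm hc t⁻¹
      have h4 := z0_comm (inv_mem hc) t⁻¹
      have h5 := z0_comm (inv_mem hc) g
      have h6 : g * t = (t * g * t⁻¹ * g⁻¹)⁻¹ * (t * g) := by group
      calc t⁻¹ * g * t⁻¹⁻¹ * g⁻¹ = t⁻¹ * (g * t) * g⁻¹ := by group
        _ = t⁻¹ * ((t * g * t⁻¹ * g⁻¹)⁻¹ * (t * g)) * g⁻¹ := by rw [← h6]
        _ = (t⁻¹ * (t * g * t⁻¹ * g⁻¹)⁻¹) * (t * g) * g⁻¹ := by group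
        _ = ((t * g * t⁻¹ * g⁻¹)⁻¹ * t⁻¹) * (t * g) * g⁻¹ := by rw [h4]
        _ = _ := by group
    rw [e]
    exact inv_mem hc

lemma tt_comm' {t : G} (ht : t ∈ TT G p) (g : G) : g * t * g⁻¹ * t⁻¹ ∈ Z0 G p := by
  have e : g * t * g⁻¹ * t⁻¹ = (t * g * t⁻¹ * g⁻¹)⁻¹ := by group
  rw [e]
  exact inv_mem (ht.2 g)

lemma z0_le_tt : Z0 G p ≤ TT G p := by
  intro z hz
  refine ⟨by rw [hz.2]; exact one_mem _, fun g => ?_⟩
  have e : z * g * z⁻¹ * g⁻¹ = 1 := by
    rw [z0_comm hz g]; group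
  rw [e]
  exact one_mem _

/-- the centre of `TT`. -/
def UU (G : Type*) [Group G] (p : ℕ) : Subgroup G where
  carrier := {t | t ∈ TT G p ∧ ∀ s ∈ TT G p, t * s = s * t}
  mul_mem' := by
    rintro x y ⟨hx, hx'⟩ ⟨hy, hy'⟩
    refine ⟨mul_mem hx hy, fun s hs => ?_⟩
    rw [mul_assoc, hy' s hs, ← mul_assoc, hx' s hs, mul_assoc]
  one_mem' := ⟨one_mem _, fun s _ => by simp⟩
  inv_mem' := by
    rintro x ⟨hx, hx'⟩
    refine ⟨inv_mem hx, fun s hs => ?_⟩
    exact (show Commute x s from hx' s hs).inv_left.eq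

lemma z0_le_uu : Z0 G p ≤ UU G p := fun _ hz => ⟨z0_le_tt hz, fun s _ => z0_comm hz s⟩

lemma z0_apply (φ : G ≃* G) {z : G} (hz : z ∈ Z0 G p) : φ z ∈ Z0 G p := by
  refine ⟨Subgroup.mem_center_iff.2 fun g => ?_, by rw [← map_pow, hz.2, map_one]⟩
  have := z0_comm hz (φ.symm g)
  have h2 := congrArg φ this
  simpa [map_mul] using h2.symm

lemma tt_apply (φ : G ≃* G) {t : G} (ht : t ∈ TT G p) : φ t ∈ TT G p := by
  refine ⟨by rw [← map_pow]; exact z0_apply φ ht.1, fun g => ?_⟩
  have := z0_apply φ (ht.2 (φ.symm g))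
  simpa [map_mul] using this

lemma uu_apply (φ : G ≃* G) {t : G} (ht : t ∈ UU G p) : φ t ∈ UU G p := by
  refine ⟨tt_apply φ ht.1, fun s hs => ?_⟩
  have := ht.2 (φ.symm s) (tt_apply φ.symm hs)
  have h2 := congrArg φ this
  simpa [map_mul] using h2

lemma uu_char : (UU G p).Characteristic :=
  Subgroup.characteristic_iff_le_comap.2 fun φ t ht => uu_apply φ ht

lemma uu_comm : IsMulCommutative (UU G p) := by
  constructor
  constructor
  rintro ⟨a, ha⟩ ⟨b, hb⟩
  exact Subtype.ext (ha.2 b hb.1)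

lemma normal_of_between {X : Subgroup G} (h1 : Z0 G p ≤ X) (h2 : X ≤ TT G p) : X.Normal := by
  constructor
  intro x hx g
  have := h1 (tt_comm' (h2 hx) g)
  have e : g * x * g⁻¹ = (g * x * g⁻¹ * x⁻¹) * x := by group
  rw [e]
  exact mul_mem this hx

lemma tt_zpow_mem [Fact p.Prime] {t : G} (ht : t ∈ TT G p) {i : ℤ} (hi : (p : ℤ) ∣ i) :
    t ^ i ∈ Z0 G p := by
  obtain ⟨k, rfl⟩ := hi
  rw [zpow_mul, zpow_natCast]
  exact zpow_mem ht.1 k

end basics

section main
variable {G : Type*} [Group G] [Finite G] {p : ℕ} [Fact p.Prime]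

lemma exists_E : ∃ E : Subgroup G, Z0 G p ≤ E ∧ E ≤ TT G p ∧ E ⊓ UU G p ≤ Z0 G p ∧
    ∀ t ∈ TT G p, ∃ e ∈ E, ∃ u ∈ UU G p, t = e * u := by
  classical
  have hp : p.Prime := Fact.out
  let S : Set (Subgroup G) := {X | Z0 G p ≤ X ∧ X ≤ TT G p ∧ X ⊓ UU G p ≤ Z0 G p}
  have hS : Z0 G p ∈ S := ⟨le_rfl, z0_le_tt, inf_le_left⟩
  obtain ⟨E, -, hE⟩ := (Set.toFinite S).exists_le_maximal hS
  obtain ⟨hE1, hE2, hE3⟩ := hE.prop
  haveI hEn : E.Normal := normal_of_between hE1 hE2
  refine ⟨E, hE1, hE2, hE3, ?_⟩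
  have hsup : ∀ t ∈ TT G p, t ∈ E ⊔ UU G p := by
    intro t ht
    by_contra hnot
    let X : Subgroup G := E ⊔ Subgroup.zpowers t
    have hXS : X ∈ S := by
      refine ⟨hE1.trans le_sup_left, sup_le hE2 ?_, ?_⟩
      · rw [Subgroup.zpowers_le]; exact ht
      · rintro x ⟨hx, hxU⟩
        have hx' : x ∈ ((E ⊔ Subgroup.zpowers t : Subgroup G) : Set G) := hx
        rw [Subgroup.normal_mul] at hx'
        obtain ⟨e, he, y, hy, rfl⟩ := hx'
        obtain ⟨i, rfl⟩ := Subgroup.mem_zpowers_iff.1 hy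
        simp only at *
        have hi : (p : ℤ) ∣ i := by
          by_contra hnd
          have hcop : IsCoprime (p : ℤ) i :=
            (Nat.prime_iff_prime_int.1 hp).coprime_iff_not_dvd.2 hnd
          obtain ⟨a, b, hab⟩ := hcop
          apply hnot
          have h1 : t ^ i ∈ E ⊔ UU G p := by
            have e1 : t ^ i = e⁻¹ * (e * t ^ i) := by group
            rw [e1]
            exact mul_mem ((le_sup_left : E ≤ E ⊔ UU G p) (inv_mem he))
              ((le_sup_right : UU G p ≤ E ⊔ UU G p) hxU)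
          have h2 : t ^ (p : ℤ) ∈ E ⊔ UU G p := by
            rw [zpow_natCast]
            exact (le_sup_left : E ≤ E ⊔ UU G p) (hE1 ht.1)
          have e2 : t = (t ^ (p : ℤ)) ^ a * (t ^ i) ^ b := by
            rw [← zpow_mul, ← zpow_mul, ← zpow_add]
            have : (p : ℤ) * a + i * b = 1 := by linarith
            rw [this, zpow_one]
          rw [e2]
          exact mul_mem (zpow_mem h2 a) (zpow_mem h1 b)
        have h3 : t ^ i ∈ E := hE1 (tt_zpow_mem ht hi)
        exact hE3 ⟨mul_mem he h3, hxU⟩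
    have hle : E ≤ X := le_sup_left
    have hXE : X ≤ E := hE.le_of_ge hXS hle
    apply hnot
    have : t ∈ X := (le_sup_right : Subgroup.zpowers t ≤ X) (Subgroup.mem_zpowers t)
    exact (le_sup_left : E ≤ E ⊔ UU G p) (hXE this)
  intro t ht
  have h := hsup t ht
  have h' : t ∈ ((E ⊔ UU G p : Subgroup G) : Set G) := h
  rw [Subgroup.normal_mul] at h'
  obtain ⟨e, he, u, hu, rfl⟩ := h'
  exact ⟨e, he, u, hu, rfl⟩

lemma z_of_comm_E {E : Subgroup G} (hE2 : E ≤ TT G p) (hE3 : E ⊓ UU G p ≤ Z0 G p)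
    (hdec : ∀ t ∈ TT G p, ∃ e ∈ E, ∃ u ∈ UU G p, t = e * u) {c : G} (hc : c ∈ E)
    (h : ∀ e ∈ E, c * e = e * c) : c ∈ Z0 G p := by
  refine hE3 ⟨hc, hE2 hc, fun s hs => ?_⟩
  obtain ⟨e, he, u, hu, rfl⟩ := hdec s hs
  have h1 := h e he
  have h2 := hu.2 c (hE2 hc)
  calc c * (e * u) = (c * e) * u := by group
    _ = e * (c * u) := by rw [h1]; group
    _ = e * (u * c) := by rw [h2]
    _ = _ := by group

lemma tt_cent_uu {E : Subgroup G} (hE2 : E ≤ TT G p) (hE3 : E ⊓ UU G p ≤ Z0 G p)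
    (hdec : ∀ t ∈ TT G p, ∃ e ∈ E, ∃ u ∈ UU G p, t = e * u) {t : G} (ht : t ∈ TT G p)
    (htR : t ∈ Subgroup.centralizer (E : Set G)) : t ∈ UU G p := by
  obtain ⟨e, he, u, hu, rfl⟩ := hdec t ht
  have hez : e ∈ Z0 G p := by
    refine z_of_comm_E hE2 hE3 hdec he fun e' he' => ?_
    have h1 : e' * (e * u) = (e * u) * e' := Subgroup.mem_centralizer_iff.1 htR e' he'
    have h2 : u * e' = e' * u := hu.2 e' (hE2 he')
    have h3 : e' * e * u = e * e' * u := by
      calc e' * e * u = e' * (e * u) := by group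
        _ = e * (u * e') := by rw [h1]; group
        _ = e * (e' * u) := by rw [h2]
        _ = _ := by group
    exact (mul_right_cancel h3).symm
  exact mul_mem (z0_le_uu hez) hu

lemma card_z0_dvd (hcyc : IsCyclic (Subgroup.center G)) : Nat.card (Z0 G p) ∣ p := by
  have hle : Z0 G p ≤ Subgroup.center G := fun z hz => hz.1
  haveI : IsCyclic (Z0 G p) := isCyclic_of_injective (Subgroup.inclusion hle)
    (Subgroup.inclusion_injective hle)
  obtain ⟨g, hg⟩ := IsCyclic.exists_generator (α := Z0 G p)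
  rw [← orderOf_eq_card_of_forall_mem_zpowers hg]
  apply orderOf_dvd_of_pow_eq_one
  exact Subtype.ext g.2.2

lemma card_z0_eq [Nontrivial G] (hG : IsPGroup p G) (hcyc : IsCyclic (Subgroup.center G)) :
    Nat.card (Z0 G p) = p := by
  classical
  have hp : p.Prime := Fact.out
  rcases (Nat.dvd_prime hp).1 (card_z0_dvd hcyc) with h | h
  · exfalso
    haveI := hG.center_nontrivial
    have hcp : IsPGroup p (Subgroup.center G) := hG.to_subgroup _
    obtain ⟨k, hk⟩ := IsPGroup.iff_card.1 hcp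
    have hk0 : k ≠ 0 := by
      rintro rfl
      rw [pow_zero] at hk
      have := Finite.one_lt_card (α := Subgroup.center G)
      omega
    obtain ⟨x, hx⟩ := exists_prime_orderOf_dvd_card' (G := Subgroup.center G) p
      (by rw [hk]; exact dvd_pow_self p hk0)
    have hmem : (x : G) ∈ Z0 G p := by
      refine ⟨x.2, ?_⟩
      have := pow_orderOf_eq_one x
      rw [hx] at this
      simpa using congrArg Subtype.val this
    have hb := Subgroup.card_eq_one.1 h
    rw [hb] at hmem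
    have h1 : x = 1 := Subtype.ext hmem
    rw [h1, orderOf_one] at hx
    exact hp.one_lt.ne hx
  · exact h

lemma index_cent_a (hZ : Nat.card (Z0 G p) ≤ p) {a : G} (ha : a ∈ TT G p) :
    (Subgroup.centralizer ({a} : Set G)).index ≤ p := by
  classical
  let f : G →* Z0 G p :=
    { toFun := fun g => ⟨g * a * g⁻¹ * a⁻¹, tt_comm' ha g⟩
      map_one' := by
        ext
        simp
      map_mul' := fun g h => by
        apply Subtype.ext
        show g * h * a * (g * h)⁻¹ * a⁻¹ = (g * a * g⁻¹ * a⁻¹) * (h * a * h⁻¹ * a⁻¹)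
        have hc := z0_comm (tt_comm' ha h) g
        calc g * h * a * (g * h)⁻¹ * a⁻¹ = g * (h * a * h⁻¹ * a⁻¹) * a * g⁻¹ * a⁻¹ := by group
          _ = (h * a * h⁻¹ * a⁻¹) * g * a * g⁻¹ * a⁻¹ := by rw [← hc]
          _ = (h * a * h⁻¹ * a⁻¹) * (g * a * g⁻¹ * a⁻¹) := by group
          _ = _ := z0_comm (tt_comm' ha h) _ }
  have hker : f.ker ≤ Subgroup.centralizer ({a} : Set G) := by
    intro g hg
    rw [Subgroup.mem_centralizer_singleton_iff]
    have h1 : g * a * g⁻¹ * a⁻¹ = 1 := congrArg Subtype.val (MonoidHom.mem_ker.1 hg)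
    have h2 : g * a * g⁻¹ = a := by
      rw [mul_inv_eq_one] at h1
      exact h1
    rw [mul_inv_eq_iff_eq_mul] at h2
    exact h2
  have h1 : (Subgroup.centralizer ({a} : Set G)).index ≤ f.ker.index :=
    Nat.le_of_dvd (Nat.pos_of_ne_zero Subgroup.index_ne_zero_of_finite)
      (Subgroup.index_dvd_of_le hker)
  rw [Subgroup.index_ker] at h1
  exact h1.trans ((Subgroup.card_le_card_group f.range).trans hZ)

lemma index_cent (hG : IsPGroup p G) (hZ : Nat.card (Z0 G p) ≤ p) (n : ℕ) :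
    ∀ T : Subgroup G, Nat.card T = n → Z0 G p ≤ T → T ≤ TT G p →
      (Subgroup.centralizer (T : Set G)).index * Nat.card (Z0 G p) ≤ Nat.card T := by
  classical
  have hp : p.Prime := Fact.out
  induction n using Nat.strong_induction_on with
  | _ n ih =>
    intro T hT h1 h2
    by_cases hTZ : T = Z0 G p
    · subst hTZ
      have htop : Subgroup.centralizer ((Z0 G p : Subgroup G) : Set G) = ⊤ := by
        rw [eq_top_iff]
        intro g _
        rw [Subgroup.mem_centralizer_iff]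
        intro z hz
        exact z0_comm hz g
      rw [htop, Subgroup.index_top, one_mul]
    · let S : Set (Subgroup G) := {X | Z0 G p ≤ X ∧ X < T}
      have hS : Z0 G p ∈ S := ⟨le_rfl, lt_of_le_of_ne h1 (Ne.symm hTZ)⟩
      obtain ⟨T1, -, hT1⟩ := (Set.toFinite S).exists_le_maximal hS
      obtain ⟨h3, h4⟩ := hT1.prop
      obtain ⟨a, haT, haT1⟩ := SetLike.exists_of_lt h4
      have hsup : T1 ⊔ Subgroup.zpowers a = T := by
        by_contra hne
        have hle : T1 ⊔ Subgroup.zpowers a ≤ T :=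
          sup_le h4.le (by rw [Subgroup.zpowers_le]; exact haT)
        have hX : T1 ⊔ Subgroup.zpowers a ∈ S :=
          ⟨h3.trans le_sup_left, lt_of_le_of_ne hle hne⟩
        have := hT1.le_of_ge hX le_sup_left
        exact haT1 (this ((le_sup_right : Subgroup.zpowers a ≤ _) (Subgroup.mem_zpowers a)))
      have hcard : Nat.card T1 * p ≤ Nat.card T := by
        obtain ⟨j, hj⟩ := IsPGroup.iff_card.1 (hG.to_subgroup T1)
        obtain ⟨k, hk⟩ := IsPGroup.iff_card.1 (hG.to_subgroup T)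
        have hd : Nat.card T1 ∣ Nat.card T := Subgroup.card_dvd_of_le h4.le
        rw [hj, hk] at hd
        have hjk : j ≤ k := (Nat.pow_dvd_pow_iff_le_right hp.one_lt).1 hd
        have hne : j ≠ k := by
          rintro rfl
          exact h4.ne (Subgroup.eq_of_le_of_card_ge h4.le (by rw [hj, hk]))
        rw [hj, hk, ← pow_succ]
        exact Nat.pow_le_pow_right hp.pos (by omega)
      have hlt : Nat.card T1 < n := by
        rw [← hT]
        have : 0 < Nat.card T1 := Nat.card_pos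
        have := hp.two_le
        nlinarith
      have hih := ih _ hlt T1 rfl h3 (h4.le.trans h2)
      have hcle : Subgroup.centralizer (T1 : Set G) ⊓ Subgroup.centralizer ({a} : Set G) ≤
          Subgroup.centralizer (T : Set G) := by
        rintro g ⟨hg1, hg2⟩
        rw [Subgroup.mem_centralizer_iff]
        have hgT : T ≤ Subgroup.centralizer ({g} : Set G) := by
          rw [← hsup]
          apply sup_le
          · intro x hx
            rw [Subgroup.mem_centralizer_singleton_iff]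
            exact Subgroup.mem_centralizer_iff.1 hg1 x hx
          · rw [Subgroup.zpowers_le, Subgroup.mem_centralizer_singleton_iff]
            exact (Subgroup.mem_centralizer_singleton_iff.1 hg2).symm
        intro x hx
        exact Subgroup.mem_centralizer_singleton_iff.1 (hgT hx)
      have hi1 : (Subgroup.centralizer (T : Set G)).index ≤
          (Subgroup.centralizer (T1 : Set G)).index * (Subgroup.centralizer ({a} : Set G)).index :=
        (Nat.le_of_dvd (Nat.pos_of_ne_zero Subgroup.index_ne_zero_of_finite)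
          (Subgroup.index_dvd_of_le hcle)).trans Subgroup.index_inf_le
      have hi2 := index_cent_a hZ (h2 haT)
      calc (Subgroup.centralizer (T : Set G)).index * Nat.card (Z0 G p)
          ≤ ((Subgroup.centralizer (T1 : Set G)).index *
              (Subgroup.centralizer ({a} : Set G)).index) * Nat.card (Z0 G p) :=
            Nat.mul_le_mul_right _ hi1
        _ = ((Subgroup.centralizer (T1 : Set G)).index * Nat.card (Z0 G p)) *
              (Subgroup.centralizer ({a} : Set G)).index := by ring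
        _ ≤ Nat.card T1 * p := Nat.mul_le_mul hih hi2
        _ ≤ Nat.card T := hcard

lemma sup_cent_top {E Z : Subgroup G}
    (hidx : (Subgroup.centralizer (E : Set G)).index * Nat.card Z ≤ Nat.card E)
    (hinf : Subgroup.centralizer (E : Set G) ⊓ E = Z) :
    E ⊔ Subgroup.centralizer (E : Set G) = ⊤ := by
  classical
  set R := Subgroup.centralizer (E : Set G) with hR
  have hZE : Z ≤ E := by rw [← hinf]; exact inf_le_right
  have h1 : Nat.card Z * R.relIndex E = Nat.card E := by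
    rw [← Subgroup.inf_relIndex_left, inf_comm, hinf, ← Subgroup.relIndex_bot_left,
      ← Subgroup.relIndex_bot_left]
    exact Subgroup.relIndex_mul_relIndex _ _ _ bot_le hZE
  have hZpos : 0 < Nat.card Z := Nat.card_pos
  have h2 : R.index ≤ R.relIndex E := by
    have : R.index * Nat.card Z ≤ R.relIndex E * Nat.card Z := by
      rw [mul_comm (R.relIndex E), h1]
      exact hidx
    exact Nat.le_of_mul_le_mul_right this hZpos
  have h3 : R.relIndex E ≤ R.relIndex (E ⊔ R) :=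
    Subgroup.relIndex_le_of_le_right le_sup_left
      (by
        intro h0
        have h4 := Subgroup.relIndex_mul_index (H := R) (K := E ⊔ R) le_sup_right
        rw [h0, zero_mul] at h4
        exact Subgroup.index_ne_zero_of_finite h4.symm)
  have h4 := Subgroup.relIndex_mul_index (H := R) (K := E ⊔ R) le_sup_right
  have hRpos : 0 < R.index := Nat.pos_of_ne_zero Subgroup.index_ne_zero_of_finite
  have h5 : (E ⊔ R).index = 1 := by
    have hpos : 0 < R.relIndex (E ⊔ R) := by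
      have : R.relIndex (E ⊔ R) ≠ 0 := by
        intro h0
        rw [h0, zero_mul] at h4
        omega
      omega
    have h6 : R.relIndex (E ⊔ R) * (E ⊔ R).index ≤ R.relIndex (E ⊔ R) * 1 := by
      rw [h4, mul_one]
      exact h2.trans h3
    have h7 := Nat.le_of_mul_le_mul_left h6 hpos
    have h8 : (E ⊔ R).index ≠ 0 := Subgroup.index_ne_zero_of_finite
    omega
  exact Subgroup.index_eq_one.1 h5

lemma exists_V {P : Type*} [Group P] [Finite P] (hP : IsPGroup p P) {A : Subgroup P}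
    (hAn : A.Normal) (hAc : IsMulCommutative A) (hnc : ¬ IsCyclic A) :
    ∃ D : Subgroup P, D ≤ A ∧ D.Normal ∧ (∀ a ∈ D, ∀ b ∈ D, a * b = b * a) ∧
      (∀ a ∈ D, a ^ p = 1) ∧ Nat.card D = p ^ 2 := by
  classical
  have hp : p.Prime := Fact.out
  haveI : Group.IsNilpotent P := hP.isNilpotent
  have hcomm : ∀ a ∈ A, ∀ b ∈ A, a * b = b * a := fun a ha b hb =>
    congrArg Subtype.val (hAc.is_comm.comm ⟨a, ha⟩ ⟨b, hb⟩)
  let B : Subgroup P :=
    { carrier := {a | a ∈ A ∧ a ^ p = 1}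
      mul_mem' := by
        rintro a b ⟨ha, ha'⟩ ⟨hb, hb'⟩
        refine ⟨mul_mem ha hb, ?_⟩
        have : Commute a b := hcomm a ha b hb
        rw [this.mul_pow, ha', hb', one_mul]
      one_mem' := ⟨one_mem _, one_pow _⟩
      inv_mem' := by
        rintro a ⟨ha, ha'⟩
        exact ⟨inv_mem ha, by rw [inv_pow, ha', inv_one]⟩ }
  have hBn : B.Normal := by
    constructor
    rintro a ⟨ha, ha'⟩ g
    refine ⟨hAn.conj_mem a ha g, ?_⟩
    rw [conj_pow, ha']
    group
  have hBc : IsMulCommutative B := by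
    constructor
    constructor
    rintro ⟨a, ha⟩ ⟨b, hb⟩
    exact Subtype.ext (hcomm a ha.1 b hb.1)
  obtain ⟨a, ha⟩ := IsPGroup.iff_card.1 (hP.to_subgroup B)
  have ha2 : 2 ≤ a := by
    by_contra hlt
    apply hnc
    apply H14.isCyclic_of_comm_uniqueP (p := p) (hP.to_subgroup A)
      (fun x y => hAc.is_comm.comm x y)
    intro x y hx hy
    have hxB : (x : P) ∈ B := ⟨x.2, by
      have := pow_orderOf_eq_one x
      rw [hx] at this
      simpa using congrArg Subtype.val this⟩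
    have hyB : (y : P) ∈ B := ⟨y.2, by
      have := pow_orderOf_eq_one y
      rw [hy] at this
      simpa using congrArg Subtype.val this⟩
    have hcardx : Nat.card (Subgroup.zpowers (x : P)) = p := by
      rw [Nat.card_zpowers, Subgroup.orderOf_coe, hx]
    have hle : Subgroup.zpowers (x : P) ≤ B := by
      rw [Subgroup.zpowers_le]; exact hxB
    have heq : Subgroup.zpowers (x : P) = B := by
      apply Subgroup.eq_of_le_of_card_ge hle
      rw [ha, hcardx]
      calc p ^ a ≤ p ^ 1 := Nat.pow_le_pow_right hp.pos (by omega)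
        _ = p := pow_one p
    rw [← heq] at hyB
    obtain ⟨k, hk⟩ := Subgroup.mem_zpowers_iff.1 hyB
    exact Subgroup.mem_zpowers_iff.2 ⟨k, Subtype.ext (by simpa using hk)⟩
  obtain ⟨D, hDB, hDn, hDc⟩ := H18.exists_normal_le_card_eq (G := P) hBn hBc (d := p ^ 2)
    (by rw [ha]; exact pow_dvd_pow p ha2)
  exact ⟨D, fun x hx => (hDB hx).1, hDn, fun a ha b hb => hcomm a (hDB ha).1 b (hDB hb).1,
    fun a ha => (hDB ha).2, hDc⟩

lemma v_false (hG : IsPGroup p G) (hUc : IsCyclic (UU G p)) {E : Subgroup G} (hE1 : Z0 G p ≤ E)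
    (hE2 : E ≤ TT G p) (hE3 : E ⊓ UU G p ≤ Z0 G p)
    (hdec : ∀ t ∈ TT G p, ∃ e ∈ E, ∃ u ∈ UU G p, t = e * u)
    (hgen : ∀ g : G, ∃ e ∈ E, ∃ r ∈ Subgroup.centralizer (E : Set G), g = e * r)
    {V : Subgroup G} (hVR : V ≤ Subgroup.centralizer (E : Set G))
    (hVn : ∀ r ∈ Subgroup.centralizer (E : Set G), ∀ v ∈ V, r * v * r⁻¹ ∈ V)
    (hVc : ∀ a ∈ V, ∀ b ∈ V, a * b = b * a) (hVe : ∀ a ∈ V, a ^ p = 1)
    (hcard : Nat.card V = p ^ 2) : False := by
  classical
  have hp : p.Prime := Fact.out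
  have hVnorm : V.Normal := by
    constructor
    intro v hv g
    obtain ⟨e, he, r, hr, rfl⟩ := hgen g
    have h1 := hVn r hr v hv
    have h2 : e * (r * v * r⁻¹) = (r * v * r⁻¹) * e :=
      Subgroup.mem_centralizer_iff.1 (hVR h1) e he
    have e1 : e * r * v * (e * r)⁻¹ = (e * (r * v * r⁻¹)) * e⁻¹ := by group
    rw [e1, h2]
    simpa using h1
  have hVTT : V ≤ TT G p := by
    intro v hv
    refine ⟨by rw [hVe v hv]; exact one_mem _, fun g => ?_⟩
    have hc := H01.comm_central_of_card_sq hG hVnorm hVc hVe hcard g v hv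
    have hm : g * v * g⁻¹ * v⁻¹ ∈ V := mul_mem (hVnorm.conj_mem v hv g) (inv_mem hv)
    have hz : g * v * g⁻¹ * v⁻¹ ∈ Z0 G p := ⟨hc, hVe _ hm⟩
    have e1 : v * g * v⁻¹ * g⁻¹ = (g * v * g⁻¹ * v⁻¹)⁻¹ := by group
    rw [e1]
    exact inv_mem hz
  have hVU : V ≤ UU G p := fun v hv => tt_cent_uu hE2 hE3 hdec (hVTT hv) (hVR hv)
  haveI : IsCyclic V := isCyclic_of_injective (Subgroup.inclusion hVU)
    (Subgroup.inclusion_injective hVU)
  obtain ⟨g, hg⟩ := IsCyclic.exists_generator (α := V)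
  have h1 := orderOf_eq_card_of_forall_mem_zpowers hg
  rw [hcard] at h1
  have h2 : g ^ p = 1 := Subtype.ext (by simpa using hVe g g.2)
  have h3 := orderOf_dvd_of_pow_eq_one h2
  rw [h1] at h3
  have h4 := Nat.le_of_dvd hp.pos h3
  nlinarith [hp.two_le]

lemma quat2_facts (x y : QuaternionGroup 2) :
    x ^ 2 * y = y * x ^ 2 ∧ (x ^ 2) ^ 2 = 1 ∧ (x * y * x⁻¹ * y⁻¹) ^ 2 = 1 ∧
      ∀ z : QuaternionGroup 2, (x * y * x⁻¹ * y⁻¹) * z = z * (x * y * x⁻¹ * y⁻¹) := by
  revert x y
  decide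

lemma central_of_R {E : Subgroup G}
    (hgen : ∀ g : G, ∃ e ∈ E, ∃ r ∈ Subgroup.centralizer (E : Set G), g = e * r)
    {c : G} (hc : c ∈ Subgroup.centralizer (E : Set G))
    (h : ∀ r ∈ Subgroup.centralizer (E : Set G), c * r = r * c) (g : G) : c * g = g * c := by
  obtain ⟨e, he, r, hr, rfl⟩ := hgen g
  have h1 : e * c = c * e := Subgroup.mem_centralizer_iff.1 hc e he
  calc c * (e * r) = (c * e) * r := by group
    _ = e * (c * r) := by rw [← h1]; group
    _ = e * (r * c) := by rw [h r hr]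
    _ = _ := by group

lemma transfer_false (hG : IsPGroup p G) (hUc : IsCyclic (UU G p)) {E : Subgroup G} (hE1 : Z0 G p ≤ E)
    (hE2 : E ≤ TT G p) (hE3 : E ⊓ UU G p ≤ Z0 G p)
    (hdec : ∀ t ∈ TT G p, ∃ e ∈ E, ∃ u ∈ UU G p, t = e * u)
    (hgen : ∀ g : G, ∃ e ∈ E, ∃ r ∈ Subgroup.centralizer (E : Set G), g = e * r)
    (A : Subgroup (Subgroup.centralizer (E : Set G))) (hAn : A.Normal)
    (hAc : ∀ a ∈ A, ∀ b ∈ A, a * b = b * a) (hAe : ∀ a ∈ A, a ^ p = 1)
    (hcard : Nat.card A = p ^ 2) : False := by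
  classical
  refine v_false hG hUc hE1 hE2 hE3 hdec hgen (V := A.map (Subgroup.subtype _))
    (Subgroup.map_subtype_le A) ?_ ?_ ?_ ?_
  · rintro r hr v ⟨a, ha, rfl⟩
    exact ⟨⟨r, hr⟩ * a * ⟨r, hr⟩⁻¹, hAn.conj_mem a ha ⟨r, hr⟩, rfl⟩
  · rintro _ ⟨a, ha, rfl⟩ _ ⟨b, hb, rfl⟩
    exact congrArg Subtype.val (hAc a ha b hb)
  · rintro _ ⟨a, ha, rfl⟩
    exact congrArg Subtype.val (hAe a ha)
  · rw [Subgroup.card_map_of_injective (Subgroup.subtype_injective _), hcard]

lemma r_case_two {G : Type*} [Group G] [Finite G] [Fact (Nat.Prime 2)] (hG : IsPGroup 2 G)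
    (hUc : IsCyclic (UU G 2)) {E : Subgroup G} (hE1 : Z0 G 2 ≤ E)
    (hE2 : E ≤ TT G 2) (hE3 : E ⊓ UU G 2 ≤ Z0 G 2)
    (hdec : ∀ t ∈ TT G 2, ∃ e ∈ E, ∃ u ∈ UU G 2, t = e * u)
    (hgen : ∀ g : G, ∃ e ∈ E, ∃ r ∈ Subgroup.centralizer (E : Set G), g = e * r)
    (hRnc : ¬ IsCyclic (Subgroup.centralizer (E : Set G)))
    (e : (Subgroup.centralizer (E : Set G)) ≃* QuaternionGroup 2) : False := by
  classical
  apply hRnc
  set R := Subgroup.centralizer (E : Set G) with hR
  have hcent : ∀ c : R, (∀ r : R, c * r = r * c) → c ^ 2 = 1 → (c : G) ∈ Z0 G 2 := by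
    intro c hc hc2
    refine ⟨Subgroup.mem_center_iff.2 fun g => ?_, congrArg Subtype.val hc2⟩
    refine (central_of_R hgen c.2 (fun r hr => ?_) g).symm
    exact congrArg Subtype.val (hc ⟨r, hr⟩)
  have hRle : R ≤ UU G 2 := by
    intro r hr
    refine tt_cent_uu hE2 hE3 hdec ?_ hr
    let r' : R := ⟨r, hr⟩
    have hsq : r ^ 2 ∈ Z0 G 2 := by
      refine hcent (r' ^ 2) (fun s => ?_) ?_
      · apply e.injective
        have := (quat2_facts (e r') (e s)).1
        simpa [map_mul, map_pow] using this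
      · apply e.injective
        have := (quat2_facts (e r') (e r')).2.1
        simpa [map_mul, map_pow] using this
    have hcomm : ∀ s : R, ((r' * s * r'⁻¹ * s⁻¹ : R) : G) ∈ Z0 G 2 := by
      intro s
      refine hcent _ (fun t => ?_) ?_
      · apply e.injective
        have := (quat2_facts (e r') (e s)).2.2.2 (e t)
        simpa [map_mul, map_inv] using this
      · apply e.injective
        have := (quat2_facts (e r') (e s)).2.2.1
        simpa [map_mul, map_pow, map_inv] using this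
    refine ⟨hsq, fun g => ?_⟩
    obtain ⟨x, hx, s, hs, rfl⟩ := hgen g
    have h := hcomm ⟨s, hs⟩
    have hval : ((r' * ⟨s, hs⟩ * r'⁻¹ * (⟨s, hs⟩ : R)⁻¹ : R) : G) = r * s * r⁻¹ * s⁻¹ := rfl
    rw [hval] at h
    have hxr : x * r = r * x := Subgroup.mem_centralizer_iff.1 hr x hx
    have hxs : x * s = s * x := Subgroup.mem_centralizer_iff.1 hs x hx
    have e1 : r * (x * s) * r⁻¹ * (x * s)⁻¹ = x * (r * s * r⁻¹ * s⁻¹) * x⁻¹ := by
      calc r * (x * s) * r⁻¹ * (x * s)⁻¹ = (r * x) * s * r⁻¹ * s⁻¹ * x⁻¹ := by group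
        _ = (x * r) * s * r⁻¹ * s⁻¹ * x⁻¹ := by rw [hxr]
        _ = _ := by group
    rw [e1, mul_assoc, z0_comm h, ← mul_assoc, mul_inv_cancel, one_mul]
    exact h
  have : IsCyclic R := isCyclic_of_injective (Subgroup.inclusion hRle)
    (Subgroup.inclusion_injective hRle)
  exact this

lemma r_case (hG : IsPGroup p G) (hUc : IsCyclic (UU G p)) {E : Subgroup G} (hE1 : Z0 G p ≤ E)
    (hE2 : E ≤ TT G p) (hE3 : E ⊓ UU G p ≤ Z0 G p)
    (hdec : ∀ t ∈ TT G p, ∃ e ∈ E, ∃ u ∈ UU G p, t = e * u)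
    (hgen : ∀ g : G, ∃ e ∈ E, ∃ r ∈ Subgroup.centralizer (E : Set G), g = e * r) :
    IsCyclic (Subgroup.centralizer (E : Set G)) ∨
      (p = 2 ∧ 16 ≤ Nat.card (Subgroup.centralizer (E : Set G)) ∧
        ((∃ m : ℕ, Nonempty (↥(Subgroup.centralizer (E : Set G)) ≃* DihedralGroup m)) ∨
          (∃ m : ℕ, Nonempty (↥(Subgroup.centralizer (E : Set G)) ≃* QuaternionGroup m)) ∨
            Cfsg.IsQuasiDihedral ↥(Subgroup.centralizer (E : Set G)))) := by
  classical
  have hpp : p.Prime := Fact.out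
  by_cases hRc : IsCyclic (Subgroup.centralizer (E : Set G))
  · exact Or.inl hRc
  right
  have hRp : IsPGroup p (Subgroup.centralizer (E : Set G)) := hG.to_subgroup _
  by_cases hp2 : p = 2
  · subst hp2
    refine ⟨rfl, ?_⟩
    have hn : ∀ A : Subgroup (Subgroup.centralizer (E : Set G)), A.Normal →
        IsMulCommutative A → IsCyclic A := by
      intro A hAn hAc
      by_contra hnc
      obtain ⟨D, hDA, hDn, hDc, hDe, hDcard⟩ := exists_V hRp hAn hAc hnc
      exact transfer_false hG hUc hE1 hE2 hE3 hdec hgen D hDn hDc hDe hDcard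
    rcases H18.roquette_two hRp hn hRc with ⟨n, ⟨e⟩⟩ | ⟨n, hn8, ⟨e⟩⟩ | hq
    · have hcard : 16 ≤ Nat.card (Subgroup.centralizer (E : Set G)) := by
        rw [Nat.card_congr e.toEquiv]
        by_contra hlt
        haveI : Finite (QuaternionGroup n) := Finite.of_equiv _ e.toEquiv
        have hn0 : n ≠ 0 := by
          rintro rfl
          have hinj : Function.Injective (QuaternionGroup.a : ZMod (2 * 0) → QuaternionGroup 0) :=
            fun x y h => by simpa using h
          haveI : Finite ℤ := Finite.of_injective (β := QuaternionGroup 0)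
            (QuaternionGroup.a : ZMod (2 * 0) → QuaternionGroup 0) hinj
          exact not_finite ℤ
        haveI : NeZero n := ⟨hn0⟩
        have hqc : ∀ (m : ℕ) [NeZero m], Nat.card (QuaternionGroup m) = 4 * m := fun m _ => by
          rw [Nat.card_eq_fintype_card, QuaternionGroup.card]
        rw [hqc] at hlt
        have hle : n ≤ 3 := by omega
        interval_cases n
        · omega
        · apply hRc
          have h4 : Nat.card (QuaternionGroup 1) = orderOf (QuaternionGroup.xa (0 : ZMod (2 * 1))) := by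
            rw [hqc, QuaternionGroup.orderOf_xa]
          have hc : IsCyclic (QuaternionGroup 1) := isCyclic_of_orderOf_eq_card _ h4.symm
          exact isCyclic_of_injective e.toMonoidHom e.injective
        · exact r_case_two hG hUc hE1 hE2 hE3 hdec hgen hRc e
        · obtain ⟨k, hk⟩ := IsPGroup.iff_card.1 hRp
          rw [Nat.card_congr e.toEquiv, hqc] at hk
          have h3 : 3 ∣ 2 ^ k := by rw [← hk]; norm_num
          have := Nat.Prime.dvd_of_dvd_pow Nat.prime_three h3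
          omega
      refine ⟨?_, Or.inr (Or.inl ⟨n, ⟨e⟩⟩)⟩
      rwa [Nat.card_congr e.toEquiv] at hcard ⊢
    · refine ⟨?_, Or.inl ⟨n, ⟨e⟩⟩⟩
      rw [Nat.card_congr e.toEquiv, DihedralGroup.nat_card]
      omega
    · refine ⟨?_, Or.inr (Or.inr hq)⟩
      obtain ⟨n, hn3, hc, -⟩ := hq
      rw [hc]
      calc 16 = 2 ^ 4 := by norm_num
        _ ≤ 2 ^ (n + 1) := Nat.pow_le_pow_right (by norm_num) (by omega)
  · exfalso
    obtain ⟨A, hAn, hAe, hAc⟩ := H01.exists_normal_elementary_sq hRp hp2 hRc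
    refine transfer_false hG hUc hE1 hE2 hE3 hdec hgen A hAn ?_ ?_ hAc
    · intro a ha b hb
      have := hAe.1.is_comm.comm (⟨a, ha⟩ : A) ⟨b, hb⟩
      exact congrArg Subtype.val this
    · intro a ha
      exact hAe.2 a ha

lemma e_extraspecial [Nontrivial G] (hG : IsPGroup p G) (hcyc : IsCyclic (Subgroup.center G))
    {E : Subgroup G} (hE1 : Z0 G p ≤ E)
    (hE2 : E ≤ TT G p) (hE3 : E ⊓ UU G p ≤ Z0 G p)
    (hdec : ∀ t ∈ TT G p, ∃ e ∈ E, ∃ u ∈ UU G p, t = e * u) (hne : E ≠ Z0 G p) :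
    Cfsg.IsExtraspecial p ↥E := by
  classical
  have hcen : Subgroup.center ↥E = (Z0 G p).subgroupOf E := by
    ext x
    rw [Subgroup.mem_subgroupOf, Subgroup.mem_center_iff]
    constructor
    · intro h
      refine z_of_comm_E hE2 hE3 hdec x.2 fun e he => ?_
      exact (congrArg Subtype.val (h ⟨e, he⟩)).symm
    · intro h g
      exact Subtype.ext (z0_comm h g.1).symm
  apply H18.isExtraspecial_of (hG.to_subgroup E)
  · rw [hcen, Nat.card_congr (Subgroup.subgroupOfEquivOfLe hE1).toEquiv]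
    exact card_z0_eq hG hcyc
  · intro x
    rw [hcen, Subgroup.mem_subgroupOf]
    exact (hE2 x.2).1
  · intro x y
    rw [hcen, Subgroup.mem_subgroupOf]
    exact (hE2 x.2).2 y.1
  · by_contra hall
    push Not at hall
    apply hne
    apply le_antisymm _ hE1
    intro c hc
    refine z_of_comm_E hE2 hE3 hdec hc fun e he => ?_
    have h1 := hall ⟨c, hc⟩ ⟨e, he⟩
    have h2 : c * e * c⁻¹ * e⁻¹ = 1 := congrArg Subtype.val h1
    rw [mul_inv_eq_one, mul_inv_eq_iff_eq_mul] at h2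
    exact h2

end main


/-- Let G be a finite p-group of symplectic type: every characteristic abelian subgroup of G is cyclic. Then G = E ∗ R is a central product of subgroups E and R (they commute elementwise and generate G) where E is extraspecial or trivial, and R is cyclic, or p = 2 and R is dihedral, semidihedral or generalized quaternion of order at least 16. -/
theorem result {G : Type*} [Group G] [Finite G] {p : ℕ} [Fact p.Prime] (hG : IsPGroup p G) (hsymp : ∀ A : Subgroup G, A.Characteristic → IsMulCommutative A → IsCyclic A) : ∃ E R : Subgroup G, (∀ e ∈ E, ∀ r ∈ R, e * r = r * e) ∧ E ⊔ R = ⊤ ∧ (E = ⊥ ∨ Cfsg.IsExtraspecial p ↥E) ∧ (IsCyclic R ∨ (p = 2 ∧ 16 ≤ Nat.card R ∧ ((∃ m : ℕ, Nonempty (↥R ≃* DihedralGroup m)) ∨ (∃ m : ℕ, Nonempty (↥R ≃* QuaternionGroup m)) ∨ Cfsg.IsQuasiDihedral ↥R))) := by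
  classical
have hp : p.Prime := Fact.out
have hZcyc : IsCyclic (Subgroup.center G) := hsymp _ inferInstance inferInstance
have hUcyc : IsCyclic (UU G p) := hsymp _ uu_char uu_comm
have hZle : Nat.card (Z0 G p) ≤ p := Nat.le_of_dvd hp.pos (card_z0_dvd hZcyc)
obtain ⟨E, hE1, hE2, hE3, hdec⟩ := exists_E (G := G) (p := p)
have hidx := index_cent hG hZle _ E rfl hE1 hE2
have hinf : Subgroup.centralizer (E : Set G) ⊓ E = Z0 G p := by
  apply le_antisymm
  · rintro x ⟨hx, hxE⟩
    refine z_of_comm_E hE2 hE3 hdec hxE fun e he => ?_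
    exact (Subgroup.mem_centralizer_iff.1 hx e he).symm
  · intro z hz
    refine ⟨?_, hE1 hz⟩
    show z ∈ Subgroup.centralizer (E : Set G)
    rw [Subgroup.mem_centralizer_iff]
    intro e _
    exact (z0_comm hz e).symm
have hsup := sup_cent_top hidx hinf
haveI hEn : E.Normal := normal_of_between hE1 hE2
have hgen : ∀ g : G, ∃ e ∈ E, ∃ r ∈ Subgroup.centralizer (E : Set G), g = e * r := by
  intro g
  have h : g ∈ ((E ⊔ Subgroup.centralizer (E : Set G) : Subgroup G) : Set G) := by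
    rw [hsup]; trivial
  rw [Subgroup.normal_mul] at h
  obtain ⟨e, he, r, hr, rfl⟩ := h
  exact ⟨e, he, r, hr, rfl⟩
have hRc := r_case hG hUcyc hE1 hE2 hE3 hdec hgen
by_cases hEZ : E = Z0 G p
· refine ⟨⊥, Subgroup.centralizer (E : Set G), ?_, ?_, Or.inl rfl, hRc⟩
  · intro e he r _
    rw [Subgroup.mem_bot] at he
    rw [he, one_mul, mul_one]
  · rw [bot_sup_eq, eq_top_iff]
    intro g _
    rw [Subgroup.mem_centralizer_iff]
    intro e he
    rw [hEZ] at he
    exact (z0_comm he g)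
· refine ⟨E, Subgroup.centralizer (E : Set G), ?_, hsup, Or.inr ?_, hRc⟩
  · intro e he r hr
    exact Subgroup.mem_centralizer_iff.1 hr e he
  · haveI : Nontrivial G := by
      by_contra hnt
      rw [not_nontrivial_iff_subsingleton] at hnt
      exact hEZ (Subsingleton.elim _ _)
    exact e_extraspecial hG hZcyc hE1 hE2 hE3 hdec hEZ

end Cfsg.Agent.S3762
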