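import Cfsg.Statements.S3763
import Cfsg.Agent.Lib.H29.ExtraSp2
-- import your own Cfsg.Agent.* helpers here

set_option autoImplicit false
open Cfsg

namespace Cfsg.Agent.S3763

/-- Let E be an extraspecial 2-group of order 2^(2n+1). Then the largest elementary abelian subgroups of E have order 2^n or 2^(n+1); and two extraspecial 2-groups of the same order whose largest elementary abelian subgroups have the same order are isomorphic. -/
theorem result {E : Type*} [Group E] [Finite E] (hE : Cfsg.IsExtraspecial 2 E) (n : ℕ) (hn : Nat.card E = 2 ^ (2 * n + 1)) : ((Cfsg.PRankLE 2 n E ∧ ¬ Cfsg.PRankLE 2 (n - 1) E) ∨ (Cfsg.PRankLE 2 (n + 1) E ∧ ¬ Cfsg.PRankLE 2 n E)) ∧ ∀ (E' : Type*) [Group E'] [Finite E'], Cfsg.IsExtraspecial 2 E' → Nat.card E' = Nat.card E → (∀ k : ℕ, Cfsg.PRankLE 2 k E ↔ Cfsg.PRankLE 2 k E') → Nonempty (E ≃* E') := by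
  classical
  obtain ⟨z, hxs, hnab⟩ := H29.XS.xs_of_extraspecial hE
  obtain ⟨m, ε, ht⟩ := H29.XS.ty_exists _ E z hxs rfl
  have hmn : m = n := by
    have h1 := ht.card
    rw [hn] at h1
    have := Nat.pow_right_injective (le_refl 2) h1
    omega
  subst hmn
  have hm := ht.one_le hnab
  have hprk : ∀ k, m + cond ε 1 0 ≤ k → Cfsg.PRankLE 2 k E := by
    intro k hk A _ hA
    have h1 := ht.ub A (fun a ha => by rw [← pow_two]; exact hA a ha)
    exact h1.trans (Nat.pow_le_pow_right (by norm_num) hk)
  have hnot : ∀ k, k < m + cond ε 1 0 → ¬ Cfsg.PRankLE 2 k E := by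
    intro k hk hr
    obtain ⟨A, hA, hAc⟩ := ht.ex
    have hc : IsMulCommutative A := by
      refine ⟨⟨fun a b => Subtype.ext ?_⟩⟩
      exact H29.XS.comm_of_exp2 hA a.2 b.2
    have h1 := hr A hc (fun a ha => by rw [pow_two]; exact hA a ha)
    rw [hAc] at h1
    have h2 := Nat.pow_lt_pow_right (a := 2) (by norm_num) hk
    omega
  constructor
  · cases ε
    · left
      exact ⟨hprk _ (by simp), hnot _ (by simp; omega)⟩
    · right
      exact ⟨hprk _ (by simp), hnot _ (by simp)⟩
  · intro E' _ _ hE' hc hr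
    obtain ⟨z', hxs', hnab'⟩ := H29.XS.xs_of_extraspecial hE'
    obtain ⟨m', ε', ht'⟩ := H29.XS.ty_exists _ E' z' hxs' rfl
    have hmm : m' = m := by
      have h1 := ht'.card
      rw [hc, hn] at h1
      have := Nat.pow_right_injective (le_refl 2) h1
      omega
    subst hmm
    have hprk' : ∀ k, m' + cond ε' 1 0 ≤ k → Cfsg.PRankLE 2 k E' := by
      intro k hk A _ hA
      have h1 := ht'.ub A (fun a ha => by rw [← pow_two]; exact hA a ha)
      exact h1.trans (Nat.pow_le_pow_right (by norm_num) hk)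
    have hnot' : ∀ k, k < m' + cond ε' 1 0 → ¬ Cfsg.PRankLE 2 k E' := by
      intro k hk hr
      obtain ⟨A, hA, hAc⟩ := ht'.ex
      have hc : IsMulCommutative A := by
        refine ⟨⟨fun a b => Subtype.ext ?_⟩⟩
        exact H29.XS.comm_of_exp2 hA a.2 b.2
      have h1 := hr A hc (fun a ha => by rw [pow_two]; exact hA a ha)
      rw [hAc] at h1
      have h2 := Nat.pow_lt_pow_right (a := 2) (by norm_num) hk
      omega
    have hεε : ε' = ε := by
      cases ε <;> cases ε'
      · rfl
      · exact absurd ((hr m').1 (hprk _ (by simp))) (hnot' _ (by simp))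
      · exact absurd ((hr m').2 (hprk' _ (by simp))) (hnot _ (by simp))
      · rfl
    subst hεε
    have hs : H29.XS.sq1 E = H29.XS.sq1 E' := by
      have h1 := ht.nn
      have h2 := ht'.nn
      cases ε'
      · simp only [cond_false] at h1 h2
        omega
      · simp only [cond_true] at h1 h2
        omega
    exact H29.XS.iso_exists _ E z E' z' hxs hxs' rfl hc hs

end Cfsg.Agent.S3763
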