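import Cfsg.Statements.S3764
import Cfsg.Agent.Lib.H26.ExtraRep2
import Cfsg.Agent.Lib.H18.Syl
import Mathlib

set_option autoImplicit false
set_option linter.style.haveILetI false
set_option linter.unusedVariables false

namespace Cfsg.Agent.S3764

open Cfsg Module
open Cfsg.Agent.H26.ExtraRep

/-- Let p, q, r be distinct primes and let X, Q, V be subgroups of a finite group with X of order r, Q an extraspecial q-group normalized by X with C_Q(X) = Z(Q), and V an elementary abelian p-group normalized by X and Q on which XQ acts faithfully ((X ⊔ Q) ∩ C(V) = 1). If C_V(X) = 1, then q = 2, r = 2^n + 1 for some n, and Q has order 2^(2n+1). -/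
theorem result {G : Type*} [Group G] [Finite G] {p q r : ℕ} (hp : p.Prime) (hq : q.Prime) (hr : r.Prime) (hpq : p ≠ q) (hpr : p ≠ r) (hqr : q ≠ r) (X Q V : Subgroup G) (hX : Nat.card X = r) (hQ : Cfsg.IsExtraspecial q ↥Q) (hXQ : X ≤ Subgroup.normalizer (Q : Set G)) (hCQ : Q ⊓ Subgroup.centralizer (X : Set G) = (Subgroup.center ↥Q).map Q.subtype) (hV : Cfsg.IsElementaryAbelian p V) (hXV : X ≤ Subgroup.normalizer (V : Set G)) (hQV : Q ≤ Subgroup.normalizer (V : Set G)) (hfaith : (X ⊔ Q) ⊓ Subgroup.centralizer (V : Set G) = ⊥) (hCV : V ⊓ Subgroup.centralizer (X : Set G) = ⊥) : q = 2 ∧ ∃ n : ℕ, r = 2 ^ n + 1 ∧ Nat.card Q = 2 ^ (2 * n + 1) := by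
  classical
  haveI hfp : Fact p.Prime := ⟨hp⟩
  haveI hfq : Fact q.Prime := ⟨hq⟩
  haveI hfr : Fact r.Prime := ⟨hr⟩
  set Z := (Subgroup.center ↥Q).map Q.subtype with hZ
  have D : ExtraFacts Q Z q := extraFacts Q hQ
  -- a generator of `X`
  haveI : IsCyclic X := isCyclic_of_prime_card hX
  obtain ⟨x', hx'⟩ := IsCyclic.exists_generator (α := X)
  have hord : orderOf (x' : G) = r := by
    rw [Subgroup.orderOf_coe, ← hX]
    exact orderOf_eq_card_of_forall_mem_zpowers hx'
  set x : G := (x' : G) with hx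
  have hxX : x ∈ X := x'.2
  have hXle : X ≤ Subgroup.zpowers x := by
    intro g hg
    obtain ⟨k, hk⟩ := Subgroup.mem_zpowers_iff.mp (hx' ⟨g, hg⟩)
    exact Subgroup.mem_zpowers_iff.mpr ⟨k, congrArg Subtype.val hk⟩
  have hpos : 0 < r := hr.pos
  have hrpow : x ^ r = 1 := by rw [← hord]; exact pow_orderOf_eq_one x
  have hZfix : ∀ g ∈ X, ∀ z ∈ Z, g * z * g⁻¹ = z := by
    intro g hg z hz
    rw [← hCQ] at hz
    have h3 := Subgroup.mem_centralizer_iff.mp hz.2 g hg
    rw [h3]
    group
  have hpowX : ∀ k, x ^ k ∈ X := fun k => X.pow_mem hxX k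
  have hfree : ∀ k, 0 < k → k < r → ∀ y ∈ Q, x ^ k * y * (x ^ k)⁻¹ * y⁻¹ ∈ Z → y ∈ Z := by
    intro k hk hkh y hy hmem
    have h3 := conj_eq_of_stab (g := x ^ k) (y := y) (h := r) (q := q)
      (by rw [← pow_mul, mul_comm, pow_mul, hrpow, one_pow])
      (hZfix _ (hpowX k) _ hmem) (D.cent _ hmem y hy) (D.exp _ hmem)
      ((Nat.coprime_primes hr hq).mpr hqr.symm) rfl
    rw [← hCQ]
    refine ⟨hy, ?_⟩
    change y ∈ Subgroup.centralizer (X : Set G)
    have hcop : Nat.Coprime k (orderOf x) := by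
      rw [hord]
      apply Nat.Coprime.symm
      rw [Nat.Prime.coprime_iff_not_dvd hr]
      intro hd
      have := Nat.le_of_dvd hk hd
      omega
    obtain ⟨m, hm⟩ := exists_pow_eq_self_of_coprime hcop
    have hcomm1 : Commute (x ^ k) y := by
      show x ^ k * y = y * x ^ k
      calc x ^ k * y = x ^ k * y * (x ^ k)⁻¹ * x ^ k := by group
        _ = y * x ^ k := by rw [h3]
    have hcomm2 : Commute x y := by
      rw [← hm]
      exact hcomm1.pow_left m
    rw [Subgroup.mem_centralizer_iff]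
    intro g hg
    obtain ⟨j, hj⟩ := Subgroup.mem_zpowers_iff.mp (hXle hg)
    rw [← hj]
    exact (hcomm2.zpow_left j)
  -- a nontrivial central element
  obtain ⟨c, hcZ, hc1⟩ : ∃ c ∈ Z, c ≠ 1 := by
    have h2 : Z ≠ ⊥ := by
      intro h3
      have h4 : Nat.card Z = q := D.card
      rw [h3, Subgroup.card_bot] at h4
      exact hq.one_lt.ne h4
    exact (Subgroup.bot_or_exists_ne_one Z).resolve_left h2
  have hcV : ∃ v ∈ V, c * v * c⁻¹ ≠ v := by
    by_contra hcon
    push Not at hcon
    have h1 : c ∈ (X ⊔ Q) ⊓ Subgroup.centralizer (V : Set G) := by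
      refine ⟨(le_sup_right : Q ≤ X ⊔ Q) (D.le hcZ), ?_⟩
      change c ∈ Subgroup.centralizer (V : Set G)
      rw [Subgroup.mem_centralizer_iff]
      intro v hv
      have := hcon v hv
      calc v * c = (c * v * c⁻¹) * c := by rw [this]
        _ = c * v := by group
    rw [hfaith, Subgroup.mem_bot] at h1
    exact hc1 h1
  have hQpg : IsPGroup q Q := hQ.1.1
  have hQcop : (Nat.card Q).Coprime p := by
    obtain ⟨k, hk⟩ := IsPGroup.iff_card.mp hQpg
    rw [hk]
    exact Nat.Coprime.pow_left k ((Nat.coprime_primes hq hp).mpr hpq.symm)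
  have hVc : ∀ u ∈ V, ∀ v ∈ V, u * v = v * u := by
    intro u hu v hv
    haveI := hV.1
    exact congrArg Subtype.val (mul_comm' (⟨u, hu⟩ : V) ⟨v, hv⟩)
  obtain ⟨N, hN0, hN2, hs, hno⟩ := T2 (p := p) (F := AlgebraicClosure (ZMod p)) V Q Z hVc hV.2 D.le
    hQV (hXV hxX) (hXQ hxX) hpos hrpow hQcop ((Nat.coprime_primes hr hp).mpr hpr.symm) D.cent D.comm
    (hZfix x hxX) hfree hcZ hcV
    (fun χ hmul h1' hc' => D.nd hcZ χ hmul h1' hc')
  have hN1 : N + 1 ≤ r := by
    apply hno
    intro v hv hfix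
    have h1 : v ∈ V ⊓ Subgroup.centralizer (X : Set G) := by
      refine ⟨hv, ?_⟩
      change v ∈ Subgroup.centralizer (X : Set G)
      rw [Subgroup.mem_centralizer_iff]
      intro g hg
      obtain ⟨j, hj⟩ := Subgroup.mem_zpowers_iff.mp (hXle hg)
      rw [← hj]
      have h2 : Commute x v := by
        show x * v = v * x
        calc x * v = x * v * x⁻¹ * x := by group
          _ = v * x := by rw [hfix]
      exact h2.zpow_left j
    rw [hCV, Subgroup.mem_bot] at h1
    exact h1
  have hmod : N % r = N := Nat.mod_eq_of_lt (by omega)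
  rw [hmod] at hs
  -- the index
  have hidx : Z.relIndex Q * q = Nat.card Q := by
    have h2 := H18.card_inf_mul_relIndex Z Q
    rw [inf_of_le_left D.le] at h2
    have h3 : Nat.card Z = q := D.card
    rw [h3] at h2
    rw [mul_comm]; exact h2
  obtain ⟨m, hm⟩ := IsPGroup.iff_card.mp hQpg
  -- the centre is proper
  have hZne : ∃ y ∈ Q, y ∉ Z := by
    by_contra hcon
    push Not at hcon
    obtain ⟨⟨-, -, hcomm⟩, hcard⟩ := hQ
    have h2 : commutator ↥Q = ⊥ := by
      rw [eq_bot_iff, commutator_def, Subgroup.commutator_le]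
      intro a _ b _
      rw [Subgroup.mem_bot]
      have h3 := D.cent a.1 (hcon a.1 a.2) b.1 b.2
      have h4 : a * b = b * a := Subtype.ext h3
      rw [commutatorElement_def, h4]
      group
    rw [hcomm, ] at h2
    rw [h2, Subgroup.card_bot] at hcard
    exact hq.one_lt.ne hcard
  have hidx1 : Z.relIndex Q ≠ 1 := by
    intro h1
    obtain ⟨y, hy, hyZ⟩ := hZne
    apply hyZ
    have h2 : Q ≤ Z := by
      rw [Subgroup.relIndex_eq_one] at h1
      exact h1
    exact h2 hy
  have hNne1 : N ≠ 1 := by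
    intro h1
    rw [h1, one_pow] at hN2
    exact hidx1 hN2.symm
  have hNr : N + 1 = r := by
    rcases hs with h | h | h
    · omega
    · exact absurd h hNne1
    · exact h
  -- `N` is a power of `q`
  have hNdvd : N ∣ q ^ m := by
    have h2 : N ∣ N ^ 2 := dvd_pow_self N (by norm_num)
    rw [hN2] at h2
    refine h2.trans ?_
    rw [← hm, ← hidx]
    exact dvd_mul_right _ _
  obtain ⟨n, -, hn⟩ := (Nat.dvd_prime_pow hq).mp hNdvd
  have hn0 : n ≠ 0 := by
    rintro rfl
    exact hNne1 (by simpa using hn)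
  have hq2 : q = 2 := by
    rcases hq.eq_two_or_odd' with h | h
    · exact h
    · exfalso
      have hodd : Odd N := by rw [hn]; exact h.pow
      have heven : Even r := by
        rw [← hNr]
        exact hodd.add_one
      have hr2 : r = 2 := (hr.even_iff.mp heven)
      rw [hr2] at hNr
      exact hNne1 (by omega)
  subst hq2
  refine ⟨rfl, n, ?_, ?_⟩
  · rw [← hNr, hn]
  · rw [← hidx, ← hN2, hn, ← pow_mul, pow_succ, mul_comm n 2]

end Cfsg.Agent.S3764
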