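import Cfsg.Statements.S3766
import Mathlib
import Cfsg.Agent.Lib.H07.FStar
import Cfsg.Agent.Lib.H05.Comp2
import Cfsg.Agent.Lib.H01.Fitting
import Cfsg.Agent.Lib.H20.Commutators

set_option autoImplicit false
open Cfsg

namespace Cfsg.Agent.S3766


open Subgroup
open scoped commutatorElement

universe u

/-- a chief factor -/
def IsChief {G : Type*} [Group G] (U V : Subgroup G) : Prop :=
  U.Normal ∧ V.Normal ∧ V < U ∧ ∀ W : Subgroup G, W.Normal → V ≤ W → W ≤ U → W = V ∨ W = U

/-- chief series below a normal subgroup -/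
theorem exists_chain {G : Type*} [Group G] [Finite G] (X : Subgroup G) (hX : X.Normal) :
    ∃ (k : ℕ) (V : ℕ → Subgroup G), V 0 = ⊥ ∧ V k = X ∧ (∀ i, (V i).Normal) ∧ (∀ i, V i ≤ X) ∧
      ∀ i < k, IsChief (V (i + 1)) (V i) := by
  classical
  induction hc : Nat.card X using Nat.strong_induction_on generalizing X with
  | _ n ih =>
  subst hc
  by_cases hbot : X = ⊥
  · refine ⟨0, fun _ => ⊥, rfl, hbot.symm, fun _ => normal_bot, fun _ => bot_le, ?_⟩
    intro i hi
    exact absurd hi (Nat.not_lt_zero _)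
  let S : Set (Subgroup G) := {Y | Y.Normal ∧ Y < X}
  have hS : S.Nonempty := ⟨⊥, normal_bot, bot_lt_iff_ne_bot.2 hbot⟩
  obtain ⟨Y, hY⟩ := S.toFinite.exists_maximal hS
  obtain ⟨hYn, hYX⟩ := hY.1
  have hcard : Nat.card Y < Nat.card X :=
    Nat.lt_of_le_of_ne (Subgroup.card_le_of_le hYX.le) (fun e => hYX.ne (Subgroup.eq_of_le_of_card_ge hYX.le e.ge))
  obtain ⟨k, V, h0, hk, hn, hle, hch⟩ := ih _ hcard Y hYn rfl
  refine ⟨k + 1, fun i => if i ≤ k then V i else X, ?_, ?_, ?_, ?_, ?_⟩
  · simp [h0]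
  · simp
  · intro i
    by_cases h : i ≤ k
    · simp only [h, if_true]; exact hn i
    · simp only [h, if_false]; exact hX
  · intro i
    by_cases h : i ≤ k
    · simp only [h, if_true]; exact (hle i).trans hYX.le
    · simp only [h, if_false]; exact le_rfl
  · intro i hi
    by_cases h : i + 1 ≤ k
    · have h' : i ≤ k := by omega
      simp only [h, h', if_true]
      exact hch i (by omega)
    · have hik : i = k := by omega
      subst hik
      simp only [le_refl, if_true, h, if_false]
      refine ⟨hX, hn i, hk ▸ hYX, ?_⟩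
      intro W hW hVW hWX
      rw [hk] at hVW ⊢
      by_cases hWX' : W = X
      · exact Or.inr hWX'
      · left
        have hlt : W < X := lt_of_le_of_ne hWX hWX'
        exact le_antisymm (hY.2 ⟨hW, hlt⟩ hVW) hVW

/-- nilpotent normal subgroups act trivially on chief factors -/
theorem centralizes_chief {G : Type*} [Group G] [Finite G] {F U V : Subgroup G} [hFn : F.Normal]
    (hFnil : Group.IsNilpotent F) (hch : IsChief U V) : ⁅U, F⁆ ≤ V := by
  obtain ⟨hUn, hVn, hVU, hmin⟩ := hch
  haveI := hUn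
  haveI := hVn
  have hcomm : ⁅U, F⁆ ≤ U := Subgroup.commutator_le_left U F
  rcases hmin (V ⊔ ⁅U, F⁆) inferInstance le_sup_left (sup_le hVU.le hcomm) with h | h
  · exact sup_eq_left.1 h
  exfalso
  have key : ∀ n, U ≤ V ⊔ F.lowerCentralSeries n := by
    intro n
    induction n with
    | zero =>
      rw [← h]
      exact sup_le_sup_left (Subgroup.commutator_le_right U F) V
    | succ n ih =>
      haveI : (F.lowerCentralSeries n).Normal := H20.lowerCentralSeries_normal F n
      rw [Subgroup.lowerCentralSeries_succ]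
      have h1 : ⁅U, F⁆ ≤ V ⊔ ⁅F.lowerCentralSeries n, F⁆ := by
        have h2 : ⁅U, F⁆ ≤ ⁅V ⊔ F.lowerCentralSeries n, F⁆ := Subgroup.commutator_mono ih le_rfl
        refine h2.trans ?_
        rw [Subgroup.commutator_comm]
        apply H20.commutator_sup_right_le
        · rw [Subgroup.commutator_comm]
          exact (Subgroup.commutator_le_left V F).trans le_sup_left
        · rw [Subgroup.commutator_comm]
          exact le_sup_right
      rw [← h]
      exact sup_le le_sup_left h1
  obtain ⟨c, hc⟩ := (Subgroup.isNilpotent_iff_lowerCentralSeries F).1 hFnil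
  have h2 := key c
  rw [hc, sup_bot_eq] at h2
  exact absurd hVU (not_lt_of_ge h2)

theorem stability {G : Type*} [Group G] [Finite G] (D : Subgroup G) [hDn : D.Normal] (k : ℕ) (V : ℕ → Subgroup G)
    (hn : ∀ i, (V i).Normal) (h0 : V 0 = ⊥)
    (hst : ∀ i < k, ⁅V (i + 1), D⁆ ≤ V i) :
    ∀ j i, i + j + 1 ≤ k → ⁅V (i + j + 1), D.lowerCentralSeries j⁆ ≤ V i := by
  intro j
  induction j with
  | zero =>
    intro i hi
    simpa using hst i (by omega)
  | succ j ih =>
    intro i hi
    haveI := hn i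
    rw [Subgroup.lowerCentralSeries_succ, Subgroup.commutator_comm]
    apply H20.three_subgroups
    · -- ⁅⁅D, V⁆, γ_j⁆
      rw [Subgroup.commutator_comm D]
      refine (Subgroup.commutator_mono (hst (i + j + 1) (by omega)) le_rfl).trans ?_
      exact ih i (by omega)
    · -- ⁅⁅V, γ_j⁆, D⁆
      have h1 := ih (i + 1) (by omega)
      have e : i + 1 + j + 1 = i + (j + 1) + 1 := by omega
      rw [e] at h1
      exact (Subgroup.commutator_mono h1 le_rfl).trans (hst i (by omega))

theorem layer_bot_of_solvable {X : Type*} [Group X] (hX : Group.IsSolvable X) : Cfsg.layer X = ⊥ := by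
  rw [Cfsg.layer, sSup_eq_bot]
  intro K hK
  exfalso
  apply H05.qs_not_solvable hK.2
  infer_instance

theorem centralizer_fitting_le {X : Type*} [Group X] [Finite X] (hX : Group.IsSolvable X) :
    centralizer (Cfsg.fittingSubgroup X : Set X) ≤ Cfsg.fittingSubgroup X := by
  have h := H05.centralizer_fstar_le (G := X)
  rw [Cfsg.generalizedFittingSubgroup, layer_bot_of_solvable hX, bot_sup_eq] at h
  exact h


/-- Let G be a finite solvable group and N a normal subgroup of G. Call a pair V < U of normal subgroups of G a chief factor of G when no normal subgroup of G lies strictly between them; an element g centralizes the chief factor U/V when u g u⁻¹ g⁻¹ ∈ V for all u ∈ U. Then an element of G lies in the Fitting subgroup F(N) if and only if it lies in N and centralizes every chief factor of G; and also if and only if it lies in N and centralizes every chief factor U/V of G with U ≤ F(N). -/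
theorem result {G : Type*} [Group G] [Finite G] (hG : Group.IsSolvable G) (N : Subgroup G) [N.Normal] (g : G) : (g ∈ (Cfsg.fittingSubgroup ↥N).map N.subtype ↔ g ∈ N ∧ ∀ U V : Subgroup G, (U.Normal ∧ V.Normal ∧ V < U ∧ ∀ W : Subgroup G, W.Normal → V ≤ W → W ≤ U → W = V ∨ W = U) → ∀ u ∈ U, u * g * u⁻¹ * g⁻¹ ∈ V) ∧ (g ∈ (Cfsg.fittingSubgroup ↥N).map N.subtype ↔ g ∈ N ∧ ∀ U V : Subgroup G, (U.Normal ∧ V.Normal ∧ V < U ∧ ∀ W : Subgroup G, W.Normal → V ≤ W → W ≤ U → W = V ∨ W = U) → U ≤ (Cfsg.fittingSubgroup ↥N).map N.subtype → ∀ u ∈ U, u * g * u⁻¹ * g⁻¹ ∈ V) := by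
  classical
  set F := (Cfsg.fittingSubgroup ↥N).map N.subtype with hF
  have hFN : F ≤ N := by
    rintro _ ⟨x, _, rfl⟩
    exact x.2
  haveI hFn : F.Normal := by
    haveI := H07.fitting_characteristic N
    exact ConjAct.normal_of_characteristic_of_normal
  have hFnil : Group.IsNilpotent F := by
    haveI : Group.IsNilpotent (Cfsg.fittingSubgroup ↥N) := H01.fitting_nilpotent
    exact Group.nilpotent_of_surjective
      ((Cfsg.fittingSubgroup ↥N).equivMapOfInjective N.subtype N.subtype_injective).toMonoidHom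
      ((Cfsg.fittingSubgroup ↥N).equivMapOfInjective N.subtype N.subtype_injective).surjective
  have hfwd : g ∈ F → g ∈ N ∧ ∀ U V : Subgroup G, (U.Normal ∧ V.Normal ∧ V < U ∧ ∀ W : Subgroup G, W.Normal → V ≤ W → W ≤ U → W = V ∨ W = U) → ∀ u ∈ U, u * g * u⁻¹ * g⁻¹ ∈ V := by
    intro hg
    refine ⟨hFN hg, ?_⟩
    intro U V hch u hu
    have h1 := centralizes_chief (F := F) hFnil hch
    exact h1 (Subgroup.commutator_mem_commutator hu hg)
  have hbwd : (g ∈ N ∧ ∀ U V : Subgroup G, (U.Normal ∧ V.Normal ∧ V < U ∧ ∀ W : Subgroup G, W.Normal → V ≤ W → W ≤ U → W = V ∨ W = U) → U ≤ F → ∀ u ∈ U, u * g * u⁻¹ * g⁻¹ ∈ V) → g ∈ F := by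
    rintro ⟨hgN, hg⟩
    obtain ⟨k, V, h0, hk, hn, hle, hch⟩ := exists_chain F hFn
    -- the stabilizer of the chain
    let D : Subgroup G :=
      { carrier := {h | h ∈ N ∧ ∀ i < k, ∀ u ∈ V (i + 1), u * h * u⁻¹ * h⁻¹ ∈ V i}
        mul_mem' := by
          rintro a b ⟨ha, ha'⟩ ⟨hb, hb'⟩
          refine ⟨N.mul_mem ha hb, ?_⟩
          intro i hi u hu
          have e : u * (a * b) * u⁻¹ * (a * b)⁻¹ =
              (u * a * u⁻¹ * a⁻¹) * (a * (u * b * u⁻¹ * b⁻¹) * a⁻¹) := by group
          rw [e]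
          exact (V i).mul_mem (ha' i hi u hu) ((hn i).conj_mem _ (hb' i hi u hu) a)
        one_mem' := by
          refine ⟨N.one_mem, ?_⟩
          intro i hi u hu
          simp
        inv_mem' := by
          rintro a ⟨ha, ha'⟩
          refine ⟨N.inv_mem ha, ?_⟩
          intro i hi u hu
          have e : u * a⁻¹ * u⁻¹ * a⁻¹⁻¹ = a⁻¹ * (u * a * u⁻¹ * a⁻¹)⁻¹ * a⁻¹⁻¹ := by group
          rw [e]
          exact (hn i).conj_mem _ ((V i).inv_mem (ha' i hi u hu)) a⁻¹ }
    have hDmem : ∀ h, h ∈ D ↔ (h ∈ N ∧ ∀ i < k, ∀ u ∈ V (i + 1), u * h * u⁻¹ * h⁻¹ ∈ V i) := fun h => Iff.rfl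
    have hDn : D.Normal := by
      constructor
      rintro a ⟨ha, ha'⟩ c
      refine ⟨‹N.Normal›.conj_mem a ha c, ?_⟩
      intro i hi u hu
      have h1 : c⁻¹ * u * c ∈ V (i + 1) := by
        have := (hn (i + 1)).conj_mem u hu c⁻¹
        simpa using this
      have e : u * (c * a * c⁻¹) * u⁻¹ * (c * a * c⁻¹)⁻¹ =
          c * ((c⁻¹ * u * c) * a * (c⁻¹ * u * c)⁻¹ * a⁻¹) * c⁻¹ := by group
      rw [e]
      exact (hn i).conj_mem _ (ha' i hi _ h1) c
    haveI := hDn
    have hDN : D ≤ N := fun h hh => hh.1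
    have hgD : g ∈ D := ⟨hgN, fun i hi u hu => hg (V (i + 1)) (V i) (hch i hi) (hle _) u hu⟩
    have hst : ∀ i < k, ⁅V (i + 1), D⁆ ≤ V i := by
      intro i hi
      rw [Subgroup.commutator_le]
      intro u hu h hh
      exact hh.2 i hi u hu
    have hsta := stability D k V hn h0 hst
    have hγ : ∃ m, ⁅F, D.lowerCentralSeries m⁆ = ⊥ := by
      rcases k with _ | k'
      · refine ⟨0, ?_⟩
        rw [← hk, h0]
        exact Subgroup.commutator_bot_left _
      · refine ⟨k', ?_⟩
        have h1 := hsta k' 0 (by omega)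
        have e : 0 + k' + 1 = k' + 1 := by omega
        rw [e, hk, h0] at h1
        exact le_bot_iff.1 h1
    obtain ⟨m, hm⟩ := hγ
    have hNsolv : Group.IsSolvable N := inferInstance
    have hγF : D.lowerCentralSeries m ≤ F := by
      intro y hy
      have hyD : y ∈ D := Subgroup.lowerCentralSeries_le_self D m hy
      have hyN := hDN hyD
      have h1 : (⟨y, hyN⟩ : N) ∈ centralizer (Cfsg.fittingSubgroup ↥N : Set ↥N) := by
        rw [Subgroup.mem_centralizer_iff]
        intro f hf
        have h2 : ⁅(f : G), y⁆ ∈ ⁅F, D.lowerCentralSeries m⁆ :=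
          Subgroup.commutator_mem_commutator ⟨f, hf, rfl⟩ hy
        rw [hm, Subgroup.mem_bot, commutatorElement_eq_one_iff_mul_comm] at h2
        exact Subtype.ext h2
      exact ⟨⟨y, hyN⟩, centralizer_fitting_le hNsolv h1, rfl⟩
    have hdesc : ∀ j, j ≤ k → D.lowerCentralSeries (m + j) ≤ V (k - j) := by
      intro j
      induction j with
      | zero =>
        intro _
        simpa [hk] using hγF
      | succ j ih =>
        intro hj
        have h1 := ih (by omega)
        have e : m + (j + 1) = (m + j) + 1 := by omega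
        rw [e, Subgroup.lowerCentralSeries_succ]
        have h2 := hst (k - (j + 1)) (by omega)
        have e2 : k - (j + 1) + 1 = k - j := by omega
        rw [e2] at h2
        exact (Subgroup.commutator_mono h1 le_rfl).trans h2
    have hbot : D.lowerCentralSeries (m + k) = ⊥ := by
      have := hdesc k le_rfl
      rw [Nat.sub_self, h0] at this
      exact le_bot_iff.1 this
    have hDnil : Group.IsNilpotent D := (Subgroup.isNilpotent_iff_lowerCentralSeries D).2 ⟨_, hbot⟩
    have hDnil' : Group.IsNilpotent (D.subgroupOf N) :=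
      Group.nilpotent_of_surjective (Subgroup.subgroupOfEquivOfLe hDN).symm.toMonoidHom
        (Subgroup.subgroupOfEquivOfLe hDN).symm.surjective
    have h2 := H01.le_fitting (hDn.subgroupOf N) hDnil'
    exact ⟨⟨g, hgN⟩, h2 (show (⟨g, hgN⟩ : N) ∈ D.subgroupOf N from hgD), rfl⟩
  constructor
  · exact ⟨hfwd, fun h => hbwd ⟨h.1, fun U V hc _ => h.2 U V hc⟩⟩
  · refine ⟨fun h => ?_, hbwd⟩
    obtain ⟨h1, h2⟩ := hfwd h
    exact ⟨h1, fun U V hc _ => h2 U V hc⟩

end Cfsg.Agent.S3766
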