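import Cfsg.Statements.S3767
import Cfsg.Agent.Lib.H26.ExtraRep2
import Cfsg.Agent.Lib.H18.Syl
import Mathlib

set_option autoImplicit false
set_option linter.style.haveILetI false
set_option linter.unusedVariables false

namespace Cfsg.Agent.S3767

open Cfsg Module
open Cfsg.Agent.H26.ExtraRep

/-- The right regular representation. -/
noncomputable def regRep (G : Type*) [Group G] : G →* End ℂ (G → ℂ) :=
  { toFun := fun g =>
      { toFun := fun f y => f (y * g)
        map_add' := fun _ _ => rfl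
        map_smul' := fun _ _ => rfl }
    map_one' := by
      ext f y
      simp
    map_mul' := by
      intro g g'
      ext f y
      simp [mul_assoc] }

theorem regRep_apply {G : Type*} [Group G] (g : G) (f : G → ℂ) (y : G) :
    regRep G g f y = f (y * g) := rfl

/-- Let P be an extraspecial p-group of order p^(2n+1) and H a cyclic group of order h prime to p acting on P (inside a common finite group: H normalizes P) so that C_P(x) = Z(P) for every non-identity x ∈ H. Then h divides p^n + 1 or h divides p^n − 1. -/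
theorem result {G : Type*} [Group G] [Finite G] {p : ℕ} [Fact p.Prime] (P H : Subgroup G) (hP : Cfsg.IsExtraspecial p ↥P) (n : ℕ) (hn : Nat.card P = p ^ (2 * n + 1)) (hH : IsCyclic H) (hcop : (Nat.card H).Coprime p) (hHP : H ≤ Subgroup.normalizer (P : Set G)) (hfix : ∀ x ∈ H, x ≠ 1 → P ⊓ Subgroup.centralizer {x} = (Subgroup.center ↥P).map P.subtype) : Nat.card H ∣ p ^ n + 1 ∨ Nat.card H ∣ p ^ n - 1 := by
  classical
  have hpp : p.Prime := Fact.out
  set h := Nat.card H with hh
  by_cases h1 : h = 1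
  · left
    rw [h1]
    exact one_dvd _
  obtain ⟨a', ha'⟩ := hH.exists_generator
  have hord : orderOf (a' : G) = h := by
    rw [Subgroup.orderOf_coe]
    exact orderOf_eq_card_of_forall_mem_zpowers ha'
  set a : G := (a' : G) with ha
  have haH : a ∈ H := a'.2
  have hpos : 0 < h := Nat.card_pos
  set Z := (Subgroup.center ↥P).map P.subtype with hZ
  have D : ExtraFacts P Z p := extraFacts P hP
  have ha1 : a ≠ 1 := by
    intro h2
    rw [h2, orderOf_one] at hord
    exact h1 hord.symm
  have hZfix : ∀ g ∈ H, g ≠ 1 → ∀ z ∈ Z, g * z * g⁻¹ = z := by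
    intro g hg hg1 z hz
    rw [← hfix g hg hg1] at hz
    have h3 := Subgroup.mem_centralizer_iff.mp hz.2 g rfl
    rw [h3]
    group
  have hfree : ∀ k, 0 < k → k < h → ∀ y ∈ P, a ^ k * y * (a ^ k)⁻¹ * y⁻¹ ∈ Z → y ∈ Z := by
    intro k hk hkh y hy hmem
    have hg : a ^ k ∈ H := H.pow_mem haH k
    have hg1 : a ^ k ≠ 1 := pow_ne_one_of_lt_orderOf hk.ne' (by rw [hord]; exact hkh)
    have h3 := conj_eq_of_stab (g := a ^ k) (y := y) (h := h) (q := p)
      (by rw [← pow_mul, mul_comm, pow_mul, ← hord, pow_orderOf_eq_one, one_pow])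
      (hZfix _ hg hg1 _ hmem) (D.cent _ hmem y hy) (D.exp _ hmem) hcop rfl
    rw [← hfix _ hg hg1]
    refine ⟨hy, ?_⟩
    change y ∈ Subgroup.centralizer _
    rw [Subgroup.mem_centralizer_iff]
    intro w hw
    have hw' : w = a ^ k := hw
    rw [hw']
    calc a ^ k * y = a ^ k * y * (a ^ k)⁻¹ * a ^ k := by group
      _ = y * a ^ k := by rw [h3]
  -- a nontrivial central element
  obtain ⟨c, hcZ, hc1⟩ : ∃ c ∈ Z, c ≠ 1 := by
    have h2 : Z ≠ ⊥ := by
      intro h3
      have h4 := D.card
      rw [h3, Subgroup.card_bot] at h4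
      exact hpp.one_lt.ne h4
    exact (Subgroup.bot_or_exists_ne_one Z).resolve_left h2
  have hρc : regRep G c ≠ 1 := by
    intro h2
    have h3 := congrFun (congrArg (fun X : End ℂ (G → ℂ) => X (fun y => if y = 1 then (1 : ℂ) else 0)) h2) 1
    simp only [regRep_apply, one_mul, Module.End.one_apply, if_true, hc1, if_false] at h3
    exact zero_ne_one h3
  have hnz : ∀ m : ℕ, 0 < m → ((m : ℕ) : ℂ) ≠ 0 := fun m hm => Nat.cast_ne_zero.mpr hm.ne'
  obtain ⟨N, hN0, hN2, hs⟩ := T3 (F := ℂ) (regRep G) P Z D.le (hHP haH) hpos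
    (by rw [← hord]; exact pow_orderOf_eq_one a) (hnz _ Nat.card_pos) (hnz _ hpos) D.cent D.comm
    (hZfix a haH ha1) hfree hcZ hρc
    (fun χ hmul h1' hc' => D.nd hcZ χ hmul h1' hc')
  -- numerics
  have hidx : Z.relIndex P = p ^ (2 * n) := by
    have h2 := H18.card_inf_mul_relIndex Z P
    rw [inf_of_le_left D.le, D.card, hn, pow_succ'] at h2
    exact Nat.eq_of_mul_eq_mul_left hpp.pos h2
  have hNp : N = p ^ n := by
    have h2 : N ^ 2 = (p ^ n) ^ 2 := by
      rw [hN2, hidx, ← pow_mul, mul_comm]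
    exact Nat.pow_left_injective (n := 2) (by norm_num) h2
  rw [hNp] at hs
  rcases hs with hs | hs | hs
  · -- `h` divides a power of `p`
    left
    have h2 : h ∣ p ^ n := Nat.dvd_of_mod_eq_zero hs
    have h3 : h.Coprime (p ^ n) := Nat.Coprime.pow_right n hcop
    have h4 : h = 1 := Nat.eq_one_of_dvd_coprimes h3 (dvd_refl h) h2
    exact absurd h4 h1
  · right
    have h2 := Nat.dvd_sub_mod (n := h) (p ^ n)
    rwa [hs] at h2
  · left
    have h2 := Nat.div_add_mod (p ^ n) h
    refine ⟨p ^ n / h + 1, ?_⟩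
    calc p ^ n + 1 = h * (p ^ n / h) + p ^ n % h + 1 := by rw [h2]
      _ = h * (p ^ n / h) + h := by rw [add_assoc, hs]
      _ = h * (p ^ n / h + 1) := by ring

end Cfsg.Agent.S3767
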