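import Cfsg.Statements.S3768
import Mathlib
import Cfsg.Agent.Lib.H20.Frob
import Cfsg.Agent.Lib.H01.Frobenius

set_option autoImplicit false
open Cfsg

namespace Cfsg.Agent.S3768


open Subgroup
open scoped Pointwise

/-- injective self-map from commutators with an element acting freely -/
theorem exists_conj_of_free {G : Type*} [Group G] [Finite G] (A : Subgroup G) (r : G)
    (hA : ∀ a ∈ A, r * a * r⁻¹ ∈ A) (hfree : ∀ c ∈ A, c * r = r * c → c = 1) :
    ∀ x ∈ A, ∃ a ∈ A, x = a * r * a⁻¹ * r⁻¹ := by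
  classical
  let f : A → A := fun a => ⟨a * (r * (a : G)⁻¹ * r⁻¹), A.mul_mem a.2 (hA _ (A.inv_mem a.2))⟩
  have hinj : Function.Injective f := by
    intro a b hab
    have h1 : (a : G) * (r * (a : G)⁻¹ * r⁻¹) = (b : G) * (r * (b : G)⁻¹ * r⁻¹) := congrArg Subtype.val hab
    have h2 : ((b : G)⁻¹ * a) * r = r * ((b : G)⁻¹ * a) := by
      have h3 : (a : G) * r * (a : G)⁻¹ = (b : G) * r * (b : G)⁻¹ := by
        have := congrArg (· * r) h1
        simpa [mul_assoc] using this
      calc ((b : G)⁻¹ * a) * r = (b : G)⁻¹ * ((a : G) * r * (a : G)⁻¹) * a := by group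
        _ = (b : G)⁻¹ * ((b : G) * r * (b : G)⁻¹) * a := by rw [h3]
        _ = r * ((b : G)⁻¹ * a) := by group
    have h4 := hfree _ (A.mul_mem (A.inv_mem b.2) a.2) h2
    apply Subtype.ext
    have : (a : G) = b := by
      have := congrArg (fun t => (b : G) * t) h4
      simpa using this
    exact this
  have hsurj : Function.Surjective f := Finite.surjective_of_injective hinj
  intro x hx
  obtain ⟨a, ha⟩ := hsurj ⟨x, hx⟩
  refine ⟨a, a.2, ?_⟩
  have := congrArg Subtype.val ha
  simp only [f] at this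
  rw [← this]
  group


/-- Let G be a finite Frobenius group with Frobenius complement R and Frobenius kernel K (the identity together with the elements in no conjugate of R), and let N be a normal subgroup of G not containing K. Then G/N is a Frobenius group with Frobenius complement RN/N whose Frobenius kernel is the image of K. -/
theorem result {G : Type*} [Group G] [Finite G] (R : Subgroup G) (hR : Cfsg.IsFrobeniusComplement R) (N : Subgroup G) [N.Normal] (hKN : ¬ Cfsg.frobeniusKernel R ⊆ N) : Cfsg.IsFrobeniusComplement (R.map (QuotientGroup.mk' N)) ∧ Cfsg.frobeniusKernel (R.map (QuotientGroup.mk' N)) = QuotientGroup.mk' N '' Cfsg.frobeniusKernel R := by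
  classical
  obtain ⟨K, hKset, hKn, hKR⟩ := H01.frobenius_theorem R hR
  have hKmem : ∀ x, x ∈ K ↔ x ∈ Cfsg.frobeniusKernel R := fun x => by
    rw [← hKset]; rfl
  have hKRinf : ∀ x, x ∈ K → x ∈ R → x = 1 := by
    intro x h1 h2
    have h3 := hKR.disjoint
    exact Subgroup.disjoint_def.1 h3 h1 h2
  -- `K` is not contained in `N`
  have hKN' : ¬ K ≤ N := by
    intro h
    apply hKN
    intro x hx
    exact h ((hKmem x).2 hx)
  have hRne := hR.1
  -- `N ∩ R = 1`
  have hNR : ∀ r ∈ R, r ∈ N → r = 1 := by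
    intro r hrR hrN
    by_contra hr1
    apply hKN'
    have h1 := exists_conj_of_free K r (fun a ha => hKn.conj_mem a ha r) (by
      intro c hc hcr
      have h2 : c * r * c⁻¹ ∈ R := by
        rw [hcr]
        simpa using hrR
      exact hKRinf c hc (H01.frob_conj_mem hR hrR hr1 h2))
    intro x hx
    obtain ⟨a, _, rfl⟩ := h1 x hx
    have h3 : a * r * a⁻¹ ∈ N := ‹N.Normal›.conj_mem r hrN a
    exact N.mul_mem h3 (N.inv_mem hrN)
  set π := QuotientGroup.mk' N with hπ
  have hπ1 : ∀ x, π x = 1 ↔ x ∈ N := fun x => QuotientGroup.eq_one_iff x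
  -- key: elements of `RN` outside `N` are conjugate into `R`
  have hkey : ∀ x, π x ∈ R.map π → π x ≠ 1 → ∃ a ∈ N, ∃ r ∈ R, r ≠ 1 ∧ x = a * r * a⁻¹ := by
    intro x hx hx1
    obtain ⟨r, hr, hre⟩ := hx
    have hn : x * r⁻¹ ∈ N := by
      rw [← hπ1, map_mul, map_inv, ← hre, mul_inv_cancel]
    have hr1 : r ≠ 1 := by
      rintro rfl
      apply hx1
      rw [← hre, map_one]
    have h1 := exists_conj_of_free N r (fun a ha => ‹N.Normal›.conj_mem a ha r) (by
      intro c hc hcr
      have h2 : c * r * c⁻¹ ∈ R := by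
        rw [hcr]
        simpa using hr
      exact hNR c (H01.frob_conj_mem hR hr hr1 h2) hc) _ hn
    obtain ⟨a, ha, e⟩ := h1
    refine ⟨a, ha, r, hr, hr1, ?_⟩
    have := congrArg (· * r) e
    simpa [mul_assoc] using this
  have hmemconj : ∀ (H : Subgroup (G ⧸ N)) (a y : G ⧸ N), y ∈ MulAut.conj a • H ↔ a⁻¹ * y * a ∈ H :=
    fun H a y => H20.mem_conj_smul_iff H a y
  refine ⟨⟨?_, ?_, ?_⟩, ?_⟩
  · -- nontrivial
    intro h
    apply hRne
    rw [eq_bot_iff]
    intro r hr
    have h1 : π r ∈ R.map π := ⟨r, hr, rfl⟩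
    rw [h, Subgroup.mem_bot, hπ1] at h1
    simpa using hNR r hr h1
  · -- proper
    intro htop
    apply hKN'
    have hNK : N ≤ K := by
      intro n hn
      rw [hKmem]
      by_cases hn1 : n = 1
      · exact Or.inl hn1
      right
      intro g hg
      rw [H20.mem_conj_smul_iff] at hg
      have h2 : g⁻¹ * n * g ∈ N := by
        have := ‹N.Normal›.conj_mem n hn g⁻¹
        simpa using this
      have h3 := hNR _ hg h2
      apply hn1
      have : n = g * (g⁻¹ * n * g) * g⁻¹ := by group
      rw [this, h3]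
      group
    -- `|N| = |K|`
    have hcomp : Subgroup.IsComplement' N R := by
      apply Subgroup.isComplement'_of_disjoint_and_mul_eq_univ
      · exact Subgroup.disjoint_def.2 (fun hx hy => hNR _ hy hx)
      · rw [Set.eq_univ_iff_forall]
        intro g
        have h1 : π g ∈ R.map π := by rw [htop]; trivial
        obtain ⟨r, hr, e⟩ := h1
        have h2 : g * r⁻¹ ∈ N := by
          rw [← hπ1, map_mul, map_inv, e, mul_inv_cancel]
        exact Set.mem_mul.2 ⟨g * r⁻¹, h2, r, hr, by group⟩
    have h1 : Nat.card N * Nat.card R = Nat.card G := hcomp.card_mul_card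
    have h2 : Nat.card K * Nat.card R = Nat.card G := hKR.card_mul_card
    have h3 : Nat.card N = Nat.card K := by
      have hpos : 0 < Nat.card R := Nat.card_pos
      exact Nat.eq_of_mul_eq_mul_right hpos (h1.trans h2.symm)
    exact (Subgroup.eq_of_le_of_card_ge hNK h3.ge).ge
  · -- TI
    intro gb hgb
    rw [eq_bot_iff]
    intro y hy
    obtain ⟨hy1, hy2⟩ := Subgroup.mem_inf.1 hy
    rw [hmemconj] at hy2
    rw [Subgroup.mem_bot]
    by_contra hy3
    obtain ⟨y', rfl⟩ := QuotientGroup.mk'_surjective N y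
    obtain ⟨g, rfl⟩ := QuotientGroup.mk'_surjective N gb
    obtain ⟨a, ha, r, hr, hr1, e1⟩ := hkey y' hy1 hy3
    have hy4 : π (g⁻¹ * y' * g) ∈ R.map π := by
      have : π (g⁻¹ * y' * g) = (π g)⁻¹ * π y' * π g := by simp [map_mul]
      rw [this]
      exact hy2
    have hy5 : π (g⁻¹ * y' * g) ≠ 1 := by
      intro h6
      apply hy3
      have : π (g⁻¹ * y' * g) = (π g)⁻¹ * π y' * π g := by simp [map_mul]
      rw [this] at h6
      have h7 : π y' = π g * ((π g)⁻¹ * π y' * π g) * (π g)⁻¹ := by group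
      rw [h7, h6]
      group
    obtain ⟨b, hb, s, hs, hs1, e2⟩ := hkey _ hy4 hy5
    -- `c = a⁻¹ g b` conjugates `s` to `r`
    have h8 : (a⁻¹ * g * b) * s * (a⁻¹ * g * b)⁻¹ = r := by
      have h9 : y' = g * (b * s * b⁻¹) * g⁻¹ := by
        rw [← e2]; group
      have h10 : a * r * a⁻¹ = g * (b * s * b⁻¹) * g⁻¹ := by rw [← e1, ← h9]
      calc (a⁻¹ * g * b) * s * (a⁻¹ * g * b)⁻¹ = a⁻¹ * (g * (b * s * b⁻¹) * g⁻¹) * a := by group
        _ = a⁻¹ * (a * r * a⁻¹) * a := by rw [h10]
        _ = r := by group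
    have h11 : a⁻¹ * g * b ∈ R := H01.frob_conj_mem hR hs hs1 (by rw [h8]; exact hr)
    apply hgb
    refine ⟨a⁻¹ * g * b, h11, ?_⟩
    have h12 : π a = 1 := (hπ1 a).2 ha
    have h13 : π b = 1 := (hπ1 b).2 hb
    change π (a⁻¹ * g * b) = π g
    rw [map_mul, map_mul, map_inv, h12, h13]
    simp
  · -- kernels
    ext yb
    obtain ⟨y, rfl⟩ := QuotientGroup.mk'_surjective N yb
    constructor
    · rintro (h | h)
      · exact ⟨1, Or.inl rfl, by rw [h, map_one]⟩
      · refine ⟨y, ?_, rfl⟩
        right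
        intro g hg
        rw [H20.mem_conj_smul_iff] at hg
        apply h (π g)
        rw [hmemconj]
        exact ⟨_, hg, by
          change π (g⁻¹ * y * g) = (π g)⁻¹ * π y * π g
          rw [map_mul, map_mul, map_inv]⟩
    · rintro ⟨x, hx, e⟩
      by_cases h1 : π x = 1
      · left
        change π y = 1
        rw [← e]
        exact h1
      right
      intro gb hgb
      obtain ⟨g, rfl⟩ := QuotientGroup.mk'_surjective N gb
      rw [hmemconj] at hgb
      have e' : π x = π y := e
      have hx' : x ≠ 1 := by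
        rintro rfl
        exact h1 (map_one _)
      have hx2 : ∀ g : G, x ∉ MulAut.conj g • R := hx.resolve_left hx'
      have hy4 : π (g⁻¹ * x * g) ∈ R.map π := by
        have : π (g⁻¹ * x * g) = (π g)⁻¹ * π x * π g := by simp [map_mul]
        rw [this, e']
        exact hgb
      have hy5 : π (g⁻¹ * x * g) ≠ 1 := by
        intro h6
        apply h1
        have : π (g⁻¹ * x * g) = (π g)⁻¹ * π x * π g := by simp [map_mul]
        rw [this] at h6
        have h7 : π x = π g * ((π g)⁻¹ * π x * π g) * (π g)⁻¹ := by group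
        rw [h7, h6]
        group
      obtain ⟨b, hb, s, hs, hs1, e2⟩ := hkey _ hy4 hy5
      apply hx2 (g * b)
      rw [H20.mem_conj_smul_iff]
      have : (g * b)⁻¹ * x * (g * b) = s := by
        calc (g * b)⁻¹ * x * (g * b) = b⁻¹ * (g⁻¹ * x * g) * b := by group
          _ = b⁻¹ * (b * s * b⁻¹) * b := by rw [e2]
          _ = s := by group
      rw [this]
      exact hs

end Cfsg.Agent.S3768
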