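import Cfsg.Statements.S3771
import Mathlib
import Cfsg.Agent.Lib.H18.PGroup

set_option autoImplicit false
open Cfsg

namespace Cfsg.Agent.S3771

/-- Let p be a prime and R a finite p-group of p-rank at most 2 (no elementary abelian subgroup of order p³) in which every element has order dividing p. Then R has order at most p³. -/
theorem result {R : Type*} [Group R] [Finite R] {p : ℕ} [Fact p.Prime] (hR : IsPGroup p R) (hrank : Cfsg.PRankLE p 2 R) (hexp : ∀ x : R, x ^ p = 1) : Nat.card R ≤ p ^ 3 := by
  classical
  by_contra hcon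
  push Not at hcon
  have hp := (Fact.out : p.Prime)
  -- a commuting closure
  have hcommcl : ∀ s : Set R, (∀ a ∈ s, ∀ b ∈ s, a * b = b * a) → IsMulCommutative (Subgroup.closure s) := by
    intro s hs
    exact Subgroup.isMulCommutative_closure hs
  have hnt : Nontrivial R := by
    rw [← Finite.one_lt_card_iff_nontrivial]
    have : 1 ≤ p ^ 3 := Nat.one_le_pow _ _ hp.pos
    omega
  -- a central element of order `p`
  have hZ := hR.center_nontrivial
  obtain ⟨z, hz⟩ := exists_ne (1 : Subgroup.center R)
  have hz1 : z.1 ≠ 1 := fun h => hz (Subtype.ext h)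
  set z' : R := z.1 with hz'
  have hzc : ∀ g : R, g * z' = z' * g := fun g => ((Subgroup.mem_center_iff.1 z.2) g)
  have hzord : orderOf z' = p := orderOf_eq_prime (hexp _) hz1
  set Z := Subgroup.zpowers z' with hZdef
  have hZcen : ∀ a ∈ Z, ∀ g : R, g * a = a * g := by
    intro a ha g
    obtain ⟨i, rfl⟩ := Subgroup.mem_zpowers_iff.1 ha
    have : Commute g z' := hzc g
    exact (this.zpow_right i).eq
  have hZcard : Nat.card Z = p := by rw [hZdef, Nat.card_zpowers, hzord]
  haveI hZn : Z.Normal := by
    constructor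
    intro a ha g
    rw [hZcen a ha g]
    simpa using ha
  -- a central element of `R / Z`
  have hQ : IsPGroup p (R ⧸ Z) := hR.to_quotient Z
  have hQnt : Nontrivial (R ⧸ Z) := by
    rw [← Finite.one_lt_card_iff_nontrivial]
    have h1 := Subgroup.card_mul_index Z
    rw [hZcard] at h1
    have h2 : Nat.card (R ⧸ Z) = Z.index := rfl
    rw [h2]
    by_contra hle
    push Not at hle
    have h3 : p * Z.index ≤ p * 1 := Nat.mul_le_mul_left p hle
    rw [h1] at h3
    have h4 : p * 1 < p ^ 3 := by
      have : p ^ 3 = p * (p * p) := by ring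
      rw [this]
      have h5 : 1 < p * p := by nlinarith [hp.one_lt]
      exact Nat.mul_lt_mul_of_pos_left h5 hp.pos
    omega
  have hZQ := hQ.center_nontrivial
  obtain ⟨w, hw⟩ := exists_ne (1 : Subgroup.center (R ⧸ Z))
  obtain ⟨y, hy⟩ := QuotientGroup.mk_surjective (w : R ⧸ Z)
  have hyZ : y ∉ Z := by
    intro h
    apply hw
    apply Subtype.ext
    rw [← hy]
    exact (QuotientGroup.eq_one_iff y).2 h
  have hcomm : ∀ g : R, g * y * g⁻¹ * y⁻¹ ∈ Z := by
    intro g
    rw [← QuotientGroup.eq_one_iff]
    have h1 := (Subgroup.mem_center_iff.1 w.2) (g : R ⧸ Z)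
    rw [← hy] at h1
    simp only [QuotientGroup.mk_mul, QuotientGroup.mk_inv]
    have h2 : (g : R ⧸ Z) * (y : R ⧸ Z) = (y : R ⧸ Z) * (g : R ⧸ Z) := h1
    rw [h2]
    group
  -- the commutator homomorphism
  let φ : R →* Z :=
    { toFun := fun g => ⟨g * y * g⁻¹ * y⁻¹, hcomm g⟩
      map_one' := by ext; simp
      map_mul' := by
        intro g h
        ext
        have h1 := hZcen _ (hcomm h) g
        simp only [Subgroup.coe_mul]
        have h2 : (g * h) * y * (g * h)⁻¹ * y⁻¹ = g * (h * y * h⁻¹ * y⁻¹) * y * g⁻¹ * y⁻¹ := by group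
        rw [h2, h1]
        have h3 := hZcen _ (hcomm h) (g * y * g⁻¹ * y⁻¹)
        rw [h3]
        group }
  have hker : ∀ g, g ∈ φ.ker ↔ g * y = y * g := by
    intro g
    rw [MonoidHom.mem_ker]
    constructor
    · intro h
      have h1 : g * y * g⁻¹ * y⁻¹ = 1 := congrArg Subtype.val h
      have h2 : g * y * g⁻¹ = y := by
        have := congrArg (· * y) h1
        simpa using this
      rw [← h2]
      simp
      exact h2.symm ▸ (by group)
    · intro h
      ext
      change g * y * g⁻¹ * y⁻¹ = 1
      rw [h]
      group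
  set C := φ.ker with hC
  have hCcard : p ^ 2 < Nat.card C := by
    have h1 := Subgroup.card_mul_index C
    have h2 : C.index = Nat.card φ.range := Subgroup.index_ker φ
    have h3 : Nat.card φ.range ≤ Nat.card Z := by
      have := Subgroup.card_le_card_group φ.range
      exact this
    rw [hZcard] at h3
    have h4 : C.index ≤ p := h2 ▸ h3
    by_contra hle
    push Not at hle
    have h5 : Nat.card R ≤ p ^ 2 * p := by
      rw [← h1]
      exact Nat.mul_le_mul hle h4
    have h6 : p ^ 2 * p = p ^ 3 := by ring
    omega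
  set N := Subgroup.closure ({z', y} : Set R) with hN
  have hNle : N ≤ C := by
    rw [hN, Subgroup.closure_le]
    rintro a (rfl | rfl)
    · exact (hker _).2 (hzc y).symm
    · exact (hker _).2 rfl
  have hNcomm : IsMulCommutative N := by
    apply hcommcl
    have h1 : z' * y = y * z' := (hzc y).symm
    have h1' := h1.symm
    rintro a (rfl | rfl) b (rfl | rfl) <;> first | rfl | assumption
  have hNcard : Nat.card N ≤ p ^ 2 := hrank N hNcomm (fun a _ => hexp a)
  obtain ⟨x, hxC, hxN⟩ : ∃ x ∈ C, x ∉ N := by
    by_contra hno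
    push Not at hno
    have : C ≤ N := hno
    have := Subgroup.card_le_of_le this
    omega
  set A := Subgroup.closure ({z', y, x} : Set R) with hA
  have hxy : x * y = y * x := (hker x).1 hxC
  have hAcomm : IsMulCommutative A := by
    apply hcommcl
    have h1 : z' * y = y * z' := (hzc y).symm
    have h1' := h1.symm
    have h2 : z' * x = x * z' := (hzc x).symm
    have h2' := h2.symm
    have h3' := hxy.symm
    rintro a (rfl | rfl | rfl) b (rfl | rfl | rfl) <;> first | rfl | assumption
  have hAcard : Nat.card A ≤ p ^ 2 := hrank A hAcomm (fun a _ => hexp a)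
  have hZN : Z < N := by
    refine lt_of_le_of_ne ?_ ?_
    · rw [hZdef, Subgroup.zpowers_le]
      exact Subgroup.subset_closure (Set.mem_insert _ _)
    · intro h
      apply hyZ
      rw [h]
      exact Subgroup.subset_closure (Set.mem_insert_of_mem _ rfl)
  have hNA : N < A := by
    refine lt_of_le_of_ne ?_ ?_
    · rw [hN, hA]
      apply Subgroup.closure_mono
      rintro a (rfl | rfl)
      · exact Set.mem_insert _ _
      · exact Set.mem_insert_of_mem _ (Set.mem_insert _ _)
    · intro h
      apply hxN
      rw [h]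
      exact Subgroup.subset_closure (Set.mem_insert_of_mem _ (Set.mem_insert_of_mem _ rfl))
  have h1 := H18.card_mul_le_of_lt hR hZN
  have h2 := H18.card_mul_le_of_lt hR hNA
  rw [hZcard] at h1
  have h3 : p ^ 3 ≤ Nat.card A := by
    calc p ^ 3 = p * (p * p) := by ring
      _ ≤ p * Nat.card N := Nat.mul_le_mul_left p h1
      _ ≤ Nat.card A := h2
  have h4 : p ^ 2 < p ^ 3 := Nat.pow_lt_pow_right hp.one_lt (by norm_num)
  omega

end Cfsg.Agent.S3771
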