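import Cfsg.Statements.S3772
import Mathlib
import Cfsg.Agent.Lib.H01.Basic
import Cfsg.Agent.Lib.H18.Special

set_option autoImplicit false
open Cfsg

namespace Cfsg.Agent.S3772


open Cfsg

section
variable {G : Type*} [Group G] [DecidableEq G]

/-- sign on `{1, z}` -/
def eps (c : G) : ℤ := if c = 1 then 1 else -1

/-- sign of the square -/
def ee (x : G) : ℤ := eps (x * x)

/-- commutator -/
def cc (x y : G) : G := x * y * x⁻¹ * y⁻¹

theorem eps_sq (c : G) : eps c * eps c = 1 := by
  unfold eps
  split_ifs <;> norm_num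

variable {z : G} (hzc : ∀ g, z * g = g * z) (hz2 : z * z = 1) (hz1 : z ≠ 1)
  (hsq : ∀ x : G, x * x = 1 ∨ x * x = z)
  (hcom : ∀ x y : G, cc x y = 1 ∨ cc x y = z)

include hz2 hz1 in
theorem eps_mul {a b : G} (ha : a = 1 ∨ a = z) (hb : b = 1 ∨ b = z) :
    eps (a * b) = eps a * eps b := by
  have e1 : eps (1 : G) = 1 := by simp [eps]
  have ez : eps z = -1 := by simp [eps, hz1]
  rcases ha with rfl | rfl <;> rcases hb with rfl | rfl <;> simp [e1, ez, hz2]

include hzc hz2 hz1 hsq hcom in
theorem ee_mul (x y : G) : ee (x * y) = ee x * ee y * eps (cc y x) := by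
  have hcent : ∀ c : G, (c = 1 ∨ c = z) → ∀ g, c * g = g * c := by
    rintro c (rfl | rfl) g
    · simp
    · exact hzc g
  have h1 : (x * y) * (x * y) = (x * x) * (y * y) * cc y x := by
    have h2 : y * x = cc y x * x * y := by simp only [cc]; group
    calc (x * y) * (x * y) = x * (y * x) * y := by group
      _ = x * (cc y x * x * y) * y := by rw [← h2]
      _ = (x * cc y x) * x * y * y := by group
      _ = (cc y x * x) * x * y * y := by rw [hcent _ (hcom y x) x]
      _ = cc y x * ((x * x) * (y * y)) := by group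
      _ = (x * x) * (y * y) * cc y x := hcent _ (hcom y x) _
  have hprod : (x * x) * (y * y) = 1 ∨ (x * x) * (y * y) = z := by
    rcases hsq x with h | h <;> rcases hsq y with h' | h' <;> simp [h, h', hz2]
  unfold ee
  rw [h1, eps_mul hz2 hz1 hprod (hcom y x), eps_mul hz2 hz1 (hsq x) (hsq y)]

include hzc hz2 hz1 hcom in
theorem eps_cc_mul (w x y : G) : eps (cc w (x * y)) = eps (cc w x) * eps (cc w y) := by
  have hcent : ∀ c : G, (c = 1 ∨ c = z) → ∀ g, c * g = g * c := by
    rintro c (rfl | rfl) g
    · simp
    · exact hzc g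
  have h1 : cc w (x * y) = cc w x * cc w y := by
    have h2 : cc w (x * y) = (w * x * w⁻¹ * x⁻¹) * (x * cc w y * x⁻¹) := by
      simp only [cc]; group
    rw [h2]
    have h3 : x * cc w y * x⁻¹ = cc w y := by
      rw [← hcent _ (hcom w y) x]; group
    rw [h3]
    rfl
  rw [h1, eps_mul hz2 hz1 (hcom w x) (hcom w y)]

variable [Fintype G]

include hzc hz2 hz1 hcom in
theorem sum_eps_cc (w : G) :
    ∑ x : G, eps (cc w x) = if w ∈ Subgroup.center G then (Fintype.card G : ℤ) else 0 := by
  split_ifs with hw
  · have h1 : ∀ x : G, eps (cc w x) = 1 := by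
      intro x
      have h2 : cc w x = 1 := by
        simp only [cc]
        rw [← Subgroup.mem_center_iff.mp hw x]
        group
      rw [h2]
      simp [eps]
    simp [h1]
  · have hex : ∃ y : G, cc w y = z := by
      by_contra hall
      push Not at hall
      apply hw
      rw [Subgroup.mem_center_iff]
      intro g
      have h2 := (hcom w g).resolve_right (hall g)
      simp only [cc] at h2
      have h3 : w * g * w⁻¹ = g := by simpa using congrArg (· * g) h2
      have h4 : w * g = g * w := by simpa using congrArg (· * w) h3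
      exact h4.symm
    obtain ⟨y, hy⟩ := hex
    have hm : eps (cc w y) = -1 := by
      rw [hy]
      simp [eps, hz1]
    have h2 : ∑ x : G, eps (cc w x) = ∑ x : G, eps (cc w (x * y)) :=
      (Fintype.sum_equiv (Equiv.mulRight y) _ _ (fun x => rfl)).symm
    simp_rw [eps_cc_mul hzc hz2 hz1 hcom, hm] at h2
    have h3 : ∑ x : G, eps (cc w x) * -1 = - ∑ x : G, eps (cc w x) := by
      rw [← Finset.sum_neg_distrib]
      apply Finset.sum_congr rfl
      intro x _
      ring
    rw [h3] at h2
    omega

include hzc hz2 hz1 hsq hcom in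
theorem sq_sum_ee :
    (∑ x : G, ee x) ^ 2 =
      (Fintype.card G : ℤ) * ∑ w ∈ Finset.univ.filter (fun w : G => w ∈ Subgroup.center G), ee w := by
  have hcent : ∀ c : G, (c = 1 ∨ c = z) → ∀ g, c * g = g * c := by
    rintro c (rfl | rfl) g
    · simp
    · exact hzc g
  have hpt : ∀ x w : G, ee x * ee (x⁻¹ * w) = ee w * eps (cc w x) := by
    intro x w
    have h1 := ee_mul hzc hz2 hz1 hsq hcom x (x⁻¹ * w)
    rw [mul_inv_cancel_left] at h1
    have h2 : cc (x⁻¹ * w) x = cc w x := by
      have h3 : cc (x⁻¹ * w) x = x⁻¹ * cc w x * x := by simp only [cc]; group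
      rw [h3, ← hcent _ (hcom w x) x⁻¹]
      group
    rw [h1, h2, mul_assoc, eps_sq, mul_one]
  calc (∑ x : G, ee x) ^ 2 = ∑ x : G, ∑ y : G, ee x * ee y := by
        rw [pow_two, Finset.sum_mul_sum]
    _ = ∑ x : G, ∑ w : G, ee x * ee (x⁻¹ * w) := by
        apply Finset.sum_congr rfl
        intro x _
        exact (Fintype.sum_equiv (Equiv.mulLeft x⁻¹) _ _ (fun w => rfl)).symm
    _ = ∑ x : G, ∑ w : G, ee w * eps (cc w x) := by
        simp_rw [hpt]
    _ = ∑ w : G, ∑ x : G, ee w * eps (cc w x) := Finset.sum_comm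
    _ = ∑ w : G, ee w * (if w ∈ Subgroup.center G then (Fintype.card G : ℤ) else 0) := by
        apply Finset.sum_congr rfl
        intro w _
        rw [← Finset.mul_sum, sum_eps_cc hzc hz2 hz1 hcom]
    _ = (Fintype.card G : ℤ) * ∑ w ∈ Finset.univ.filter (fun w : G => w ∈ Subgroup.center G), ee w := by
        rw [Finset.sum_filter, Finset.mul_sum]
        apply Finset.sum_congr rfl
        intro w _
        split_ifs <;> ring

include hzc hz2 hz1 hsq hcom in
theorem center_sum :
    (∑ w ∈ Finset.univ.filter (fun w : G => w ∈ Subgroup.center G), ee w = 0) ∨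
    ((∑ w ∈ Finset.univ.filter (fun w : G => w ∈ Subgroup.center G), ee w =
        ((Finset.univ.filter (fun w : G => w ∈ Subgroup.center G)).card : ℤ)) ∧
      ∀ w ∈ Subgroup.center G, w * w = 1) := by
  by_cases hall : ∀ w ∈ Subgroup.center G, w * w = 1
  · right
    refine ⟨?_, hall⟩
    have h1 : ∀ w ∈ Finset.univ.filter (fun w : G => w ∈ Subgroup.center G), ee w = 1 := by
      intro w hw
      rw [Finset.mem_filter] at hw
      unfold ee eps
      rw [hall w hw.2]
      simp
    rw [Finset.sum_congr rfl h1]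
    simp
  · left
    push Not at hall
    obtain ⟨w₀, hw₀, hne⟩ := hall
    have hm : ee w₀ = -1 := by
      unfold ee eps
      simp [hne]
    have h2 : ∑ w ∈ Finset.univ.filter (fun w : G => w ∈ Subgroup.center G), ee w =
        ∑ w ∈ Finset.univ.filter (fun w : G => w ∈ Subgroup.center G), ee (w * w₀) := by
      symm
      apply Finset.sum_equiv (Equiv.mulRight w₀)
      · intro w
        simp only [Finset.mem_filter, Finset.mem_univ, true_and, Equiv.coe_mulRight]
        constructor
        · intro h
          exact Subgroup.mul_mem _ h hw₀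
        · intro h
          have := Subgroup.mul_mem _ h (Subgroup.inv_mem _ hw₀)
          simpa using this
      · intro w _
        rfl
    have h3 : ∀ w ∈ Finset.univ.filter (fun w : G => w ∈ Subgroup.center G), ee (w * w₀) = - ee w := by
      intro w _
      rw [ee_mul hzc hz2 hz1 hsq hcom, hm]
      have h4 : cc w₀ w = 1 := by
        simp only [cc]
        rw [← Subgroup.mem_center_iff.mp hw₀ w]
        group
      rw [h4]
      simp [eps]
    rw [Finset.sum_congr rfl h3, Finset.sum_neg_distrib] at h2
    omega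

end



/-- Let G be a finite 2-group whose Frattini subgroup Φ(G) has order 2, with |G : Φ(G)| = 2^d, and let j be the number of elements x of G with x² = 1. Then j = 2^d, or j = 2^d + 2^(d−r) or j = 2^d − 2^(d−r) for some positive integer r with 2r ≤ d. Moreover if d = 2r and j is 2^d + 2^r or 2^d − 2^r, then G is extraspecial. -/
theorem result {G : Type*} [Group G] [Finite G] (hG : IsPGroup 2 G) (hΦ : Nat.card (frattini G) = 2) (d : ℕ) (hd : (frattini G).index = 2 ^ d) : (Nat.card {x : G // x ^ 2 = 1} = 2 ^ d ∨ ∃ r : ℕ, 1 ≤ r ∧ 2 * r ≤ d ∧ (Nat.card {x : G // x ^ 2 = 1} = 2 ^ d + 2 ^ (d - r) ∨ Nat.card {x : G // x ^ 2 = 1} + 2 ^ (d - r) = 2 ^ d)) ∧ (∀ r : ℕ, d = 2 * r → (Nat.card {x : G // x ^ 2 = 1} = 2 ^ d + 2 ^ r ∨ Nat.card {x : G // x ^ 2 = 1} + 2 ^ r = 2 ^ d) → Cfsg.IsExtraspecial 2 G) := by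
  classical
  haveI hF2 : Fact (Nat.Prime 2) := ⟨Nat.prime_two⟩
  haveI : Fintype G := Fintype.ofFinite G
  haveI hΦn : (frattini G).Normal := inferInstance
  -- the element `z`
  have hΦne : frattini G ≠ ⊥ := by
    intro h
    rw [h] at hΦ
    simp at hΦ
  obtain ⟨⟨z, hzΦ⟩, hz⟩ := Subgroup.ne_bot_iff_exists_ne_one.mp hΦne
  have hz1 : z ≠ 1 := fun h => hz (Subtype.ext h)
  have hΦtwo : ∀ c ∈ frattini G, c = 1 ∨ c = z := by
    intro c hc
    by_contra hcon
    push Not at hcon
    have h1 : Nat.card (frattini G) = 2 := hΦ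
    rw [Nat.card_eq_two_iff] at h1
    obtain ⟨a, b, hab, hu⟩ := h1
    have h2 : ∀ t : frattini G, t = a ∨ t = b := fun t => by
      have : t ∈ ({a, b} : Set (frattini G)) := by rw [hu]; trivial
      simpa using this
    have hc' := h2 ⟨c, hc⟩
    have hz' := h2 ⟨z, hzΦ⟩
    have h1' := h2 1
    have hne1 : (⟨c, hc⟩ : frattini G) ≠ 1 := fun h => hcon.1 (congrArg Subtype.val h)
    have hne2 : (⟨z, hzΦ⟩ : frattini G) ≠ 1 := hz
    have hne3 : (⟨c, hc⟩ : frattini G) ≠ ⟨z, hzΦ⟩ := fun h => hcon.2 (congrArg Subtype.val h)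
    rcases hc' with h3 | h3 <;> rcases hz' with h4 | h4 <;> rcases h1' with h5 | h5 <;>
      simp_all
  have hz2 : z * z = 1 := by
    have h1 : (⟨z, hzΦ⟩ : frattini G) ^ 2 = 1 := by
      have := pow_card_eq_one' (x := (⟨z, hzΦ⟩ : frattini G))
      rwa [hΦ] at this
    have := congrArg Subtype.val h1
    simpa [pow_two] using this
  have hzc : ∀ g, z * g = g * z := by
    intro g
    have h1 := hΦn.conj_mem z hzΦ g
    rcases hΦtwo _ h1 with h2 | h2
    · have h3 : g * z = g := by simpa using congrArg (· * g) h2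
      exact absurd (mul_eq_left.mp h3) hz1
    · have h3 : g * z = z * g := by simpa using congrArg (· * g) h2
      exact h3.symm
  have hsq : ∀ x : G, x * x = 1 ∨ x * x = z := by
    intro x
    apply hΦtwo
    rw [← pow_two]
    exact H01.pow_mem_frattini_of_isPGroup hG x
  have hcom : ∀ x y : G, cc x y = 1 ∨ cc x y = z := by
    intro x y
    apply hΦtwo
    apply H01.commutator_le_frattini_of_isPGroup hG
    rw [commutator_def]
    exact Subgroup.commutator_mem_commutator (Subgroup.mem_top x) (Subgroup.mem_top y)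
  have hcardG : Nat.card G = 2 ^ (d + 1) := by
    have h1 := Subgroup.card_mul_index (frattini G)
    rw [hΦ, hd] at h1
    rw [← h1, pow_succ]
    ring
  -- the sums
  set j := Nat.card {x : G // x ^ 2 = 1} with hj
  have hjc : j = (Finset.univ.filter (fun x : G => x * x = 1)).card := by
    rw [hj, Nat.card_eq_fintype_card]
    have : Fintype.card {x : G // x ^ 2 = 1} = Fintype.card {x : G // x * x = 1} := by
      apply Fintype.card_congr
      exact Equiv.subtypeEquivRight (fun x => by rw [pow_two])
    rw [this, Fintype.card_subtype]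
  set T : ℤ := ∑ x : G, ee x with hT
  have hTj : T = 2 * (j : ℤ) - 2 ^ (d + 1) := by
    have h1 : ∀ x : G, ee x = 2 * (if x * x = 1 then 1 else 0) - 1 := by
      intro x
      unfold ee eps
      split_ifs <;> norm_num
    rw [hT]
    simp_rw [h1]
    rw [Finset.sum_sub_distrib, ← Finset.mul_sum, Finset.sum_boole, ← hjc]
    simp only [Finset.sum_const, Finset.card_univ, smul_eq_mul, mul_one, nsmul_eq_mul]
    rw [← Nat.card_eq_fintype_card, hcardG]
    push_cast
    ring
  have hsqT := sq_sum_ee hzc hz2 hz1 hsq hcom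
  rw [← hT, ← Nat.card_eq_fintype_card, hcardG] at hsqT
  have hZcard : (Finset.univ.filter (fun w : G => w ∈ Subgroup.center G)).card = Nat.card (Subgroup.center G) := by
    rw [Nat.card_eq_fintype_card, Fintype.card_subtype]
  have hcs := center_sum hzc hz2 hz1 hsq hcom
  rw [hZcard] at hcs
  obtain ⟨t, ht⟩ := IsPGroup.iff_card.mp (hG.to_subgroup (Subgroup.center G))
  have hzZ : z ∈ Subgroup.center G := by
    rw [Subgroup.mem_center_iff]
    intro g
    exact (hzc g).symm
  have ht1 : 1 ≤ t := by
    rcases Nat.eq_zero_or_pos t with h0 | h0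
    · subst h0
      rw [pow_zero] at ht
      have := Subgroup.card_eq_one.mp ht
      rw [this, Subgroup.mem_bot] at hzZ
      exact absurd hzZ hz1
    · exact h0
  have hcontra : (∀ w ∈ Subgroup.center G, w * w = 1) → (∀ x y : G, x * y * x⁻¹ * y⁻¹ = 1) → False := by
    intro h1 h2
    have hle : frattini G ≤ ⊥ := by
      apply H01.frattini_le_of_comm_pow (p := 2) ⊥
      · rw [commutator_def, Subgroup.commutator_le]
        intro x _ y _
        rw [Subgroup.mem_bot]
        exact h2 x y
      · intro x
        rw [Subgroup.mem_bot, pow_two]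
        apply h1
        rw [Subgroup.mem_center_iff]
        intro g
        have h3 := h2 g x
        have h4 : g * x * g⁻¹ = x := by simpa using congrArg (· * x) h3
        have h5 : g * x = x * g := by simpa using congrArg (· * g) h4
        exact h5
    exact hΦne (le_bot_iff.mp hle)
  have hpowT : ∀ (hS : T ^ 2 = 2 ^ (d + 1 + t)), ∃ k : ℕ, 2 * k = d + 1 + t ∧ (T = 2 ^ k ∨ T = -2 ^ k) := by
    intro hS
    have h1 : T.natAbs ^ 2 = 2 ^ (d + 1 + t) := by
      have h2 : ((T.natAbs ^ 2 : ℕ) : ℤ) = ((2 ^ (d + 1 + t) : ℕ) : ℤ) := by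
        push_cast
        rw [sq_abs, hS]
      exact_mod_cast h2
    have h3 : T.natAbs ∣ 2 ^ (d + 1 + t) := by
      rw [← h1]
      exact Dvd.intro_left _ (by ring)
    obtain ⟨k, -, hk⟩ := (Nat.dvd_prime_pow Nat.prime_two).mp h3
    refine ⟨k, ?_, ?_⟩
    · rw [hk, ← pow_mul] at h1
      have := Nat.pow_right_injective (le_refl 2) h1
      omega
    · rcases Int.natAbs_eq T with h4 | h4
      · left
        rw [h4, hk]
        push_cast
        simp
      · right
        rw [h4, hk]
        push_cast
        simp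
  constructor
  · rcases hcs with h0 | ⟨h1, h2⟩
    · left
      rw [h0, mul_zero] at hsqT
      have hT0 : T = 0 := by
        exact pow_eq_zero_iff (by norm_num) |>.mp hsqT
      rw [hT0] at hTj
      have h3 : (j : ℤ) = 2 ^ d := by
        rw [pow_succ] at hTj
        linarith
      exact_mod_cast h3
    · right
      rw [h1, ht] at hsqT
      have hS : T ^ 2 = 2 ^ (d + 1 + t) := by
        rw [hsqT, pow_add]
        push_cast
        ring
      obtain ⟨k, hk, hk2⟩ := hpowT hS
      -- `t + 1 ≤ d`
      have htd : t + 1 ≤ d := by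
        by_contra hlt
        push Not at hlt
        have hidx : (Subgroup.center G).index * 2 ^ t = 2 ^ (d + 1) := by
          have := Subgroup.card_mul_index (Subgroup.center G)
          rw [ht, hcardG] at this
          rw [mul_comm]
          exact this
        have ht2 : t ≤ d + 1 := by
          have : 2 ^ t ∣ 2 ^ (d + 1) := Dvd.intro_left _ hidx
          exact (Nat.pow_dvd_pow_iff_le_right (by norm_num)).mp this
        have hidx2 : (Subgroup.center G).index = 2 ^ (d + 1 - t) := by
          apply Nat.eq_of_mul_eq_mul_right (show 0 < 2 ^ t by positivity)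
          rw [hidx, ← pow_add]
          congr 1
          omega
        have hcyc : IsCyclic (G ⧸ Subgroup.center G) := by
          have hc : Nat.card (G ⧸ Subgroup.center G) = 2 ^ (d + 1 - t) := hidx2
          have h3 : d + 1 - t = 0 ∨ d + 1 - t = 1 := by omega
          rcases h3 with h3 | h3
          · rw [h3, pow_zero] at hc
            haveI : Subsingleton (G ⧸ Subgroup.center G) := (Nat.card_eq_one_iff_unique.mp hc).1
            infer_instance
          · rw [h3, pow_one] at hc
            exact isCyclic_of_prime_card hc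
        have hcomm := commutative_of_cyclic_center_quotient (QuotientGroup.mk' (Subgroup.center G))
          (by rw [QuotientGroup.ker_mk'])
        apply hcontra h2
        intro x y
        rw [hcomm x y]
        group
      refine ⟨d + 1 - k, by omega, by omega, ?_⟩
      obtain ⟨k', rfl⟩ : ∃ k', k = k' + 1 := ⟨k - 1, by omega⟩
      have hdr : d - (d + 1 - (k' + 1)) = k' := by omega
      rw [hdr]
      rcases hk2 with h3 | h3
      · left
        rw [h3, pow_succ, pow_succ] at hTj
        have h4 : (j : ℤ) = 2 ^ d + 2 ^ k' := by linarith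
        exact_mod_cast h4
      · right
        rw [h3, pow_succ, pow_succ] at hTj
        have h4 : (j : ℤ) + 2 ^ k' = 2 ^ d := by linarith
        exact_mod_cast h4
  · intro r hdr hjr
    have hTval : T = 2 ^ (r + 1) ∨ T = - 2 ^ (r + 1) := by
      rcases hjr with h1 | h1
      · left
        have h2 : (j : ℤ) = 2 ^ d + 2 ^ r := by exact_mod_cast h1
        rw [hTj, h2, pow_succ, pow_succ]
        ring
      · right
        have h2 : (j : ℤ) + 2 ^ r = 2 ^ d := by exact_mod_cast h1
        rw [hTj, pow_succ, pow_succ]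
        linarith
    have hT2 : T ^ 2 = 2 ^ (d + 2) := by
      rcases hTval with h1 | h1 <;> rw [h1, hdr] <;> ring
    rcases hcs with h0 | ⟨h1, h2⟩
    · rw [h0, mul_zero, hT2] at hsqT
      have : (2 : ℤ) ^ (d + 2) ≠ 0 := by positivity
      exact absurd hsqT this
    · rw [h1, hT2] at hsqT
      have hZ2 : Nat.card (Subgroup.center G) = 2 := by
        have h3 : (2 : ℤ) ^ (d + 2) = 2 ^ (d + 1) * 2 := by ring
        rw [h3] at hsqT
        have h4 : ((Nat.card (Subgroup.center G) : ℕ) : ℤ) = 2 := by
          have h5 : (2 : ℤ) ^ (d + 1) ≠ 0 := by positivity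
          exact (mul_left_cancel₀ h5 hsqT).symm
        exact_mod_cast h4
      refine H18.isExtraspecial_of hG hZ2 ?_ ?_ ?_
      · intro x
        rw [pow_two]
        rcases hsq x with h3 | h3
        · rw [h3]; exact Subgroup.one_mem _
        · rw [h3]; exact hzZ
      · intro x y
        have h3 := hcom x y
        simp only [cc] at h3
        rcases h3 with h3 | h3
        · rw [h3]; exact Subgroup.one_mem _
        · rw [h3]; exact hzZ
      · by_contra hall
        push Not at hall
        exact hcontra h2 hall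

end Cfsg.Agent.S3772
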