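import Cfsg.Statements.S3773
import Mathlib
import Cfsg.Agent.Lib.H01.Basic
import Cfsg.Agent.Lib.H13.FrobOdd
import Cfsg.Agent.Lib.H18.Syl
import Cfsg.Agent.Lib.H18.ChevW

set_option autoImplicit false
open Cfsg

namespace Cfsg.Agent.S3773


open scoped commutatorElement

section abstractq
variable {Q W : Type*} [Group Q] [Group W] [Finite Q] [Finite W]

theorem mem_zpowers_two {X : Type*} [Group X] {a : X} (ha : a ^ 2 = 1) (x : X) :
    x ∈ Subgroup.zpowers a ↔ x = 1 ∨ x = a := by
  constructor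
  · rintro ⟨k, rfl⟩
    rcases Int.even_or_odd' k with ⟨m, rfl | rfl⟩
    · left
      show a ^ (2 * m) = 1
      rw [zpow_mul]
      have : a ^ (2 : ℤ) = 1 := by exact_mod_cast ha
      rw [this, one_zpow]
    · right
      show a ^ (2 * m + 1) = a
      rw [zpow_add, zpow_mul]
      have : a ^ (2 : ℤ) = 1 := by exact_mod_cast ha
      rw [this, one_zpow, one_mul, zpow_one]
  · rintro (rfl | rfl)
    · exact Subgroup.one_mem _
    · exact Subgroup.mem_zpowers _

theorem no_index_two
    (hQc : ∀ a b : Q, a * b = b * a) (hWc : ∀ a b : W, a * b = b * a)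
    (hQ : ∀ y : Q, y ^ 2 = 1) (hW : ∀ w : W, w ^ 2 = 1) (f : Q → W) (B : Q → Q → W)
    (hB1 : ∀ a b c, B (a * b) c = B a c * B b c)
    (hB2 : ∀ a b c, B a (b * c) = B a b * B a c)
    (hf : ∀ x y, f (x * y) = f x * f y * B x y)
    (hani : ∀ q, f q = 1 ↔ q = 1) (hcard : Nat.card Q = Nat.card W ^ 2)
    (H : Subgroup W) (hH : H.index = 2) (hBH : ∀ x y, B x y ∈ H) : False := by
  haveI hHn : H.Normal := ⟨fun n hn g => by rw [hWc g n]; simpa using hn⟩
  let φ : Q →* W ⧸ H :=
    { toFun := fun q => (f q : W ⧸ H)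
      map_one' := by
        show ((f 1 : W) : W ⧸ H) = 1
        rw [(hani 1).2 rfl]
        rfl
      map_mul' := by
        intro x y
        show ((f (x * y) : W) : W ⧸ H) = (f x : W ⧸ H) * (f y : W ⧸ H)
        rw [hf, QuotientGroup.mk_mul, QuotientGroup.mk_mul]
        have : ((B x y : W) : W ⧸ H) = 1 := (QuotientGroup.eq_one_iff _).2 (hBH x y)
        rw [this, mul_one] }
  have hK : ∀ q : Q, q ∈ φ.ker ↔ f q ∈ H := by
    intro q
    rw [MonoidHom.mem_ker]
    exact QuotientGroup.eq_one_iff _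
  have hidx : φ.ker.index ≤ 2 := by
    rw [Subgroup.index_ker]
    calc Nat.card φ.range ≤ Nat.card (W ⧸ H) := Nat.card_le_card_of_injective _ Subtype.val_injective
      _ = 2 := hH
  have h1 := H18.lemA_mul (Y := φ.ker) (W := H)
    (fun a b => Subtype.ext (hQc a b))
    (fun a b => Subtype.ext (hWc a b))
    (fun a => Subtype.ext (by simpa using hQ a))
    (fun a => Subtype.ext (by simpa using hW a))
    (fun q => ⟨f q, (hK q).1 q.2⟩) (fun a b => ⟨B a b, hBH _ _⟩)
    (fun a b c => Subtype.ext (hB1 _ _ _))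
    (fun a b c => Subtype.ext (hB2 _ _ _))
    (fun x y => Subtype.ext (hf _ _))
    ⊥
    (fun y => by
      rw [Subgroup.mem_bot]
      constructor
      · intro h
        exact Subtype.ext ((hani _).1 (congrArg Subtype.val h))
      · rintro rfl
        exact Subtype.ext ((hani _).2 rfl))
  have h2 : Nat.card (⊥ : Subgroup φ.ker) = 1 := Subgroup.card_bot
  rw [h2, one_mul] at h1
  have h3 : Nat.card φ.ker * φ.ker.index = Nat.card Q := Subgroup.card_mul_index _
  have h4 : Nat.card H * H.index = Nat.card W := Subgroup.card_mul_index _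
  rw [hH] at h4
  have h5 : 0 < Nat.card H := Nat.card_pos
  rw [← h3, ← h4] at hcard
  have h6 : Nat.card φ.ker * φ.ker.index ≤ Nat.card H ^ 2 * 2 :=
    Nat.mul_le_mul h1 hidx
  rw [hcard] at h6
  have h7 : 0 < Nat.card H ^ 2 := by positivity
  nlinarith

theorem no_central
    (hQc : ∀ a b : Q, a * b = b * a) (hWc : ∀ a b : W, a * b = b * a)
    (hQ : ∀ y : Q, y ^ 2 = 1) (hW : ∀ w : W, w ^ 2 = 1) (f : Q → W) (B : Q → Q → W)
    (hB1 : ∀ a b c, B (a * b) c = B a c * B b c)
    (hB2 : ∀ a b c, B a (b * c) = B a b * B a c)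
    (hf : ∀ x y, f (x * y) = f x * f y * B x y)
    (hani : ∀ q, f q = 1 ↔ q = 1) (hcard : Nat.card Q = Nat.card W ^ 2)
    (q₀ : Q) (hq₀ : q₀ ≠ 1) (hB0' : ∀ q, B q q₀ = 1) : False := by
  set a := f q₀ with ha
  have ha1 : a ≠ 1 := fun h => hq₀ ((hani _).1 h)
  let A : Subgroup W := Subgroup.zpowers a
  haveI hAn : A.Normal := ⟨fun n hn g => by rw [hWc g n]; simpa using hn⟩
  have hcA : Nat.card A = 2 := by
    show Nat.card (Subgroup.zpowers a) = 2
    rw [Nat.card_zpowers]
    exact orderOf_eq_prime (hW a) ha1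
  have hcq : Nat.card (Subgroup.zpowers q₀) = 2 := by
    rw [Nat.card_zpowers]
    exact orderOf_eq_prime (hQ q₀) hq₀
  have h1 := H18.lemA_mul (Y := Q) (W := W ⧸ A) hQc
    (by
      intro x y
      induction x using QuotientGroup.induction_on with | _ x => ?_
      induction y using QuotientGroup.induction_on with | _ y => ?_
      rw [← QuotientGroup.mk_mul, ← QuotientGroup.mk_mul, hWc])
    hQ
    (by
      intro x
      induction x using QuotientGroup.induction_on with | _ x => ?_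
      rw [← QuotientGroup.mk_pow, hW]
      rfl)
    (fun q => (f q : W ⧸ A)) (fun x y => (B x y : W ⧸ A))
    (fun a b c => by
      show ((B (a * b) c : W) : W ⧸ A) = _
      rw [hB1]
      rfl)
    (fun a b c => by
      show ((B a (b * c) : W) : W ⧸ A) = _
      rw [hB2]
      rfl)
    (fun x y => by
      show ((f (x * y) : W) : W ⧸ A) = _
      rw [hf]
      rfl)
    (Subgroup.zpowers q₀)
    (fun y => by
      show ((f y : W) : W ⧸ A) = 1 ↔ _
      rw [QuotientGroup.eq_one_iff, mem_zpowers_two (hQ q₀)]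
      show f y ∈ Subgroup.zpowers a ↔ _
      rw [mem_zpowers_two (hW a)]
      constructor
      · rintro (h | h)
        · exact Or.inl ((hani _).1 h)
        · right
          have h2 := hf y q₀
          rw [hB0', mul_one, h, ← ha, ← pow_two, hW] at h2
          have h3 := (hani _).1 h2
          have h4 : y * q₀ = q₀ * q₀ := by
            rw [h3, ← pow_two, hQ]
          exact mul_right_cancel h4
      · rintro (rfl | rfl)
        · exact Or.inl ((hani _).2 rfl)
        · exact Or.inr rfl)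
  rw [hcq] at h1
  have h4 : Nat.card (W ⧸ A) * Nat.card A = Nat.card W :=
    (Subgroup.card_eq_card_quotient_mul_card_subgroup A).symm
  rw [hcA] at h4
  rw [hcard, ← h4] at h1
  have h5 : 0 < Nat.card (W ⧸ A) := Nat.card_pos
  have h7 : 0 < Nat.card (W ⧸ A) ^ 2 := by positivity
  nlinarith

end abstractq


/-- Let G be a finite 2-group of nilpotency class at most 2 and exponent dividing 4 in which the elements x with x² = 1 form a subgroup N. Then |G| ≤ |N|³, and |G| < |N|³ unless G is special. -/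
theorem result {G : Type*} [Group G] [Finite G] (hG : IsPGroup 2 G) (hcl : (⊤ : Subgroup G).lowerCentralSeries 2 = ⊥) (hexp : ∀ x : G, x ^ 4 = 1) (hN : ∀ x y : G, x ^ 2 = 1 → y ^ 2 = 1 → (x * y) ^ 2 = 1) : Nat.card G ≤ Nat.card {x : G // x ^ 2 = 1} ^ 3 ∧ (¬ Cfsg.IsSpecial 2 G → Nat.card G < Nat.card {x : G // x ^ 2 = 1} ^ 3) := by
  classical
  haveI : Fact (Nat.Prime 2) := ⟨Nat.prime_two⟩
  have hcen : ∀ x y z : G, ⁅x, y⁆ * z = z * ⁅x, y⁆ := by
    intro x y z
    have h1 : ⁅⁅x, y⁆, z⁆ ∈ (⊤ : Subgroup G).lowerCentralSeries 2 := by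
      rw [show (2 : ℕ) = 1 + 1 from rfl, Subgroup.lowerCentralSeries_succ,
        Subgroup.top_lowerCentralSeries_one]
      exact Subgroup.commutator_mem_commutator (Subgroup.commutator_mem_commutator (Subgroup.mem_top _) (Subgroup.mem_top _)) (Subgroup.mem_top _)
    rw [hcl, Subgroup.mem_bot] at h1
    exact commutatorElement_eq_one_iff_mul_comm.1 h1
  have hdata : ∀ x y : G, y * x = ⁅y, x⁆ * x * y := by
    intro x y
    rw [commutatorElement_def]
    group
  have hc2 : ∀ x y : G, ⁅y, x⁆ ^ 2 = 1 := by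
    intro x y
    have h4 := H13.mul_pow_of_central (hdata x y) (hcen y x x) (hcen y x y) 4
    have h6 : ⁅y, x⁆ ^ 6 = 1 := by
      have := h4.2
      rw [hexp, hexp, hexp] at this
      have h7 : Nat.choose 4 2 = 6 := by decide
      rw [h7] at this
      simpa using this.symm
    have h5 : ⁅y, x⁆ ^ 4 = 1 := by
      have := h4.1
      rw [hexp, mul_one, one_mul] at this
      have h8 : x = ⁅y, x⁆ ^ 4 * x := this
      exact (mul_eq_right.1 h8.symm)
    have : ⁅y, x⁆ ^ 6 = ⁅y, x⁆ ^ 4 * ⁅y, x⁆ ^ 2 := by rw [← pow_add]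
    rw [h6, h5, one_mul] at this
    exact this.symm
  have hsqc : ∀ x y : G, y ^ 2 * x = x * y ^ 2 := by
    intro x y
    have h := (H13.mul_pow_of_central (hdata x y) (hcen y x x) (hcen y x y) 2).1
    rwa [hc2, one_mul] at h
  have hmulsq : ∀ x y : G, (x * y) ^ 2 = x ^ 2 * y ^ 2 * ⁅y, x⁆ := by
    intro x y
    have h := (H13.mul_pow_of_central (hdata x y) (hcen y x x) (hcen y x y) 2).2
    simpa using h
  have hcmul : ∀ x y z : G, ⁅x * y, z⁆ = ⁅x, z⁆ * ⁅y, z⁆ := by
    intro x y z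
    have h1 : y * z * y⁻¹ = ⁅y, z⁆ * z := by
      rw [commutatorElement_def]
      group
    have h2 : ⁅x * y, z⁆ = x * (y * z * y⁻¹) * x⁻¹ * z⁻¹ := by
      rw [commutatorElement_def]
      group
    rw [h2, h1, commutatorElement_def x z]
    have h3 : x * (⁅y, z⁆ * z) = ⁅y, z⁆ * (x * z) := by
      rw [← mul_assoc, ← hcen y z x, mul_assoc]
    rw [h3]
    have h4 := hcen y z (x * z * x⁻¹ * z⁻¹)
    rw [← h4]
    group
  have hcmul' : ∀ x y z : G, ⁅x, y * z⁆ = ⁅x, y⁆ * ⁅x, z⁆ := by
    intro x y z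
    rw [← commutatorElement_inv, hcmul, mul_inv_rev, commutatorElement_inv, commutatorElement_inv]
    exact hcen x z _
  -- subgroups
  let N : Subgroup G :=
    { carrier := {x | x ^ 2 = 1}
      mul_mem' := fun {a b} ha hb => hN a b ha hb
      one_mem' := one_pow 2
      inv_mem' := fun {a} ha => by
        show a⁻¹ ^ 2 = 1
        rw [inv_pow, show a ^ 2 = 1 from ha, inv_one] }
  have hcardN : Nat.card {x : G // x ^ 2 = 1} = Nat.card N := rfl
  have hmemN : ∀ x : G, x ∈ N ↔ x ^ 2 = 1 := fun x => Iff.rfl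
  let W₀ : Subgroup G := N ⊓ Subgroup.center G
  have hmemW : ∀ x : G, x ∈ W₀ ↔ x ^ 2 = 1 ∧ ∀ z : G, z * x = x * z := by
    intro x
    rw [Subgroup.mem_inf, hmemN, Subgroup.mem_center_iff]
  haveI hWn : W₀.Normal := by
    show (N ⊓ Subgroup.center G).Normal
    refine ⟨fun n hn g => ?_⟩
    rw [hmemW] at hn ⊢
    have : g * n * g⁻¹ = n := by
      rw [hn.2 g]
      group
    rw [this]
    exact hn
  have hcW : ∀ x y : G, ⁅x, y⁆ ∈ W₀ := fun x y =>
    (hmemW _).2 ⟨hc2 y x, fun z => (hcen x y z).symm⟩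
  have hsqW : ∀ x : G, x ^ 2 ∈ W₀ := fun x =>
    (hmemW _).2 ⟨by rw [← pow_mul]; exact hexp x, fun z => (hsqc z x).symm⟩
  -- the quotient
  have hQc : ∀ a b : G ⧸ W₀, a * b = b * a := by
    intro a b
    induction a using QuotientGroup.induction_on with | _ x => ?_
    induction b using QuotientGroup.induction_on with | _ y => ?_
    rw [← QuotientGroup.mk_mul, ← QuotientGroup.mk_mul, QuotientGroup.eq]
    have h := hcW y⁻¹ x⁻¹
    have h1 : (x * y)⁻¹ * (y * x) = ⁅y⁻¹, x⁻¹⁆ := by
      rw [commutatorElement_def]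
      group
    rw [h1]
    exact h
  have hQ2 : ∀ a : G ⧸ W₀, a ^ 2 = 1 := by
    intro a
    induction a using QuotientGroup.induction_on with | _ x => ?_
    rw [← QuotientGroup.mk_pow]
    exact (QuotientGroup.eq_one_iff _).2 (hsqW x)
  have hW2 : ∀ w : W₀, w ^ 2 = 1 := fun w => Subtype.ext ((hmemW _).1 w.2).1
  have hWc : ∀ a b : W₀, a * b = b * a := fun a b => Subtype.ext (((hmemW _).1 b.2).2 a)
  let fG : G → W₀ := fun x => ⟨x ^ 2, hsqW x⟩
  let BG : G → G → W₀ := fun x y => ⟨⁅y, x⁆, hcW y x⟩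
  let f : G ⧸ W₀ → W₀ := fun q => fG q.out
  let B : G ⧸ W₀ → G ⧸ W₀ → W₀ := fun p q => BG p.out q.out
  have hcomm_w : ∀ (x : G) (w : W₀) (y : G), ⁅(w : G), y⁆ = 1 := by
    intro x w y
    exact commutatorElement_eq_one_iff_mul_comm.2 (((hmemW _).1 w.2).2 y).symm
  have hcomm_w' : ∀ (y : G) (w : W₀), ⁅y, (w : G)⁆ = 1 := by
    intro y w
    exact commutatorElement_eq_one_iff_mul_comm.2 (((hmemW _).1 w.2).2 y)
  have hf1 : ∀ x : G, f (x : G ⧸ W₀) = fG x := by
    intro x
    obtain ⟨w, hw⟩ := QuotientGroup.mk_out_eq_mul W₀ x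
    apply Subtype.ext
    show ((x : G ⧸ W₀).out) ^ 2 = x ^ 2
    rw [hw, hmulsq, hcomm_w x w x, mul_one, ((hmemW _).1 w.2).1, mul_one]
  have hB1' : ∀ x y : G, B (x : G ⧸ W₀) (y : G ⧸ W₀) = BG x y := by
    intro x y
    obtain ⟨w, hw⟩ := QuotientGroup.mk_out_eq_mul W₀ x
    obtain ⟨v, hv⟩ := QuotientGroup.mk_out_eq_mul W₀ y
    apply Subtype.ext
    show ⁅(y : G ⧸ W₀).out, (x : G ⧸ W₀).out⁆ = ⁅y, x⁆
    rw [hw, hv, hcmul, hcmul', hcmul', hcomm_w' _ w, hcomm_w x v x, hcomm_w x v w]
    simp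
  have hB_left : ∀ a b c, B (a * b) c = B a c * B b c := by
    intro a b c
    induction a using QuotientGroup.induction_on with | _ x => ?_
    induction b using QuotientGroup.induction_on with | _ y => ?_
    induction c using QuotientGroup.induction_on with | _ z => ?_
    rw [← QuotientGroup.mk_mul, hB1', hB1', hB1']
    exact Subtype.ext (hcmul' _ _ _)
  have hB_right : ∀ a b c, B a (b * c) = B a b * B a c := by
    intro a b c
    induction a using QuotientGroup.induction_on with | _ x => ?_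
    induction b using QuotientGroup.induction_on with | _ y => ?_
    induction c using QuotientGroup.induction_on with | _ z => ?_
    rw [← QuotientGroup.mk_mul, hB1', hB1', hB1']
    exact Subtype.ext (hcmul _ _ _)
  have hf_mul : ∀ a b, f (a * b) = f a * f b * B a b := by
    intro a b
    induction a using QuotientGroup.induction_on with | _ x => ?_
    induction b using QuotientGroup.induction_on with | _ y => ?_
    rw [← QuotientGroup.mk_mul, hB1', hf1, hf1, hf1]
    exact Subtype.ext (hmulsq x y)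
  -- main count
  let Nb : Subgroup (G ⧸ W₀) := N.map (QuotientGroup.mk' W₀)
  have hf_zero : ∀ q, f q = 1 ↔ q ∈ Nb := by
    intro q
    induction q using QuotientGroup.induction_on with | _ x => ?_
    rw [hf1]
    constructor
    · intro h
      have h1 : x ^ 2 = 1 := congrArg Subtype.val h
      exact ⟨x, h1, rfl⟩
    · rintro ⟨n, hn, hxn⟩
      have h2 : (n : G ⧸ W₀) = (x : G ⧸ W₀) := hxn
      rw [← hf1, ← h2, hf1]
      exact Subtype.ext hn
  have hmain := H18.lemA_mul (Y := G ⧸ W₀) (W := W₀) hQc hWc hQ2 hW2 f B hB_left hB_right hf_mul Nb hf_zero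
  have hcG : Nat.card G = Nat.card (G ⧸ W₀) * Nat.card W₀ :=
    Subgroup.card_eq_card_quotient_mul_card_subgroup W₀
  have hW₀N : W₀ ≤ N := inf_le_left
  have hcN : Nat.card N = Nat.card Nb * Nat.card W₀ := by
    have h1 := H18.card_inf_mul_relIndex W₀ N
    rw [inf_eq_left.2 hW₀N] at h1
    have h2 : W₀.relIndex N = Nat.card Nb := by
      have h3 := Subgroup.relIndex_comap (⊥ : Subgroup (G ⧸ W₀)) (QuotientGroup.mk' W₀) N
      have h4 : (⊥ : Subgroup (G ⧸ W₀)).comap (QuotientGroup.mk' W₀) = W₀ := by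
        ext x
        rw [Subgroup.mem_comap, Subgroup.mem_bot]
        exact QuotientGroup.eq_one_iff x
      rw [h4] at h3
      rw [h3, Subgroup.relIndex_bot_left]
    rw [← h1, h2, mul_comm]
  have hcWN : Nat.card W₀ ≤ Nat.card N := Subgroup.card_le_of_le hW₀N
  have hWpos : 0 < Nat.card W₀ := Nat.card_pos
  have hNbpos : 0 < Nat.card Nb := Nat.card_pos
  have hbound : Nat.card G ≤ Nat.card N ^ 3 := by
    rw [hcG]
    calc Nat.card (G ⧸ W₀) * Nat.card W₀ ≤ (Nat.card Nb * Nat.card W₀ ^ 2) * Nat.card W₀ :=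
          Nat.mul_le_mul_right _ hmain
      _ = Nat.card N * (Nat.card W₀ * Nat.card W₀) := by rw [hcN]; ring
      _ ≤ Nat.card N * (Nat.card N * Nat.card N) :=
          Nat.mul_le_mul_left _ (Nat.mul_le_mul hcWN hcWN)
      _ = Nat.card N ^ 3 := by ring
  rw [hcardN]
  refine ⟨hbound, fun hns => ?_⟩
  by_contra hlt
  push Not at hlt
  apply hns
  -- equality analysis
  have hNb1 : Nat.card Nb = 1 := by
    by_contra hne
    have h2 : 2 ≤ Nat.card Nb := by omega
    have h3 : Nat.card N ^ 3 ≤ Nat.card (G ⧸ W₀) * Nat.card W₀ := by rw [← hcG]; exact hlt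
    have h4 : Nat.card (G ⧸ W₀) * Nat.card W₀ ≤ (Nat.card Nb * Nat.card W₀ ^ 2) * Nat.card W₀ :=
      Nat.mul_le_mul_right _ hmain
    rw [hcN] at h3
    have h5 : 0 < Nat.card W₀ ^ 3 := by positivity
    have h6 : (Nat.card Nb * Nat.card W₀) ^ 3 ≤ Nat.card Nb * Nat.card W₀ ^ 3 := by
      calc _ ≤ _ := h3
        _ ≤ _ := h4
        _ = _ := by ring
    have h7 : (Nat.card Nb * Nat.card W₀) ^ 3 = Nat.card Nb * (Nat.card Nb ^ 2 * Nat.card W₀ ^ 3) := by ring
    rw [h7] at h6
    have h8 := Nat.le_of_mul_le_mul_left h6 hNbpos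
    have h9 : 4 * Nat.card W₀ ^ 3 ≤ Nat.card Nb ^ 2 * Nat.card W₀ ^ 3 :=
      Nat.mul_le_mul_right _ (by nlinarith)
    omega
  have hani : ∀ q, f q = 1 ↔ q = 1 := by
    intro q
    rw [hf_zero]
    haveI : Subsingleton Nb := (Nat.card_eq_one_iff_unique.1 hNb1).1
    constructor
    · intro h
      have : (⟨q, h⟩ : Nb) = 1 := Subsingleton.elim _ _
      exact congrArg Subtype.val this
    · rintro rfl
      exact Nb.one_mem
  have hcardQ : Nat.card (G ⧸ W₀) = Nat.card W₀ ^ 2 := by
    rw [hNb1, one_mul] at hmain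
    rw [hNb1, one_mul] at hcN
    apply le_antisymm hmain
    have h3 : Nat.card N ^ 3 ≤ Nat.card (G ⧸ W₀) * Nat.card W₀ := by rw [← hcG]; exact hlt
    rw [hcN] at h3
    have h4 : Nat.card W₀ * Nat.card W₀ ^ 2 ≤ Nat.card W₀ * Nat.card (G ⧸ W₀) := by
      calc _ = Nat.card W₀ ^ 3 := by ring
        _ ≤ _ := h3
        _ = _ := by ring
    exact Nat.le_of_mul_le_mul_left h4 hWpos
  -- commutator = W₀
  have hcommle : commutator G ≤ W₀ := by
    rw [commutator_def, Subgroup.commutator_le]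
    intro a _ b _
    exact hcW a b
  have hWc2 : IsPGroup 2 W₀ := hG.to_subgroup W₀
  have hcomm_eq : commutator G = W₀ := by
    apply le_antisymm hcommle
    by_contra hnot
    have hne : (commutator G).subgroupOf W₀ ≠ ⊤ := by
      intro h
      apply hnot
      rwa [Subgroup.subgroupOf_eq_top] at h
    obtain ⟨H, hH, hle⟩ := (eq_top_or_exists_le_coatom ((commutator G).subgroupOf W₀)).resolve_left hne
    obtain ⟨_, hi⟩ := H01.isCoatom_normal_index hWc2 hH
    apply no_index_two (Q := G ⧸ W₀) (W := W₀) hQc hWc hQ2 hW2 f B hB_left hB_right hf_mul hani hcardQ H hi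
    intro x y
    apply hle
    rw [Subgroup.mem_subgroupOf]
    show ((B x y : W₀) : G) ∈ commutator G
    show ⁅(y.out : G), (x.out : G)⁆ ∈ commutator G
    exact Subgroup.commutator_mem_commutator (Subgroup.mem_top _) (Subgroup.mem_top _)
  have hcenter_eq : Subgroup.center G = W₀ := by
    apply le_antisymm _ inf_le_right
    intro x hx
    by_contra hxW
    have hq : (x : G ⧸ W₀) ≠ 1 := fun h => hxW ((QuotientGroup.eq_one_iff _).1 h)
    apply no_central (Q := G ⧸ W₀) (W := W₀) hQc hWc hQ2 hW2 f B hB_left hB_right hf_mul hani hcardQ (x : G ⧸ W₀) hq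
    intro q
    induction q using QuotientGroup.induction_on with | _ y => ?_
    rw [hB1']
    apply Subtype.ext
    show ⁅x, y⁆ = 1
    rw [Subgroup.mem_center_iff] at hx
    exact commutatorElement_eq_one_iff_mul_comm.2 (hx y).symm
  have hfr : frattini G = W₀ := by
    apply le_antisymm
    · exact H01.frattini_le_of_comm_pow (p := 2) W₀ hcommle hsqW
    · rw [← hcomm_eq]
      exact H01.commutator_le_frattini_of_isPGroup hG
  exact ⟨hG, by rw [hfr, hcenter_eq], by rw [hcomm_eq, hcenter_eq]⟩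

end Cfsg.Agent.S3773
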