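import Cfsg.Statements.S3774
import Mathlib

set_option autoImplicit false
open Cfsg

namespace Cfsg.Agent.S3774


open Subgroup

theorem dvd_of_two_pow_sub_one_dvd (s n : ℕ) (hs : 1 ≤ s) (h : 2 ^ s - 1 ∣ 2 ^ n - 1) : s ∣ n := by
  have h1 : Nat.gcd (2 ^ s - 1) (2 ^ n - 1) = 2 ^ Nat.gcd s n - 1 := Nat.pow_sub_one_gcd_pow_sub_one 2 s n
  rw [Nat.gcd_eq_left h] at h1
  have h2 : 2 ^ s = 2 ^ Nat.gcd s n := by
    have h3 : 1 ≤ 2 ^ s := Nat.one_le_two_pow
    have h4 : 1 ≤ 2 ^ Nat.gcd s n := Nat.one_le_two_pow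
    omega
  have h3 : s = Nat.gcd s n := Nat.pow_right_injective (le_refl 2) h2
  rw [h3]
  exact Nat.gcd_dvd_right s n


/-- Let G be a nontrivial finite 2-group whose automorphism group permutes the involutions of G transitively. Then every involution of G is central, so that the involutions together with 1 form the subgroup Ω₁(Z(G)), and if this subgroup has order q then |G| is a power of q. -/
theorem result {G : Type*} [Group G] [Finite G] [Nontrivial G] (hG : IsPGroup 2 G) (htrans : ∀ x y : G, x ≠ 1 → x ^ 2 = 1 → y ≠ 1 → y ^ 2 = 1 → ∃ a : MulAut G, a x = y) : (∀ x : G, x ^ 2 = 1 → x ∈ Subgroup.center G) ∧ ∃ m : ℕ, Nat.card G = Nat.card {z : G // z ^ 2 = 1} ^ m := by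
  classical
  haveI : Fintype G := Fintype.ofFinite G
  -- a central involution
  haveI hcn : Nontrivial (center G) := hG.center_nontrivial
  have hdvd : 2 ∣ Nat.card (center G) := by
    obtain ⟨k, hk⟩ := IsPGroup.iff_card.1 (hG.to_subgroup (center G))
    rw [hk]
    have hk0 : k ≠ 0 := by
      rintro rfl
      have := Finite.one_lt_card (α := center G)
      rw [hk] at this
      simp at this
    exact dvd_pow_self 2 hk0
  haveI : Fact (Nat.Prime 2) := ⟨Nat.prime_two⟩
  obtain ⟨z₀, hz₀⟩ := exists_prime_orderOf_dvd_card' 2 hdvd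
  have hz₀2 : (z₀ : G) ^ 2 = 1 := by
    have := pow_orderOf_eq_one z₀
    rw [hz₀] at this
    exact congrArg Subtype.val this
  have hz₀1 : (z₀ : G) ≠ 1 := by
    intro h
    have : z₀ = 1 := Subtype.ext h
    rw [this, orderOf_one] at hz₀
    omega
  have hcen : ∀ x : G, x ^ 2 = 1 → x ∈ center G := by
    intro x hx
    by_cases hx1 : x = 1
    · rw [hx1]; exact one_mem _
    obtain ⟨a, ha⟩ := htrans z₀ x hz₀1 hz₀2 hx1 hx
    rw [Subgroup.mem_center_iff]
    intro y
    rw [← ha]
    obtain ⟨y', rfl⟩ := a.surjective y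
    rw [← map_mul, ← map_mul, (Subgroup.mem_center_iff.1 z₀.2 y')]
  refine ⟨hcen, ?_⟩
  -- the subgroup of involutions
  let W : Subgroup G :=
    { carrier := {z | z ^ 2 = 1}
      mul_mem' := by
        intro a b ha hb
        have hab : a * b = b * a := (Subgroup.mem_center_iff.1 (hcen b hb) a)
        change (a * b) ^ 2 = 1
        rw [(show Commute a b from hab).mul_pow, ha, hb, one_mul]
      one_mem' := by
        change (1 : G) ^ 2 = 1
        simp
      inv_mem' := by
        intro a ha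
        change a⁻¹ ^ 2 = 1
        rw [inv_pow, ha, inv_one] }
  have hWcard : Nat.card {z : G // z ^ 2 = 1} = Nat.card W := rfl
  obtain ⟨s, hs⟩ := IsPGroup.iff_card.1 (hG.to_subgroup W)
  obtain ⟨n, hn⟩ := IsPGroup.iff_card.1 hG
  have hs1 : 1 ≤ s := by
    by_contra h
    have h0 : s = 0 := by omega
    rw [h0, pow_zero] at hs
    have : (z₀ : G) ∈ W := hz₀2
    have h3 : (⟨z₀, this⟩ : W) = 1 := by
      haveI := Finite.card_le_one_iff_subsingleton.1 (le_of_eq hs) 
      exact Subsingleton.elim _ _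
    exact hz₀1 (congrArg Subtype.val h3)
  -- the map to involutions
  let φ : G → G := fun x => x ^ (orderOf x / 2)
  have hφ : ∀ x : G, x ≠ 1 → φ x ≠ 1 ∧ φ x ^ 2 = 1 := by
    intro x hx
    obtain ⟨k, hk⟩ := (IsPGroup.iff_orderOf.1 hG) x
    have h2 : 2 ∣ orderOf x := by
      rw [hk]
      apply dvd_pow_self
      rintro rfl
      rw [pow_zero, orderOf_eq_one_iff] at hk
      exact hx hk
    have h3 : orderOf (φ x) = 2 := orderOf_pow_orderOf_div (orderOf_pos x).ne' h2
    constructor
    · intro h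
      rw [h, orderOf_one] at h3
      omega
    · rw [← h3]
      exact pow_orderOf_eq_one _
  have hφa : ∀ (a : MulAut G) (x : G), φ (a x) = a (φ x) := by
    intro a x
    simp only [φ]
    rw [MulEquiv.orderOf_eq, map_pow]
  let T : Finset G := Finset.univ.filter (· ≠ 1)
  let I : Finset G := Finset.univ.filter (fun x => x ≠ 1 ∧ x ^ 2 = 1)
  have hTI : ∀ x ∈ T, φ x ∈ I := by
    intro x hx
    have hx' : x ≠ 1 := (Finset.mem_filter.1 hx).2
    exact Finset.mem_filter.2 ⟨Finset.mem_univ _, hφ x hx'⟩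
  have hz₀I : (z₀ : G) ∈ I := Finset.mem_filter.2 ⟨Finset.mem_univ _, hz₀1, hz₀2⟩
  have hfib : ∀ i ∈ I, (T.filter (fun x => φ x = i)).card = (T.filter (fun x => φ x = (z₀ : G))).card := by
    intro i hi
    have hi' := (Finset.mem_filter.1 hi).2
    obtain ⟨a, ha⟩ := htrans i z₀ hi'.1 hi'.2 hz₀1 hz₀2
    refine Finset.card_bij (fun x _ => a x) ?_ ?_ ?_
    · intro x hx
      obtain ⟨hx1, hx2⟩ := Finset.mem_filter.1 hx
      have hx1' : x ≠ 1 := (Finset.mem_filter.1 hx1).2
      refine Finset.mem_filter.2 ⟨Finset.mem_filter.2 ⟨Finset.mem_univ _, ?_⟩, ?_⟩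
      · intro h
        exact hx1' (by simpa using h)
      · rw [hφa, hx2, ha]
    · intro x _ y _ h
      exact a.injective h
    · intro y hy
      obtain ⟨hy1, hy2⟩ := Finset.mem_filter.1 hy
      have hy1' : y ≠ 1 := (Finset.mem_filter.1 hy1).2
      refine ⟨a.symm y, ?_, by simp⟩
      refine Finset.mem_filter.2 ⟨Finset.mem_filter.2 ⟨Finset.mem_univ _, ?_⟩, ?_⟩
      · intro h
        apply hy1'
        have := congrArg a h
        simpa using this
      · apply a.injective
        rw [← hφa]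
        simp only [MulEquiv.apply_symm_apply]
        rw [hy2, ha]
  have hcount : T.card = I.card * (T.filter (fun x => φ x = (z₀ : G))).card := by
    rw [Finset.card_eq_sum_card_fiberwise hTI, Finset.sum_congr rfl hfib, Finset.sum_const, smul_eq_mul]
  have hTc : T.card = 2 ^ n - 1 := by
    have h1 : T = Finset.univ.erase 1 := by
      ext x
      simp [T]
    rw [h1, Finset.card_erase_of_mem (Finset.mem_univ _), Finset.card_univ, ← Nat.card_eq_fintype_card, hn]
  have hIc : I.card = 2 ^ s - 1 := by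
    have h1 : I = (Finset.univ.filter (fun x : G => x ^ 2 = 1)).erase 1 := by
      ext x
      simp [I, and_comm]
    rw [h1, Finset.card_erase_of_mem (by simp)]
    have h2 : (Finset.univ.filter (fun x : G => x ^ 2 = 1)).card = Nat.card {z : G // z ^ 2 = 1} := by
      rw [Nat.card_eq_fintype_card, Fintype.card_subtype]
    rw [h2, hWcard, hs]
  have hd : 2 ^ s - 1 ∣ 2 ^ n - 1 := by
    rw [← hTc, ← hIc, hcount]
    exact dvd_mul_right _ _
  obtain ⟨m, rfl⟩ := dvd_of_two_pow_sub_one_dvd s n hs1 hd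
  refine ⟨m, ?_⟩
  rw [hWcard, hs, hn, pow_mul]

end Cfsg.Agent.S3774
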