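import Cfsg.Statements.S3775
-- import your own Cfsg.Agent.* helpers here

set_option autoImplicit false
open Cfsg

namespace Cfsg.Agent.S3775

theorem abs_maschke {V ι : Type*} [CommGroup V] [Finite V] [Group ι] [Finite ι] (p : ℕ)
    [hp : Fact p.Prime] (hV : ∀ v : V, v ^ p = 1) (hcop : (Nat.card ι).Coprime p)
    (φ : ι → V →* V) (φ1 : ∀ v, φ 1 v = v) (φm : ∀ x y v, φ (x * y) v = φ x (φ y v))
    (W : Subgroup V) (hW : ∀ x, ∀ w ∈ W, φ x w ∈ W) :
    ∃ R : Subgroup V, (∀ x, ∀ r ∈ R, φ x r ∈ R) ∧ R ⊓ W = ⊥ ∧ R ⊔ W = ⊤ := by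
  classical
  haveI := Fintype.ofFinite ι
  obtain ⟨π₀, hπ₀W, hπ₀id⟩ : ∃ π₀ : V →* V, (∀ v, π₀ v ∈ W) ∧ ∀ w ∈ W, π₀ w = w := by
    have hexp : ∀ v : Additive V, p • v = 0 := by
      intro v
      show Additive.ofMul ((Additive.toMul v) ^ p) = 0
      rw [hV]; rfl
    letI : Module (ZMod p) (Additive V) := AddCommGroup.zmodModule (n := p) hexp
    let W' : Submodule (ZMod p) (Additive V) :=
      AddSubgroup.toZModSubmodule p (Subgroup.toAddSubgroup W)
    have hmemW' : ∀ v : Additive V, v ∈ W' ↔ Additive.toMul v ∈ W := fun v => Iff.rfl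
    obtain ⟨g, hg⟩ := LinearMap.exists_leftInverse_of_injective W'.subtype (Submodule.ker_subtype W')
    refine ⟨MonoidHom.mk' (fun v => Additive.toMul ((g (Additive.ofMul v) : W') : Additive V)) ?_, ?_, ?_⟩
    · intro a b
      rw [ofMul_mul, map_add]
      rfl
    · intro v
      exact ((hmemW' _).1 (g (Additive.ofMul v)).2)
    · intro w hw
      have h1 := LinearMap.congr_fun hg (⟨Additive.ofMul w, (hmemW' _).2 hw⟩ : W')
      show Additive.toMul ((g (Additive.ofMul w) : W') : Additive V) = w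
      have h2 : g (Additive.ofMul w) = ⟨Additive.ofMul w, (hmemW' _).2 hw⟩ := h1
      rw [h2]
      rfl
  have hp1 : 1 < p := hp.out.one_lt
  obtain ⟨m, _, hm⟩ := Nat.exists_mul_mod_eq_one_of_coprime hcop hp1
  let ρ : V →* V := MonoidHom.mk' (fun v => (∏ x : ι, φ x (π₀ (φ x⁻¹ v))) ^ m) (by
    intro a b
    simp only [map_mul]
    rw [Finset.prod_mul_distrib, mul_pow])
  have hρ : ∀ v, ρ v = (∏ x : ι, φ x (π₀ (φ x⁻¹ v))) ^ m := fun v => rfl
  have hρW : ∀ v, ρ v ∈ W := by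
    intro v
    rw [hρ]
    exact W.pow_mem (W.prod_mem fun x _ => hW x _ (hπ₀W _)) _
  have hρid : ∀ w ∈ W, ρ w = w := by
    intro w hw
    rw [hρ]
    have h1 : ∀ x : ι, φ x (π₀ (φ x⁻¹ w)) = w := by
      intro x
      rw [hπ₀id _ (hW _ _ hw), ← φm, mul_inv_cancel, φ1]
    simp only [h1, Finset.prod_const, Finset.card_univ]
    rw [← pow_mul, pow_eq_pow_mod _ (hV w), ← Nat.card_eq_fintype_card, hm, pow_one]
  have hρeq : ∀ y v, ρ (φ y v) = φ y (ρ v) := by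
    intro y v
    rw [hρ, hρ, map_pow, map_prod]
    congr 1
    refine Fintype.prod_equiv (Equiv.mulLeft y⁻¹) _ _ ?_
    intro x
    simp only [Equiv.coe_mulLeft]
    have e0 : y * (y⁻¹ * x) = x := by group
    have e : (y⁻¹ * x)⁻¹ = x⁻¹ * y := by group
    rw [← φm x⁻¹ y, ← φm y (y⁻¹ * x), e0, e]
  refine ⟨ρ.ker, ?_, ?_, ?_⟩
  · intro x r hr
    rw [MonoidHom.mem_ker] at hr ⊢
    rw [hρeq, hr, map_one]
  · rw [eq_bot_iff]
    rintro w ⟨hw1, hw2⟩
    have hw1' : w ∈ ρ.ker := hw1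
    rw [MonoidHom.mem_ker] at hw1'
    have := hρid w hw2
    rw [hw1'] at this
    exact this.symm
  · rw [eq_top_iff]
    intro v _
    have h1 : v * (ρ v)⁻¹ ∈ ρ.ker := by
      rw [MonoidHom.mem_ker, map_mul, map_inv, hρid _ (hρW v), mul_inv_cancel]
    have : v = (v * (ρ v)⁻¹) * ρ v := by group
    rw [this]
    exact Subgroup.mul_mem _ (Subgroup.mem_sup_left h1) (Subgroup.mem_sup_right (hρW v))


/-- Invariance under a group of automorphisms, elementwise. -/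
def Inv' {A : Type*} [CommGroup A] (X : Subgroup (MulAut A)) (B : Subgroup A) : Prop :=
  ∀ x ∈ X, ∀ b ∈ B, x b ∈ B

theorem inv_iff {A : Type*} [CommGroup A] (X : Subgroup (MulAut A)) (B : Subgroup A) :
    (∀ x ∈ X, B.map x.toMonoidHom = B) ↔ Inv' X B := by
  constructor
  · intro h x hx b hb
    have : x b ∈ B.map x.toMonoidHom := ⟨b, hb, rfl⟩
    rwa [h x hx] at this
  · intro h x hx
    apply le_antisymm
    · rintro _ ⟨b, hb, rfl⟩
      exact h x hx b hb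
    · intro b hb
      refine ⟨x⁻¹ b, h _ (X.inv_mem hx) b hb, ?_⟩
      simp

/-- Maschke on an elementary abelian section. -/
theorem sec_maschke {A : Type*} [CommGroup A] [Finite A] (p : ℕ) [hp : Fact p.Prime]
    (X : Subgroup (MulAut A)) (hX : (Nat.card X).Coprime p) (U W Y : Subgroup A)
    (hU : Inv' X U) (hW : Inv' X W) (hY : Inv' X Y) (hUW : U ≤ W) (hWY : W ≤ Y)
    (hpow : ∀ y ∈ Y, y ^ p ∈ U) :
    ∃ R : Subgroup A, Inv' X R ∧ U ≤ R ∧ R ≤ Y ∧ R ⊓ W = U ∧ R ⊔ W = Y := by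
  classical
  let U' : Subgroup Y := U.subgroupOf Y
  let V := Y ⧸ U'
  let q : Y →* V := QuotientGroup.mk' U'
  have hq : Function.Surjective q := QuotientGroup.mk'_surjective U'
  have hqker : ∀ y : Y, q y = 1 ↔ (y : A) ∈ U := by
    intro y
    rw [← MonoidHom.mem_ker, QuotientGroup.ker_mk']
    rfl
  have hV : ∀ v : V, v ^ p = 1 := by
    intro v
    obtain ⟨y, rfl⟩ := hq v
    rw [← map_pow, hqker]
    exact hpow _ y.2
  let restr : X → Y →* Y := fun x =>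
    ((x : MulAut A).toMonoidHom.comp Y.subtype).codRestrict Y (fun y => hY x x.2 y y.2)
  have hrestr : ∀ (x : X) (y : Y), ((restr x y : Y) : A) = (x : MulAut A) y := fun _ _ => rfl
  let φ : X → V →* V := fun x => QuotientGroup.map U' U' (restr x) (by
    intro y hy
    exact hU x x.2 y hy)
  have hφ : ∀ (x : X) (y : Y), φ x (q y) = q (restr x y) := fun _ _ => rfl
  have φ1 : ∀ v, φ 1 v = v := by
    intro v
    obtain ⟨y, rfl⟩ := hq v
    rw [hφ]
    congr 1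
  have φm : ∀ x y v, φ (x * y) v = φ x (φ y v) := by
    intro x y v
    obtain ⟨z, rfl⟩ := hq v
    rw [hφ, hφ, hφ]
    congr 1
  let W' : Subgroup V := (W.subgroupOf Y).map q
  have hW' : ∀ x, ∀ w ∈ W', φ x w ∈ W' := by
    rintro x _ ⟨w, hw, rfl⟩
    rw [hφ]
    exact ⟨restr x w, hW x x.2 w hw, rfl⟩
  obtain ⟨R', hR'inv, hR'bot, hR'top⟩ := abs_maschke (ι := X) p hV hX φ φ1 φm W' hW'
  refine ⟨(R'.comap q).map Y.subtype, ?_, ?_, ?_, ?_, ?_⟩
  · rintro x hx _ ⟨y, hy, rfl⟩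
    refine ⟨restr ⟨x, hx⟩ y, ?_, rfl⟩
    have := hR'inv ⟨x, hx⟩ _ hy
    rw [hφ] at this
    exact this
  · intro u hu
    have huY : u ∈ Y := hWY (hUW hu)
    refine ⟨⟨u, huY⟩, ?_, rfl⟩
    have : q ⟨u, huY⟩ = 1 := (hqker _).2 hu
    show q ⟨u, huY⟩ ∈ R'
    rw [this]; exact R'.one_mem
  · rintro _ ⟨y, _, rfl⟩
    exact y.2
  · apply le_antisymm
    · rintro y ⟨⟨y₀, hy₀, rfl⟩, hw⟩
      have h1 : q y₀ ∈ R' ⊓ W' := ⟨hy₀, ⟨y₀, hw, rfl⟩⟩
      rw [hR'bot, Subgroup.mem_bot] at h1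
      exact (hqker _).1 h1
    · intro u hu
      refine ⟨?_, hUW hu⟩
      have huY : u ∈ Y := hWY (hUW hu)
      refine ⟨⟨u, huY⟩, ?_, rfl⟩
      have : q ⟨u, huY⟩ = 1 := (hqker _).2 hu
      show q ⟨u, huY⟩ ∈ R'
      rw [this]; exact R'.one_mem
  · apply le_antisymm
    · apply sup_le
      · rintro _ ⟨y, _, rfl⟩
        exact y.2
      · exact hWY
    · intro y hy
      have h1 : q ⟨y, hy⟩ ∈ R' ⊔ W' := by rw [hR'top]; trivial
      obtain ⟨r, hr, w, hw, hrw⟩ := Subgroup.mem_sup.1 h1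
      obtain ⟨r₀, rfl⟩ := hq r
      obtain ⟨w₀, hw₀, rfl⟩ := hw
      have h2 : q (⟨y, hy⟩ * (r₀ * w₀)⁻¹) = 1 := by
        rw [map_mul, map_inv, map_mul, hrw, mul_inv_cancel]
      have h3 := (hqker _).1 h2
      have hu : (y * ((r₀ : A) * (w₀ : A))⁻¹) ∈ U := h3
      have hyeq : y = (r₀ : A) * (w₀ : A) * (y * ((r₀ : A) * (w₀ : A))⁻¹) := by
        rw [mul_comm y, mul_inv_cancel_left]
      rw [hyeq]
      refine Subgroup.mul_mem _ (Subgroup.mul_mem _ ?_ ?_) ?_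
      · exact Subgroup.mem_sup_left ⟨r₀, hr, rfl⟩
      · exact Subgroup.mem_sup_right hw₀
      · exact Subgroup.mem_sup_right (hUW hu)


/-- Splitting off an invariant homocyclic factor of maximal exponent. -/
theorem split {A : Type*} [CommGroup A] [Finite A] (p : ℕ) [hp : Fact p.Prime]
    (X : Subgroup (MulAut A)) (hX : (Nat.card X).Coprime p) (e : ℕ)
    (he : ∀ a : A, a ^ p ^ (e + 1) = 1) (T : Subgroup A) (hT : Inv' X T)
    (hTV : ∀ t ∈ T, ∃ a : A, a ^ p ^ e = t) :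
    ∃ B C : Subgroup A, Inv' X B ∧ Inv' X C ∧ B ⊓ C = ⊥ ∧ B ⊔ C = ⊤ ∧ T ≤ B ∧
      ∀ b ∈ B, b ^ p = 1 → b ∈ T := by
  classical
  have hTp : ∀ t ∈ T, t ^ p = 1 := by
    intro t ht
    obtain ⟨a, rfl⟩ := hTV t ht
    rw [← pow_mul, ← pow_succ]
    exact he a
  -- the power map
  let pw : ℕ → A →* A := fun n => powMonoidHom n
  have hpw : ∀ n a, pw n a = a ^ n := fun _ _ => rfl
  have hinvmap : ∀ (n : ℕ) (B : Subgroup A), Inv' X B → Inv' X (B.map (pw n)) := by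
    rintro n B hB x hx _ ⟨b, hb, rfl⟩
    exact ⟨x b, hB x hx b hb, by simp [hpw]⟩
  have hinvcomap : ∀ (n : ℕ) (B : Subgroup A), Inv' X B → Inv' X (B.comap (pw n)) := by
    intro n B hB x hx a ha
    have : (x a) ^ n ∈ B := by
      rw [← map_pow]
      exact hB x hx _ ha
    exact this
  -- minimal `B`
  let S : Set (Subgroup A) := {B | Inv' X B ∧ B.map (pw (p ^ e)) = T}
  have hSne : S.Nonempty := by
    refine ⟨T.comap (pw (p ^ e)), hinvcomap _ _ hT, ?_⟩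
    apply le_antisymm
    · rintro _ ⟨a, ha, rfl⟩
      exact ha
    · intro t ht
      obtain ⟨a, rfl⟩ := hTV t ht
      exact ⟨a, ht, rfl⟩
  obtain ⟨B, hBmin⟩ := S.toFinite.exists_minimal hSne
  obtain ⟨⟨hBinv, hBT⟩, hBmin⟩ := hBmin
  have hmemT : ∀ b ∈ B, b ^ p ^ e ∈ T := by
    intro b hb
    rw [← hBT]
    exact ⟨b, hb, rfl⟩
  have hTB : T ≤ B := by
    rw [← hBT]
    rintro _ ⟨b, hb, rfl⟩
    exact B.pow_mem hb _
  -- the kernel of the power map on `B` consists of `p`-th powers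
  have hker : ∀ b ∈ B, b ^ p ^ e = 1 → b ∈ B.map (pw p) := by
    have hU : Inv' X (B.map (pw p)) := hinvmap _ _ hBinv
    have hWinv : Inv' X (B ⊓ (pw (p ^ e)).ker) := by
      intro x hx b hb
      refine ⟨hBinv x hx b hb.1, ?_⟩
      have : b ^ p ^ e = 1 := hb.2
      show (pw (p ^ e)) (x b) = 1
      rw [hpw, ← map_pow, this, map_one]
    have hUW : B.map (pw p) ≤ B ⊓ (pw (p ^ e)).ker := by
      rintro _ ⟨b, hb, rfl⟩
      refine ⟨B.pow_mem hb _, ?_⟩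
      show (pw (p ^ e)) (pw p b) = 1
      rw [hpw, hpw, ← pow_mul, ← pow_succ']
      exact he b
    obtain ⟨R, hRinv, hUR, hRB, hRW, hRWsup⟩ := sec_maschke p X hX (B.map (pw p))
      (B ⊓ (pw (p ^ e)).ker) B hU hWinv hBinv hUW inf_le_left (fun y hy => ⟨y, hy, rfl⟩)
    have hRS : R ∈ S := by
      refine ⟨hRinv, ?_⟩
      apply le_antisymm
      · rw [← hBT]
        exact Subgroup.map_mono hRB
      · intro t ht
        rw [← hBT] at ht
        obtain ⟨b, hb, rfl⟩ := ht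
        rw [← hRWsup] at hb
        obtain ⟨r, hr, w, hw, rfl⟩ := Subgroup.mem_sup.1 hb
        refine ⟨r, hr, ?_⟩
        have hw1 : w ^ p ^ e = 1 := hw.2
        show r ^ p ^ e = (r * w) ^ p ^ e
        rw [mul_pow, hw1, mul_one]
    have hRB' : B ≤ R := hBmin hRS hRB
    intro b hb hb1
    have : b ∈ R ⊓ (B ⊓ (pw (p ^ e)).ker) := ⟨hRB' hb, hb, hb1⟩
    rw [hRW] at this
    exact this
  -- `Ω₁(B) = T`
  have hΩ : ∀ b ∈ B, b ^ p = 1 → b ∈ T := by
    intro b hb hbp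
    have hind : ∀ k ≤ e, ∃ z ∈ B, b = z ^ p ^ k ∧ z ^ p ^ (k + 1) = 1 := by
      intro k
      induction k with
      | zero =>
        intro _
        exact ⟨b, hb, by simp, by simpa using hbp⟩
      | succ k ih =>
        intro hk
        obtain ⟨z, hz, hbz, hz1⟩ := ih (by omega)
        have hze : z ^ p ^ e = 1 := by
          obtain ⟨d, hd⟩ := Nat.exists_eq_add_of_le (show k + 1 ≤ e by omega)
          rw [hd, pow_add, pow_mul, hz1, one_pow]
        obtain ⟨z', hz', hzz⟩ := hker z hz hze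
        have hzz' : z = z' ^ p := hzz.symm
        refine ⟨z', hz', ?_, ?_⟩
        · rw [hbz, hzz', ← pow_mul, pow_succ']
        · rw [pow_succ' p (k + 1), pow_mul, ← hzz']
          exact hz1
    obtain ⟨z, hz, hbz, _⟩ := hind e le_rfl
    rw [hbz]
    exact hmemT z hz
  -- maximal `C`
  let S' : Set (Subgroup A) := {C | Inv' X C ∧ B ⊓ C = ⊥}
  have hS'ne : S'.Nonempty := ⟨⊥, by
    intro x _ b hb
    rw [Subgroup.mem_bot] at hb
    rw [hb, map_one]
    exact Subgroup.one_mem _, inf_bot_eq _⟩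
  obtain ⟨C, hCmax⟩ := S'.toFinite.exists_maximal hS'ne
  obtain ⟨⟨hCinv, hBC⟩, hCmax⟩ := hCmax
  refine ⟨B, C, hBinv, hCinv, hBC, ?_, hTB, hΩ⟩
  -- `{a : a^p ∈ C} ≤ T ⊔ C`
  have hsoc : ∀ a : A, a ^ p ∈ C → a ∈ T ⊔ C := by
    have hYinv : Inv' X (C.comap (pw p)) := hinvcomap _ _ hCinv
    have hWinv : Inv' X (T ⊔ C) := by
      intro x hx a ha
      obtain ⟨t, ht, c, hc, rfl⟩ := Subgroup.mem_sup.1 ha
      rw [map_mul]
      exact Subgroup.mul_mem _ (Subgroup.mem_sup_left (hT x hx t ht))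
        (Subgroup.mem_sup_right (hCinv x hx c hc))
    have hWY : T ⊔ C ≤ C.comap (pw p) := by
      apply sup_le
      · intro t ht
        show t ^ p ∈ C
        rw [hTp t ht]; exact C.one_mem
      · intro c hc
        exact C.pow_mem hc p
    obtain ⟨R, hRinv, hCR, hRY, hRW, hRWsup⟩ := sec_maschke p X hX C (T ⊔ C) (C.comap (pw p))
      hCinv hWinv hYinv le_sup_right hWY (fun y hy => hy)
    have hRbot : B ⊓ R = ⊥ := by
      rw [eq_bot_iff]
      rintro b ⟨hb, hbR⟩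
      by_contra hb1
      have hb1' : b ≠ 1 := by simpa using hb1
      -- a power of `b` of order `p`
      have hord : ∃ s, b ^ p ^ s ≠ 1 ∧ (b ^ p ^ s) ^ p = 1 := by
        have hfin : ∃ n, b ^ p ^ n = 1 := ⟨e + 1, he b⟩
        let n := Nat.find hfin
        have hn : b ^ p ^ n = 1 := Nat.find_spec hfin
        have hn0 : n ≠ 0 := by
          intro h0
          have : b ^ p ^ n = b := by rw [h0]; simp
          rw [this] at hn
          exact hb1' hn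
        obtain ⟨s, hs⟩ := Nat.exists_eq_succ_of_ne_zero hn0
        refine ⟨s, Nat.find_min hfin (by omega), ?_⟩
        rw [← pow_mul, ← pow_succ, ← Nat.succ_eq_add_one, ← hs]
        exact hn
      obtain ⟨s, hs1, hs2⟩ := hord
      have hbT : b ^ p ^ s ∈ T := hΩ _ (B.pow_mem hb _) hs2
      have hbin : b ^ p ^ s ∈ R ⊓ (T ⊔ C) :=
        ⟨R.pow_mem hbR _, Subgroup.mem_sup_left hbT⟩
      rw [hRW] at hbin
      have : b ^ p ^ s ∈ B ⊓ C := ⟨B.pow_mem hb _, hbin⟩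
      rw [hBC] at this
      exact hs1 this
    have hRC : R ≤ C := hCmax ⟨hRinv, hRbot⟩ hCR
    intro a ha
    have ha' : a ∈ C.comap (pw p) := ha
    rw [← hRWsup] at ha'
    obtain ⟨r, hr, w, hw, rfl⟩ := Subgroup.mem_sup.1 ha'
    exact Subgroup.mul_mem _ (Subgroup.mem_sup_right (hRC hr)) hw
  have hlayers : ∀ k ≤ e + 1, ∀ a : A, a ^ p ^ k ∈ C → a ∈ B ⊔ C := by
    intro k
    induction k with
    | zero =>
      intro _ a ha
      exact Subgroup.mem_sup_right (by simpa using ha)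
    | succ k ih =>
      intro hk a ha
      have h1 : (a ^ p ^ k) ^ p ∈ C := by
        rw [← pow_mul, ← pow_succ]; exact ha
      obtain ⟨t, ht, c, hc, htc⟩ := Subgroup.mem_sup.1 (hsoc _ h1)
      have ht' : t ∈ B.map (pw (p ^ e)) := by rw [hBT]; exact ht
      obtain ⟨b, hb, hbt⟩ := ht'
      have hbt' : b ^ p ^ e = t := hbt
      obtain ⟨d, hd⟩ := Nat.exists_eq_add_of_le (show k ≤ e by omega)
      set z := b ^ p ^ d with hz
      have hzk : z ^ p ^ k = t := by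
        rw [hz, ← pow_mul, ← pow_add, add_comm, ← hd, hbt']
      have h2 : (a * z⁻¹) ^ p ^ k ∈ C := by
        rw [mul_pow, inv_pow, hzk, ← htc, mul_comm t c, mul_assoc, mul_inv_cancel, mul_one]
        exact hc
      have h3 := ih (by omega) _ h2
      have h4 : a = (a * z⁻¹) * z := by group
      rw [h4]
      exact Subgroup.mul_mem _ h3 (Subgroup.mem_sup_left (B.pow_mem hb _))
  rw [eq_top_iff]
  intro a _
  apply hlayers (e + 1) le_rfl
  rw [he a]
  exact C.one_mem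


/-- Let A be a finite abelian p-group and X a group of automorphisms of A of order prime to p. Call a subgroup of A invariant when every element of X maps it onto itself. Then the following are equivalent: (i) A is not the direct product of two nontrivial invariant subgroups; (ii) every invariant subgroup of A is one of the subgroups Ω_i(A) = {a : a^(p^i) = 1}; (iii) the subgroup Ω₁(A) of elements of order dividing p has no invariant subgroups other than 1 and itself. -/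
theorem result {A : Type*} [CommGroup A] [Finite A] {p : ℕ} [Fact p.Prime] (hA : IsPGroup p A) (X : Subgroup (MulAut A)) (hX : (Nat.card X).Coprime p) : ((¬ ∃ B C : Subgroup A, B ≠ ⊥ ∧ C ≠ ⊥ ∧ (∀ x ∈ X, B.map x.toMonoidHom = B) ∧ (∀ x ∈ X, C.map x.toMonoidHom = C) ∧ B ⊓ C = ⊥ ∧ B ⊔ C = ⊤) ↔ (∀ B : Subgroup A, (∀ x ∈ X, B.map x.toMonoidHom = B) → ∃ i : ℕ, ∀ a : A, a ∈ B ↔ a ^ p ^ i = 1)) ∧ ((∀ B : Subgroup A, (∀ x ∈ X, B.map x.toMonoidHom = B) → ∃ i : ℕ, ∀ a : A, a ∈ B ↔ a ^ p ^ i = 1) ↔ (∀ B : Subgroup A, (∀ x ∈ X, B.map x.toMonoidHom = B) → (∀ b ∈ B, b ^ p = 1) → B = ⊥ ∨ ∀ a : A, a ∈ B ↔ a ^ p = 1)) := by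
  classical
have hexp : ∃ n, ∀ a : A, a ^ p ^ n = 1 := by
  obtain ⟨n, hn⟩ := IsPGroup.iff_card.1 hA
  exact ⟨n, fun a => by rw [← hn]; exact pow_card_eq_one'⟩
obtain ⟨n, hn⟩ := hexp
have h32 : (∀ B : Subgroup A, (∀ x ∈ X, B.map x.toMonoidHom = B) → (∀ b ∈ B, b ^ p = 1) → B = ⊥ ∨ ∀ a : A, a ∈ B ↔ a ^ p = 1) →
    (∀ B : Subgroup A, (∀ x ∈ X, B.map x.toMonoidHom = B) → ∃ i : ℕ, ∀ a : A, a ∈ B ↔ a ^ p ^ i = 1) := by
  intro h3 B hBinv
  have hB' := (inv_iff X B).1 hBinv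
  have hfin : ∃ i, ∀ b ∈ B, b ^ p ^ i = 1 := ⟨n, fun b _ => hn b⟩
  obtain ⟨i, hi, himin⟩ : ∃ i, (∀ b ∈ B, b ^ p ^ i = 1) ∧ ∀ j < i, ¬ ∀ b ∈ B, b ^ p ^ j = 1 :=
    ⟨Nat.find hfin, Nat.find_spec hfin, fun j hj => Nat.find_min hfin hj⟩
  refine ⟨i, fun a => ⟨hi a, ?_⟩⟩
  cases i with
  | zero =>
    intro ha
    have : a = 1 := by simpa using ha
    rw [this]; exact B.one_mem
  | succ j =>
    have hj := himin j (Nat.lt_succ_self j)
    push Not at hj
    obtain ⟨y, hyB, hy⟩ := hj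
    let W : Subgroup A := (B ⊓ (powMonoidHom (p ^ (j + 1)) : A →* A).ker).map (powMonoidHom (p ^ j))
    have hmemW : ∀ w : A, w ∈ W ↔ ∃ z ∈ B, z ^ p ^ (j + 1) = 1 ∧ z ^ p ^ j = w := by
      intro w
      constructor
      · rintro ⟨z, hz, rfl⟩
        exact ⟨z, hz.1, hz.2, rfl⟩
      · rintro ⟨z, hz, hz1, rfl⟩
        exact ⟨z, ⟨hz, hz1⟩, rfl⟩
    have hWinv : ∀ x ∈ X, W.map x.toMonoidHom = W := by
      rw [inv_iff]
      intro x hx w hw
      obtain ⟨z, hz, hz1, rfl⟩ := (hmemW w).1 hw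
      refine (hmemW _).2 ⟨x z, hB' x hx z hz, ?_, ?_⟩
      · rw [← map_pow, hz1, map_one]
      · rw [map_pow]
    have hWel : ∀ b ∈ W, b ^ p = 1 := by
      intro b hb
      obtain ⟨z, hz, hz1, rfl⟩ := (hmemW b).1 hb
      rw [← pow_mul, ← pow_succ]
      exact hz1
    rcases h3 W hWinv hWel with hW | hW
    · have : y ^ p ^ j ∈ W := (hmemW _).2 ⟨y, hyB, hi y hyB, rfl⟩
      rw [hW, Subgroup.mem_bot] at this
      exact absurd this hy
    · have hlay : ∀ k ≤ j + 1, ∀ a : A, a ^ p ^ k = 1 → a ∈ B := by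
        intro k
        induction k with
        | zero =>
          intro _ a ha
          have : a = 1 := by simpa using ha
          rw [this]; exact B.one_mem
        | succ k ih =>
          intro hk a ha
          have h1 : (a ^ p ^ k) ^ p = 1 := by
            rw [← pow_mul, ← pow_succ]; exact ha
          obtain ⟨z, hz, hz1, hzq⟩ := (hmemW _).1 ((hW _).2 h1)
          obtain ⟨d, hd⟩ := Nat.exists_eq_add_of_le (show k ≤ j by omega)
          have hz' : (z ^ p ^ d) ^ p ^ k = a ^ p ^ k := by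
            rw [← hzq, ← pow_mul, ← pow_add, add_comm, ← hd]
          have h2 : (a * (z ^ p ^ d)⁻¹) ^ p ^ k = 1 := by
            rw [mul_pow, inv_pow, hz', mul_inv_cancel]
          have h3' := ih (by omega) _ h2
          have h4 : a = (a * (z ^ p ^ d)⁻¹) * z ^ p ^ d := by group
          rw [h4]
          exact B.mul_mem h3' (B.pow_mem hz _)
      exact hlay (j + 1) le_rfl a
have h23 : (∀ B : Subgroup A, (∀ x ∈ X, B.map x.toMonoidHom = B) → ∃ i : ℕ, ∀ a : A, a ∈ B ↔ a ^ p ^ i = 1) →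
    (∀ B : Subgroup A, (∀ x ∈ X, B.map x.toMonoidHom = B) → (∀ b ∈ B, b ^ p = 1) → B = ⊥ ∨ ∀ a : A, a ∈ B ↔ a ^ p = 1) := by
  intro h2 B hBinv hBel
  obtain ⟨i, hi⟩ := h2 B hBinv
  cases i with
  | zero =>
    left
    rw [eq_bot_iff]
    intro a ha
    have := (hi a).1 ha
    simpa using this
  | succ i =>
    right
    intro a
    refine ⟨hBel a, fun ha => (hi a).2 ?_⟩
    rw [pow_succ', pow_mul, ha, one_pow]
have h21 : (∀ B : Subgroup A, (∀ x ∈ X, B.map x.toMonoidHom = B) → ∃ i : ℕ, ∀ a : A, a ∈ B ↔ a ^ p ^ i = 1) →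
    (¬ ∃ B C : Subgroup A, B ≠ ⊥ ∧ C ≠ ⊥ ∧ (∀ x ∈ X, B.map x.toMonoidHom = B) ∧ (∀ x ∈ X, C.map x.toMonoidHom = C) ∧ B ⊓ C = ⊥ ∧ B ⊔ C = ⊤) := by
  rintro h2 ⟨B, C, hB, hC, hBi, hCi, hinf, -⟩
  obtain ⟨i, hi⟩ := h2 B hBi
  obtain ⟨k, hk⟩ := h2 C hCi
  rcases le_total i k with hik | hik
  · apply hB
    rw [eq_bot_iff, ← hinf]
    intro a ha
    refine ⟨ha, (hk a).2 ?_⟩
    obtain ⟨d, rfl⟩ := Nat.exists_eq_add_of_le hik
    rw [pow_add, pow_mul, (hi a).1 ha, one_pow]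
  · apply hC
    rw [eq_bot_iff, ← hinf]
    intro a ha
    refine ⟨(hi a).2 ?_, ha⟩
    obtain ⟨d, rfl⟩ := Nat.exists_eq_add_of_le hik
    rw [pow_add, pow_mul, (hk a).1 ha, one_pow]
have h13 : (¬ ∃ B C : Subgroup A, B ≠ ⊥ ∧ C ≠ ⊥ ∧ (∀ x ∈ X, B.map x.toMonoidHom = B) ∧ (∀ x ∈ X, C.map x.toMonoidHom = C) ∧ B ⊓ C = ⊥ ∧ B ⊔ C = ⊤) →
    (∀ B : Subgroup A, (∀ x ∈ X, B.map x.toMonoidHom = B) → (∀ b ∈ B, b ^ p = 1) → B = ⊥ ∨ ∀ a : A, a ∈ B ↔ a ^ p = 1) := by
  intro h1 T hTi hTel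
  by_cases hT : T = ⊥
  · exact Or.inl hT
  right
  have hfin : ∃ i, ∀ a : A, a ^ p ^ i = 1 := ⟨n, hn⟩
  obtain ⟨i, hi, himin⟩ : ∃ i, (∀ a : A, a ^ p ^ i = 1) ∧ ∀ j < i, ¬ ∀ a : A, a ^ p ^ j = 1 :=
    ⟨Nat.find hfin, Nat.find_spec hfin, fun j hj => Nat.find_min hfin hj⟩
  cases i with
  | zero =>
    exfalso
    apply hT
    rw [eq_bot_iff]
    intro a _
    have := hi a
    simpa using this
  | succ e =>
    have hj := himin e (Nat.lt_succ_self e)
    push Not at hj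
    obtain ⟨y, hy⟩ := hj
    have key : ∀ T' : Subgroup A, Inv' X T' → (∀ t ∈ T', ∃ a : A, a ^ p ^ e = t) → T' ≠ ⊥ →
        ∀ a : A, a ^ p = 1 → a ∈ T' := by
      intro T' hT'i hT'V hT'ne a ha
      obtain ⟨B, C, hBi, hCi, hinf, hsup, hTB, hΩ⟩ := split p X hX e hi T' hT'i hT'V
      have hBne : B ≠ ⊥ := by
        intro hB
        apply hT'ne
        rw [eq_bot_iff, ← hB]
        exact hTB
      have hCbot : C = ⊥ := by
        by_contra hC
        exact h1 ⟨B, C, hBne, hC, (inv_iff X B).2 hBi, (inv_iff X C).2 hCi, hinf, hsup⟩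
      rw [hCbot, sup_bot_eq] at hsup
      exact hΩ a (by rw [hsup]; trivial) ha
    let V : Subgroup A := (⊤ : Subgroup A).map (powMonoidHom (p ^ e))
    have hmemV : ∀ t : A, t ∈ V ↔ ∃ a : A, a ^ p ^ e = t := by
      intro t
      constructor
      · rintro ⟨a, -, rfl⟩
        exact ⟨a, rfl⟩
      · rintro ⟨a, rfl⟩
        exact ⟨a, trivial, rfl⟩
    have hVi : Inv' X V := by
      intro x _ b hb
      obtain ⟨a, rfl⟩ := (hmemV b).1 hb
      exact (hmemV _).2 ⟨x a, by rw [map_pow]⟩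
    have hVne : V ≠ ⊥ := by
      intro h
      have : y ^ p ^ e ∈ V := (hmemV _).2 ⟨y, rfl⟩
      rw [h, Subgroup.mem_bot] at this
      exact hy this
    have hΩV := key V hVi (fun t ht => (hmemV t).1 ht) hVne
    have hTT := key T ((inv_iff X T).1 hTi) (fun t ht => (hmemV t).1 (hΩV t (hTel t ht))) hT
    exact fun a => ⟨hTel a, hTT a⟩
exact ⟨⟨fun h1 => h32 (h13 h1), h21⟩, ⟨h23, h32⟩⟩

end Cfsg.Agent.S3775
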