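import Cfsg.Statements.S3778
import Mathlib
import Cfsg.Agent.Lib.H18.PGroup

set_option autoImplicit false
open Cfsg

namespace Cfsg.Agent.S3778


open Cfsg
open scoped commutatorElement

variable {G : Type*} [Group G]

/-- `x` with `[x, L]` inside a normal subgroup. -/
def cSub (L M : Subgroup G) [M.Normal] : Subgroup G where
  carrier := {x | ∀ g ∈ L, x * g * x⁻¹ * g⁻¹ ∈ M}
  mul_mem' := by
    intro x y hx hy g hg
    have h1 := hx g hg
    have h2 := hy g hg
    have h3 : x * y * g * (x * y)⁻¹ * g⁻¹ = x * (y * g * y⁻¹ * g⁻¹) * x⁻¹ * (x * g * x⁻¹ * g⁻¹) := by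
      group
    rw [h3]
    exact M.mul_mem (Subgroup.Normal.conj_mem inferInstance _ h2 x) h1
  one_mem' := by
    intro g _
    simp
  inv_mem' := by
    intro x hx g hg
    have h1 := hx g hg
    have h3 : x⁻¹ * g * x⁻¹⁻¹ * g⁻¹ = x⁻¹ * (x * g * x⁻¹ * g⁻¹)⁻¹ * x⁻¹⁻¹ := by
      group
    rw [h3]
    exact Subgroup.Normal.conj_mem inferInstance _ (M.inv_mem h1) x⁻¹

/-- `g` with `[x, g]` inside a normal subgroup. -/
def tSub (x : G) (M : Subgroup G) [M.Normal] : Subgroup G where
  carrier := {g | x * g * x⁻¹ * g⁻¹ ∈ M}
  mul_mem' := by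
    intro a b ha hb
    have h3 : x * (a * b) * x⁻¹ * (a * b)⁻¹ = (x * a * x⁻¹ * a⁻¹) * (a * (x * b * x⁻¹ * b⁻¹) * a⁻¹) := by
      group
    show x * (a * b) * x⁻¹ * (a * b)⁻¹ ∈ M
    rw [h3]
    exact M.mul_mem ha (Subgroup.Normal.conj_mem inferInstance _ hb a)
  one_mem' := by
    show x * 1 * x⁻¹ * 1⁻¹ ∈ M
    simp
  inv_mem' := by
    intro a ha
    have h3 : x * a⁻¹ * x⁻¹ * a⁻¹⁻¹ = a⁻¹ * (x * a * x⁻¹ * a⁻¹)⁻¹ * a⁻¹⁻¹ := by
      group
    show x * a⁻¹ * x⁻¹ * a⁻¹⁻¹ ∈ M
    rw [h3]
    exact Subgroup.Normal.conj_mem inferInstance _ (M.inv_mem ha) a⁻¹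

/-- Pure arithmetic at the end. -/
theorem arith (p c b n j : ℕ) (hp : 2 ≤ p) (hn : p * n < c - 1) (hj : j + n = c - 1) (hjb : j ≤ b) :
    (c - 1) * (p - 1) < b * p := by
  obtain ⟨q, rfl⟩ : ∃ q, p = q + 2 := ⟨p - 2, by omega⟩
  obtain ⟨d, hd⟩ : ∃ d, c - 1 = d := ⟨_, rfl⟩
  rw [hd] at hn hj ⊢
  have h1 : q + 2 - 1 = q + 1 := by omega
  rw [h1]
  subst hj
  nlinarith



/-- If G is a finite p-group in which every conjugacy class has at most p^b elements (every element has centralizer of index at most p^b), then G is abelian when b = 0, and when b ≥ 1 its nilpotency class c satisfies (c − 1)(p − 1) < bp, that is c < bp/(p − 1) + 1, and hence c ≤ 2b. -/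
theorem result {G : Type*} [Group G] [Finite G] {p : ℕ} [Fact p.Prime] (hG : IsPGroup p G) (b : ℕ) (hb : ∀ x : G, (Subgroup.centralizer ({x} : Set G)).index ≤ p ^ b) : ∃ c : ℕ, (⊤ : Subgroup G).lowerCentralSeries c = ⊥ ∧ (b ≠ 0 → (c - 1) * (p - 1) < b * p ∧ c ≤ 2 * b) ∧ (b = 0 → c ≤ 1) := by
  classical
  have hpp : p.Prime := Fact.out
  by_cases hb0 : b = 0
  · subst hb0
    refine ⟨1, ?_, fun h => absurd rfl h, fun _ => le_rfl⟩
    rw [Subgroup.top_lowerCentralSeries_one, commutator_def, Subgroup.commutator_eq_bot_iff_le_centralizer]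
    intro x _
    rw [Subgroup.mem_centralizer_iff]
    intro g _
    have h1 := hb g
    rw [pow_zero] at h1
    have h2 : (Subgroup.centralizer ({g} : Set G)).index ≠ 0 := Subgroup.index_ne_zero_of_finite
    have h3 : (Subgroup.centralizer ({g} : Set G)).index = 1 := by omega
    have h4 := Subgroup.index_eq_one.mp h3
    have h5 : x ∈ Subgroup.centralizer ({g} : Set G) := by rw [h4]; trivial
    exact (Subgroup.mem_centralizer_iff.mp h5 g rfl)
  -- the nilpotency class
  let L : ℕ → Subgroup G := (⊤ : Subgroup G).lowerCentralSeries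
  haveI hLn : ∀ i, (L i).Normal := fun i => by
    induction i with
    | zero => exact Subgroup.normal_of_characteristic _
    | succ i ih =>
      haveI := ih
      show (⁅L i, ⊤⁆ : Subgroup G).Normal
      infer_instance
  have hnil : Group.IsNilpotent G := hG.isNilpotent
  have hex : ∃ c, L c = ⊥ := (Subgroup.nilpotent_iff_lowerCentralSeries).mp hnil
  let c := Nat.find hex
  have hc : L c = ⊥ := Nat.find_spec hex
  have hcmin : ∀ i < c, L i ≠ ⊥ := fun i hi => Nat.find_min hex hi
  refine ⟨c, hc, fun _ => ?_, fun h => absurd h hb0⟩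
  have hbpos : 1 ≤ b := Nat.one_le_iff_ne_zero.mpr hb0
  have hmain : (c - 1) * (p - 1) < b * p := by
    by_cases hc2 : c ≤ 1
    · have : c - 1 = 0 := by omega
      rw [this, zero_mul]
      exact Nat.mul_pos hbpos hpp.pos
    push Not at hc2
    -- the subgroups `C j`
    have hstrict : ∀ j, j < c → L (j + 1) ≠ L j := by
      intro j hj heq
      have hall : ∀ i, j ≤ i → L i = L j := by
        intro i hi
        induction i, hi using Nat.le_induction with
        | base => rfl
        | succ i hi ih =>
          show (⁅L i, ⊤⁆ : Subgroup G) = L j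
          rw [ih]
          exact heq
      exact hcmin j hj (by rw [← hall c hj.le]; exact hc)
    have hantitone : ∀ i j, i ≤ j → L j ≤ L i := fun i j h =>
      Subgroup.lowerCentralSeries_antitone _ h
    let C : ℕ → Subgroup G := fun j => cSub (L (j - 1)) (L (j + 1))
    have hCne : ∀ j, 1 ≤ j → j < c → C j ≠ ⊤ := by
      intro j hj1 hjc htop
      apply hstrict j hjc
      apply le_antisymm (hantitone _ _ (Nat.le_succ j))
      obtain ⟨i, rfl⟩ : ∃ i, j = i + 1 := ⟨j - 1, by omega⟩
      show (⁅L i, ⊤⁆ : Subgroup G) ≤ L (i + 1 + 1)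
      rw [Subgroup.commutator_le]
      intro g hg x _
      have hx : x ∈ C (i + 1) := by rw [htop]; trivial
      have h1 := hx g hg
      have h2 : g * x * g⁻¹ * x⁻¹ = (x * g * x⁻¹ * g⁻¹)⁻¹ := by group
      rw [commutatorElement_def, h2]
      exact Subgroup.inv_mem _ h1
    have hCcard : ∀ j, 1 ≤ j → j < c → p * Nat.card (C j) ≤ Nat.card G := by
      intro j hj1 hjc
      have h1 := H18.card_mul_le_of_lt hG (lt_top_iff_ne_top.mpr (hCne j hj1 hjc))
      simpa using h1
    let J : Finset ℕ := Finset.Icc 1 (c - 1)
    have hJc : J.card = c - 1 := by simp [J]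
    haveI : Fintype G := Fintype.ofFinite G
    -- average
    let n : G → ℕ := fun x => (J.filter (fun j => x ∈ C j)).card
    have hsum : ∑ x : G, n x = ∑ j ∈ J, Nat.card (C j) := by
      have h1 : ∀ x : G, n x = ∑ j ∈ J, (if x ∈ C j then 1 else 0) := by
        intro x
        show (J.filter (fun j => x ∈ C j)).card = _
        rw [Finset.card_filter]
      simp_rw [h1]
      rw [Finset.sum_comm]
      apply Finset.sum_congr rfl
      intro j _
      rw [← Finset.card_filter, Nat.card_eq_fintype_card, Fintype.card_subtype]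
    have hexx : ∃ x : G, p * n x < c - 1 := by
      by_contra hall
      push Not at hall
      have h1 : ∑ x : G, p * n x ≤ (c - 1) * Nat.card G := by
        rw [← Finset.mul_sum, hsum, Finset.mul_sum]
        calc ∑ j ∈ J, p * Nat.card (C j) ≤ ∑ j ∈ J, Nat.card G := by
              apply Finset.sum_le_sum
              intro j hj
              rw [Finset.mem_Icc] at hj
              exact hCcard j hj.1 (by omega)
          _ = (c - 1) * Nat.card G := by rw [Finset.sum_const, hJc, smul_eq_mul]
      have h2 : (c - 1) * Nat.card G < ∑ x : G, p * n x := by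
        have h3 : ∑ x : G, (c - 1) = (c - 1) * Nat.card G := by
          rw [Finset.sum_const, Finset.card_univ, smul_eq_mul, Nat.card_eq_fintype_card, mul_comm]
        rw [← h3]
        apply Finset.sum_lt_sum (fun x _ => hall x)
        refine ⟨1, Finset.mem_univ _, ?_⟩
        have h4 : n 1 = c - 1 := by
          show (J.filter (fun j => (1 : G) ∈ C j)).card = c - 1
          rw [Finset.filter_true_of_mem (fun j _ => (C j).one_mem), hJc]
        rw [h4]
        have h5 := hpp.two_le
        have h6 : 1 ≤ c - 1 := by omega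
        nlinarith
      omega
    obtain ⟨x, hx⟩ := hexx
    -- the chain of subgroups
    let T : ℕ → Subgroup G := fun i => tSub x (L i)
    have hTanti : ∀ i, T (i + 1) ≤ T i := by
      intro i g hg
      exact hantitone i (i + 1) (Nat.le_succ i) hg
    let J' : Finset ℕ := J.filter (fun j => x ∉ C j)
    have hstrictT : ∀ j ∈ J', T (j + 1) < T j := by
      intro j hj
      rw [Finset.mem_filter] at hj
      obtain ⟨hj1, hj2⟩ := hj
      rw [Finset.mem_Icc] at hj1
      refine lt_of_le_of_ne (hTanti j) ?_
      intro heq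
      apply hj2
      intro g hg
      by_contra hcon
      obtain ⟨i, rfl⟩ : ∃ i, j = i + 1 := ⟨j - 1, by omega⟩
      have hg1 : g ∈ T (i + 1) := by
        show x * g * x⁻¹ * g⁻¹ ∈ L (i + 1)
        have h2 : x * g * x⁻¹ * g⁻¹ = (g * x * g⁻¹ * x⁻¹)⁻¹ := by group
        rw [h2]
        apply Subgroup.inv_mem
        exact Subgroup.commutator_mem_commutator hg (Subgroup.mem_top x)
      rw [← heq] at hg1
      exact hcon hg1
    have hchain : ∀ i, Nat.card (T i) * p ^ (J'.filter (fun j => j < i)).card ≤ Nat.card G := by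
      intro i
      induction i with
      | zero =>
        simp only [not_lt_zero, Finset.filter_false, Finset.card_empty, pow_zero, mul_one]
        exact Subgroup.card_le_card_group _
      | succ i ih =>
        by_cases hi : i ∈ J'
        · have h1 : J'.filter (fun j => j < i + 1) = insert i (J'.filter (fun j => j < i)) := by
            ext j
            simp only [Finset.mem_filter, Finset.mem_insert]
            constructor
            · rintro ⟨h2, h3⟩
              by_cases h4 : j = i
              · exact Or.inl h4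
              · exact Or.inr ⟨h2, by omega⟩
            · rintro (rfl | ⟨h2, h3⟩)
              · exact ⟨hi, by omega⟩
              · exact ⟨h2, by omega⟩
          rw [h1, Finset.card_insert_of_notMem (by simp), pow_succ]
          have h2 := H18.card_mul_le_of_lt hG (hstrictT i hi)
          calc Nat.card (T (i + 1)) * (p ^ (J'.filter (fun j => j < i)).card * p)
              = (p * Nat.card (T (i + 1))) * p ^ (J'.filter (fun j => j < i)).card := by ring
            _ ≤ Nat.card (T i) * p ^ (J'.filter (fun j => j < i)).card := Nat.mul_le_mul_right _ h2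
            _ ≤ Nat.card G := ih
        · have h1 : J'.filter (fun j => j < i + 1) = J'.filter (fun j => j < i) := by
            ext j
            simp only [Finset.mem_filter]
            constructor
            · rintro ⟨h2, h3⟩
              refine ⟨h2, ?_⟩
              have : j ≠ i := by
                rintro rfl
                exact hi h2
              omega
            · rintro ⟨h2, h3⟩
              exact ⟨h2, by omega⟩
          rw [h1]
          calc Nat.card (T (i + 1)) * p ^ (J'.filter (fun j => j < i)).card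
              ≤ Nat.card (T i) * p ^ (J'.filter (fun j => j < i)).card :=
                Nat.mul_le_mul_right _ (Subgroup.card_le_of_le (hTanti i))
            _ ≤ Nat.card G := ih
    have hTc : T c = Subgroup.centralizer ({x} : Set G) := by
      ext g
      rw [Subgroup.mem_centralizer_iff]
      constructor
      · intro hg h hh
        rw [Set.mem_singleton_iff] at hh
        subst hh
        have h1 : h * g * h⁻¹ * g⁻¹ ∈ L c := hg
        rw [hc, Subgroup.mem_bot] at h1
        have h3 : h * g * h⁻¹ = g := by simpa using congrArg (· * g) h1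
        have h4 : h * g = g * h := by simpa using congrArg (· * h) h3
        exact h4
      · intro hg
        show x * g * x⁻¹ * g⁻¹ ∈ L c
        have h1 := hg x rfl
        rw [h1]
        simp
    have hJ'all : J'.filter (fun j => j < c) = J' := by
      apply Finset.filter_true_of_mem
      intro j hj
      rw [Finset.mem_filter, Finset.mem_Icc] at hj
      omega
    have hfinal := hchain c
    rw [hTc, hJ'all] at hfinal
    have hle : p ^ J'.card ≤ p ^ b := by
      have h1 := Subgroup.card_mul_index (Subgroup.centralizer ({x} : Set G))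
      have h2 : 0 < Nat.card (Subgroup.centralizer ({x} : Set G)) := Nat.card_pos
      have h3 : p ^ J'.card ≤ (Subgroup.centralizer ({x} : Set G)).index := by
        apply Nat.le_of_mul_le_mul_left _ h2
        rw [h1]
        exact hfinal
      exact h3.trans (hb x)
    have hJb : J'.card ≤ b := (Nat.pow_le_pow_iff_right hpp.one_lt).mp hle
    have hJsum : J'.card + n x = c - 1 := by
      rw [← hJc, add_comm]
      exact Finset.card_filter_add_card_filter_not _ |> fun h => h
    exact arith p c b (n x) J'.card hpp.two_le hx hJsum hJb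
  refine ⟨hmain, ?_⟩
  by_contra hlt
  push Not at hlt
  have h1 : 2 * b ≤ c - 1 := by omega
  have h2 := hpp.two_le
  have h3 : b * p ≤ (c - 1) * (p - 1) := by
    obtain ⟨q, rfl⟩ : ∃ q, p = q + 2 := ⟨p - 2, by omega⟩
    have h4 : q + 2 - 1 = q + 1 := by omega
    rw [h4]
    nlinarith
  omega

end Cfsg.Agent.S3778
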