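import Cfsg.Statements.S3780
import Mathlib

set_option autoImplicit false
open Cfsg

namespace Cfsg.Agent.S3780


theorem card_ker_comp_le {A : Type*} [AddCommGroup A] [Finite A] (f g : A →+ A) :
    Nat.card (f.comp g).ker ≤ Nat.card f.ker * Nat.card g.ker := by
  let h : (f.comp g).ker →+ f.ker :=
    (g.comp (f.comp g).ker.subtype).codRestrict f.ker (fun x => x.2)
  have h1 := AddSubgroup.card_mul_index h.ker
  have h2 : h.ker.index = Nat.card h.range := AddSubgroup.index_ker h
  have h3 : Nat.card h.range ≤ Nat.card f.ker := AddSubgroup.card_le_card_addGroup _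
  have h4 : Nat.card h.ker ≤ Nat.card g.ker := by
    apply Nat.card_le_card_of_injective
      (fun x : h.ker => (⟨x.1.1, by
        have hx : h x.1 = 0 := x.2
        have := congrArg Subtype.val hx
        exact this⟩ : g.ker))
    rintro ⟨⟨x, hx⟩, hx2⟩ ⟨⟨y, hy⟩, hy2⟩ hxy
    have : x = y := congrArg Subtype.val hxy
    subst this
    rfl
  rw [← h1, h2, mul_comm]
  exact Nat.mul_le_mul h3 h4

theorem card_le_fixed_pow {A : Type*} [AddCommGroup A] [Finite A] {p : ℕ} [hp : Fact p.Prime]
    (hpA : ∀ x : A, p • x = 0) (a : AddMonoid.End A) (ha : a ^ p = 1) :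
    Nat.card A ≤ Nat.card (AddMonoidHom.ker (a - 1 : AddMonoid.End A)) ^ p := by
  classical
  by_cases hnt : Nontrivial A
  swap
  · rw [not_nontrivial_iff_subsingleton] at hnt
    have h1 : Nat.card A = 1 := Nat.card_unique
    rw [h1]
    exact Nat.one_le_pow _ _ Nat.card_pos
  have hR : Nontrivial (AddMonoid.End A) := by
    obtain ⟨x, hx⟩ := exists_ne (0 : A)
    refine ⟨⟨1, 0, fun h => hx ?_⟩⟩
    have := congrArg (fun f : AddMonoid.End A => f x) h
    simpa using this
  haveI hchar : CharP (AddMonoid.End A) p := (CharP.charP_iff_prime_eq_zero hp.out).mpr (by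
    ext x
    simp [AddMonoid.End.natCast_apply, hpA x])
  set T : AddMonoid.End A := a - 1 with hT
  have hTp : T ^ p = 0 := by
    rw [hT, sub_pow_char_of_commute _ (Commute.one_right a), ha, one_pow, sub_self]
  have hchain : ∀ k : ℕ, Nat.card (AddMonoidHom.ker (T ^ k : AddMonoid.End A))
      ≤ Nat.card (AddMonoidHom.ker (T : AddMonoid.End A)) ^ k := by
    intro k
    induction k with
    | zero =>
      rw [pow_zero, pow_zero]
      have h1 : AddMonoidHom.ker ((1 : AddMonoid.End A) : A →+ A) = ⊥ := by
        ext x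
        rw [AddSubgroup.mem_bot]
        exact Iff.rfl
      rw [h1]
      simp
    | succ k ih =>
      rw [pow_succ, pow_succ]
      calc Nat.card (AddMonoidHom.ker (T ^ k * T : AddMonoid.End A))
          ≤ Nat.card (AddMonoidHom.ker (T ^ k : AddMonoid.End A)) * Nat.card (AddMonoidHom.ker (T : AddMonoid.End A)) :=
            card_ker_comp_le _ _
        _ ≤ _ := Nat.mul_le_mul_right _ ih
  have h1 := hchain p
  rw [hTp] at h1
  have h2 : AddMonoidHom.ker ((0 : AddMonoid.End A) : A →+ A) = ⊤ := by
    ext x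
    constructor
    · intro _
      trivial
    · intro _
      show (0 : AddMonoid.End A) x = 0
      rfl
  rw [h2] at h1
  simpa using h1



/-- Let V be a finite abelian p-group and α an automorphism of V of order p whose fixed-point subgroup has order p^n. Then V can be generated by pn elements: some subset of V with at most pn elements generates V. -/
theorem result {V : Type*} [CommGroup V] [Finite V] {p : ℕ} [Fact p.Prime] (hV : IsPGroup p V) (α : MulAut V) (hα : orderOf α = p) (n : ℕ) (hfix : Nat.card {v : V // α v = v} = p ^ n) : ∃ S : Finset V, S.card ≤ p * n ∧ Subgroup.closure (S : Set V) = ⊤ := by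
  classical
  have hpp : p.Prime := Fact.out
  -- `U = Ω₁(V)`
  let U : Subgroup V := (powMonoidHom p : V →* V).ker
  have hmemU : ∀ v : V, v ∈ U ↔ v ^ p = 1 := fun v => Iff.rfl
  let b : U →* U :=
    { toFun := fun u => ⟨α u, by
        rw [hmemU, ← map_pow, (hmemU _).mp u.2, map_one]⟩
      map_one' := by
        apply Subtype.ext
        simp
      map_mul' := fun x y => by
        apply Subtype.ext
        simp }
  let a : AddMonoid.End (Additive U) := MonoidHom.toAdditive b
  have hpow : ∀ (k : ℕ) (x : Additive U), (((a ^ k) x).toMul : V) = (α ^ k) (x.toMul : V) := by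
    intro k x
    induction k with
    | zero => simp
    | succ k ih =>
      rw [pow_succ', pow_succ']
      show (α (((a ^ k) x).toMul : V)) = _
      rw [ih]
      rfl
  have ha : a ^ p = 1 := by
    ext x
    have h1 := hpow p x
    have hαp : α ^ p = 1 := by rw [← hα]; exact pow_orderOf_eq_one α
    rw [hαp] at h1
    exact h1
  have hA : ∀ x : Additive U, p • x = 0 := by
    intro x
    show Additive.ofMul (x.toMul ^ p) = 0
    have h1 : x.toMul ^ p = 1 := by
      apply Subtype.ext
      exact (hmemU _).mp x.toMul.2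
    rw [h1]
    rfl
  have hmain := card_le_fixed_pow hA a ha
  have hK : Nat.card (AddMonoidHom.ker (a - 1 : AddMonoid.End (Additive U))) ≤ p ^ n := by
    rw [← hfix]
    apply Nat.card_le_card_of_injective
      (fun x : AddMonoidHom.ker (a - 1 : AddMonoid.End (Additive U)) =>
        (⟨(x.1.toMul : V), by
          have h1 : (a - 1 : AddMonoid.End (Additive U)) x.1 = 0 := x.2
          have h2 : a x.1 = x.1 := by
            have h3 : a x.1 - x.1 = 0 := h1
            exact sub_eq_zero.mp h3
          have h4 := congrArg (fun z : Additive U => (z.toMul : V)) h2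
          exact h4⟩ : {v : V // α v = v}))
    rintro ⟨x, hx⟩ ⟨y, hy⟩ hxy
    have h1 : (x.toMul : V) = y.toMul := by
      have h0 := congrArg Subtype.val hxy
      exact h0
    apply Subtype.ext
    apply Additive.toMul.injective
    exact Subtype.ext h1
  have hcardU : Nat.card U ≤ p ^ (p * n) := by
    have h1 : Nat.card U = Nat.card (Additive U) := rfl
    rw [h1]
    calc Nat.card (Additive U) ≤ _ := hmain
      _ ≤ (p ^ n) ^ p := Nat.pow_le_pow_left hK p
      _ = p ^ (p * n) := by rw [← pow_mul, mul_comm]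
  -- the structure theorem
  obtain ⟨ι, _, m, hm, ⟨e⟩⟩ := CommGroup.equiv_prod_multiplicative_zmod_of_finite V
  have hNZ : ∀ i, NeZero (m i) := fun i => ⟨by have := hm i; omega⟩
  let g : ι → V := fun i => e.symm (Pi.mulSingle i (Multiplicative.ofAdd (1 : ZMod (m i))) : (i : ι) → Multiplicative (ZMod (m i)))
  have hpd : ∀ i, p ∣ m i := by
    intro i
    obtain ⟨k, hk⟩ := hV (g i)
    have h1 : (e (g i)) ^ p ^ k = 1 := by rw [← map_pow, hk, map_one]
    have h2 : e (g i) = (Pi.mulSingle i (Multiplicative.ofAdd (1 : ZMod (m i))) : (i : ι) → Multiplicative (ZMod (m i))) := by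
      simp [g]
    rw [h2] at h1
    have h3 := congrFun h1 i
    rw [Pi.pow_apply, Pi.mulSingle_eq_same, Pi.one_apply, ← ofAdd_nsmul] at h3
    have h4 : p ^ k • (1 : ZMod (m i)) = 0 := Multiplicative.ofAdd.injective h3
    rw [nsmul_eq_mul, mul_one] at h4
    have h5 : ((p ^ k : ℕ) : ZMod (m i)) = 0 := by exact_mod_cast h4
    rw [ZMod.natCast_eq_zero_iff] at h5
    obtain ⟨j, -, hj⟩ := (Nat.dvd_prime_pow hpp).mp h5
    rw [hj]
    apply dvd_pow_self
    rintro rfl
    have := hm i
    rw [hj] at this
    simp at this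
  -- the injection
  let F : (ι → Fin p) → U := fun w =>
    ⟨e.symm (fun i => Multiplicative.ofAdd (((m i / p * (w i : ℕ) : ℕ)) : ZMod (m i))), by
      rw [hmemU, ← map_pow]
      have h1 : (fun i => Multiplicative.ofAdd (((m i / p * (w i : ℕ) : ℕ)) : ZMod (m i))) ^ p = 1 := by
        funext i
        rw [Pi.pow_apply, Pi.one_apply, ← ofAdd_nsmul, nsmul_eq_mul, ← Nat.cast_mul]
        have h2 : p * (m i / p * (w i : ℕ)) = m i * (w i : ℕ) := by
          rw [← mul_assoc, Nat.mul_div_cancel' (hpd i)]
        rw [h2, Nat.cast_mul, ZMod.natCast_self, zero_mul]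
        rfl
      rw [h1, map_one]⟩
  have hF : Function.Injective F := by
    intro w w' hww
    funext i
    have h1 : e.symm (fun i => Multiplicative.ofAdd (((m i / p * (w i : ℕ) : ℕ)) : ZMod (m i)))
        = e.symm (fun i => Multiplicative.ofAdd (((m i / p * (w' i : ℕ) : ℕ)) : ZMod (m i))) :=
      congrArg Subtype.val hww
    have h2 := e.symm.injective h1
    have h3 := congrFun h2 i
    have h4 : (((m i / p * (w i : ℕ) : ℕ)) : ZMod (m i)) = ((m i / p * (w' i : ℕ) : ℕ)) :=
      Multiplicative.ofAdd.injective h3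
    rw [ZMod.natCast_eq_natCast_iff] at h4
    have hpos : 0 < m i / p := Nat.div_pos (Nat.le_of_dvd (by have := hm i; omega) (hpd i)) hpp.pos
    have hlt : ∀ t : Fin p, m i / p * (t : ℕ) < m i := by
      intro t
      calc m i / p * (t : ℕ) < m i / p * p := Nat.mul_lt_mul_of_pos_left t.2 hpos
        _ = m i := Nat.div_mul_cancel (hpd i)
    have h5 := Nat.ModEq.eq_of_lt_of_lt h4 (hlt _) (hlt _)
    have h6 := Nat.eq_of_mul_eq_mul_left hpos h5
    exact Fin.ext h6
  have hcard : p ^ Fintype.card ι ≤ p ^ (p * n) := by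
    haveI : NeZero p := ⟨hpp.ne_zero⟩
    have h1 := Nat.card_le_card_of_injective F hF
    have h2 : Nat.card (ι → Fin p) = p ^ Fintype.card ι := by
      rw [Nat.card_eq_fintype_card, Fintype.card_fun, Fintype.card_fin]
    rw [h2] at h1
    exact h1.trans hcardU
  have hιle : Fintype.card ι ≤ p * n := (Nat.pow_le_pow_iff_right hpp.one_lt).mp hcard
  refine ⟨Finset.univ.image g, (Finset.card_image_le).trans hιle, ?_⟩
  rw [eq_top_iff]
  intro v _
  have hv : v = ∏ i, e.symm (Pi.mulSingle i (e v i)) := by
    rw [← map_prod, Finset.univ_prod_mulSingle, MulEquiv.symm_apply_apply]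
  rw [hv]
  apply Subgroup.prod_mem
  intro i _
  have h1 : Pi.mulSingle i (e v i) = (Pi.mulSingle i (Multiplicative.ofAdd (1 : ZMod (m i))) : (i : ι) → Multiplicative (ZMod (m i))) ^
      (Multiplicative.toAdd (e v i)).val := by
    rw [← Pi.mulSingle_pow, ← ofAdd_nsmul, nsmul_eq_mul, mul_one, ZMod.natCast_zmod_val]
    rfl
  rw [h1, map_pow]
  apply Subgroup.pow_mem
  apply Subgroup.subset_closure
  simp only [Finset.coe_image, Finset.coe_univ, Set.image_univ]
  exact ⟨i, rfl⟩

end Cfsg.Agent.S3780
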