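import Cfsg.Statements.S3781
import Mathlib
import Cfsg.Agent.Lib.H20.Commutators

set_option autoImplicit false
open Cfsg

namespace Cfsg.Agent.S3781


open Subgroup
open scoped commutatorElement

/-- iterated commutators with the whole group -/
def R {G : Type*} [Group G] : ℕ → Subgroup G → Subgroup G
  | 0, A => A
  | j + 1, A => R j ⁅A, (⊤ : Subgroup G)⁆

theorem R_succ' {G : Type*} [Group G] (j : ℕ) (A : Subgroup G) :
    R (j + 1) A = ⁅R j A, (⊤ : Subgroup G)⁆ := by
  induction j generalizing A with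
  | zero => rfl
  | succ j ih => exact ih _

theorem R_mono {G : Type*} [Group G] (j : ℕ) {A B : Subgroup G} (h : A ≤ B) : R j A ≤ R j B := by
  induction j generalizing A B with
  | zero => exact h
  | succ j ih => exact ih (Subgroup.commutator_mono h le_rfl)

theorem R_normal {G : Type*} [Group G] (j : ℕ) (A : Subgroup G) [A.Normal] : (R j A).Normal := by
  induction j generalizing A with
  | zero => assumption
  | succ j ih => exact ih _

theorem R_le_self {G : Type*} [Group G] (j : ℕ) (A : Subgroup G) [A.Normal] : R j A ≤ A := by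
  induction j with
  | zero => exact le_rfl
  | succ j ih =>
    rw [R_succ']
    haveI := R_normal j A
    exact (Subgroup.commutator_le_left _ _).trans ih

theorem comm_sup_lt {G : Type*} [Group G] [hnil : Group.IsNilpotent G] {X Y : Subgroup G} [X.Normal] [hYn : Y.Normal]
    (hXY : X < Y) : ⁅Y, (⊤ : Subgroup G)⁆ ⊔ X < Y := by
  have hle : ⁅Y, (⊤ : Subgroup G)⁆ ⊔ X ≤ Y := sup_le (Subgroup.commutator_le_left Y ⊤) hXY.le
  refine lt_of_le_of_ne hle ?_
  intro h
  have key : ∀ n, Y ≤ X ⊔ (⊤ : Subgroup G).lowerCentralSeries n := by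
    intro n
    induction n with
    | zero => simp
    | succ n ih =>
      haveI : ((⊤ : Subgroup G).lowerCentralSeries n).Normal := H20.lowerCentralSeries_normal ⊤ n
      rw [Subgroup.lowerCentralSeries_succ]
      have h1 : ⁅Y, (⊤ : Subgroup G)⁆ ≤ X ⊔ ⁅(⊤ : Subgroup G).lowerCentralSeries n, (⊤ : Subgroup G)⁆ := by
        have h2 : ⁅Y, (⊤ : Subgroup G)⁆ ≤ ⁅X ⊔ (⊤ : Subgroup G).lowerCentralSeries n, (⊤ : Subgroup G)⁆ :=
          Subgroup.commutator_mono ih le_rfl
        refine h2.trans ?_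
        rw [Subgroup.commutator_comm]
        apply H20.commutator_sup_right_le
        · rw [Subgroup.commutator_comm]
          exact (Subgroup.commutator_le_left X ⊤).trans le_sup_left
        · rw [Subgroup.commutator_comm]
          exact le_sup_right
      rw [← h]
      exact sup_le h1 le_sup_left
  obtain ⟨c, hc⟩ := (Subgroup.nilpotent_iff_lowerCentralSeries).1 hnil
  have h2 := key c
  rw [hc, sup_bot_eq] at h2
  exact absurd hXY (not_lt_of_ge h2)

theorem R_le_of_relIndex {G : Type*} [Group G] [Finite G] {p : ℕ} [hp : Fact p.Prime] (hG : IsPGroup p G) (s : ℕ) :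
    ∀ {X Y : Subgroup G} [X.Normal] [Y.Normal], X ≤ Y → X.relIndex Y < p ^ (s + 1) → R s Y ≤ X := by
  haveI hnil : Group.IsNilpotent G := hG.isNilpotent
  have hpow : ∀ {A B : Subgroup G}, ∃ b, A.relIndex B = p ^ b := by
    intro A B
    obtain ⟨a, ha⟩ := IsPGroup.iff_card.1 (hG.to_subgroup B)
    have h1 : A.relIndex B ∣ p ^ a := ha ▸ Subgroup.relIndex_dvd_card A B
    obtain ⟨b, _, hb⟩ := (Nat.dvd_prime_pow hp.out).1 h1
    exact ⟨b, hb⟩
  induction s with
  | zero =>
    intro X Y _ _ hXY hr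
    obtain ⟨b, hb⟩ := hpow (A := X) (B := Y)
    have h1 : b = 0 := by
      by_contra hne
      have h2 : p ^ 1 ≤ p ^ b := Nat.pow_le_pow_right hp.out.pos (Nat.one_le_iff_ne_zero.2 hne)
      rw [hb] at hr
      simp only [zero_add] at hr
      exact absurd hr (not_lt_of_ge h2)
    rw [h1, pow_zero, Subgroup.relIndex_eq_one] at hb
    exact hb
  | succ s ih =>
    intro X Y _ _ hXY hr
    by_cases hXYeq : X = Y
    · subst hXYeq
      exact R_le_self (s + 1) X
    have hlt : X < Y := lt_of_le_of_ne hXY hXYeq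
    have h1 := comm_sup_lt hlt
    set Y₁ := ⁅Y, (⊤ : Subgroup G)⁆ ⊔ X with hY₁
    have hXY₁ : X ≤ Y₁ := le_sup_right
    have hmul : X.relIndex Y₁ * Y₁.relIndex Y = X.relIndex Y := Subgroup.relIndex_mul_relIndex X Y₁ Y hXY₁ h1.le
    obtain ⟨b, hb⟩ := hpow (A := Y₁) (B := Y)
    have hb0 : b ≠ 0 := by
      rintro rfl
      rw [pow_zero, Subgroup.relIndex_eq_one] at hb
      exact absurd h1 (not_lt_of_ge hb)
    have hr2 : X.relIndex Y₁ < p ^ (s + 1) := by
      by_contra hcon
      push Not at hcon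
      have h3 : p ^ 1 ≤ p ^ b := Nat.pow_le_pow_right hp.out.pos (Nat.one_le_iff_ne_zero.2 hb0)
      have h4 : p ^ (s + 1) * p ^ 1 ≤ X.relIndex Y₁ * Y₁.relIndex Y := by
        rw [hb]
        exact Nat.mul_le_mul hcon h3
      rw [hmul, ← pow_add] at h4
      exact absurd hr (not_lt_of_ge h4)
    haveI : Y₁.Normal := inferInstance
    have h5 := ih hXY₁ hr2
    exact (R_mono s (le_sup_left : ⁅Y, (⊤ : Subgroup G)⁆ ≤ Y₁)).trans h5

/-- `⁅A, γ_{j+1}⁆ ≤ Z` as soon as the `(j+1)`-fold commutator of `A` with `G` lies in `Z` -/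
theorem comm_lcs_le {G : Type*} [Group G] (j : ℕ) :
    ∀ (A Z : Subgroup G) [A.Normal] [Z.Normal], R (j + 1) A ≤ Z →
      ⁅A, (⊤ : Subgroup G).lowerCentralSeries j⁆ ≤ Z := by
  induction j with
  | zero =>
    intro A Z _ _ h
    exact h
  | succ j ih =>
    intro A Z _ _ h
    rw [Subgroup.lowerCentralSeries_succ, Subgroup.commutator_comm]
    haveI : ((⊤ : Subgroup G).lowerCentralSeries j).Normal := H20.lowerCentralSeries_normal ⊤ j
    apply H20.three_subgroups
    · -- ⁅⁅⊤, A⁆, L j⁆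
      rw [Subgroup.commutator_comm ⊤ A]
      exact ih ⁅A, ⊤⁆ Z h
    · -- ⁅⁅A, L j⁆, ⊤⁆
      let Z' : Subgroup G := Subgroup.upperCentralSeriesStep Z
      haveI hZ'n : Z'.Normal := by
        have : Z' = (center (G ⧸ Z)).comap (QuotientGroup.mk' Z) := Subgroup.upperCentralSeriesStep_eq_comap_center Z
        rw [this]
        infer_instance
      have h1 : R (j + 1) A ≤ Z' := by
        intro x hx y
        have : ⁅x, y⁆ ∈ ⁅R (j + 1) A, (⊤ : Subgroup G)⁆ := Subgroup.commutator_mem_commutator hx (mem_top y)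
        rw [← R_succ'] at this
        exact h this
      have h2 := ih A Z' h1
      rw [Subgroup.commutator_le]
      intro x hx y _
      exact h2 hx y


/-- Let G be a finite p-group and n ≥ 1, and write γ_1(G) = G, γ_{k+1}(G) = [γ_k(G), G], and likewise γ_k(N) for a subgroup N. Let N be a normal subgroup of G contained in γ_n(G). If i > 1 and γ_{i+1}(N) ≠ 1, then |γ_i(N) : γ_{i+1}(N)| ≥ p^n. -/
theorem result {G : Type*} [Group G] [Finite G] {p : ℕ} [Fact p.Prime] (hG : IsPGroup p G) (n : ℕ) (hn : 1 ≤ n) (N : Subgroup G) [N.Normal] (hN : N ≤ (⊤ : Subgroup G).lowerCentralSeries (n - 1)) (i : ℕ) (hi : 1 < i) (hne : N.lowerCentralSeries i ≠ ⊥) : p ^ n ≤ (N.lowerCentralSeries i).relIndex (N.lowerCentralSeries (i - 1)) := by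
  classical
  haveI hnil : Group.IsNilpotent G := hG.isNilpotent
  by_contra hlt
  push Not at hlt
  obtain ⟨i', rfl⟩ : ∃ i', i = i' + 1 := ⟨i - 1, by omega⟩
  simp only [Nat.add_sub_cancel] at hlt
  set M := N.lowerCentralSeries i' with hM
  set K := N.lowerCentralSeries (i' + 1) with hK
  haveI hMn : M.Normal := H20.lowerCentralSeries_normal N i'
  haveI hKn : K.Normal := H20.lowerCentralSeries_normal N (i' + 1)
  have hKM : K ≤ M := Subgroup.lowerCentralSeries_antitone N (Nat.le_succ i')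
  obtain ⟨n', rfl⟩ : ∃ n', n = n' + 1 := ⟨n - 1, by omega⟩
  have h1 : R n' M ≤ K := R_le_of_relIndex hG n' hKM hlt
  have hKlt : ⁅K, (⊤ : Subgroup G)⁆ ⊔ ⊥ < K := comm_sup_lt (bot_lt_iff_ne_bot.2 hne)
  rw [sup_bot_eq] at hKlt
  have h2 : R (n' + 1) M ≤ ⁅K, (⊤ : Subgroup G)⁆ := by
    rw [R_succ']
    exact Subgroup.commutator_mono h1 le_rfl
  have h3 : ⁅M, (⊤ : Subgroup G).lowerCentralSeries n'⁆ ≤ ⁅K, (⊤ : Subgroup G)⁆ := comm_lcs_le n' M _ h2
  simp only [Nat.add_sub_cancel] at hN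
  have h4 : K ≤ ⁅M, (⊤ : Subgroup G).lowerCentralSeries n'⁆ := by
    rw [hK, Subgroup.lowerCentralSeries_succ]
    exact Subgroup.commutator_mono le_rfl hN
  exact absurd hKlt (not_lt_of_ge (h4.trans h3))

end Cfsg.Agent.S3781
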