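import Cfsg.Statements.S3784
import Mathlib

set_option autoImplicit false
open Cfsg

namespace Cfsg.Agent.S3784


theorem cof (x : ℤ) (hx : Odd x) (m : ℕ) : ∃ k : ℤ, Odd k ∧ x ^ (2 * m + 1) + 1 = (x + 1) * k := by
  induction m with
  | zero => exact ⟨1, odd_one, by ring⟩
  | succ m ih =>
    obtain ⟨k, hk, e⟩ := ih
    refine ⟨x ^ 2 * k - x + 1, ?_, ?_⟩
    · have h1 : Odd (x ^ 2 * k) := (hx.pow).mul hk
      have h2 : Even (x ^ 2 * k - x) := h1.sub_odd hx
      exact h2.add_one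
    · linear_combination x ^ 2 * e

theorem odd_dvd_two_pow (k : ℤ) (hk : Odd k) (a : ℕ) (h : k ∣ 2 ^ a) : k = 1 ∨ k = -1 := by
  have h1 : k.natAbs ∣ 2 ^ a := by
    have := Int.natAbs_dvd_natAbs.2 h
    simpa [Int.natAbs_pow] using this
  obtain ⟨i, _, hi⟩ := (Nat.dvd_prime_pow Nat.prime_two).1 h1
  have h2 : Odd k.natAbs := Int.natAbs_odd.2 hk
  have h3 : i = 0 := by
    by_contra hne
    rw [hi] at h2
    exact (Nat.not_odd_iff_even.2 (Nat.even_pow.2 ⟨even_two, hne⟩)) h2
  rw [h3, pow_zero] at hi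
  exact Int.natAbs_eq_natAbs_iff.1 (by simpa using hi)

/-- `x^n + 1 = 2^c` with `x` odd, `n` odd forces `x + 1 = 2^c`. -/
theorem plus_case (x n c : ℕ) (hx : Odd x) (hn : Odd n) (h : x ^ n + 1 = 2 ^ c) : x + 1 = 2 ^ c := by
  obtain ⟨m, rfl⟩ := hn
  obtain ⟨k, hk, e⟩ := cof (x : ℤ) (by exact_mod_cast hx) m
  have hz : ((x : ℤ) ^ (2 * m + 1) + 1) = 2 ^ c := by exact_mod_cast h
  have hd : k ∣ 2 ^ c := ⟨(x : ℤ) + 1, by rw [← hz, e]; ring⟩
  have hpos : (0 : ℤ) < (x : ℤ) + 1 := by positivity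
  have hpos2 : (0 : ℤ) < (x : ℤ) ^ (2 * m + 1) + 1 := by positivity
  rcases odd_dvd_two_pow k hk c hd with rfl | rfl
  · rw [mul_one] at e
    have : (x : ℤ) + 1 = 2 ^ c := by rw [← e, hz]
    exact_mod_cast this
  · rw [e] at hpos2
    nlinarith

/-- `x^n - 1 = 2^c` with `x ≥ 3` odd, `n` odd forces `x - 1 = 2^c`. -/
theorem minus_case (x n c : ℕ) (hx : Odd x) (hx3 : 3 ≤ x) (hn : Odd n) (h : x ^ n = 2 ^ c + 1) :
    x = 2 ^ c + 1 := by
  obtain ⟨m, rfl⟩ := hn
  obtain ⟨k, hk, e⟩ := cof (-(x : ℤ)) (by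
    have h0 : Odd (x : ℤ) := by exact_mod_cast hx
    exact h0.neg) m
  have hz : ((x : ℤ) ^ (2 * m + 1)) = 2 ^ c + 1 := by exact_mod_cast h
  have e2 : (2 : ℤ) ^ c = ((x : ℤ) - 1) * k := by
    have h2 : (-(x : ℤ)) ^ (2 * m + 1) = - ((x : ℤ) ^ (2 * m + 1)) := Odd.neg_pow ⟨m, rfl⟩ _
    rw [h2, hz] at e
    linear_combination -e
  have hd : k ∣ 2 ^ c := ⟨(x : ℤ) - 1, by rw [e2]; ring⟩
  have hx3' : (3 : ℤ) ≤ x := by exact_mod_cast hx3
  have hpos : (0 : ℤ) < 2 ^ c := by positivity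
  rcases odd_dvd_two_pow k hk c hd with rfl | rfl
  · rw [mul_one] at e2
    have : (x : ℤ) = 2 ^ c + 1 := by rw [e2]; ring
    exact_mod_cast this
  · rw [e2] at hpos
    nlinarith


/-- Let p, q be primes and a, b positive integers with p^a = q^b + 1. Then either p = 2, b = 1, a is prime and q = 2^a − 1; or q = 2, a = 1, b is a power of 2 and p = 2^b + 1; or p^a = 9 and q^b = 8. -/
theorem result (p q a b : ℕ) (hp : p.Prime) (hq : q.Prime) (ha : 1 ≤ a) (hb : 1 ≤ b) (h : p ^ a = q ^ b + 1) : (p = 2 ∧ b = 1 ∧ a.Prime ∧ q + 1 = 2 ^ a) ∨ (q = 2 ∧ a = 1 ∧ (∃ m : ℕ, b = 2 ^ m) ∧ p = 2 ^ b + 1) ∨ (p ^ a = 9 ∧ q ^ b = 8) := by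
  have hpodd : p = 2 ∨ Odd p := hp.eq_two_or_odd'
  have hqodd : q = 2 ∨ Odd q := hq.eq_two_or_odd'
  have hp2 := hp.two_le
  have hq2 := hq.two_le
  rcases hpodd with rfl | hpo
  · rcases hqodd with rfl | hqo
    · exfalso
      have h1 : Even (2 ^ a) := Nat.even_pow.2 ⟨even_two, by omega⟩
      have h2 : Even (2 ^ b) := Nat.even_pow.2 ⟨even_two, by omega⟩
      rw [h] at h1
      exact (Nat.not_even_iff_odd.2 h2.add_one) h1
    · left
      -- `b` is odd
      have hbo : Odd b := by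
        by_contra hne
        rw [Nat.not_odd_iff_even] at hne
        obtain ⟨c, rfl⟩ := hne
        obtain ⟨t, ht⟩ : Odd (q ^ c) := hqo.pow
        have h1 : q ^ (c + c) = 4 * (t ^ 2 + t) + 1 := by
          rw [pow_add, ht]; ring
        have hq' : 2 ≤ q ^ (c + c) := le_trans hq2 (Nat.le_self_pow (by omega) q)
        have ha2 : a = 1 ∨ 2 ≤ a := by omega
        rcases ha2 with rfl | ha2
        · rw [pow_one] at h
          omega
        · obtain ⟨d, rfl⟩ : ∃ d, a = d + 2 := ⟨a - 2, by omega⟩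
          have : 2 ^ (d + 2) = 4 * 2 ^ d := by ring
          omega
      have h1 := plus_case q b a hqo hbo h.symm
      have h2 : q ^ b = q := by omega
      have hb1 : b = 1 := by
        have := Nat.pow_right_injective hq2 (a₁ := b) (a₂ := 1)
        apply this
        simpa using h2
      refine ⟨rfl, hb1, ?_, h1⟩
      have hqa : q = 2 ^ a - 1 := by omega
      have ha1 : a ≠ 1 := by
        rintro rfl
        have := hqo
        omega
      exact (Nat.prime_of_pow_sub_one_prime ha1 (hqa ▸ hq)).2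
  · rcases hqodd with rfl | hqo
    · right
      have hp3 : 3 ≤ p := by
        rcases hpo with ⟨t, rfl⟩
        omega
      rcases Nat.even_or_odd a with hae | hao
      · right
        obtain ⟨c, rfl⟩ := hae
        obtain ⟨u, hu⟩ : ∃ u, u = p ^ c := ⟨_, rfl⟩
        have huo : Odd u := hu ▸ hpo.pow
        have hc0 : c ≠ 0 := by
          rintro rfl
          omega
        have hu3 : 3 ≤ u := by
          rw [hu]
          calc 3 ≤ p := hp3
            _ = p ^ 1 := (pow_one p).symm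
            _ ≤ p ^ c := Nat.pow_le_pow_right (by omega) (by omega)
        have huu : u * u = 2 ^ b + 1 := by rw [← h, hu, pow_add]
        obtain ⟨v, rfl⟩ : ∃ v, u = v + 1 := ⟨u - 1, by omega⟩
        have hprod : v * (v + 2) = 2 ^ b := by nlinarith
        have h1 : v ∣ 2 ^ b := ⟨v + 2, hprod.symm⟩
        have h2 : v + 2 ∣ 2 ^ b := ⟨v, by rw [← hprod]; ring⟩
        obtain ⟨i, _, hi⟩ := (Nat.dvd_prime_pow Nat.prime_two).1 h1
        obtain ⟨j, _, hj⟩ := (Nat.dvd_prime_pow Nat.prime_two).1 h2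
        have hv : v = 2 := by
          have hij : 2 ^ j = 2 ^ i + 2 := by omega
          have hv2 : 2 ≤ v := by omega
          by_contra hne
          have hi2 : 2 ≤ i := by
            by_contra hlt
            have : i = 0 ∨ i = 1 := by omega
            rcases this with rfl | rfl <;> simp at hi <;> omega
          obtain ⟨s, rfl⟩ : ∃ s, i = s + 2 := ⟨i - 2, by omega⟩
          have hj2 : 2 ≤ j := by
            by_contra hlt
            have : j = 0 ∨ j = 1 := by omega
            have hpos : 0 < 2 ^ (s + 2) := by positivity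
            rcases this with rfl | rfl <;> simp at hij <;> omega
          obtain ⟨s', rfl⟩ : ∃ s', j = s' + 2 := ⟨j - 2, by omega⟩
          have e1 : 2 ^ (s + 2) = 4 * 2 ^ s := by ring
          have e2 : 2 ^ (s' + 2) = 4 * 2 ^ s' := by ring
          omega
        subst hv
        have h8 : 2 ^ b = 8 := by omega
        refine ⟨?_, h8⟩
        rw [h, h8]
      · left
        have h1 := minus_case p a b hpo hp3 hao h
        have ha1 : a = 1 := by
          have h2 : p ^ a = p := by omega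
          have := Nat.pow_right_injective hp2 (a₁ := a) (a₂ := 1)
          apply this
          simpa using h2
        refine ⟨rfl, ha1, ?_, h1⟩
        exact Nat.pow_of_pow_add_prime (by norm_num) (by omega) (h1 ▸ hp)
    · exfalso
      have h1 : Odd (p ^ a) := hpo.pow
      have h2 : Odd (q ^ b) := hqo.pow
      rw [h] at h1
      exact (Nat.not_odd_iff_even.2 h2.add_one) h1

end Cfsg.Agent.S3784
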