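import Cfsg.Statements.S3785
import Mathlib
import Cfsg.Prelude.Def_CaseTheorems
import Cfsg.Agent.Lib.H19.Lifts
import Cfsg.Agent.Lib.H13.FrobOdd
import Cfsg.Agent.Lib.H01.Fitting
import Cfsg.Agent.Lib.H01.Solv2
import Cfsg.Agent.Lib.H18.Basic

set_option autoImplicit false
open Cfsg

namespace Cfsg.Agent.S3785


open Cfsg

variable {G : Type*} [Group G] [Finite G]

theorem induct_pp {P : G → Prop} (hmul : ∀ a b, P a → P b → P (a * b)) (hone : P 1) :
    ∀ (n : ℕ) (g : G), orderOf g = n →
      (∀ (r k : ℕ) (a : G), r.Prime → a ∈ Subgroup.zpowers g → a ^ r ^ k = 1 → P a) → P g := by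
  intro n
  induction n using Nat.strong_induction_on with
  | _ n ih =>
  intro g hg h
  by_cases h1 : orderOf g = 1
  · rw [orderOf_eq_one_iff.mp h1]; exact hone
  obtain ⟨r, hr, hrd⟩ := Nat.exists_prime_and_dvd h1
  obtain ⟨a, b, hab, -, ha, hb, ha2, hb2⟩ := H19.exists_pi_decomp {r} g
  have hn0 : 0 < orderOf g := orderOf_pos g
  have hbd : orderOf b ∣ orderOf g := orderOf_dvd_of_mem_zpowers hb2
  have hbord : orderOf b < n := by
    rw [← hg]
    apply lt_of_le_of_ne (Nat.le_of_dvd hn0 hbd)
    intro he
    exact hb r hr (he ▸ hrd) rfl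
  rw [hab]
  refine hmul a b ?_ (ih _ hbord b rfl ?_)
  · have hpow : orderOf a = r ^ (orderOf a).primeFactorsList.length :=
      Nat.eq_prime_pow_of_unique_prime_dvd (orderOf_pos a).ne' (fun {d} hd hda => ha d hd hda)
    refine h r (orderOf a).primeFactorsList.length a hr ha2 ?_
    rw [← hpow]
    exact pow_orderOf_eq_one a
  · intro r' k c hr' hc hck
    exact h r' k c hr' (Subgroup.zpowers_le.mpr hb2 hc) hck

theorem mem_pCore_of_mem_fitting {r : ℕ} [Fact r.Prime] {y : G} (hy : y ∈ fittingSubgroup G)
    {k : ℕ} (hk : y ^ r ^ k = 1) : y ∈ pCore r G := by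
  haveI hnil : Group.IsNilpotent (fittingSubgroup G) := H01.fitting_nilpotent
  haveI hF : (fittingSubgroup G).Normal := H01.fitting_normal
  obtain ⟨P⟩ : Nonempty (Sylow r (fittingSubgroup G)) := inferInstance
  haveI hPn : (P : Subgroup (fittingSubgroup G)).Normal :=
    Sylow.normal_of_normalizerCondition (fun H h => Group.normalizerCondition_of_isNilpotent H h) P
  haveI hPc : (P : Subgroup (fittingSubgroup G)).Characteristic :=
    Sylow.characteristic_of_normal P hPn
  have hN : ((P : Subgroup (fittingSubgroup G)).map (fittingSubgroup G).subtype).Normal :=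
    ConjAct.normal_of_characteristic_of_normal
  have hle := H01.le_pCore hN (P.isPGroup'.map _)
  apply hle
  have hzp : IsPGroup r (Subgroup.zpowers (⟨y, hy⟩ : fittingSubgroup G)) := by
    apply IsPGroup.of_card_dvd_pow (n := k)
    rw [Nat.card_zpowers]
    apply orderOf_dvd_of_pow_eq_one
    apply Subtype.ext
    simpa using hk
  obtain ⟨R', hR'⟩ := hzp.exists_le_sylow
  haveI : Unique (Sylow r (fittingSubgroup G)) := Sylow.unique_of_normal P hPn
  have h1 : R' = P := Subsingleton.elim _ _
  have h2 : (⟨y, hy⟩ : fittingSubgroup G) ∈ (P : Subgroup (fittingSubgroup G)) := by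
    rw [← h1]
    exact hR' (Subgroup.mem_zpowers _)
  exact ⟨_, h2, rfl⟩

theorem normal_centralizer_of_conj_closed (T : Set G) (h : ∀ g, ∀ y ∈ T, g * y * g⁻¹ ∈ T) :
    (Subgroup.centralizer T).Normal := by
  constructor
  intro x hx g
  rw [Subgroup.mem_centralizer_iff] at hx ⊢
  intro y hy
  have h1 := hx _ (h g⁻¹ y hy)
  have h2 : g⁻¹ * y * g⁻¹⁻¹ = g⁻¹ * y * g := by group
  rw [h2] at h1
  calc y * (g * x * g⁻¹) = g * ((g⁻¹ * y * g) * x) * g⁻¹ := by group
    _ = g * (x * (g⁻¹ * y * g)) * g⁻¹ := by rw [h1]
    _ = g * x * g⁻¹ * y := by group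



/-- Let G be a finite solvable group whose Fitting subgroup F(G) has odd order. If an element g of G commutes with every element of prime order of F(G), then g ∈ F(G). -/
theorem result {G : Type*} [Group G] [Finite G] (hG : Group.IsSolvable G) (hodd : Odd (Nat.card (Cfsg.fittingSubgroup G))) (g : G) (hg : ∀ x ∈ Cfsg.fittingSubgroup G, (orderOf x).Prime → g * x = x * g) : g ∈ Cfsg.fittingSubgroup G := by
  classical
  haveI hF : (fittingSubgroup G).Normal := H01.fitting_normal
  haveI hG' := hG
  set F := fittingSubgroup G with hFdef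
  -- the element-of-prime-order centralizer
  let S : Set G := {x | x ∈ F ∧ (orderOf x).Prime}
  have hSc : ∀ g, ∀ y ∈ S, g * y * g⁻¹ ∈ S := by
    rintro a y ⟨hy, hy2⟩
    refine ⟨hF.conj_mem y hy a, ?_⟩
    rw [H18.orderOf_conj']
    exact hy2
  let C : Subgroup G := Subgroup.centralizer S
  have hCn : C.Normal := normal_centralizer_of_conj_closed S hSc
  have hgC : g ∈ C := by
    rw [Subgroup.mem_centralizer_iff]
    rintro y ⟨hy, hy2⟩
    exact (hg y hy hy2).symm
  -- elements of `C` of order coprime to `p` centralize `O_p(G)`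
  have hcent : ∀ (p : ℕ) [Fact p.Prime] (z : G), z ∈ C → (orderOf z).Coprime p →
      ∀ y ∈ pCore p G, z * y = y * z := by
    intro p _ z hz hzc y hy
    have hpp : p.Prime := Fact.out
    by_cases hp2 : p = 2
    · subst hp2
      have hle : pCore 2 G ≤ F := H01.pCore_le_fitting 2
      have hc : ¬ (2 ∣ Nat.card (pCore 2 G)) := by
        intro h
        have h1 := h.trans (Subgroup.card_dvd_of_le hle)
        exact (Nat.not_even_iff_odd.mpr hodd) (even_iff_two_dvd.mpr h1)
      have hbot : pCore 2 G = ⊥ := by
        have := (H01.pCore_isPGroup (G := G) 2)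
        obtain ⟨k, hk⟩ := IsPGroup.iff_card.mp this
        rcases k with _ | k
        · rw [pow_zero] at hk
          exact Subgroup.card_eq_one.mp hk
        · exact absurd (hk ▸ dvd_pow_self 2 (Nat.succ_ne_zero k)) hc
      rw [hbot, Subgroup.mem_bot] at hy
      rw [hy]; simp
    · have h1 := H13.centralizes_of_centralizes_omega hp2 (H01.pCore_isPGroup (G := G) p)
        (g := z) (by
          have := H01.pCore_normal (G := G) p
          rw [Subgroup.normalizer_eq_top]
          trivial) hzc (by
          intro x hx hxp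
          by_cases hx1 : x = 1
          · rw [hx1]; simp
          have h2 : orderOf x = p := orderOf_eq_prime hxp hx1
          have h3 : x ∈ S := ⟨H01.pCore_le_fitting p hx, by rw [h2]; exact hpp⟩
          exact ((Subgroup.mem_centralizer_iff.mp hz) x h3).symm)
      exact ((Subgroup.mem_centralizer_iff.mp h1) y hy).symm
  -- the subgroups `D q`
  let T : ℕ → Set G := fun q => {y | y ∈ F ∧ (orderOf y).Coprime q}
  have hTc : ∀ q, ∀ a, ∀ y ∈ T q, a * y * a⁻¹ ∈ T q := by
    rintro q a y ⟨hy, hy2⟩
    refine ⟨hF.conj_mem y hy a, ?_⟩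
    rw [H18.orderOf_conj']
    exact hy2
  let D : ℕ → Subgroup G := fun q => C ⊓ Subgroup.centralizer (T q)
  have hDn : ∀ q, (D q).Normal := fun q => by
    haveI := hCn
    haveI := normal_centralizer_of_conj_closed (T q) (hTc q)
    exact Subgroup.normal_inf_normal _ _
  -- `q`-elements of `C` lie in `D q`
  have hqD : ∀ (q : ℕ) [Fact q.Prime] (x : G) (k : ℕ), x ∈ C → x ^ q ^ k = 1 → x ∈ D q := by
    intro q _ x k hxC hxk
    refine ⟨hxC, ?_⟩
    show x ∈ Subgroup.centralizer (T q)
    rw [Subgroup.mem_centralizer_iff]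
    rintro y ⟨hyF, hyc⟩
    have hqp : q.Prime := Fact.out
    refine induct_pp (P := fun a => a * x = x * a) ?_ (by simp) _ y rfl ?_
    · intro a b ha hb
      calc a * b * x = a * (b * x) := by group
        _ = a * (x * b) := by rw [hb]
        _ = (a * x) * b := by group
        _ = (x * a) * b := by rw [ha]
        _ = x * (a * b) := by group
    · intro r j a hr haz haj
      haveI : Fact r.Prime := ⟨hr⟩
      by_cases ha1 : a = 1
      · rw [ha1]; simp
      have haF : a ∈ F := (Subgroup.zpowers_le.mpr hyF) haz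
      have hrq : r ≠ q := by
        rintro rfl
        have h1 : orderOf a ∣ r ^ j := orderOf_dvd_of_pow_eq_one haj
        obtain ⟨i, -, hi⟩ := (Nat.dvd_prime_pow hr).mp h1
        have h2 : orderOf a ≠ 1 := fun h => ha1 (orderOf_eq_one_iff.mp h)
        have h3 : r ∣ orderOf a := by
          rw [hi]
          apply dvd_pow_self
          rintro rfl
          exact h2 (by rw [hi]; simp)
        have h4 : r ∣ orderOf y := h3.trans (orderOf_dvd_of_mem_zpowers haz)
        exact hr.one_lt.ne' (Nat.eq_one_of_dvd_coprimes hyc h4 dvd_rfl)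
      have haO : a ∈ pCore r G := mem_pCore_of_mem_fitting haF haj
      have hxc : (orderOf x).Coprime r := by
        have h1 : orderOf x ∣ q ^ k := orderOf_dvd_of_pow_eq_one hxk
        apply Nat.Coprime.coprime_dvd_left h1
        apply Nat.Coprime.pow_left
        exact (Nat.coprime_primes hqp hr).mpr hrq.symm
      exact (hcent r x hxC hxc a haO).symm
  -- `q'`-elements of `D q` are central in `D q`
  have hcentral : ∀ (q : ℕ) [Fact q.Prime] (b : G), b ∈ D q → (orderOf b).Coprime q →
      ∀ w ∈ D q, w * b = b * w := by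
    intro q _ b hb hbc w hw
    have hbF : b ∈ F := by
      apply H01.centralizer_fitting_le
      rw [Subgroup.mem_centralizer_iff]
      intro y hy
      refine induct_pp (P := fun a => a * b = b * a) ?_ (by simp) _ y rfl ?_
      · intro a c ha hc
        calc a * c * b = a * (c * b) := by group
          _ = a * (b * c) := by rw [hc]
          _ = (a * b) * c := by group
          _ = (b * a) * c := by rw [ha]
          _ = b * (a * c) := by group
      · intro r j a hr haz haj
        haveI : Fact r.Prime := ⟨hr⟩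
        have hyF : y ∈ F := hy
        have haF : a ∈ F := (Subgroup.zpowers_le.mpr hyF) haz
        have haO : a ∈ pCore r G := mem_pCore_of_mem_fitting haF haj
        by_cases hrq : r = q
        · subst hrq
          exact (hcent r b hb.1 hbc a haO).symm
        · have hac : (orderOf a).Coprime q := by
            have h1 : orderOf a ∣ r ^ j := orderOf_dvd_of_pow_eq_one haj
            apply Nat.Coprime.coprime_dvd_left h1
            apply Nat.Coprime.pow_left
            exact (Nat.coprime_primes hr Fact.out).mpr hrq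
          exact (Subgroup.mem_centralizer_iff.mp hb.2) a ⟨haF, hac⟩
    exact ((Subgroup.mem_centralizer_iff.mp hw.2) b ⟨hbF, hbc⟩).symm
  -- `D q` is nilpotent
  have hnil : ∀ (q : ℕ) [Fact q.Prime], Group.IsNilpotent (D q) := by
    intro q _
    apply Group.of_quotient_center_nilpotent
    have hp : IsPGroup q ((D q) ⧸ Subgroup.center (D q)) := by
      intro w
      obtain ⟨w, rfl⟩ := QuotientGroup.mk'_surjective _ w
      obtain ⟨a, b, hab, hc, ha, hb, ha2, hb2⟩ := H19.exists_pi_decomp {q} w
      have hpow : orderOf a = q ^ (orderOf a).primeFactorsList.length :=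
        Nat.eq_prime_pow_of_unique_prime_dvd (orderOf_pos a).ne' (fun {d} hd hda => ha d hd hda)
      refine ⟨(orderOf a).primeFactorsList.length, ?_⟩
      rw [← map_pow, ← MonoidHom.mem_ker, QuotientGroup.ker_mk']
      rw [hab, hc.mul_pow, ← hpow, pow_orderOf_eq_one, one_mul]
      have hbc : (orderOf b).Coprime q := by
        rw [Nat.coprime_iff_gcd_eq_one]
        by_contra hne
        obtain ⟨p, hp, hpd⟩ := Nat.exists_prime_and_dvd hne
        have h1 := hb p hp (hpd.trans (Nat.gcd_dvd_left _ _))
        have h2 := (Nat.prime_dvd_prime_iff_eq hp Fact.out).mp (hpd.trans (Nat.gcd_dvd_right _ _))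
        exact h1 h2
      apply Subgroup.pow_mem
      rw [Subgroup.mem_center_iff]
      intro v
      apply Subtype.ext
      have hbo : orderOf (b : G) = orderOf b := Subgroup.orderOf_coe b
      exact hcentral q b b.2 (by rw [hbo]; exact hbc) v v.2
    exact hp.isNilpotent
  -- conclude
  refine induct_pp (P := fun a => a ∈ F) (fun a b => F.mul_mem) F.one_mem _ g rfl ?_
  intro r j a hr haz haj
  haveI : Fact r.Prime := ⟨hr⟩
  have haC : a ∈ C := (Subgroup.zpowers_le.mpr hgC) haz
  have haD : a ∈ D r := hqD r a j haC haj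
  exact H01.le_fitting (hDn r) (hnil r) haD

end Cfsg.Agent.S3785
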