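import Cfsg.Statements.S3790
import Mathlib
import Cfsg.Agent.Lib.H18.PLen

set_option autoImplicit false
open Cfsg

namespace Cfsg.Agent.S3790


open Subgroup Cfsg H18

universe u

theorem main_aux (p : ℕ) [hp : Fact p.Prime] : ∀ (r : ℕ) (G : Type u) [Group G] [Finite G], Group.IsSolvable G →
    ∀ (q : Fin r → ℕ), (∀ i, (q i).Prime ∧ q i ≠ p) →
    (∀ s : ℕ, s.Prime → s ∣ Nat.card G → s ≠ p → ∃ i, q i = s) →
    ∀ (l : Fin r → ℕ), (∀ i, PLengthLE (q i) (l i) G) → PLengthLE p (Finset.univ.prod fun i => 1 + l i) G := by
  intro r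
  induction r with
  | zero =>
    intro G _ _ _ q _ hcover l _
    rw [Fin.prod_univ_zero, pLengthLE_iff]
    apply reach_of_isPGroup
    have hc : Nat.card G = p ^ (Nat.card G).primeFactorsList.length := by
      apply Nat.eq_prime_pow_of_unique_prime_dvd Nat.card_pos.ne'
      intro d hd hdG
      by_contra hne
      obtain ⟨i, _⟩ := hcover d hd hdG hne
      exact i.elim0
    exact IsPGroup.of_card hc
  | succ r ih =>
    intro G _ _ hG q hq hcover l hl
    rw [Fin.prod_univ_castSucc, pLengthLE_iff]
    set q₀ := q (Fin.last r) with hq₀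
    haveI hq₀p : Fact q₀.Prime := ⟨(hq (Fin.last r)).1⟩
    have hq₀ne : q₀ ≠ p := (hq (Fin.last r)).2
    set M := Finset.univ.prod (fun i : Fin r => 1 + l i.castSucc) with hM
    -- sections with `q₀'` elements
    have hsec : ∀ (A B : Subgroup G) [(A.subgroupOf B).Normal], (∀ x ∈ B, ∃ m : ℕ, m.Coprime q₀ ∧ x ^ m ∈ A) →
        A ≤ B → Reach p M (⊤ : Subgroup (↥B ⧸ A.subgroupOf B)) := by
      intro A B _ hf hAB
      have hsolv : Group.IsSolvable (↥B ⧸ A.subgroupOf B) := inferInstance
      have hcop : ¬ q₀ ∣ Nat.card (↥B ⧸ A.subgroupOf B) := by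
        intro hdvd
        obtain ⟨y, hy⟩ := exists_prime_orderOf_dvd_card' q₀ hdvd
        obtain ⟨x, rfl⟩ := QuotientGroup.mk_surjective y
        obtain ⟨m, hm, hxm⟩ := hf x x.2
        have h3 : ((x : ↥B ⧸ A.subgroupOf B)) ^ m = 1 := by
          rw [← QuotientGroup.mk_pow, QuotientGroup.eq_one_iff]
          exact hxm
        have h5 : q₀ ∣ m := hy ▸ orderOf_dvd_of_pow_eq_one h3
        have h6 := Nat.Coprime.eq_one_of_dvd hm.symm h5
        exact hq₀p.out.ne_one h6
      have hcarddvd : Nat.card (↥B ⧸ A.subgroupOf B) ∣ Nat.card G := by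
        have h1 : Nat.card (↥B ⧸ A.subgroupOf B) ∣ Nat.card B := by
          rw [Subgroup.card_eq_card_quotient_mul_card_subgroup (A.subgroupOf B)]
          exact dvd_mul_right _ _
        exact h1.trans (Subgroup.card_subgroup_dvd_card B)
      have h1 := ih (↥B ⧸ A.subgroupOf B) hsolv (fun i => q i.castSucc) (fun i => hq _) (by
        intro s hs hsK hsp
        obtain ⟨i, hi⟩ := hcover s hs (hsK.trans hcarddvd) hsp
        induction i using Fin.lastCases with
        | last =>
          exfalso
          apply hcop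
          rw [hq₀, hi]
          exact hsK
        | cast j => exact ⟨j, hi⟩) (fun i => l i.castSucc) (fun i => by
          haveI : Fact (q i.castSucc).Prime := ⟨(hq _).1⟩
          rw [pLengthLE_iff]
          exact reach_top_section A B (pLengthLE_iff.1 (hl _)))
      exact pLengthLE_iff.1 h1
    have key : ∀ k : ℕ, Reach p ((1 + k) * M) (upperPSeries q₀ G (2 * k + 1)).1 := by
      intro k
      induction k with
      | zero =>
        have h1 : Reach p 0 (upperPSeries q₀ G 0).1 := Reach.bot 0
        haveI := upper_subgroupOf_normal (p := q₀) (G := G) 0 1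
        have h2 := reach_section (upper_le_succ 0) h1 (hsec _ _ (fun x hx => step_even (by simp) hx) (upper_le_succ 0))
        simpa using h2
      | succ k ih2 =>
        have hodd : ¬ Even (2 * k + 1) := by simp [Nat.even_add_one]
        have heven : Even (2 * k + 1 + 1) := by
          rw [Nat.even_add_one]; exact hodd
        have h1 : Reach p ((1 + k) * M) (upperPSeries q₀ G (2 * k + 1 + 1)).1 := by
          refine Reach.pp ih2 (upper_le_succ _) (upper_subgroupOf_normal _ _) ?_
          intro x hx
          obtain ⟨t, ht⟩ := step_odd hodd hx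
          refine ⟨q₀ ^ t, ?_, ht⟩
          apply Nat.Coprime.pow_left
          exact (Nat.coprime_primes hq₀p.out hp.out).2 hq₀ne
        haveI := upper_subgroupOf_normal (p := q₀) (G := G) (2 * k + 1 + 1) (2 * k + 1 + 1 + 1)
        have h2 := reach_section (upper_le_succ _) h1
          (hsec _ _ (fun x hx => step_even heven hx) (upper_le_succ _))
        have e : 2 * (k + 1) + 1 = 2 * k + 1 + 1 + 1 := by ring
        rw [e]
        have e2 : (1 + (k + 1)) * M = (1 + k) * M + M := by ring
        rw [e2]
        exact h2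
    have h1 := key (l (Fin.last r))
    have h2 : (upperPSeries q₀ G (2 * l (Fin.last r) + 1)).1 = ⊤ := hl (Fin.last r)
    rw [h2] at h1
    rw [mul_comm]
    exact h1


/-- Let G be a finite solvable group and p a prime. Suppose p₁, …, p_r are distinct primes, all different from p, that include every prime dividing the order of G other than p, and that G has p_i-length at most l_i for each i. Then G has p-length at most the product of the numbers 1 + l_i. -/
theorem result {G : Type*} [Group G] [Finite G] (hG : Group.IsSolvable G) (p : ℕ) [Fact p.Prime] (r : ℕ) (q : Fin r → ℕ) (hq : ∀ i, (q i).Prime ∧ q i ≠ p) (hinj : Function.Injective q) (hcover : ∀ s : ℕ, s.Prime → s ∣ Nat.card G → s ≠ p → ∃ i, q i = s) (l : Fin r → ℕ) (hl : ∀ i, Cfsg.PLengthLE (q i) (l i) G) : Cfsg.PLengthLE p (Finset.univ.prod fun i => 1 + l i) G := by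
  exact main_aux p r G hG q hq hcover l hl

end Cfsg.Agent.S3790
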