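import Cfsg.Statements.S3791
import Mathlib
import Cfsg.Agent.Lib.H03.PLength
import Cfsg.Agent.Lib.H18.PLen

set_option autoImplicit false
open Cfsg

namespace Cfsg.Agent.S3791


open Subgroup Cfsg H18

universe u

theorem derived_add_le {G : Type*} [Group G] (X : Subgroup G) (a b : ℕ) (h : derivedSeries G a ≤ X) :
    derivedSeries G (a + b) ≤ (derivedSeries X b).map X.subtype := by
  induction b with
  | zero =>
    simp only [add_zero, derivedSeries_zero]
    rw [← MonoidHom.range_eq_map, Subgroup.range_subtype]
    exact h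
  | succ b ih =>
    rw [← add_assoc, derivedSeries_succ, derivedSeries_succ, Subgroup.map_commutator]
    exact Subgroup.commutator_mono ih ih

theorem derived_sub_bot {G : Type*} [Group G] {Q P : Subgroup G} (hQP : Q ≤ P) (d : ℕ) (h : derivedSeries P d = ⊥) :
    derivedSeries Q d = ⊥ := by
  have h1 := map_derivedSeries_le_derivedSeries (Subgroup.inclusion hQP) d
  rw [h, le_bot_iff, Subgroup.map_eq_bot_iff_of_injective _ (Subgroup.inclusion_injective hQP)] at h1
  exact h1

theorem upper_all_bot {G : Type*} [Group G] [Finite G] {p : ℕ} [Fact p.Prime] (hK : pPrimeCore p G = ⊥)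
    (hQ : (upperPSeries p G 2).1 = ⊥) (j : ℕ) : (upperPSeries p G j).1 = ⊥ := by
  induction j with
  | zero => rfl
  | succ j ih =>
    haveI hn := (upperPSeries p G (j + 1)).2
    by_cases hj : Even j
    · have h1 : (upperPSeries p G (j + 1)).1 ≤ pPrimeCore p G := by
        apply le_sSup
        refine ⟨hn, ?_⟩
        rw [Nat.coprime_comm, Nat.Prime.coprime_iff_not_dvd Fact.out]
        intro hdvd
        obtain ⟨y, hy⟩ := exists_prime_orderOf_dvd_card' p hdvd
        obtain ⟨m, hm, hxm⟩ := step_even hj y.2
        rw [ih, Subgroup.mem_bot] at hxm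
        have h3 : y ^ m = 1 := Subtype.ext hxm
        have h5 : p ∣ m := hy ▸ orderOf_dvd_of_pow_eq_one h3
        have h6 := Nat.Coprime.eq_one_of_dvd hm.symm h5
        exact (Fact.out : p.Prime).ne_one h6
      rw [hK] at h1
      exact le_bot_iff.1 h1
    · have hpg : IsPGroup p (upperPSeries p G (j + 1)).1 := by
        intro y
        obtain ⟨t, ht⟩ := step_odd hj y.2
        rw [ih, Subgroup.mem_bot] at ht
        exact ⟨t, Subtype.ext ht⟩
      have hodd1 : ¬ Even 1 := by decide
      have h1 : (upperPSeries p G (j + 1)).1 ≤ (upperPSeries p G 2).1 := by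
        rw [show (2 : ℕ) = 1 + 1 from rfl, H03.upper_succ_odd hodd1, ← Subgroup.map_le_iff_le_comap]
        haveI := (upperPSeries p G 1).2
        apply H01.le_pCore
        · exact Subgroup.Normal.map hn _ (QuotientGroup.mk'_surjective _)
        · exact hpg.map _
      rw [hQ] at h1
      exact le_bot_iff.1 h1

theorem main_aux (r : ℕ) (q : Fin r → ℕ) (hq : ∀ i, (q i).Prime) (d : Fin r → ℕ) :
    ∀ (n : ℕ) (G : Type u) [Group G] [Finite G], Nat.card G = n → Group.IsSolvable G →
    (∀ s : ℕ, s.Prime → s ∣ Nat.card G → ∃ i, q i = s) →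
    (∀ i, ∀ P : Subgroup G, (haveI := Fact.mk (hq i); ∃ S : Sylow (q i) G, (S : Subgroup G) = P) → derivedSeries ↥P (d i) = ⊥) →
    ∀ (l : Fin r → ℕ), (∀ i, PLengthLE (q i) (l i) G) →
    derivedSeries G (Finset.univ.sum fun i => d i * l i) = ⊥ := by
  intro n
  induction n using Nat.strong_induction_on with
  | _ n ih =>
  intro G _ _ hn hG hcover hd l hl
  classical
  by_cases hnt : Nontrivial G
  swap
  · rw [not_nontrivial_iff_subsingleton] at hnt
    exact Subsingleton.elim _ _
  set m := Finset.univ.sum fun i => d i * l i with hm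
  -- quotient closure
  have hquo : ∀ (N : Subgroup G) [N.Normal], N ≠ ⊥ → ∀ l' : Fin r → ℕ, (∀ i, PLengthLE (q i) (l' i) (G ⧸ N)) →
      derivedSeries G (Finset.univ.sum fun i => d i * l' i) ≤ N := by
    intro N _ hN l' hl'
    have hlt : Nat.card (G ⧸ N) < n := by
      rw [← hn, Subgroup.card_eq_card_quotient_mul_card_subgroup N]
      have h1 : 1 < Nat.card N := by
        haveI : Nontrivial N := (Subgroup.nontrivial_iff_ne_bot N).2 hN
        exact Finite.one_lt_card
      have h2 : 0 < Nat.card (G ⧸ N) := Nat.card_pos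
      nlinarith
    have h1 := ih _ hlt (G ⧸ N) rfl inferInstance (by
      intro s hs hsd
      apply hcover s hs
      rw [Subgroup.card_eq_card_quotient_mul_card_subgroup N]
      exact hsd.trans (dvd_mul_right _ _)) (by
      intro i P hP
      haveI := Fact.mk (hq i)
      obtain ⟨S, rfl⟩ := hP
      obtain ⟨T, rfl⟩ := Sylow.mapSurjective_surjective (QuotientGroup.mk'_surjective N) (q i) S
      have hT := hd i T ⟨T, rfl⟩
      have hsurj : Function.Surjective ((QuotientGroup.mk' N).subgroupMap (T : Subgroup G)) :=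
        (QuotientGroup.mk' N).subgroupMap_surjective _
      have h3 := map_derivedSeries_eq hsurj (d i)
      rw [hT, Subgroup.map_bot] at h3
      exact h3.symm) l' hl'
    have h2 := map_derivedSeries_eq (QuotientGroup.mk'_surjective N) (Finset.univ.sum fun i => d i * l' i)
    rw [h1, Subgroup.map_eq_bot_iff, QuotientGroup.ker_mk'] at h2
    exact h2
  have hlq : ∀ (N : Subgroup G) [N.Normal] (i : Fin r), PLengthLE (q i) (l i) (G ⧸ N) := by
    intro N _ i
    haveI := Fact.mk (hq i)
    rw [pLengthLE_iff]
    have := (pLengthLE_iff.1 (hl i)).map (QuotientGroup.mk' N)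
    rwa [Subgroup.map_top_of_surjective _ (QuotientGroup.mk'_surjective N)] at this
  -- every prime core contains the derived term
  have hkey : ∀ i, derivedSeries G m ≤ pPrimeCore (q i) G := by
    intro i
    haveI hpi := Fact.mk (hq i)
    set p := q i with hp
    by_cases hK : pPrimeCore p G = ⊥
    swap
    · haveI : (pPrimeCore p G).Normal := Subgroup.sSup_normal _ (fun _ h => h.1)
      exact hquo _ hK l (hlq _)
    -- now `O_{p'}(G) = 1`
    rcases hli : l i with _ | l'
    · exfalso
      have h1 : (⊤ : Subgroup G) ≤ (upperPSeries p G 1).1 := by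
        have := le_upper (pLengthLE_iff.1 (hl i)) Subgroup.IsSubnormal.top
        rwa [hli] at this
      have h2 : (upperPSeries p G 1).1 ≤ pPrimeCore p G := by
        apply le_sSup
        refine ⟨(upperPSeries p G 1).2, ?_⟩
        rw [Nat.coprime_comm, Nat.Prime.coprime_iff_not_dvd hpi.out]
        intro hdvd
        obtain ⟨y, hy⟩ := exists_prime_orderOf_dvd_card' p hdvd
        obtain ⟨m', hm', hxm⟩ := step_even (j := 0) (by simp) y.2
        have hxm2 : y ^ m' = 1 := Subtype.ext hxm
        have h5 : p ∣ m' := hy ▸ orderOf_dvd_of_pow_eq_one hxm2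
        have h6 := Nat.Coprime.eq_one_of_dvd hm'.symm h5
        exact hpi.out.ne_one h6
      rw [hK] at h2
      have h3 := h1.trans h2
      rw [top_le_iff] at h3
      exact (top_ne_bot (α := Subgroup G)) h3.symm
    -- `Q = O_{p',p}(G)`
    set Q := (upperPSeries p G 2).1 with hQ
    haveI hQn : Q.Normal := (upperPSeries p G 2).2
    have hU1 : (upperPSeries p G 1).1 = ⊥ := by
      have h2 : (upperPSeries p G 1).1 ≤ pPrimeCore p G := by
        apply le_sSup
        refine ⟨(upperPSeries p G 1).2, ?_⟩
        rw [Nat.coprime_comm, Nat.Prime.coprime_iff_not_dvd hpi.out]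
        intro hdvd
        obtain ⟨y, hy⟩ := exists_prime_orderOf_dvd_card' p hdvd
        obtain ⟨m', hm', hxm⟩ := step_even (j := 0) (by simp) y.2
        have hxm2 : y ^ m' = 1 := Subtype.ext hxm
        have h5 : p ∣ m' := hy ▸ orderOf_dvd_of_pow_eq_one hxm2
        have h6 := Nat.Coprime.eq_one_of_dvd hm'.symm h5
        exact hpi.out.ne_one h6
      rw [hK] at h2
      exact le_bot_iff.1 h2
    have hQp : IsPGroup p Q := by
      intro y
      obtain ⟨t, ht⟩ := step_odd (j := 1) (by decide) y.2
      rw [hU1, Subgroup.mem_bot] at ht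
      exact ⟨t, Subtype.ext ht⟩
    have hQne : Q ≠ ⊥ := by
      intro h
      have h1 := upper_all_bot hK h (2 * l i + 1)
      have h2 : (upperPSeries p G (2 * l i + 1)).1 = ⊤ := hl i
      rw [h1] at h2
      exact (top_ne_bot (α := Subgroup G)) h2.symm
    -- the reduced length
    let l₁ : Fin r → ℕ := Function.update l i l'
    have hl₁ : ∀ j, PLengthLE (q j) (l₁ j) (G ⧸ Q) := by
      intro j
      by_cases hj : j = i
      · subst hj
        simp only [l₁, Function.update_self]
        have h1 := H03.upper_shift (p := p) Q hQ (2 * l' + 1)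
        have h2 : (upperPSeries p G (2 * l j + 1)).1 = ⊤ := hl j
        rw [hli] at h2
        have e : 2 * (l' + 1) + 1 = 2 * l' + 1 + 2 := by ring
        rw [e, h1] at h2
        have h3 : (upperPSeries p (G ⧸ Q) (2 * l' + 1)).1 = ⊤ := by
          rw [eq_top_iff]
          intro x _
          obtain ⟨y, rfl⟩ := QuotientGroup.mk'_surjective Q x
          have : y ∈ (upperPSeries p (G ⧸ Q) (2 * l' + 1)).1.comap (QuotientGroup.mk' Q) := by
            rw [h2]; trivial
          exact this
        exact h3
      · simp only [l₁, Function.update_of_ne hj]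
        exact hlq Q j
    have h4 := hquo Q hQne l₁ hl₁
    -- the sums
    have hsum : m = (Finset.univ.sum fun j => d j * l₁ j) + d i := by
      rw [hm, ← Finset.add_sum_erase _ _ (Finset.mem_univ i), ← Finset.add_sum_erase (Finset.univ) (fun j => d j * l₁ j) (Finset.mem_univ i)]
      have h5 : ∀ j ∈ Finset.univ.erase i, d j * l₁ j = d j * l j := by
        intro j hj
        simp only [l₁, Function.update_of_ne (Finset.ne_of_mem_erase hj)]
      rw [Finset.sum_congr rfl h5]
      simp only [l₁, Function.update_self, hli]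
      ring
    obtain ⟨P, hP⟩ := hQp.exists_le_sylow
    have hP2 := hd i P ⟨P, rfl⟩
    have h5 := derived_add_le Q _ (d i) h4
    rw [derived_sub_bot hP (d i) hP2, Subgroup.map_bot] at h5
    rw [hsum]
    exact h5.trans bot_le
  -- conclusion
  rw [eq_bot_iff]
  by_contra hne
  have hne' : derivedSeries G m ≠ ⊥ := fun h => hne h.le
  haveI : Nontrivial (derivedSeries G m) := (Subgroup.nontrivial_iff_ne_bot _).2 hne'
  obtain ⟨s, hs, hsd⟩ := Nat.exists_prime_and_dvd (Finite.one_lt_card (α := derivedSeries G m)).ne'
  obtain ⟨i, hi⟩ := hcover s hs (hsd.trans (Subgroup.card_subgroup_dvd_card _))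
  have h1 := Subgroup.card_dvd_of_le (hkey i)
  have h2 : (Nat.card (pPrimeCore (q i) G)).Coprime (q i) := H06.coprime_card_pPrimeCore _
  have h3 : s ∣ Nat.card (pPrimeCore (q i) G) := hsd.trans h1
  rw [← hi] at hs hsd
  have h4 := Nat.Coprime.eq_one_of_dvd h2.symm (hi ▸ h3)
  exact hs.ne_one h4


/-- The Hall–Higman bound on derived length: let G be a finite solvable group, let p₁, …, p_r be distinct primes that include every prime dividing the order of G, and suppose that for each i the Sylow p_i-subgroups of G have derived length at most d_i and G has p_i-length at most l_i. Then G has derived length at most Σ d_i l_i. -/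
theorem result {G : Type*} [Group G] [Finite G] (hG : Group.IsSolvable G) (r : ℕ) (q : Fin r → ℕ) (hq : ∀ i, (q i).Prime) (hinj : Function.Injective q) (hcover : ∀ s : ℕ, s.Prime → s ∣ Nat.card G → ∃ i, q i = s) (d l : Fin r → ℕ) (hd : ∀ i, ∀ P : Subgroup G, (haveI := Fact.mk (hq i); ∃ S : Sylow (q i) G, (S : Subgroup G) = P) → derivedSeries ↥P (d i) = ⊥) (hl : ∀ i, Cfsg.PLengthLE (q i) (l i) G) : derivedSeries G (Finset.univ.sum fun i => d i * l i) = ⊥ := by
  exact main_aux r q hq d _ G rfl hG hcover hd l hl

end Cfsg.Agent.S3791
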