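-- Gorenstein--Herstein: derived group nilpotent under a fixed-point-free automorphism of order four.
import Cfsg.Statements.S3794
import Cfsg.Agent.Lib.H01.Solv2
import Cfsg.Agent.Lib.H01.Fitting
import Cfsg.Agent.Lib.H02.SolvE
import Cfsg.Agent.Lib.H07.FStar
import Cfsg.Agent.Lib.H12.FStarAct
import Cfsg.Agent.Lib.H13.CharP2
import Mathlib

set_option autoImplicit false
set_option linter.unusedSimpArgs false
set_option linter.unusedVariables false
set_option linter.unusedSectionVars false
set_option linter.style.haveILetI false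
open Cfsg

namespace Cfsg.Agent.S3794

section Ops

variable {W : Type*} [AddCommGroup W]

theorem semisimple_step {p n : ℕ} (hW : ∀ w : W, p • w = 0) (hcop : n.Coprime p)
    (c : W →+ W) (hc : ∀ w, c^[n] w = w) (v : W) (h : c (c v - v) = c v - v) : c v = v := by
  set w := c v - v with hw
  have hcv : c v = v + w := by rw [hw]; abel
  have hpow : ∀ j : ℕ, c^[j] v = v + j • w := by
    intro j
    induction j with
    | zero => simp
    | succ j ih =>
      rw [Function.iterate_succ_apply', ih, map_add, map_nsmul, h, hcv, succ_nsmul]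
      abel
  have h1 := hpow n
  rw [hc] at h1
  have h2 : n • w = 0 := by
    have : v + n • w = v + 0 := by rw [← h1]; simp
    exact add_left_cancel this
  have h3 : w = 0 := by
    have hb := Nat.gcd_eq_gcd_ab n p
    rw [hcop] at hb
    have : ((1 : ℕ) : ℤ) • w = 0 := by
      rw [hb]
      rw [add_zsmul, mul_comm, mul_comm (p : ℤ), mul_zsmul, mul_zsmul]
      rw [natCast_zsmul, natCast_zsmul, h2, hW]
      simp
    simpa using this
  rw [hcv, h3, add_zero]

/-- The operator lemma. -/
theorem opK {p n : ℕ} (hW : ∀ w : W, p • w = 0) (h2 : ∀ w : W, w + w = 0 → w = 0)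
    (hcop : n.Coprime p) (hodd : Odd n)
    (a a' b b' σ : W →+ W)
    (haa' : ∀ w, a (a' w) = w) (ha'a : ∀ w, a' (a w) = w)
    (hbb' : ∀ w, b (b' w) = w) (hb'b : ∀ w, b' (b w) = w)
    (hab : ∀ w, b (a w) = a (b w))
    (hσa : ∀ w, σ (a w) = b (σ w)) (hσb : ∀ w, σ (b w) = a' (σ w))
    (hσ4 : ∀ w, σ (σ (σ (σ w))) = w) (hfix : ∀ w, σ w = w → w = 0)
    (hn : ∀ w, a^[n] w = w) : ∀ w, a w = w := by
  -- commutation rules
  have h1 : ∀ w, b (a' w) = a' (b w) := by
    intro w
    have : a (b (a' w)) = a (a' (b w)) := by rw [← hab, haa', haa']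
    have h3 := congrArg a' this
    rwa [ha'a, ha'a] at h3
  have h3 : ∀ w, b' (a w) = a (b' w) := by
    intro w
    have : b (b' (a w)) = b (a (b' w)) := by rw [hbb', hab, hbb']
    have h4 := congrArg b' this
    rwa [hb'b, hb'b] at h4
  have h4 : ∀ w, b' (a' w) = a' (b' w) := by
    intro w
    have : b (b' (a' w)) = b (a' (b' w)) := by rw [hbb', h1, hbb']
    have h5 := congrArg b' this
    rwa [hb'b, hb'b] at h5
  have hσa' : ∀ w, σ (a' w) = b' (σ w) := by
    intro w
    have : b (σ (a' w)) = b (b' (σ w)) := by rw [← hσa, haa', hbb']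
    have h5 := congrArg b' this
    rwa [hb'b, hb'b] at h5
  have hσb' : ∀ w, σ (b' w) = a (σ w) := by
    intro w
    have : a' (σ (b' w)) = a' (a (σ w)) := by rw [← hσb, hbb', ha'a]
    have h5 := congrArg a this
    rwa [haa', haa'] at h5
  -- the plus part
  have hplus : ∀ v, σ (σ v) = v → σ v = -v := by
    intro v hv
    have h5 : v + σ v = 0 := hfix _ (by rw [map_add, hv, add_comm])
    exact (eq_neg_of_add_eq_zero_left (by rw [add_comm]; exact h5))
  -- relation X
  have hX : ∀ v, σ (σ v) = v → a (a v) + a' (a' v) = b (b v) + b' (b' v) := by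
    intro v hv
    have hu : σ (σ (a (a v) + a' (a' v))) = a (a v) + a' (a' v) := by
      simp only [map_add, hσa, hσb, hσa', hσb', hv, h1, h3, h4, ha'a, haa', hab]
      abel
    have h5 := hplus _ hu
    have hsv := hplus v hv
    simp only [map_add, hσa, hσa', hsv, map_neg] at h5
    have h6 : -(b (b v) + b' (b' v)) = -(a (a v) + a' (a' v)) := by
      rw [← h5]; abel
    exact (neg_injective h6).symm
  have hY : ∀ v, σ (σ v) = v → a (b v) + a' (b' v) = a' (b v) + a (b' v) := by
    intro v hv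
    have hu : σ (σ (a (b v) + a' (b' v))) = a (b v) + a' (b' v) := by
      simp only [map_add, hσa, hσb, hσa', hσb', hv, h1, h3, h4, ha'a, haa', hab]
      abel
    have h5 := hplus _ hu
    have hsv := hplus v hv
    simp only [map_add, hσa, hσa', hσb, hσb', hsv, map_neg, h1, h3] at h5
    have h6 : -(a' (b v) + a (b' v)) = -(a (b v) + a' (b' v)) := by
      rw [← h5]; abel
    exact (neg_injective h6).symm
  -- the operators
  let s : W →+ W := a - a'
  let t : W →+ W := b - b'
  let d : W →+ W := a.comp a - AddMonoidHom.id W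
  have hs : ∀ x, s x = a x - a' x := fun x => rfl
  have ht : ∀ x, t x = b x - b' x := fun x => rfl
  have hd : ∀ x, d x = a (a x) - x := fun x => rfl
  have hds : ∀ x, d x = a (s x) := by
    intro x
    rw [hd, hs, map_sub, haa']
  have hsa : ∀ x, s (a x) = a (s x) := by
    intro x
    simp only [hs, map_sub, ha'a, haa']
  have hst : ∀ x, s (t x) = t (s x) := by
    intro x
    simp only [hs, ht, map_sub, hab, h1, h3, h4]
    abel
  have hd2 : ∀ x, d (d x) = a (a (s (s x))) := by
    intro x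
    rw [hds, hds, hsa]
  have hcn : ∀ w, (a.comp a)^[n] w = w := by
    intro w
    have hiter : ∀ k : ℕ, ∀ w, (a.comp a)^[k] w = a^[2 * k] w := by
      intro k
      induction k with
      | zero => intro w; simp
      | succ k ih =>
        intro w
        rw [Function.iterate_succ_apply', ih]
        rw [show 2 * (k + 1) = 2 * k + 1 + 1 by ring, Function.iterate_succ_apply',
          Function.iterate_succ_apply']
        rfl
    rw [hiter, mul_comm, Function.iterate_mul]
    exact Function.iterate_fixed (hn w) 2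
  have hss : ∀ x, d (d x) = 0 → d x = 0 := by
    intro x hx
    have hx' : (a.comp a) ((a.comp a) x - x) = (a.comp a) x - x := by
      have : d (d x) = (a.comp a) ((a.comp a) x - x) - ((a.comp a) x - x) := rfl
      rw [this] at hx
      exact sub_eq_zero.1 hx
    have := semisimple_step hW hcop (a.comp a) hcn x hx'
    rw [hd]
    exact sub_eq_zero.2 this
  -- on the plus part
  have hdplus : ∀ v, σ (σ v) = v → d v = 0 := by
    intro v hv
    have hX' := hX v hv
    have hY' := hY v hv
    have h5 : s (t v) = 0 := by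
      simp only [hs, ht, map_sub]
      have : a (b v) - a (b' v) - (a' (b v) - a' (b' v)) = (a (b v) + a' (b' v)) - (a' (b v) + a (b' v)) := by abel
      rw [this, hY', sub_self]
    have h6 : s (s v) = t (t v) := by
      simp only [hs, ht, map_sub, haa', ha'a, hbb', hb'b]
      have e1 : a (a v) - v - (v - a' (a' v)) = (a (a v) + a' (a' v)) - (v + v) := by abel
      have e2 : b (b v) - v - (v - b' (b' v)) = (b (b v) + b' (b' v)) - (v + v) := by abel
      rw [e1, e2, hX']
    have h7 : s (s (s (s v))) = 0 := by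
      rw [h6, hst (t v), h5, map_zero, map_zero]
    have h8 : d (d (d (d v))) = 0 := by
      rw [hd2 (d (d v)), hd2 v]
      simp only [hsa]
      rw [h7]
      simp
    exact hss v (hss (d v) (hss (d (d v)) h8))
  have hdminus : ∀ v, σ (σ v) = -v → d v = 0 := by
    intro v hv
    have h5 : σ (σ (s v)) = s v := by
      simp only [hs, map_sub, hσa, hσa', hσb, hσb', hv, map_neg]
      abel
    have h6 := hdplus _ h5
    rw [hds] at h6
    have h7 : s (s v) = 0 := by
      have := congrArg a' h6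
      rwa [ha'a, map_zero] at this
    apply hss
    rw [hd2, h7]
    simp
  have hdall : ∀ v, d v = 0 := by
    intro v
    have e1 : d (v + σ (σ v)) = 0 := hdplus _ (by
      simp only [map_add, hσ4]
      abel)
    have e2 : d (v - σ (σ v)) = 0 := hdminus _ (by
      simp only [map_sub, hσ4]
      abel)
    apply h2
    have : d v + d v = d (v + σ (σ v)) + d (v - σ (σ v)) := by
      simp only [map_add, map_sub]
      abel
    rw [this, e1, e2, add_zero]
  intro w
  have hc : ∀ x, a (a x) = x := fun x => by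
    have := hdall x
    rw [hd] at this
    exact sub_eq_zero.1 this
  obtain ⟨m, rfl⟩ := hodd
  have hit : ∀ k : ℕ, ∀ x, a^[2 * k] x = x := by
    intro k
    induction k with
    | zero => intro x; simp
    | succ k ih =>
      intro x
      rw [show 2 * (k + 1) = 2 * k + 1 + 1 by ring, Function.iterate_succ_apply',
        Function.iterate_succ_apply', ih, hc]
  have := hn w
  have e : a^[2 * m + 1] w = a (a^[2 * m] w) := Function.iterate_succ_apply' _ _ _
  rw [e, hit] at this
  exact this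

end Ops

section Grp

/-- Fixed-point-free automorphisms: the lifting of fixed points from quotients. -/
theorem lift_fix {Γ : Type*} [Group Γ] [Finite Γ] (σ : Γ ≃* Γ) (hfpf : ∀ g : Γ, σ g = g → g = 1)
    (M : Subgroup Γ) (hM : ∀ x ∈ M, σ x ∈ M) (x : Γ) (hx : x⁻¹ * σ x ∈ M) : x ∈ M := by
  let f : M → M := fun w => ⟨w.1⁻¹ * σ w.1, M.mul_mem (M.inv_mem w.2) (hM _ w.2)⟩
  have hf : Function.Injective f := by
    intro w w' h
    have h1 : w.1⁻¹ * σ w.1 = w'.1⁻¹ * σ w'.1 := congrArg Subtype.val h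
    have h2 : σ (w'.1 * w.1⁻¹) = w'.1 * w.1⁻¹ := by
      rw [map_mul, map_inv]
      have : w'.1 * w.1⁻¹ * σ w.1 = σ w'.1 := by
        calc w'.1 * w.1⁻¹ * σ w.1 = w'.1 * (w.1⁻¹ * σ w.1) := by group
          _ = w'.1 * (w'.1⁻¹ * σ w'.1) := by rw [h1]
          _ = σ w'.1 := by group
      rw [← this]; group
    have h3 := hfpf _ h2
    apply Subtype.ext
    have := mul_inv_eq_one.1 h3
    exact this.symm
  have hs := Finite.surjective_of_injective hf
  obtain ⟨w, hw⟩ := hs ⟨x⁻¹ * σ x, hx⟩
  have h1 : w.1⁻¹ * σ w.1 = x⁻¹ * σ x := congrArg Subtype.val hw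
  have h2 : σ (x * w.1⁻¹) = x * w.1⁻¹ := by
    rw [map_mul, map_inv]
    have : x * w.1⁻¹ * σ w.1 = σ x := by
      calc x * w.1⁻¹ * σ w.1 = x * (w.1⁻¹ * σ w.1) := by group
        _ = x * (x⁻¹ * σ x) := by rw [h1]
        _ = σ x := by group
    rw [← this]; group
  have h3 := hfpf _ h2
  have := mul_inv_eq_one.1 h3
  rw [this]
  exact w.2

/-- The automorphism induced on a quotient by an invariant normal subgroup. -/
noncomputable def qAut {Γ : Type*} [Group Γ] (σ : Γ ≃* Γ) (M : Subgroup Γ) [M.Normal]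
    (hM : M.map σ.toMonoidHom = M) : (Γ ⧸ M) ≃* (Γ ⧸ M) :=
  QuotientGroup.congr M M σ hM

theorem qAut_mk {Γ : Type*} [Group Γ] (σ : Γ ≃* Γ) (M : Subgroup Γ) [M.Normal]
    (hM : M.map σ.toMonoidHom = M) (x : Γ) :
    qAut σ M hM (x : Γ ⧸ M) = ((σ x : Γ) : Γ ⧸ M) := rfl

theorem map_eq_of_inv {Γ : Type*} [Group Γ] (σ : Γ ≃* Γ) (h4 : ∀ g, σ (σ (σ (σ g))) = g)
    (M : Subgroup Γ) (hM : ∀ x ∈ M, σ x ∈ M) : M.map σ.toMonoidHom = M := by
  apply le_antisymm
  · rintro _ ⟨x, hx, rfl⟩
    exact hM x hx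
  · intro x hx
    refine ⟨σ (σ (σ x)), hM _ (hM _ (hM _ hx)), ?_⟩
    exact h4 x

theorem qAut_fpf {Γ : Type*} [Group Γ] [Finite Γ] (σ : Γ ≃* Γ) (hfpf : ∀ g : Γ, σ g = g → g = 1)
    (M : Subgroup Γ) [M.Normal] (hM : M.map σ.toMonoidHom = M) :
    ∀ g, qAut σ M hM g = g → g = 1 := by
  intro g hg
  obtain ⟨x, rfl⟩ := QuotientGroup.mk_surjective g
  rw [qAut_mk] at hg
  have h1 : x⁻¹ * σ x ∈ M := by
    rw [← QuotientGroup.eq]
    exact hg.symm
  have h2 := lift_fix σ hfpf M (fun y hy => by
    rw [← hM]; exact ⟨y, hy, rfl⟩) x h1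
  exact (QuotientGroup.eq_one_iff x).2 h2

theorem qAut_four {Γ : Type*} [Group Γ] (σ : Γ ≃* Γ) (h4 : ∀ g, σ (σ (σ (σ g))) = g)
    (M : Subgroup Γ) [M.Normal] (hM : M.map σ.toMonoidHom = M) :
    ∀ g, qAut σ M hM (qAut σ M hM (qAut σ M hM (qAut σ M hM g))) = g := by
  intro g
  obtain ⟨x, rfl⟩ := QuotientGroup.mk_surjective g
  simp only [qAut_mk, h4]

/-- Commuting of `x` and `σ x` in nilpotent groups. -/
theorem comm_of_nil (N : Type*) [Group N] [Group.IsNilpotent N] :
    Finite N → ∀ σ : N ≃* N, (∀ g, σ (σ (σ (σ g))) = g) → (∀ g, σ g = g → g = 1) →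
      ∀ x : N, σ (σ x) = x⁻¹ → x * σ x = σ x * x := by
  refine Group.nilpotent_center_quotient_ind
    (P := fun N _ _ => Finite N → ∀ σ : N ≃* N, (∀ g, σ (σ (σ (σ g))) = g) → (∀ g, σ g = g → g = 1) →
      ∀ x : N, σ (σ x) = x⁻¹ → x * σ x = σ x * x) N ?_ ?_
  · intro N _ _ _ σ _ _ x _
    exact Subsingleton.elim _ _
  · intro N _ _ ih hfin σ h4 hfpf x hx
    have hM : (Subgroup.center N).map σ.toMonoidHom = Subgroup.center N :=
      (Subgroup.characteristic_iff_map_eq.1 inferInstance) σ
    have h1 := ih inferInstance (qAut σ (Subgroup.center N) hM) (qAut_four σ h4 _ hM)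
      (qAut_fpf σ hfpf _ hM) (x : N ⧸ Subgroup.center N) (by
        rw [qAut_mk, qAut_mk, hx]; rfl)
    rw [qAut_mk] at h1
    have h2 : (((σ x * x : N)) : N ⧸ Subgroup.center N) = ((x * σ x : N) : N ⧸ Subgroup.center N) := by
      rw [QuotientGroup.mk_mul, QuotientGroup.mk_mul]
      exact h1.symm
    have hc : (σ x * x)⁻¹ * (x * σ x) ∈ Subgroup.center N := QuotientGroup.eq.1 h2
    set c := (σ x * x)⁻¹ * (x * σ x) with hcdef
    have hccomm : ∀ g : N, g * c = c * g := fun g => (Subgroup.mem_center_iff.1 hc g)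
    have h3 : x * σ x = σ x * x * c := by rw [hcdef]; group
    have h5 : σ c = c := by
      have e1 : σ c = (x⁻¹ * σ x)⁻¹ * (σ x * x⁻¹) := by
        rw [hcdef]
        simp only [map_mul, map_inv, hx]
      rw [e1]
      have e2 : (σ x)⁻¹ * x * σ x = x * c := by
        calc (σ x)⁻¹ * x * σ x = (σ x)⁻¹ * (x * σ x) := by group
          _ = (σ x)⁻¹ * (σ x * x * c) := by rw [h3]
          _ = x * c := by group
      calc (x⁻¹ * σ x)⁻¹ * (σ x * x⁻¹) = (σ x)⁻¹ * x * σ x * x⁻¹ := by group
        _ = x * c * x⁻¹ := by rw [e2]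
        _ = c * x * x⁻¹ := by rw [hccomm x]
        _ = c := by group
    have h6 := hfpf c h5
    rw [h3, h6, mul_one]

/-- The order of a group with a fixed-point-free automorphism of `2`-power order is odd. -/
theorem odd_card {Γ : Type*} [Group Γ] [Finite Γ] (σ : Γ ≃* Γ) (h4 : ∀ g, σ (σ (σ (σ g))) = g)
    (hfpf : ∀ g : Γ, σ g = g → g = 1) : Odd (Nat.card Γ) := by
  classical
  haveI := Fintype.ofFinite Γ
  haveI : Fact (Nat.Prime 2) := ⟨Nat.prime_two⟩
  let f : Function.End Γ := fun g => σ g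
  have hf : f ^ 2 ^ 2 = 1 := by
    norm_num [pow_succ]
    funext g
    exact h4 g
  have h := Equiv.Perm.card_fixedPoints_modEq hf
  have h1 : ∀ inst : Fintype f.fixedPoints, @Fintype.card _ inst = 1 := by
    intro inst
    rw [Fintype.card_eq_one_iff]
    refine ⟨⟨1, ?_⟩, ?_⟩
    · exact map_one σ
    · rintro ⟨g, hg⟩
      apply Subtype.ext
      exact hfpf g hg
  rw [h1, Nat.ModEq] at h
  rw [Nat.card_eq_fintype_card, Nat.odd_iff]
  exact h

/-- Elements inverted: the involutory case. -/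
theorem comm_of_inv {Γ : Type*} [Group Γ] [Finite Γ] (s : Γ ≃* Γ) (h2 : ∀ g, s (s g) = g)
    (hfpf : ∀ g : Γ, s g = g → g = 1) (a b : Γ) : a * b = b * a := by
  let f : Γ → Γ := fun x => x⁻¹ * s x
  have hf : Function.Injective f := by
    intro x y h
    have h1 : x⁻¹ * s x = y⁻¹ * s y := h
    have h3 : s (y * x⁻¹) = y * x⁻¹ := by
      rw [map_mul, map_inv]
      have : y * x⁻¹ * s x = s y := by
        calc y * x⁻¹ * s x = y * (x⁻¹ * s x) := by group
          _ = y * (y⁻¹ * s y) := by rw [h1]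
          _ = s y := by group
      rw [← this]; group
    have h5 := hfpf _ h3
    exact (mul_inv_eq_one.1 h5).symm
  have hs := Finite.surjective_of_injective hf
  have hinv : ∀ y, s y = y⁻¹ := by
    intro y
    obtain ⟨x, rfl⟩ := hs y
    show s (x⁻¹ * s x) = (x⁻¹ * s x)⁻¹
    rw [map_mul, map_inv, h2]
    group
  have h1 := hinv (a * b)
  rw [map_mul, hinv, hinv, mul_inv_rev] at h1
  have h3 : (b * a)⁻¹ = (a * b)⁻¹ := by
    rw [mul_inv_rev, mul_inv_rev, h1]
  exact (inv_injective h3).symm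

end Grp

section Step

variable {G : Type*} [Group G] [Finite G]

/-- The conjugation action on the additive version of a normal abelian subgroup. -/
noncomputable def conjV (V : Subgroup G) [hV : V.Normal] [CommGroup V]
    (hmul : ∀ u v : V, ((u * v : V) : G) = (u : G) * (v : G)) (g : G) : Additive V →+ Additive V :=
  AddMonoidHom.mk' (fun w => Additive.ofMul ⟨g * (Additive.toMul w : V).1 * g⁻¹,
      hV.conj_mem _ (Additive.toMul w : V).2 g⟩) (by
    intro x y
    apply Additive.toMul.injective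
    apply Subtype.ext
    show g * ((Additive.toMul x * Additive.toMul y : V) : G) * g⁻¹ =
      ((⟨g * (Additive.toMul x : V).1 * g⁻¹, _⟩ * ⟨g * (Additive.toMul y : V).1 * g⁻¹, _⟩ : V) : G)
    rw [hmul, hmul]
    group)

/-- The operator lemma, read inside a group. -/
theorem op_V (V : Subgroup G) [hV : V.Normal] (hcomm : ∀ u ∈ V, ∀ v ∈ V, u * v = v * u) (p : ℕ)
    (hp : ∀ v ∈ V, v ^ p = 1) (hinv2 : ∀ v ∈ V, v * v = 1 → v = 1)
    (σ : G ≃* G) (h4 : ∀ g, σ (σ (σ (σ g))) = g) (hfpf : ∀ g : G, σ g = g → g = 1)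
    (hσV : ∀ v ∈ V, σ v ∈ V) (n : ℕ) (hcop : n.Coprime p) (hn : Odd n) (x : G)
    (hab : ∀ v ∈ V, σ x * (x * v * x⁻¹) * (σ x)⁻¹ = x * (σ x * v * (σ x)⁻¹) * x⁻¹)
    (hσσx : ∀ v ∈ V, σ (σ x) * v * (σ (σ x))⁻¹ = x⁻¹ * v * x)
    (hxn : ∀ v ∈ V, x ^ n * v * (x ^ n)⁻¹ = v) : ∀ v ∈ V, x * v * x⁻¹ = v := by
  letI inst : CommGroup V :=
    { (inferInstance : Group V) with mul_comm := fun a b => Subtype.ext (hcomm a a.2 b b.2) }
  have hmul : ∀ u v : V, ((u * v : V) : G) = (u : G) * (v : G) := fun u v => rfl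
  let conj : G → (Additive V →+ Additive V) := conjV V hmul
  have hconj : ∀ (g : G) (w : Additive V), ((Additive.toMul (conj g w) : V) : G) =
      g * (Additive.toMul w : V).1 * g⁻¹ := fun g w => rfl
  let sg : Additive V →+ Additive V :=
    AddMonoidHom.mk' (fun w => Additive.ofMul ⟨σ (Additive.toMul w : V).1,
        hσV _ (Additive.toMul w : V).2⟩) (by
      intro a b
      apply Additive.toMul.injective
      apply Subtype.ext
      show σ ((Additive.toMul a * Additive.toMul b : V) : G) =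
        ((⟨σ (Additive.toMul a : V).1, _⟩ * ⟨σ (Additive.toMul b : V).1, _⟩ : V) : G)
      rw [hmul, hmul]
      exact map_mul _ _ _)
  have hsg : ∀ w : Additive V, ((Additive.toMul (sg w) : V) : G) = σ (Additive.toMul w : V).1 :=
    fun w => rfl
  have extW : ∀ u v : Additive V, ((Additive.toMul u : V) : G) = ((Additive.toMul v : V) : G) →
      u = v := fun u v h => Additive.toMul.injective (Subtype.ext h)
  have hzero : ((Additive.toMul (0 : Additive V) : V) : G) = 1 := rfl
  have hadd : ∀ u v : Additive V, ((Additive.toMul (u + v) : V) : G) =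
      (Additive.toMul u : V).1 * (Additive.toMul v : V).1 := fun u v => rfl
  have hnsmul : ∀ (k : ℕ) (u : Additive V), ((Additive.toMul (k • u) : V) : G) =
      (Additive.toMul u : V).1 ^ k := by
    intro k u
    induction k with
    | zero => simp [hzero]
    | succ k ih => rw [succ_nsmul, hadd, ih, pow_succ]
  have key := opK (W := Additive V) (p := p) (n := n)
    (fun w => extW _ _ (by rw [hnsmul, hzero]; exact hp _ (Additive.toMul w : V).2))
    (fun w hw => extW _ _ (by
      rw [hzero]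
      apply hinv2 _ (Additive.toMul w : V).2
      have := congrArg (fun u : Additive V => ((Additive.toMul u : V) : G)) hw
      simpa only [hadd, hzero] using this))
    hcop hn (conj x) (conj x⁻¹) (conj (σ x)) (conj (σ x)⁻¹) sg
    (fun w => extW _ _ (by simp only [hconj]; group))
    (fun w => extW _ _ (by simp only [hconj]; group))
    (fun w => extW _ _ (by simp only [hconj]; group))
    (fun w => extW _ _ (by simp only [hconj]; group))
    (fun w => extW _ _ (by
      simp only [hconj]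
      exact hab _ (Additive.toMul w : V).2))
    (fun w => extW _ _ (by
      simp only [hconj, hsg, map_mul, map_inv]))
    (fun w => extW _ _ (by
      simp only [hconj, hsg, map_mul, map_inv]
      have := hσσx _ (hσV _ (Additive.toMul w : V).2)
      rw [this]
      group))
    (fun w => extW _ _ (by
      simp only [hsg]
      exact h4 _))
    (fun w hw => extW _ _ (by
      rw [hzero]
      apply hfpf
      have := congrArg (fun u : Additive V => ((Additive.toMul u : V) : G)) hw
      simpa only [hsg] using this))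
    (fun w => extW _ _ (by
      have hit : ∀ k : ℕ, ((Additive.toMul ((conj x)^[k] w) : V) : G) =
          x ^ k * (Additive.toMul w : V).1 * (x ^ k)⁻¹ := by
        intro k
        induction k with
        | zero => simp
        | succ k ih =>
          rw [Function.iterate_succ_apply', hconj, ih, pow_succ']
          group
      rw [hit]
      exact hxn _ (Additive.toMul w : V).2))
  intro v hv
  have := key (Additive.ofMul ⟨v, hv⟩)
  have h2 := congrArg (fun u : Additive V => ((Additive.toMul u : V) : G)) this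
  exact h2

/-- The key step: a minimal invariant normal elementary abelian subgroup is centralized by `G′`. -/
theorem main_step (hG : Group.IsSolvable G) (σ : G ≃* G) (h4 : ∀ g, σ (σ (σ (σ g))) = g)
    (hfpf : ∀ g : G, σ g = g → g = 1)
    (V : Subgroup G) [hVn : V.Normal] (hσV : ∀ v ∈ V, σ v ∈ V) (p : ℕ) [hpp : Fact p.Prime]
    (hp : ∀ v ∈ V, v ^ p = 1) (hcomm : ∀ u ∈ V, ∀ v ∈ V, u * v = v * u) (hne : V ≠ ⊥)
    (hmin : ∀ W : Subgroup G, W ≤ V → W.Normal → (∀ x ∈ W, σ x ∈ W) → W ≠ ⊥ → W = V) :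
    commutator G ≤ Subgroup.centralizer (V : Set G) := by
  classical
  set C := Subgroup.centralizer (V : Set G) with hC
  haveI hCn : C.Normal := Cfsg.Agent.H01.centralizer_normal hVn
  have hσ3 : ∀ v ∈ V, ∃ u ∈ V, σ u = v :=
    fun v hv => ⟨σ (σ (σ v)), hσV _ (hσV _ (hσV _ hv)), h4 v⟩
  have hσC : ∀ c ∈ C, σ c ∈ C := by
    intro c hc
    rw [hC, Subgroup.mem_centralizer_iff] at hc ⊢
    intro v hv
    obtain ⟨u, hu, rfl⟩ := hσ3 v hv
    rw [← map_mul, ← map_mul, hc u hu]
  have hCmap : C.map σ.toMonoidHom = C := map_eq_of_inv σ h4 C hσC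
  let s : (G ⧸ C) ≃* (G ⧸ C) := qAut σ C hCmap
  have hs4 : ∀ g, s (s (s (s g))) = g := qAut_four σ h4 C hCmap
  have hsfpf : ∀ g, s g = g → g = 1 := qAut_fpf σ hfpf C hCmap
  have hs_mk : ∀ x : G, s (x : G ⧸ C) = ((σ x : G) : G ⧸ C) := fun x => rfl
  have hodd : Odd (Nat.card G) := odd_card σ h4 hfpf
  have hQodd : Odd (Nat.card (G ⧸ C)) := odd_card s hs4 hsfpf
  have hinv2 : ∀ v ∈ V, v * v = 1 → v = 1 := by
    intro v _ h
    have h1 : orderOf v ∣ 2 := orderOf_dvd_of_pow_eq_one (by rw [pow_two, h])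
    have h2 : orderOf v ∣ Nat.card G := orderOf_dvd_natCard v
    have h3 : Nat.Coprime 2 (Nat.card G) := Nat.coprime_two_left.2 hodd
    have h5 : orderOf v ∣ 1 := by
      have := Nat.dvd_gcd h1 h2
      rwa [h3] at this
    exact orderOf_eq_one_iff.1 (Nat.dvd_one.1 h5)
  have hconjC : ∀ c ∈ C, ∀ v ∈ V, c * v * c⁻¹ = v := by
    intro c hc v hv
    rw [hC, Subgroup.mem_centralizer_iff] at hc
    rw [← hc v hv]
    group
  -- (A) the `p`-core of the quotient is trivial
  have hO : Cfsg.pCore p (G ⧸ C) = ⊥ := by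
    let mk : G →* G ⧸ C := QuotientGroup.mk' C
    have hPn : (Cfsg.pCore p (G ⧸ C)).Normal := Cfsg.Agent.H01.pCore_normal p
    let R : Subgroup G := (Cfsg.pCore p (G ⧸ C)).comap mk
    have hRn : R.Normal := hPn.comap mk
    have hchar : (Cfsg.pCore p (G ⧸ C)).Characteristic :=
      Cfsg.Agent.H12.pCore_characteristic (G ⧸ C)
    have hRσ : ∀ r ∈ R, σ r ∈ R := by
      intro r hr
      show mk (σ r) ∈ Cfsg.pCore p (G ⧸ C)
      have h1 : mk (σ r) = s (mk r) := rfl
      rw [h1]
      have h2 : (Cfsg.pCore p (G ⧸ C)).comap s.toMonoidHom = Cfsg.pCore p (G ⧸ C) := hchar.fixed s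
      have h3 : mk r ∈ (Cfsg.pCore p (G ⧸ C)).comap s.toMonoidHom := by
        rw [h2]; exact hr
      exact h3
    have hVp : IsPGroup p V := by
      intro v
      refine ⟨1, ?_⟩
      apply Subtype.ext
      simpa using hp v.1 v.2
    obtain ⟨S⟩ : Nonempty (Sylow p G) := inferInstance
    have hVS : V ≤ S := hVp.le_sylow_of_normal S
    have hSnorm : (S : Subgroup G) ≤ Subgroup.normalizer (V : Set G) := by
      intro x _
      rw [Subgroup.mem_normalizer_iff]
      intro h
      constructor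
      · intro hh; exact hVn.conj_mem h hh x
      · intro hh
        have := hVn.conj_mem _ hh x⁻¹
        simpa [mul_assoc] using this
    have hz := Cfsg.Agent.H13.inf_center_ne_bot_of_pgroup S.isPGroup' hVS hne hSnorm
    obtain ⟨⟨z, hz⟩, hz1⟩ := Subgroup.ne_bot_iff_exists_ne_one.1 hz
    have hz1' : z ≠ 1 := fun h => hz1 (Subtype.ext h)
    have hzV : z ∈ V := hz.1
    have hzS : z ∈ Subgroup.centralizer ((S : Subgroup G) : Set G) := hz.2.2
    let S' : Sylow p (G ⧸ C) := S.mapSurjective (QuotientGroup.mk'_surjective C)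
    have hPS : Cfsg.pCore p (G ⧸ C) ≤ S' := Cfsg.Agent.H01.pCore_le_sylow p S'
    -- `z` commutes with `R`
    have hzR : z ∈ Subgroup.centralizer (R : Set G) := by
      rw [Subgroup.mem_centralizer_iff]
      intro r hr
      have h1 : mk r ∈ (S' : Subgroup (G ⧸ C)) := hPS hr
      obtain ⟨t, ht, hte⟩ : ∃ t ∈ (S : Subgroup G), mk t = mk r := h1
      have hc : t⁻¹ * r ∈ C := QuotientGroup.eq.1 hte
      have h2 : r = t * (t⁻¹ * r) := by group
      rw [h2]
      have h3 := (Subgroup.mem_centralizer_iff.1 hzS) t ht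
      have h4' : (t⁻¹ * r) * z = z * (t⁻¹ * r) :=
        ((Subgroup.mem_centralizer_iff.1 hc) z hzV).symm
      calc t * (t⁻¹ * r) * z = t * ((t⁻¹ * r) * z) := by group
        _ = t * (z * (t⁻¹ * r)) := by rw [h4']
        _ = (t * z) * (t⁻¹ * r) := by group
        _ = (z * t) * (t⁻¹ * r) := by rw [← h3]
        _ = z * (t * (t⁻¹ * r)) := by group
    have hV0n : (V ⊓ Subgroup.centralizer (R : Set G)).Normal := by
      haveI := Cfsg.Agent.H01.centralizer_normal hRn
      infer_instance
    have hV0 : V ⊓ Subgroup.centralizer (R : Set G) = V := by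
      refine hmin _ inf_le_left hV0n ?_ ?_
      · rintro x ⟨hx1, hx2⟩
        refine ⟨hσV x hx1, ?_⟩
        have hx2' : x ∈ Subgroup.centralizer (R : Set G) := hx2
        show σ x ∈ Subgroup.centralizer (R : Set G)
        rw [Subgroup.mem_centralizer_iff] at hx2' ⊢
        intro r hr
        have h3r : σ (σ (σ r)) ∈ R := hRσ _ (hRσ _ (hRσ _ hr))
        have h5 := hx2' _ h3r
        have h6 := congrArg σ h5
        rwa [map_mul, map_mul, h4] at h6
      · intro h0
        apply hz1'
        have : z ∈ V ⊓ Subgroup.centralizer (R : Set G) := ⟨hzV, hzR⟩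
        rw [h0] at this
        simpa using this
    have hRC : R ≤ C := by
      intro r hr
      rw [hC, Subgroup.mem_centralizer_iff]
      intro v hv
      have h1 : v ∈ V ⊓ Subgroup.centralizer (R : Set G) := by rw [hV0]; exact hv
      exact ((Subgroup.mem_centralizer_iff.1 h1.2) r hr).symm
    rw [eq_bot_iff]
    intro y hy
    obtain ⟨r, rfl⟩ := QuotientGroup.mk_surjective y
    have h1 : r ∈ R := hy
    have h2 := hRC h1
    rw [Subgroup.mem_bot]
    exact (QuotientGroup.eq_one_iff r).2 h2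
  -- (B) on the Fitting subgroup `s` is an involution
  have hfit : ∀ y ∈ Cfsg.fittingSubgroup (G ⧸ C), s (s y) = y := by
    intro y hy
    have hchar : (Cfsg.fittingSubgroup (G ⧸ C)).Characteristic :=
      Cfsg.Agent.H07.fitting_characteristic (G ⧸ C)
    have hF : ∀ w ∈ Cfsg.fittingSubgroup (G ⧸ C), s w ∈ Cfsg.fittingSubgroup (G ⧸ C) := by
      intro w hw
      have h2 : (Cfsg.fittingSubgroup (G ⧸ C)).comap s.toMonoidHom = Cfsg.fittingSubgroup (G ⧸ C) :=
        hchar.fixed s
      have h3 : w ∈ (Cfsg.fittingSubgroup (G ⧸ C)).comap s.toMonoidHom := by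
        rw [h2]; exact hw
      exact h3
    set u := y⁻¹ * s (s y) with hu
    have huF : u ∈ Cfsg.fittingSubgroup (G ⧸ C) :=
      Subgroup.mul_mem _ (Subgroup.inv_mem _ hy) (hF _ (hF _ hy))
    have hssu : s (s u) = u⁻¹ := by
      rw [hu]
      simp only [map_mul, map_inv, hs4]
      group
    let sF : Cfsg.fittingSubgroup (G ⧸ C) ≃* Cfsg.fittingSubgroup (G ⧸ C) :=
      { toFun := fun w => ⟨s w.1, hF _ w.2⟩
        invFun := fun w => ⟨s (s (s w.1)), hF _ (hF _ (hF _ w.2))⟩
        left_inv := fun w => Subtype.ext (hs4 _)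
        right_inv := fun w => Subtype.ext (hs4 _)
        map_mul' := fun a b => Subtype.ext (map_mul s _ _) }
    haveI := Cfsg.Agent.H01.fitting_nilpotent (G := G ⧸ C)
    have hcm := comm_of_nil (Cfsg.fittingSubgroup (G ⧸ C)) inferInstance sF
      (fun g => Subtype.ext (hs4 _))
      (fun g hg => Subtype.ext (hsfpf _ (congrArg Subtype.val hg)))
      ⟨u, huF⟩ (Subtype.ext hssu)
    have hcm' : u * s u = s u * u := congrArg Subtype.val hcm
    obtain ⟨x, hx⟩ := QuotientGroup.mk_surjective u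
    have hnc : (orderOf u).Coprime p := Cfsg.Agent.H12.coprime_of_mem_fitting hO huF
    have hnodd : Odd (orderOf u) := Odd.of_dvd_nat hQodd (orderOf_dvd_natCard u)
    have key := op_V V hcomm p hp hinv2 σ h4 hfpf hσV (orderOf u) hnc hnodd x ?_ ?_ ?_
    · have hxC : x ∈ C := by
        rw [hC, Subgroup.mem_centralizer_iff]
        intro v hv
        calc v * x = (x * v * x⁻¹) * x := by rw [key v hv]
          _ = x * v := by group
      have hu1 : u = 1 := by
        rw [← hx]
        exact (QuotientGroup.eq_one_iff x).2 hxC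
      have := hu ▸ hu1
      exact (inv_mul_eq_one.1 this).symm
    · -- `x` and `σ x` act commutingly
      intro v hv
      rw [← hx, hs_mk] at hcm'
      have h1 : (((σ x * x : G)) : G ⧸ C) = ((x * σ x : G) : G ⧸ C) := hcm'.symm
      have hc : (σ x * x)⁻¹ * (x * σ x) ∈ C := QuotientGroup.eq.1 h1
      have h2 := hconjC _ hc v hv
      have h3 : x * σ x = σ x * x * ((σ x * x)⁻¹ * (x * σ x)) := by group
      calc σ x * (x * v * x⁻¹) * (σ x)⁻¹ = (σ x * x) * v * (σ x * x)⁻¹ := by group
        _ = (σ x * x) * (((σ x * x)⁻¹ * (x * σ x)) * v * ((σ x * x)⁻¹ * (x * σ x))⁻¹) * (σ x * x)⁻¹ := by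
            rw [h2]
        _ = x * (σ x * v * (σ x)⁻¹) * x⁻¹ := by group
    · intro v hv
      have h1 : ((x * σ (σ x) : G) : G ⧸ C) = 1 := by
        have e1 : ((x * σ (σ x) : G) : G ⧸ C) = u * s (s u) := by
          rw [← hx]; rfl
        rw [e1, hssu, mul_inv_cancel]
      have hc : x * σ (σ x) ∈ C := (QuotientGroup.eq_one_iff _).1 h1
      have h2 := hconjC _ hc v hv
      calc σ (σ x) * v * (σ (σ x))⁻¹ = x⁻¹ * ((x * σ (σ x)) * v * (x * σ (σ x))⁻¹) * x := by group
        _ = x⁻¹ * v * x := by rw [h2]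
    · intro v hv
      have h1 : ((x ^ orderOf u : G) : G ⧸ C) = 1 := by
        have e1 : ((x ^ orderOf u : G) : G ⧸ C) = u ^ orderOf u := by
          rw [← hx]; rfl
        rw [e1, pow_orderOf_eq_one]
      exact hconjC _ ((QuotientGroup.eq_one_iff _).1 h1) v hv
  -- (C) `s` is an involution
  haveI hQsolv : Group.IsSolvable (G ⧸ C) := by
    haveI := hG
    infer_instance
  have hss : s.trans s = MulEquiv.refl (G ⧸ C) := by
    apply Cfsg.Agent.H02.eq_refl_of_fix_fitting (s.trans s) (fun y hy => hfit y hy)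
    have h1 : orderOf (s.trans s : MulAut (G ⧸ C)) ∣ 2 := by
      apply orderOf_dvd_of_pow_eq_one
      ext g
      exact hs4 g
    have h3 : Nat.Coprime 2 (Nat.card (G ⧸ C)) := Nat.coprime_two_left.2 hQodd
    exact Nat.Coprime.coprime_dvd_left h1 h3
  have hss' : ∀ g, s (s g) = g := fun g => by
    have := congrArg (fun f : (G ⧸ C) ≃* (G ⧸ C) => f g) hss
    exact this
  -- (D) the quotient is abelian
  rw [commutator_def, Subgroup.commutator_le]
  intro a _ b _
  have hcm := comm_of_inv s hss' hsfpf (a : G ⧸ C) (b : G ⧸ C)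
  apply (QuotientGroup.eq_one_iff _).1
  rw [commutatorElement_def, QuotientGroup.mk_mul, QuotientGroup.mk_mul, QuotientGroup.mk_mul,
    QuotientGroup.mk_inv, QuotientGroup.mk_inv, hcm]
  group

/-- Existence of a minimal invariant normal subgroup. -/
theorem exists_min (hG : Group.IsSolvable G) (σ : G ≃* G) (h4 : ∀ g, σ (σ (σ (σ g))) = g)
    (hnt : Nontrivial G) :
    ∃ (V : Subgroup G) (p : ℕ), p.Prime ∧ V.Normal ∧ (∀ v ∈ V, σ v ∈ V) ∧ (∀ v ∈ V, v ^ p = 1) ∧
      (∀ u ∈ V, ∀ v ∈ V, u * v = v * u) ∧ V ≠ ⊥ ∧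
      (∀ W : Subgroup G, W ≤ V → W.Normal → (∀ x ∈ W, σ x ∈ W) → W ≠ ⊥ → W = V) := by
  classical
  let S : Set (Subgroup G) := {W | W.Normal ∧ (∀ x ∈ W, σ x ∈ W) ∧ W ≠ ⊥}
  have hSne : S.Nonempty := ⟨⊤, inferInstance, fun _ _ => trivial, top_ne_bot⟩
  obtain ⟨V, hVmin⟩ := Set.Finite.exists_minimal (Set.toFinite S) hSne
  have hVS : V ∈ S := hVmin.prop
  obtain ⟨hVn, hVσ, hVne⟩ := hVS
  have hmin : ∀ W : Subgroup G, W ≤ V → W.Normal → (∀ x ∈ W, σ x ∈ W) → W ≠ ⊥ → W = V := by
    intro W hWV hWn hWσ hWne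
    have hWS : W ∈ S := ⟨hWn, hWσ, hWne⟩
    exact le_antisymm hWV (hVmin.le_of_le hWS hWV)
  -- abelian
  have hVmap : V.map σ.toMonoidHom = V := map_eq_of_inv σ h4 V hVσ
  have hcommV : ⁅V, V⁆ = ⊥ := by
    by_contra hK
    have hKn : (⁅V, V⁆ : Subgroup G).Normal := inferInstance
    have hKσ : ∀ x ∈ (⁅V, V⁆ : Subgroup G), σ x ∈ (⁅V, V⁆ : Subgroup G) := by
      intro x hx
      have h1 : σ.toMonoidHom x ∈ (⁅V, V⁆ : Subgroup G).map σ.toMonoidHom := ⟨x, hx, rfl⟩
      rw [Subgroup.map_commutator, hVmap] at h1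
      exact h1
    have hKV : (⁅V, V⁆ : Subgroup G) = V := hmin _ (Subgroup.commutator_le_left V V) hKn hKσ hK
    have hall : ∀ n : ℕ, V ≤ derivedSeries G n := by
      intro n
      induction n with
      | zero => exact le_top
      | succ n ih =>
        rw [derivedSeries_succ, ← hKV]
        exact Subgroup.commutator_mono (hKV ▸ ih) (hKV ▸ ih)
    obtain ⟨n, hn⟩ := hG.solvable
    have := hall n
    rw [hn] at this
    exact hVne (le_bot_iff.1 this)
  have hcomm : ∀ u ∈ V, ∀ v ∈ V, u * v = v * u := by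
    intro u hu v hv
    have h1 := Subgroup.commutator_eq_bot_iff_le_centralizer.1 hcommV
    exact (Subgroup.mem_centralizer_iff.1 (h1 hv)) u hu
  -- the prime
  obtain ⟨x, hxV, hx1⟩ : ∃ x ∈ V, x ≠ 1 := by
    obtain ⟨⟨x, hx⟩, hx1⟩ := Subgroup.ne_bot_iff_exists_ne_one.1 hVne
    exact ⟨x, hx, fun h => hx1 (Subtype.ext h)⟩
  have hox : orderOf x ≠ 1 := fun h => hx1 (orderOf_eq_one_iff.1 h)
  obtain ⟨p, hp, hpd⟩ := Nat.exists_prime_and_dvd hox
  obtain ⟨k, hk⟩ := hpd
  let y := x ^ k
  have hyV : y ∈ V := V.pow_mem hxV k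
  have hopos : 0 < orderOf x := orderOf_pos x
  have hy1 : y ≠ 1 := by
    intro h
    have h3 : 0 < k := Nat.pos_of_ne_zero (by
      rintro rfl
      rw [mul_zero] at hk
      exact hopos.ne' hk)
    have h1 := orderOf_le_of_pow_eq_one h3 h
    have h2 := hp.two_le
    rw [hk] at h1
    nlinarith
  have hyp : y ^ p = 1 := by
    show (x ^ k) ^ p = 1
    rw [← pow_mul, mul_comm, ← hk, pow_orderOf_eq_one]
  -- `p`-torsion
  let Ω : Subgroup G :=
    { carrier := {w | w ∈ V ∧ w ^ p = 1}
      mul_mem' := by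
        rintro a b ⟨ha, ha1⟩ ⟨hb, hb1⟩
        refine ⟨V.mul_mem ha hb, ?_⟩
        have hc : Commute a b := hcomm a ha b hb
        rw [hc.mul_pow, ha1, hb1, one_mul]
      one_mem' := ⟨V.one_mem, one_pow _⟩
      inv_mem' := by
        rintro a ⟨ha, ha1⟩
        refine ⟨V.inv_mem ha, ?_⟩
        rw [inv_pow, ha1, inv_one] }
  have hΩn : Ω.Normal := by
    constructor
    rintro a ⟨ha, ha1⟩ g
    refine ⟨hVn.conj_mem a ha g, ?_⟩
    rw [conj_pow, ha1, mul_one, mul_inv_cancel]
  have hΩσ : ∀ w ∈ Ω, σ w ∈ Ω := by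
    rintro a ⟨ha, ha1⟩
    refine ⟨hVσ a ha, ?_⟩
    rw [← map_pow, ha1, map_one]
  have hΩne : Ω ≠ ⊥ := by
    intro h0
    have : y ∈ Ω := ⟨hyV, hyp⟩
    rw [h0] at this
    exact hy1 (by simpa using this)
  have hΩV : Ω = V := hmin Ω (fun w hw => hw.1) hΩn hΩσ hΩne
  refine ⟨V, p, hp, hVn, hVσ, ?_, hcomm, hVne, hmin⟩
  intro v hv
  rw [← hΩV] at hv
  exact hv.2

end Step

universe u

/-- The induction. -/
theorem main_ind : ∀ (n : ℕ) (G : Type u) [Group G] [Finite G], Nat.card G = n →
    Group.IsSolvable G → ∀ σ : G ≃* G, (∀ g, σ (σ (σ (σ g))) = g) → (∀ g : G, σ g = g → g = 1) →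
    Group.IsNilpotent (commutator G) := by
  intro n
  induction n using Nat.strong_induction_on with
  | _ n ih =>
    intro G _ _ hn hG σ h4 hfpf
    classical
    by_cases hnt : Nontrivial G
    · obtain ⟨V, p, hp, hVn, hVσ, hVp, hVc, hVne, hVmin⟩ := exists_min hG σ h4 hnt
      haveI : Fact p.Prime := ⟨hp⟩
      haveI := hVn
      have hstep := main_step hG σ h4 hfpf V hVσ p hVp hVc hVne hVmin
      have hVmap : V.map σ.toMonoidHom = V := map_eq_of_inv σ h4 V hVσ
      have hcard : Nat.card (G ⧸ V) < n := by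
        rw [← hn]
        have h1 : Nat.card G = Nat.card (G ⧸ V) * Nat.card V := by
          have := V.card_eq_card_quotient_mul_card_subgroup
          exact this
        have h2 : 1 < Nat.card V := by
          rw [Finite.one_lt_card_iff_nontrivial]
          exact (Subgroup.nontrivial_iff_ne_bot V).2 hVne
        have h3 : 0 < Nat.card (G ⧸ V) := Nat.card_pos
        rw [h1]
        nlinarith
      haveI hQsolv : Group.IsSolvable (G ⧸ V) := by
        haveI := hG
        infer_instance
      have hIH := ih _ hcard (G ⧸ V) rfl hQsolv (qAut σ V hVmap) (qAut_four σ h4 V hVmap)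
        (qAut_fpf σ hfpf V hVmap)
      haveI := hIH
      have hmem : ∀ x : commutator G, (QuotientGroup.mk' V) x.1 ∈ commutator (G ⧸ V) := by
        intro x
        have h1 : (commutator G).map (QuotientGroup.mk' V) ≤ commutator (G ⧸ V) := by
          rw [commutator_def, commutator_def, Subgroup.map_commutator]
          exact Subgroup.commutator_mono le_top le_top
        exact h1 ⟨x.1, x.2, rfl⟩
      let f : commutator G →* commutator (G ⧸ V) :=
        ((QuotientGroup.mk' V).comp (commutator G).subtype).codRestrict (commutator (G ⧸ V)) hmem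
      apply Subgroup.isNilpotent_of_ker_le_center f
      intro x hx
      have h1 : (QuotientGroup.mk' V) x.1 = 1 := by
        have := congrArg Subtype.val (MonoidHom.mem_ker.1 hx)
        exact this
      have hxV : x.1 ∈ V := (QuotientGroup.eq_one_iff _).1 h1
      rw [Subgroup.mem_center_iff]
      intro y
      apply Subtype.ext
      have h2 := hstep y.2
      exact ((Subgroup.mem_centralizer_iff.1 h2) x.1 hxV).symm
    · haveI : Subsingleton G := not_nontrivial_iff_subsingleton.1 hnt
      infer_instance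

/-- Let G be a finite solvable group with an automorphism σ satisfying σ⁴ = 1 and fixing only the identity. Then the derived subgroup G' is nilpotent. -/
theorem result {G : Type*} [Group G] [Finite G] (hG : Group.IsSolvable G) (σ : MulAut G) (hσ : σ ^ 4 = 1) (hfpf : ∀ g : G, σ g = g → g = 1) : Group.IsNilpotent (commutator G) := by
  refine main_ind _ G rfl hG σ ?_ hfpf
  intro g
  have h1 := congrArg (fun f : MulAut G => f g) hσ
  simp only [pow_succ, pow_zero, one_mul, MulAut.mul_apply, MulAut.one_apply] at h1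
  exact h1

end Cfsg.Agent.S3794
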