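import Cfsg.Statements.S3799
import Mathlib
import Cfsg.Agent.Lib.H18.Special

set_option autoImplicit false
open Cfsg

namespace Cfsg.Agent.S3799


open scoped Matrix

/-- The Heisenberg group over `ZMod p`. -/
structure Heis (n p : ℕ) where
  a : Fin n → ZMod p
  b : Fin n → ZMod p
  c : ZMod p

namespace Heis

variable {n p : ℕ}

@[ext] theorem ext' {x y : Heis n p} (h1 : x.a = y.a) (h2 : x.b = y.b) (h3 : x.c = y.c) : x = y := by
  cases x; cases y; simp_all

instance : Group (Heis n p) where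
  mul x y := ⟨x.a + y.a, x.b + y.b, x.c + y.c + x.a ⬝ᵥ y.b⟩
  one := ⟨0, 0, 0⟩
  inv x := ⟨-x.a, -x.b, -x.c + x.a ⬝ᵥ x.b⟩
  mul_assoc x y z := by
    apply ext'
    · exact add_assoc _ _ _
    · exact add_assoc _ _ _
    · change x.c + y.c + x.a ⬝ᵥ y.b + z.c + (x.a + y.a) ⬝ᵥ z.b =
        x.c + (y.c + z.c + y.a ⬝ᵥ z.b) + x.a ⬝ᵥ (y.b + z.b)
      rw [add_dotProduct, dotProduct_add]
      ring
  one_mul x := by
    apply ext'
    · exact zero_add _
    · exact zero_add _
    · change 0 + x.c + (0 : Fin n → ZMod p) ⬝ᵥ x.b = x.c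
      simp
  mul_one x := by
    apply ext'
    · exact add_zero _
    · exact add_zero _
    · change x.c + 0 + x.a ⬝ᵥ (0 : Fin n → ZMod p) = x.c
      simp
  inv_mul_cancel x := by
    apply ext'
    · exact neg_add_cancel _
    · exact neg_add_cancel _
    · change -x.c + x.a ⬝ᵥ x.b + x.c + (-x.a) ⬝ᵥ x.b = 0
      simp

theorem mul_a (x y : Heis n p) : (x * y).a = x.a + y.a := rfl
theorem mul_b (x y : Heis n p) : (x * y).b = x.b + y.b := rfl
theorem mul_c (x y : Heis n p) : (x * y).c = x.c + y.c + x.a ⬝ᵥ y.b := rfl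
theorem one_a : (1 : Heis n p).a = 0 := rfl
theorem one_b : (1 : Heis n p).b = 0 := rfl
theorem one_c : (1 : Heis n p).c = 0 := rfl
theorem inv_a (x : Heis n p) : (x⁻¹).a = -x.a := rfl
theorem inv_b (x : Heis n p) : (x⁻¹).b = -x.b := rfl
theorem inv_c (x : Heis n p) : (x⁻¹).c = -x.c + x.a ⬝ᵥ x.b := rfl

theorem pow_formula (x : Heis n p) (k : ℕ) :
    (x ^ k).a = k • x.a ∧ (x ^ k).b = k • x.b ∧
      (x ^ k).c = k • x.c + (k.choose 2) • (x.a ⬝ᵥ x.b) := by
  induction k with
  | zero => simp [one_a, one_b, one_c]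
  | succ k ih =>
    obtain ⟨h1, h2, h3⟩ := ih
    rw [pow_succ, mul_a, mul_b, mul_c, h1, h2, h3]
    refine ⟨by rw [succ_nsmul], by rw [succ_nsmul], ?_⟩
    rw [smul_dotProduct, succ_nsmul]
    have : (k + 1).choose 2 = k + k.choose 2 := by
      have := Nat.choose_succ_succ' k 1
      simpa using this
    rw [this, add_nsmul]
    ring

variable [Fact p.Prime]

theorem pow_p (hp : p ≠ 2) (x : Heis n p) : x ^ p = 1 := by
  obtain ⟨h1, h2, h3⟩ := pow_formula x p
  have hpp := (Fact.out : p.Prime)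
  apply ext'
  · rw [h1, one_a]; ext i; simp
  · rw [h2, one_b]; ext i; simp
  · rw [h3, one_c]
    have hd : p ∣ p.choose 2 := hpp.dvd_choose_self (by norm_num) (lt_of_le_of_ne hpp.two_le hp.symm)
    obtain ⟨m, hm⟩ := hd
    rw [hm]
    simp

instance : Finite (Heis n p) :=
  Finite.of_injective (fun x => (x.a, x.b, x.c)) (by
    intro x y h
    simp only [Prod.mk.injEq] at h
    exact ext' h.1 h.2.1 h.2.2)

theorem card_eq : Nat.card (Heis n p) = p ^ (1 + 2 * n) := by
  have e : Heis n p ≃ (Fin n → ZMod p) × (Fin n → ZMod p) × ZMod p :=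
    { toFun := fun x => (x.a, x.b, x.c)
      invFun := fun y => ⟨y.1, y.2.1, y.2.2⟩
      left_inv := fun _ => rfl
      right_inv := fun _ => rfl }
  rw [Nat.card_congr e, Nat.card_prod, Nat.card_prod, Nat.card_fun, Nat.card_zmod]
  simp only [Nat.card_eq_fintype_card, Fintype.card_fin]
  ring

theorem mem_center_iff (hn : 1 ≤ n) (x : Heis n p) : x ∈ Subgroup.center (Heis n p) ↔ x.a = 0 ∧ x.b = 0 := by
  rw [Subgroup.mem_center_iff]
  constructor
  · intro h
    constructor
    · ext i
      have h1 := h ⟨0, Pi.single i 1, 0⟩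
      have h2 := congrArg c h1
      simp only [mul_c, zero_add, add_zero] at h2
      simp only [zero_dotProduct, add_zero] at h2
      simpa using h2.symm
    · ext i
      have h1 := h ⟨Pi.single i 1, 0, 0⟩
      have h2 := congrArg c h1
      simp only [mul_c, zero_add, add_zero] at h2
      simp only [dotProduct_zero, add_zero] at h2
      simpa using h2
  · rintro ⟨ha, hb⟩ y
    apply ext'
    · rw [mul_a, mul_a, ha, zero_add, add_zero]
    · rw [mul_b, mul_b, hb, zero_add, add_zero]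
    · rw [mul_c, mul_c, ha, hb]
      simp [add_comm]

theorem card_center (hn : 1 ≤ n) : Nat.card (Subgroup.center (Heis n p)) = p := by
  have e : Subgroup.center (Heis n p) ≃ ZMod p :=
    { toFun := fun x => x.1.c
      invFun := fun c => ⟨⟨0, 0, c⟩, (mem_center_iff hn _).2 ⟨rfl, rfl⟩⟩
      left_inv := by
        rintro ⟨x, hx⟩
        obtain ⟨h1, h2⟩ := (mem_center_iff hn x).1 hx
        apply Subtype.ext
        exact ext' h1.symm h2.symm rfl
      right_inv := fun _ => rfl }
  rw [Nat.card_congr e, Nat.card_zmod]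

/-- The matrix of an element of the Heisenberg group, on the index set `Unit ⊕ Fin n ⊕ Unit`. -/
def mat (x : Heis n p) : Matrix (Unit ⊕ (Fin n ⊕ Unit)) (Unit ⊕ (Fin n ⊕ Unit)) (ZMod p)
  | .inl _, .inl _ => 1
  | .inl _, .inr (.inl j) => x.a j
  | .inl _, .inr (.inr _) => x.c
  | .inr (.inl _), .inl _ => 0
  | .inr (.inl i), .inr (.inl j) => if i = j then 1 else 0
  | .inr (.inl i), .inr (.inr _) => x.b i
  | .inr (.inr _), .inl _ => 0
  | .inr (.inr _), .inr (.inl _) => 0
  | .inr (.inr _), .inr (.inr _) => 1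

theorem mat_one : mat (1 : Heis n p) = 1 := by
  ext (i | i | i) (j | j | j) <;> simp [mat, Matrix.one_apply, one_a, one_b, one_c]

theorem mat_mul (x y : Heis n p) : mat (x * y) = mat x * mat y := by
  ext (i | i | i) (j | j | j) <;>
    simp [mat, Matrix.mul_apply, Fintype.sum_sum_type, mul_a, mul_b, mul_c, dotProduct, add_comm, add_left_comm] <;> ring

end Heis


/-- For every odd prime p and every n ≥ 1 there is an extraspecial p-group of order p^(1+2n) and exponent p; concretely, the general linear group of degree n + 2 over the field with p elements contains such a subgroup. -/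
theorem result (p : ℕ) [Fact p.Prime] (hp : p ≠ 2) (n : ℕ) (hn : 1 ≤ n) : ∃ E : Subgroup (Matrix.GeneralLinearGroup (Fin (n + 2)) (ZMod p)), Cfsg.IsExtraspecial p ↥E ∧ Nat.card E = p ^ (1 + 2 * n) ∧ ∀ x ∈ E, x ^ p = 1 := by
  classical
  have hp0 := (Fact.out : p.Prime)
  have hcardι : Fintype.card (Unit ⊕ (Fin n ⊕ Unit)) = n + 2 := by
    simp [Fintype.card_sum]
    omega
  let ε : (Unit ⊕ (Fin n ⊕ Unit)) ≃ Fin (n + 2) := Fintype.equivFinOfCardEq hcardι
  let R := Matrix.reindexAlgEquiv (ZMod p) (ZMod p) ε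
  let ψ : Heis n p →* Matrix (Fin (n + 2)) (Fin (n + 2)) (ZMod p) :=
    { toFun := fun x => R (Heis.mat x)
      map_one' := by rw [Heis.mat_one, map_one]
      map_mul' := fun x y => by rw [Heis.mat_mul, map_mul] }
  let Ψ : Heis n p →* Matrix.GeneralLinearGroup (Fin (n + 2)) (ZMod p) := ψ.toHomUnits
  have hΨ : ∀ x, ((Ψ x : Matrix.GeneralLinearGroup (Fin (n + 2)) (ZMod p)) : Matrix (Fin (n + 2)) (Fin (n + 2)) (ZMod p)) = R (Heis.mat x) :=
    fun x => rfl
  have hinj : Function.Injective Ψ := by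
    intro x y h
    have h1 : R (Heis.mat x) = R (Heis.mat y) := by
      rw [← hΨ, ← hΨ, h]
    have h2 : Heis.mat x = Heis.mat y := R.injective h1
    apply Heis.ext'
    · ext j
      exact congrFun (congrFun h2 (.inl ())) (.inr (.inl j))
    · ext i
      exact congrFun (congrFun h2 (.inr (.inl i))) (.inr (.inr ()))
    · exact congrFun (congrFun h2 (.inl ())) (.inr (.inr ()))
  let e : Heis n p ≃* Ψ.range := MonoidHom.ofInjective hinj
  refine ⟨Ψ.range, ?_, ?_, ?_⟩
  · apply H18.isExtraspecial_of_equiv e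
    · intro x
      exact ⟨1, by simpa using Heis.pow_p hp x⟩
    · exact Heis.card_center hn
    · intro x
      rw [Heis.pow_p hp x]
      exact Subgroup.one_mem _
    · intro x y
      rw [Heis.mem_center_iff hn]
      constructor
      · simp only [Heis.mul_a, Heis.inv_a]; abel
      · simp only [Heis.mul_b, Heis.inv_b]; abel
    · let i : Fin n := ⟨0, by omega⟩
      refine ⟨⟨Pi.single i 1, 0, 0⟩, ⟨0, Pi.single i 1, 0⟩, ?_⟩
      intro h
      have h1 : (⟨Pi.single i 1, 0, 0⟩ : Heis n p) * ⟨0, Pi.single i 1, 0⟩ =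
          ⟨0, Pi.single i 1, 0⟩ * ⟨Pi.single i 1, 0, 0⟩ := by
        rw [← mul_inv_eq_one, ← h]
        group
      have h2 := congrArg Heis.c h1
      simp only [Heis.mul_c] at h2
      simp at h2
  · rw [← Nat.card_congr e.toEquiv]
    exact Heis.card_eq
  · rintro _ ⟨h, rfl⟩
    rw [← map_pow, Heis.pow_p hp h, map_one]


end Cfsg.Agent.S3799
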