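import Cfsg.Statements.S3800
import Mathlib
import Cfsg.Agent.Lib.H18.PGroup

set_option autoImplicit false
open Cfsg

namespace Cfsg.Agent.S3800

/-- Let G be a finite group, N a normal subgroup of G whose order is prime to p, and P a p-subgroup of G. Then in G/N the normalizer of the image of P is the image of N_G(P), and the centralizer of the image of P is the image of C_G(P). -/
theorem result {G : Type*} [Group G] [Finite G] {p : ℕ} [Fact p.Prime] (N : Subgroup G) [N.Normal] (hN : (Nat.card N).Coprime p) (P : Subgroup G) (hP : IsPGroup p P) : Subgroup.normalizer ((P.map (QuotientGroup.mk' N)) : Set (G ⧸ N)) = (Subgroup.normalizer (P : Set G)).map (QuotientGroup.mk' N) ∧ Subgroup.centralizer ((P.map (QuotientGroup.mk' N)) : Set (G ⧸ N)) = (Subgroup.centralizer (P : Set G)).map (QuotientGroup.mk' N) := by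
  classical
  have hp := (Fact.out : p.Prime)
  set π := QuotientGroup.mk' N with hπ
  have hπN : ∀ x, π x = 1 ↔ x ∈ N := fun x => QuotientGroup.eq_one_iff x
  have hinf : P ⊓ N = ⊥ := by
    rw [← disjoint_iff]
    apply Subgroup.disjoint_of_coprime_natCard
    obtain ⟨k, hk⟩ := IsPGroup.iff_card.1 hP
    rw [hk]
    exact Nat.Coprime.pow_left _ hN.symm
  -- `P` has index `|N|` in `PN`
  have hrel : ¬ p ∣ P.relIndex (P ⊔ N) := by
    have h1 := H18.card_sup_mul_card_inf P N
    have h2 := H18.card_inf_mul_relIndex P (P ⊔ N)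
    rw [hinf, Subgroup.card_bot, mul_one] at h1
    rw [inf_eq_left.2 le_sup_left, h1] at h2
    have h3 := Nat.eq_of_mul_eq_mul_left Nat.card_pos h2
    rw [h3]
    intro hd
    have := Nat.Coprime.eq_one_of_dvd hN.symm hd
    exact hp.one_lt.ne' this
  have hnorm : Subgroup.normalizer ((P.map π) : Set (G ⧸ N)) = (Subgroup.normalizer (P : Set G)).map π := by
    apply le_antisymm
    · intro x hx
      obtain ⟨g, rfl⟩ := QuotientGroup.mk_surjective x
      -- `P^g ≤ PN`
      have hle : P.map (MulAut.conj g).toMonoidHom ≤ P ⊔ N := by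
        rintro _ ⟨y, hy, rfl⟩
        have h1 : (g : G ⧸ N) * π y * (g : G ⧸ N)⁻¹ ∈ P.map π :=
          (Subgroup.mem_normalizer_iff.1 hx _).1 ⟨y, hy, rfl⟩
        obtain ⟨y', hy', e⟩ := h1
        have h2 : π (y'⁻¹ * (g * y * g⁻¹)) = 1 := by
          have hg : π g = (g : G ⧸ N) := rfl
          have hg2 : π (g * y * g⁻¹) = (g : G ⧸ N) * π y * (g : G ⧸ N)⁻¹ := by
            simp only [map_mul, map_inv, hg]
          rw [map_mul, map_inv, e, hg2]
          group
        rw [hπN] at h2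
        have h3 := (P ⊔ N).mul_mem ((le_sup_left : P ≤ P ⊔ N) hy') ((le_sup_right : N ≤ P ⊔ N) h2)
        simpa [mul_assoc] using h3
      obtain ⟨w, hw, e⟩ := H18.exists_conj_in_of_not_dvd (le_sup_left : P ≤ P ⊔ N) hle hP
        (hP.map _) hrel (H18.card_map_conj P g)
      rw [sup_comm] at hw
      obtain ⟨n, hn, b, hb, rfl⟩ := H18.mem_sup_normal_left.1 hw
      refine ⟨n⁻¹ * g, ?_, ?_⟩
      · apply H18.mem_normalizer_of_map_conj_eq
        rw [H18.map_conj_mul, e, H18.map_conj_mul,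
          H18.map_conj_eq_of_mem_normalizer (Subgroup.le_normalizer hb), ← H18.map_conj_mul,
          inv_mul_cancel, H18.map_conj_one]
      · have : π n = 1 := (hπN n).2 hn
        rw [map_mul, map_inv, this]
        simp [hπ]
    · rintro _ ⟨h, hh, rfl⟩
      rw [H18.mem_normalizer_of_map_conj_eq_iff_le]
      rintro _ ⟨_, ⟨y, hy, rfl⟩, rfl⟩
      refine ⟨h * y * h⁻¹, (Subgroup.mem_normalizer_iff.1 hh y).1 hy, ?_⟩
      simp [hπ]
  refine ⟨hnorm, ?_⟩
  apply le_antisymm
  · intro x hx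
    have hxn : x ∈ Subgroup.normalizer ((P.map π) : Set (G ⧸ N)) := by
      rw [H18.mem_normalizer_of_map_conj_eq_iff_le]
      rintro _ ⟨s, hs, rfl⟩
      have h1 := (Subgroup.mem_centralizer_iff.1 hx) s hs
      change x * s * x⁻¹ ∈ _
      rw [← h1]
      simpa using hs
    rw [hnorm] at hxn
    obtain ⟨h, hh, rfl⟩ := hxn
    refine ⟨h, ?_, rfl⟩
    change h ∈ Subgroup.centralizer (P : Set G)
    rw [Subgroup.mem_centralizer_iff]
    intro y hy
    have h1 := (Subgroup.mem_centralizer_iff.1 hx) (π y) ⟨y, hy, rfl⟩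
    have h2 : h * y * h⁻¹ ∈ P := (Subgroup.mem_normalizer_iff.1 hh y).1 hy
    have h3 : y⁻¹ * (h * y * h⁻¹) ∈ P := P.mul_mem (P.inv_mem hy) h2
    have h4 : y⁻¹ * (h * y * h⁻¹) ∈ N := by
      rw [← hπN]
      have h5 : π (y⁻¹ * (h * y * h⁻¹)) = (π y)⁻¹ * (π h * π y * (π h)⁻¹) := by
        simp only [map_mul, map_inv]
      rw [h5, ← h1]
      group
    have h5 : y⁻¹ * (h * y * h⁻¹) ∈ P ⊓ N := ⟨h3, h4⟩
    rw [hinf, Subgroup.mem_bot] at h5
    have h6 : h * y * h⁻¹ = y := by
      have := congrArg (y * ·) h5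
      simpa using this
    calc y * h = (h * y * h⁻¹) * h := by rw [h6]
      _ = h * y := by group
  · rintro _ ⟨c, hc, rfl⟩
    rw [Subgroup.mem_centralizer_iff]
    rintro _ ⟨y, hy, rfl⟩
    have := (Subgroup.mem_centralizer_iff.1 hc) y hy
    rw [← map_mul, ← map_mul, this]

end Cfsg.Agent.S3800
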