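import Cfsg.Statements.S3962
import Mathlib

set_option autoImplicit false
open Cfsg

namespace Cfsg.Agent.S3962

/-- Let `G` be a perfect group and `π : G →* Q` a surjective homomorphism whose kernel is central. Then `π` maps the centre of `G` onto the centre of `Q`. Taking `π` to be the map to `G ⧸ Z(G)` shows that the central quotient of a perfect group has trivial centre. -/
theorem result {G Q : Type*} [Group G] [Group Q] (hG : Group.IsPerfect G) (π : G →* Q) (hπ : Function.Surjective π) (hker : π.ker ≤ Subgroup.center G) : (Subgroup.center G).map π = Subgroup.center Q := by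
  apply le_antisymm
  · rintro _ ⟨g, hg, rfl⟩
    rw [Subgroup.mem_center_iff]
    intro q
    obtain ⟨h, rfl⟩ := hπ q
    rw [← map_mul, ← map_mul, (Subgroup.mem_center_iff.1 hg) h]
  · intro q hq
    obtain ⟨g, rfl⟩ := hπ q
    refine ⟨g, ?_, rfl⟩
    -- the commutator map
    have hcomm : ∀ h : G, g * h * g⁻¹ * h⁻¹ ∈ Subgroup.center G := by
      intro h
      apply hker
      rw [MonoidHom.mem_ker]
      have := (Subgroup.mem_center_iff.1 hq) (π h)
      simp only [map_mul, map_inv]
      rw [← this]
      group
    let φ : G →* Subgroup.center G :=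
      { toFun := fun h => ⟨g * h * g⁻¹ * h⁻¹, hcomm h⟩
        map_one' := by ext; simp
        map_mul' := by
          intro a b
          ext
          simp only [Subgroup.coe_mul]
          have hb := (Subgroup.mem_center_iff.1 (hcomm b)) a⁻¹
          calc g * (a * b) * g⁻¹ * (a * b)⁻¹
              = g * a * g⁻¹ * ((g * b * g⁻¹ * b⁻¹) * a⁻¹) := by group
            _ = g * a * g⁻¹ * (a⁻¹ * (g * b * g⁻¹ * b⁻¹)) := by rw [hb]
            _ = g * a * g⁻¹ * a⁻¹ * (g * b * g⁻¹ * b⁻¹) := by group }
    have hφ : (⊤ : Subgroup G) ≤ φ.ker := by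
      rw [← hG.commutator_eq_top]
      rw [commutator_eq_closure, Subgroup.closure_le]
      rintro _ ⟨a, b, rfl⟩
      rw [SetLike.mem_coe, MonoidHom.mem_ker]
      rw [commutatorElement_def, map_mul, map_mul, map_mul, map_inv, map_inv]
      have hc : φ a * φ b = φ b * φ a := by
        ext
        exact (Subgroup.mem_center_iff.1 (φ b).2) (φ a : G)
      rw [hc]
      group
    show g ∈ Subgroup.center G
    rw [Subgroup.mem_center_iff]
    intro h
    have := hφ (Subgroup.mem_top h)
    rw [MonoidHom.mem_ker] at this
    have h2 : g * h * g⁻¹ * h⁻¹ = 1 := congrArg Subtype.val this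
    have h3 : g * h * g⁻¹ = h := by
      rw [mul_inv_eq_one] at h2; exact h2
    rw [mul_inv_eq_iff_eq_mul] at h3
    exact h3.symm

end Cfsg.Agent.S3962
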