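import Cfsg.Statements.S3966
import Mathlib

set_option autoImplicit false
open Cfsg

namespace Cfsg.Agent.S3966

/-- the reduction homomorphism -/
noncomputable def hom (n : ℕ) : QuaternionGroup n →* DihedralGroup n :=
  let c : ZMod (2 * n) →+* ZMod n := ZMod.castHom (Dvd.intro_left 2 rfl) (ZMod n)
  { toFun := fun x => match x with
      | QuaternionGroup.a i => DihedralGroup.r (c i)
      | QuaternionGroup.xa i => DihedralGroup.sr (c i)
    map_one' := by
      show DihedralGroup.r (c 0) = 1
      simp
    map_mul' := by
      rintro (i | i) (j | j)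
      · show DihedralGroup.r (c (i + j)) = _
        simp [DihedralGroup.r_mul_r]
      · show DihedralGroup.sr (c (j - i)) = _
        simp [DihedralGroup.r_mul_sr]
      · show DihedralGroup.sr (c (i + j)) = _
        simp [DihedralGroup.sr_mul_r]
      · show DihedralGroup.r (c ((n : ZMod (2 * n)) + j - i)) = _
        simp [DihedralGroup.sr_mul_sr] }

/-- For even `n ≥ 2` the dicyclic group of order `4 n` is a stem extension of the dihedral group of order `2 n` with kernel of order `2`: there is a surjective homomorphism `QuaternionGroup n →* DihedralGroup n` whose kernel is central, lies in the commutator subgroup and has two elements. Together with the order of the multiplier this exhibits the dicyclic group as a Schur covering group of the dihedral group. -/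
theorem result (n : ℕ) [NeZero n] (hn : Even n) : ∃ σ : QuaternionGroup n →* DihedralGroup n, Cfsg.IsStemExtension σ ∧ Nat.card σ.ker = 2 := by
  classical
  have h2n : NeZero (2 * n) := ⟨by have := NeZero.ne n; omega⟩
  set c : ZMod (2 * n) →+* ZMod n := ZMod.castHom (Dvd.intro_left 2 rfl) (ZMod n) with hc
  have hcsurj : Function.Surjective c := ZMod.castHom_surjective _
  have hker : ∀ x, x ∈ (hom n).ker ↔ x = QuaternionGroup.a 0 ∨ x = QuaternionGroup.a (n : ZMod (2 * n)) := by
    intro x
    rw [MonoidHom.mem_ker]
    rcases x with i | i
    · show DihedralGroup.r (c i) = 1 ↔ _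
      have : (1 : DihedralGroup n) = DihedralGroup.r 0 := rfl
      rw [this, DihedralGroup.r.injEq]
      simp only [QuaternionGroup.a.injEq]
      constructor
      · intro hi
        have hi' : ((i.val : ℕ) : ZMod n) = 0 := by
          have : c i = ((i.val : ℕ) : ZMod n) := by
            rw [ZMod.natCast_val]; rfl
          rwa [← this]
        rw [ZMod.natCast_eq_zero_iff] at hi'
        obtain ⟨k, hk⟩ := hi'
        have hlt : i.val < 2 * n := ZMod.val_lt i
        have hnpos : 0 < n := Nat.pos_of_ne_zero (NeZero.ne n)
        have hk2 : k < 2 := by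
          by_contra hcon
          have : 2 ≤ k := by omega
          have : n * 2 ≤ n * k := Nat.mul_le_mul_left n this
          omega
        interval_cases k
        · left
          rw [← ZMod.natCast_zmod_val i]
          simp [hk]
        · right
          rw [← ZMod.natCast_zmod_val i]
          simp [hk]
      · rintro (rfl | rfl)
        · simp
        · simp [hc]
    · show DihedralGroup.sr (c i) = 1 ↔ _
      have : (1 : DihedralGroup n) = DihedralGroup.r 0 := rfl
      rw [this]
      constructor
      · intro h; cases h
      · rintro (h | h) <;> cases h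
  refine ⟨hom n, ⟨?_, ?_, ?_⟩, ?_⟩
  · rintro (i | i)
    · obtain ⟨j, rfl⟩ := hcsurj i
      exact ⟨QuaternionGroup.a j, rfl⟩
    · obtain ⟨j, rfl⟩ := hcsurj i
      exact ⟨QuaternionGroup.xa j, rfl⟩
  · intro x hx
    rw [Subgroup.mem_center_iff]
    rcases (hker x).1 hx with rfl | rfl
    · intro g
      have : (QuaternionGroup.a 0 : QuaternionGroup n) = 1 := rfl
      rw [this]; simp
    · rintro (i | i)
      · simp [add_comm]
      · simp only [QuaternionGroup.xa_mul_a, QuaternionGroup.a_mul_xa]
        congr 1
        have : ((n : ZMod (2 * n)) + n) = 0 := by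
          have : ((n : ZMod (2 * n)) + n) = ((2 * n : ℕ) : ZMod (2 * n)) := by push_cast; ring
          rw [this]; simp
        linear_combination this
  · intro x hx
    rcases (hker x).1 hx with rfl | rfl
    · exact Subgroup.one_mem _
    · obtain ⟨m, hm⟩ := hn
      have h2 : (QuaternionGroup.a 2 : QuaternionGroup n) ∈ commutator (QuaternionGroup n) := by
        rw [commutator_eq_closure]
        apply Subgroup.subset_closure
        refine ⟨QuaternionGroup.a 1, QuaternionGroup.xa 0, ?_⟩
        have e1 : (QuaternionGroup.a 1 : QuaternionGroup n)⁻¹ = QuaternionGroup.a (-1) := rfl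
        have e2 : (QuaternionGroup.xa 0 : QuaternionGroup n)⁻¹ = QuaternionGroup.xa ((n : ZMod (2 * n)) + 0) := rfl
        rw [commutatorElement_def, e1, e2]
        simp only [QuaternionGroup.a_mul_xa, QuaternionGroup.xa_mul_a, QuaternionGroup.xa_mul_xa]
        congr 1
        have : ((n : ZMod (2 * n)) + n) = 0 := by
          have : ((n : ZMod (2 * n)) + n) = ((2 * n : ℕ) : ZMod (2 * n)) := by push_cast; ring
          rw [this]; simp
        linear_combination this
      have : (QuaternionGroup.a (n : ZMod (2 * n)) : QuaternionGroup n) = (QuaternionGroup.a 2) ^ m := by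
        have e3 : (QuaternionGroup.a 2 : QuaternionGroup n) = (QuaternionGroup.a 1) ^ 2 := by
          rw [QuaternionGroup.a_one_pow]; norm_num
        rw [e3, ← pow_mul, QuaternionGroup.a_one_pow, hm]
        congr 1
        push_cast
        ring
      rw [this]
      exact Subgroup.pow_mem _ h2 _
  · rw [Nat.card_eq_two_iff]
    refine ⟨⟨QuaternionGroup.a 0, (hker _).2 (Or.inl rfl)⟩, ⟨QuaternionGroup.a (n : ZMod (2 * n)), (hker _).2 (Or.inr rfl)⟩, ?_, ?_⟩
    · intro h
      have h' : (0 : ZMod (2 * n)) = (n : ZMod (2 * n)) := by
        have := congrArg Subtype.val h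
        simpa using (QuaternionGroup.a.inj this)
      have h'' : ((n : ℕ) : ZMod (2 * n)) = 0 := h'.symm
      rw [ZMod.natCast_eq_zero_iff] at h''
      have hnpos : 0 < n := Nat.pos_of_ne_zero (NeZero.ne n)
      have := Nat.le_of_dvd hnpos h''
      omega
    · ext ⟨x, hx⟩
      simp only [Set.mem_insert_iff, Set.mem_singleton_iff, Set.mem_univ, iff_true, Subtype.mk.injEq]
      exact (hker x).1 hx

end Cfsg.Agent.S3966
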