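import Cfsg.Statements.S3970
import Cfsg.Agent.Lib.H19.AbelianSylow

set_option autoImplicit false
set_option linter.style.haveILetI false
open Cfsg

namespace Cfsg.Agent.S3970

open Cfsg.Agent.H19

universe u

lemma sq_sub_one_aux (p : ℕ) (hp : 1 ≤ p) : p ^ 2 - 1 = (p - 1) * (p + 1) := by
  obtain ⟨k, rfl⟩ : ∃ k, p = k + 1 := ⟨p - 1, by omega⟩
  simp only [Nat.add_sub_cancel]
  have : (k + 1) ^ 2 = k * (k + 1 + 1) + 1 := by ring
  rw [this, Nat.add_sub_cancel]

lemma aux (n : ℕ) : ∀ (G : Type u) [Group G] [Finite G], Nat.card G = n →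
    (∀ p : ℕ, p.Prime → p ∣ Nat.card G → (∃ q : ℕ, q.Prime ∧ q ∣ Nat.card G ∧ p < q) →
      ∀ P : Sylow p G, IsMulCommutative (P : Subgroup G) ∧ Group.rank (P : Subgroup G) ≤ 2) →
    ¬ 12 ∣ Nat.card G → Group.IsSolvable G := by
  induction n using Nat.strong_induction_on with
  | _ n ih =>
  intro G _ _ hn h h12
  classical
  by_cases h1 : Nat.card G = 1
  · haveI := (Nat.card_eq_one_iff_unique.mp h1).1
    infer_instance
  have hG0 : Nat.card G ≠ 0 := Nat.card_pos.ne'
  set p := (Nat.card G).minFac with hpdef
  have hp : p.Prime := Nat.minFac_prime h1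
  haveI : Fact p.Prime := ⟨hp⟩
  have hpd : p ∣ Nat.card G := Nat.minFac_dvd _
  by_cases hq : ∃ q : ℕ, q.Prime ∧ q ∣ Nat.card G ∧ p < q
  swap
  · -- `G` is a `p`-group
    push Not at hq
    have hall : ∀ {d : ℕ}, d.Prime → d ∣ Nat.card G → d = p := by
      intro d hd hdd
      have h2 := hq d hd hdd
      have h3 : p ≤ d := Nat.minFac_le_of_dvd hd.two_le hdd
      omega
    have hcard := Nat.eq_prime_pow_of_unique_prime_dvd hG0 hall
    have hpg : IsPGroup p G := IsPGroup.of_card hcard
    haveI := hpg.isNilpotent
    infer_instance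
  let P : Sylow p G := default
  obtain ⟨hab, hrk⟩ := h p hp hpd hq P
  -- the order condition
  have hcop : Nat.Coprime (Nat.card G) (∏ i ∈ Finset.Icc 1 (Group.rank (P : Subgroup G)), (p ^ i - 1)) := by
    apply Nat.coprime_of_dvd
    intro r hr hrG hrprod
    obtain ⟨i, hi, hri⟩ := (Prime.exists_mem_finset_dvd hr.prime hrprod)
    obtain ⟨hi1, hi2⟩ := Finset.mem_Icc.1 hi
    have hrp : p ≤ r := Nat.minFac_le_of_dvd hr.two_le hrG
    have hrnep : r ≠ p := by
      intro hrp'
      rw [hrp'] at hri
      have h2 : p ∣ p ^ i := dvd_pow_self p (by omega)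
      have h3 : p ∣ 1 := (Nat.dvd_sub_iff_right (Nat.one_le_pow _ _ hp.pos) h2).1 hri
      exact hp.one_lt.ne' (Nat.dvd_one.mp h3)
    have hrgt : p < r := lt_of_le_of_ne hrp (Ne.symm hrnep)
    have hp1 : 1 ≤ p := hp.pos
    have hnot1 : ¬ r ∣ p - 1 := by
      intro h3
      have := Nat.le_of_dvd (by have := hp.two_le; omega) h3
      omega
    have hi3 : i = 1 ∨ i = 2 := by omega
    rcases hi3 with rfl | rfl
    · rw [pow_one] at hri
      exact hnot1 hri
    · rw [sq_sub_one_aux p hp1] at hri
      have h3 : r ∣ p + 1 := ((Nat.Prime.dvd_mul hr).1 hri).resolve_left hnot1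
      have h4 : r ≤ p + 1 := Nat.le_of_dvd (by omega) h3
      have h5 : r = p + 1 := by omega
      have h6 : p = 2 := by
        by_contra hne
        have hpodd : Odd p := hp.odd_of_ne_two hne
        have hreven : Even r := by rw [h5]; exact hpodd.add_one
        have hr2 : r = 2 := (Nat.Prime.even_iff hr).1 hreven
        have := hp.two_le
        omega
      have hr3 : r = 3 := by omega
      -- 4 does not divide |G|
      have h4G : ¬ 4 ∣ Nat.card G := by
        intro h7
        apply h12
        have h8 : Nat.Coprime 4 3 := by norm_num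
        have := Nat.Coprime.mul_dvd_of_dvd_of_dvd h8 h7 (hr3 ▸ hrG)
        simpa using this
      -- so P has order 2, rank ≤ 1
      have hPcard : Nat.card (P : Subgroup G) ∣ 2 := by
        obtain ⟨k, hk⟩ := IsPGroup.iff_card.mp P.2
        rw [hk]
        have hkd : p ^ k ∣ Nat.card G := by
          rw [← hk]; exact Subgroup.card_subgroup_dvd_card _
        have hk1 : k ≤ 1 := by
          by_contra hk2
          apply h4G
          have : p ^ 2 ∣ p ^ k := pow_dvd_pow _ (by omega)
          rw [h6] at this hkd
          exact (by norm_num : (4 : ℕ) = 2 ^ 2) ▸ this.trans hkd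
        rw [h6]
        rw [h6] at *
        exact pow_dvd_pow 2 hk1 |>.trans (by norm_num)
      have hcyc : IsCyclic (P : Subgroup G) := by
        rcases (Nat.dvd_prime Nat.prime_two).1 hPcard with h7 | h7
        · haveI := (Nat.card_eq_one_iff_unique.mp h7).1
          infer_instance
        · haveI : Fact (Nat.Prime 2) := ⟨Nat.prime_two⟩
          exact isCyclic_of_prime_card h7
      obtain ⟨g, hg⟩ := hcyc.exists_generator
      have hrank : Group.rank (P : Subgroup G) ≤ 1 := by
        have h7 : Subgroup.closure (({g} : Finset (P : Subgroup G)) : Set (P : Subgroup G)) = ⊤ := by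
          rw [Finset.coe_singleton, ← Subgroup.zpowers_eq_closure, eq_top_iff]
          intro x _
          exact hg x
        have := Group.rank_le h7
        simpa using this
      omega
  have hnorm := normalizer_le_centralizer_of_coprime P hab hcop
  obtain ⟨R, hRn, hRc⟩ := burnside_complement P hnorm
  haveI := hRn
  -- orders
  have hcards : Nat.card R * Nat.card (P : Subgroup G) = Nat.card G := hRc.card_mul_card
  obtain ⟨k, hk⟩ := IsPGroup.iff_card.mp P.2
  have hPnt : Nat.card (P : Subgroup G) ≠ 1 := by
    intro h2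
    have h3 := Subgroup.card_mul_index (P : Subgroup G)
    rw [h2, one_mul] at h3
    rw [← h3] at hpd
    exact P.not_dvd_index hpd
  have hRlt : Nat.card R < n := by
    rw [← hn, ← hcards]
    have h2 : 1 < Nat.card (P : Subgroup G) := by
      have : 0 < Nat.card (P : Subgroup G) := Nat.card_pos
      omega
    have h3 : 0 < Nat.card R := Nat.card_pos
    nlinarith
  have hRdvd : Nat.card R ∣ Nat.card G := Subgroup.card_subgroup_dvd_card R
  have hRcop : ¬ p ∣ Nat.card R := by
    have h2 : (P : Subgroup G).index = Nat.card R := hRc.index_eq_card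
    rw [← h2]
    exact P.not_dvd_index
  have hRsolv : Group.IsSolvable R := by
    refine ih _ hRlt R rfl ?_ (fun h2 => h12 (h2.trans hRdvd))
    intro p' hp' hp'd hq' Q
    haveI : Fact p'.Prime := ⟨hp'⟩
    have hne : p' ≠ p := by
      rintro rfl
      exact hRcop hp'd
    -- image of Q
    set Q' : Subgroup G := (Q : Subgroup R).map R.subtype with hQ'
    have hQ'card : Nat.card Q' = Nat.card (Q : Subgroup R) :=
      Nat.card_congr ((Q : Subgroup R).equivMapOfInjective R.subtype R.subtype_injective).toEquiv.symm
    have hfact : (Nat.card G).factorization p' = (Nat.card R).factorization p' := by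
      rw [← hcards, Nat.factorization_mul Nat.card_pos.ne' Nat.card_pos.ne', hk,
        Nat.Prime.factorization_pow hp]
      simp [hne.symm]
    have hQ'c : Nat.card Q' = p' ^ (Nat.card G).factorization p' := by
      rw [hQ'card, hfact]
      exact Q.card_eq_multiplicity
    let S : Sylow p' G := Sylow.ofCard Q' hQ'c
    have hS : (S : Subgroup G) = Q' := Sylow.coe_ofCard Q' hQ'c
    obtain ⟨q', hq'p, hq'd, hq'lt⟩ := hq'
    obtain ⟨hSab, hSrk⟩ := h p' hp' (hp'd.trans hRdvd) ⟨q', hq'p, hq'd.trans hRdvd, hq'lt⟩ S
    have e : (Q : Subgroup R) ≃* (S : Subgroup G) :=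
      ((Q : Subgroup R).equivMapOfInjective R.subtype R.subtype_injective).trans
        (MulEquiv.subgroupCongr hS.symm)
    constructor
    · refine ⟨⟨fun a b => ?_⟩⟩
      apply e.injective
      rw [map_mul, map_mul]
      exact hSab.is_comm.comm _ _
    · rw [Group.rank_congr e]
      exact hSrk
  -- the quotient is a `p`-group
  have hQp : IsPGroup p (G ⧸ R) := by
    apply IsPGroup.of_card (n := k)
    have h2 := Subgroup.card_eq_card_quotient_mul_card_subgroup R
    rw [← hcards, mul_comm] at h2
    have h3 : Nat.card (P : Subgroup G) = Nat.card (G ⧸ R) :=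
      Nat.eq_of_mul_eq_mul_right Nat.card_pos h2
    rw [← h3, hk]
  haveI := hQp.isNilpotent
  exact solvable_of_ker_le_range R.subtype (QuotientGroup.mk' R) (by
    rw [QuotientGroup.ker_mk', Subgroup.range_subtype])

/-- Let `G` be a finite group such that for every prime `p` dividing its order, other than the largest such prime, the Sylow `p`-subgroups are abelian and generated by at most two elements, and suppose `12` does not divide the order of `G`. Then `G` is solvable. In particular a group of cube-free order not divisible by `12` is solvable. -/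
theorem result {G : Type*} [Group G] [Finite G] (h : ∀ p : ℕ, p.Prime → p ∣ Nat.card G → (∃ q : ℕ, q.Prime ∧ q ∣ Nat.card G ∧ p < q) → ∀ P : Sylow p G, IsMulCommutative (P : Subgroup G) ∧ Group.rank (P : Subgroup G) ≤ 2) (h12 : ¬ 12 ∣ Nat.card G) : Group.IsSolvable G :=
  aux _ G rfl h h12

end Cfsg.Agent.S3970
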