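import Cfsg.Statements.S3971
import Cfsg.Agent.Lib.H19.Index2
import Cfsg.Agent.Lib.H19.Lifts
import Cfsg.Agent.Lib.H18.Syl

set_option autoImplicit false
open Cfsg

namespace Cfsg.Agent.S3971

open Cfsg.Agent.H19 Cfsg.Agent.H13
open scoped Pointwise

theorem result {G : Type*} [Group G] [Finite G] (a n : ℕ) (hG : Nat.card G = 2 ^ a * n) (hn : Odd n) (h3 : ¬ 3 ∣ n) (hx : ∃ x : G, orderOf x = 2 ^ (a - 1)) : ∃ N : Subgroup G, N.Normal ∧ Nat.card N = n := by
  haveI : Fact (Nat.Prime 2) := ⟨Nat.prime_two⟩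
  rcases Nat.eq_zero_or_pos a with rfl | ha
  · refine ⟨⊤, inferInstance, ?_⟩
    rw [Subgroup.card_top, hG]; simp
  obtain ⟨x, hx⟩ := hx
  have hn2 : Nat.Coprime 2 n := Nat.coprime_two_left.2 hn
  have hcardS : ∀ T : Sylow 2 G, Nat.card T = 2 ^ a := by
    intro T
    obtain ⟨j, hj⟩ := T.2.exists_card_eq
    have h1 := (T : Subgroup G).card_mul_index
    rw [hj, hG] at h1
    have h2 : Nat.Coprime 2 (T : Subgroup G).index := (Nat.Prime.coprime_iff_not_dvd Nat.prime_two).2 T.not_dvd_index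
    have h3 : 2 ^ a ∣ 2 ^ j := by
      have : 2 ^ a ∣ 2 ^ j * (T : Subgroup G).index := by rw [h1]; exact dvd_mul_right _ _
      exact (Nat.Coprime.pow_left a h2).dvd_of_dvd_mul_right this
    have h4 : 2 ^ j ∣ 2 ^ a := by
      have : 2 ^ j ∣ 2 ^ a * n := by rw [← h1]; exact dvd_mul_right _ _
      exact (Nat.Coprime.pow_left j hn2).dvd_of_dvd_mul_right this
    rw [hj]
    exact Nat.dvd_antisymm h4 h3
  have hF : FrobCond 2 G := by
    intro Q hQ g hgN hgc
    have hgc' : (orderOf g).Coprime 2 := hgc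
    have h1 : orderOf g ∣ n := by
      have h2 : orderOf g ∣ 2 ^ a * n := by rw [← hG]; exact orderOf_dvd_natCard g
      exact (Nat.Coprime.pow_right a hgc').dvd_of_dvd_mul_left h2
    have h4 : (orderOf g).Coprime 3 := by
      rw [Nat.coprime_comm, Nat.Prime.coprime_iff_not_dvd Nat.prime_three]
      exact fun h => h3 (h.trans h1)
    have h6 : (orderOf g).Coprime 6 := Nat.Coprime.mul_right hgc' h4
    obtain ⟨T', hQT'⟩ := hQ.exists_le_sylow
    obtain ⟨T₀, hT₀⟩ := (isPGroup_zpowers_of_orderOf hx).exists_le_sylow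
    obtain ⟨h, rfl⟩ := MulAction.exists_smul_eq G T₀ T'
    have hxT₀ : x ∈ (T₀ : Subgroup G) := hT₀ (Subgroup.mem_zpowers x)
    set x' := h * x * h⁻¹ with hx'
    have hx'T : x' ∈ ((h • T₀ : Sylow 2 G) : Subgroup G) := by
      rw [Sylow.coe_subgroup_smul, mem_conj_smul]
      have : h⁻¹ * x' * h = x := by rw [hx']; group
      rw [this]; exact hxT₀
    have hx'o : orderOf x' = 2 ^ (a - 1) := by
      rw [hx', ← hx]
      simpa using (MulAut.conj h).orderOf_eq x
    set A := Subgroup.zpowers x' with hA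
    have hAT : A ≤ ((h • T₀ : Sylow 2 G) : Subgroup G) := by
      rw [hA, Subgroup.zpowers_le]; exact hx'T
    have hrel : A.relIndex ((h • T₀ : Sylow 2 G) : Subgroup G) ≤ 2 := by
      have h5 := H18.card_inf_mul_relIndex A ((h • T₀ : Sylow 2 G) : Subgroup G)
      rw [inf_of_le_left hAT, hcardS, hA, Nat.card_zpowers, hx'o] at h5
      have h7 : 2 ^ a = 2 ^ (a - 1) * 2 := by
        rw [← pow_succ]; congr 1; omega
      rw [h7] at h5
      exact (Nat.eq_of_mul_eq_mul_left (by positivity) h5).le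
    exact centralizes_of_index_two (h • T₀ : Sylow 2 G).2 inferInstance hrel hQT' hgN h6
  obtain ⟨P, N, hN, hc⟩ := hasNormalPComplement_of_frobCond hF
  refine ⟨N, hN, ?_⟩
  rw [← hc.index_eq_card]
  have h1 := (P : Subgroup G).card_mul_index
  rw [hcardS, hG] at h1
  exact Nat.eq_of_mul_eq_mul_left (by positivity) h1

end Cfsg.Agent.S3971
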