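import Cfsg.Statements.S3974
import Cfsg.Agent.Lib.H19.Hopf4
import Cfsg.Agent.Lib.H19.Hopf2

set_option autoImplicit false
universe u v
open Cfsg

namespace Cfsg.Agent.S3974

/-- Let `Q` be a finite group with Schur multiplier `A`. Any two Schur covering groups of `Q` (finite stem extensions `σ₁ : Γ₁ →* Q`, `σ₂ : Γ₂ →* Q` with kernels isomorphic to `A`, `Γ₁, Γ₂` in the universe of `Q`) are isomorphic over `Q` — there is a group isomorphism `e : Γ₁ ≃* Γ₂` with `σ₂ ∘ e = σ₁` — if and only if the order of the commutator quotient of `Q` is coprime to the order of `A`. In particular a finite perfect group has a unique Schur covering group up to isomorphism over it. -/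
theorem result {Q : Type u} [Group Q] [Finite Q] {A : Type v} [CommGroup A] (hA : Cfsg.HasSchurMultiplier Q A) : (∀ (Γ₁ Γ₂ : Type u) [Group Γ₁] [Finite Γ₁] [Group Γ₂] [Finite Γ₂] (σ₁ : Γ₁ →* Q) (σ₂ : Γ₂ →* Q), Cfsg.IsStemExtension σ₁ → Cfsg.IsStemExtension σ₂ → Nonempty (σ₁.ker ≃* A) → Nonempty (σ₂.ker ≃* A) → ∃ e : Γ₁ ≃* Γ₂, σ₂.comp e.toMonoidHom = σ₁) ↔ Nat.Coprime (Nat.card (Abelianization Q)) (Nat.card A) := by
  
  have hε := Cfsg.Agent.H19.Hopf.canon_surjective Q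
  constructor
  · intro hall
    exact Cfsg.Agent.H19.Hopf.coprime_of_all_iso (Cfsg.Agent.H19.Hopf.canon Q) hε hA hall
  · intro hcop Γ₁ Γ₂ _ _ _ _ σ₁ σ₂ h₁ h₂ k₁ k₂
    exact Cfsg.Agent.H19.Hopf.exists_iso_of_coprime (Cfsg.Agent.H19.Hopf.canon Q) hε hA hcop Γ₁ Γ₂ σ₁ σ₂ h₁ h₂ k₁ k₂

end Cfsg.Agent.S3974
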