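import Cfsg.Statements.S3975
import Cfsg.Agent.Lib.H19.Wielandt

set_option autoImplicit false
open Cfsg

namespace Cfsg.Agent.S3975

theorem result {G : Type*} [Group G] [Finite G] (p β : ℕ) (hp : p.Prime) (hdiv : p ^ β ∣ Nat.card G) : Nat.card {H : Subgroup G // Nat.card H = p ^ β} ≡ 1 [MOD p] :=
  Cfsg.Agent.H19.card_subgroups_modEq hp hdiv

end Cfsg.Agent.S3975
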