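import Cfsg.Statements.S3976
import Cfsg.Agent.Lib.H19.Wielandt

set_option autoImplicit false
open Cfsg

namespace Cfsg.Agent.S3976

open scoped Pointwise

theorem result {G : Type*} [Group G] [Finite G] (p m s : ℕ) (hp : p.Prime) (hG : Nat.card G = p ^ m) (hs : s ≤ m) : Nat.card {H : Subgroup G // H.Normal ∧ Nat.card H = p ^ s} ≡ 1 [MOD p] := by
  classical
  haveI := Fact.mk hp
  have h1 := Cfsg.Agent.H19.card_subgroups_modEq (G := G) (p := p) (β := s) hp
    (by rw [hG]; exact pow_dvd_pow p hs)
  -- `G` acts on the subgroups of order `p ^ s` by conjugation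
  letI act : MulAction G {H : Subgroup G // Nat.card H = p ^ s} :=
    { smul := fun g H => ⟨H.1.map (MulAut.conj g).toMonoidHom,
        (Nat.card_congr (H.1.equivMapOfInjective _ (MulAut.conj g).injective).toEquiv.symm).trans H.2⟩
      one_smul := fun H => by
        apply Subtype.ext
        show H.1.map (MulAut.conj (1 : G)).toMonoidHom = H.1
        ext x; simp
      mul_smul := fun a b H => by
        apply Subtype.ext
        show H.1.map (MulAut.conj (a * b)).toMonoidHom =
          (H.1.map (MulAut.conj b).toMonoidHom).map (MulAut.conj a).toMonoidHom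
        rw [Subgroup.map_map]
        congr 1
        ext x
        simp [mul_assoc] }
  have hpG : IsPGroup p G := IsPGroup.of_card hG
  have h2 := hpG.card_modEq_card_fixedPoints {H : Subgroup G // Nat.card H = p ^ s}
  have h3 : Nat.card {H : Subgroup G // H.Normal ∧ Nat.card H = p ^ s} =
      Nat.card (MulAction.fixedPoints G {H : Subgroup G // Nat.card H = p ^ s}) := by
    apply Nat.card_congr
    refine ⟨fun H => ⟨⟨H.1, H.2.2⟩, ?_⟩, fun H => ⟨H.1.1, ?_, H.1.2⟩, fun H => rfl, fun H => rfl⟩
    · intro g
      apply Subtype.ext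
      show H.1.map (MulAut.conj g).toMonoidHom = H.1
      have hn := H.2.1
      have hcard : Nat.card (H.1.map (MulAut.conj g).toMonoidHom) = Nat.card H.1 :=
        Nat.card_congr (H.1.equivMapOfInjective _ (MulAut.conj g).injective).toEquiv.symm
      apply (Subgroup.eq_of_le_of_card_ge _ hcard.ge).symm.symm
      rintro _ ⟨x, hx, rfl⟩
      exact hn.conj_mem x hx g
    · constructor
      intro x hx g
      have h4 : H.1.1.map (MulAut.conj g).toMonoidHom = H.1.1 := congrArg Subtype.val (H.2 g)
      rw [← h4]
      exact ⟨x, hx, rfl⟩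
  rw [h3]
  exact h2.symm.trans h1

end Cfsg.Agent.S3976
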