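import Cfsg.Statements.S3979
import Mathlib

set_option autoImplicit false
open Cfsg

namespace Cfsg.Agent.S3979

/-- A finite cyclic group has trivial Schur multiplier: every finite stem extension of it is an isomorphism, said through `HasCyclicSchurMultiplier G 1`. -/
theorem result {G : Type*} [Group G] [Finite G] [IsCyclic G] : Cfsg.HasCyclicSchurMultiplier G 1 := by
  constructor
  · refine ⟨G, inferInstance, inferInstance, MonoidHom.id G, ⟨Function.surjective_id, ?_, ?_⟩, ?_⟩
    · rw [MonoidHom.ker_id]; exact bot_le
    · rw [MonoidHom.ker_id]; exact bot_le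
    · refine ⟨?_⟩
      rw [MonoidHom.ker_id]
      haveI : Unique (Multiplicative (ZMod 1)) := inferInstanceAs (Unique (ZMod 1))
      exact MulEquiv.ofUnique
  · intro Γ _ _ σ hσ
    refine ⟨1, ?_⟩
    have hcomm : ∀ a b : Γ, a * b = b * a := by
      have := MonoidHom.isMulCommutative_of_isCyclic_of_ker_le_center σ hσ.2.1
      exact fun a b => mul_comm' a b
    have hk : σ.ker = ⊥ := by
      apply le_antisymm _ bot_le
      refine le_trans hσ.2.2 ?_
      rw [commutator_eq_closure, Subgroup.closure_le]
      rintro _ ⟨a, b, rfl⟩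
      rw [commutatorElement_def, hcomm a b]
      simp
    rintro ⟨x, hx⟩
    refine ⟨1, ?_⟩
    ext
    rw [hk] at hx
    simpa using (Subgroup.mem_bot.1 hx).symm

end Cfsg.Agent.S3979
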