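import Cfsg.Statements.S3992
import Cfsg.Agent.Lib.H01.Solv
-- import your own Cfsg.Agent.* helpers here

set_option autoImplicit false
open Cfsg

namespace Cfsg.Agent.S3992

open scoped commutatorElement

universe u

/-- every nonidentity element has prime power order -/
abbrev CP (G : Type*) [Group G] : Prop := ∀ g : G, g ≠ 1 → IsPrimePow (orderOf g)

theorem no_pq {p q : ℕ} (hp : p.Prime) (hq : q.Prime) (hpq : p ≠ q) : ¬ IsPrimePow (p * q) := by
  intro h
  obtain ⟨r, k, hr, -, hk⟩ := (isPrimePow_nat_iff _).1 h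
  have h1 : p ∣ r ^ k := hk ▸ dvd_mul_right p q
  have h2 : q ∣ r ^ k := hk ▸ dvd_mul_left q p
  have h3 := (Nat.prime_dvd_prime_iff_eq hp hr).1 (hp.dvd_of_dvd_pow h1)
  have h4 := (Nat.prime_dvd_prime_iff_eq hq hr).1 (hq.dvd_of_dvd_pow h2)
  exact hpq (h3.trans h4.symm)

theorem cp_comm {G : Type*} [Group G] (hcp : CP G) {p q : ℕ} (hp : p.Prime) (hq : q.Prime)
    (hpq : p ≠ q) {x y : G} (hx : orderOf x ≠ 0) (hy : orderOf y ≠ 0) (hpx : p ∣ orderOf x) (hqy : q ∣ orderOf y)
    (hc : Commute x y) : False := by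
  obtain ⟨a, ha⟩ := hpx
  obtain ⟨b, hb⟩ := hqy
  have ha0 : 0 < a := Nat.pos_of_ne_zero (fun h => hx (by rw [ha, h, mul_zero]))
  have hb0 : 0 < b := Nat.pos_of_ne_zero (fun h => hy (by rw [hb, h, mul_zero]))
  have h1 : orderOf (x ^ a) = p := by
    rw [orderOf_pow_of_dvd (fun h => by omega) ⟨p, by rw [ha]; ring⟩, ha]
    exact Nat.mul_div_cancel _ ha0
  have h2 : orderOf (y ^ b) = q := by
    rw [orderOf_pow_of_dvd (fun h => by omega) ⟨q, by rw [hb]; ring⟩, hb]
    exact Nat.mul_div_cancel _ hb0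
  have hc' : Commute (x ^ a) (y ^ b) := hc.pow_pow a b
  have h3 : orderOf (x ^ a * y ^ b) = p * q := by
    rw [hc'.orderOf_mul_eq_mul_orderOf_of_coprime (by rw [h1, h2]; exact (Nat.coprime_primes hp hq).2 hpq), h1, h2]
  have h4 : x ^ a * y ^ b ≠ 1 := by
    intro h
    rw [h, orderOf_one] at h3
    have h6 := hp.two_le
    have h7 := hq.two_le
    nlinarith
  have h5 := hcp _ h4
  rw [h3] at h5
  exact no_pq hp hq hpq h5

theorem cp_of_surj {G H : Type*} [Group G] [Finite G] [Group H] (hcp : CP G) (f : G →* H)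
    (hf : Function.Surjective f) : CP H := by
  intro y hy
  obtain ⟨x, rfl⟩ := hf y
  have hx : x ≠ 1 := by
    rintro rfl
    exact hy (map_one f)
  obtain ⟨r, k, hr, hk, hrk⟩ := (isPrimePow_nat_iff _).1 (hcp x hx)
  have h1 : orderOf (f x) ∣ r ^ k := hrk ▸ orderOf_map_dvd f x
  obtain ⟨j, -, hj⟩ := (Nat.dvd_prime_pow hr).1 h1
  have hj0 : j ≠ 0 := by
    rintro rfl
    rw [pow_zero, orderOf_eq_one_iff] at hj
    exact hy hj
  exact (isPrimePow_nat_iff _).2 ⟨r, j, hr, Nat.pos_of_ne_zero hj0, hj.symm⟩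

theorem cp_of_sub {G : Type*} [Group G] (hcp : CP G) (H : Subgroup G) : CP H := by
  intro y hy
  rw [Subgroup.orderOf_coe y |>.symm]
  exact hcp _ (by simpa using hy)

section ring

variable {R : Type*} [Ring R]

theorem sum_perm {X : R} {q : ℕ} (hq : 0 < q) (hX : X ^ q = 1) (f : ℕ → ℕ)
    (hf : ∀ a < q, ∀ b < q, f a ≡ f b [MOD q] → a = b) :
    ∑ a ∈ Finset.range q, X ^ f a = ∑ b ∈ Finset.range q, X ^ b := by
  have h1 : ∀ a, X ^ f a = X ^ (f a % q) := fun a => by
    conv_lhs => rw [← Nat.div_add_mod (f a) q, pow_add, pow_mul, hX, one_pow, one_mul]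
  simp_rw [h1]
  have hinj : Set.InjOn (fun a => f a % q) (Finset.range q : Set ℕ) := by
    intro a ha b hb h
    exact hf a (Finset.mem_range.mp ha) b (Finset.mem_range.mp hb) h
  have himg : (Finset.range q).image (fun a => f a % q) = Finset.range q := by
    apply Finset.eq_of_subset_of_card_le
    · intro b hb
      obtain ⟨a, -, rfl⟩ := Finset.mem_image.1 hb
      exact Finset.mem_range.2 (Nat.mod_lt _ hq)
    · rw [Finset.card_image_of_injOn hinj]
  conv_rhs => rw [← himg, Finset.sum_image hinj]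

theorem rank_ring {X Y : R} {q : ℕ} (hq : q.Prime) (hXY : Commute X Y) (hX : X ^ q = 1)
    (hS : ∑ j ∈ Finset.range q, X ^ j = 0)
    (hT : ∀ t < q, ∑ j ∈ Finset.range q, (X ^ t * Y) ^ j = 0) : (q : R) = 0 := by
  have h0 : ∑ t ∈ Finset.range q, ∑ j ∈ Finset.range q, (X ^ t * Y) ^ j = 0 :=
    Finset.sum_eq_zero (fun t ht => hT t (Finset.mem_range.1 ht))
  have h1 : ∀ t j : ℕ, (X ^ t * Y) ^ j = X ^ (t * j) * Y ^ j := fun t j => by
    rw [(hXY.pow_left t).mul_pow, pow_mul]
  simp_rw [h1] at h0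
  rw [Finset.sum_comm] at h0
  rw [Finset.sum_eq_single 0] at h0
  · simpa using h0
  · intro j hj hj0
    rw [← Finset.sum_mul]
    have hjq : j < q := Finset.mem_range.1 hj
    rw [sum_perm hq.pos hX (fun t => t * j), hS, zero_mul]
    intro a ha b hb h
    have hc : Nat.gcd q j = 1 := by
      exact (Nat.Prime.coprime_iff_not_dvd hq).2 (Nat.not_dvd_of_pos_of_lt (Nat.pos_of_ne_zero hj0) hjq)
    exact Nat.ModEq.eq_of_lt_of_lt (Nat.ModEq.cancel_right_of_coprime hc h) ha hb
  · intro h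
    exact absurd (Finset.mem_range.2 hq.pos) h

theorem frob_ring {X Y : R} {q r : ℕ} (hq : q.Prime) (hX : X ^ q = 1)
    (hSX : ∑ j ∈ Finset.range q, X ^ j = 0) (hSY : ∑ i ∈ Finset.range r, Y ^ i = 0) (hr : 0 < r)
    (hm : ∀ i, 0 < i → i < r → ∃ m : ℕ, Y ^ i * X = X ^ m * Y ^ i ∧ ¬ m ≡ 1 [MOD q]) : (q : R) = 0 := by
  have h0 : ∑ a ∈ Finset.range q, X ^ a * (∑ i ∈ Finset.range r, Y ^ i) * X ^ (q - a) = 0 := by
    rw [hSY]; simp
  simp_rw [Finset.mul_sum, Finset.sum_mul] at h0
  rw [Finset.sum_comm] at h0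
  rw [Finset.sum_eq_single 0] at h0
  · have h1 : ∀ a ∈ Finset.range q, X ^ a * Y ^ 0 * X ^ (q - a) = 1 := by
      intro a ha
      have ha' : a ≤ q := (Finset.mem_range.1 ha).le
      rw [pow_zero, mul_one, ← pow_add, Nat.add_sub_cancel' ha', hX]
    rw [Finset.sum_congr rfl h1] at h0
    simpa using h0
  · intro i hi hi0
    obtain ⟨m, hm1, hm2⟩ := hm i (Nat.pos_of_ne_zero hi0) (Finset.mem_range.1 hi)
    have h2 : ∀ b : ℕ, Y ^ i * X ^ b = X ^ (m * b) * Y ^ i := by
      intro b
      induction b with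
      | zero => simp
      | succ b ih =>
        rw [pow_succ, ← mul_assoc, ih, mul_assoc, hm1, ← mul_assoc, ← pow_add, Nat.mul_succ]
    have h3 : ∀ a ∈ Finset.range q, X ^ a * Y ^ i * X ^ (q - a) = X ^ (a + m * (q - a)) * Y ^ i := by
      intro a _
      rw [mul_assoc, h2, ← mul_assoc, pow_add]
    rw [Finset.sum_congr rfl h3, ← Finset.sum_mul]
    rw [sum_perm hq.pos hX (fun a => a + m * (q - a)), hSX, zero_mul]
    intro a ha b hb h
    haveI := Fact.mk hq
    have h4 : ((a + m * (q - a) : ℕ) : ZMod q) = ((b + m * (q - b) : ℕ) : ZMod q) :=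
      (ZMod.natCast_eq_natCast_iff _ _ _).2 h
    push_cast [Nat.cast_sub ha.le, Nat.cast_sub hb.le] at h4
    simp only [ZMod.natCast_self, zero_sub] at h4
    have h5 : ((1 : ZMod q) - m) * ((a : ZMod q) - b) = 0 := by linear_combination h4
    have h6 : (1 : ZMod q) - m ≠ 0 := by
      intro h7
      apply hm2
      apply (ZMod.natCast_eq_natCast_iff _ _ _).1
      push_cast
      linear_combination -h7
    have h8 : (a : ZMod q) = b := by
      have := (mul_eq_zero.1 h5).resolve_left h6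
      linear_combination this
    exact Nat.ModEq.eq_of_lt_of_lt ((ZMod.natCast_eq_natCast_iff _ _ _).1 h8) ha hb
  · intro h
    exact absurd (Finset.mem_range.2 hr) h

end ring

section act

variable {A : Type*} [CommGroup A]

/-- the action on an abelian group as a ring of endomorphisms -/
noncomputable def rho : MulAut A →* AddMonoid.End (Additive A) where
  toFun g := (MonoidHom.toAdditive (g.toMonoidHom) : Additive A →+ Additive A)
  map_one' := by
    ext a
    rfl
  map_mul' g h := by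
    ext a
    rfl

theorem rho_apply (g : MulAut A) (a : A) : (rho g) (Additive.ofMul a) = Additive.ofMul (g a) := rfl

theorem rho_pow_one {g : MulAut A} {n : ℕ} (h : g ^ n = 1) : (rho g) ^ n = 1 := by
  rw [← map_pow, h, map_one]

theorem geom_zero {g : MulAut A} {n : ℕ} (h : g ^ n = 1) (hf : ∀ a, g a = a → a = 1) :
    ∑ j ∈ Finset.range n, (rho g) ^ j = 0 := by
  have h1 := mul_geom_sum (rho g) n
  rw [rho_pow_one h, sub_self] at h1
  ext a
  have h2 := congrArg (fun φ : AddMonoid.End (Additive A) => φ (Additive.ofMul a)) h1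
  set w := (∑ j ∈ Finset.range n, (rho g) ^ j) (Additive.ofMul a) with hw
  have h2' : rho g w - w = 0 := h2
  have h3 : rho g w = w := sub_eq_zero.1 h2'
  have h4 : g (Additive.toMul w) = Additive.toMul w := congrArg Additive.toMul h3
  have h5 := hf _ h4
  exact congrArg Additive.ofMul h5

theorem exp_of_cast {q : ℕ} (h : ((q : ℕ) : AddMonoid.End (Additive A)) = 0) (a : A) : a ^ q = 1 := by
  have h1 := congrArg (fun φ : AddMonoid.End (Additive A) => φ (Additive.ofMul a)) h
  simp only [AddMonoid.End.natCast_apply, AddMonoid.End.zero_apply] at h1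
  exact h1

theorem rank_act {q : ℕ} (hq : q.Prime) (X Y : MulAut A) (hc : X * Y = Y * X) (hX : X ^ q = 1)
    (hY : Y ^ q = 1) (fX : ∀ a, X a = a → a = 1) (fXY : ∀ t < q, ∀ a, (X ^ t * Y) a = a → a = 1)
    (a : A) : a ^ q = 1 := by
  apply exp_of_cast
  apply rank_ring (X := rho X) (Y := rho Y) hq
  · show rho X * rho Y = rho Y * rho X
    rw [← map_mul, hc, map_mul]
  · exact rho_pow_one hX
  · exact geom_zero hX fX
  · intro t ht
    have h1 : rho X ^ t * rho Y = rho (X ^ t * Y) := by rw [map_mul, map_pow]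
    rw [h1]
    apply geom_zero _ (fXY t ht)
    have hc' : Commute X Y := hc
    rw [(hc'.pow_left t).mul_pow, ← pow_mul, mul_comm t, pow_mul, hX, hY, one_pow, one_mul]

theorem frob_act {q r : ℕ} (hq : q.Prime) (hr : 0 < r) (X Y : MulAut A) (hX : X ^ q = 1)
    (hY : Y ^ r = 1) (fX : ∀ a, X a = a → a = 1) (fY : ∀ a, Y a = a → a = 1)
    (hm : ∀ i, 0 < i → i < r → ∃ m : ℕ, Y ^ i * X = X ^ m * Y ^ i ∧ ¬ m ≡ 1 [MOD q])
    (a : A) : a ^ q = 1 := by
  apply exp_of_cast
  apply frob_ring (X := rho X) (Y := rho Y) hq (rho_pow_one hX) (geom_zero hX fX) (geom_zero hY fY) hr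
  intro i hi hir
  obtain ⟨m, h1, h2⟩ := hm i hi hir
  refine ⟨m, ?_, h2⟩
  rw [← map_pow, ← map_mul, h1, map_mul, map_pow, map_pow]

end act

theorem no_three {H : Type*} [Group H] [Finite H] (hcp : CP H) (V : Subgroup H) [V.Normal]
    (hab : IsMulCommutative V) {p : ℕ} (hp : p.Prime) (hVp : ∀ v ∈ V, v ^ p = 1) (hV1 : V ≠ ⊥)
    (hpK : ¬ p ∣ Nat.card (H ⧸ V)) (W : Subgroup (H ⧸ V)) [W.Normal] (hWab : IsMulCommutative W)
    {s r : ℕ} (hs : s.Prime) (hr : r.Prime) (hsr : s ≠ r) (hW1 : W ≠ ⊥) (hWs : ∀ w ∈ W, w ^ s = 1)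
    (hrK : r ∣ Nat.card (H ⧸ V)) : False := by
  classical
  letI inst : CommGroup V := { (inferInstance : Group V) with mul_comm := fun a b => mul_comm' a b }
  let c : H →* MulAut V := MulAut.conjNormal
  have hc_apply : ∀ (x : H) (a : V), ((c x a : V) : H) = x * a * x⁻¹ := fun x a => MulAut.conjNormal_apply x a
  have hcpK : CP (H ⧸ V) := cp_of_surj hcp (QuotientGroup.mk' V) (QuotientGroup.mk'_surjective V)
  have hK0 : Nat.card (H ⧸ V) ≠ 0 := Nat.card_pos.ne'
  have htriv : ∀ x ∈ V, c x = 1 := by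
    intro x hx
    ext a
    rw [hc_apply]
    have h1 := mul_comm' (⟨x, hx⟩ : V) a
    have h2 : x * (a : H) = a * x := congrArg Subtype.val h1
    simp [h2]
  have hfact : ∀ x y : H, (x : H ⧸ V) = y → c x = c y := by
    intro x y hxy
    have h1 : x⁻¹ * y ∈ V := QuotientGroup.eq.1 hxy
    have h2 : y = x * (x⁻¹ * y) := by group
    rw [h2, map_mul, htriv _ h1, mul_one]
  have hpow1 : ∀ (x : H) (n : ℕ), ((x : H ⧸ V)) ^ n = 1 → (c x) ^ n = 1 := by
    intro x n h
    rw [← map_pow]
    apply htriv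
    rw [← QuotientGroup.eq_one_iff]
    exact_mod_cast h
  have hord : ∀ a : V, a ≠ 1 → orderOf (a : H) = p := by
    intro a ha
    haveI := Fact.mk hp
    apply orderOf_eq_prime (hVp a a.2) (fun h => ha (Subtype.ext h))
  have hfpf : ∀ x : H, (x : H ⧸ V) ≠ 1 → ∀ a : V, c x a = a → a = 1 := by
    intro x hx a hxa
    by_contra ha
    have hx1 : x ≠ 1 := by
      rintro rfl
      exact hx rfl
    obtain ⟨l, k, hl, hk, hlk⟩ := (isPrimePow_nat_iff _).1 (hcp x hx1)
    have hcomm : Commute x (a : H) := by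
      have h1 : x * a * x⁻¹ = a := by rw [← hc_apply, hxa]
      show x * a = a * x
      calc x * a = x * a * x⁻¹ * x := by group
        _ = a * x := by rw [h1]
    by_cases hlp : l = p
    · subst hlp
      have h2 : orderOf (x : H ⧸ V) ∣ l ^ k := by
        rw [hlk]
        exact orderOf_map_dvd (QuotientGroup.mk' V) x
      obtain ⟨j, -, hj⟩ := (Nat.dvd_prime_pow hp).1 h2
      have h3 : orderOf (x : H ⧸ V) ∣ Nat.card (H ⧸ V) := orderOf_dvd_natCard _
      rw [hj] at h3
      rcases Nat.eq_zero_or_pos j with rfl | hj0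
      · rw [pow_zero, orderOf_eq_one_iff] at hj
        exact hx hj
      · exact hpK ((dvd_pow_self l hj0.ne').trans h3)
    · have hl1 : l ∣ orderOf x := by rw [← hlk]; exact dvd_pow_self l hk.ne'
      have hx0 : orderOf x ≠ 0 := (orderOf_pos x).ne'
      exact cp_comm hcp hl hp hlp hx0 (orderOf_pos _).ne' hl1 (by rw [hord a ha]) hcomm
  obtain ⟨w, hwW, hw1⟩ : ∃ w ∈ W, w ≠ 1 := by
    rcases W.bot_or_exists_ne_one with h | h
    · exact absurd h hW1
    · exact h
  haveI := Fact.mk hs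
  haveI := Fact.mk hr
  have hwo : orderOf w = s := orderOf_eq_prime (hWs w hwW) hw1
  have hsK : s ∣ Nat.card (H ⧸ V) := hwo ▸ orderOf_dvd_natCard w
  have hsp : s ≠ p := by
    rintro rfl
    exact hpK hsK
  have hexp : ¬ ∀ a : V, a ^ s = 1 := by
    intro h
    rcases V.bot_or_exists_ne_one with h' | ⟨v, hv, hv1⟩
    · exact hV1 h'
    · have ha : ((⟨v, hv⟩ : V)) ≠ 1 := fun h'' => hv1 (congrArg Subtype.val h'')
      have h1 : orderOf ((⟨v, hv⟩ : V) : H) = p := hord _ ha
      have h2 : ((⟨v, hv⟩ : V) : H) ^ s = 1 := by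
        have := congrArg Subtype.val (h ⟨v, hv⟩)
        simpa using this
      have h3 : p ∣ s := h1 ▸ orderOf_dvd_of_pow_eq_one h2
      exact hsp ((Nat.prime_dvd_prime_iff_eq hp hs).1 h3).symm
  obtain ⟨x, hx⟩ := QuotientGroup.mk_surjective w
  have hxW : (x : H ⧸ V) ∈ W := by rw [hx]; exact hwW
  have hXs : (c x) ^ s = 1 := hpow1 x s (by rw [hx]; exact hWs w hwW)
  have fX : ∀ a, c x a = a → a = 1 := hfpf x (by rw [hx]; exact hw1)
  -- `W` is generated by `w`
  have hcyc : ∀ u ∈ W, ∃ m : ℕ, u = w ^ m := by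
    intro u hu
    by_contra hno
    push Not at hno
    obtain ⟨y, hy⟩ := QuotientGroup.mk_surjective u
    apply hexp
    apply rank_act hs (c x) (c y)
    · rw [← map_mul, ← map_mul]
      apply hfact
      have h1 := mul_comm' (⟨w, hwW⟩ : W) ⟨u, hu⟩
      have h2 : w * u = u * w := congrArg Subtype.val h1
      show ((x : H ⧸ V)) * (y : H ⧸ V) = (y : H ⧸ V) * (x : H ⧸ V)
      rw [hx, hy, h2]
    · exact hXs
    · exact hpow1 y s (by rw [hy]; exact hWs u hu)
    · exact fX
    · intro t _ a ha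
      have h1 : (c x) ^ t * c y = c (x ^ t * y) := by rw [map_mul, map_pow]
      rw [h1] at ha
      refine hfpf _ ?_ a ha
      intro h2
      have h3 : w ^ t * u = 1 := by
        have : ((x ^ t * y : H) : H ⧸ V) = (x : H ⧸ V) ^ t * (y : H ⧸ V) := rfl
        rw [this, hx, hy] at h2
        exact h2
      apply hno (t * (s - 1))
      have h4 : w ^ t * w ^ (t * (s - 1)) = 1 := by
        rw [← pow_add, show t + t * (s - 1) = t * s by
          obtain ⟨s', rfl⟩ : ∃ s', s = s' + 1 := ⟨s - 1, by have := hs.pos; omega⟩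
          simp [Nat.mul_succ, add_comm], pow_mul', hWs w hwW, one_pow]
      exact mul_left_cancel (h3.trans h4.symm)
  obtain ⟨ybar, hybar⟩ := exists_prime_orderOf_dvd_card' r hrK
  have hy1 : ybar ≠ 1 := by
    rintro rfl
    rw [orderOf_one] at hybar
    exact hr.one_lt.ne hybar
  obtain ⟨y, hy⟩ := QuotientGroup.mk_surjective ybar
  apply hexp
  apply frob_act hs hr.pos (c x) (c y) hXs
    (hpow1 y r (by rw [hy, ← hybar]; exact pow_orderOf_eq_one _)) fX (hfpf y (by rw [hy]; exact hy1))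
  intro i hi hir
  have hconj : ybar ^ i * w * (ybar ^ i)⁻¹ ∈ W := ‹W.Normal›.conj_mem w hwW _
  obtain ⟨m, hm⟩ := hcyc _ hconj
  refine ⟨m, ?_, ?_⟩
  · rw [← map_pow, ← map_pow, ← map_mul, ← map_mul]
    apply hfact
    show (y : H ⧸ V) ^ i * (x : H ⧸ V) = (x : H ⧸ V) ^ m * (y : H ⧸ V) ^ i
    rw [hx, hy, ← hm]
    group
  · intro hmod
    have h1 : w ^ m = w := by
      have h2 : w ^ m = w ^ 1 := (pow_eq_pow_iff_modEq).2 (by rw [hwo]; exact hmod)
      rwa [pow_one] at h2
    rw [h1] at hm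
    have hcomm : Commute w (ybar ^ i) := by
      show w * ybar ^ i = ybar ^ i * w
      calc w * ybar ^ i = ybar ^ i * w * (ybar ^ i)⁻¹ * ybar ^ i := by rw [hm]
        _ = ybar ^ i * w := by group
    have hcop : (orderOf ybar).Coprime i := by
      rw [hybar]
      exact (Nat.Prime.coprime_iff_not_dvd hr).2 (Nat.not_dvd_of_pos_of_lt hi hir)
    have h3 : orderOf (ybar ^ i) = r := by rw [hcop.orderOf_pow, hybar]
    exact cp_comm hcpK hs hr hsr (orderOf_pos _).ne' (orderOf_pos _).ne' (by rw [hwo]) (by rw [h3]) hcomm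

theorem two_primes (n : ℕ) : ∀ (H : Type u) [Group H] [Finite H], Nat.card H = n →
    Group.IsSolvable H → CP H → (Nat.card H).primeFactors.card ≤ 2 := by
  induction n using Nat.strong_induction_on with
  | _ n ih =>
    intro H _ _ hn hsol hcp
    by_cases hnt : Nontrivial H
    · classical
      obtain ⟨V, p, hVn, hV1, hp, hab, hVp⟩ := Cfsg.Agent.H01.exists_elementary_abelian_normal (G := H)
      haveI := Fact.mk hp
      have hVcard : ∃ k, Nat.card V = p ^ k := by
        have hP : IsPGroup p V := by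
          intro v
          refine ⟨1, ?_⟩
          rw [pow_one]
          exact Subtype.ext (hVp v v.2)
        exact IsPGroup.iff_card.1 hP
      obtain ⟨k, hk⟩ := hVcard
      have hcard : Nat.card H = Nat.card (H ⧸ V) * Nat.card V := Subgroup.card_eq_card_quotient_mul_card_subgroup V
      have hV1' : 1 < Nat.card V := by
        haveI : Nontrivial V := (Subgroup.nontrivial_iff_ne_bot V).2 hV1
        exact Finite.one_lt_card
      have hK0 : 0 < Nat.card (H ⧸ V) := Nat.card_pos
      have hlt : Nat.card (H ⧸ V) < n := by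
        rw [← hn, hcard]
        nlinarith
      have hsolK : Group.IsSolvable (H ⧸ V) := inferInstance
      have hcpK : CP (H ⧸ V) := cp_of_surj hcp (QuotientGroup.mk' V) (QuotientGroup.mk'_surjective V)
      have hIH := ih _ hlt (H ⧸ V) rfl hsolK hcpK
      have hsub : (Nat.card H).primeFactors ⊆ insert p (Nat.card (H ⧸ V)).primeFactors := by
        intro q hq
        have hq' := Nat.prime_of_mem_primeFactors hq
        have hqd := Nat.dvd_of_mem_primeFactors hq
        rw [hcard, hk] at hqd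
        rcases (Nat.Prime.dvd_mul hq').1 hqd with h | h
        · exact Finset.mem_insert_of_mem (Nat.mem_primeFactors.2 ⟨hq', h, hK0.ne'⟩)
        · have := (Nat.prime_dvd_prime_iff_eq hq' hp).1 (hq'.dvd_of_dvd_pow h)
          rw [this]
          exact Finset.mem_insert_self _ _
      by_cases hpK : p ∣ Nat.card (H ⧸ V)
      · rw [Finset.insert_eq_of_mem (Nat.mem_primeFactors.2 ⟨hp, hpK, hK0.ne'⟩)] at hsub
        exact (Finset.card_le_card hsub).trans hIH
      by_cases hK2 : (Nat.card (H ⧸ V)).primeFactors.card ≤ 1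
      · calc _ ≤ (insert p (Nat.card (H ⧸ V)).primeFactors).card := Finset.card_le_card hsub
          _ ≤ (Nat.card (H ⧸ V)).primeFactors.card + 1 := Finset.card_insert_le _ _
          _ ≤ 2 := by omega
      · exfalso
        have hcardK : 1 < Nat.card (H ⧸ V) := by
          by_contra h
          have h1 : Nat.card (H ⧸ V) = 1 := by omega
          rw [h1] at hK2
          simp at hK2
        haveI hntK : Nontrivial (H ⧸ V) := Finite.one_lt_card_iff_nontrivial.1 hcardK
        obtain ⟨W, s, hWn, hW1, hs, hWab, hWs⟩ := Cfsg.Agent.H01.exists_elementary_abelian_normal (G := H ⧸ V)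
        obtain ⟨r, hrmem, hrs⟩ : ∃ r ∈ (Nat.card (H ⧸ V)).primeFactors, r ≠ s :=
          Finset.exists_mem_ne (by omega) s
        exact no_three hcp V hab hp hVp hV1 hpK W hWab hs (Nat.prime_of_mem_primeFactors hrmem) hrs.symm hW1 hWs
          (Nat.dvd_of_mem_primeFactors hrmem)
    · have h1 : Nat.card H = 1 := by
        rw [not_nontrivial_iff_subsingleton] at hnt
        exact Nat.card_unique
      rw [h1]
      simp

theorem ex_elem {G : Type*} [Group G] [Finite G] (R : Subgroup G) (hRn : R.Normal)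
    (hRs : Group.IsSolvable R) (hR1 : R ≠ ⊥) :
    ∃ V : Subgroup G, V ≤ R ∧ V.Normal ∧ V ≠ ⊥ ∧ IsMulCommutative V ∧
      ∃ p : ℕ, p.Prime ∧ ∀ x ∈ V, x ^ p = 1 := by
  obtain ⟨N, hNR, hNn, hN, hmin⟩ := Cfsg.Agent.H01.exists_minimal_normal_le hRn hR1
  have hsolv : Group.IsSolvable N :=
    Group.isSolvable_of_isSolvable_injective (f := Subgroup.inclusion hNR) (Subgroup.inclusion_injective hNR)
  have hcomm : ⁅N, N⁆ = ⊥ := by
    rcases hmin ⁅N, N⁆ (Subgroup.commutator_normal N N) (Subgroup.commutator_le_left N N) with h | h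
    · exact h
    · exact absurd h (Cfsg.Agent.H01.commutator_subgroup_ne_self hsolv hN)
  have hcomm' : ∀ x ∈ N, ∀ y ∈ N, x * y = y * x := by
    intro x hx y hy
    have : ⁅x, y⁆ ∈ ⁅N, N⁆ := Subgroup.commutator_mem_commutator hx hy
    rw [hcomm, Subgroup.mem_bot] at this
    exact commutatorElement_eq_one_iff_mul_comm.mp this
  have hab : IsMulCommutative N := ⟨⟨fun a b => Subtype.ext (hcomm' a a.2 b b.2)⟩⟩
  refine ⟨N, hNR, hNn, hN, hab, ?_⟩
  have hnt : Nontrivial N := (Subgroup.nontrivial_iff_ne_bot N).mpr hN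
  obtain ⟨p, hp⟩ : ∃ p, p.Prime ∧ p ∣ Nat.card N := by
    have h1 : Nat.card N ≠ 1 := Finite.one_lt_card.ne'
    exact ⟨(Nat.card N).minFac, Nat.minFac_prime h1, Nat.minFac_dvd _⟩
  refine ⟨p, hp.1, ?_⟩
  let Ω : Subgroup G :=
    { carrier := {x | x ∈ N ∧ x ^ p = 1}
      one_mem' := ⟨N.one_mem, one_pow p⟩
      mul_mem' := by
        rintro a b ⟨ha, ha'⟩ ⟨hb, hb'⟩
        refine ⟨N.mul_mem ha hb, ?_⟩
        have : Commute a b := hcomm' a ha b hb
        rw [this.mul_pow, ha', hb', one_mul]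
      inv_mem' := by
        rintro a ⟨ha, ha'⟩
        exact ⟨N.inv_mem ha, by rw [inv_pow, ha', inv_one]⟩ }
  have hΩn : Ω.Normal := by
    constructor
    rintro x ⟨hx, hx'⟩ g
    refine ⟨hNn.conj_mem x hx g, ?_⟩
    rw [conj_pow, hx', mul_one, mul_inv_cancel]
  have hΩN : Ω ≤ N := fun x hx => hx.1
  have hΩ : Ω ≠ ⊥ := by
    haveI := Fact.mk hp.1
    obtain ⟨x, hx⟩ := exists_prime_orderOf_dvd_card' p hp.2
    intro h
    have hx1 : (x : G) ∈ Ω := ⟨x.2, by
      have : x ^ p = 1 := by rw [← hx, pow_orderOf_eq_one]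
      exact_mod_cast congrArg Subtype.val this⟩
    rw [h, Subgroup.mem_bot] at hx1
    have : x = 1 := Subtype.ext hx1
    rw [this, orderOf_one] at hx
    exact hp.1.one_lt.ne hx
  rcases hmin Ω hΩn hΩN with h | h
  · exact absurd h hΩ
  · intro x hx
    rw [← h] at hx
    exact hx.2

theorem eq_one_of_two {G : Type*} [Group G] {x : G} {p q i j : ℕ} (hp : p.Prime) (hq : q.Prime) (hpq : p ≠ q)
    (h1 : x ^ (p ^ i) = 1) (h2 : x ^ (q ^ j) = 1) : x = 1 := by
  have h3 := orderOf_dvd_of_pow_eq_one h1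
  have h4 := orderOf_dvd_of_pow_eq_one h2
  have h5 : Nat.Coprime (p ^ i) (q ^ j) :=
    Nat.Coprime.pow _ _ ((Nat.coprime_primes hp hq).2 hpq)
  have h6 := Nat.eq_one_of_dvd_coprimes h5 h3 h4
  exact orderOf_eq_one_iff.1 h6

theorem radical_pgroup {G : Type*} [Group G] [Finite G] (hcp : CP G) (hns : ¬ Group.IsSolvable G)
    (R : Subgroup G) [hRn : R.Normal] (hRs : Group.IsSolvable R) : ∃ p : ℕ, p.Prime ∧ IsPGroup p R := by
  classical
  by_cases hR1 : R = ⊥
  · subst hR1
    exact ⟨2, Nat.prime_two, IsPGroup.of_bot⟩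
  obtain ⟨V, hVR, hVn, hV1, hVab, p, hp, hVp⟩ := ex_elem R hRn hRs hR1
  haveI := Fact.mk hp
  refine ⟨p, hp, ?_⟩
  let S : Set (Subgroup G) := {N | N.Normal ∧ N ≤ R ∧ IsPGroup p N}
  have hVP : IsPGroup p V := by
    intro v
    refine ⟨1, ?_⟩
    rw [pow_one]
    exact Subtype.ext (hVp v v.2)
  have hS : S.Nonempty := ⟨V, hVn, hVR, hVP⟩
  obtain ⟨P, hPS⟩ := S.toFinite.exists_maximal hS
  obtain ⟨⟨hPn, hPR, hPp⟩, hPmax⟩ := hPS
  by_cases hPeq : P = R
  · rw [← hPeq]; exact hPp
  exfalso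
  apply hns
  haveI := hPn
  let π := QuotientGroup.mk' P
  have hπs : Function.Surjective π := QuotientGroup.mk'_surjective P
  have hRbn : (R.map π).Normal := hRn.map π hπs
  have hRbs : Group.IsSolvable (R.map π) :=
    Group.isSolvable_of_surjective (f := π.subgroupMap R) (π.subgroupMap_surjective R)
  have hRb1 : R.map π ≠ ⊥ := by
    intro h
    apply hPeq
    apply le_antisymm hPR
    intro r hr
    have h1 : π r ∈ R.map π := Subgroup.mem_map_of_mem π hr
    rw [h, Subgroup.mem_bot] at h1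
    exact (QuotientGroup.eq_one_iff r).1 h1
  obtain ⟨W, hWR, hWn, hW1, hWab, q, hq, hWq⟩ := ex_elem (R.map π) hRbn hRbs hRb1
  haveI := Fact.mk hq
  let T : Subgroup G := W.comap π
  haveI hTn : T.Normal := hWn.comap π
  have hPT : P ≤ T := by
    intro x hx
    show π x ∈ W
    have : π x = 1 := (QuotientGroup.eq_one_iff x).2 hx
    rw [this]
    exact W.one_mem
  have hTR : T ≤ R := by
    intro t ht
    obtain ⟨r, hr, hrt⟩ := hWR ht
    have h1 : r⁻¹ * t ∈ P := by
      apply (QuotientGroup.eq_one_iff _).1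
      show π (r⁻¹ * t) = 1
      rw [map_mul, map_inv, hrt, inv_mul_cancel]
    have h2 : t = r * (r⁻¹ * t) := by group
    rw [h2]
    exact R.mul_mem hr (hPR h1)
  have hqp : q ≠ p := by
    rintro rfl
    have hTp : IsPGroup q T := by
      intro t
      have h1 : π (t : G) ∈ W := t.2
      have h2 : (t : G) ^ q ∈ P := by
        apply (QuotientGroup.eq_one_iff _).1
        show π ((t : G) ^ q) = 1
        rw [map_pow]
        exact hWq _ h1
      obtain ⟨k, hk⟩ := hPp ⟨_, h2⟩
      refine ⟨k + 1, ?_⟩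
      apply Subtype.ext
      have h3 : ((t : G) ^ q) ^ (q ^ k) = 1 := by
        have := congrArg Subtype.val hk
        simpa using this
      show (t : G) ^ q ^ (k + 1) = 1
      rw [pow_succ', pow_mul]
      exact h3
    have h1 : T ≤ P := hPmax ⟨hTn, hTR, hTp⟩ hPT
    apply hW1
    rw [eq_bot_iff]
    intro w hw
    obtain ⟨t, rfl⟩ := hπs w
    exact (Subgroup.mem_bot).2 ((QuotientGroup.eq_one_iff t).2 (h1 hw))
  let Q : Sylow q T := Classical.choice Sylow.nonempty
  let Q' : Subgroup G := (Q : Subgroup T).map T.subtype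
  have hQ'T : Q' ≤ T := Subgroup.map_subtype_le _
  have hQ'p : ∀ u ∈ Q', ∃ k : ℕ, u ^ (q ^ k) = 1 := by
    rintro _ ⟨u₀, hu₀, rfl⟩
    obtain ⟨k, hk⟩ := Q.isPGroup' ⟨u₀, hu₀⟩
    refine ⟨k, ?_⟩
    have h1 := congrArg (fun x : (Q : Subgroup T) => ((x : T) : G)) hk
    simpa using h1
  have hinter : ∀ x ∈ P, (∃ k : ℕ, x ^ (q ^ k) = 1) → x = 1 := by
    rintro x hx ⟨k, hk⟩
    obtain ⟨j, hj⟩ := hPp ⟨x, hx⟩
    have h1 : x ^ (p ^ j) = 1 := by
      have := congrArg Subtype.val hj
      simpa using this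
    exact eq_one_of_two hp hq hqp.symm h1 hk
  have hQq : ∀ u ∈ Q', u ^ q = 1 := by
    intro u hu
    apply hinter
    · apply (QuotientGroup.eq_one_iff _).1
      show π (u ^ q) = 1
      rw [map_pow]
      exact hWq _ (hQ'T hu)
    · exact hQ'p _ (Q'.pow_mem hu q)
  have hQc : ∀ u ∈ Q', ∀ w ∈ Q', u * w = w * u := by
    intro u hu w hw
    have h1 : ⁅u, w⁆ = 1 := by
      apply hinter
      · apply (QuotientGroup.eq_one_iff _).1
        show π ⁅u, w⁆ = 1
        rw [map_commutatorElement, commutatorElement_eq_one_iff_mul_comm]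
        have h2 := mul_comm' (⟨π u, hQ'T hu⟩ : W) ⟨π w, hQ'T hw⟩
        exact congrArg Subtype.val h2
      · apply hQ'p
        rw [commutatorElement_def]
        exact Q'.mul_mem (Q'.mul_mem (Q'.mul_mem hu hw) (Q'.inv_mem hu)) (Q'.inv_mem hw)
    exact commutatorElement_eq_one_iff_mul_comm.1 h1
  -- the image of `Q'` in the quotient is all of `W`
  have hsurj : ∀ t ∈ T, ∃ u ∈ Q', π t = π u := by
    let f : T →* W := (π.comp T.subtype).codRestrict W (fun t => t.2)
    have hf : Function.Surjective f := by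
      rintro ⟨w, hw⟩
      obtain ⟨t, rfl⟩ := hπs w
      exact ⟨⟨t, hw⟩, rfl⟩
    let Q₂ : Sylow q W := Q.mapSurjective hf
    have hWP : IsPGroup q (⊤ : Subgroup W) := by
      rintro ⟨w, -⟩
      refine ⟨1, ?_⟩
      apply Subtype.ext
      apply Subtype.ext
      simpa using hWq w.1 w.2
    have h1 : (⊤ : Subgroup W) = Q₂ := Q₂.is_maximal' hWP le_top
    intro t ht
    have h2 : f ⟨t, ht⟩ ∈ (Q₂ : Subgroup W) := by
      rw [← h1]
      exact Subgroup.mem_top _
    obtain ⟨u₀, hu₀, hu₁⟩ := h2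
    refine ⟨u₀, ⟨u₀, hu₀, rfl⟩, ?_⟩
    have h3 := congrArg Subtype.val hu₁
    exact h3.symm
  have hordV : ∀ v ∈ V, v ≠ 1 → orderOf v = p := fun v hv hv1 => orderOf_eq_prime (hVp v hv) hv1
  have hordQ : ∀ u ∈ Q', u ≠ 1 → orderOf u = q := fun u hu hu1 => orderOf_eq_prime (hQq u hu) hu1
  have hfpf : ∀ u ∈ Q', u ≠ 1 → ∀ v ∈ V, u * v * u⁻¹ = v → v = 1 := by
    intro u hu hu1 v hv huv
    by_contra hv1
    have hcomm : Commute u v := by
      show u * v = v * u
      calc u * v = u * v * u⁻¹ * u := by group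
        _ = v * u := by rw [huv]
    exact cp_comm hcp hq hp hqp (orderOf_pos _).ne' (orderOf_pos _).ne' (by rw [hordQ u hu hu1])
      (by rw [hordV v hv hv1]) hcomm
  obtain ⟨u, huQ, hu1⟩ : ∃ u ∈ Q', u ≠ 1 := by
    rcases W.bot_or_exists_ne_one with h | ⟨w, hw, hw1⟩
    · exact absurd h hW1
    · obtain ⟨t, rfl⟩ := hπs w
      obtain ⟨u, hu, hut⟩ := hsurj t hw
      refine ⟨u, hu, ?_⟩
      rintro rfl
      rw [map_one] at hut
      exact hw1 hut
  have huo := hordQ u huQ hu1
  -- `Q'` is cyclic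
  have hcyc : ∀ w ∈ Q', ∃ m : ℕ, w = u ^ m := by
    intro w hw
    by_contra hno
    push Not at hno
    letI inst : CommGroup V := { (inferInstance : Group V) with mul_comm := fun a b => mul_comm' a b }
    let c : G →* MulAut V := MulAut.conjNormal
    have hc_apply : ∀ (x : G) (a : V), ((c x a : V) : G) = x * a * x⁻¹ :=
      fun x a => MulAut.conjNormal_apply x a
    have hfpf' : ∀ x ∈ Q', x ≠ 1 → ∀ a : V, c x a = a → a = 1 := by
      intro x hx hx1 a ha
      apply Subtype.ext
      apply hfpf x hx hx1 a a.2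
      rw [← hc_apply, ha]
    have hall : ∀ a : V, a ^ q = 1 := by
      apply rank_act hq (c u) (c w)
      · rw [← map_mul, ← map_mul, hQc u huQ w hw]
      · rw [← map_pow, hQq u huQ, map_one]
      · rw [← map_pow, hQq w hw, map_one]
      · exact hfpf' u huQ hu1
      · intro t _ a ha
        have h1 : (c u) ^ t * c w = c (u ^ t * w) := by rw [map_mul, map_pow]
        rw [h1] at ha
        refine hfpf' _ (Q'.mul_mem (Q'.pow_mem huQ t) hw) ?_ a ha
        intro h2
        apply hno (t * (q - 1))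
        have h4 : u ^ t * u ^ (t * (q - 1)) = 1 := by
          rw [← pow_add, show t + t * (q - 1) = t * q by
            obtain ⟨s', rfl⟩ : ∃ s', q = s' + 1 := ⟨q - 1, by have := hq.pos; omega⟩
            simp [Nat.mul_succ, add_comm], pow_mul', hQq u huQ, one_pow]
        exact mul_left_cancel (h2.trans h4.symm)
    rcases V.bot_or_exists_ne_one with h' | ⟨v, hv, hv1⟩
    · exact hV1 h'
    · have h2 : v ^ q = 1 := by
        have := congrArg Subtype.val (hall ⟨v, hv⟩)
        simpa using this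
      have h3 : p ∣ q := (hordV v hv hv1) ▸ orderOf_dvd_of_pow_eq_one h2
      exact hqp ((Nat.prime_dvd_prime_iff_eq hp hq).1 h3).symm
  -- centralizer of `u` is a `q`-group
  have hCp : ∀ x : G, x * u = u * x → ∃ k : ℕ, orderOf x = q ^ k := by
    intro x hx
    by_cases hx1 : x = 1
    · exact ⟨0, by rw [hx1, orderOf_one, pow_zero]⟩
    obtain ⟨l, k, hl, hk, hlk⟩ := (isPrimePow_nat_iff _).1 (hcp x hx1)
    by_cases hlq : l = q
    · exact ⟨k, by rw [← hlk, hlq]⟩
    · exfalso
      exact cp_comm hcp hl hq hlq (orderOf_pos _).ne' (orderOf_pos _).ne'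
        (by rw [← hlk]; exact dvd_pow_self l hk.ne') (by rw [huo]) hx
  let N : Subgroup G := Subgroup.normalizer (Q' : Set G)
  have hact : ∀ a ∈ N, ∃ α : ℕ, a * u * a⁻¹ = u ^ α := by
    intro a ha
    have h1 := (Subgroup.mem_normalizer_iff.1 ha u).1 huQ
    exact hcyc _ h1
  have hcomm2 : ∀ a ∈ N, ∀ b ∈ N, ((b * a)⁻¹ * (a * b)) * u = u * ((b * a)⁻¹ * (a * b)) := by
    intro a ha b hb
    obtain ⟨α, hα⟩ := hact a ha
    obtain ⟨β, hβ⟩ := hact b hb
    have h1 : (a * b) * u * (a * b)⁻¹ = (u ^ α) ^ β := by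
      calc (a * b) * u * (a * b)⁻¹ = a * (b * u * b⁻¹) * a⁻¹ := by group
        _ = a * u ^ β * a⁻¹ := by rw [hβ]
        _ = (a * u * a⁻¹) ^ β := by rw [conj_pow]
        _ = (u ^ α) ^ β := by rw [hα]
    have h2 : (b * a) * u * (b * a)⁻¹ = (u ^ β) ^ α := by
      calc (b * a) * u * (b * a)⁻¹ = b * (a * u * a⁻¹) * b⁻¹ := by group
        _ = b * u ^ α * b⁻¹ := by rw [hα]
        _ = (b * u * b⁻¹) ^ α := by rw [conj_pow]
        _ = (u ^ β) ^ α := by rw [hβ]
    have h3 : (a * b) * u * (a * b)⁻¹ = (b * a) * u * (b * a)⁻¹ := by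
      rw [h1, h2, pow_right_comm]
    have h4 : (a * b) * u = (b * a) * u * (b * a)⁻¹ * (a * b) := by
      rw [← h3]; group
    calc ((b * a)⁻¹ * (a * b)) * u = (b * a)⁻¹ * ((a * b) * u) := by group
      _ = (b * a)⁻¹ * ((b * a) * u * (b * a)⁻¹ * (a * b)) := by rw [h4]
      _ = u * ((b * a)⁻¹ * (a * b)) := by group
  let C : Subgroup G := Subgroup.centralizer ({u} : Set G)
  have hNsol : Group.IsSolvable N := by
    have hCq : IsPGroup q (C.subgroupOf N) := by
      rw [IsPGroup.iff_orderOf]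
      rintro ⟨x, hx⟩
      have h1 : (x : G) ∈ C := Subgroup.mem_subgroupOf.1 hx
      obtain ⟨k, hk⟩ := hCp x (Subgroup.mem_centralizer_singleton_iff.1 h1)
      refine ⟨k, ?_⟩
      rw [← hk, ← Subgroup.orderOf_coe, ← Subgroup.orderOf_coe]
    haveI : Group.IsNilpotent (C.subgroupOf N) := hCq.isNilpotent
    haveI : Group.IsSolvable (C.subgroupOf N) := inferInstance
    apply Group.isSolvable_of_ker_le_range (C.subgroupOf N).subtype (Abelianization.of (G := N))
    rw [Abelianization.ker_of, commutator_def, Subgroup.range_subtype, Subgroup.commutator_le]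
    rintro ⟨a, ha⟩ - ⟨b, hb⟩ -
    rw [Subgroup.mem_subgroupOf]
    show (⁅(⟨a, ha⟩ : N), (⟨b, hb⟩ : N)⁆ : N).1 ∈ C
    rw [Subgroup.mem_centralizer_singleton_iff]
    have h1 := hcomm2 a⁻¹ (N.inv_mem ha) b⁻¹ (N.inv_mem hb)
    have h2 : (b⁻¹ * a⁻¹)⁻¹ * (a⁻¹ * b⁻¹) = a * b * a⁻¹ * b⁻¹ := by group
    rw [h2] at h1
    show (a * b * a⁻¹ * b⁻¹) * u = u * (a * b * a⁻¹ * b⁻¹)
    exact h1
  have hNP : N ⊔ P = ⊤ := by
    have h1 : N ⊔ T = ⊤ := Sylow.normalizer_sup_eq_top Q
    rw [eq_top_iff, ← h1]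
    refine sup_le le_sup_left ?_
    intro t ht
    obtain ⟨w, hw, htw⟩ := hsurj t ht
    have h2 : w⁻¹ * t ∈ P := by
      apply (QuotientGroup.eq_one_iff _).1
      show π (w⁻¹ * t) = 1
      rw [map_mul, map_inv, htw, inv_mul_cancel]
    have h3 : w ∈ N := by
      rw [Subgroup.mem_normalizer_iff]
      intro h
      constructor
      · intro hh
        exact Q'.mul_mem (Q'.mul_mem hw hh) (Q'.inv_mem hw)
      · intro hh
        have h4 : h = w⁻¹ * (w * h * w⁻¹) * w := by group
        rw [h4]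
        exact Q'.mul_mem (Q'.mul_mem (Q'.inv_mem hw) hh) hw
    have h5 : t = w * (w⁻¹ * t) := by group
    rw [h5]
    exact (N ⊔ P).mul_mem (Subgroup.mem_sup_left h3) (Subgroup.mem_sup_right h2)
  haveI := hNsol
  have hqs : Group.IsSolvable (G ⧸ P) := by
    apply Group.isSolvable_of_surjective (f := π.comp N.subtype)
    intro y
    obtain ⟨g, rfl⟩ := hπs y
    have hg : g ∈ ((N ⊔ P : Subgroup G) : Set G) := by rw [hNP]; trivial
    rw [Subgroup.mul_normal] at hg
    obtain ⟨n, hn, r, hr, rfl⟩ := hg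
    refine ⟨⟨n, hn⟩, ?_⟩
    show π n = π (n * r)
    have h9 : π r = 1 := (QuotientGroup.eq_one_iff r).2 hr
    rw [map_mul, h9, mul_one]
  haveI : Group.IsNilpotent P := hPp.isNilpotent
  haveI : Group.IsSolvable P := inferInstance
  apply Group.isSolvable_of_ker_le_range P.subtype π
  rw [QuotientGroup.ker_mk', Subgroup.range_subtype]

theorem exists_other {G : Type*} [Group G] [Finite G] (hcp : CP G) (X : Subgroup G) {l : ℕ} [Fact l.Prime]
    (hX : ¬ IsPGroup l X) : ∃ z ∈ X, ∃ r : ℕ, r.Prime ∧ r ≠ l ∧ r ∣ orderOf z := by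
  rw [IsPGroup.iff_orderOf] at hX
  push Not at hX
  obtain ⟨z, hz⟩ := hX
  have hz1 : (z : G) ≠ 1 := by
    intro h
    apply hz 0
    have : z = 1 := Subtype.ext h
    rw [this, orderOf_one, pow_zero]
  obtain ⟨r, k, hr, hk, hrk⟩ := (isPrimePow_nat_iff _).1 (hcp _ hz1)
  refine ⟨z, z.2, r, hr, ?_, by rw [← hrk]; exact dvd_pow_self r hk.ne'⟩
  rintro rfl
  apply hz k
  rw [← Subgroup.orderOf_coe, hrk]

theorem quot_min {G : Type*} [Group G] [Finite G] (hcp : CP G) (hns : ¬ Group.IsSolvable G)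
    (R : Subgroup G) [hRn : R.Normal] (hRs : Group.IsSolvable R)
    (hRmax : ∀ N : Subgroup G, N.Normal → Group.IsSolvable N → N ≤ R) :
    ∃ M : Subgroup (G ⧸ R), M.Normal ∧ IsSimpleGroup M ∧ ¬ IsMulCommutative M ∧
      ∀ N : Subgroup (G ⧸ R), N.Normal → N ≠ ⊥ → M ≤ N := by
  classical
  let π := QuotientGroup.mk' R
  have hπs : Function.Surjective π := QuotientGroup.mk'_surjective R
  have hcpK : CP (G ⧸ R) := cp_of_surj hcp π hπs
  have hnorad : ∀ N : Subgroup (G ⧸ R), N.Normal → Group.IsSolvable N → N = ⊥ := by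
    intro N hN hNs
    let N₁ : Subgroup G := N.comap π
    have hRN : R ≤ N₁ := by
      intro r hr
      show π r ∈ N
      have : π r = 1 := (QuotientGroup.eq_one_iff r).2 hr
      rw [this]
      exact N.one_mem
    have hN₁s : Group.IsSolvable N₁ := by
      let g : N₁ →* N := (π.comp N₁.subtype).codRestrict N (fun t => t.2)
      apply Group.isSolvable_of_ker_le_range (Subgroup.inclusion hRN) g
      rintro ⟨x, hx⟩ hxg
      have h1 : π x = 1 := congrArg Subtype.val (MonoidHom.mem_ker.1 hxg)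
      exact ⟨⟨x, (QuotientGroup.eq_one_iff x).1 h1⟩, rfl⟩
    have h2 := hRmax N₁ (hN.comap π) hN₁s
    rw [eq_bot_iff]
    intro y hy
    obtain ⟨x, rfl⟩ := hπs y
    exact (Subgroup.mem_bot).2 ((QuotientGroup.eq_one_iff x).2 (h2 hy))
  have hnt : Nontrivial (G ⧸ R) := by
    by_contra hnt
    rw [not_nontrivial_iff_subsingleton] at hnt
    apply hns
    haveI : Group.IsSolvable (G ⧸ R) := Group.isSolvable_of_comm (fun a b => Subsingleton.elim _ _)
    apply Group.isSolvable_of_ker_le_range R.subtype π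
    rw [QuotientGroup.ker_mk', Subgroup.range_subtype]
  obtain ⟨M, hMn, hM1, hmin⟩ := Cfsg.Agent.H01.exists_minimal_normal (G := G ⧸ R)
  haveI := hMn
  have hMns : ¬ Group.IsSolvable M := fun h => hM1 (hnorad M hMn h)
  have hMpr : ∀ l : ℕ, l.Prime → ¬ IsPGroup l M := by
    intro l hl hP
    haveI := Fact.mk hl
    haveI : Group.IsNilpotent M := hP.isNilpotent
    exact hMns inferInstance
  have hcons : ∀ N : Subgroup (G ⧸ R), N.Normal → N ≠ ⊥ → M ≤ N := by
    intro N hN hN1
    rcases hmin (M ⊓ N) (by haveI := hN; exact Subgroup.normal_inf_normal M N) inf_le_left with h | h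
    · exfalso
      obtain ⟨y, hy, hy1⟩ : ∃ y ∈ N, y ≠ 1 := by
        rcases N.bot_or_exists_ne_one with h' | h'
        · exact absurd h' hN1
        · exact h'
      obtain ⟨l, k, hl, hk, hlk⟩ := (isPrimePow_nat_iff _).1 (hcpK y hy1)
      haveI := Fact.mk hl
      obtain ⟨z, hz, r, hr, hrl, hrz⟩ := exists_other hcpK M (hMpr l hl)
      have hcomm : Commute z y := by
        have h1 : ⁅z, y⁆ ∈ M ⊓ N :=
          Subgroup.commutator_le_inf M N (Subgroup.commutator_mem_commutator hz hy)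
        rw [h, Subgroup.mem_bot] at h1
        exact commutatorElement_eq_one_iff_mul_comm.1 h1
      exact cp_comm hcpK hr hl hrl (orderOf_pos _).ne' (orderOf_pos _).ne' hrz
        (by rw [← hlk]; exact dvd_pow_self l hk.ne') hcomm
    · rw [← h]
      exact inf_le_right
  refine ⟨M, hMn, ?_, ?_, hcons⟩
  · haveI hMnt : Nontrivial M := (Subgroup.nontrivial_iff_ne_bot M).2 hM1
    refine ⟨?_⟩
    intro H₀ hH₀
    by_cases hH₀1 : H₀ = ⊥
    · exact Or.inl hH₀1
    right
    obtain ⟨A, hAH, hAn, hA1, hminA⟩ := Cfsg.Agent.H01.exists_minimal_normal_le hH₀ hH₀1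
    let A' : Subgroup (G ⧸ R) := A.map M.subtype
    have hA'M : A' ≤ M := Subgroup.map_subtype_le _
    have hA'1 : A' ≠ ⊥ := by
      intro h
      apply hA1
      exact (Subgroup.map_eq_bot_iff_of_injective A M.subtype_injective).1 h
    -- normality of conjugates in `M`
    have hA'normal : ∀ m ∈ M, ∀ a ∈ A', m * a * m⁻¹ ∈ A' := by
      rintro m hm _ ⟨a₀, ha₀, rfl⟩
      exact ⟨⟨m, hm⟩ * a₀ * ⟨m, hm⟩⁻¹, hAn.conj_mem a₀ ha₀ ⟨m, hm⟩, rfl⟩
    have hconjn : ∀ h : G ⧸ R, ∀ m ∈ M, ∀ x ∈ A'.map (MulAut.conj h).toMonoidHom,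
        m * x * m⁻¹ ∈ A'.map (MulAut.conj h).toMonoidHom := by
      rintro h m hm _ ⟨a, ha, rfl⟩
      have h1 : h⁻¹ * m * h ∈ M := by
        have := hMn.conj_mem m hm h⁻¹
        simpa using this
      refine ⟨(h⁻¹ * m * h) * a * (h⁻¹ * m * h)⁻¹, hA'normal _ h1 a ha, ?_⟩
      simp only [MulEquiv.coe_toMonoidHom, MulAut.conj_apply]
      group
    have hconjM : ∀ h : G ⧸ R, A'.map (MulAut.conj h).toMonoidHom ≤ M := by
      rintro h _ ⟨a, ha, rfl⟩
      exact hMn.conj_mem a (hA'M ha) h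
    have hA'n : A'.Normal := by
      constructor
      intro a ha g
      by_contra hno
      let Ag : Subgroup (G ⧸ R) := A'.map (MulAut.conj g).toMonoidHom
      have hag : g * a * g⁻¹ ∈ Ag := ⟨a, ha, rfl⟩
      have hcard : Nat.card Ag = Nat.card A' :=
        Subgroup.card_map_of_injective (MulEquiv.injective (MulAut.conj g))
      have hnle : ¬ A' ≤ Ag := by
        intro hle
        have : A' = Ag := Subgroup.eq_of_le_of_card_ge hle hcard.le
        rw [← this] at hag
        exact hno hag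
      let B : Subgroup M := (Ag ⊓ A').subgroupOf M
      have hBn : B.Normal := by
        constructor
        rintro ⟨x, hx⟩ hxB ⟨m, hm⟩
        have hxB' : x ∈ Ag ⊓ A' := Subgroup.mem_subgroupOf.1 hxB
        rw [Subgroup.mem_subgroupOf]
        exact ⟨hconjn g m hm x hxB'.1, hA'normal m hm x hxB'.2⟩
      have hBA : B ≤ A := by
        rintro ⟨x, hx⟩ hxB
        have hxB' : x ∈ Ag ⊓ A' := Subgroup.mem_subgroupOf.1 hxB
        obtain ⟨a₀, ha₀, hax⟩ := hxB'.2
        have : a₀ = ⟨x, hx⟩ := Subtype.ext hax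
        rwa [← this]
      have hB1 : Ag ⊓ A' = ⊥ := by
        rcases hminA B hBn hBA with h | h
        · rw [eq_bot_iff]
          intro x hx
          have hxM : x ∈ M := hA'M hx.2
          have h2 : (⟨x, hxM⟩ : M) ∈ B := Subgroup.mem_subgroupOf.2 hx
          rw [h, Subgroup.mem_bot] at h2
          exact (Subgroup.mem_bot).2 (congrArg Subtype.val h2)
        · exfalso
          apply hnle
          rintro _ ⟨a₀, ha₀, rfl⟩
          have h2 : a₀ ∈ B := h ▸ ha₀
          exact (Subgroup.mem_subgroupOf.1 h2).1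
      have hcomm : ∀ a ∈ A', ∀ b ∈ Ag, a * b = b * a := by
        intro a ha b hb
        have h1 : ⁅a, b⁆ ∈ Ag ⊓ A' := by
          constructor
          · rw [commutatorElement_def]
            exact Ag.mul_mem (hconjn g a (hA'M ha) b hb) (Ag.inv_mem hb)
          · rw [commutatorElement_def, mul_assoc, mul_assoc]
            apply A'.mul_mem ha
            rw [← mul_assoc]
            exact hA'normal b (hconjM g hb) _ (A'.inv_mem ha)
        rw [hB1, Subgroup.mem_bot] at h1
        exact commutatorElement_eq_one_iff_mul_comm.1 h1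
      obtain ⟨y, hy, hy1⟩ : ∃ y ∈ A', y ≠ 1 := by
        rcases A'.bot_or_exists_ne_one with h' | h'
        · exact absurd h' hA'1
        · exact h'
      obtain ⟨l, k, hl, hk, hlk⟩ := (isPrimePow_nat_iff _).1 (hcpK y hy1)
      haveI := Fact.mk hl
      by_cases hAp : IsPGroup l A'
      · -- then `M` is an `l`-group
        let L : Sylow l M := Classical.choice Sylow.nonempty
        have hLmem : ∀ h : G ⧸ R, ∀ x ∈ A'.map (MulAut.conj h).toMonoidHom, ∀ hxM : x ∈ M,
            (⟨x, hxM⟩ : M) ∈ (L : Subgroup M) := by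
          intro h x hx hxM
          let Y : Subgroup M := (A'.map (MulAut.conj h).toMonoidHom).subgroupOf M
          have hYn : Y.Normal := by
            constructor
            rintro ⟨x', hx'⟩ hxY ⟨m, hm⟩
            rw [Subgroup.mem_subgroupOf] at hxY ⊢
            exact hconjn h m hm x' hxY
          have hYp : IsPGroup l Y := by
            rintro ⟨⟨x', hx'M⟩, hx'Y⟩
            have hx'Y' : x' ∈ A'.map (MulAut.conj h).toMonoidHom := Subgroup.mem_subgroupOf.1 hx'Y
            obtain ⟨a, ha, hax⟩ := hx'Y'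
            obtain ⟨j, hj⟩ := hAp ⟨a, ha⟩
            refine ⟨j, ?_⟩
            apply Subtype.ext
            apply Subtype.ext
            have h3 : a ^ (l ^ j) = 1 := by
              have := congrArg Subtype.val hj
              simpa using this
            show x' ^ (l ^ j) = 1
            rw [← hax]
            simp [MulAut.conj_apply, conj_pow, h3]
          have hsup : IsPGroup l (Y ⊔ (L : Subgroup M) : Subgroup M) :=
            IsPGroup.to_sup_of_normal_left hYp L.isPGroup'
          have hle : Y ≤ (L : Subgroup M) := by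
            have h4 := L.is_maximal' hsup le_sup_right
            rw [← h4]
            exact le_sup_left
          exact hle (Subgroup.mem_subgroupOf.2 hx)
        have hcl : Subgroup.normalClosure (A' : Set (G ⧸ R)) ≤ (L : Subgroup M).map M.subtype := by
          rw [Subgroup.normalClosure, Subgroup.closure_le]
          intro x hx
          rw [Group.mem_conjugatesOfSet_iff] at hx
          obtain ⟨a₁, ha₁, hconj⟩ := hx
          obtain ⟨h, rfl⟩ := isConj_iff.1 hconj
          have h5 : h * a₁ * h⁻¹ ∈ A'.map (MulAut.conj h).toMonoidHom := ⟨a₁, ha₁, rfl⟩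
          exact ⟨⟨_, hconjM h h5⟩, hLmem h _ h5 _, rfl⟩
        have hcl2 : Subgroup.normalClosure (A' : Set (G ⧸ R)) = M := by
          rcases hmin _ (Subgroup.normalClosure_normal) (Subgroup.normalClosure_le_normal hA'M) with h | h
          · exfalso
            apply hA'1
            rw [eq_bot_iff, ← h]
            exact Subgroup.le_normalClosure
          · exact h
        apply hMpr l hl
        rintro ⟨x, hx⟩
        have h6 : x ∈ (L : Subgroup M).map M.subtype := hcl (hcl2 ▸ hx)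
        obtain ⟨x₀, hx₀, rfl⟩ := h6
        obtain ⟨j, hj⟩ := L.isPGroup' ⟨x₀, hx₀⟩
        refine ⟨j, ?_⟩
        have h7 : x₀ ^ (l ^ j) = 1 := by
          have := congrArg Subtype.val hj
          simpa using this
        apply Subtype.ext
        have h8 := congrArg Subtype.val h7
        simpa using h8
      · obtain ⟨z, hz, r, hr, hrl, hrz⟩ := exists_other hcpK A' hAp
        have hz' : g * z * g⁻¹ ∈ Ag := ⟨z, hz, rfl⟩
        have hcz : Commute (g * z * g⁻¹) y := by
          show g * z * g⁻¹ * y = y * (g * z * g⁻¹)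
          exact (hcomm y hy _ hz').symm
        have hord : orderOf (g * z * g⁻¹) = orderOf z := by
          have := (MulAut.conj g).injective
          exact orderOf_injective (MulAut.conj g).toMonoidHom this z
        exact cp_comm hcpK hr hl hrl (orderOf_pos _).ne' (orderOf_pos _).ne' (by rw [hord]; exact hrz)
          (by rw [← hlk]; exact dvd_pow_self l hk.ne') hcz
    have hA'M2 : A' = M := by
      rcases hmin A' hA'n hA'M with h | h
      · exact absurd h hA'1
      · exact h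
    rw [eq_top_iff]
    intro x _
    apply hAH
    have hx : (x : G ⧸ R) ∈ A' := by rw [hA'M2]; exact x.2
    obtain ⟨a₀, ha₀, hax⟩ := hx
    have : a₀ = x := Subtype.ext hax
    rwa [← this]
  · intro hab
    apply hMns
    exact Group.isSolvable_of_comm (fun a b => mul_comm' a b)


/-- Let G be a finite non-solvable group in which every element has prime-power order, and let R be its largest solvable normal subgroup. Then R is a p-group for some prime p; G/R has a non-abelian simple normal subgroup contained in every nontrivial normal subgroup of G/R (its unique minimal normal subgroup); and the order of every solvable subgroup of G has at most two prime divisors. -/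
theorem result {G : Type*} [Group G] [Finite G] (hns : ¬ Group.IsSolvable G) (hpp : ∀ g : G, g ≠ 1 → IsPrimePow (orderOf g))
    (R : Subgroup G) [R.Normal] (hRs : Group.IsSolvable ↥R) (hRmax : ∀ N : Subgroup G, N.Normal → Group.IsSolvable ↥N → N ≤ R) :
    (∃ p : ℕ, p.Prime ∧ IsPGroup p ↥R) ∧
      (∃ M : Subgroup (G ⧸ R), M.Normal ∧ IsSimpleGroup ↥M ∧ ¬ IsMulCommutative ↥M ∧
        ∀ N : Subgroup (G ⧸ R), N.Normal → N ≠ ⊥ → M ≤ N) ∧
      ∀ H : Subgroup G, Group.IsSolvable ↥H → (Nat.card ↥H).primeFactors.card ≤ 2 := by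
  have hcp : CP G := hpp
  refine ⟨radical_pgroup hcp hns R hRs, quot_min hcp hns R hRs hRmax, ?_⟩
  intro H hH
  exact two_primes _ H rfl hH (cp_of_sub hcp H)

end Cfsg.Agent.S3992
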