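import Cfsg.Statements.S3994
import Cfsg.Agent.Lib.H19.FrobCount

set_option autoImplicit false
open Cfsg

namespace Cfsg.Agent.S3994

open Cfsg.Agent.H19

theorem result {G : Type*} [Group G] [Finite G] (n : ℕ) (hn : 0 < n) :
    Nat.card {g : G // n ∣ orderOf g} = 0 ∨
      (Nat.card G / Nat.gcd (Nat.card G) (n ^ Nat.card G)) ∣ Nat.card {g : G // n ∣ orderOf g} := by
  classical
  haveI := Fintype.ofFinite G
  right
  set N := Nat.card G with hN
  have hN0 : N ≠ 0 := Nat.card_pos.ne'
  set s := Nat.gcd N (n ^ N) with hs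
  have hsN : s ∣ N := Nat.gcd_dvd_left _ _
  set t := N / s with ht
  have hst : s * t = N := Nat.mul_div_cancel' hsN
  have hs0 : s ≠ 0 := by rintro h; rw [h, zero_mul] at hst; exact hN0 hst.symm
  have ht0 : t ≠ 0 := by rintro h; rw [h, mul_zero] at hst; exact hN0 hst.symm
  have hkey : ∀ q : ℕ, q.Prime → q ∣ n → ¬ q ∣ t := by
    intro q hq hqn hqt
    have h1 : N.factorization q < N := Nat.factorization_lt q hN0
    have h2 : 1 ≤ n.factorization q := (hq.dvd_iff_one_le_factorization hn.ne').1 hqn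
    have h3 : s.factorization q = N.factorization q := by
      rw [hs, Nat.factorization_gcd hN0 (pow_ne_zero _ hn.ne'), Nat.factorization_pow]
      simp only [Finsupp.inf_apply, Finsupp.smul_apply, smul_eq_mul]
      exact inf_eq_left.2 (by nlinarith)
    have h4 : N.factorization q = s.factorization q + t.factorization q := by
      rw [← hst, Nat.factorization_mul hs0 ht0]; rfl
    have h5 : 1 ≤ t.factorization q := (hq.dvd_iff_one_le_factorization ht0).1 hqt
    omega
  have hnt : n.Coprime t := Nat.coprime_of_dvd (fun q hq h1 h2 => hkey q hq h1 h2)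
  have hcop : s.Coprime t := by
    apply Nat.coprime_of_dvd
    intro q hq h1 h2
    have h3 : q ∣ n ^ N := h1.trans (Nat.gcd_dvd_right _ _)
    exact hkey q hq (hq.dvd_of_dvd_pow h3) h2
  let Q : G → Prop := fun x => n ∣ orderOf x
  have hQ : ∀ c u : G, c ^ s = 1 → u ^ t = 1 → Commute c u → (Q (c * u) ↔ Q c) := by
    intro c u hc hu hcu
    have h1 : orderOf c ∣ s := orderOf_dvd_of_pow_eq_one hc
    have h2 : orderOf u ∣ t := orderOf_dvd_of_pow_eq_one hu
    have h3 : (orderOf c).Coprime (orderOf u) := Nat.Coprime.coprime_dvd_left h1 (Nat.Coprime.coprime_dvd_right h2 hcop)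
    show n ∣ orderOf (c * u) ↔ n ∣ orderOf c
    rw [hcu.orderOf_mul_eq_mul_orderOf_of_coprime h3]
    constructor
    · intro h
      exact (Nat.Coprime.coprime_dvd_right h2 hnt).dvd_of_dvd_mul_right h
    · intro h
      exact h.trans (dvd_mul_right _ _)
  set X := Finset.univ.filter (fun c : G => c ^ s = 1 ∧ n ∣ orderOf c) with hX
  have h1 := card_decomp (G := G) hcop Q hQ X (by simp [hX, Q])
  have h2 : Nat.card {x : G // x ^ (s * t) = 1 ∧ Q x} = Nat.card {g : G // n ∣ orderOf g} := by
    apply Nat.card_congr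
    refine ⟨fun x => ⟨x.1, x.2.2⟩, fun x => ⟨x.1, ?_, x.2⟩, fun x => rfl, fun x => rfl⟩
    rw [hst, hN]; exact pow_card_eq_one'
  rw [h2] at h1
  rw [h1]
  apply dvd_sum_class X _ _ (fun c g => solC_conj _ c g)
  · intro c _
    set C := Subgroup.centralizer ({c} : Set G) with hC
    have h3 := card_class_mul_card_centralizer c
    have h4 : t ∣ (ConjClasses.mk c).carrier.ncard * Nat.card C := by
      rw [h3, ← hN, ← hst]; exact dvd_mul_left _ _
    rw [← Nat.dvd_mul_gcd_iff_dvd_mul] at h4
    refine h4.trans (Nat.mul_dvd_mul_left _ ?_)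
    rw [solC_eq_sol_centralizer]
    have h5 : sol C t = sol C (Nat.gcd t (Nat.card C)) := by
      apply Nat.card_congr
      refine ⟨fun x => ⟨x.1, ?_⟩, fun x => ⟨x.1, ?_⟩, fun x => rfl, fun x => rfl⟩
      · apply orderOf_dvd_iff_pow_eq_one.1
        exact Nat.dvd_gcd (orderOf_dvd_of_pow_eq_one x.2) (orderOf_dvd_natCard _)
      · apply orderOf_dvd_iff_pow_eq_one.1
        exact (orderOf_dvd_of_pow_eq_one x.2).trans (Nat.gcd_dvd_left _ _)
    rw [h5]
    exact dvd_sol (Nat.gcd_dvd_right _ _)
  · intro c hc g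
    simp only [hX, Finset.mem_filter, Finset.mem_univ, true_and] at hc ⊢
    refine ⟨by rw [conj_pow, hc.1]; group, ?_⟩
    have : orderOf (g * c * g⁻¹) = orderOf c := by
      simpa using (MulAut.conj g).orderOf_eq c
    rw [this]; exact hc.2

end Cfsg.Agent.S3994
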