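import Cfsg.Statements.S3995
import Mathlib
import Cfsg.Agent.Lib.H14.UniqueSub
import Cfsg.Agent.Lib.H19.FrobCount

set_option autoImplicit false
open Cfsg

namespace Cfsg.Agent.S3995


set_option linter.unusedSectionVars false
set_option linter.style.haveILetI false

noncomputable def cc (G : Type*) [Group G] (m : ℕ) : ℕ := Nat.card {g : G // orderOf g = m}

section
variable {G : Type*} [Group G] [Finite G]

lemma cc_one : cc G 1 = 1 := by
  unfold cc
  simp only [orderOf_eq_one_iff]
  exact Nat.card_unique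

lemma cc_pos {m : ℕ} (h : ∃ g : G, orderOf g = m) : 0 < cc G m := by
  obtain ⟨g, hg⟩ := h
  haveI : Nonempty {g : G // orderOf g = m} := ⟨⟨g, hg⟩⟩
  exact Nat.card_pos

lemma cc_zero {m : ℕ} (h : ¬ ∃ g : G, orderOf g = m) : cc G m = 0 := by
  haveI : IsEmpty {g : G // orderOf g = m} := ⟨fun x => h ⟨x.1, x.2⟩⟩
  exact Nat.card_of_isEmpty

lemma cc_two_le {m : ℕ} (h : ∃ g : G, orderOf g = m) (hm : 3 ≤ m) : 2 ≤ cc G m := by
  obtain ⟨g, hg⟩ := h
  have hne : g ≠ g⁻¹ := by
    intro e
    have h2 : g ^ 2 = 1 := by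
      rw [pow_two]; nth_rw 1 [e]; simp
    have := orderOf_le_of_pow_eq_one (by norm_num) h2
    omega
  have : 1 < Nat.card {g : G // orderOf g = m} := by
    rw [Finite.one_lt_card_iff_nontrivial]
    exact ⟨⟨⟨g, hg⟩, ⟨g⁻¹, by rw [orderOf_inv, hg]⟩, by simpa [Subtype.ext_iff] using hne⟩⟩
  exact this

lemma sol_sum (d : ℕ) (hd : d ≠ 0) : H19.sol G d = ∑ m ∈ d.divisors, cc G m := by
  classical
  haveI := Fintype.ofFinite G
  unfold H19.sol cc
  simp only [Nat.card_eq_fintype_card, Fintype.card_subtype]
  rw [Finset.card_eq_sum_card_fiberwise (f := orderOf) (t := d.divisors)]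
  · apply Finset.sum_congr rfl
    intro m hm
    congr 1
    ext u
    simp only [Finset.mem_filter, Finset.mem_univ, true_and]
    constructor
    · exact fun h => h.2
    · intro h
      refine ⟨?_, h⟩
      have := (Nat.mem_divisors.1 hm).1
      rw [← h] at this
      exact orderOf_dvd_iff_pow_eq_one.1 this
  · intro u hu
    simp only [Finset.coe_filter, Finset.mem_univ, true_and, Set.mem_setOf_eq] at hu
    simp only [Finset.mem_coe, Nat.mem_divisors]
    exact ⟨orderOf_dvd_of_pow_eq_one hu, hd⟩

lemma fro {d : ℕ} (hd : d ∣ Nat.card G) : d ∣ ∑ m ∈ d.divisors, cc G m := by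
  have h0 : d ≠ 0 := by
    rintro rfl
    exact (Nat.card_pos (α := G)).ne' (by simpa using hd)
  rw [← sol_sum d h0]
  exact H19.dvd_sol hd

lemma sum_pq {p q : ℕ} (hp : p.Prime) (hq : q.Prime) (hpq : p ≠ q) (f : ℕ → ℕ) :
    ∑ m ∈ (p * q).divisors, f m = f 1 + f p + f q + f (p * q) := by
  have h : (p * q).divisors = {1, p, q, p * q} := by
    ext m
    simp only [Nat.mem_divisors, Finset.mem_insert, Finset.mem_singleton]
    constructor
    · rintro ⟨h, -⟩
      obtain ⟨a, b, ha, hb, rfl⟩ := (Nat.dvd_mul).1 h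
      rcases (Nat.dvd_prime hp).1 ha with rfl | rfl <;>
        rcases (Nat.dvd_prime hq).1 hb with rfl | rfl <;> simp
    · have : p * q ≠ 0 := Nat.mul_ne_zero hp.ne_zero hq.ne_zero
      rintro (rfl | rfl | rfl | rfl)
      · simpa using this
      · exact ⟨dvd_mul_right _ _, this⟩
      · exact ⟨dvd_mul_left _ _, this⟩
      · exact ⟨dvd_rfl, this⟩
  have h2 := hp.two_le
  have h3 := hq.two_le
  have h4 : 2 * 2 ≤ p * q := Nat.mul_le_mul h2 h3
  have h5 : p < p * q := by nlinarith
  have h6 : q < p * q := by nlinarith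
  rw [h, Finset.sum_insert, Finset.sum_insert, Finset.sum_insert, Finset.sum_singleton]
  · ring
  · simp only [Finset.mem_singleton]; omega
  · simp only [Finset.mem_insert, Finset.mem_singleton]; omega
  · simp only [Finset.mem_insert, Finset.mem_singleton]; omega

lemma sum_4p {p : ℕ} (hp : p.Prime) (hp2 : p ≠ 2) (f : ℕ → ℕ) :
    ∑ m ∈ (4 * p).divisors, f m = f 1 + f 2 + f 4 + f p + f (2 * p) + f (4 * p) := by
  have h : (4 * p).divisors = {1, 2, 4, p, 2 * p, 4 * p} := by
    ext m
    simp only [Nat.mem_divisors, Finset.mem_insert, Finset.mem_singleton]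
    constructor
    · rintro ⟨h, -⟩
      obtain ⟨a, b, ha, hb, rfl⟩ := (Nat.dvd_mul).1 h
      have hle : a ≤ 4 := Nat.le_of_dvd (by norm_num) ha
      rcases (Nat.dvd_prime hp).1 hb with rfl | rfl <;> interval_cases a <;> simp_all <;> omega
    · have h0 : 4 * p ≠ 0 := Nat.mul_ne_zero (by norm_num) hp.ne_zero
      rintro (rfl | rfl | rfl | rfl | rfl | rfl)
      · simpa using h0
      · exact ⟨Dvd.dvd.mul_right (by norm_num) _, h0⟩
      · exact ⟨Dvd.dvd.mul_right (by norm_num) _, h0⟩
      · exact ⟨dvd_mul_left _ _, h0⟩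
      · exact ⟨Nat.mul_dvd_mul (by norm_num) dvd_rfl, h0⟩
      · exact ⟨dvd_rfl, h0⟩
  have h2 := hp.two_le
  have h3 : p ≠ 4 := by
    rintro rfl
    exact absurd hp (by norm_num)
  rw [h, Finset.sum_insert, Finset.sum_insert, Finset.sum_insert, Finset.sum_insert,
    Finset.sum_insert, Finset.sum_singleton]
  · ring
  · simp only [Finset.mem_singleton]; omega
  · simp only [Finset.mem_insert, Finset.mem_singleton]; omega
  · simp only [Finset.mem_insert, Finset.mem_singleton]; omega
  · simp only [Finset.mem_insert, Finset.mem_singleton]; omega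
  · simp only [Finset.mem_insert, Finset.mem_singleton]; omega

lemma exists_type0 (P : Type*) [Group P] [Finite P] :
    ∃ (Q : Type) (_ : Group Q) (_ : Finite Q), Nonempty (Q ≃* P) := by
  let e := Finite.equivFin P
  letI : Group (Fin (Nat.card P)) := e.symm.group
  exact ⟨Fin (Nat.card P), this, inferInstance, ⟨e.symm.mulEquiv⟩⟩

lemma dvd_one_contra {p : ℕ} (hp : p.Prime) (h : p ∣ 1) : False :=
  hp.one_lt.ne' (Nat.dvd_one.1 h)

end


/-- Let G be a finite group such that the numbers of elements of each order that occurs in G (the numbers #{g : o(g) = m}, m ranging over the element orders of G) take exactly two values, 1 and some n ≠ 1. Then either G is a p-group of exponent p and order at least 3 for some prime p, or G is the quaternion group of order 8, or G is cyclic of order 4, or G ≅ Z₂ × P for a p-group P of exponent p with p an odd prime. -/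
theorem result {G : Type*} [Group G] [Finite G] (n : ℕ) (hn : n ≠ 1) (h : ((fun m : ℕ => Nat.card {g : G // orderOf g = m}) '' Set.range (orderOf : G → ℕ)) = {1, n}) :
    (∃ p : ℕ, p.Prime ∧ IsPGroup p G ∧ 3 ≤ Nat.card G ∧ Monoid.exponent G = p) ∨
      Nonempty (G ≃* QuaternionGroup 2) ∨ (IsCyclic G ∧ Nat.card G = 4) ∨
      (∃ (p : ℕ) (P : Type) (_ : Group P) (_ : Finite P), p.Prime ∧ p ≠ 2 ∧ IsPGroup p P ∧ Monoid.exponent P = p ∧
        Nonempty (G ≃* Multiplicative (ZMod 2) × P)) := by
  classical
have hvals : ∀ g : G, cc G (orderOf g) = 1 ∨ cc G (orderOf g) = n := fun g => by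
  have : cc G (orderOf g) ∈ ((fun m : ℕ => Nat.card {g : G // orderOf g = m}) '' Set.range (orderOf : G → ℕ)) :=
    ⟨orderOf g, ⟨g, rfl⟩, rfl⟩
  rw [h] at this
  simpa using this
have hex : ∃ g : G, cc G (orderOf g) = n := by
  have : n ∈ ({1, n} : Set ℕ) := by simp
  rw [← h] at this
  obtain ⟨m, ⟨g, rfl⟩, hm⟩ := this
  exact ⟨g, hm⟩
have hn2 : 2 ≤ n := by
  obtain ⟨g, hg⟩ := hex
  have := cc_pos (G := G) ⟨g, rfl⟩
  rw [hg] at this
  omega
have hbig : ∀ m, (∃ g : G, orderOf g = m) → 3 ≤ m → cc G m = n := by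
  rintro m ⟨g, rfl⟩ hm
  have := cc_two_le (G := G) ⟨g, rfl⟩ hm
  rcases hvals g with h1 | h1
  · omega
  · exact h1
have h01 : ∀ m, 3 ≤ m → cc G m = 0 ∨ cc G m = n := by
  intro m hm
  by_cases he : ∃ g : G, orderOf g = m
  · exact Or.inr (hbig m he hm)
  · exact Or.inl (cc_zero he)
have hodd : ∀ p : ℕ, p.Prime → p ≠ 2 → p ∣ Nat.card G → (∃ x : G, orderOf x = p) ∧ cc G p = n ∧ p ∣ 1 + n := by
  intro p hp hp2 hd
  haveI := Fact.mk hp
  obtain ⟨x, hx⟩ := exists_prime_orderOf_dvd_card' p hd
  have h3 : 3 ≤ p := by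
    have := hp.two_le
    omega
  have hc := hbig p ⟨x, hx⟩ h3
  refine ⟨⟨x, hx⟩, hc, ?_⟩
  have := fro (G := G) hd
  rw [hp.sum_divisors, hc, cc_one] at this
  rwa [add_comm] at this
-- no elements of order p²
have hnop2 : ∀ p : ℕ, p.Prime → p ≠ 2 → ∀ g : G, orderOf g ≠ p ^ 2 := by
  intro p hp hp2 g hg
  have hd2 : p ^ 2 ∣ Nat.card G := hg ▸ orderOf_dvd_natCard g
  have hd : p ∣ Nat.card G := dvd_trans (dvd_pow_self p (by norm_num)) hd2
  obtain ⟨-, hc, hd1⟩ := hodd p hp hp2 hd
  have h3 : 3 ≤ p ^ 2 := by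
    have := hp.two_le
    nlinarith
  have hc2 := hbig (p ^ 2) ⟨g, hg⟩ h3
  have := fro (G := G) hd2
  rw [Nat.sum_divisors_prime_pow hp] at this
  simp only [Finset.sum_range_succ, Finset.sum_range_zero, pow_zero, pow_one, zero_add, cc_one, hc, hc2] at this
  have h5 : p ∣ 1 + n + n := dvd_trans (dvd_pow_self p (by norm_num)) this
  have h6 : p ∣ (1 + n + n) + 1 := by
    have : (1 + n + n) + 1 = 2 * (1 + n) := by ring
    rw [this]
    exact Dvd.dvd.mul_left hd1 2
  exact dvd_one_contra hp ((Nat.dvd_add_right h5).1 h6)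
-- a p-group statement
have hexp : ∀ (p : ℕ), p.Prime → p ≠ 2 → ∀ g : G, (∃ k, orderOf g = p ^ k) → g ≠ 1 → orderOf g = p := by
  rintro p hp hp2 g ⟨k, hk⟩ hg1
  rcases k with _ | _ | k
  · simp only [pow_zero, orderOf_eq_one_iff] at hk
    exact absurd hk hg1
  · simpa using hk
  · exfalso
    have hd : p ^ 2 ∣ orderOf g := by
      rw [hk]
      exact pow_dvd_pow p (by omega)
    exact hnop2 p hp hp2 (g ^ (orderOf g / p ^ 2)) (orderOf_pow_orderOf_div (orderOf_pos g).ne' hd)
by_cases hoddex : ∃ p : ℕ, p.Prime ∧ p ≠ 2 ∧ p ∣ Nat.card G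
· obtain ⟨p, hp, hp2, hpd⟩ := hoddex
  haveI := Fact.mk hp
  have hp3 : 3 ≤ p := by
    have := hp.two_le
    omega
  obtain ⟨⟨x, hx⟩, hcp, hpn⟩ := hodd p hp hp2 hpd
  -- at most one odd prime
  have huniq : ∀ q : ℕ, q.Prime → q ≠ 2 → q ∣ Nat.card G → q = p := by
    intro q hq hq2 hqd
    by_contra hqp
    obtain ⟨-, hcq, hqn⟩ := hodd q hq hq2 hqd
    have hcop : Nat.Coprime p q := (Nat.coprime_primes hp hq).2 (Ne.symm hqp)
    have hd : p * q ∣ Nat.card G := hcop.mul_dvd_of_dvd_of_dvd hpd hqd
    have hf := fro (G := G) hd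
    rw [sum_pq hp hq (Ne.symm hqp), cc_one, hcp, hcq] at hf
    have hpf : p ∣ 1 + n + n + cc G (p * q) := dvd_trans (dvd_mul_right _ _) hf
    have h3 : 3 ≤ p * q := by
      have := hq.two_le
      nlinarith
    rcases h01 (p * q) h3 with h0 | h0
    · rw [h0] at hpf
      have h6 : p ∣ (1 + n + n + 0) + 1 := by
        have : (1 + n + n + 0) + 1 = 2 * (1 + n) := by ring
        rw [this]
        exact Dvd.dvd.mul_left hpn 2
      exact dvd_one_contra hp ((Nat.dvd_add_right hpf).1 h6)
    · rw [h0] at hpf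
      have h6 : p ∣ (1 + n + n + n) + 2 := by
        have : (1 + n + n + n) + 2 = 3 * (1 + n) := by ring
        rw [this]
        exact Dvd.dvd.mul_left hpn 3
      have h7 : p ∣ 2 := (Nat.dvd_add_right hpf).1 h6
      have := Nat.le_of_dvd (by norm_num) h7
      omega
  by_cases h2d : 2 ∣ Nat.card G
  · -- the mixed case
    right; right; right
    haveI : Fact (Nat.Prime 2) := ⟨Nat.prime_two⟩
    obtain ⟨z, hz⟩ := exists_prime_orderOf_dvd_card' 2 h2d
    have hd2p : 2 * p ∣ Nat.card G :=
      ((Nat.coprime_primes Nat.prime_two hp).2 (Ne.symm hp2)).mul_dvd_of_dvd_of_dvd h2d hpd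
    have hf := fro (G := G) hd2p
    rw [sum_pq Nat.prime_two hp (Ne.symm hp2), cc_one, hcp] at hf
    have hpf : p ∣ 1 + cc G 2 + n + cc G (2 * p) := dvd_trans (dvd_mul_left _ _) hf
    have hc2 : cc G 2 = 1 := by
      rcases hvals z with h1 | h1
      · rwa [hz] at h1
      · rw [hz] at h1
        exfalso
        rw [h1] at hpf
        rcases h01 (2 * p) (by omega) with h0 | h0
        · rw [h0] at hpf
          have h6 : p ∣ (1 + n + n + 0) + 1 := by
            have : (1 + n + n + 0) + 1 = 2 * (1 + n) := by ring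
            rw [this]
            exact Dvd.dvd.mul_left hpn 2
          exact dvd_one_contra hp ((Nat.dvd_add_right hpf).1 h6)
        · rw [h0] at hpf
          have h6 : p ∣ (1 + n + n + n) + 2 := by
            have : (1 + n + n + n) + 2 = 3 * (1 + n) := by ring
            rw [this]
            exact Dvd.dvd.mul_left hpn 3
          have h7 : p ∣ 2 := (Nat.dvd_add_right hpf).1 h6
          have := Nat.le_of_dvd (by norm_num) h7
          omega
    have hzu : ∀ y : G, orderOf y = 2 → y = z := by
      intro y hy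
      have : Subsingleton {g : G // orderOf g = 2} := by
        have h1 : Nat.card {g : G // orderOf g = 2} = 1 := hc2
        exact (Nat.card_eq_one_iff_unique.1 h1).1
      exact congrArg Subtype.val (Subsingleton.elim (⟨y, hy⟩ : {g : G // orderOf g = 2}) ⟨z, hz⟩)
    have hzc : ∀ g : G, g * z = z * g := by
      intro g
      have : g * z * g⁻¹ = z := hzu _ (by
        have : g * z * g⁻¹ = MulAut.conj g z := rfl
        rw [this, MulEquiv.orderOf_eq, hz])
      calc g * z = g * z * g⁻¹ * g := by group
        _ = z * g := by rw [this]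
    have hzpow2 : z ^ 2 = 1 := by
      rw [← hz]; exact pow_orderOf_eq_one z
    -- order 2p exists
    have h2p : ∃ g : G, orderOf g = 2 * p := by
      refine ⟨z * x, ?_⟩
      have hcm : Commute z x := (hzc x).symm
      rw [hcm.orderOf_mul_eq_mul_orderOf_of_coprime (by
        rw [hz, hx]; exact (Nat.coprime_primes Nat.prime_two hp).2 (Ne.symm hp2)), hz, hx]
    have hc2p : cc G (2 * p) = n := hbig _ h2p (by omega)
    -- no element of order 4
    have hno4 : ∀ g : G, orderOf g ≠ 4 := by
      intro g hg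
      have hd4 : 4 ∣ Nat.card G := hg ▸ orderOf_dvd_natCard g
      have hcop : Nat.Coprime 4 p := by
        have : Nat.Coprime 2 p := (Nat.coprime_primes Nat.prime_two hp).2 (Ne.symm hp2)
        have h4 : (4 : ℕ) = 2 ^ 2 := by norm_num
        rw [h4]
        exact Nat.Coprime.pow_left 2 this
      have hd : 4 * p ∣ Nat.card G := hcop.mul_dvd_of_dvd_of_dvd hd4 hpd
      have hf := fro (G := G) hd
      rw [sum_4p hp hp2, cc_one, hc2, hbig 4 ⟨g, hg⟩ (by norm_num), hcp, hc2p] at hf
      have hpf : p ∣ 1 + 1 + n + n + n + cc G (4 * p) := dvd_trans (dvd_mul_left _ _) hf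
      rcases h01 (4 * p) (by omega) with h0 | h0
      · rw [h0] at hpf
        have h6 : p ∣ (1 + 1 + n + n + n + 0) + 1 := by
          have : (1 + 1 + n + n + n + 0) + 1 = 3 * (1 + n) := by ring
          rw [this]
          exact Dvd.dvd.mul_left hpn 3
        exact dvd_one_contra hp ((Nat.dvd_add_right hpf).1 h6)
      · rw [h0] at hpf
        have h6 : p ∣ (1 + 1 + n + n + n + n) + 2 := by
          have : (1 + 1 + n + n + n + n) + 2 = 4 * (1 + n) := by ring
          rw [this]
          exact Dvd.dvd.mul_left hpn 4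
        have h7 : p ∣ 2 := (Nat.dvd_add_right hpf).1 h6
        have := Nat.le_of_dvd (by norm_num) h7
        omega
    have hc4 : cc G 4 = 0 := cc_zero (fun ⟨g, hg⟩ => hno4 g hg)
    have hn4d : ¬ 4 ∣ Nat.card G := by
      intro hd
      have h1 : (2:ℕ) ^ 2 ∣ Nat.card G := by simpa using hd
      have := fro (G := G) h1
      rw [Nat.sum_divisors_prime_pow Nat.prime_two] at this
      simp only [Finset.sum_range_succ, Finset.sum_range_zero, pow_zero, pow_one, zero_add, cc_one, hc2] at this
      have h3 : cc G (2 ^ 2) = 0 := by simpa using hc4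
      rw [h3] at this
      norm_num at this
    -- Sylow p has index 2
    obtain ⟨P⟩ : Nonempty (Sylow p G) := inferInstance
    have hidx : (P : Subgroup G).index = 2 := by
      have hnp := P.not_dvd_index
      have hi0 : (P : Subgroup G).index ≠ 0 := Subgroup.index_ne_zero_of_finite
      have hidvd : (P : Subgroup G).index ∣ Nat.card G := Subgroup.index_dvd_card _
      have hpr : ∀ {q : ℕ}, q.Prime → q ∣ (P : Subgroup G).index → q = 2 := by
        intro q hq hqd
        by_contra hq2
        have := huniq q hq hq2 (dvd_trans hqd hidvd)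
        subst this
        exact hnp hqd
      have hpow := Nat.eq_prime_pow_of_unique_prime_dvd hi0 hpr
      rcases hl : ((P : Subgroup G).index).primeFactorsList.length with _ | _ | e
      · rw [hl, pow_zero] at hpow
        exfalso
        have htop : (P : Subgroup G) = ⊤ := Subgroup.index_eq_one.1 hpow
        have hpg : IsPGroup p G := by
          have := P.isPGroup'
          rw [htop] at this
          exact this.of_equiv Subgroup.topEquiv
        rcases IsPGroup.iff_card.1 hpg with ⟨k, hk⟩
        rw [hk] at h2d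
        have := (Nat.prime_dvd_prime_iff_eq Nat.prime_two hp).1 (Nat.prime_two.dvd_of_dvd_pow h2d)
        exact hp2 this.symm
      · rw [hl] at hpow
        simpa using hpow
      · exfalso
        rw [hl] at hpow
        apply hn4d
        refine dvd_trans ?_ hidvd
        rw [hpow, pow_succ, pow_succ]
        exact ⟨2 ^ e, by ring⟩
    haveI hPn : (P : Subgroup G).Normal := Subgroup.normal_of_index_eq_two hidx
    have hPcard : Nat.card G = 2 * Nat.card (P : Subgroup G) := by
      have := (P : Subgroup G).card_mul_index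
      rw [hidx] at this
      omega
    have hzP : z ∉ (P : Subgroup G) := by
      intro hm
      have hd : orderOf (⟨z, hm⟩ : (P : Subgroup G)) ∣ Nat.card (P : Subgroup G) := orderOf_dvd_natCard _
      rw [Subgroup.orderOf_mk, hz] at hd
      obtain ⟨k, hk⟩ := IsPGroup.iff_card.1 P.isPGroup'
      rw [hk] at hd
      have := (Nat.prime_dvd_prime_iff_eq Nat.prime_two hp).1 (Nat.prime_two.dvd_of_dvd_pow hd)
      exact hp2 this.symm
    -- P has exponent p
    have hPpg : IsPGroup p (P : Subgroup G) := P.isPGroup'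
    have hPord : ∀ g : (P : Subgroup G), g ≠ 1 → orderOf g = p := by
      intro g hg
      obtain ⟨k, hk⟩ := IsPGroup.iff_orderOf.1 hPpg g
      have := hexp p hp hp2 (g : G) ⟨k, by rw [Subgroup.orderOf_coe]; exact hk⟩
        (by simpa using hg)
      rwa [Subgroup.orderOf_coe] at this
    have hPnt : Nontrivial (P : Subgroup G) := by
      rw [← Finite.one_lt_card_iff_nontrivial]
      have h1 : p ∣ 2 * Nat.card (P : Subgroup G) := hPcard ▸ hpd
      have h2 : p ∣ Nat.card (P : Subgroup G) := by
        rcases (Nat.Prime.dvd_mul hp).1 h1 with h | h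
        · have := Nat.le_of_dvd (by norm_num) h
          omega
        · exact h
      have := Nat.le_of_dvd Nat.card_pos h2
      omega
    obtain ⟨Q, iQ, fQ, ⟨eQ⟩⟩ := exists_type0 (P : Subgroup G)
    refine ⟨p, Q, iQ, fQ, hp, hp2, hPpg.of_injective eQ.toMonoidHom eQ.injective, ?_, ⟨?_⟩⟩
    · rw [Monoid.exponent_eq_of_mulEquiv eQ]
      exact (Monoid.exponent_eq_prime_iff hp).2 hPord
    · have hcardZ : Nat.card (Multiplicative (ZMod 2)) = 2 := by
        simp [Nat.card_eq_fintype_card, ZMod.card]
      have hcardz : Nat.card (Subgroup.zpowers z) = 2 := by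
        rw [Nat.card_zpowers, hz]
      let e₂ : Multiplicative (ZMod 2) ≃* Subgroup.zpowers z := mulEquivOfPrimeCardEq hcardZ hcardz
      let f : Multiplicative (ZMod 2) →* G := (Subgroup.zpowers z).subtype.comp e₂.toMonoidHom
      let g : Q →* G := (P : Subgroup G).subtype.comp eQ.toMonoidHom
      have hfmem : ∀ a, f a ∈ Subgroup.zpowers z := fun a => (e₂ a).2
      have hgmem : ∀ b, g b ∈ (P : Subgroup G) := fun b => (eQ b).2
      have hcomm : ∀ a b, Commute (f a) (g b) := by
        intro a b
        obtain ⟨k, hk⟩ := hfmem a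
        have hk' : z ^ k = f a := hk
        rw [← hk']
        exact Commute.zpow_left (show Commute z (g b) from (hzc (g b)).symm) k
      let Ψ : Multiplicative (ZMod 2) × Q →* G := MonoidHom.noncommCoprod f g hcomm
      have hinj : Function.Injective Ψ := by
        rw [injective_iff_map_eq_one]
        rintro ⟨a, b⟩ hab
        have hab' : f a * g b = 1 := hab
        have h1 : f a = (g b)⁻¹ := eq_inv_of_mul_eq_one_left hab'
        have h2 : f a ∈ (P : Subgroup G) := by
          rw [h1]
          exact inv_mem (hgmem b)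
        have h3 : orderOf (f a) ∣ 2 := by
          have := orderOf_dvd_of_mem_zpowers (hfmem a)
          rwa [hz] at this
        have h4 : orderOf (f a) ∣ Nat.card (P : Subgroup G) := by
          have := orderOf_dvd_natCard (⟨f a, h2⟩ : (P : Subgroup G))
          rwa [Subgroup.orderOf_mk] at this
        obtain ⟨k, hk⟩ := IsPGroup.iff_card.1 hPpg
        rw [hk] at h4
        have hco : Nat.Coprime 2 (p ^ k) :=
          Nat.Coprime.pow_right k ((Nat.coprime_primes Nat.prime_two hp).2 (Ne.symm hp2))
        have h5 : orderOf (f a) = 1 := Nat.eq_one_of_dvd_coprimes hco h3 h4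
        have h6 : f a = 1 := orderOf_eq_one_iff.1 h5
        have h7 : g b = 1 := by
          rw [h6, one_mul] at hab'
          exact hab'
        have ha : a = 1 := by
          have : e₂ a = 1 := Subtype.ext h6
          exact (map_eq_one_iff e₂ e₂.injective).1 this
        have hb : b = 1 := by
          have : eQ b = 1 := Subtype.ext h7
          exact (map_eq_one_iff eQ eQ.injective).1 this
        rw [ha, hb]
        rfl
      have hcard : Nat.card (Multiplicative (ZMod 2) × Q) = Nat.card G := by
        rw [Nat.card_prod, hcardZ, Nat.card_congr eQ.toEquiv, hPcard]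
      have hb : Function.Bijective Ψ := (Nat.bijective_iff_injective_and_card Ψ).2 ⟨hinj, hcard⟩
      exact (MulEquiv.ofBijective Ψ hb).symm
  · -- odd p-group
    left
    have hpg : IsPGroup p G := by
      have hg0 : Nat.card G ≠ 0 := Nat.card_pos.ne'
      have := Nat.eq_prime_pow_of_unique_prime_dvd hg0 (fun {q} hq hqd => huniq q hq (by
        rintro rfl
        exact h2d hqd) hqd)
      exact IsPGroup.of_card this
    refine ⟨p, hp, hpg, ?_, ?_⟩
    · have : p ≤ Nat.card G := Nat.le_of_dvd Nat.card_pos hpd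
      omega
    · haveI : Nontrivial G := ⟨x, 1, fun e => by
        rw [e, orderOf_one] at hx
        omega⟩
      refine (Monoid.exponent_eq_prime_iff hp).2 ?_
      intro g hg
      refine hexp p hp hp2 g ?_ hg
      obtain ⟨k, hk⟩ := IsPGroup.iff_orderOf.1 hpg g
      exact ⟨k, hk⟩
· -- 2-group
  push Not at hoddex
  have hpg : IsPGroup 2 G := by
    have hg0 : Nat.card G ≠ 0 := Nat.card_pos.ne'
    have := Nat.eq_prime_pow_of_unique_prime_dvd (p := 2) hg0 (fun {q} hq hqd => by
      by_contra h2
      exact hoddex q hq h2 hqd)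
    exact IsPGroup.of_card this
  have hpow2 : ∀ g : G, ∃ k, orderOf g = 2 ^ k := fun g => IsPGroup.iff_orderOf.1 hpg g
  by_cases h4 : ∃ g : G, orderOf g = 4
  · obtain ⟨g₄, hg₄⟩ := h4
    have hc4 : cc G 4 = n := hbig 4 ⟨g₄, hg₄⟩ (by norm_num)
    have hd4 : 4 ∣ Nat.card G := hg₄ ▸ orderOf_dvd_natCard g₄
    have hinv : ∃ y : G, orderOf y = 2 := by
      refine ⟨g₄ ^ 2, ?_⟩
      have h2d : 2 ∣ orderOf g₄ := by rw [hg₄]; norm_num
      have := orderOf_pow_orderOf_div (orderOf_pos g₄).ne' h2d
      rw [hg₄] at this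
      simpa using this
    obtain ⟨y, hy⟩ := hinv
    have hf4 : 4 ∣ 1 + cc G 2 + n := by
      have h1 : (2 : ℕ) ^ 2 ∣ Nat.card G := by simpa using hd4
      have := fro (G := G) h1
      rw [Nat.sum_divisors_prime_pow Nat.prime_two] at this
      simp only [Finset.sum_range_succ, Finset.sum_range_zero, pow_zero, pow_one, zero_add, cc_one] at this
      have h3 : cc G (2 ^ 2) = n := by simpa using hc4
      rw [h3] at this
      simpa using this
    have hc2 : cc G 2 = 1 := by
      rcases hvals y with h1 | h1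
      · rwa [hy] at h1
      · rw [hy] at h1
        rw [h1] at hf4
        exfalso
        obtain ⟨k, hk⟩ := hf4
        omega
    rw [hc2] at hf4
    have hno8 : ∀ g : G, orderOf g ≠ 8 := by
      intro g hg
      have hd8 : 2 ^ 3 ∣ Nat.card G := by
        have := orderOf_dvd_natCard g
        rw [hg] at this
        simpa using this
      have hc8 : cc G (2 ^ 3) = n := by
        have := hbig 8 ⟨g, hg⟩ (by norm_num)
        simpa using this
      have := fro (G := G) hd8
      rw [Nat.sum_divisors_prime_pow Nat.prime_two] at this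
      simp only [Finset.sum_range_succ, Finset.sum_range_zero, pow_zero, pow_one, zero_add, cc_one, hc2, hc8] at this
      have h3 : cc G (2 ^ 2) = n := by simpa using hc4
      rw [h3] at this
      obtain ⟨a, ha⟩ := hf4
      obtain ⟨b, hb⟩ := this
      omega
    have hord : ∀ g : G, ∀ k, orderOf g = 2 ^ k → k ≤ 2 := by
      intro g k hk
      by_contra hk3
      have hd : 8 ∣ orderOf g := by
        rw [hk]
        have : (8 : ℕ) = 2 ^ 3 := by norm_num
        rw [this]
        exact pow_dvd_pow 2 (by omega)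
      exact hno8 _ (orderOf_pow_orderOf_div (orderOf_pos g).ne' hd)
    have huq : H14.UniqueP 2 G := by
      intro a b ha hb
      have : Subsingleton {g : G // orderOf g = 2} := by
        have h1 : Nat.card {g : G // orderOf g = 2} = 1 := hc2
        exact (Nat.card_eq_one_iff_unique.1 h1).1
      have : b = a := congrArg Subtype.val (Subsingleton.elim (⟨b, hb⟩ : {g : G // orderOf g = 2}) ⟨a, ha⟩)
      rw [this]
      exact Subgroup.mem_zpowers a
    haveI : Fact (Nat.Prime 2) := ⟨Nat.prime_two⟩
    rcases H14.isCyclic_or_quaternion hpg huq with hcy | ⟨-, k, hk, ⟨e⟩⟩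
    · right; right; left
      refine ⟨hcy, ?_⟩
      obtain ⟨g, hg⟩ := IsCyclic.exists_ofOrder_eq_natCard (α := G)
      obtain ⟨k, hk⟩ := hpow2 g
      have hk2 := hord g k hk
      have hle : Nat.card G ≤ 4 := by
        rw [← hg, hk]
        calc 2 ^ k ≤ 2 ^ 2 := Nat.pow_le_pow_right (by norm_num) hk2
          _ = 4 := by norm_num
      have := Nat.le_of_dvd Nat.card_pos hd4
      omega
    · right; left
      have hk1 : k = 1 := by
        have h1 : orderOf (e.symm (QuaternionGroup.a 1)) = 2 ^ (k + 1) := by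
          rw [MulEquiv.orderOf_eq, QuaternionGroup.orderOf_a_one]
          ring
        have := hord _ _ h1
        omega
      subst hk1
      exact ⟨e⟩
  · obtain ⟨g₀, hg₀⟩ := hex
    have hord : ∀ g : G, g ≠ 1 → orderOf g = 2 := by
      intro g hg
      obtain ⟨k, hk⟩ := hpow2 g
      rcases k with _ | _ | k
      · simp only [pow_zero, orderOf_eq_one_iff] at hk
        exact absurd hk hg
      · simpa using hk
      · exfalso
        have hd : 4 ∣ orderOf g := by
          rw [hk]
          have : (4 : ℕ) = 2 ^ 2 := by norm_num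
          rw [this]
          exact pow_dvd_pow 2 (by omega)
        exact h4 ⟨_, orderOf_pow_orderOf_div (orderOf_pos g).ne' hd⟩
    have hg₀1 : g₀ ≠ 1 := by
      rintro rfl
      rw [orderOf_one, cc_one] at hg₀
      exact hn hg₀.symm
    have hc2 : cc G 2 = n := by
      rw [hord g₀ hg₀1] at hg₀
      exact hg₀
    left
    haveI : Nontrivial G := ⟨g₀, 1, hg₀1⟩
    refine ⟨2, Nat.prime_two, hpg, ?_, (Monoid.exponent_eq_prime_iff Nat.prime_two).2 hord⟩
    have h1 : H19.sol G 2 = 1 + n := by
      rw [sol_sum 2 (by norm_num), Nat.prime_two.sum_divisors, cc_one, hc2]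
      ring
    have h2 : H19.sol G 2 ≤ Nat.card G := Finite.card_subtype_le _
    omega

end Cfsg.Agent.S3995
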