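import Cfsg.Statements.S3997
import Cfsg.Agent.Lib.H19.Basic
import Mathlib

set_option autoImplicit false
open Cfsg

namespace Cfsg.Agent.S3997

open Cfsg.Agent.H19

/-- An order-preserving bijection. -/
theorem exists_equiv {G H : Type*} [Group G] [Finite G] [Group H] [Finite H]
    (hT : ∀ m : ℕ, Nat.card {g : G // orderOf g = m} = Nat.card {h : H // orderOf h = m}) :
    ∃ φ : G ≃ H, ∀ g, orderOf (φ g) = orderOf g := by
  have e : ∀ m : ℕ, ({g : G // orderOf g = m} ≃ {h : H // orderOf h = m}) := fun m =>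
    Classical.choice (Finite.card_eq.1 (hT m))
  refine ⟨(Equiv.sigmaFiberEquiv (orderOf : G → ℕ)).symm.trans
    ((Equiv.sigmaCongrRight e).trans (Equiv.sigmaFiberEquiv (orderOf : H → ℕ))), ?_⟩
  intro g
  simpa [Equiv.sigmaFiberEquiv] using (e (orderOf g) ⟨g, rfl⟩).2

/-- The result. -/
theorem result {G H : Type*} [Group G] [Finite G] [Group H] [Finite H] (hT : (∀ m : ℕ, Nat.card {g : G // orderOf g = m} = Nat.card {h : H // orderOf h = m})) (hG : Group.IsNilpotent G) :
    Group.IsNilpotent H := by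
  classical
  obtain ⟨φ, hφ⟩ := exists_equiv hT
  have hcard : Nat.card G = Nat.card H := Nat.card_congr φ
  refine (Group.isNilpotent_of_finite_tfae (G := H)).out 3 0 rfl rfl |>.1 ?_
  intro p hp Q
  -- Sylow in `G`
  obtain ⟨P⟩ := (inferInstance : Nonempty (Sylow p G))
  have hPn : (P : Subgroup G).Normal :=
    Group.isNilpotent_of_finite_tfae.out 0 3 rfl rfl |>.1 hG p hp P
  have hPQ : Nat.card (P : Subgroup G) = Nat.card (Q : Subgroup H) := by
    rw [Sylow.card_eq_multiplicity, Sylow.card_eq_multiplicity, hcard]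
  -- the set of p-elements of H has at most |Q| elements
  let A : Set H := {h | ∃ k, orderOf h = p ^ k}
  have hAeq : A = (Q : Subgroup H) := by
    classical
    have h1 : ((Q : Subgroup H) : Set H) ⊆ A := fun x hx =>
      orderOf_of_mem_isPGroup Q.isPGroup' hx
    have h2 : A ⊆ φ '' ((P : Subgroup G) : Set G) := by
      rintro x ⟨k, hk⟩
      refine ⟨φ.symm x, ?_, by simp⟩
      apply mem_sylow_of_normal (k := k) _ P hPn
      rw [← hφ]; simpa using hk
    have hfin : Set.Finite (((P : Subgroup G) : Set G)) := Set.toFinite _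
    apply Set.eq_of_subset_of_ncard_le h1 _ (Set.toFinite _) |>.symm
    calc A.ncard ≤ (φ '' ((P : Subgroup G) : Set G)).ncard := Set.ncard_le_ncard h2 (Set.toFinite _)
      _ = ((P : Subgroup G) : Set G).ncard := Set.ncard_image_of_injective _ φ.injective
      _ = Nat.card (P : Subgroup G) := Nat.card_coe_set_eq _
      _ = Nat.card (Q : Subgroup H) := hPQ
      _ = ((Q : Subgroup H) : Set H).ncard := (Nat.card_coe_set_eq _).symm
  constructor
  intro x hx g
  have : g * x * g⁻¹ ∈ A := by
    obtain ⟨k, hk⟩ := orderOf_of_mem_isPGroup Q.isPGroup' hx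
    refine ⟨k, ?_⟩
    rw [← hk]
    exact SemiconjBy.orderOf_eq g (x := x) (y := g * x * g⁻¹) (by simp [SemiconjBy]) |>.symm
  rw [hAeq] at this
  exact this

end Cfsg.Agent.S3997
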