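import Mathlib
import Cfsg.Agent.Lib.H17.PrimeGraph

set_option autoImplicit false

namespace Cfsg.Agent.S4002

theorem exists_three_primes (n : ℕ) (hn : 7 ≤ n) : ∃ r s t : ℕ, r.Prime ∧ s.Prime ∧ t.Prime ∧
    r < s ∧ s < t ∧ t ≤ n ∧ n < r * s := by
  by_cases h1 : n ≤ 14
  · exact ⟨3, 5, 7, by norm_num, by norm_num, by norm_num, by norm_num, by norm_num, by omega, by omega⟩
  by_cases h2 : n ≤ 34
  · exact ⟨5, 7, 11, by norm_num, by norm_num, by norm_num, by norm_num, by norm_num, by omega, by omega⟩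
  by_cases h3 : n ≤ 76
  · exact ⟨7, 11, 13, by norm_num, by norm_num, by norm_num, by norm_num, by norm_num, by omega, by omega⟩
  obtain ⟨t, ht, ht1, ht2⟩ := Nat.exists_prime_lt_and_le_two_mul (n / 2) (by omega)
  obtain ⟨s, hs, hs1, hs2⟩ := Nat.exists_prime_lt_and_le_two_mul (n / 4) (by omega)
  obtain ⟨r, hr, hr1, hr2⟩ := Nat.exists_prime_lt_and_le_two_mul (n / 8) (by omega)
  refine ⟨r, s, t, hr, hs, ht, by omega, by omega, by omega, ?_⟩
  have h8 : n < 8 * r := by omega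
  have h4 : n < 4 * s := by omega
  have : n * n < (8 * r) * (4 * s) := Nat.mul_lt_mul'' h8 h4
  have h77 : 77 ≤ n := by omega
  nlinarith

theorem result {G : Type*} [Group G] [Finite G] (n : ℕ) (hn : 7 ≤ n) (h : Set.range (orderOf : G → ℕ) = {k : ℕ | 1 ≤ k ∧ k ≤ n}) : ¬ Group.IsSolvable G := by
  intro hsol
  obtain ⟨r, s, t, hr, hs, ht, hrs, hst, htn, hlt⟩ := exists_three_primes n hn
  have hdiv : ∀ q : ℕ, q.Prime → q ≤ n → q ∣ Nat.card G := by
    intro q hq hqn
    have : q ∈ Set.range (orderOf : G → ℕ) := by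
      rw [h]
      exact ⟨hq.one_lt.le, hqn⟩
    obtain ⟨g, hg⟩ := this
    rw [← hg]
    exact orderOf_dvd_natCard g
  have hno : ∀ m : ℕ, n < m → ¬ ∃ x : G, orderOf x = m := by
    rintro m hm ⟨x, hx⟩
    have : m ∈ Set.range (orderOf : G → ℕ) := ⟨x, hx⟩
    rw [h] at this
    exact absurd this.2 (by omega)
  rcases Cfsg.Agent.H17.three_primes _ G rfl hr hs ht hrs.ne (hrs.trans hst).ne hst.ne
      (hdiv r hr (by omega)) (hdiv s hs (by omega)) (hdiv t ht htn) with h1 | h1 | h1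
  · exact hno _ hlt h1
  · refine hno _ ?_ h1
    calc n < r * s := hlt
      _ ≤ r * t := Nat.mul_le_mul_left r hst.le
  · refine hno _ ?_ h1
    calc n < r * s := hlt
      _ ≤ s * t := Nat.mul_le_mul hrs.le hst.le

end Cfsg.Agent.S4002
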