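import Cfsg.Statements.S4005
import Cfsg.Agent.Lib.H19.CyclicSylow

set_option autoImplicit false
set_option linter.style.haveILetI false
open Cfsg

namespace Cfsg.Agent.S4005

open Cfsg.Agent.H19

/-- Ring identity used for exponent three on fixed-point-free action. -/
lemma ring_key {R : Type*} [Ring R] (a b c : R)
    (ha : a * a + a + 1 = 0) (hb : b * b + b + 1 = 0)
    (hab : (a * b) * (a * b) + a * b + 1 = 0)
    (hc : c = a * (b * b))
    (hcc : c * c + c + 1 = 0) : a + a + a = 0 := by
  have hb2 : b * b = -1 - b := by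
    rw [eq_sub_iff_add_eq, eq_neg_iff_add_eq_zero]; rw [add_comm (b*b) b] at *; exact hb
  have ha2 : a * a = -1 - a := by
    rw [eq_sub_iff_add_eq, eq_neg_iff_add_eq_zero]; rw [add_comm (a*a) a] at *; exact ha
  have hc2 : c = -a - a * b := by
    rw [hc, hb2]; noncomm_ring
  have hab2 : (a * b) * (a * b) = -1 - a * b := by
    rw [eq_sub_iff_add_eq, eq_neg_iff_add_eq_zero]; rw [add_comm ((a * b) * (a * b)) (a * b)] at *; exact hab
  -- expansion of c²
  have hexp : c * c = a * a + (a * a) * b + (a * b) * a + (a * b) * (a * b) := by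
    rw [hc2]; noncomm_ring
  rw [hexp, ha2, hab2, hc2] at hcc
  have h1 : (-1 - a) * b = -b - a * b := by noncomm_ring
  rw [h1] at hcc
  have hM : (a * b) * a = 1 + a + a + b + a * b + a * b + a * b := by
    have h2 : (a * b) * a + (-1 - a + (-b - a * b) + (-1 - a * b) + (-a - a * b) + 1) = 0 := by
      rw [← hcc]; abel
    have h3 := eq_neg_of_add_eq_zero_left h2
    rw [h3]; abel
  have h4 : (a * b) * (a * b) = ((a * b) * a) * b := by noncomm_ring
  rw [hM] at h4
  have h5 : (1 + a + a + b + a * b + a * b + a * b) * b = b + a * b + a * b + (b * b) + a * (b * b) + a * (b * b) + a * (b * b) := by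
    noncomm_ring
  rw [h5, hb2, hab2] at h4
  have h6 : a * (-1 - b) = -a - a * b := by noncomm_ring
  rw [h6] at h4
  -- now linear
  have h7 : a + a + a = (-1 - a * b) - (b + a * b + a * b + (-1 - b) + (-a - a * b) + (-a - a * b) + (-a - a * b)) := by abel
  rw [h7, h4]; abel

variable {G : Type*} [Group G]

lemma braid {u s : G} (hu : u * u = 1) (hs : s * s = 1) (h : (u * s) ^ 3 = 1) :
    u * s * u = s * u * s := by
  have hui : u⁻¹ = u := inv_eq_of_mul_eq_one_left hu
  have hsi : s⁻¹ = s := inv_eq_of_mul_eq_one_left hs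
  have h1 : u * s * u * (s * u * s) = 1 := by
    have : (u * s) ^ 3 = u * s * u * (s * u * s) := by
      simp only [pow_succ, pow_zero, one_mul, mul_assoc]
    rw [← this]; exact h
  have h2 := eq_inv_of_mul_eq_one_left h1
  rw [h2]
  simp only [mul_inv_rev, hui, hsi, mul_assoc]

lemma word {a b s : G} (ha : a * a = 1) (hb : b * b = 1) (hs : s * s = 1) (hab : a * b = b * a)
    (h1 : (a * s) ^ 3 = 1) (h2 : (b * s) ^ 3 = 1) (h3 : (a * b * s) ^ 3 = 1) : b = s := by
  have hoo : (a * b) * (a * b) = 1 := by
    calc (a * b) * (a * b) = a * (b * a) * b := by group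
      _ = a * (a * b) * b := by rw [hab]
      _ = (a * a) * (b * b) := by group
      _ = 1 := by rw [ha, hb, one_mul]
  have E1 := braid ha hs h1
  have E2 := braid hb hs h2
  have E3 := braid hoo hs h3
  have haa : ∀ x : G, a * (a * x) = x := fun x => by rw [← mul_assoc, ha, one_mul]
  have hbb : ∀ x : G, b * (b * x) = x := fun x => by rw [← mul_assoc, hb, one_mul]
  have hss : ∀ x : G, s * (s * x) = x := fun x => by rw [← mul_assoc, hs, one_mul]
  have h4 : s * (a * b) * s = (s * a * s) * (s * b * s) := by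
    simp only [mul_assoc, hss]
  have h5 : a * b * s * (a * b) = (a * s * a) * (b * s * b) := by
    rw [E3, h4, E1, E2]
  have h6 : b * s * a * b = s * a * b * s * b := by
    apply mul_left_cancel (a := a)
    simp only [mul_assoc] at h5 ⊢
    exact h5
  have h7 : b * s * a = s * a * b * s := mul_right_cancel h6
  have h8 : b * (a * (s * (a * b))) = b * (s * a) := by
    have h9 : a * b * s * (a * b) = s * (a * b) * s := E3
    have h10 : s * (a * b) * s = s * a * b * s := by group
    rw [h10, ← h7] at h9
    calc b * (a * (s * (a * b))) = (b * a) * (s * (a * b)) := by group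
      _ = (a * b) * (s * (a * b)) := by rw [hab]
      _ = a * b * s * (a * b) := by group
      _ = b * s * a := h9
      _ = b * (s * a) := by group
  have h9 : a * (s * (a * b)) = s * a := mul_left_cancel h8
  have s1 : (a * (s * a)) * (a * (s * (a * b))) = b := by
    simp only [mul_assoc, haa, hss]
  have s2 : a * (s * a) = s * a * s := by rw [← E1, mul_assoc]
  calc b = (a * (s * a)) * (a * (s * (a * b))) := s1.symm
    _ = (a * (s * a)) * (s * a) := by rw [h9]
    _ = (s * a * s) * (s * a) := by rw [s2]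
    _ = s := by simp only [mul_assoc, hss, ha, mul_one]

/-- A finite group whose set of element orders is exactly {1, 2, 3} has either a normal elementary abelian 3-subgroup of index 2 or a normal elementary abelian 2-subgroup of index 3. -/
theorem result {G : Type*} [Group G] [Finite G] (h : Set.range (orderOf : G → ℕ) = {k : ℕ | 1 ≤ k ∧ k ≤ 3}) :
    (∃ N : Subgroup G, N.Normal ∧ Cfsg.IsElementaryAbelian 3 N ∧ N.index = 2) ∨
      (∃ N : Subgroup G, N.Normal ∧ Cfsg.IsElementaryAbelian 2 N ∧ N.index = 3) := by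
  classical
  haveI : Fact (Nat.Prime 2) := ⟨Nat.prime_two⟩
  haveI : Fact (Nat.Prime 3) := ⟨Nat.prime_three⟩
  have hord : ∀ g : G, orderOf g = 1 ∨ orderOf g = 2 ∨ orderOf g = 3 := by
    intro g
    have h0 : orderOf g ∈ Set.range (orderOf : G → ℕ) := ⟨g, rfl⟩
    rw [h] at h0
    obtain ⟨h1, h2⟩ := h0
    omega
  obtain ⟨t, ht⟩ : ∃ t : G, orderOf t = 2 := by
    have h0 : (2 : ℕ) ∈ Set.range (orderOf : G → ℕ) := by
      rw [h]; exact ⟨by norm_num, by norm_num⟩
    exact h0
  obtain ⟨x, hx⟩ : ∃ x : G, orderOf x = 3 := by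
    have h0 : (3 : ℕ) ∈ Set.range (orderOf : G → ℕ) := by
      rw [h]; exact ⟨by norm_num, by norm_num⟩
    exact h0
  have hS1 : ∀ u y : G, orderOf u = 2 → orderOf y = 3 → Commute u y → False := by
    intro u y hu hy hc
    have h6 := hc.orderOf_mul_eq_mul_orderOf_of_coprime (by rw [hu, hy]; norm_num)
    rw [hu, hy] at h6
    have := hord (u * y)
    omega
  have hsq2 : ∀ u : G, orderOf u = 2 → u * u = 1 := by
    intro u hu
    have := pow_orderOf_eq_one u
    rw [hu, pow_two] at this
    exact this
  have hsq : ∀ u c : G, orderOf u = 2 → Commute c u → c * c = 1 := by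
    intro u c hu hc
    rcases hord c with h1 | h2 | h3
    · rw [orderOf_eq_one_iff] at h1; rw [h1, one_mul]
    · exact hsq2 c h2
    · exact (hS1 u c hu h3 hc.symm).elim
  have hcommsq : ∀ c d : G, c * c = 1 → d * d = 1 → (c * d) * (c * d) = 1 → Commute c d := by
    intro c d hc hd hcd
    have hci : c⁻¹ = c := inv_eq_of_mul_eq_one_left hc
    have hdi : d⁻¹ = d := inv_eq_of_mul_eq_one_left hd
    have h1 : (c * d)⁻¹ = c * d := inv_eq_of_mul_eq_one_left hcd
    rw [mul_inv_rev, hci, hdi] at h1
    exact h1.symm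
  have hcomm2 : ∀ u c d : G, orderOf u = 2 → Commute c u → Commute d u → Commute c d := by
    intro u c d hu hc hd
    exact hcommsq c d (hsq u c hu hc) (hsq u d hu hd) (hsq u (c * d) hu (hc.mul_left hd))
  have hinv3 : ∀ u s : G, orderOf u = 2 → orderOf s = 2 → ¬ Commute u s → (u * s) ^ 3 = 1 := by
    intro u s hu hs hnc
    rcases hord (u * s) with h1 | h2 | h3
    · exfalso
      rw [orderOf_eq_one_iff] at h1
      apply hnc
      have h4 : s = u⁻¹ := eq_inv_of_mul_eq_one_right h1
      rw [h4]
      exact (Commute.refl u).inv_right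
    · exfalso
      exact hnc (hcommsq u s (hsq2 u hu) (hsq2 s hs) (hsq2 _ h2))
    · rw [← h3]; exact pow_orderOf_eq_one _
  by_cases hA : ∃ a b : G, orderOf a = 2 ∧ orderOf b = 2 ∧ a ≠ b ∧ Commute a b
  · -- normal elementary abelian 2-subgroup
    obtain ⟨a, b, ha, hb, hne, hcab⟩ := hA
    right
    have haa := hsq2 a ha
    have hbb := hsq2 b hb
    have hab2 : orderOf (a * b) = 2 := by
      apply orderOf_eq_prime
      · rw [pow_two]
        calc (a * b) * (a * b) = a * (b * a) * b := by group
          _ = a * (a * b) * b := by rw [hcab.eq.symm]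
          _ = (a * a) * (b * b) := by group
          _ = 1 := by rw [haa, hbb, one_mul]
      · intro h1
        have h2 : b = a⁻¹ := eq_inv_of_mul_eq_one_right h1
        rw [inv_eq_of_mul_eq_one_left haa] at h2
        exact hne h2.symm
    have hall : ∀ s : G, s * s = 1 → Commute s a := by
      intro s hs
      by_cases hs1 : s = 1
      · rw [hs1]; exact Commute.one_left a
      have hso : orderOf s = 2 := orderOf_eq_prime (by rw [pow_two]; exact hs) hs1
      by_contra hnc
      have hnb : ¬ Commute s b := fun hsb => hnc (hcomm2 b s a hb hsb hcab)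
      have hnab : ¬ Commute s (a * b) := fun hsab =>
        hnc (hcomm2 (a * b) s a hab2 hsab ((Commute.refl a).mul_right hcab))
      have w1 : (a * s) ^ 3 = 1 := hinv3 a s ha hso (fun c => hnc c.symm)
      have w2 : (b * s) ^ 3 = 1 := hinv3 b s hb hso (fun c => hnb c.symm)
      have w3 : (a * b * s) ^ 3 = 1 := hinv3 (a * b) s hab2 hso (fun c => hnab c.symm)
      have hbs := word haa hbb hs hcab.eq w1 w2 w3
      exact hnb (hbs ▸ Commute.refl _)
    set S : Subgroup G := Subgroup.centralizer ({a} : Set G) with hSdef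
    have hmem : ∀ g : G, g ∈ S ↔ g * g = 1 := by
      intro g
      constructor
      · intro hg
        have h1 : a * g = g * a := Subgroup.mem_centralizer_iff.1 hg a (Set.mem_singleton a)
        exact hsq a g ha h1.symm
      · intro hg
        refine Subgroup.mem_centralizer_iff.2 ?_
        intro u hu
        rw [Set.mem_singleton_iff] at hu
        rw [hu]
        exact (hall g hg).eq.symm
    have hSn : S.Normal := by
      constructor
      intro n hn g
      rw [hmem] at hn ⊢
      calc g * n * g⁻¹ * (g * n * g⁻¹) = g * (n * n) * g⁻¹ := by group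
        _ = 1 := by rw [hn]; group
    have hScomm : ∀ u ∈ S, ∀ v ∈ S, u * v = v * u := by
      intro u hu v hv
      exact hcommsq u v ((hmem u).1 hu) ((hmem v).1 hv) ((hmem _).1 (S.mul_mem hu hv))
    refine ⟨S, hSn, ⟨⟨⟨fun u v => Subtype.ext (hScomm u u.2 v v.2)⟩⟩, ?_⟩, ?_⟩
    · intro v hv
      rw [pow_two]
      exact (hmem v).1 hv
    -- index
    letI hScg : CommGroup S :=
      { (inferInstance : Group S) with mul_comm := fun u v => Subtype.ext (hScomm u u.2 v v.2) }
    have haS : a ∈ S := (hmem a).2 haa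
    have hord3 : ∀ g : G, g ∉ S → orderOf g = 3 := by
      intro g hg
      rw [hmem] at hg
      rcases hord g with h1 | h2 | h3
      · rw [orderOf_eq_one_iff] at h1
        exact absurd (by rw [h1, one_mul]) hg
      · exact absurd (hsq2 g h2) hg
      · exact h3
    have hxS : x ∉ S := by
      intro hxS
      have h1 := (hmem x).1 hxS
      have h2 : orderOf x ∣ 2 := orderOf_dvd_of_pow_eq_one (by rw [pow_two]; exact h1)
      rw [hx] at h2
      omega
    -- the action
    let A : G → AddMonoid.End (Additive S) := fun g =>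
      AddMonoidHom.mk' (fun v => Additive.ofMul (⟨g * (Additive.toMul v : S) * g⁻¹,
        hSn.conj_mem _ (Additive.toMul v : S).2 g⟩ : S)) (by
          intro u v
          apply Additive.toMul.injective
          apply Subtype.ext
          show g * ((Additive.toMul u : S) * (Additive.toMul v : S) : G) * g⁻¹ =
            (g * (Additive.toMul u : S) * g⁻¹) * (g * (Additive.toMul v : S) * g⁻¹)
          group)
    have hAval : ∀ (g : G) (v : Additive S), ((Additive.toMul (A g v) : S) : G) =
        g * (Additive.toMul v : S) * g⁻¹ := fun g v => rfl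
    have hAmul : ∀ g h : G, A (g * h) = A g * A h := by
      intro g h
      ext v
      show (g * h) * (Additive.toMul v : S) * (g * h)⁻¹ =
        g * (h * (Additive.toMul v : S) * h⁻¹) * g⁻¹
      group
    -- relation
    have hRel : ∀ g : G, g ∉ S → A g * A g + A g + 1 = 0 := by
      intro g hg
      have hg3 : orderOf g = 3 := hord3 g hg
      have hg33 : g ^ 3 = 1 := by rw [← hg3]; exact pow_orderOf_eq_one g
      ext v
      set w : S := Additive.toMul v with hw
      show (g * (g * (w : G) * g⁻¹) * g⁻¹) * (g * (w : G) * g⁻¹) * (w : G) = 1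
      set p1 : G := g * (w : G) * g⁻¹ with hp1
      have hp1S : p1 ∈ S := hSn.conj_mem _ w.2 g
      set p2 : G := g * p1 * g⁻¹ with hp2
      have hp2S : p2 ∈ S := hSn.conj_mem _ hp1S g
      set y : G := p2 * p1 * (w : G) with hy
      have hyS : y ∈ S := S.mul_mem (S.mul_mem hp2S hp1S) w.2
      have hp3 : g * p2 * g⁻¹ = w := by
        have h1 : g * p2 * g⁻¹ = g ^ 3 * (w : G) * (g ^ 3)⁻¹ := by
          rw [hp2, hp1]
          simp only [pow_succ, pow_zero, one_mul]
          group
        rw [h1, hg33]; group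
      have hyg : g * y * g⁻¹ = y := by
        have h1 : g * y * g⁻¹ = (g * p2 * g⁻¹) * (g * p1 * g⁻¹) * (g * (w : G) * g⁻¹) := by
          rw [hy]; group
        rw [h1, hp3, ← hp2, ← hp1, hy]
        have c1 : (w : G) * p2 = p2 * w := hScomm _ w.2 _ hp2S
        have c2 : (w : G) * p1 = p1 * w := hScomm _ w.2 _ hp1S
        calc (w : G) * p2 * p1 = p2 * (w : G) * p1 := by rw [c1]
          _ = p2 * ((w : G) * p1) := by group
          _ = p2 * (p1 * w) := by rw [c2]
          _ = p2 * p1 * w := by group
      by_contra hy1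
      have hyo : orderOf y = 2 := orderOf_eq_prime (by rw [pow_two]; exact (hmem y).1 hyS) hy1
      apply hS1 y g hyo hg3
      rw [mul_inv_eq_iff_eq_mul] at hyg
      exact hyg.symm
    -- trichotomy of cosets
    have htri : ∀ g : G, g ∉ S → x * g ∈ S ∨ x * g⁻¹ ∈ S := by
      intro g hg
      by_contra hcon
      push Not at hcon
      obtain ⟨h1, h2⟩ := hcon
      have hg3 : orderOf g = 3 := hord3 g hg
      have hg33 : g ^ 3 = 1 := by rw [← hg3]; exact pow_orderOf_eq_one g
      have hginv : g⁻¹ = g * g := by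
        rw [inv_eq_iff_mul_eq_one]
        rw [← hg33]
        simp only [pow_succ, pow_zero, one_mul, mul_assoc]
      have hc : A (x * g⁻¹) = A x * (A g * A g) := by
        rw [hAmul, hginv, hAmul]
      have hkey := ring_key (A x) (A g) (A (x * g⁻¹)) (hRel x hxS) (hRel g hg)
        (by rw [← hAmul]; exact hRel _ h1) hc (hRel _ h2)
      have hAx0 : A x = 0 := by
        have h3 : A x + A x = 0 := by
          ext v
          show (x * (Additive.toMul v : S) * x⁻¹) * (x * (Additive.toMul v : S) * x⁻¹) = 1
          exact (hmem _).1 (hSn.conj_mem _ (Additive.toMul v : S).2 x)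
        rw [h3, zero_add] at hkey
        exact hkey
      have h3 : x * a * x⁻¹ = 1 := by
        have h4 := hAval x (Additive.ofMul (⟨a, haS⟩ : S))
        rw [hAx0] at h4
        exact h4.symm
      have h4 : a = 1 := by
        have := mul_inv_eq_one.1 h3
        exact mul_left_cancel (a := x) (by rw [this, mul_one])
      rw [h4, orderOf_one] at ha
      omega
    -- count
    set q : G ⧸ S := (x : G ⧸ S) with hq
    have hsurj : Function.Surjective (![1, q, q⁻¹] : Fin 3 → G ⧸ S) := by
      intro y
      obtain ⟨g, rfl⟩ := QuotientGroup.mk_surjective y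
      by_cases hg : g ∈ S
      · refine ⟨0, ?_⟩
        show (1 : G ⧸ S) = (g : G ⧸ S)
        exact ((QuotientGroup.eq_one_iff g).2 hg).symm
      · rcases htri g hg with h1 | h1
        · refine ⟨2, ?_⟩
          show q⁻¹ = (g : G ⧸ S)
          have h2 : ((x * g : G) : G ⧸ S) = 1 := (QuotientGroup.eq_one_iff _).2 h1
          rw [QuotientGroup.mk_mul] at h2
          exact inv_eq_of_mul_eq_one_right h2
        · refine ⟨1, ?_⟩
          show q = (g : G ⧸ S)
          have h2 : ((x * g⁻¹ : G) : G ⧸ S) = 1 := (QuotientGroup.eq_one_iff _).2 h1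
          rw [QuotientGroup.mk_mul, QuotientGroup.mk_inv] at h2
          exact mul_inv_eq_one.1 h2
    have hle : Nat.card (G ⧸ S) ≤ 3 := by
      have := Nat.card_le_card_of_surjective _ hsurj
      simpa using this
    have hq1 : q ≠ 1 := fun h1 => hxS ((QuotientGroup.eq_one_iff x).1 h1)
    have hq3 : q ^ 3 = 1 := by
      rw [hq, ← QuotientGroup.mk_pow, ← hx, pow_orderOf_eq_one]
      rfl
    have hqo : orderOf q = 3 := orderOf_eq_prime hq3 hq1
    have hdvd : 3 ∣ Nat.card (G ⧸ S) := hqo ▸ orderOf_dvd_natCard q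
    have hpos : 0 < Nat.card (G ⧸ S) := Nat.card_pos
    show Nat.card (G ⧸ S) = 3
    exact le_antisymm hle (Nat.le_of_dvd hpos hdvd)
  · -- index two case
    left
    push Not at hA
    have hCt : ∀ c : G, Commute c t → c = 1 ∨ c = t := by
      intro c hc
      by_cases hc1 : c = 1
      · exact Or.inl hc1
      right
      by_contra hne
      have hco : orderOf c = 2 := orderOf_eq_prime (by rw [pow_two]; exact hsq t c ht hc) hc1
      exact hA c t hco ht hne hc
    have hptz : IsPGroup 2 (Subgroup.zpowers t) := isPGroup_zpowers_of_orderOf (k := 1) (by rw [ht, pow_one])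
    obtain ⟨P, hP⟩ := hptz.exists_le_sylow
    have htP : t ∈ (P : Subgroup G) := hP (Subgroup.mem_zpowers t)
    have hPsq : ∀ y ∈ (P : Subgroup G), y * y = 1 := by
      intro y hy
      obtain ⟨e, he⟩ := P.2 ⟨y, hy⟩
      have he' : y ^ 2 ^ e = 1 := by
        have := congrArg Subtype.val he
        simpa using this
      obtain ⟨f, -, hf⟩ := (Nat.dvd_prime_pow Nat.prime_two).1 (orderOf_dvd_of_pow_eq_one he')
      rcases hord y with h1 | h2 | h3
      · rw [orderOf_eq_one_iff] at h1; rw [h1, one_mul]
      · exact hsq2 y h2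
      · exfalso
        rw [h3] at hf
        have h4 : 3 ∣ 2 ^ f := by rw [← hf]
        have := Nat.Prime.dvd_of_dvd_pow Nat.prime_three h4
        omega
    have hPel : ∀ y ∈ (P : Subgroup G), y = 1 ∨ y = t := by
      intro y hy
      apply hCt
      exact hcommsq y t (hPsq y hy) (hPsq t htP) (hPsq _ ((P : Subgroup G).mul_mem hy htP))
    have hPzp : (P : Subgroup G) = Subgroup.zpowers t := by
      apply le_antisymm _ hP
      intro y hy
      rcases hPel y hy with h1 | h1
      · rw [h1]; exact Subgroup.one_mem _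
      · rw [h1]; exact Subgroup.mem_zpowers t
    have hPcard : Nat.card (P : Subgroup G) = 2 := by
      rw [hPzp, Nat.card_zpowers, ht]
    have ht1 : t ≠ 1 := by
      intro h1
      rw [h1, orderOf_one] at ht
      omega
    have hN : Subgroup.normalizer ((P : Subgroup G) : Set G) ≤ Subgroup.centralizer ((P : Subgroup G) : Set G) := by
      intro g hg
      have h1 : g * t * g⁻¹ ∈ (P : Subgroup G) := (Subgroup.mem_normalizer_iff.1 hg t).1 htP
      have h2 : g * t * g⁻¹ = t := by
        rcases hPel _ h1 with h3 | h3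
        · exfalso
          apply ht1
          have h4 := mul_inv_eq_one.1 h3
          exact mul_left_cancel (a := g) (by rw [h4, mul_one])
        · exact h3
      refine Subgroup.mem_centralizer_iff.2 ?_
      intro y hy
      rcases hPel y hy with h3 | h3
      · rw [h3, one_mul, mul_one]
      · rw [h3]
        rw [mul_inv_eq_iff_eq_mul] at h2
        exact h2.symm
    obtain ⟨R, hRn, hRc⟩ := burnside_complement P hN
    refine ⟨R, hRn, ?_, ?_⟩
    swap
    · rw [hRc.symm.index_eq_card, hPcard]
    have hRodd : ¬ 2 ∣ Nat.card R := by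
      rw [← hRc.index_eq_card]
      exact P.not_dvd_index
    have hRexp : ∀ r ∈ R, r ^ 3 = 1 := by
      intro r hr
      have h1 : orderOf r ∣ Nat.card R := Subgroup.orderOf_dvd_natCard R hr
      rcases hord r with h2 | h2 | h2
      · rw [orderOf_eq_one_iff] at h2; rw [h2, one_pow]
      · rw [h2] at h1; exact absurd h1 hRodd
      · rw [← h2]; exact pow_orderOf_eq_one r
    have htR : t ∉ R := by
      intro h1
      exact ht1 (Subgroup.disjoint_def.1 hRc.disjoint h1 htP)
    have hfpf : ∀ r ∈ R, Commute r t → r = 1 := by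
      intro r hr hc
      rcases hCt r hc with h1 | h1
      · exact h1
      · exact absurd (h1 ▸ hr) htR
    have htt := hsq2 t ht
    have hti : t⁻¹ = t := inv_eq_of_mul_eq_one_left htt
    -- inversion
    let f : R → R := fun r => ⟨(r : G)⁻¹ * (t * r * t⁻¹), R.mul_mem (R.inv_mem r.2) (hRn.conj_mem _ r.2 t)⟩
    have hfinj : Function.Injective f := by
      intro r r' hrr
      have h1 : (r : G)⁻¹ * (t * r * t⁻¹) = (r' : G)⁻¹ * (t * r' * t⁻¹) := congrArg Subtype.val hrr
      have h2 : (r' : G) * (r : G)⁻¹ ∈ R := R.mul_mem r'.2 (R.inv_mem r.2)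
      have h3 : Commute ((r' : G) * (r : G)⁻¹) t := by
        show (r' : G) * (r : G)⁻¹ * t = t * ((r' : G) * (r : G)⁻¹)
        have h4 : (r : G)⁻¹ * (t * r) = (r' : G)⁻¹ * (t * r') := by
          have h5 : (r : G)⁻¹ * (t * r * t⁻¹) = ((r : G)⁻¹ * (t * r)) * t⁻¹ := by group
          have h6 : (r' : G)⁻¹ * (t * r' * t⁻¹) = ((r' : G)⁻¹ * (t * r')) * t⁻¹ := by group
          rw [h5, h6] at h1
          exact mul_right_cancel h1
        calc (r' : G) * (r : G)⁻¹ * t = (r' : G) * ((r : G)⁻¹ * (t * r)) * (r : G)⁻¹ := by group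
          _ = (r' : G) * ((r' : G)⁻¹ * (t * r')) * (r : G)⁻¹ := by rw [h4]
          _ = t * ((r' : G) * (r : G)⁻¹) := by group
      have h7 := hfpf _ h2 h3
      apply Subtype.ext
      have h8 := mul_inv_eq_one.1 h7
      exact h8.symm
    have hfsurj : Function.Surjective f := Finite.injective_iff_surjective.1 hfinj
    have hinvert : ∀ r ∈ R, t * r * t⁻¹ = r⁻¹ := by
      intro r hr
      obtain ⟨y, hy⟩ := hfsurj ⟨r, hr⟩
      have h1 : r = (y : G)⁻¹ * (t * y * t⁻¹) := (congrArg Subtype.val hy).symm
      rw [hti] at h1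
      have e1 : r⁻¹ = t⁻¹ * (y : G)⁻¹ * t⁻¹ * y := by rw [h1]; group
      rw [hti] at e1
      rw [e1, hti, h1]
      calc t * ((y : G)⁻¹ * (t * y * t)) * t = t * (y : G)⁻¹ * t * y * (t * t) := by group
        _ = t * (y : G)⁻¹ * t * y := by rw [htt, mul_one]
    have hcomm : ∀ u ∈ R, ∀ v ∈ R, u * v = v * u := by
      intro u hu v hv
      have h1 := hinvert _ (R.mul_mem hu hv)
      have h2 : t * (u * v) * t⁻¹ = (t * u * t⁻¹) * (t * v * t⁻¹) := by group
      rw [h2, hinvert u hu, hinvert v hv, mul_inv_rev] at h1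
      have h3 : (u⁻¹ * v⁻¹)⁻¹ = (v⁻¹ * u⁻¹)⁻¹ := by rw [h1]
      have h4 : v * u = u * v := by simpa using h3
      exact h4.symm
    exact ⟨⟨⟨fun u v => Subtype.ext (hcomm u u.2 v v.2)⟩⟩, hRexp⟩

end Cfsg.Agent.S4005
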