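import Cfsg.Statements.S4006
import Mathlib
import Cfsg.Agent.Lib.Lead.Burnside
import Cfsg.Agent.Lib.H23.RealDeg3
import Cfsg.Agent.Lib.H06.CoprimeCoset
import Cfsg.Agent.Lib.H06.PSolvable
import Cfsg.Agent.Lib.H08.HallHigman
import Cfsg.Agent.Lib.H14.UniqueSub
import Cfsg.Agent.Lib.H01.Fitting
import Cfsg.Agent.Lib.H18.Neu3

set_option autoImplicit false
open Cfsg

namespace Cfsg.Agent.S4006


open scoped commutatorElement
set_option linter.unusedSectionVars false
set_option linter.style.haveILetI false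

universe u

section aux
variable {G : Type u} [Group G]

def OK (G : Type u) [Group G] : Prop :=
  ∀ g : G, orderOf g = 1 ∨ orderOf g = 2 ∨ orderOf g = 3 ∨ orderOf g = 4

theorem no_six (ho : OK G) {x y : G} (hx : orderOf x = 2) (hy : orderOf y = 3)
    (hc : Commute x y) : False := by
  have := hc.orderOf_mul_eq_mul_orderOf_of_coprime (by rw [hx, hy]; norm_num)
  rw [hx, hy] at this
  rcases ho (x * y) with h | h | h | h <;> omega

theorem exists_pow_two {x : G} (hpos : orderOf x ≠ 0) (hx : 2 ∣ orderOf x) :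
    ∃ k : ℕ, orderOf (x ^ k) = 2 := ⟨_, orderOf_pow_orderOf_div hpos hx⟩

theorem no_even_three (ho : OK G) {x y : G} (hx : 2 ∣ orderOf x) (hy : orderOf y = 3)
    (hc : Commute x y) : False := by
  have hpos : orderOf x ≠ 0 := by rintro h; rw [h] at hx; rcases ho x with h' | h' | h' | h' <;> omega
  obtain ⟨k, hk⟩ := exists_pow_two hpos hx
  exact no_six ho hk hy (hc.pow_left k)

theorem ord_dvd (ho : OK G) (g : G) {n : ℕ} (h : n ∣ orderOf g) : n ≤ 4 := by
  rcases ho g with h' | h' | h' | h' <;> rw [h'] at h <;> have := Nat.le_of_dvd (by norm_num) h <;> omega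

/-- group of order six without central involution. -/
theorem perm3 {S : Type u} [Group S] [Finite S] (hcard : Nat.card S = 6)
    (hnc : ∀ t : S, orderOf t = 2 → ∃ g, g * t ≠ t * g) : Nonempty (S ≃* Equiv.Perm (Fin 3)) := by
  classical
  haveI : Fact (Nat.Prime 2) := ⟨Nat.prime_two⟩
  obtain ⟨t, ht⟩ := exists_prime_orderOf_dvd_card' (G := S) 2 (by rw [hcard]; norm_num)
  let H : Subgroup S := Subgroup.zpowers t
  have hH : Nat.card H = 2 := by rw [Nat.card_zpowers, ht]
  have hX : Nat.card (S ⧸ H) = 3 := by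
    have h1 : Nat.card (S ⧸ H) * Nat.card H = Nat.card S := by
      rw [← Subgroup.index_eq_card, Subgroup.index_mul_card]
    rw [hH, hcard] at h1
    omega
  let ρ : S →* Equiv.Perm (S ⧸ H) := MulAction.toPermHom S (S ⧸ H)
  have hinj : Function.Injective ρ := by
    rw [injective_iff_map_eq_one]
    intro x hx
    by_contra hne
    have hxk : x ∈ H.normalCore := by
      rw [Subgroup.normalCore_eq_ker]; exact hx
    have hxH : x ∈ H := Subgroup.normalCore_le H hxk
    have hxt : x = t := by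
      obtain ⟨k, rfl⟩ := Subgroup.mem_zpowers_iff.mp hxH
      have h2 : t ^ (k % 2) = t ^ k := by
        conv_rhs => rw [← zpow_mod_orderOf, ht]
        rfl
      have hk : k % 2 = 0 ∨ k % 2 = 1 := by omega
      rcases hk with hk | hk
      · rw [hk] at h2; simp at h2; exact absurd h2.symm hne
      · rw [hk] at h2; simpa using h2.symm
    obtain ⟨g, hg⟩ := hnc t ht
    apply hg
    have hgt : g * t * g⁻¹ ∈ H := by
      have := (inferInstance : H.normalCore.Normal).conj_mem x hxk g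
      rw [hxt] at this
      exact Subgroup.normalCore_le H this
    have hord : orderOf (g * t * g⁻¹) = 2 := by
      have : orderOf (g * t * g⁻¹) = orderOf t := by
        rw [← MulAut.conj_apply, MulEquiv.orderOf_eq]
      rw [this, ht]
    have : g * t * g⁻¹ = t := by
      obtain ⟨k, hk⟩ := Subgroup.mem_zpowers_iff.mp hgt
      have h2 : t ^ (k % 2) = t ^ k := by
        conv_rhs => rw [← zpow_mod_orderOf, ht]
        rfl
      have hk2 : k % 2 = 0 ∨ k % 2 = 1 := by omega
      rcases hk2 with hk2 | hk2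
      · rw [hk2] at h2; simp at h2
        rw [← hk, ← h2, orderOf_one] at hord; omega
      · rw [hk2] at h2; simp at h2
        rw [← hk, ← h2]
    calc g * t = g * t * g⁻¹ * g := by group
      _ = t * g := by rw [this]
  haveI : Finite (S ⧸ H) := inferInstance
  have hcardp : Nat.card (Equiv.Perm (S ⧸ H)) = 6 := by
    rw [Nat.card_perm, hX]; rfl
  have hbij : Function.Bijective ρ :=
    (Nat.bijective_iff_injective_and_card ρ).mpr ⟨hinj, by rw [hcard, hcardp]⟩
  have e2 : (S ⧸ H) ≃ Fin 3 := Finite.equivFinOfCardEq hX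
  exact ⟨(MulEquiv.ofBijective ρ hbij).trans e2.permCongrHom⟩

/-- commutative six-term bookkeeping. -/
theorem six_aux {W : Type*} [CommGroup W] (z p q r s b1 b2 : W) (h1 : z * p * q = 1) (h2 : z * r * s = 1)
    (h3 : b1 * p * r = 1) (h4 : b2 * s * q = 1) (h5 : z * b1 * b2 = 1) : z ^ 3 = 1 := by
  have : z ^ 3 * ((b1 * p * r) * (b2 * s * q)) = (z * p * q) * (z * r * s) * (z * b1 * b2) := by
    simp only [pow_succ, pow_zero, one_mul]; ac_rfl
  rw [h1, h2, h3, h4, h5] at this
  simpa using this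

theorem six_aux' {X : Type*} [Group X] (W : Subgroup X) (hW : ∀ u ∈ W, ∀ v ∈ W, u * v = v * u)
    {z p q r s b1 b2 : X} (hz : z ∈ W) (hp : p ∈ W) (hq : q ∈ W) (hr : r ∈ W) (hs : s ∈ W)
    (hb1 : b1 ∈ W) (hb2 : b2 ∈ W) (h1 : z * p * q = 1) (h2 : z * r * s = 1)
    (h3 : b1 * p * r = 1) (h4 : b2 * s * q = 1) (h5 : z * b1 * b2 = 1) : z ^ 3 = 1 := by
  letI : CommGroup W := { (inferInstance : Group W) with
    mul_comm := fun a b => Subtype.ext (hW a a.2 b b.2) }
  have := six_aux (⟨z, hz⟩ : W) ⟨p, hp⟩ ⟨q, hq⟩ ⟨r, hr⟩ ⟨s, hs⟩ ⟨b1, hb1⟩ ⟨b2, hb2⟩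
    (Subtype.ext h1) (Subtype.ext h2) (Subtype.ext h3) (Subtype.ext h4) (Subtype.ext h5)
  exact congrArg Subtype.val this

/-- The `ψ` argument: exponent two. -/
theorem exp2 {N : Type u} [Group N] [Finite N] (hN : IsPGroup 2 N) (φ ψ : N →* N)
    (I : ∀ x, x * φ x * φ (φ x) = 1) (hψφ : ∀ v, ψ (φ v) = φ (φ (ψ v)))
    (hψ : ∀ v, (ψ v * v) ^ 2 = 1) (v : N) : v ^ 2 = 1 := by
  have hcube := H18.neu_cube φ I
  have hT := H18.neu_class_two hN φ I
  have hcen : ∀ x y : N, ⁅x, y⁆ ∈ Subgroup.center N := by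
    intro x y
    rw [Subgroup.mem_center_iff]
    intro z
    have h := hT x y z
    rw [commutatorElement_eq_one_iff_mul_comm] at h
    exact h.symm
  set w := ψ v with hw
  have k0 : (w * v) ^ 2 = 1 := hψ v
  have k1 : (φ w * v) ^ 2 = 1 := by
    have h := hψ (φ v)
    rw [hψφ] at h
    have h2 := congrArg (fun t => φ (φ t)) h
    simp only [map_pow, map_mul, map_one, hcube] at h2
    exact h2
  have k2 : (φ (φ w) * v) ^ 2 = 1 := by
    have h := hψ (φ (φ v))
    rw [hψφ, hψφ] at h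
    simp only [hcube] at h
    have h2 := congrArg (fun t => φ t) h
    simp only [map_pow, map_mul, map_one, hcube] at h2
    exact h2
  -- expansion
  have hexp : ∀ a : N, (a * v) ^ 2 = ⁅v, a⁆ * a ^ 2 * v ^ 2 := by
    intro a
    have hc := Subgroup.mem_center_iff.mp (hcen v a) a
    calc (a * v) ^ 2 = a * (v * a * v⁻¹ * a⁻¹) * a * v ^ 2 := by rw [sq, sq]; group
      _ = (a * ⁅v, a⁆) * a * v ^ 2 := by rw [commutatorElement_def]
      _ = ⁅v, a⁆ * a ^ 2 * v ^ 2 := by rw [hc, sq a, mul_assoc ⁅v, a⁆ a a]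
  rw [hexp] at k0 k1 k2
  have hvinv : ∀ a : N, ⁅v, a⁆ * a ^ 2 * v ^ 2 = 1 → a ^ 2 = ⁅v, a⁆⁻¹ * (v ^ 2)⁻¹ := by
    intro a h
    have h1 : ⁅v, a⁆ * a ^ 2 = (v ^ 2)⁻¹ := eq_inv_of_mul_eq_one_left h
    rw [eq_inv_mul_iff_mul_eq]; exact h1
  have e0 := hvinv _ k0
  have e1 := hvinv _ k1
  have e2 := hvinv _ k2
  have c01 : Commute w (φ w) := H18.neu_comm φ I w
  have c12 : Commute (φ w) (φ (φ w)) := H18.neu_comm φ I (φ w)
  have c02 : Commute w (φ (φ w)) := by
    have := H18.neu_comm φ I (φ (φ w))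
    rw [hcube] at this
    exact (show Commute (φ (φ w)) w from this).symm
  have hprod : w * φ w * φ (φ w) = 1 := I w
  have hsq : w ^ 2 * (φ w) ^ 2 * (φ (φ w)) ^ 2 = 1 := by
    rw [← c01.mul_pow, ← (c02.mul_left c12).mul_pow, hprod, one_pow]
  -- the commutator product
  have hcm : ∀ a b : N, ⁅v, a * b⁆ = ⁅v, a⁆ * ⁅v, b⁆ := by
    intro a b
    have h : ⁅v, a * b⁆ = ⁅v, a⁆ * (a * ⁅v, b⁆ * a⁻¹) := by
      simp only [commutatorElement_def]; group
    rw [h, (Subgroup.mem_center_iff.mp (hcen v b) a)]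
    group
  have hc1 : ⁅v, w⁆ * ⁅v, φ w⁆ * ⁅v, φ (φ w)⁆ = 1 := by
    rw [← hcm, ← hcm, hprod, commutatorElement_one_right]
  rw [e0, e1, e2] at hsq
  set c0 := ⁅v, w⁆ with hc0
  set c1 := ⁅v, φ w⁆ with hc1'
  set c2 := ⁅v, φ (φ w)⁆ with hc2'
  have z0 : c0 ∈ Subgroup.center N := hcen _ _
  have z1 : c1 ∈ Subgroup.center N := hcen _ _
  have z2 : c2 ∈ Subgroup.center N := hcen _ _
  have hv6 : (v ^ 6)⁻¹ = 1 := by
    have : c0⁻¹ * (v ^ 2)⁻¹ * (c1⁻¹ * (v ^ 2)⁻¹) * (c2⁻¹ * (v ^ 2)⁻¹) =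
        (c0 * c1 * c2)⁻¹ * (v ^ 6)⁻¹ := by
      have a1 := Subgroup.mem_center_iff.mp (Subgroup.inv_mem _ z1) ((v ^ 2)⁻¹)
      have a2 := Subgroup.mem_center_iff.mp (Subgroup.inv_mem _ z2) ((v ^ 2)⁻¹)
      have a2' := Subgroup.mem_center_iff.mp (Subgroup.inv_mem _ z2) ((v ^ 2)⁻¹ * (v ^ 2)⁻¹)
      have a3 := Subgroup.mem_center_iff.mp (Subgroup.inv_mem _ z0) c1⁻¹
      calc c0⁻¹ * (v ^ 2)⁻¹ * (c1⁻¹ * (v ^ 2)⁻¹) * (c2⁻¹ * (v ^ 2)⁻¹)
          = c0⁻¹ * ((v ^ 2)⁻¹ * c1⁻¹) * (v ^ 2)⁻¹ * c2⁻¹ * (v ^ 2)⁻¹ := by group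
        _ = c0⁻¹ * c1⁻¹ * ((v ^ 2)⁻¹ * (v ^ 2)⁻¹ * c2⁻¹) * (v ^ 2)⁻¹ := by rw [a1]; group
        _ = c0⁻¹ * c1⁻¹ * c2⁻¹ * ((v ^ 2)⁻¹ * (v ^ 2)⁻¹) * (v ^ 2)⁻¹ := by rw [a2']; group
        _ = (c0 * c1 * c2)⁻¹ * (v ^ 6)⁻¹ := by
          have h6 : (v ^ 6)⁻¹ = (v ^ 2)⁻¹ * (v ^ 2)⁻¹ * (v ^ 2)⁻¹ := by group
          rw [h6]
          have h7 : (c0 * c1 * c2)⁻¹ = c0⁻¹ * c1⁻¹ * c2⁻¹ := by
            rw [mul_inv_rev, mul_inv_rev, a3]
            exact (Subgroup.mem_center_iff.mp (Subgroup.inv_mem _ z2) _).symm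
          rw [h7]; group
    rw [hsq, hc1, inv_one, one_mul] at this
    exact this.symm
  have hv6' : v ^ 6 = 1 := by simpa using hv6
  obtain ⟨k, hk⟩ := hN v
  have h1 : orderOf v ∣ 6 := orderOf_dvd_of_pow_eq_one hv6'
  have h2 : orderOf v ∣ 2 ^ k := orderOf_dvd_of_pow_eq_one hk
  have h3 : orderOf v ∣ 2 := by
    have h4 : Nat.Coprime 3 (2 ^ k) := Nat.Coprime.pow_right _ (by norm_num)
    have h5 : orderOf v ∣ 2 * 3 := h1
    exact (Nat.Coprime.coprime_dvd_right h2 h4).symm.dvd_of_dvd_mul_right h5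
  exact orderOf_dvd_iff_pow_eq_one.mp h3


theorem class_le_two_of {N : Type u} [Group N] [Group.IsNilpotent N] (hT : ∀ x y z : N, ⁅⁅x, y⁆, z⁆ = 1) :
    Group.nilpotencyClass N ≤ 2 := by
  rw [← Subgroup.lowerCentralSeries_eq_bot_iff_nilpotencyClass_le]
  have h1 : (⊤ : Subgroup N).lowerCentralSeries 1 ≤ Subgroup.center N := by
    rw [Subgroup.lowerCentralSeries_succ, Subgroup.lowerCentralSeries_zero, Subgroup.commutator_le]
    intro x _ y _
    rw [Subgroup.mem_center_iff]
    intro z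
    have h := hT x y z
    rw [commutatorElement_eq_one_iff_mul_comm] at h
    exact h.symm
  rw [Subgroup.lowerCentralSeries_succ, eq_bot_iff, Subgroup.commutator_le]
  intro w hw z _
  have := Subgroup.mem_center_iff.mp (h1 hw) z
  rw [Subgroup.mem_bot, commutatorElement_eq_one_iff_mul_comm]
  exact this.symm

theorem card_two_three (ho : OK G) [Finite G] : ∃ a b : ℕ, Nat.card G = 2 ^ a * 3 ^ b := by
  have hn : Nat.card G ≠ 0 := Nat.card_pos.ne'
  set n := Nat.card G with hndef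
  have h1 : ordProj[2] n * ordCompl[2] n = n := Nat.ordProj_mul_ordCompl_eq_self n 2
  set m := ordCompl[2] n with hm
  have hm0 : m ≠ 0 := by
    intro h; rw [h, mul_zero] at h1; exact hn h1.symm
  have h2 : ordProj[3] m * ordCompl[3] m = m := Nat.ordProj_mul_ordCompl_eq_self m 3
  set m' := ordCompl[3] m with hm'
  have hone : m' = 1 := by
    by_contra hne
    obtain ⟨r, hr, hrd⟩ := Nat.exists_prime_and_dvd hne
    have hrm : r ∣ m := hrd.trans ⟨_, by rw [mul_comm]; exact h2.symm⟩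
    have hrn : r ∣ n := hrm.trans ⟨_, by rw [mul_comm]; exact h1.symm⟩
    haveI : Fact r.Prime := ⟨hr⟩
    obtain ⟨g, hg⟩ := exists_prime_orderOf_dvd_card' (G := G) r hrn
    have hne2 : r ≠ 2 := by
      rintro rfl
      exact Nat.not_dvd_ordCompl Nat.prime_two hn hrm
    have hne3 : r ≠ 3 := by
      rintro rfl
      exact Nat.not_dvd_ordCompl Nat.prime_three hm0 hrd
    rcases ho g with h | h | h | h <;> rw [hg] at h
    · exact hr.one_lt.ne' h
    · exact hne2 h
    · exact hne3 h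
    · rw [h] at hr; exact absurd hr (by norm_num)
  rw [hone, mul_one] at h2
  exact ⟨_, _, by rw [← h1, ← h2]⟩

theorem caseA [Finite G] [hn : (pCore 3 G).Normal] (ho : OK G) (h2 : ∃ t : G, orderOf t = 2) (h4 : ∃ x : G, orderOf x = 4)
    (hN : pCore 3 G ≠ ⊥) :
    Cfsg.IsElementaryAbelian 3 (pCore 3 G) ∧ ((IsCyclic (G ⧸ pCore 3 G) ∧ (pCore 3 G).index = 4) ∨
      Nonempty (G ⧸ pCore 3 G ≃* QuaternionGroup 2)) := by
  classical
  haveI : Fact (Nat.Prime 3) := ⟨Nat.prime_three⟩
  haveI : Fact (Nat.Prime 2) := ⟨Nat.prime_two⟩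
  set N := pCore 3 G with hNdef
  have hp : IsPGroup 3 N := H01.pCore_isPGroup 3
  have hord : ∀ x ∈ N, orderOf x = 1 ∨ orderOf x = 3 := by
    intro x hx
    obtain ⟨k, hk⟩ := hp ⟨x, hx⟩
    have hk' : x ^ 3 ^ k = 1 := congrArg Subtype.val hk
    have hd := orderOf_dvd_of_pow_eq_one hk'
    have h23 : ¬ 2 ∣ 3 ^ k := fun h => by
      have := Nat.Prime.dvd_of_dvd_pow Nat.prime_two h
      omega
    rcases ho x with h | h | h | h
    · exact Or.inl h
    · rw [h] at hd; exact absurd hd h23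
    · exact Or.inr h
    · rw [h] at hd; exact absurd ((by norm_num : 2 ∣ 4).trans hd) h23
  obtain ⟨⟨n0, hn0⟩, hn0ne⟩ := (Subgroup.ne_bot_iff_exists_ne_one).mp hN
  have hn0ord : orderOf n0 = 3 := by
    rcases hord n0 hn0 with h | h
    · exfalso; apply hn0ne; apply Subtype.ext; exact orderOf_eq_one_iff.mp h
    · exact h
  have hinv : ∀ t : G, orderOf t = 2 → ∀ x ∈ N, t * x * t⁻¹ = x⁻¹ := by
    intro t ht
    have ht2 : t * t = 1 := by rw [← sq, ← ht, pow_orderOf_eq_one]
    have htinv : t⁻¹ = t := inv_eq_of_mul_eq_one_left ht2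
    have hconj : ∀ x ∈ N, t * x * t⁻¹ ∈ N := fun x hx => hn.conj_mem x hx t
    let f : N → N := fun x => ⟨(x : G)⁻¹ * (t * x * t⁻¹), N.mul_mem (N.inv_mem x.2) (hconj _ x.2)⟩
    have hfinj : Function.Injective f := by
      intro x y hxy
      have h : (x : G)⁻¹ * (t * x * t⁻¹) = (y : G)⁻¹ * (t * y * t⁻¹) := congrArg Subtype.val hxy
      have hfix : t * ((y : G) * (x : G)⁻¹) * t⁻¹ = (y : G) * (x : G)⁻¹ := by
        have h3 : (y : G) * (x : G)⁻¹ = (t * y * t⁻¹) * (t * x * t⁻¹)⁻¹ := by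
          have h4 : (t * y * t⁻¹) = (y : G) * ((x : G)⁻¹ * (t * x * t⁻¹)) := by
            rw [h]; group
          rw [h4]; group
        have h7 : t * ((y : G) * (x : G)⁻¹) * t⁻¹ = (t * y * t⁻¹) * (t * x * t⁻¹)⁻¹ := by group
        rw [h7]; exact h3.symm
      have hmem : (y : G) * (x : G)⁻¹ ∈ N := N.mul_mem y.2 (N.inv_mem x.2)
      rcases hord _ hmem with h5 | h5
      · have h6 := orderOf_eq_one_iff.mp h5
        exact Subtype.ext (mul_inv_eq_one.mp h6).symm
      · exfalso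
        exact no_six ho ht h5 (mul_inv_eq_iff_eq_mul.mp hfix)
    have hfsurj := Finite.injective_iff_surjective.mp hfinj
    intro x hx
    obtain ⟨u, hu⟩ := hfsurj ⟨x, hx⟩
    have hu' : (u : G)⁻¹ * (t * u * t⁻¹) = x := congrArg Subtype.val hu
    rw [← hu', htinv]
    calc t * ((u : G)⁻¹ * (t * u * t)) * t = t * (u : G)⁻¹ * t * u * (t * t) := by group
      _ = t * (u : G)⁻¹ * t * u := by rw [ht2, mul_one]
      _ = t * (u : G)⁻¹ * t⁻¹ * u := by rw [htinv]
      _ = ((u : G)⁻¹ * (t * u * t⁻¹))⁻¹ := by group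
      _ = ((u : G)⁻¹ * (t * u * t))⁻¹ := by rw [htinv]
  obtain ⟨t0, ht0⟩ := h2
  have hcomm : ∀ a ∈ N, ∀ b ∈ N, a * b = b * a := by
    intro a ha b hb
    have h1 := hinv t0 ht0 (a * b) (N.mul_mem ha hb)
    have h2 : t0 * (a * b) * t0⁻¹ = (t0 * a * t0⁻¹) * (t0 * b * t0⁻¹) := by group
    rw [h2, hinv t0 ht0 a ha, hinv t0 ht0 b hb, ← mul_inv_rev] at h1
    exact (inv_injective h1).symm
  have hCle : Subgroup.centralizer (N : Set G) ≤ N := by
    have hpC : IsPGroup 3 (Subgroup.centralizer (N : Set G)) := by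
      rintro ⟨c, hc⟩
      have hcc : Commute c n0 := (Subgroup.mem_centralizer_iff.mp hc n0 hn0).symm
      refine ⟨1, Subtype.ext ?_⟩
      have : c ^ 3 = 1 := by
        rcases ho c with h | h | h | h
        · rw [orderOf_eq_one_iff.mp h]; simp
        · exact absurd hcc (fun hc' => no_even_three ho (by rw [h]) hn0ord hc')
        · rw [← h]; exact pow_orderOf_eq_one c
        · exact absurd hcc (fun hc' => no_even_three ho (by rw [h]; norm_num) hn0ord hc')
      simpa using this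
    exact H01.le_pCore inferInstance hpC
  have htt : ∀ t t' : G, orderOf t = 2 → orderOf t' = 2 → t * t' ∈ N := by
    intro t t' ht ht'
    apply hCle
    rw [Subgroup.mem_centralizer_iff]
    intro n hn'
    have h1 : t' * n = n⁻¹ * t' := by
      have := hinv t' ht' n hn'
      rw [mul_inv_eq_iff_eq_mul] at this; exact this
    have h2 : t * n⁻¹ = n * t := by
      have := hinv t ht n⁻¹ (N.inv_mem hn')
      rw [inv_inv, mul_inv_eq_iff_eq_mul] at this; exact this
    calc n * (t * t') = (n * t) * t' := by group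
      _ = (t * n⁻¹) * t' := by rw [h2]
      _ = t * (n⁻¹ * t') := by group
      _ = t * (t' * n) := by rw [h1]
      _ = t * t' * n := by group
  let π : G →* G ⧸ N := QuotientGroup.mk' N
  have hπs : Function.Surjective π := QuotientGroup.mk'_surjective N
  have hπ1 : ∀ g, π g = 1 ↔ g ∈ N := fun g => QuotientGroup.eq_one_iff g
  have hlift : ∀ s : G ⧸ N, orderOf s = 2 → ∃ t : G, orderOf t = 2 ∧ π t = s := by
    intro s hs
    obtain ⟨y, rfl⟩ := hπs s
    have hd := orderOf_map_dvd π y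
    rw [hs] at hd
    rcases ho y with h | h | h | h
    · rw [h] at hd; omega
    · exact ⟨y, h, rfl⟩
    · rw [h] at hd; omega
    · exfalso
      have h5 : orderOf (y ^ (orderOf y / 2)) = 2 := orderOf_pow_orderOf_div (by rw [h]; norm_num) (by rw [h]; norm_num)
      rw [h] at h5
      have h6 : π (y ^ (4 / 2)) = 1 := by
        rw [map_pow]
        show (π y) ^ 2 = 1
        rw [← hs, pow_orderOf_eq_one]
      rcases hord _ ((hπ1 _).mp h6) with h7 | h7 <;> omega
  have huniq : ∀ s s' : G ⧸ N, orderOf s = 2 → orderOf s' = 2 → s = s' := by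
    intro s s' hs hs'
    obtain ⟨t, ht, rfl⟩ := hlift s hs
    obtain ⟨t', ht', rfl⟩ := hlift s' hs'
    have h1 : π (t * t') = 1 := (hπ1 _).mpr (htt t t' ht ht')
    rw [map_mul] at h1
    have h2 : (π t') ^ 2 = 1 := by rw [← hs', pow_orderOf_eq_one]
    rw [sq] at h2
    exact mul_right_cancel (h1.trans h2.symm)
  have ht0N : t0 ∉ N := by
    intro h
    rcases hord t0 h with h' | h' <;> omega
  have hz : orderOf (π t0) = 2 := by
    apply orderOf_eq_prime
    · rw [← map_pow, ← ht0, pow_orderOf_eq_one, map_one]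
    · intro h; exact ht0N ((hπ1 _).mp h)
  set z := π t0 with hzdef
  have hcen : ∀ s : G ⧸ N, Commute s z := by
    intro s
    have h1 : orderOf (s * z * s⁻¹) = 2 := by
      have : orderOf (s * z * s⁻¹) = orderOf z := by
        rw [← MulAut.conj_apply, MulEquiv.orderOf_eq]
      rw [this, hz]
    have h2 := huniq _ _ h1 hz
    exact mul_inv_eq_iff_eq_mul.mp h2
  have hexp : ∀ s : G ⧸ N, s ^ 4 = 1 := by
    intro s
    obtain ⟨y, rfl⟩ := hπs s
    have hd := orderOf_map_dvd π y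
    rcases ho y with h | h | h | h
    · rw [h, Nat.dvd_one, orderOf_eq_one_iff] at hd; rw [hd]; simp
    · have : y ^ 4 = 1 := by rw [show 4 = 2 * 2 from rfl, pow_mul, ← h, pow_orderOf_eq_one]; simp
      rw [← map_pow, this, map_one]
    · rw [h, Nat.dvd_prime Nat.prime_three] at hd
      rcases hd with hd | hd
      · rw [orderOf_eq_one_iff] at hd; rw [hd]; simp
      · exfalso
        have h6 := (hcen (π y)).orderOf_mul_eq_mul_orderOf_of_coprime (by rw [hd, hz]; norm_num)
        rw [hd, hz] at h6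
        obtain ⟨w, hw⟩ := hπs (π y * z)
        have h7 : orderOf (π y * z) ∣ orderOf w := by rw [← hw]; exact orderOf_map_dvd π w
        have := ord_dvd ho w h7
        omega
    · rw [← map_pow, ← h, pow_orderOf_eq_one, map_one]
  have hP2 : IsPGroup 2 (G ⧸ N) := fun s => ⟨2, hexp s⟩
  have hU : H14.UniqueP 2 (G ⧸ N) := by
    intro x y hx hy
    rw [huniq y x hy hx]
    exact Subgroup.mem_zpowers x
  obtain ⟨x4, hx4⟩ := h4
  have hx4' : orderOf (π x4) = 4 := by
    have h1 : orderOf (π x4) = 2 ^ (1 + 1) := by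
      apply orderOf_eq_prime_pow
      · intro h
        have h5 : orderOf (x4 ^ (orderOf x4 / 2)) = 2 := orderOf_pow_orderOf_div (by rw [hx4]; norm_num) (by rw [hx4]; norm_num)
        rw [hx4] at h5
        have h6 : π (x4 ^ (4 / 2)) = 1 := by
          rw [map_pow]; simpa using h
        rcases hord _ ((hπ1 _).mp h6) with h7 | h7 <;> omega
      · exact hexp _
    simpa using h1
  refine ⟨⟨⟨⟨fun a b => Subtype.ext (hcomm a a.2 b b.2)⟩⟩, ?_⟩, ?_⟩
  · intro a ha
    rcases hord a ha with h | h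
    · rw [orderOf_eq_one_iff.mp h]; simp
    · rw [← h]; exact pow_orderOf_eq_one a
  rcases H14.isCyclic_or_quaternion hP2 hU with hc | ⟨-, k, hk, ⟨e⟩⟩
  · left
    refine ⟨hc, ?_⟩
    rw [Subgroup.index_eq_card]
    have h1 : Nat.card (G ⧸ N) = Monoid.exponent (G ⧸ N) := IsCyclic.exponent_eq_card.symm
    have h2 : Monoid.exponent (G ⧸ N) ∣ 4 := Monoid.exponent_dvd_of_forall_pow_eq_one hexp
    have h3 : 4 ∣ Nat.card (G ⧸ N) := by rw [← hx4']; exact orderOf_dvd_natCard _
    rw [← h1] at h2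
    exact Nat.dvd_antisymm h2 h3
  · right
    have hpos : NeZero (2 ^ k) := ⟨by positivity⟩
    have h1 : orderOf (QuaternionGroup.a 1 : QuaternionGroup (2 ^ k)) = 2 * 2 ^ k := QuaternionGroup.orderOf_a_one
    have h2 : (QuaternionGroup.a 1 : QuaternionGroup (2 ^ k)) ^ 4 = 1 := by
      have := hexp (e.symm (QuaternionGroup.a 1))
      rw [← map_pow] at this
      have h3 := congrArg e this
      simpa using h3
    have h3 : 2 * 2 ^ k ∣ 4 := by rw [← h1]; exact orderOf_dvd_of_pow_eq_one h2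
    have hk1 : k = 1 := by
      by_contra hne
      have hk2 : 2 ≤ k := by omega
      have h4 : 2 ^ 2 ≤ 2 ^ k := Nat.pow_le_pow_right (by norm_num) hk2
      have h5 := Nat.le_of_dvd (by norm_num) h3
      omega
    subst hk1
    exact ⟨e⟩


theorem exists_pair {T : Type u} [Group T] [Finite T] [Fact (Nat.Prime 3)] (hT : IsPGroup 3 T) [Nontrivial T]
    (hcard : Nat.card T ≠ 3) (hexp : ∀ x : T, x ≠ 1 → orderOf x = 3) :
    ∃ a b : T, (∀ g, g * a = a * g) ∧ a ≠ 1 ∧ b ≠ 1 ∧ a * b ≠ 1 ∧ a * a * b ≠ 1 := by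
  have hcen : Nontrivial (Subgroup.center T) := hT.center_nontrivial
  obtain ⟨⟨a, ha⟩, hane⟩ := exists_ne (1 : Subgroup.center T)
  have ha1 : a ≠ 1 := fun h => hane (Subtype.ext h)
  have hex : ∃ b : T, b ∉ Subgroup.zpowers a := by
    by_contra hall
    push Not at hall
    have htop : Subgroup.zpowers a = ⊤ := by
      rw [eq_top_iff]; intro x _; exact hall x
    have h1 : Nat.card (Subgroup.zpowers a) = Nat.card T := by
      rw [htop]; exact Nat.card_congr Subgroup.topEquiv.toEquiv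
    rw [Nat.card_zpowers, hexp a ha1] at h1
    exact hcard h1.symm
  obtain ⟨b, hb⟩ := hex
  refine ⟨a, b, Subgroup.mem_center_iff.mp ha, ha1, ?_, ?_, ?_⟩
  · rintro rfl; exact hb (Subgroup.one_mem _)
  · intro h
    apply hb
    rw [eq_inv_of_mul_eq_one_right h]
    exact Subgroup.inv_mem _ (Subgroup.mem_zpowers a)
  · intro h
    apply hb
    rw [eq_inv_of_mul_eq_one_right h]
    exact Subgroup.inv_mem _ (Subgroup.mul_mem _ (Subgroup.mem_zpowers a) (Subgroup.mem_zpowers a))

theorem caseB [Finite G] [hs : Group.IsSolvable G] [hn : (pCore 2 G).Normal] (ho : OK G) (h3 : ∃ c : G, orderOf c = 3)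
    (h4 : ∃ x : G, orderOf x = 4) (hN : pCore 2 G ≠ ⊥) :
    (IsPGroup 2 ↥(pCore 2 G) ∧ Monoid.exponent ↥(pCore 2 G) = 4 ∧ Group.nilpotencyClass ↥(pCore 2 G) ≤ 2 ∧
        (pCore 2 G).index = 3) ∨
      (Cfsg.IsElementaryAbelian 2 (pCore 2 G) ∧ Nonempty (G ⧸ pCore 2 G ≃* Equiv.Perm (Fin 3))) := by
  classical
  haveI : Fact (Nat.Prime 3) := ⟨Nat.prime_three⟩
  haveI : Fact (Nat.Prime 2) := ⟨Nat.prime_two⟩
  set N := pCore 2 G with hNdef
  have hp : IsPGroup 2 N := H01.pCore_isPGroup 2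
  have hpow : ∀ x ∈ N, ∃ k : ℕ, x ^ 2 ^ k = 1 := by
    intro x hx
    obtain ⟨k, hk⟩ := hp ⟨x, hx⟩
    exact ⟨k, congrArg Subtype.val hk⟩
  have hnot3 : ∀ x ∈ N, orderOf x ≠ 3 := by
    intro x hx h
    obtain ⟨k, hk⟩ := hpow x hx
    have hd := orderOf_dvd_of_pow_eq_one hk
    rw [h] at hd
    have := Nat.Prime.dvd_of_dvd_pow Nat.prime_three hd
    omega
  have hord4 : ∀ x ∈ N, x ^ 4 = 1 := by
    intro x hx
    rcases ho x with h | h | h | h
    · rw [orderOf_eq_one_iff.mp h]; simp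
    · rw [show 4 = 2 * 2 from rfl, pow_mul, ← h, pow_orderOf_eq_one]; simp
    · exact absurd h (hnot3 x hx)
    · rw [← h, pow_orderOf_eq_one]
  have hC : ∀ c y : G, orderOf c = 3 → y ∈ N → y * c = c * y → y = 1 := by
    intro c y hc hy hyc
    rcases ho y with h | h | h | h
    · exact orderOf_eq_one_iff.mp h
    · exact (no_even_three ho (by rw [h]) hc hyc).elim
    · exact absurd h (hnot3 y hy)
    · exact (no_even_three ho (by rw [h]; norm_num) hc hyc).elim
  let π : G →* G ⧸ N := QuotientGroup.mk' N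
  have hπs : Function.Surjective π := QuotientGroup.mk'_surjective N
  have hπ1 : ∀ g, π g = 1 ↔ g ∈ N := fun g => QuotientGroup.eq_one_iff g
  obtain ⟨c0, hc0⟩ := h3
  have hc0π : π c0 ≠ 1 := by
    intro h; exact hnot3 c0 ((hπ1 _).mp h) hc0
  have hred : pPrimeCore 3 (G ⧸ N) = ⊥ := by
    rw [pPrimeCore, sSup_eq_bot]
    rintro K ⟨hKn, hKc⟩
    have hM : (K.comap π).Normal := Subgroup.Normal.comap hKn π
    have hpM : IsPGroup 2 (K.comap π) := by
      rintro ⟨m, hm⟩
      refine ⟨2, Subtype.ext ?_⟩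
      have hm' : m ^ 4 = 1 := by
        rcases ho m with h | h | h | h
        · rw [orderOf_eq_one_iff.mp h]; simp
        · rw [show 4 = 2 * 2 from rfl, pow_mul, ← h, pow_orderOf_eq_one]; simp
        · exfalso
          have h1 : orderOf (π m) ∣ 3 := by rw [← h]; exact orderOf_map_dvd π m
          have hm2 : π m ∈ K := hm
          have h2 : orderOf (⟨π m, hm2⟩ : K) ∣ Nat.card K := orderOf_dvd_natCard _
          rw [Subgroup.orderOf_mk] at h2
          have h3 : orderOf (π m) = 1 := by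
            have := Nat.dvd_gcd h1 h2
            rw [Nat.gcd_comm, hKc.gcd_eq_one] at this
            exact Nat.dvd_one.mp this
          exact hnot3 m ((hπ1 _).mp (orderOf_eq_one_iff.mp h3)) h
        · rw [← h, pow_orderOf_eq_one]
      simpa using hm'
    have hMN : K.comap π ≤ N := H01.le_pCore hM hpM
    rw [eq_bot_iff]
    intro k hk
    obtain ⟨g, rfl⟩ := hπs k
    exact (hπ1 g).mpr (hMN hk)
  have hH : Subgroup.centralizer (pCore 3 (G ⧸ N) : Set (G ⧸ N)) ≤ pCore 3 (G ⧸ N) :=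
    H08.hall_higman (H06.isPSolvable_of_isSolvable 3 (G ⧸ N)) hred
  set T := pCore 3 (G ⧸ N) with hTdef
  haveI hTn : T.Normal := H01.pCore_normal 3
  have hpT : IsPGroup 3 T := H01.pCore_isPGroup 3
  have hTne : T ≠ ⊥ := by
    intro h
    have h1 : π c0 ∈ T := hH (by rw [h]; simp [Subgroup.mem_centralizer_iff])
    rw [h] at h1
    exact hc0π h1
  -- order of elements with image in T
  have hOT : ∀ y : G, π y ∈ T → π y ≠ 1 → orderOf y = 3 := by
    intro y hy hy1
    obtain ⟨k, hk⟩ := hpT ⟨π y, hy⟩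
    have hk' : (π y) ^ 3 ^ k = 1 := congrArg Subtype.val hk
    have hd := orderOf_dvd_of_pow_eq_one hk'
    obtain ⟨j, _, hj⟩ := (Nat.dvd_prime_pow Nat.prime_three).mp hd
    have hj0 : j ≠ 0 := by
      rintro rfl
      rw [pow_zero, orderOf_eq_one_iff] at hj
      exact hy1 hj
    have h3d : 3 ∣ orderOf y := by
      refine Dvd.dvd.trans ?_ (orderOf_map_dvd π y)
      rw [hj]; exact dvd_pow_self 3 hj0
    rcases ho y with h | h | h | h <;> rw [h] at h3d <;> omega
  -- identity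
  have ID : ∀ a : G, π a ∈ T → π a ≠ 1 → ∀ v ∈ N, v * (a * v * a⁻¹) * (a * (a * v * a⁻¹) * a⁻¹) = 1 := by
    intro a ha ha1 v hv
    have e1 : π (v * a) = π a := by
      rw [map_mul, (hπ1 v).mpr hv, one_mul]
    have h1 : orderOf (v * a) = 3 := hOT _ (by rw [e1]; exact ha) (by rw [e1]; exact ha1)
    have h2 : orderOf a = 3 := hOT _ ha ha1
    have h3 : (v * a) ^ 3 = 1 := by rw [← h1, pow_orderOf_eq_one]
    have h4 : a ^ 3 = 1 := by rw [← h2, pow_orderOf_eq_one]
    calc v * (a * v * a⁻¹) * (a * (a * v * a⁻¹) * a⁻¹) = (v * a) ^ 3 * (a ^ 3)⁻¹ := by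
          simp only [pow_succ, pow_zero, one_mul]; group
      _ = 1 := by rw [h3, h4]; simp
  -- card T = 3
  have hcT : Nat.card T = 3 := by
    by_contra hne
    haveI : Nontrivial T := (Subgroup.nontrivial_iff_ne_bot T).mpr hTne
    have hexp : ∀ x : T, x ≠ 1 → orderOf x = 3 := by
      rintro ⟨x, hx⟩ hx1
      obtain ⟨y, rfl⟩ := hπs x
      have hy1 : π y ≠ 1 := fun h => hx1 (Subtype.ext h)
      have h1 := hOT y hx hy1
      have h2 : orderOf (π y) ∣ 3 := by rw [← h1]; exact orderOf_map_dvd π y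
      rw [Nat.dvd_prime Nat.prime_three] at h2
      rw [Subgroup.orderOf_mk]
      rcases h2 with h2 | h2
      · exact absurd (orderOf_eq_one_iff.mp h2) hy1
      · exact h2
    obtain ⟨abar, bbar, hcomm, ha1, hb1, hab1, haab1⟩ := exists_pair hpT hne hexp
    obtain ⟨a, ha⟩ := hπs abar
    obtain ⟨b, hb⟩ := hπs bbar
    have mem : ∀ x : T, π (Function.surjInv hπs (x : G ⧸ N)) = x := fun x => Function.surjInv_eq hπs _
    have hae : ∀ x : T, x ≠ 1 → (x : G ⧸ N) ≠ 1 := fun x hx h => hx (Subtype.ext h)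
    have π_a : π a ∈ T := by rw [ha]; exact abar.2
    have π_b : π b ∈ T := by rw [hb]; exact bbar.2
    have π_ab : π (a * b) ∈ T := by rw [map_mul]; exact T.mul_mem π_a π_b
    have π_aab : π (a * a * b) ∈ T := by rw [map_mul, map_mul]; exact T.mul_mem (T.mul_mem π_a π_a) π_b
    have n_a : π a ≠ 1 := by rw [ha]; exact hae _ ha1
    have n_b : π b ≠ 1 := by rw [hb]; exact hae _ hb1
    have n_ab : π (a * b) ≠ 1 := by rw [map_mul, ha, hb]; exact hae _ hab1
    have n_aab : π (a * a * b) ≠ 1 := by rw [map_mul, map_mul, ha, hb]; exact hae _ haab1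
    have hcab : π b * π a = π a * π b := by
      rw [ha, hb]
      exact congrArg Subtype.val (hcomm bbar)
    have ha3 : (π a) ^ 3 = 1 := by
      have h1 := hOT a π_a n_a
      rw [← map_pow, ← h1, pow_orderOf_eq_one, map_one]
    -- the central part W
    let W : Subgroup G := N ⊓ Subgroup.centralizer (N : Set G)
    haveI hWn : W.Normal := inferInstance
    have hWc : ∀ u ∈ W, ∀ v ∈ W, u * v = v * u := by
      intro u hu v hv
      exact (Subgroup.mem_centralizer_iff.mp hv.2 u hu.1)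
    haveI : Nontrivial N := (Subgroup.nontrivial_iff_ne_bot N).mpr hN
    have hcenN : Nontrivial (Subgroup.center N) := hp.center_nontrivial
    obtain ⟨⟨z', hz'⟩, hz'ne⟩ := exists_ne (1 : Subgroup.center N)
    set z : G := (z' : G) with hzdef
    have hzN : z ∈ N := z'.2
    have hz1 : z ≠ 1 := by
      intro h; apply hz'ne; apply Subtype.ext; apply Subtype.ext; exact h
    have hzc : ∀ n ∈ N, n * z = z * n := by
      intro n hn'
      exact congrArg Subtype.val (Subgroup.mem_center_iff.mp hz' ⟨n, hn'⟩)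
    have hzW : z ∈ W := ⟨hzN, Subgroup.mem_centralizer_iff.mpr (fun n hn' => hzc n hn')⟩
    let A : G → G := fun g => g * z * g⁻¹
    have hAW : ∀ g, A g ∈ W := fun g => hWn.conj_mem z hzW g
    have hAN : ∀ g, A g ∈ N := fun g => (hAW g).1
    have hAc : ∀ g₁ g₂, π g₁ = π g₂ → A g₁ = A g₂ := by
      intro g₁ g₂ h
      have hm : g₁⁻¹ * g₂ ∈ N := by
        rw [← hπ1, map_mul, map_inv, h, inv_mul_cancel]
      obtain ⟨n, hn', rfl⟩ : ∃ n ∈ N, g₂ = g₁ * n := ⟨_, hm, by group⟩
      have h1 : n * z * n⁻¹ = z := by rw [hzc n hn']; group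
      show g₁ * z * g₁⁻¹ = g₁ * n * z * (g₁ * n)⁻¹
      calc g₁ * z * g₁⁻¹ = g₁ * (n * z * n⁻¹) * g₁⁻¹ := by rw [h1]
        _ = g₁ * n * z * (g₁ * n)⁻¹ := by group
    have hAcomp : ∀ g h, g * A h * g⁻¹ = A (g * h) := by
      intro g h; show g * (h * z * h⁻¹) * g⁻¹ = g * h * z * (g * h)⁻¹; group
    have E1 : z * A (a * b) * A (a * a * (b * b)) = 1 := by
      have h := ID (a * b) π_ab n_ab z hzN
      have e : a * b * z * (a * b)⁻¹ = A (a * b) := rfl
      rw [e, hAcomp, hAc (a * b * (a * b)) (a * a * (b * b))] at h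
      · exact h
      · simp only [map_mul]
        calc π a * π b * (π a * π b) = π a * (π b * π a) * π b := by group
          _ = π a * (π a * π b) * π b := by rw [hcab]
          _ = π a * π a * (π b * π b) := by group
    have E2 : z * A (a * a * b) * A (a * (b * b)) = 1 := by
      have h := ID (a * a * b) π_aab n_aab z hzN
      have e : a * a * b * z * (a * a * b)⁻¹ = A (a * a * b) := rfl
      rw [e, hAcomp, hAc (a * a * b * (a * a * b)) (a * (b * b))] at h
      · exact h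
      · simp only [map_mul]
        have h1 : π b * (π a * π a) = (π a * π a) * π b := by
          rw [← mul_assoc, hcab, mul_assoc, hcab, mul_assoc]
        calc π a * π a * π b * (π a * π a * π b) = π a * π a * (π b * (π a * π a)) * π b := by group
          _ = π a * π a * ((π a * π a) * π b) * π b := by rw [h1]
          _ = (π a) ^ 3 * π a * (π b * π b) := by simp only [pow_succ, pow_zero, one_mul]; group
          _ = π a * (π b * π b) := by rw [ha3, one_mul]
    have E3 : A b * A (a * b) * A (a * a * b) = 1 := by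
      have h := ID a π_a n_a (A b) (hAN b)
      rw [hAcomp, hAcomp] at h
      have e : a * (a * b) = a * a * b := by group
      rw [e] at h
      exact h
    have E4 : A (b * b) * A (a * (b * b)) * A (a * a * (b * b)) = 1 := by
      have h := ID a π_a n_a (A (b * b)) (hAN _)
      rw [hAcomp, hAcomp] at h
      have e : a * (a * (b * b)) = a * a * (b * b) := by group
      rw [e] at h
      exact h
    have E5 : z * A b * A (b * b) = 1 := by
      have h := ID b π_b n_b z hzN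
      have e : b * z * b⁻¹ = A b := rfl
      rw [e, hAcomp] at h
      exact h
    have hz3 : z ^ 3 = 1 := six_aux' W hWc hzW (hAW _) (hAW _) (hAW _) (hAW _) (hAW _) (hAW _) E1 E2 E3 E4 E5
    have hz4 := hord4 z hzN
    apply hz1
    calc z = z ^ 4 * (z ^ 3)⁻¹ := by group
      _ = 1 := by rw [hz4, hz3]; simp
  -- abelian
  haveI : Fact (Nat.card T).Prime := ⟨by rw [hcT]; exact Nat.prime_three⟩
  haveI hTcyc : IsCyclic T := isCyclic_of_prime_card rfl
  have hTcomm : ∀ x ∈ T, ∀ y ∈ T, x * y = y * x := by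
    intro x hx y hy
    have := (IsCyclic.commGroup (α := T)).mul_comm ⟨x, hx⟩ ⟨y, hy⟩
    exact congrArg Subtype.val this
  -- automorphism
  let f : (G ⧸ N) →* MulAut T := MulAut.conjNormal
  have hker : f.ker = T := by
    apply le_antisymm
    · intro x hx
      apply hH
      rw [Subgroup.mem_centralizer_iff]
      intro t ht
      have h1 : f x = 1 := hx
      have h2 := congrArg (fun e : MulAut T => ((e ⟨t, ht⟩ : T) : G ⧸ N)) h1
      simp only [f, MulAut.conjNormal_apply] at h2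
      have h3 : x * t * x⁻¹ = t := h2
      rw [mul_inv_eq_iff_eq_mul] at h3
      exact h3.symm
    · intro x hx
      show f x = 1
      ext t
      simp only [f, MulAut.conjNormal_apply]
      show x * t * x⁻¹ = t
      rw [hTcomm x hx t t.2]; group
  have hidx : T.index ≤ 2 := by
    rw [← hker, Subgroup.index_ker]
    have h1 : Nat.card f.range ≤ Nat.card (MulAut T) := Subgroup.card_le_card_group _
    rw [IsCyclic.card_mulAut, hcT] at h1
    simpa [Nat.totient_prime Nat.prime_three] using h1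
  have hidx0 : T.index ≠ 0 := Subgroup.index_ne_zero_of_finite
  have hcardS : T.index * 3 = Nat.card (G ⧸ N) := by
    rw [← hcT, Subgroup.index_mul_card]
  have hidx12 : T.index = 1 ∨ T.index = 2 := by omega
  rcases hidx12 with hidx1 | hidx2
  · -- index 3 case
    left
    have hTtop : T = ⊤ := Subgroup.index_eq_one.mp hidx1
    have hc3 : Nat.card (G ⧸ N) = 3 := by rw [← hcardS, hidx1]
    have hidxN : N.index = 3 := by rw [Subgroup.index_eq_card]; exact hc3
    obtain ⟨x4, hx4⟩ := h4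
    have hx4N : x4 ∈ N := by
      rw [← hπ1, ← orderOf_eq_one_iff]
      have h1 : orderOf (π x4) ∣ 4 := by rw [← hx4]; exact orderOf_map_dvd π x4
      have h2 : orderOf (π x4) ∣ 3 := by rw [← hc3]; exact orderOf_dvd_natCard _
      exact Nat.dvd_one.mp (by simpa using Nat.dvd_gcd h1 h2)
    have hexp4 : Monoid.exponent N = 4 := by
      apply Nat.dvd_antisymm
      · exact Monoid.exponent_dvd_of_forall_pow_eq_one (fun g => Subtype.ext (hord4 g.1 g.2))
      · have h1 : orderOf (⟨x4, hx4N⟩ : N) = 4 := by rw [Subgroup.orderOf_mk, hx4]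
        rw [← h1]; exact Monoid.order_dvd_exponent _
    refine ⟨hp, hexp4, ?_, hidxN⟩
    haveI : Group.IsNilpotent N := hp.isNilpotent
    let φ : N →* N := (MulAut.conjNormal (H := N) c0).toMonoidHom
    have hφ : ∀ v : N, ((φ v : N) : G) = c0 * v * c0⁻¹ := fun v => MulAut.conjNormal_apply _ _
    have I : ∀ x, x * φ x * φ (φ x) = 1 := by
      intro x
      apply Subtype.ext
      push_cast
      rw [hφ, hφ, hφ]
      exact ID c0 (by rw [hTtop]; trivial) hc0π x x.2
    exact class_le_two_of (H18.neu_class_two hp φ I)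
  · -- S3 case
    right
    have hc6 : Nat.card (G ⧸ N) = 6 := by rw [← hcardS, hidx2]
    -- generating
    have hgen : ∀ u ∈ T, u ≠ 1 → ∀ g : G ⧸ N, g * u = u * g → g ∈ T := by
      intro u hu hu1 g hg
      obtain ⟨y, rfl⟩ := hπs u
      have hy3 := hOT y hu hu1
      have hou : orderOf (π y) = 3 := by
        have h2 : orderOf (π y) ∣ 3 := by rw [← hy3]; exact orderOf_map_dvd π y
        rw [Nat.dvd_prime Nat.prime_three] at h2
        rcases h2 with h2 | h2
        · exact absurd (orderOf_eq_one_iff.mp h2) hu1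
        · exact h2
      have hz : Subgroup.zpowers (π y) = T := by
        apply Subgroup.eq_of_le_of_card_ge
        · rw [Subgroup.zpowers_le]; exact hu
        · rw [Nat.card_zpowers, hou, hcT]
      apply hH
      rw [Subgroup.mem_centralizer_iff]
      intro t ht
      rw [← hz] at ht
      obtain ⟨k, rfl⟩ := Subgroup.mem_zpowers_iff.mp ht
      exact ((show Commute g (π y) from hg).zpow_right k).symm.eq
    have hsq : ∀ s : G ⧸ N, s ∉ T → s ^ 2 = 1 := by
      intro s hs
      by_contra hne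
      exact hs (hgen (s ^ 2) (Subgroup.sq_mem_of_index_two hidx2 s) hne s (by rw [sq]; group))
    have hTodd : ∀ s ∈ T, s ≠ 1 → orderOf s = 3 := by
      intro s hs hs1
      obtain ⟨y, rfl⟩ := hπs s
      have hy3 := hOT y hs hs1
      have h2 : orderOf (π y) ∣ 3 := by rw [← hy3]; exact orderOf_map_dvd π y
      rw [Nat.dvd_prime Nat.prime_three] at h2
      rcases h2 with h2 | h2
      · exact absurd (orderOf_eq_one_iff.mp h2) hs1
      · exact h2
    have hTex : ∃ cbar ∈ T, cbar ≠ 1 := by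
      obtain ⟨⟨x, hx⟩, hx1⟩ := (Subgroup.ne_bot_iff_exists_ne_one).mp hTne
      exact ⟨x, hx, fun h => hx1 (Subtype.ext h)⟩
    obtain ⟨cbar, hcbarT, hcbar1⟩ := hTex
    obtain ⟨c, rfl⟩ := hπs cbar
    have hc3 : orderOf c = 3 := hOT c hcbarT hcbar1
    have hc33 : c ^ 3 = 1 := by rw [← hc3, pow_orderOf_eq_one]
    have hTne' : T ≠ ⊤ := by
      intro h
      rw [h, Subgroup.index_top] at hidx2
      omega
    have hout : ∃ s, s ∉ T := by
      by_contra hall
      push Not at hall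
      exact hTne' (eq_top_iff.mpr (fun x _ => hall x))
    obtain ⟨s0, hs0⟩ := hout
    obtain ⟨t0, rfl⟩ := hπs s0
    -- the conjugate
    have hy : π t0 * π c * (π t0)⁻¹ = (π c)⁻¹ := by
      have hmem : π t0 * π c * (π t0)⁻¹ ∈ T := hTn.conj_mem _ hcbarT _
      have hou : orderOf (π c) = 3 := hTodd _ hcbarT hcbar1
      have hz : Subgroup.zpowers (π c) = T := by
        apply Subgroup.eq_of_le_of_card_ge
        · rw [Subgroup.zpowers_le]; exact hcbarT
        · rw [Nat.card_zpowers, hou, hcT]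
      rw [← hz] at hmem
      obtain ⟨k, hk⟩ := Subgroup.mem_zpowers_iff.mp hmem
      have h2 : (π c) ^ (k % 3) = (π c) ^ k := by
        conv_rhs => rw [← zpow_mod_orderOf, hou]
        rfl
      have hk3 : k % 3 = 0 ∨ k % 3 = 1 ∨ k % 3 = 2 := by omega
      have hcbar3 : (π c) ^ 3 = 1 := by rw [← hou, pow_orderOf_eq_one]
      rcases hk3 with h0 | h0 | h0
      · exfalso
        rw [h0] at h2
        have h3 : π t0 * π c * (π t0)⁻¹ = 1 := by rw [← hk, ← h2]; simp
        apply hcbar1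
        have h4 : π t0 * π c = π t0 := mul_inv_eq_one.mp h3
        exact mul_left_cancel (h4.trans (mul_one _).symm)
      · exfalso
        rw [h0] at h2
        have h3 : π t0 * π c * (π t0)⁻¹ = π c := by rw [← hk, ← h2]; simp
        apply hs0
        apply hgen (π c) hcbarT hcbar1
        exact mul_inv_eq_iff_eq_mul.mp h3
      · rw [h0] at h2
        rw [← hk, ← h2]
        rw [eq_inv_iff_mul_eq_one]
        have h5 : (π c) ^ (2:ℤ) * π c = (π c) ^ 3 := by
          rw [show (2:ℤ) = ((2:ℕ):ℤ) from rfl, zpow_natCast, ← pow_succ]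
        rw [h5, hcbar3]
    have hu : t0 * c * t0⁻¹ * c ∈ N := by
      rw [← hπ1]
      simp only [map_mul, map_inv]
      rw [hy]; group
    have hconjc : ∀ x ∈ N, c⁻¹ * x * c⁻¹⁻¹ ∈ N := fun x hx => hn.conj_mem x hx c⁻¹
    have hcop : (orderOf c⁻¹).Coprime (Nat.card N) := by
      rw [orderOf_inv, hc3]
      obtain ⟨k, hk⟩ := IsPGroup.iff_card.mp hp
      rw [hk]
      exact Nat.Coprime.pow_right _ (by norm_num)
    obtain ⟨x, hxN, d, hdN, hdc, he⟩ := H06.exists_conj_mul_eq hconjc hcop hu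
    have hd1 : d = 1 := by
      apply hC c d hc3 hdN
      have h1 : d * c⁻¹ * c = c⁻¹ * d * c := by rw [hdc]
      have h2 : d = c⁻¹ * d * c := by simpa using h1
      calc d * c = c * (c⁻¹ * d * c) := by group
        _ = c * d := by rw [← h2]
    rw [hd1, one_mul] at he
    set t := x * t0 with ht
    have htc : t * c * t⁻¹ = c⁻¹ := by
      rw [← he, ht]; group
    have hπt : π t = π t0 := by
      rw [ht, map_mul, (hπ1 x).mpr hxN, one_mul]
    have ht1 : t * t = 1 := by
      have hmem : t * t ∈ N := by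
        rw [← hπ1, map_mul, hπt, ← sq]
        exact hsq _ hs0
      apply hC c _ hc3 hmem
      have h1 : t * (t * c * t⁻¹) * t⁻¹ = c := by
        rw [htc]
        have h2 : t * c⁻¹ * t⁻¹ = (t * c * t⁻¹)⁻¹ := by group
        rw [h2, htc, inv_inv]
      have h3 : (t * t) * c * (t * t)⁻¹ = c := by
        calc (t * t) * c * (t * t)⁻¹ = t * (t * c * t⁻¹) * t⁻¹ := by group
          _ = c := h1
      exact mul_inv_eq_iff_eq_mul.mp h3
    have htpow : ∀ v ∈ N, (t * v) ^ 4 = 1 := by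
      intro v hv
      have e1 : π (t * v) = π t0 := by
        rw [map_mul, hπt, (hπ1 v).mpr hv, mul_one]
      have h1 : (π (t * v)) ^ 2 = 1 := by rw [e1]; exact hsq _ hs0
      have h2 : π (t * v) ≠ 1 := by
        rw [e1]; intro h; apply hs0; rw [h]; exact T.one_mem
      have h3 : orderOf (π (t * v)) = 2 := orderOf_eq_prime h1 h2
      have h4 : 2 ∣ orderOf (t * v) := by rw [← h3]; exact orderOf_map_dvd π _
      rcases ho (t * v) with h | h | h | h
      · rw [h] at h4; omega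
      · rw [show 4 = 2 * 2 from rfl, pow_mul, ← h, pow_orderOf_eq_one]; simp
      · rw [h] at h4; omega
      · rw [← h, pow_orderOf_eq_one]
    let φ : N →* N := (MulAut.conjNormal (H := N) c).toMonoidHom
    have hφ : ∀ v : N, ((φ v : N) : G) = c * v * c⁻¹ := fun v => MulAut.conjNormal_apply _ _
    let ψ : N →* N := (MulAut.conjNormal (H := N) t).toMonoidHom
    have hψ : ∀ v : N, ((ψ v : N) : G) = t * v * t⁻¹ := fun v => MulAut.conjNormal_apply _ _
    have I : ∀ x, x * φ x * φ (φ x) = 1 := by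
      intro x
      apply Subtype.ext
      push_cast
      rw [hφ, hφ, hφ]
      exact ID c hcbarT hcbar1 x x.2
    have hψφ : ∀ v, ψ (φ v) = φ (φ (ψ v)) := by
      intro v
      apply Subtype.ext
      rw [hψ, hφ, hφ, hφ, hψ]
      have h1 : c⁻¹ = c * c := by
        rw [inv_eq_iff_mul_eq_one]
        calc c * (c * c) = c ^ 3 := by simp only [pow_succ, pow_zero, one_mul]; group
          _ = 1 := hc33
      have h2 : t * (c * v * c⁻¹) * t⁻¹ = (t * c * t⁻¹) * (t * v * t⁻¹) * (t * c * t⁻¹)⁻¹ := by group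
      rw [h2, htc, inv_inv]
      have h3 : c = c⁻¹ * c⁻¹ := by
        rw [h1]
        calc c = c ^ 3 * c := by rw [hc33, one_mul]
          _ = c * c * (c * c) := by simp only [pow_succ, pow_zero, one_mul]; group
      calc c⁻¹ * (t * v * t⁻¹) * c = c⁻¹ * (t * v * t⁻¹) * (c⁻¹ * c⁻¹) := by rw [← h3]
        _ = (c * c) * (t * v * t⁻¹) * (c⁻¹ * c⁻¹) := by rw [h1]
        _ = c * (c * (t * v * t⁻¹) * c⁻¹) * c⁻¹ := by group
    have hψsq : ∀ v, (ψ v * v) ^ 2 = 1 := by
      intro v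
      apply Subtype.ext
      push_cast
      rw [hψ]
      have h1 := htpow v v.2
      have h2 : (t * v) * (t * v) = (t * v * t⁻¹) * (t * t) * v := by group
      rw [ht1, mul_one] at h2
      have h3 : (t * (v : G)) ^ 4 = ((t * v) * (t * v)) ^ 2 := by
        rw [← sq, ← pow_mul]
      rw [h3, h2] at h1
      exact h1
    have hexp2 := exp2 hp φ ψ I hψφ hψsq
    refine ⟨⟨⟨⟨?_⟩⟩, ?_⟩, ?_⟩
    · intro a b
      have ha := hexp2 a
      have hb := hexp2 b
      have hab := hexp2 (a * b)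
      rw [sq] at ha hb hab
      calc a * b = a * (a * b * (a * b)) * b := by rw [hab, mul_one]
        _ = (a * a) * (b * a) * (b * b) := by group
        _ = b * a := by rw [ha, hb, one_mul, mul_one]
    · intro a ha
      exact congrArg Subtype.val (hexp2 ⟨a, ha⟩)
    · apply perm3 hc6
      intro s hs
      have hsT : s ∉ T := by
        intro h
        have h1 := hTodd s h (by rintro rfl; simp at hs)
        omega
      refine ⟨π c, fun h => hsT (hgen (π c) hcbarT hcbar1 s h.symm)⟩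

end aux


/-- A finite group whose set of element orders is exactly {1, 2, 3, 4} has a normal subgroup N such that either N is a 2-group of exponent 4 and nilpotency class at most 2 with G/N of order 3, or N is an elementary abelian 2-group with G/N isomorphic to the symmetric group of degree 3, or N is an elementary abelian 3-group with G/N cyclic of order 4 or quaternion of order 8. -/
theorem result {G : Type*} [Group G] [Finite G] (h : Set.range (orderOf : G → ℕ) = {k : ℕ | 1 ≤ k ∧ k ≤ 4}) :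
    ∃ (N : Subgroup G) (_ : N.Normal),
      (IsPGroup 2 ↥N ∧ Monoid.exponent ↥N = 4 ∧ Group.nilpotencyClass ↥N ≤ 2 ∧ N.index = 3) ∨
      (Cfsg.IsElementaryAbelian 2 N ∧ Nonempty (G ⧸ N ≃* Equiv.Perm (Fin 3))) ∨
      (Cfsg.IsElementaryAbelian 3 N ∧ ((IsCyclic (G ⧸ N) ∧ N.index = 4) ∨ Nonempty (G ⧸ N ≃* QuaternionGroup 2))) := by
  classical
have ho : OK G := by
  intro g
  have h1 : orderOf g ∈ {k : ℕ | 1 ≤ k ∧ k ≤ 4} := by rw [← h]; exact ⟨g, rfl⟩
  obtain ⟨h2, h3⟩ := h1
  omega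
have hex : ∀ k : ℕ, 1 ≤ k → k ≤ 4 → ∃ g : G, orderOf g = k := by
  intro k h1 h2
  have : k ∈ Set.range (orderOf : G → ℕ) := by rw [h]; exact ⟨h1, h2⟩
  exact this
have h2 := hex 2 (by norm_num) (by norm_num)
have h3 := hex 3 (by norm_num) (by norm_num)
have h4 := hex 4 (by norm_num) (by norm_num)
obtain ⟨a, b, hcard⟩ := card_two_three ho
haveI hs : Group.IsSolvable G := Lead.burnside_two_prime 2 3 a b Nat.prime_two Nat.prime_three hcard
haveI : Fact (Nat.Prime 3) := ⟨Nat.prime_three⟩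
haveI : Fact (Nat.Prime 2) := ⟨Nat.prime_two⟩
haveI hn2 : (pCore 2 G).Normal := H01.pCore_normal 2
haveI hn3 : (pCore 3 G).Normal := H01.pCore_normal 3
have hnt : (⊤ : Subgroup G) ≠ ⊥ := by
  obtain ⟨t, ht⟩ := h2
  intro h
  have : t ∈ (⊥ : Subgroup G) := by rw [← h]; trivial
  rw [Subgroup.mem_bot] at this
  rw [this, orderOf_one] at ht
  omega
obtain ⟨M, hMn, hM1, -, -, r, hr, hexp, -⟩ := H23.exists_min_normal (⊤ : Subgroup G) hnt inferInstance
obtain ⟨⟨m, hm⟩, hm1⟩ := (Subgroup.ne_bot_iff_exists_ne_one).mp hM1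
have hm1' : m ≠ 1 := fun h => hm1 (Subtype.ext h)
haveI : Fact r.Prime := ⟨hr⟩
have hmo : orderOf m = r := orderOf_eq_prime (hexp m hm) hm1'
have hpM : IsPGroup r M := by
  intro g
  exact ⟨1, Subtype.ext (by simpa using hexp g.1 g.2)⟩
have hle : M ≤ pCore r G := H01.le_pCore hMn hpM
have hne : pCore r G ≠ ⊥ := by
  intro h
  rw [h] at hle
  exact hM1 (le_bot_iff.mp hle)
have hr23 : r = 2 ∨ r = 3 := by
  rcases ho m with h | h | h | h <;> rw [hmo] at h
  · exact absurd h hr.one_lt.ne'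
  · exact Or.inl h
  · exact Or.inr h
  · rw [h] at hr; exact absurd hr (by norm_num)
rcases hr23 with rfl | rfl
· refine ⟨pCore 2 G, hn2, ?_⟩
  rcases caseB ho h3 h4 hne with h | h
  · exact Or.inl h
  · exact Or.inr (Or.inl h)
· refine ⟨pCore 3 G, hn3, Or.inr (Or.inr ?_)⟩
  exact caseA ho h2 h4 hne

end Cfsg.Agent.S4006
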