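import Cfsg.Statements.S4200
import Cfsg.Agent.Lib.H20.ClassCount

set_option autoImplicit false
open Cfsg

namespace Cfsg.Agent.S4200

open Cfsg.Agent.H20

variable {X : Type*} [Group X] [Finite X]

theorem card_le_index_mul (Y C : Subgroup X) :
    Nat.card C ≤ Y.index * Nat.card (Y ⊓ C : Subgroup X) := by
  have h1 : Nat.card C = Nat.card (Y ⊓ C : Subgroup X) * (Y ⊓ C).relIndex C := by
    rw [← Subgroup.relIndex_bot_left, ← Subgroup.relIndex_bot_left,
      Subgroup.relIndex_mul_relIndex _ _ _ bot_le inf_le_right]
  have h2 : (Y ⊓ C).relIndex C = Y.relIndex C := Subgroup.inf_relIndex_right Y C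
  have h3 : Y.relIndex C ≤ Y.index := by
    rw [← Subgroup.relIndex_top_right]
    exact Subgroup.relIndex_le_of_le_right le_top (by
      rw [Subgroup.relIndex_top_right]; exact Subgroup.index_ne_zero_of_finite)
  rw [h1, h2, mul_comm]
  exact Nat.mul_le_mul_right _ h3

/-- strict form: if some `x⁻¹` has `x a x⁻¹ ∉ Y`, `a ∈ C`.. -/
theorem card_lt_index_mul (Y : Subgroup X) (a x : X) (hax : x * a * x⁻¹ ∉ Y) (ha : a ∈ Y) :
    Nat.card (Subgroup.centralizer ({a} : Set X)) <
      Y.index * Nat.card (Y ⊓ Subgroup.centralizer ({a} : Set X) : Subgroup X) := by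
  classical
  set C : Subgroup X := Subgroup.centralizer ({a} : Set X) with hC
  have h1 : Nat.card C = Nat.card (Y ⊓ C : Subgroup X) * (Y ⊓ C).relIndex C := by
    rw [← Subgroup.relIndex_bot_left, ← Subgroup.relIndex_bot_left,
      Subgroup.relIndex_mul_relIndex _ _ _ bot_le inf_le_right]
  have h2 : (Y ⊓ C).relIndex C = Y.relIndex C := Subgroup.inf_relIndex_right Y C
  have h3 : Y.relIndex C < Y.index := by
    -- the map from C/(Y∩C) to X/Y is not surjective
    let f : C ⧸ (Y.subgroupOf C) → X ⧸ Y :=
      Quotient.lift (fun c : C => ((c : X) : X ⧸ Y)) (by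
        intro c d hcd
        have hcd' := QuotientGroup.leftRel_apply.mp hcd
        rw [Subgroup.mem_subgroupOf] at hcd'
        apply QuotientGroup.eq.mpr
        simpa using hcd')
    have hf : Function.Injective f := by
      intro c d
      induction c using QuotientGroup.induction_on with
      | H c =>
        induction d using QuotientGroup.induction_on with
        | H d =>
          intro h
          have h' := QuotientGroup.eq.mp h
          apply QuotientGroup.eq.mpr
          rw [Subgroup.mem_subgroupOf]
          simpa using h'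
    have hns : ((x⁻¹ : X) : X ⧸ Y) ∉ Set.range f := by
      rintro ⟨c, hc⟩
      induction c using QuotientGroup.induction_on with
      | H c =>
        have h' := QuotientGroup.eq.mp hc
        apply hax
        have hcc : (c : X) * a = a * (c : X) := Subgroup.mem_centralizer_singleton_iff.mp c.2
        have e : x * a * x⁻¹ = (((c : X))⁻¹ * x⁻¹)⁻¹ * a * ((c : X)⁻¹ * x⁻¹) := by
          have : a = (c : X) * a * (c : X)⁻¹ := by
            rw [hcc]; simp
          nth_rewrite 1 [this]
          group
        rw [e]
        exact Y.mul_mem (Y.mul_mem (Y.inv_mem h') ha) h'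
    have : Nat.card (C ⧸ (Y.subgroupOf C)) < Nat.card (X ⧸ Y) := by
      have := Fintype.ofFinite (C ⧸ (Y.subgroupOf C))
      have := Fintype.ofFinite (X ⧸ Y)
      rw [Nat.card_eq_fintype_card, Nat.card_eq_fintype_card]
      exact Fintype.card_lt_of_injective_of_notMem f hf hns
    exact this
  rw [h1, h2, mul_comm]
  exact Nat.mul_lt_mul_of_pos_right h3 Nat.card_pos

theorem main (Y : Subgroup X) : Nat.card (ConjClasses Y) ≤ Y.index * Nat.card (ConjClasses X) ∧
    Nat.card (ConjClasses X) ≤ Y.index * Nat.card (ConjClasses Y) ∧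
    (¬ Y.Normal → Nat.card (ConjClasses X) < Y.index * Nat.card (ConjClasses Y)) := by
  classical
  have := Fintype.ofFinite X
  have := Fintype.ofFinite Y
  set m := Y.index with hm
  have hmpos : 0 < m := Nat.pos_of_ne_zero Subgroup.index_ne_zero_of_finite
  have hYpos : 0 < Nat.card Y := Nat.card_pos
  have hcard : Nat.card X = Nat.card Y * m := (Subgroup.card_mul_index Y).symm
  have hA : Nat.card (ConjClasses X) * Nat.card X ≤ m *
      ∑ z : Y, Nat.card (Subgroup.centralizer ({(z : X)} : Set X)) := by
    rw [card_conjClasses_mul_card_eq_sum, ← sum_card_inf_centralizer, Finset.mul_sum]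
    exact Finset.sum_le_sum (fun g _ => card_le_index_mul Y _)
  have hB : ∑ z : Y, Nat.card (Subgroup.centralizer ({(z : X)} : Set X)) ≤
      m * (Nat.card (ConjClasses Y) * Nat.card Y) := by
    rw [card_conjClasses_subgroup_mul_card_eq_sum, Finset.mul_sum]
    exact Finset.sum_le_sum (fun g _ => card_le_index_mul Y _)
  refine ⟨?_, ?_, ?_⟩
  · -- from Mathlib's `commProb` bound
    have h := Subgroup.commProb_subgroup_le Y
    rw [commProb_def', commProb_def'] at h
    have hX : (0 : ℚ) < Nat.card X := by exact_mod_cast Nat.card_pos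
    have hY : (0 : ℚ) < Nat.card Y := by exact_mod_cast Nat.card_pos
    have h2 : (Nat.card X : ℚ) = Nat.card Y * m := by exact_mod_cast hcard
    have hm' : (0 : ℚ) < m := by exact_mod_cast hmpos
    rw [h2] at h
    have h3 : (Nat.card (ConjClasses Y) : ℚ) ≤ m * Nat.card (ConjClasses X) := by
      have e : (Nat.card (ConjClasses X) : ℚ) / (Nat.card Y * m) * (m : ℚ) ^ 2 =
          (m * Nat.card (ConjClasses X)) / Nat.card Y := by
        field_simp
      rw [e] at h
      exact (div_le_div_iff_of_pos_right hY).mp h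
    exact_mod_cast h3
  · have h : Nat.card (ConjClasses X) * (Nat.card Y * m) ≤
        m * (m * (Nat.card (ConjClasses Y) * Nat.card Y)) := by
      rw [← hcard]
      exact hA.trans (Nat.mul_le_mul_left _ hB)
    have h2 : Nat.card (ConjClasses X) * (Nat.card Y * m) ≤ (m * Nat.card (ConjClasses Y)) * (Nat.card Y * m) := by
      calc _ ≤ _ := h
        _ = _ := by ring
    exact Nat.le_of_mul_le_mul_right h2 (Nat.mul_pos hYpos hmpos)
  · intro hY
    -- find `a ∈ Y`, `x` with `x a x⁻¹ ∉ Y`
    have : ∃ a ∈ Y, ∃ x : X, x * a * x⁻¹ ∉ Y := by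
      by_contra hcon
      push Not at hcon
      exact hY ⟨hcon⟩
    obtain ⟨a, ha, x, hx⟩ := this
    have hB' : ∑ z : Y, Nat.card (Subgroup.centralizer ({(z : X)} : Set X)) <
        m * (Nat.card (ConjClasses Y) * Nat.card Y) := by
      rw [card_conjClasses_subgroup_mul_card_eq_sum, Finset.mul_sum]
      refine Finset.sum_lt_sum (fun g _ => card_le_index_mul Y _) ⟨⟨a, ha⟩, Finset.mem_univ _, ?_⟩
      exact card_lt_index_mul Y a x hx ha
    have h : Nat.card (ConjClasses X) * (Nat.card Y * m) <
        m * (m * (Nat.card (ConjClasses Y) * Nat.card Y)) := by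
      rw [← hcard]
      exact hA.trans_lt (Nat.mul_lt_mul_of_pos_left hB' hmpos)
    have h2 : Nat.card (ConjClasses X) * (Nat.card Y * m) < (m * Nat.card (ConjClasses Y)) * (Nat.card Y * m) := by
      calc _ < _ := h
        _ = _ := by ring
    exact Nat.lt_of_mul_lt_mul_right h2

/-- Let Y be a subgroup of the finite group X, of index m. Then the numbers of conjugacy classes satisfy k(Y) ≤ m·k(X) and k(X) ≤ m·k(Y), and the second inequality is strict unless Y is normal in X. -/
theorem result {X : Type*} [Group X] [Finite X] (Y : Subgroup X) : Nat.card (ConjClasses Y) ≤ Y.index * Nat.card (ConjClasses X) ∧ Nat.card (ConjClasses X) ≤ Y.index * Nat.card (ConjClasses Y) ∧ (¬ Y.Normal → Nat.card (ConjClasses X) < Y.index * Nat.card (ConjClasses Y)) :=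
  main Y

end Cfsg.Agent.S4200
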