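import Cfsg.Statements.S4201
import Cfsg.Agent.Lib.H20.ClassCount

set_option autoImplicit false
open Cfsg

namespace Cfsg.Agent.S4201

open Cfsg.Agent.H20

variable {X : Type*} [Group X] [Finite X]

theorem card_centralizer_le (N : Subgroup X) [N.Normal] (g : X) :
    Nat.card (Subgroup.centralizer ({g} : Set X)) ≤
      Nat.card (N ⊓ Subgroup.centralizer ({g} : Set X) : Subgroup X) *
        Nat.card (Subgroup.centralizer ({(g : X ⧸ N)} : Set (X ⧸ N))) := by
  set C : Subgroup X := Subgroup.centralizer ({g} : Set X) with hC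
  have h1 : Nat.card C = Nat.card (N ⊓ C : Subgroup X) * (N ⊓ C).relIndex C := by
    rw [← Subgroup.relIndex_bot_left, ← Subgroup.relIndex_bot_left,
      Subgroup.relIndex_mul_relIndex _ _ _ bot_le inf_le_right]
  have h2 : (N ⊓ C).relIndex C = N.relIndex C := Subgroup.inf_relIndex_right N C
  have h3 : N.relIndex C = Nat.card (C.map (QuotientGroup.mk' N)) := by
    have := Subgroup.relIndex_ker C (QuotientGroup.mk' N)
    rwa [QuotientGroup.ker_mk'] at this
  have h4 : C.map (QuotientGroup.mk' N) ≤ Subgroup.centralizer ({(g : X ⧸ N)} : Set (X ⧸ N)) := by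
    rintro _ ⟨c, hc, rfl⟩
    rw [Subgroup.mem_centralizer_singleton_iff]
    have hc' : c * g = g * c := Subgroup.mem_centralizer_singleton_iff.mp hc
    show ((c : X ⧸ N)) * (g : X ⧸ N) = (g : X ⧸ N) * (c : X ⧸ N)
    rw [← QuotientGroup.mk_mul, ← QuotientGroup.mk_mul, hc']
  rw [h1, h2, h3]
  exact Nat.mul_le_mul_left _ (Subgroup.card_le_of_le h4)

open scoped Classical in
theorem fiber_bound [Fintype X] (N : Subgroup X) [N.Normal] [Fintype N] (Q : X ⧸ N) :
    ∑ g ∈ Finset.univ.filter (fun g : X => (g : X ⧸ N) = Q),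
      Nat.card (N ⊓ Subgroup.centralizer ({g} : Set X) : Subgroup X) ≤
      Nat.card (ConjClasses N) * Nat.card N := by
  classical
  rw [card_conjClasses_subgroup_mul_card_eq_sum]
  have e1 : ∀ g : X, Nat.card (N ⊓ Subgroup.centralizer ({g} : Set X) : Subgroup X) =
      ∑ z : N, if (z : X) * g = g * (z : X) then 1 else 0 := by
    intro g
    rw [← Finset.card_filter, ← Fintype.card_subtype, ← Nat.card_eq_fintype_card]
    refine Nat.card_congr ?_
    exact
      { toFun := fun z => ⟨⟨z.1, z.2.1⟩, Subgroup.mem_centralizer_singleton_iff.mp z.2.2⟩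
        invFun := fun z => ⟨z.1.1, ⟨z.1.2, Subgroup.mem_centralizer_singleton_iff.mpr z.2⟩⟩
        left_inv := fun z => by rfl
        right_inv := fun z => by rfl }
  rw [Finset.sum_congr rfl (fun g _ => e1 g), Finset.sum_comm]
  refine Finset.sum_le_sum (fun z _ => ?_)
  rw [← Finset.card_filter, Finset.filter_filter]
  -- inject the fibre into `N ⊓ C(z)`
  set F := Finset.univ.filter (fun g : X => (g : X ⧸ N) = Q ∧ (z : X) * g = g * (z : X)) with hF
  by_cases hne : F.Nonempty
  · obtain ⟨g₀, hg₀⟩ := hne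
    rw [hF, Finset.mem_filter] at hg₀
    obtain ⟨-, hq₀, hc₀⟩ := hg₀
    rw [← Nat.card_eq_finsetCard]
    refine Nat.card_le_card_of_injective
      (fun g : F => (⟨g₀⁻¹ * g.1, ?_, ?_⟩ : (N ⊓ Subgroup.centralizer ({(z : X)} : Set X) : Subgroup X))) ?_
    · have hg := (Finset.mem_filter.mp g.2).2
      have : ((g₀ : X ⧸ N)) = (g.1 : X ⧸ N) := by rw [hq₀, hg.1]
      exact QuotientGroup.eq.mp this
    · have hg := (Finset.mem_filter.mp g.2).2
      refine Subgroup.mem_centralizer_singleton_iff.mpr ?_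
      have hc₀' : g₀⁻¹ * (z : X) = (z : X) * g₀⁻¹ := by
        rw [inv_mul_eq_iff_eq_mul, ← mul_assoc, ← hc₀]; simp
      calc g₀⁻¹ * (g : X) * z = g₀⁻¹ * (z * g) := by rw [mul_assoc, hg.2]
        _ = (g₀⁻¹ * z) * g := by rw [mul_assoc]
        _ = z * (g₀⁻¹ * g) := by rw [hc₀', mul_assoc]
    · intro a b hab
      have := congrArg (fun w : (N ⊓ Subgroup.centralizer ({(z : X)} : Set X) : Subgroup X) => (w : X)) hab
      simp only [mul_right_inj] at this
      exact Subtype.ext this
  · rw [Finset.not_nonempty_iff_eq_empty] at hne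
    rw [hne]
    simp

theorem main (N : Subgroup X) [N.Normal] :
    Nat.card (ConjClasses X) ≤ Nat.card (ConjClasses N) * Nat.card (ConjClasses (X ⧸ N)) := by
  classical
  have := Fintype.ofFinite X
  have := Fintype.ofFinite N
  have := Fintype.ofFinite (X ⧸ N)
  have hXpos : 0 < Nat.card X := Nat.card_pos
  have hcard : Nat.card X = Nat.card N * Nat.card (X ⧸ N) := (Subgroup.card_mul_index N).symm
  have h : Nat.card (ConjClasses X) * Nat.card X ≤
      Nat.card (ConjClasses N) * Nat.card (ConjClasses (X ⧸ N)) * Nat.card X := by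
    calc Nat.card (ConjClasses X) * Nat.card X
        = ∑ g : X, Nat.card (Subgroup.centralizer ({g} : Set X)) :=
          card_conjClasses_mul_card_eq_sum
      _ ≤ ∑ g : X, Nat.card (N ⊓ Subgroup.centralizer ({g} : Set X) : Subgroup X) *
            Nat.card (Subgroup.centralizer ({(g : X ⧸ N)} : Set (X ⧸ N))) :=
          Finset.sum_le_sum (fun g _ => card_centralizer_le N g)
      _ = ∑ Q : X ⧸ N, ∑ g ∈ Finset.univ.filter (fun g : X => (g : X ⧸ N) = Q),
            Nat.card (N ⊓ Subgroup.centralizer ({g} : Set X) : Subgroup X) *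
              Nat.card (Subgroup.centralizer ({(g : X ⧸ N)} : Set (X ⧸ N))) :=
          (Finset.sum_fiberwise _ _ _).symm
      _ = ∑ Q : X ⧸ N, (∑ g ∈ Finset.univ.filter (fun g : X => (g : X ⧸ N) = Q),
            Nat.card (N ⊓ Subgroup.centralizer ({g} : Set X) : Subgroup X)) *
              Nat.card (Subgroup.centralizer ({Q} : Set (X ⧸ N))) := by
          refine Finset.sum_congr rfl (fun Q _ => ?_)
          rw [Finset.sum_mul]
          refine Finset.sum_congr rfl (fun g hg => ?_)
          rw [(Finset.mem_filter.mp hg).2]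
      _ ≤ ∑ Q : X ⧸ N, (Nat.card (ConjClasses N) * Nat.card N) *
              Nat.card (Subgroup.centralizer ({Q} : Set (X ⧸ N))) :=
          Finset.sum_le_sum (fun Q _ => Nat.mul_le_mul_right _ (fiber_bound N Q))
      _ = (Nat.card (ConjClasses N) * Nat.card N) *
            (Nat.card (ConjClasses (X ⧸ N)) * Nat.card (X ⧸ N)) := by
          rw [← Finset.mul_sum, card_conjClasses_mul_card_eq_sum (X := X ⧸ N)]
      _ = _ := by rw [hcard]; ring
  exact Nat.le_of_mul_le_mul_right h hXpos

/-- If N is a normal subgroup of the finite group X then k(X) ≤ k(N)·k(X ⧸ N), where k denotes the number of conjugacy classes. -/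
theorem result {X : Type*} [Group X] [Finite X] (N : Subgroup X) [N.Normal] : Nat.card (ConjClasses X) ≤ Nat.card (ConjClasses N) * Nat.card (ConjClasses (X ⧸ N)) :=
  main N

end Cfsg.Agent.S4201
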