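import Cfsg.Statements.S4203
import Cfsg.Agent.Lib.Lead.Burnside
import Cfsg.Agent.Lib.H20.Basic

set_option autoImplicit false
open Cfsg

namespace Cfsg.Agent.S4203

open Subgroup Cfsg.Agent.H20

universe u

/-- numbers all of whose prime factors are 2 or 3 -/
theorem two_three (n : ℕ) (hn : n ≠ 0) (h : ∀ r : ℕ, r.Prime → r ∣ n → r = 2 ∨ r = 3) :
    ∃ a b : ℕ, n = 2 ^ a * 3 ^ b := by
  obtain ⟨a, m, hm, rfl⟩ := Nat.exists_eq_pow_mul_and_not_dvd hn 2 (by norm_num)
  have hm0 : m ≠ 0 := by
    rintro rfl
    simp at hn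
  obtain ⟨b, k, hk, rfl⟩ := Nat.exists_eq_pow_mul_and_not_dvd hm0 3 (by norm_num)
  have hk1 : k = 1 := by
    by_contra hne
    obtain ⟨r, hr, hrd⟩ := Nat.exists_prime_and_dvd hne
    rcases h r hr (Dvd.dvd.mul_left (Dvd.dvd.mul_left hrd _) _) with rfl | rfl
    · exact hm (Dvd.dvd.mul_left hrd _)
    · exact hk hrd
  subst hk1
  exact ⟨a, b, by ring⟩

/-- index of the normalizer of a Sylow: the number of Sylows multiplies along `M ≥ N(P)`. -/
theorem index_modEq_one {G : Type*} [Group G] [Finite G] {p : ℕ} [Fact p.Prime] (P : Sylow p G)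
    (M : Subgroup G) (hM : normalizer ((P : Subgroup G) : Set G) ≤ M) : M.index ≡ 1 [MOD p] := by
  have hPM : (P : Subgroup G) ≤ M := le_trans Subgroup.le_normalizer hM
  have h1 : Nat.card (Sylow p G) ≡ 1 [MOD p] := card_sylow_modEq_one p G
  have h2 : Nat.card (Sylow p M) ≡ 1 [MOD p] := card_sylow_modEq_one p M
  have h3 : Nat.card (Sylow p G) = (normalizer ((P : Subgroup G) : Set G)).index :=
    Sylow.card_eq_index_normalizer P
  have h4 : Nat.card (Sylow p M) = (normalizer (((P.subtype hPM : Sylow p M) : Subgroup M) : Set M)).index :=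
    Sylow.card_eq_index_normalizer (P.subtype hPM)
  have h5 : normalizer (((P.subtype hPM : Sylow p M) : Subgroup M) : Set M) =
      (normalizer ((P : Subgroup G) : Set G)).subgroupOf M := by
    ext ⟨x, hx⟩
    rw [Subgroup.mem_subgroupOf, Subgroup.mem_normalizer_iff]
    show (∀ y : M, y ∈ ((P.subtype hPM : Sylow p M) : Subgroup M) ↔ _) ↔ _
    constructor
    · intro h
      rw [Subgroup.mem_normalizer_iff]
      intro y
      constructor
      · intro hy
        have h6 := (h ⟨y, hPM hy⟩).mp (by rw [Sylow.coe_subtype, Subgroup.mem_subgroupOf]; exact hy)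
        rw [Sylow.coe_subtype, Subgroup.mem_subgroupOf] at h6
        exact h6
      · intro hy
        have hyM : y ∈ M := by
          have h7 := M.mul_mem (M.mul_mem (M.inv_mem hx) (hPM hy)) hx
          simpa [mul_assoc] using h7
        have h6 := (h ⟨y, hyM⟩).mpr (by rw [Sylow.coe_subtype, Subgroup.mem_subgroupOf]; exact hy)
        rw [Sylow.coe_subtype, Subgroup.mem_subgroupOf] at h6
        exact h6
    · intro h y
      have h6 := Subgroup.mem_normalizer_iff.mp h (y : G)
      rw [Sylow.coe_subtype, Subgroup.mem_subgroupOf, Subgroup.mem_subgroupOf]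
      exact h6
  rw [h5] at h4
  have h6 : Nat.card (Sylow p G) = Nat.card (Sylow p M) * M.index := by
    rw [h3, h4]
    exact (Subgroup.relIndex_mul_index hM).symm
  have h7 : Nat.card (Sylow p G) ≡ 1 * M.index [MOD p] := by
    rw [h6]; exact h2.mul_right _
  rw [one_mul] at h7
  exact h7.symm.trans h1

theorem quot_hyp {G : Type*} [Group G] [Finite G] (N : Subgroup G) [N.Normal]
    (h : ∀ M : Subgroup G, IsCoatom M → ∃ p : ℕ, p.Prime ∧ (M.index = p ∨ M.index = p ^ 2)) :
    ∀ M : Subgroup (G ⧸ N), IsCoatom M → ∃ p : ℕ, p.Prime ∧ (M.index = p ∨ M.index = p ^ 2) := by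
  intro M hM
  have hsurj := QuotientGroup.mk'_surjective N
  have hco : IsCoatom (M.comap (QuotientGroup.mk' N)) := by
    refine ⟨fun ht => hM.1 ?_, fun K hK => ?_⟩
    · rw [← Subgroup.map_comap_eq_self_of_surjective hsurj M, ht, Subgroup.map_top_of_surjective _ hsurj]
    · have hNK : N ≤ K := by
        intro n hn
        apply hK.le
        show (n : G ⧸ N) ∈ M
        rw [(QuotientGroup.eq_one_iff n).mpr hn]
        exact one_mem _
      have h1 : M < K.map (QuotientGroup.mk' N) := by
        refine lt_of_le_of_ne ?_ ?_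
        · rw [← Subgroup.map_comap_eq_self_of_surjective hsurj M]
          exact Subgroup.map_mono hK.le
        · intro he
          apply hK.ne
          rw [he, Subgroup.comap_map_eq, QuotientGroup.ker_mk', sup_eq_left.mpr hNK]
      have h2 := hM.2 _ h1
      have h3 := congrArg (Subgroup.comap (QuotientGroup.mk' N)) h2
      rw [Subgroup.comap_map_eq, QuotientGroup.ker_mk', sup_eq_left.mpr hNK, Subgroup.comap_top] at h3
      exact h3
  obtain ⟨p, hp, hi⟩ := h _ hco
  rw [Subgroup.index_comap_of_surjective _ hsurj] at hi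
  exact ⟨p, hp, hi⟩

theorem main : ∀ (n : ℕ) (G : Type u) [Group G] [Finite G], Nat.card G = n →
    (∀ M : Subgroup G, IsCoatom M → ∃ p : ℕ, p.Prime ∧ (M.index = p ∨ M.index = p ^ 2)) →
    Group.IsSolvable G := by
  intro n
  induction n using Nat.strong_induction_on with
  | _ n ih =>
    intro G _ _ hn h
    classical
    by_cases htriv : Nat.card G = 1
    · have : Subsingleton G := (Nat.card_eq_one_iff_unique.mp htriv).1
      infer_instance
    have hne : (Nat.card G).primeFactors.Nonempty := Nat.nonempty_primeFactors.mpr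
      (lt_of_le_of_ne Nat.card_pos (Ne.symm htriv))
    let p := (Nat.card G).primeFactors.max' hne
    have hpm : p ∈ (Nat.card G).primeFactors := Finset.max'_mem _ _
    have hp : p.Prime := Nat.prime_of_mem_primeFactors hpm
    have hpd : p ∣ Nat.card G := Nat.dvd_of_mem_primeFactors hpm
    have hmax : ∀ r : ℕ, r.Prime → r ∣ Nat.card G → r ≤ p := fun r hr hrd =>
      Finset.le_max' _ _ (Nat.mem_primeFactors.mpr ⟨hr, hrd, Nat.card_pos.ne'⟩)
    haveI := Fact.mk hp
    obtain ⟨P⟩ : Nonempty (Sylow p G) := inferInstance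
    by_cases hPn : (P : Subgroup G).Normal
    · -- quotient by P
      have hPbot : (P : Subgroup G) ≠ ⊥ := P.ne_bot_of_dvd_card hpd
      have hlt : Nat.card (G ⧸ (P : Subgroup G)) < n := by
        rw [← hn]
        have h1 := Subgroup.card_mul_index (P : Subgroup G)
        have h2 : 1 < Nat.card (P : Subgroup G) := by
          rw [Subgroup.one_lt_card_iff_ne_bot]; exact hPbot
        have h3 : Nat.card (G ⧸ (P : Subgroup G)) = (P : Subgroup G).index := rfl
        have h4 : 0 < (P : Subgroup G).index := Nat.pos_of_ne_zero Subgroup.index_ne_zero_of_finite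
        rw [h3]
        nlinarith
      haveI := ih _ hlt (G ⧸ (P : Subgroup G)) rfl (quot_hyp _ h)
      haveI : Group.IsSolvable (P : Subgroup G) := by
        have : IsPGroup p (P : Subgroup G) := P.isPGroup'
        have hnil : Group.IsNilpotent (P : Subgroup G) := this.isNilpotent
        infer_instance
      exact Group.isSolvable_of_ker_le_range (P : Subgroup G).subtype
        (QuotientGroup.mk' (P : Subgroup G)) (by simp)
    -- non-normal Sylow
    have hNtop : normalizer ((P : Subgroup G) : Set G) ≠ ⊤ := fun h0 =>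
      hPn (normalizer_eq_top_iff.mp h0)
    obtain ⟨M, hM, hNM⟩ := (eq_top_or_exists_le_coatom (normalizer ((P : Subgroup G) : Set G))).resolve_left hNtop
    have hmod := index_modEq_one P M hNM
    have hdvd : M.index ∣ Nat.card G := Subgroup.index_dvd_card M
    obtain ⟨q, hq, hi⟩ := h M hM
    have hqd : q ∣ M.index := by
      rcases hi with hi | hi
      · rw [hi]
      · rw [hi]; exact dvd_pow_self q (by norm_num)
    have hqG : q ∣ Nat.card G := dvd_trans hqd hdvd
    have hqp : q ≠ p := by
      intro hqe
      rw [hqe] at hqd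
      have h1 : M.index % p = 1 % p := hmod
      rw [Nat.mod_eq_zero_of_dvd hqd, Nat.mod_eq_of_lt hp.one_lt] at h1
      omega
    have hqlt : q < p := lt_of_le_of_ne (hmax q hq hqG) hqp
    have hp2 : p = 3 ∧ q = 2 := by
      rcases hi with hi | hi
      · exfalso
        rw [hi] at hmod
        have h1 : q % p = 1 % p := hmod
        rw [Nat.mod_eq_of_lt hqlt, Nat.mod_eq_of_lt hp.one_lt] at h1
        exact hq.one_lt.ne' h1
      · rw [hi] at hmod
        have h1 : (p : ℤ) ∣ ((q : ℤ) - 1) * ((q : ℤ) + 1) := by
          have h2 := (Nat.modEq_iff_dvd.mp hmod)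
          have h3 : (((q ^ 2 : ℕ) : ℤ) - ((1 : ℕ) : ℤ)) = ((q : ℤ) - 1) * ((q : ℤ) + 1) := by
            push_cast; ring
          have h4 : (p : ℤ) ∣ (((q ^ 2 : ℕ) : ℤ) - ((1 : ℕ) : ℤ)) := by
            have := (dvd_neg.mpr h2)
            simpa using this
          rwa [h3] at h4
        have hp' : Prime (p : ℤ) := Nat.prime_iff_prime_int.mp hp
        rcases hp'.dvd_or_dvd h1 with h2 | h2
        · exfalso
          have h3 : p ∣ q - 1 := by
            have h4 : ((q - 1 : ℕ) : ℤ) = (q : ℤ) - 1 := by
              rw [Nat.cast_sub hq.one_lt.le]; simp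
            rw [← h4] at h2
            exact_mod_cast h2
          have h4 := Nat.le_of_dvd (by have := hq.one_lt; omega) h3
          omega
        · have h3 : p ∣ q + 1 := by exact_mod_cast h2
          have h4 := Nat.le_of_dvd (by omega) h3
          have h5 : p = q + 1 := by omega
          -- consecutive primes
          rcases hq.eq_two_or_odd with h6 | h6
          · subst h6
            exact ⟨h5, rfl⟩
          · exfalso
            rcases hp.eq_two_or_odd with h7 | h7
            · have := hq.one_lt; omega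
            · omega
    obtain ⟨hp3, -⟩ := hp2
    obtain ⟨a, b, hab⟩ := two_three (Nat.card G) Nat.card_pos.ne' (fun r hr hrd => by
      have h1 := hmax r hr hrd
      have h2 := hr.two_le
      rw [hp3] at h1
      have h3 : r = 2 ∨ r = 3 := by omega
      exact h3)
    exact Cfsg.Agent.Lead.burnside_two_prime 2 3 a b (by norm_num) (by norm_num) hab

/-- A finite group in which every maximal subgroup has index a prime or the square of a prime is solvable. -/
theorem result {G : Type*} [Group G] [Finite G] (h : ∀ M : Subgroup G, IsCoatom M → ∃ p : ℕ, p.Prime ∧ (M.index = p ∨ M.index = p ^ 2)) : Group.IsSolvable G :=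
  main _ G rfl h

end Cfsg.Agent.S4203
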