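import Cfsg.Statements.S4204
import Cfsg.Agent.Lib.H20.Commutators

set_option autoImplicit false
open Cfsg

namespace Cfsg.Agent.S4204

variable {G : Type*} [Group G]

/-- shifted lower central series -/
def A (H : Subgroup G) : ℕ → Subgroup G
  | 0 => ⊤
  | n + 1 => H.lowerCentralSeries n

theorem A_normal (H : Subgroup G) [H.Normal] (n : ℕ) : (A H n).Normal := by
  cases n with
  | zero => show (⊤ : Subgroup G).Normal; infer_instance
  | succ n => exact H20.lowerCentralSeries_normal H n

theorem A_comm (H : Subgroup G) [H.Normal] (n : ℕ) : ⁅A H n, H⁆ ≤ A H (n + 1) := by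
  cases n with
  | zero =>
    show ⁅(⊤ : Subgroup G), H⁆ ≤ H
    exact Subgroup.commutator_le_right _ _
  | succ n => exact le_rfl

theorem A_antitone (H : Subgroup G) : Antitone (A H) := by
  intro a b hab
  cases a with
  | zero => exact le_top
  | succ a =>
    obtain ⟨b, rfl⟩ : ∃ c, b = c + 1 := ⟨b - 1, by omega⟩
    exact Subgroup.lowerCentralSeries_antitone H (by omega)

def E (H K : Subgroup G) (i j : ℕ) : Subgroup G := A H i ⊓ A K j

theorem E_normal (H K : Subgroup G) [H.Normal] [K.Normal] (i j : ℕ) : (E H K i j).Normal := by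
  have := A_normal H i
  have := A_normal K j
  exact inferInstanceAs (A H i ⊓ A K j).Normal

theorem E_comm_left (H K : Subgroup G) [H.Normal] [K.Normal] (i j : ℕ) :
    ⁅E H K i j, H⁆ ≤ E H K (i + 1) j := by
  have := A_normal K j
  refine le_inf ?_ ?_
  · exact (Subgroup.commutator_mono inf_le_left le_rfl).trans (A_comm H i)
  · exact (Subgroup.commutator_mono inf_le_right le_rfl).trans (Subgroup.commutator_le_left _ _)

theorem E_comm_right (H K : Subgroup G) [H.Normal] [K.Normal] (i j : ℕ) :
    ⁅E H K i j, K⁆ ≤ E H K i (j + 1) := by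
  have := A_normal H i
  refine le_inf ?_ ?_
  · exact (Subgroup.commutator_mono inf_le_left le_rfl).trans (Subgroup.commutator_le_left _ _)
  · exact (Subgroup.commutator_mono inf_le_right le_rfl).trans (A_comm K j)

def D (H K : Subgroup G) (n : ℕ) : Subgroup G :=
  ⨆ p : {p : ℕ × ℕ // p.1 + p.2 = n}, E H K p.1.1 p.1.2

theorem D_normal (H K : Subgroup G) [H.Normal] [K.Normal] (n : ℕ) : (D H K n).Normal := by
  have : ∀ p : {p : ℕ × ℕ // p.1 + p.2 = n}, (E H K p.1.1 p.1.2).Normal :=
    fun p => E_normal H K _ _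
  exact inferInstanceAs (⨆ p : {p : ℕ × ℕ // p.1 + p.2 = n}, E H K p.1.1 p.1.2).Normal

theorem E_le_D (H K : Subgroup G) (i j n : ℕ) (h : i + j = n) : E H K i j ≤ D H K n :=
  le_iSup (fun p : {p : ℕ × ℕ // p.1 + p.2 = n} => E H K p.1.1 p.1.2) ⟨(i, j), h⟩

theorem D_comm (H K : Subgroup G) [H.Normal] [K.Normal] (n : ℕ) :
    ⁅D H K n, H ⊔ K⁆ ≤ D H K (n + 1) := by
  have := D_normal H K (n + 1)
  apply H20.commutator_sup_right_le
  · apply H20.commutator_iSup_left_le
    rintro ⟨⟨i, j⟩, hp⟩
    exact (E_comm_left H K i j).trans (E_le_D H K _ _ _ (by simp only at hp; omega))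
  · apply H20.commutator_iSup_left_le
    rintro ⟨⟨i, j⟩, hp⟩
    exact (E_comm_right H K i j).trans (E_le_D H K _ _ _ (by simp only at hp; omega))

theorem lcs_le_D (H K : Subgroup G) [H.Normal] [K.Normal] (n : ℕ) :
    (H ⊔ K).lowerCentralSeries n ≤ D H K (n + 1) := by
  induction n with
  | zero =>
    rw [Subgroup.lowerCentralSeries_zero]
    refine sup_le ?_ ?_
    · refine le_trans ?_ (E_le_D H K 1 0 1 rfl)
      exact le_inf (le_refl H) le_top
    · refine le_trans ?_ (E_le_D H K 0 1 1 rfl)
      exact le_inf le_top (le_refl K)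
  | succ n ih =>
    rw [Subgroup.lowerCentralSeries_succ]
    exact (Subgroup.commutator_mono ih le_rfl).trans (D_comm H K (n + 1))

/-- If `H` and `K` are normal subgroups of a finite group with `H` nilpotent of class at most `c` and `K` nilpotent of class at most `d` (the terms with index `c`, respectively `d`, of their lower central series are trivial, indices starting at `0`), then `HK` is nilpotent of class at most `c + d`. -/
theorem result {G : Type*} [Group G] [Finite G] (H K : Subgroup G) [H.Normal] [K.Normal] (c d : ℕ) (hH : H.lowerCentralSeries c = ⊥) (hK : K.lowerCentralSeries d = ⊥) : (H ⊔ K).lowerCentralSeries (c + d) = ⊥ := by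
  rw [eq_bot_iff]
  refine (lcs_le_D H K (c + d)).trans ?_
  apply iSup_le
  rintro ⟨⟨i, j⟩, hp⟩
  simp only at hp
  by_cases hi : c + 1 ≤ i
  · have h1 : A H i ≤ A H (c + 1) := A_antitone H hi
    have h2 : A H (c + 1) = ⊥ := hH
    exact inf_le_left.trans (h1.trans h2.le)
  · have hj : d + 1 ≤ j := by omega
    have h1 : A K j ≤ A K (d + 1) := A_antitone K hj
    have h2 : A K (d + 1) = ⊥ := hK
    exact inf_le_right.trans (h1.trans h2.le)

end Cfsg.Agent.S4204
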