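import Cfsg.Statements.S4205

set_option autoImplicit false
open Cfsg

namespace Cfsg.Agent.S4205

/-- In a finite group whose upper central series reaches the whole group at step `c` (nilpotent of class at most `c`), starting from any subgroup and taking normalizers `c` times reaches the whole group. -/
theorem result {G : Type*} [Group G] [Finite G] (c : ℕ) (hG : Subgroup.upperCentralSeries G c = ⊤) (H : Subgroup G) : (fun K : Subgroup G => Subgroup.normalizer (K : Set G))^[c] H = ⊤ := by
  have key : ∀ k : ℕ, Subgroup.upperCentralSeries G k ≤
      (fun K : Subgroup G => Subgroup.normalizer (K : Set G))^[k] H := by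
    intro k
    induction k with
    | zero =>
      simp only [Function.iterate_zero, id_eq]
      rw [Subgroup.upperCentralSeries_zero]
      exact bot_le
    | succ k ih =>
      rw [Function.iterate_succ_apply']
      intro z hz
      show z ∈ Subgroup.normalizer _
      rw [Subgroup.mem_normalizer_iff]
      set K := (fun K : Subgroup G => Subgroup.normalizer (K : Set G))^[k] H with hK
      have hmem : ∀ z ∈ Subgroup.upperCentralSeries G (k + 1), ∀ h ∈ (K : Set G),
          z * h * z⁻¹ ∈ (K : Set G) := by
        intro z hz h hh
        rw [Subgroup.mem_upperCentralSeries_succ_iff] at hz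
        have h1 := ih (hz h)
        have h2 : z * h * z⁻¹ = (z * h * z⁻¹ * h⁻¹) * h := by group
        rw [h2]
        exact K.mul_mem h1 hh
      intro h
      refine ⟨hmem z hz h, fun hh => ?_⟩
      have := hmem z⁻¹ (Subgroup.inv_mem _ hz) _ hh
      simpa [mul_assoc] using this
  exact top_le_iff.mp (hG ▸ key c)

end Cfsg.Agent.S4205
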