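import Cfsg.Statements.S4209
import Cfsg.Agent.Lib.H18.HallPet
import Cfsg.Agent.Lib.H20.Regular

set_option autoImplicit false
set_option linter.unusedVariables false
set_option linter.style.haveILetI false
open Cfsg

namespace Cfsg.Agent.S4209

open Cfsg.Agent.H18

theorem dvd_choose_prime_pow {p : ℕ} (hp : p.Prime) (n k : ℕ) (hk0 : 0 < k) (hk : k < p) :
    p ^ n ∣ (p ^ n).choose k := by
  rcases Nat.eq_zero_or_pos n with rfl | hn
  · simp
  obtain ⟨k', rfl⟩ : ∃ k', k = k' + 1 := ⟨k - 1, by omega⟩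
  obtain ⟨m, hm⟩ : ∃ m, p ^ n = m + 1 := ⟨p ^ n - 1, by
    have : 0 < p ^ n := pow_pos hp.pos n
    omega⟩
  have h1 := Nat.add_one_mul_choose_eq m k'
  -- h1 : (m + 1) * m.choose k' = (m + 1).choose (k' + 1) * (k' + 1)
  rw [← hm] at h1
  have hcop : (p ^ n).Coprime (k' + 1) := by
    apply Nat.Coprime.pow_left
    rw [Nat.Prime.coprime_iff_not_dvd hp]
    intro hd
    exact absurd (Nat.le_of_dvd (by omega) hd) (by omega)
  apply hcop.dvd_of_dvd_mul_right
  rw [← h1]
  exact dvd_mul_right _ _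

variable {G : Type*} [Group G] {F : ℕ → Subgroup G}

theorem hp_elim_pow (hanti : Antitone F)
    (hcomm : ∀ i j : ℕ, ∀ x ∈ F i, ∀ y ∈ F j, x * y * x⁻¹ * y⁻¹ ∈ F (i + j))
    {p : ℕ} (hp : p.Prime) (n : ℕ) (hFp : F p = ⊥)
    (s : ℕ → G) (hs : HP F 0 s) (h0 : s 0 = 1) (h1 : s 1 = 1) : s (p ^ n) ∈ powerClosure p n (F 2) := by
  have hp2 : 2 ≤ p := hp.two_le
  have key : ∀ i, i + 2 ≤ p → ∃ s' : ℕ → G, HP F 0 s' ∧ (∀ j < i + 2, s' j = 1) ∧
      (s' (p ^ n))⁻¹ * s (p ^ n) ∈ powerClosure p n (F 2) := by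
    intro i
    induction i with
    | zero =>
      intro _
      refine ⟨s, hs, ?_, by simp⟩
      intro j hj
      interval_cases j
      · exact h0
      · exact h1
    | succ i ih =>
      intro hi
      obtain ⟨s', hs', hz, hv⟩ := ih (by omega)
      have hg := hp_zero (i + 2) 0 s' hs' hz (i + 2)
      set g := s' (i + 2) with hgdef
      have hb : HP F 0 (fun n => (g⁻¹) ^ (n.choose (i + 2))) :=
        fun r => hp_binom hanti r 0 (i + 2) (Subgroup.inv_mem _ hg)
      refine ⟨fun n => s' n * (g⁻¹) ^ (n.choose (i + 2)),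
        fun r => (hp_closure hanti hcomm r).2 _ _ _ (hs' r) (hb r), ?_, ?_⟩
      · intro j hj
        by_cases hj' : j < i + 2
        · show s' j * (g⁻¹) ^ (j.choose (i + 2)) = 1
          rw [hz j hj', Nat.choose_eq_zero_of_lt hj']
          simp
        · have : j = i + 2 := by omega
          subst this
          show s' (i + 2) * (g⁻¹) ^ ((i + 2).choose (i + 2)) = 1
          rw [Nat.choose_self, pow_one, ← hgdef]
          simp
      · show (s' (p ^ n) * (g⁻¹) ^ ((p ^ n).choose (i + 2)))⁻¹ * s (p ^ n) ∈ _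
        obtain ⟨k, hk⟩ := dvd_choose_prime_pow hp n (i + 2) (by omega) (by omega)
        have hg' : g ∈ F (i + 2) := by simpa using hg
        have hg2 : g⁻¹ ∈ F 2 := hanti (show 2 ≤ i + 2 by omega) (Subgroup.inv_mem _ hg')
        have hz' : (g⁻¹) ^ ((p ^ n).choose (i + 2)) ∈ powerClosure p n (F 2) := by
          apply Subgroup.subset_closure
          refine ⟨(g⁻¹) ^ k, Subgroup.pow_mem _ hg2 k, ?_⟩
          rw [hk, ← pow_mul, mul_comm]
        have e : (s' (p ^ n) * (g⁻¹) ^ ((p ^ n).choose (i + 2)))⁻¹ * s (p ^ n)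
            = ((g⁻¹) ^ ((p ^ n).choose (i + 2)))⁻¹ * ((s' (p ^ n))⁻¹ * s (p ^ n)) := by group
        rw [e]
        exact Subgroup.mul_mem _ (Subgroup.inv_mem _ hz') hv
  obtain ⟨s', hs', hz, hv⟩ := key (p - 2) (by omega)
  have h3 := hp_zero p 0 s' hs' (by
    intro j hj
    exact hz j (by omega)) (p ^ n)
  rw [zero_add, hFp, Subgroup.mem_bot] at h3
  rw [h3] at hv
  simpa using hv

theorem powerClosure_conj {p n : ℕ} {K : Subgroup G} (hK : K.Normal) (g : G) {c : G}
    (hc : c ∈ powerClosure p n K) : g * c * g⁻¹ ∈ powerClosure p n K := by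
  induction hc using Subgroup.closure_induction with
  | mem x hx =>
    obtain ⟨y, hy, rfl⟩ := hx
    apply Subgroup.subset_closure
    exact ⟨g * y * g⁻¹, hK.conj_mem y hy g, by rw [conj_pow]⟩
  | one => simp [Subgroup.one_mem]
  | mul x y _ _ ihx ihy =>
    have e : g * (x * y) * g⁻¹ = (g * x * g⁻¹) * (g * y * g⁻¹) := by group
    rw [e]
    exact Subgroup.mul_mem _ ihx ihy
  | inv x _ ih =>
    have e : g * x⁻¹ * g⁻¹ = (g * x * g⁻¹)⁻¹ := by group
    rw [e]
    exact Subgroup.inv_mem _ ih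

/-- Hall-Petrescu for `q = p ^ n` in class `< p`. -/
theorem mul_pow_pow_of_class_lt {p : ℕ} (hp : p.Prime) (n : ℕ)
    (hcl : (⊤ : Subgroup G).lowerCentralSeries (p - 1) = ⊥) (x y : G) :
    ∃ c ∈ powerClosure p n ((⊤ : Subgroup G).lowerCentralSeries 1),
      (x * y) ^ p ^ n = x ^ p ^ n * y ^ p ^ n * c := by
  let L : ℕ → Subgroup G := fun i => (⊤ : Subgroup G).lowerCentralSeries (i - 1)
  have hanti : Antitone L := by
    intro i j hij
    exact Subgroup.lowerCentralSeries_antitone _ (by omega)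
  have hnorm : ∀ i, (L i).Normal := fun i => H20.lowerCentralSeries_normal _ _
  have hcomm : ∀ i j : ℕ, ∀ x ∈ L i, ∀ y ∈ L j, x * y * x⁻¹ * y⁻¹ ∈ L (i + j) := by
    intro i j u hu v hv
    cases i with
    | zero =>
      have h1 : u * v * u⁻¹ * v⁻¹ = (u * v * u⁻¹) * v⁻¹ := rfl
      rw [zero_add]
      rw [h1]
      exact (L j).mul_mem ((hnorm j).conj_mem v hv u) ((L j).inv_mem hv)
    | succ i =>
      cases j with
      | zero =>
        have h1 : u * v * u⁻¹ * v⁻¹ = u * (v * u⁻¹ * v⁻¹) := by group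
        rw [add_zero, h1]
        exact (L _).mul_mem hu ((hnorm _).conj_mem _ ((L _).inv_mem hu) v)
      | succ j =>
        have h2 := commutator_lcs_le j i (Subgroup.commutator_mem_commutator hu hv)
        have h3 : i + 1 + (j + 1) - 1 = i + j + 1 := by omega
        show u * v * u⁻¹ * v⁻¹ ∈ (⊤ : Subgroup G).lowerCentralSeries (i + 1 + (j + 1) - 1)
        rw [h3]
        exact h2
  have hF1 : L 1 = ⊤ := rfl
  have hbin : ∀ g : G, HP L 0 (fun n => g ^ n) := by
    intro g r
    have := hp_binom (F := L) (g := g) hanti r 0 1 (by rw [zero_add, hF1]; exact Subgroup.mem_top g)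
    simpa using this
  have hmul := fun (s t : ℕ → G) (hs : HP L 0 s) (ht : HP L 0 t) =>
    (fun r => (hp_closure hanti hcomm r).2 _ _ _ (hs r) (ht r) : HP L 0 (fun n => s n * t n))
  have hs := hmul _ _ (hmul _ _ (hbin x) (hbin y)) (hbin (x * y)⁻¹)
  have h := hp_elim_pow hanti hcomm hp n hcl _ hs (by simp) (by simp)
  simp only [inv_pow] at h
  set w := x ^ p ^ n * y ^ p ^ n * ((x * y) ^ p ^ n)⁻¹ with hw
  refine ⟨(x ^ p ^ n * y ^ p ^ n)⁻¹ * w⁻¹ * (x ^ p ^ n * y ^ p ^ n)⁻¹⁻¹, ?_, ?_⟩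
  · exact powerClosure_conj (hnorm 2) _ (Subgroup.inv_mem _ h)
  · rw [hw]; group

end Cfsg.Agent.S4209

namespace Cfsg.Agent.S4209

theorem lcs_mono {G : Type*} [Group G] {H K : Subgroup G} (h : H ≤ K) (n : ℕ) :
    H.lowerCentralSeries n ≤ K.lowerCentralSeries n := by
  induction n with
  | zero => simpa using h
  | succ n ih =>
    rw [Subgroup.lowerCentralSeries_succ, Subgroup.lowerCentralSeries_succ]
    exact Subgroup.commutator_mono ih h

/-- A finite `p`-group of nilpotency class less than `p` (the term of index `p - 1` of the lower central series of the whole group, indexed from `0`, is trivial) is a regular `p`-group. -/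
theorem result {G : Type*} [Group G] [Finite G] {p : ℕ} [Fact p.Prime] (hG : IsPGroup p G) (hcl : (⊤ : Subgroup G).lowerCentralSeries (p - 1) = ⊥) : Cfsg.IsRegularPGroup p G := by
  refine ⟨hG, fun a b n => ?_⟩
  set H : Subgroup G := Subgroup.closure ({a, b} : Set G) with hH
  have haH : a ∈ H := Subgroup.subset_closure (by simp)
  have hbH : b ∈ H := Subgroup.subset_closure (by simp)
  have hclH : (⊤ : Subgroup H).lowerCentralSeries (p - 1) = ⊥ := by
    have h1 := Subgroup.top_subtype_lowerCentralSeries H (p - 1)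
    have h2 : H.lowerCentralSeries (p - 1) = ⊥ := by
      rw [eq_bot_iff, ← hcl]
      exact lcs_mono le_top _
    rw [h2] at h1
    exact (Subgroup.map_eq_bot_iff_of_injective _ H.subtype_injective).1 h1
  obtain ⟨c, hc, he⟩ := mul_pow_pow_of_class_lt (G := H) (Fact.out : p.Prime) n hclH ⟨a, haH⟩ ⟨b, hbH⟩
  refine ⟨(c : G), ?_, by simpa using congrArg Subtype.val he⟩
  -- transport the membership
  have hmap : ((⊤ : Subgroup H).lowerCentralSeries 1).map H.subtype = ⁅H, H⁆ := by
    rw [Subgroup.top_subtype_lowerCentralSeries, Subgroup.lowerCentralSeries_succ, Subgroup.lowerCentralSeries_zero]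
  clear he
  induction hc using Subgroup.closure_induction with
  | mem x hx =>
    obtain ⟨y, hy, rfl⟩ := hx
    apply Subgroup.subset_closure
    refine ⟨(y : G), ?_, by simp⟩
    rw [← hmap]
    exact ⟨y, hy, rfl⟩
  | one => simp [Subgroup.one_mem]
  | mul x y _ _ ihx ihy => exact Subgroup.mul_mem _ ihx ihy
  | inv x _ ih => exact Subgroup.inv_mem _ ih

end Cfsg.Agent.S4209
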