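import Cfsg.Statements.S4211
import Cfsg.Agent.Lib.H19.SameOrder
import Mathlib

set_option autoImplicit false
set_option linter.unusedVariables false
set_option linter.style.haveILetI false
open Cfsg

namespace Cfsg.Agent.S4211

open Subgroup

section Step1

variable {G : Type*} [Group G]

private lemma conj_pow_b {a b c : G} (hca : Commute c a) (hcb : Commute c b)
    (h : a * b * a⁻¹ = b * c) (j : ℕ) : a ^ j * b * (a ^ j)⁻¹ = b * c ^ j := by
  induction j with
  | zero => simp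
  | succ j ih =>
    have h1 : a ^ (j + 1) * b * (a ^ (j + 1))⁻¹ = a * (a ^ j * b * (a ^ j)⁻¹) * a⁻¹ := by
      rw [pow_succ']; group
    rw [h1, ih]
    have h2 : a * (b * c ^ j) * a⁻¹ = (a * b * a⁻¹) * (a * c ^ j * a⁻¹) := by group
    rw [h2, h]
    have h3 : a * c ^ j * a⁻¹ = c ^ j := by
      rw [(hca.pow_left j).eq.symm]; group
    rw [h3, pow_succ', mul_assoc]

private lemma conj_pow_ab {a b c : G} (hca : Commute c a) (hcb : Commute c b)
    (h : a * b * a⁻¹ = b * c) (i : ℕ) : a * b ^ i * a⁻¹ = b ^ i * c ^ i := by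
  rw [← conj_pow, h]
  exact (hcb.symm).mul_pow i

private lemma pow_move {y b e : G} (hey : Commute e y) (heb : Commute e b) (h : b * y = y * b * e)
    (k : ℕ) : b ^ k * y = y * b ^ k * e ^ k := by
  induction k with
  | zero => simp
  | succ k ih =>
    have h1 : b ^ (k + 1) * y = b ^ k * (b * y) := by rw [pow_succ]; group
    rw [h1, h, ← mul_assoc, ← mul_assoc, ih]
    have h2 : y * b ^ k * e ^ k * b * e = y * b ^ k * (e ^ k * b) * e := by group
    rw [h2, ((heb.pow_left k).eq)]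
    rw [pow_succ, pow_succ]
    group

private lemma class2_pow {y b e : G} (hey : Commute e y) (heb : Commute e b)
    (h : b * y = y * b * e) (k : ℕ) : (y * b) ^ k = y ^ k * b ^ k * e ^ (k.choose 2) := by
  induction k with
  | zero => simp
  | succ k ih =>
    rw [pow_succ, ih]
    have h1 : y ^ k * b ^ k * e ^ k.choose 2 * (y * b) =
        y ^ k * b ^ k * (e ^ k.choose 2 * y) * b := by group
    rw [h1, (hey.pow_left _).eq]
    have h2 : y ^ k * b ^ k * (y * e ^ k.choose 2) * b =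
        y ^ k * (b ^ k * y) * e ^ k.choose 2 * b := by group
    rw [h2, pow_move hey heb h k]
    have h3 : (k + 1).choose 2 = k + k.choose 2 := by
      rw [Nat.choose_succ_succ' k 1, Nat.choose_one_right]
    rw [h3, pow_add e, pow_succ y, pow_succ b]
    have h4 : y ^ k * (y * b ^ k * e ^ k) * e ^ k.choose 2 * b =
        y ^ k * y * b ^ k * (e ^ k * e ^ k.choose 2 * b) := by group
    rw [h4, ((heb.pow_left k).mul_left (heb.pow_left _)).eq]
    group

private lemma arith (p r : ℕ) (hp : p.Prime) : p ∣ (p ^ r).choose 2 ∨ (p = 2 ∧ p ^ r = 2) := by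
  rcases r with _ | r
  · left; simp
  · have hk : 0 < p ^ (r + 1) := pow_pos hp.pos _
    obtain ⟨t, ht⟩ : ∃ t, p ^ (r + 1) = t + 1 := ⟨p ^ (r + 1) - 1, by omega⟩
    have h2 : (p ^ (r + 1)).choose 2 * 2 = p ^ (r + 1) * (p ^ (r + 1) - 1) := by
      rw [ht]
      have := Nat.add_one_mul_choose_eq t 1
      rw [Nat.choose_one_right] at this
      simp only [Nat.add_sub_cancel]
      linarith
    by_cases hp2 : p = 2
    · subst hp2
      rcases r with _ | r
      · right; simp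
      · left
        have h3 : (2 ^ (r + 1 + 1)).choose 2 = 2 * (2 ^ r * (2 ^ (r + 1 + 1) - 1) ) * 1 := by
          have h4 : (2:ℕ) ^ (r + 1 + 1) * (2 ^ (r + 1 + 1) - 1) =
              (2 * (2 ^ r * (2 ^ (r + 1 + 1) - 1)) * 1) * 2 := by
            rw [show (2:ℕ) ^ (r + 1 + 1) = 2 ^ r * 2 * 2 by ring]
            generalize (2:ℕ) ^ r * 2 * 2 - 1 = w
            ring
          rw [h4] at h2
          exact Nat.eq_of_mul_eq_mul_right (by norm_num) h2
        rw [h3]
        exact ⟨2 ^ r * (2 ^ (r + 1 + 1) - 1), by ring⟩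
    · left
      have h3 : p ∣ (p ^ (r + 1)).choose 2 * 2 := by
        rw [h2, pow_succ]
        exact Dvd.dvd.mul_right (Dvd.intro_left _ rfl) _
      rcases (Nat.Prime.dvd_mul hp).1 h3 with h4 | h4
      · exact h4
      · exact absurd ((Nat.prime_dvd_prime_iff_eq hp Nat.prime_two).1 h4) hp2

private theorem main_pair [Finite G] (hn : ∀ H : Subgroup G, H.Normal) (a b : G)
    (hne : a * b ≠ b * a)
    (hmin : ∀ a' b' : G, a' * b' ≠ b' * a' → orderOf a + orderOf b ≤ orderOf a' + orderOf b')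
    (hle : orderOf b ≤ orderOf a) :
    a ^ 4 = 1 ∧ a ^ 2 = b ^ 2 ∧ a ^ 2 ≠ 1 ∧ b * a * b⁻¹ = a⁻¹ := by
  set c : G := b⁻¹ * a * b * a⁻¹ with hc
  have hcA : c ∈ zpowers a := by
    apply mul_mem _ (inv_mem (mem_zpowers a))
    have := (hn (zpowers a)).conj_mem a (mem_zpowers a) b⁻¹
    simpa using this
  have hcB : c ∈ zpowers b := by
    have h1 : c = b⁻¹ * (a * b * a⁻¹) := by rw [hc]; group
    rw [h1]
    exact mul_mem (inv_mem (mem_zpowers b)) ((hn (zpowers b)).conj_mem b (mem_zpowers b) a)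
  have hca : Commute c a := by
    obtain ⟨z, hz⟩ := Subgroup.mem_zpowers_iff.1 hcA
    rw [← hz]
    exact (Commute.refl a).zpow_left z
  have hcb : Commute c b := by
    obtain ⟨z, hz⟩ := Subgroup.mem_zpowers_iff.1 hcB
    rw [← hz]
    exact (Commute.refl b).zpow_left z
  have hab : a * b * a⁻¹ = b * c := by rw [hc]; group
  have hc1 : c ≠ 1 := by
    intro h
    apply hne
    have h2 : a * b * a⁻¹ = b := by rw [hab, h, mul_one]
    calc a * b = a * b * a⁻¹ * a := by group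
      _ = b * a := by rw [h2]
  have hpa : 0 < orderOf a := orderOf_pos a
  have hpb : 0 < orderOf b := orderOf_pos b
  have kill_a : ∀ j, orderOf (a ^ j) < orderOf a → c ^ j = 1 := by
    intro j hj
    by_contra h
    have h1 : a ^ j * b ≠ b * a ^ j := by
      intro h2
      apply h
      have h3 := conj_pow_b hca hcb hab j
      have h4 : a ^ j * b * (a ^ j)⁻¹ = b := by rw [h2]; group
      rw [h4] at h3
      exact (mul_eq_left.1 h3.symm)
    have := hmin _ _ h1
    omega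
  have kill_b : ∀ i, orderOf (b ^ i) < orderOf b → c ^ i = 1 := by
    intro i hi
    by_contra h
    have h1 : a * b ^ i ≠ b ^ i * a := by
      intro h2
      apply h
      have h3 := conj_pow_ab hca hcb hab i
      have h4 : a * b ^ i * a⁻¹ = b ^ i := by rw [h2]; group
      rw [h4] at h3
      exact (mul_eq_left.1 h3.symm)
    have := hmin _ _ h1
    omega
  have hb1 : orderOf b ≠ 1 := by
    intro h
    rw [orderOf_eq_one_iff] at h
    apply hne
    rw [h]; simp
  have ha1 : orderOf a ≠ 1 := by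
    intro h
    rw [orderOf_eq_one_iff] at h
    apply hne
    rw [h]; simp
  have hqa : ∀ q, q.Prime → q ∣ orderOf a → orderOf c = q := by
    intro q hq hd
    haveI := Fact.mk hq
    have h1 : orderOf (a ^ q) = orderOf a / q := orderOf_pow_of_dvd hq.ne_zero hd
    have h2 : orderOf a / q < orderOf a := Nat.div_lt_self hpa hq.one_lt
    exact orderOf_eq_prime (kill_a q (by omega)) hc1
  have hqb : ∀ q, q.Prime → q ∣ orderOf b → orderOf c = q := by
    intro q hq hd
    haveI := Fact.mk hq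
    have h1 : orderOf (b ^ q) = orderOf b / q := orderOf_pow_of_dvd hq.ne_zero hd
    have h2 : orderOf b / q < orderOf b := Nat.div_lt_self hpb hq.one_lt
    exact orderOf_eq_prime (kill_b q (by omega)) hc1
  obtain ⟨q₀, hq₀, hq₀d⟩ := Nat.exists_prime_and_dvd hb1
  set p := orderOf c with hp_def
  have hp : p.Prime := by rw [hqb q₀ hq₀ hq₀d]; exact hq₀
  haveI := Fact.mk hp
  have hap : orderOf a = p ^ (orderOf a).primeFactorsList.length :=
    Nat.eq_prime_pow_of_unique_prime_dvd hpa.ne' (fun {d} hd hdd => (hqa d hd hdd).symm)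
  have hbp : orderOf b = p ^ (orderOf b).primeFactorsList.length :=
    Nat.eq_prime_pow_of_unique_prime_dvd hpb.ne' (fun {d} hd hdd => (hqb d hd hdd).symm)
  set n := (orderOf a).primeFactorsList.length
  set m := (orderOf b).primeFactorsList.length
  have hmn : m ≤ n := by
    rw [hap, hbp] at hle
    exact (Nat.pow_le_pow_iff_right hp.one_lt).1 hle
  have hm0 : m ≠ 0 := by
    intro h
    rw [h, pow_zero] at hbp
    exact hb1 hbp
  obtain ⟨m', hm'⟩ : ∃ m', m = m' + 1 := ⟨m - 1, by omega⟩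
  obtain ⟨n', hn'⟩ : ∃ n', n = n' + 1 := ⟨n - 1, by omega⟩
  set k := p ^ m' with hk
  have hkpos : 0 < k := pow_pos hp.pos _
  have hordb : orderOf b = k * p := by rw [hbp, hm', pow_succ]
  have hcp : c ^ p = 1 := pow_orderOf_eq_one c
  -- exponents
  obtain ⟨s, hs⟩ := mem_powers_iff_mem_zpowers.2 hcB
  obtain ⟨f, hf⟩ := mem_powers_iff_mem_zpowers.2 hcA
  change b ^ s = c at hs
  change a ^ f = c at hf
  have hks : k ∣ s := by
    have h1 : b ^ (s * p) = 1 := by rw [pow_mul, hs, hcp]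
    have h2 := orderOf_dvd_of_pow_eq_one h1
    rw [hordb] at h2
    exact Nat.dvd_of_mul_dvd_mul_right hp.pos h2
  obtain ⟨s', rfl⟩ := hks
  have hbkp : orderOf (b ^ k) = p := by
    rw [orderOf_pow_of_dvd hkpos.ne' (by rw [hordb]; exact Dvd.intro _ rfl), hordb]
    exact Nat.mul_div_cancel_left _ hkpos
  have hs'cop : s'.Coprime (orderOf (b ^ k)) := by
    rw [hbkp, Nat.coprime_comm, Nat.Prime.coprime_iff_not_dvd hp]
    rintro ⟨w, rfl⟩
    apply hc1
    rw [← hs, pow_mul, pow_mul]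
    have : (b ^ k) ^ p = 1 := by rw [← hbkp]; exact pow_orderOf_eq_one _
    rw [this, one_pow]
  obtain ⟨e, he⟩ := exists_pow_eq_self_of_coprime hs'cop
  replace he : c ^ e = b ^ k := by rw [← hs, pow_mul]; exact he
  have hkf : k ∣ f := by
    have h1 : a ^ (f * p) = 1 := by rw [pow_mul, hf, hcp]
    have h2 := orderOf_dvd_of_pow_eq_one h1
    rw [hap, hn', pow_succ] at h2
    have h3 : p ^ n' ∣ f := Nat.dvd_of_mul_dvd_mul_right hp.pos h2
    exact (pow_dvd_pow p (by omega)).trans h3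
  obtain ⟨g, rfl⟩ := hkf
  set j := g * e with hj
  set y := a ^ j with hy
  have hyk : y ^ k = b ^ k := by
    rw [hy, ← pow_mul, ← he, ← hf, ← pow_mul]
    congr 1
    rw [hj]; ring
  set x := y⁻¹ * b with hx
  have hyconj : y * b * y⁻¹ = b * c ^ j := conj_pow_b hca hcb hab j
  have hcy : Commute c y := hca.pow_right j
  have hcjyinv : Commute (c ^ j) y⁻¹ := (hcy.pow_left j).inv_right
  have hcjb : Commute (c ^ j) b := hcb.pow_left j
  have hby : b * y⁻¹ = y⁻¹ * b * c ^ j := by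
    rw [mul_assoc, ← hyconj]
    generalize y = y'
    group
  have hxk : x ^ k = c ^ (j * k.choose 2) := by
    rw [hx, class2_pow hcjyinv hcjb hby k, inv_pow, hyk]
    simp [pow_mul]
  have hxa : a * x ≠ x * a := by
    intro h
    apply hne
    have h1 : Commute a y := (Commute.refl a).pow_right j
    have h2 : a * y⁻¹ = y⁻¹ * a := h1.inv_right.eq
    rw [hx] at h
    have h3 : a * (y⁻¹ * b) = y⁻¹ * (a * b) := by rw [← mul_assoc, h2, mul_assoc]
    rw [h3, mul_assoc] at h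
    exact mul_left_cancel h
  have hbx : orderOf b ≤ orderOf x := by
    have := hmin _ _ hxa
    omega
  have hnd : ¬ p ∣ j * k.choose 2 := by
    intro hd
    obtain ⟨w, hw⟩ := hd
    have h1 : x ^ k = 1 := by rw [hxk, hw, pow_mul, hcp, one_pow]
    have h2 := orderOf_dvd_of_pow_eq_one h1
    have h3 := Nat.le_of_dvd hkpos h2
    rw [hordb] at hbx
    have := hp.two_le
    nlinarith
  have hnd1 : ¬ p ∣ j := fun h => hnd (h.mul_right _)
  have hnd2 : ¬ p ∣ k.choose 2 := fun h => hnd (h.mul_left _)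
  obtain ⟨hp2, hk2⟩ : p = 2 ∧ k = 2 := by
    rcases arith p m' hp with h | h
    · exact absurd h hnd2
    · exact h
  -- conclude
  have hg : ¬ 2 ∣ g := fun h => hnd1 (by rw [hp2, hj]; exact h.mul_right _)
  have he' : ¬ 2 ∣ e := fun h => hnd1 (by rw [hp2, hj]; exact h.mul_left _)
  rw [hk2] at hf he
  have hc2 : c ^ 2 = 1 := by rw [← hp2]; exact hcp
  have ha4 : a ^ 4 = 1 := by
    have h1 : a ^ (4 * g) = 1 := by
      have : 4 * g = (2 * g) * 2 := by ring
      rw [this, pow_mul, hf, hc2]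
    have h2 : orderOf a ∣ 4 * g := orderOf_dvd_of_pow_eq_one h1
    rw [hap, hp2] at h2
    have h3 : Nat.Coprime ((2:ℕ) ^ n) g := by
      apply Nat.Coprime.pow_left
      exact (Nat.Prime.coprime_iff_not_dvd Nat.prime_two).2 hg
    have h4 := h3.dvd_of_dvd_mul_right h2
    apply orderOf_dvd_iff_pow_eq_one.1
    rw [hap, hp2]
    exact h4
  obtain ⟨g', rfl⟩ : ∃ g', g = 2 * g' + 1 := by
    have : g % 2 = 1 := by omega
    exact ⟨g / 2, by omega⟩
  obtain ⟨e', rfl⟩ : ∃ e', e = 2 * e' + 1 := by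
    have : e % 2 = 1 := by omega
    exact ⟨e / 2, by omega⟩
  have hca2 : c = a ^ 2 := by
    rw [← hf]
    have : 2 * (2 * g' + 1) = 4 * g' + 2 := by ring
    rw [this, pow_add, pow_mul, ha4, one_pow, one_mul]
  have hcb2 : c = b ^ 2 := by
    rw [← he, pow_add, pow_mul, hc2, one_pow, one_mul, pow_one]
  refine ⟨ha4, by rw [← hca2, hcb2], by rw [← hca2]; exact hc1, ?_⟩
  have h1 : b⁻¹ * a * b * a⁻¹ = a ^ 2 := by rw [← hca2]
  have h2 : b⁻¹ * a * b = a⁻¹ := by
    have h3 : a⁻¹ = a ^ 3 := by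
      rw [inv_eq_iff_mul_eq_one, ← pow_succ']
      exact ha4
    rw [h3]
    have : b⁻¹ * a * b = (b⁻¹ * a * b * a⁻¹) * a := by group
    rw [this, h1, ← pow_succ]
  have h4 : a = b * a⁻¹ * b⁻¹ := by rw [← h2]; group
  have h5 : b * a * b⁻¹ = (b * a⁻¹ * b⁻¹)⁻¹ := by group
  rw [h5, ← h4]

/-- Step 1: a nonabelian finite group all of whose subgroups are normal contains the quaternion
relations. -/
theorem exists_quat [Finite G] (hn : ∀ H : Subgroup G, H.Normal) (hna : ¬ IsMulCommutative G) :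
    ∃ a b : G, a ^ 4 = 1 ∧ a ^ 2 = b ^ 2 ∧ a ^ 2 ≠ 1 ∧ b * a * b⁻¹ = a⁻¹ := by
  classical
  have hex : ∃ N, ∃ a b : G, a * b ≠ b * a ∧ orderOf a + orderOf b = N := by
    by_contra h
    push Not at h
    apply hna
    refine ⟨⟨fun a b => ?_⟩⟩
    by_contra hab
    exact h _ a b hab rfl
  obtain ⟨a, b, hne, hN⟩ := Nat.find_spec hex
  have hmin : ∀ a' b' : G, a' * b' ≠ b' * a' → orderOf a + orderOf b ≤ orderOf a' + orderOf b' := by
    intro a' b' h
    rw [hN]
    exact Nat.find_min' hex ⟨a', b', h, rfl⟩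
  rcases le_total (orderOf b) (orderOf a) with hle | hle
  · exact ⟨a, b, main_pair hn a b hne hmin hle⟩
  · refine ⟨b, a, main_pair hn b a hne.symm ?_ hle⟩
    intro a' b' h
    have := hmin a' b' h
    omega

end Step1

section Step2

variable {G : Type*} [Group G]

private lemma mem_zpowers_four {x y : G} (hx4 : x ^ 4 = 1) (hy : y ∈ zpowers x) :
    y = 1 ∨ y = x ∨ y = x ^ 2 ∨ y = x⁻¹ := by
  have hfin : IsOfFinOrder x := isOfFinOrder_iff_pow_eq_one.2 ⟨4, by norm_num, hx4⟩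
  obtain ⟨n, hn⟩ := (hfin.mem_powers_iff_mem_zpowers).2 hy
  change x ^ n = y at hn
  have hinv : x⁻¹ = x ^ 3 := by
    rw [inv_eq_iff_mul_eq_one, ← pow_succ']
    exact hx4
  have h1 : x ^ n = x ^ (n % 4) := pow_eq_pow_mod n hx4
  have h2 : n % 4 < 4 := Nat.mod_lt _ (by norm_num)
  rw [← hn, h1, hinv]
  interval_cases (n % 4) <;> simp

private lemma conj_four (hn : ∀ H : Subgroup G, H.Normal) {x : G} (hx4 : x ^ 4 = 1)
    (hx2 : x ^ 2 ≠ 1) (g : G) : g * x * g⁻¹ = x ∨ g * x * g⁻¹ = x⁻¹ := by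
  have hmem : g * x * g⁻¹ ∈ zpowers x := (hn _).conj_mem x (mem_zpowers x) g
  rcases mem_zpowers_four hx4 hmem with h | h | h | h
  · exfalso
    apply hx2
    have : x = 1 := by
      have h2 : x = g⁻¹ * (g * x * g⁻¹) * g := by group
      rw [h2, h]; simp
    rw [this, one_pow]
  · exact Or.inl h
  · exfalso
    apply hx2
    have h2 : g * x ^ 2 * g⁻¹ = (g * x * g⁻¹) ^ 2 := by rw [conj_pow]
    rw [h, ← pow_mul] at h2
    norm_num at h2
    rw [hx4] at h2
    have h3 : x ^ 2 = g⁻¹ * (g * x ^ 2 * g⁻¹) * g := by group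
    rw [h3, h2]; simp
  · exact Or.inr h

private lemma no_four (hn : ∀ H : Subgroup G, H.Normal) {a b x : G} (ha4 : a ^ 4 = 1)
    (ha2 : a ^ 2 ≠ 1) (hrel : b * a * b⁻¹ = a⁻¹) (hab : a * b ≠ b * a) (hxa : a * x = x * a)
    (hxb : b * x = x * b) (hx4 : x ^ 4 = 1) : x ^ 2 = 1 := by
  have hcom : Commute a x := hxa
  have h4 : (a * x) ^ 4 = 1 := by rw [hcom.mul_pow, ha4, hx4, one_mul]
  have hmem : b * (a * x) * b⁻¹ ∈ zpowers (a * x) := (hn _).conj_mem _ (mem_zpowers _) b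
  have h1 : b * (a * x) * b⁻¹ = a⁻¹ * x := by
    have : b * (a * x) * b⁻¹ = (b * a * b⁻¹) * (b * x * b⁻¹) := by group
    rw [this, hrel, hxb]; group
  rw [h1] at hmem
  have hne : x ≠ a := by
    rintro rfl
    exact hab hxb.symm
  have hainv : a⁻¹ = a ^ 3 := by
    rw [inv_eq_iff_mul_eq_one, ← pow_succ']
    exact ha4
  rcases mem_zpowers_four h4 hmem with h | h | h | h
  · exfalso
    apply hne
    have h2 : x = a * (a⁻¹ * x) := by group
    rw [h2, h, mul_one]
  · exfalso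
    apply ha2
    have h2 : a⁻¹ = a := mul_right_cancel h
    rw [pow_two]
    nth_rewrite 1 [← h2]
    simp
  · exfalso
    apply hne
    rw [hcom.mul_pow] at h
    have h2 : a⁻¹ * x = a ^ 2 * x ^ 2 := h
    have h3 : x = a⁻¹ * a⁻¹ * a⁻¹ := by
      have h5 : a⁻¹ * a⁻¹ * (a⁻¹ * x) = a⁻¹ * a⁻¹ * (a ^ 2 * x ^ 2) := by rw [h2]
      have h6 : a⁻¹ * a⁻¹ * (a ^ 2 * x ^ 2) = x ^ 2 := by
        rw [pow_two a, pow_two x]; group
      rw [h6] at h5
      have h7 : a⁻¹ * a⁻¹ * (a⁻¹ * x) = (a⁻¹ * a⁻¹ * a⁻¹) * x := by group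
      rw [h7, pow_two] at h5
      exact (mul_right_cancel h5).symm
    rw [h3, hainv]
    have h8 : a ^ 3 * a ^ 3 * a ^ 3 = a ^ 4 * a ^ 4 * a := by
      simp only [← pow_add, ← pow_succ]
    rw [h8, ha4]; simp
  · have h2 : a⁻¹ * x = (a * x)⁻¹ := h
    have h3 : (a * x)⁻¹ = x⁻¹ * a⁻¹ := by group
    rw [h3, ← (hcom.inv_inv).eq] at h2
    have h5 : x = x⁻¹ := mul_left_cancel h2
    rw [pow_two]
    nth_rewrite 1 [h5]
    simp

private lemma dedekind_subtype (hn : ∀ H : Subgroup G, H.Normal) (C : Subgroup G)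
    (H : Subgroup C) : H.Normal := by
  refine ⟨fun n hnH g => ?_⟩
  have h := (hn (H.map C.subtype)).conj_mem n ⟨n, hnH, rfl⟩ g
  obtain ⟨n', hn', he⟩ := h
  have : n' = g * n * g⁻¹ := Subtype.ext (by simpa using he)
  rwa [← this]

private lemma two_power_sq (C : Subgroup G) (hall : ∀ x ∈ C, x ^ 4 = 1 → x ^ 2 = 1) {x : G}
    (hx : x ∈ C) (s : ℕ) (h : x ^ 2 ^ s = 1) : x ^ 2 = 1 := by
  induction s with
  | zero =>
    simp at h
    rw [h, one_pow]
  | succ s ih =>
    rcases s with _ | s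
    · simpa using h
    · apply ih
      have h1 : (x ^ 2 ^ s) ^ 4 = 1 := by
        rw [← pow_mul, ← h]
        congr 1
        ring
      have h2 := hall _ (C.pow_mem hx _) h1
      rw [← pow_mul] at h2
      rw [pow_succ 2 s]
      exact h2

variable [Finite G]

theorem final_assembly (hn : ∀ H : Subgroup G, H.Normal) {a b : G} (ha4 : a ^ 4 = 1)
    (hab2 : a ^ 2 = b ^ 2) (ha2 : a ^ 2 ≠ 1) (hrel : b * a * b⁻¹ = a⁻¹) :
    ∃ Q E A : Subgroup G, Nonempty (Q ≃* QuaternionGroup 2) ∧ Cfsg.IsElementaryAbelian 2 E ∧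
      IsMulCommutative A ∧ Odd (Nat.card A) ∧ E ⊓ A = ⊥ ∧ Q ⊓ (E ⊔ A) = ⊥ ∧ Q ⊔ (E ⊔ A) = ⊤ := by
  classical
  have hb4 : b ^ 4 = 1 := by
    have : b ^ 4 = (b ^ 2) ^ 2 := by rw [← pow_mul]
    rw [this, ← hab2, ← pow_mul]; exact ha4
  have hb2 : b ^ 2 ≠ 1 := hab2 ▸ ha2
  have hab : a * b ≠ b * a := by
    intro h
    apply ha2
    have h1 : b * a * b⁻¹ = a := by rw [← h]; group
    rw [h1] at hrel
    rw [pow_two]
    nth_rewrite 1 [hrel]
    simp
  have hainv : a⁻¹ = a ^ 3 := by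
    rw [inv_eq_iff_mul_eq_one, ← pow_succ']
    exact ha4
  have hbinv : b⁻¹ = b ^ 3 := by
    rw [inv_eq_iff_mul_eq_one, ← pow_succ']
    exact hb4
  have hrel2 : a * b * a⁻¹ = b⁻¹ := by
    have h1 : b * a⁻¹ * b⁻¹ = a := by
      have : b * a⁻¹ * b⁻¹ = (b * a * b⁻¹)⁻¹ := by group
      rw [this, hrel, inv_inv]
    have h2 : a * b * a⁻¹ = a * (b * a⁻¹ * b⁻¹) * b := by group
    rw [h2, h1, ← pow_two, hab2, hbinv, ← pow_succ]
  -- the centralizer
  let C : Subgroup G := Subgroup.centralizer ({a, b} : Set G)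
  have hCmem : ∀ x, x ∈ C ↔ a * x = x * a ∧ b * x = x * b := by
    intro x
    rw [Subgroup.mem_centralizer_iff]
    simp
  have hnofour : ∀ x ∈ C, x ^ 4 = 1 → x ^ 2 = 1 := by
    intro x hx hx4
    obtain ⟨h1, h2⟩ := (hCmem x).1 hx
    exact no_four hn ha4 ha2 hrel hab h1 h2 hx4
  have hCcomm : IsMulCommutative C := by
    by_contra hcon
    obtain ⟨a', b', h1, h2, h3, h4⟩ := exists_quat (dedekind_subtype hn C) hcon
    apply h3
    apply Subtype.ext
    apply hnofour _ a'.2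
    have := congrArg Subtype.val h1
    simpa using this
  have hCc : ∀ x ∈ C, ∀ y ∈ C, x * y = y * x := by
    intro x hx y hy
    have := hCcomm.is_comm.comm (⟨x, hx⟩ : C) ⟨y, hy⟩
    exact congrArg Subtype.val this
  have hac : a ^ 2 ∈ C := by
    rw [hCmem]
    constructor
    · rw [← pow_succ', pow_succ]
    · have h1 : a ^ 2 = b ^ 2 := hab2
      rw [h1, ← pow_succ', pow_succ]
  have hac' : a ^ 2 ∈ C := hac
  -- the factorisation through the quaternion subgroup
  let Q : Subgroup G := zpowers a ⊔ zpowers b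
  have haQ : a ∈ Q := (le_sup_left : zpowers a ≤ Q) (mem_zpowers a)
  have hbQ : b ∈ Q := (le_sup_right : zpowers b ≤ Q) (mem_zpowers b)
  have hsplit : ∀ g : G, ∃ q ∈ Q, ∃ w ∈ C, g = q * w := by
    intro g
    have key : ∀ q : G, q ∈ Q → g * a * g⁻¹ = q * a * q⁻¹ → g * b * g⁻¹ = q * b * q⁻¹ →
        ∃ q ∈ Q, ∃ w ∈ C, g = q * w := by
      intro q hq h1 h2
      refine ⟨q, hq, q⁻¹ * g, ?_, by group⟩
      rw [hCmem]
      constructor
      · have h3 : q⁻¹ * (g * a * g⁻¹) * q = a := by rw [h1]; group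
        calc a * (q⁻¹ * g) = (q⁻¹ * (g * a * g⁻¹) * q) * (q⁻¹ * g) := by rw [h3]
          _ = q⁻¹ * g * a := by group
      · have h3 : q⁻¹ * (g * b * g⁻¹) * q = b := by rw [h2]; group
        calc b * (q⁻¹ * g) = (q⁻¹ * (g * b * g⁻¹) * q) * (q⁻¹ * g) := by rw [h3]
          _ = q⁻¹ * g * b := by group
    rcases conj_four hn ha4 ha2 g with h1 | h1 <;> rcases conj_four hn hb4 hb2 g with h2 | h2
    · exact key 1 Q.one_mem (by rw [h1]; group) (by rw [h2]; group)
    · exact key a haQ (by rw [h1]; group) (by rw [h2, hrel2])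
    · exact key b hbQ (by rw [h1, hrel]) (by rw [h2]; group)
    · refine key (a * b) (Q.mul_mem haQ hbQ) ?_ ?_
      · rw [h1]
        have : a * b * a * (a * b)⁻¹ = a * (b * a * b⁻¹) * a⁻¹ := by group
        rw [this, hrel]; group
      · rw [h2]
        have : a * b * b * (a * b)⁻¹ = a * b * a⁻¹ := by group
        rw [this, hrel2]
  -- normal form in Q
  have hQform : ∀ z ∈ Q, ∃ i : Fin 4, ∃ ε : Fin 2, z = a ^ (i : ℕ) * b ^ (ε : ℕ) := by
    intro z hz
    haveI := hn (zpowers b)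
    obtain ⟨u, hu, v, hv, rfl⟩ := Subgroup.mem_sup_of_normal_right.1 hz
    have hu' : ∃ i : ℕ, u = a ^ i := by
      rcases mem_zpowers_four ha4 hu with h | h | h | h
      · exact ⟨0, by simp [h]⟩
      · exact ⟨1, by simp [h]⟩
      · exact ⟨2, h⟩
      · exact ⟨3, by rw [h, hainv]⟩
    have hv' : ∃ j : ℕ, ∃ ε : Fin 2, v = a ^ j * b ^ (ε : ℕ) := by
      rcases mem_zpowers_four hb4 hv with h | h | h | h
      · exact ⟨0, 0, by simp [h]⟩
      · exact ⟨0, 1, by simp [h]⟩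
      · exact ⟨2, 0, by simp [h, hab2]⟩
      · refine ⟨2, 1, ?_⟩
        rw [h, hbinv, hab2]
        simp [pow_succ]
    obtain ⟨i, rfl⟩ := hu'
    obtain ⟨j, ε, rfl⟩ := hv'
    refine ⟨⟨(i + j) % 4, Nat.mod_lt _ (by norm_num)⟩, ε, ?_⟩
    simp only
    rw [← pow_eq_pow_mod _ ha4, pow_add, mul_assoc]
  have hQC : ∀ z ∈ Q, z ∈ C → z = 1 ∨ z = a ^ 2 := by
    intro z hz hzC
    obtain ⟨i, ε, rfl⟩ := hQform z hz
    obtain ⟨h1, h2⟩ := (hCmem _).1 hzC
    have hε : (ε : ℕ) = 0 ∨ (ε : ℕ) = 1 := by omega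
    have hi : (i : ℕ) = 0 ∨ (i : ℕ) = 1 ∨ (i : ℕ) = 2 ∨ (i : ℕ) = 3 := by omega
    rcases hε with hε | hε
    · rw [hε, pow_zero, mul_one] at h1 h2 ⊢
      rcases hi with hi | hi | hi | hi
      · left; rw [hi, pow_zero]
      · exfalso
        rw [hi, pow_one] at h2
        exact hab h2.symm
      · right; rw [hi]
      · exfalso
        rw [hi, ← hainv] at h2
        apply hab
        calc a * b = a * (b * a⁻¹) * a := by group
          _ = a * (a⁻¹ * b) * a := by rw [h2]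
          _ = b * a := by group
    · exfalso
      rw [hε, pow_one] at h1
      apply hab
      have h3 : a * a ^ (i : ℕ) = a ^ (i : ℕ) * a := ((Commute.refl a).pow_right _).eq
      have h4 : a ^ (i : ℕ) * (a * b) = a ^ (i : ℕ) * (b * a) := by
        rw [← mul_assoc, ← h3, mul_assoc, h1, mul_assoc]
      exact mul_left_cancel h4
  -- card of Q
  have hordera : orderOf a = 4 := by
    haveI : Fact (Nat.Prime 2) := ⟨Nat.prime_two⟩
    have := orderOf_eq_prime_pow (x := a) (p := 2) (n := 1) (by simpa using ha2)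
      (by simpa using ha4)
    simpa using this
  have hbnot : b ∉ zpowers a := by
    rintro ⟨z, hz⟩
    apply hab
    have h1 : a ^ z = b := hz
    rw [← h1]
    exact ((Commute.refl a).zpow_right z).eq
  have hcardQ : Nat.card Q = 8 := by
    have h1 : Nat.card Q ≤ 8 := by
      have hmem : ∀ p : Fin 4 × Fin 2, a ^ (p.1 : ℕ) * b ^ (p.2 : ℕ) ∈ Q := fun p =>
        Q.mul_mem (Q.pow_mem haQ _) (Q.pow_mem hbQ _)
      have hsurj : Function.Surjective
          (fun p : Fin 4 × Fin 2 => (⟨a ^ (p.1 : ℕ) * b ^ (p.2 : ℕ), hmem p⟩ : Q)) := by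
        rintro ⟨z, hz⟩
        obtain ⟨i, ε, rfl⟩ := hQform z hz
        exact ⟨(i, ε), rfl⟩
      have := Nat.card_le_card_of_surjective _ hsurj
      simpa [Nat.card_prod] using this
    have h2 : 4 ∣ Nat.card Q := by
      have := Subgroup.card_dvd_of_le (le_sup_left : zpowers a ≤ Q)
      rwa [Nat.card_zpowers, hordera] at this
    have h3 : Nat.card Q ≠ 4 := by
      intro h4
      apply hbnot
      have h5 : zpowers a = Q := Subgroup.eq_of_le_of_card_ge le_sup_left (by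
        rw [Nat.card_zpowers, hordera, h4])
      rw [h5]
      exact hbQ
    have h4 : 0 < Nat.card Q := Nat.card_pos
    omega
  have hQiso : Nonempty (Q ≃* QuaternionGroup 2) := by
    refine Cfsg.Agent.H19.quaternion_iso hcardQ (α := ⟨a, haQ⟩) (β := ⟨b, hbQ⟩) ?_ ?_ ?_ ?_
    · rw [Subgroup.orderOf_mk]; exact hordera
    · apply Subtype.ext; simpa using hab2.symm
    · apply Subtype.ext; simpa using hrel
    · rintro ⟨z, hz⟩
      apply hbnot
      refine ⟨z, ?_⟩
      have := congrArg Subtype.val hz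
      simpa using this
  -- the odd part and the elementary part of C
  obtain ⟨s, r, hr, hcard⟩ := Nat.exists_eq_two_pow_mul_odd (Nat.card_pos.ne' : Nat.card C ≠ 0)
  let A : Subgroup G :=
    { carrier := {x | x ∈ C ∧ x ^ r = 1}
      mul_mem' := by
        rintro x y ⟨hx, hx1⟩ ⟨hy, hy1⟩
        refine ⟨C.mul_mem hx hy, ?_⟩
        have : Commute x y := hCc x hx y hy
        rw [this.mul_pow, hx1, hy1, one_mul]
      one_mem' := ⟨C.one_mem, one_pow _⟩
      inv_mem' := by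
        rintro x ⟨hx, hx1⟩
        exact ⟨C.inv_mem hx, by rw [inv_pow, hx1, inv_one]⟩ }
  let E0 : Subgroup G :=
    { carrier := {x | x ∈ C ∧ x ^ 2 = 1}
      mul_mem' := by
        rintro x y ⟨hx, hx1⟩ ⟨hy, hy1⟩
        refine ⟨C.mul_mem hx hy, ?_⟩
        have : Commute x y := hCc x hx y hy
        rw [this.mul_pow, hx1, hy1, one_mul]
      one_mem' := ⟨C.one_mem, one_pow _⟩
      inv_mem' := by
        rintro x ⟨hx, hx1⟩
        exact ⟨C.inv_mem hx, by rw [inv_pow, hx1, inv_one]⟩ }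
  have hAC : A ≤ C := fun x hx => hx.1
  have hE0C : E0 ≤ C := fun x hx => hx.1
  have hdecomp : ∀ x ∈ C, ∃ u ∈ A, ∃ v ∈ E0, x = u * v := by
    intro x hx
    have hxcard : x ^ Nat.card C = 1 := by
      have h1 : (⟨x, hx⟩ : C) ^ Nat.card C = 1 := pow_card_eq_one'
      exact congrArg Subtype.val h1
    have hcop : Nat.Coprime (2 ^ s) r := Nat.Coprime.pow_left s (Nat.coprime_two_left.2 hr)
    have hb := Nat.gcd_eq_gcd_ab (2 ^ s) r
    rw [hcop.gcd_eq_one] at hb
    set g₁ := Nat.gcdA (2 ^ s) r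
    set g₂ := Nat.gcdB (2 ^ s) r
    have hcz : ((Nat.card C : ℕ) : ℤ) = ((2 ^ s : ℕ) : ℤ) * (r : ℤ) := by
      rw [hcard]; push_cast; ring
    have hxz : x ^ ((Nat.card C : ℕ) : ℤ) = 1 := by rw [zpow_natCast, hxcard]
    refine ⟨x ^ (((2 ^ s : ℕ) : ℤ) * g₁), ⟨C.zpow_mem hx _, ?_⟩, x ^ ((r : ℤ) * g₂), ⟨C.zpow_mem hx _, ?_⟩, ?_⟩
    · rw [← zpow_natCast, ← zpow_mul]
      have : ((2 ^ s : ℕ) : ℤ) * g₁ * (r : ℤ) = ((Nat.card C : ℕ) : ℤ) * g₁ := by rw [hcz]; ring
      rw [this, zpow_mul, hxz, one_zpow]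
    · apply two_power_sq C hnofour (C.zpow_mem hx _) s
      rw [← zpow_natCast, ← zpow_mul]
      have : (r : ℤ) * g₂ * ((2 ^ s : ℕ) : ℤ) = ((Nat.card C : ℕ) : ℤ) * g₂ := by rw [hcz]; ring
      rw [this, zpow_mul, hxz, one_zpow]
    · rw [← zpow_add]
      have h5 : ((2 ^ s : ℕ) : ℤ) * g₁ + (r : ℤ) * g₂ = 1 := by
        have h6 : ((1 : ℕ) : ℤ) = ((2 ^ s : ℕ) : ℤ) * g₁ + (r : ℤ) * g₂ := hb
        simpa using h6.symm
      rw [h5, zpow_one]
  have hA2 : ∀ x ∈ A, x ^ 2 = 1 → x = 1 := by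
    intro x hx hx2
    obtain ⟨t, ht⟩ := hr
    have h1 := hx.2
    rw [ht, pow_succ, pow_mul, hx2, one_pow, one_mul] at h1
    exact h1
  -- a maximal subgroup of E0 missing the central involution
  have hexE : ∃ E : Subgroup G, Maximal (fun X : Subgroup G => X ≤ E0 ∧ a ^ 2 ∉ X) E := by
    have hfin : ({X : Subgroup G | X ≤ E0 ∧ a ^ 2 ∉ X}).Finite := Set.toFinite _
    have hbot : (⊥ : Subgroup G) ∈ {X : Subgroup G | X ≤ E0 ∧ a ^ 2 ∉ X} :=
      ⟨bot_le, by simpa using ha2⟩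
    obtain ⟨E, -, hE⟩ := hfin.exists_le_maximal hbot
    exact ⟨E, hE⟩
  obtain ⟨E, hE⟩ := hexE
  have hEE0 : E ≤ E0 := hE.prop.1
  have hcE : a ^ 2 ∉ E := hE.prop.2
  have hcE0 : a ^ 2 ∈ E0 := ⟨hac, by rw [← pow_mul]; exact ha4⟩
  have hE0form : ∀ x ∈ E0, x ∈ E ∨ ∃ e ∈ E, x = e * a ^ 2 := by
    intro x hx
    by_cases hxE : x ∈ E
    · exact Or.inl hxE
    right
    have hle : zpowers x ≤ E0 := by
      rw [Subgroup.zpowers_le]
      exact hx
    have hcX : a ^ 2 ∈ E ⊔ zpowers x := by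
      by_contra hcon
      have h1 : E ⊔ zpowers x ≤ E := hE.le_of_ge ⟨sup_le hEE0 hle, hcon⟩ le_sup_left
      exact hxE (h1 ((le_sup_right : zpowers x ≤ _) (mem_zpowers x)))
    haveI := hn (zpowers x)
    obtain ⟨e, he, w, hw, hew⟩ := Subgroup.mem_sup_of_normal_right.1 hcX
    rcases mem_zpowers_four (x := x) (by
      have : x ^ 4 = (x ^ 2) ^ 2 := by rw [← pow_mul]
      rw [this, hx.2, one_pow]) hw with h | h | h | h
    · exfalso
      rw [h, mul_one] at hew
      exact hcE (hew ▸ he)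
    · refine ⟨e⁻¹, E.inv_mem he, ?_⟩
      rw [← hew, h]; group
    · exfalso
      rw [h, hx.2, mul_one] at hew
      exact hcE (hew ▸ he)
    · refine ⟨e⁻¹, E.inv_mem he, ?_⟩
      have hxinv : x⁻¹ = x := by
        rw [inv_eq_iff_mul_eq_one, ← pow_two]
        exact hx.2
      rw [h, hxinv] at hew
      rw [← hew]; group
  haveI hAn := hn A
  haveI hEn := hn E
  refine ⟨Q, E, A, hQiso, ⟨⟨⟨fun x y => ?_⟩⟩, fun x hx => (hEE0 hx).2⟩, ⟨⟨fun x y => ?_⟩⟩, ?_, ?_, ?_, ?_⟩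
  · exact Subtype.ext (hCc _ (hE0C (hEE0 x.2)) _ (hE0C (hEE0 y.2)))
  · exact Subtype.ext (hCc _ (hAC x.2) _ (hAC y.2))
  · -- odd order
    rw [← Nat.not_even_iff_odd, even_iff_two_dvd]
    intro h2
    haveI : Fact (Nat.Prime 2) := ⟨Nat.prime_two⟩
    obtain ⟨x, hx⟩ := exists_prime_orderOf_dvd_card' 2 h2
    have h3 : ((x : G)) ^ 2 = 1 := by
      have := pow_orderOf_eq_one x
      rw [hx] at this
      exact congrArg Subtype.val this
    have h4 := hA2 _ x.2 h3
    have h5 : x = 1 := Subtype.ext h4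
    rw [h5, orderOf_one] at hx
    omega
  · -- E ⊓ A
    rw [eq_bot_iff]
    intro x hx
    exact hA2 x hx.2 (hEE0 hx.1).2
  · -- Q ⊓ (E ⊔ A)
    rw [eq_bot_iff]
    rintro z ⟨hzQ, hzEA⟩
    have hzC : z ∈ C := (sup_le (hEE0.trans hE0C) hAC) hzEA
    rcases hQC z hzQ hzC with h | h
    · exact h
    · exfalso
      obtain ⟨e, he, u, hu, heu⟩ := Subgroup.mem_sup_of_normal_right.1 hzEA
      have h1 : z ^ 2 = 1 := by rw [h, ← pow_mul]; exact ha4
      have h2 : Commute e u := hCc e (hE0C (hEE0 he)) u (hAC hu)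
      rw [← heu, h2.mul_pow, (hEE0 he).2, one_mul] at h1
      have h3 := hA2 u hu h1
      rw [h3, mul_one] at heu
      rw [heu, h] at he
      exact hcE he
  · -- Q ⊔ (E ⊔ A)
    rw [eq_top_iff]
    intro g _
    obtain ⟨q, hq, w, hw, rfl⟩ := hsplit g
    obtain ⟨u, hu, v, hv, rfl⟩ := hdecomp w hw
    have hqS : ∀ t ∈ Q, t ∈ Q ⊔ (E ⊔ A) := fun t ht => (le_sup_left : Q ≤ _) ht
    have hES : ∀ t ∈ E, t ∈ Q ⊔ (E ⊔ A) := fun t ht =>
      ((le_sup_left : E ≤ E ⊔ A).trans (le_sup_right : E ⊔ A ≤ Q ⊔ (E ⊔ A))) ht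
    have hAS : ∀ t ∈ A, t ∈ Q ⊔ (E ⊔ A) := fun t ht =>
      ((le_sup_right : A ≤ E ⊔ A).trans (le_sup_right : E ⊔ A ≤ Q ⊔ (E ⊔ A))) ht
    have hcQ : a ^ 2 ∈ Q := Q.pow_mem haQ 2
    refine Subgroup.mul_mem _ (hqS q hq) (Subgroup.mul_mem _ (hAS u hu) ?_)
    rcases hE0form v hv with h | ⟨e, he, rfl⟩
    · exact hES v h
    · exact Subgroup.mul_mem _ (hES e he) (hqS _ hcQ)

end Step2

/-- A finite non-abelian group in which every subgroup is normal is the internal direct product of a subgroup isomorphic to the quaternion group of order `8`, an elementary abelian `2`-subgroup and an abelian subgroup of odd order. -/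
theorem result {G : Type*} [Group G] [Finite G] (hna : ¬ IsMulCommutative G) (hn : ∀ H : Subgroup G, H.Normal) : ∃ Q E A : Subgroup G, Nonempty (Q ≃* QuaternionGroup 2) ∧ Cfsg.IsElementaryAbelian 2 E ∧ IsMulCommutative A ∧ Odd (Nat.card A) ∧ E ⊓ A = ⊥ ∧ Q ⊓ (E ⊔ A) = ⊥ ∧ Q ⊔ (E ⊔ A) = ⊤ := by
  obtain ⟨a, b, h1, h2, h3, h4⟩ := exists_quat hn hna
  exact final_assembly hn h1 h2 h3 h4

end Cfsg.Agent.S4211
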