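import Cfsg.Statements.S4214
import Cfsg.Agent.Lib.H01.Hall
import Cfsg.Agent.Lib.H01.Solv
import Cfsg.Agent.Lib.H19.SelfNorm3
import Cfsg.Agent.Lib.H20.Pron
import Mathlib

set_option autoImplicit false
set_option linter.unusedVariables false
set_option linter.style.haveILetI false
set_option linter.unusedSectionVars false
open Cfsg

namespace Cfsg.Agent.S4214

open Subgroup Cfsg.Agent.H20.Pron
open scoped Pointwise

universe u

/-- Divides the order of a chief factor. -/
def Chiefy (G : Type u) [Group G] (x : ℕ) : Prop :=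
  ∃ K L : Subgroup G, K.Normal ∧ L.Normal ∧ K < L ∧
    (∀ M : Subgroup G, M.Normal → K ≤ M → M ≤ L → M = K ∨ M = L) ∧ x ∣ K.relIndex L

/-- The three conditions on a factor. -/
def Good (G : Type u) [Group G] (m x : ℕ) : Prop :=
  (∃ q e : ℕ, q.Prime ∧ x = q ^ e) ∧ Chiefy G x ∧ ∃ q : ℕ, q.Prime ∧ q ∣ m ∧ x ≡ 1 [MOD q]

/-- A product of good factors. -/
def IsProd (G : Type u) [Group G] (m N : ℕ) : Prop :=
  ∃ l : List ℕ, l.prod = N ∧ ∀ x ∈ l, Good G m x

theorem IsProd.one {G : Type u} [Group G] {m : ℕ} : IsProd G m 1 := ⟨[], rfl, by simp⟩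

theorem IsProd.mul {G : Type u} [Group G] {m a b : ℕ} (ha : IsProd G m a) (hb : IsProd G m b) :
    IsProd G m (a * b) := by
  obtain ⟨l₁, h1, h2⟩ := ha
  obtain ⟨l₂, h3, h4⟩ := hb
  refine ⟨l₁ ++ l₂, by rw [List.prod_append, h1, h3], ?_⟩
  intro x hx
  rcases List.mem_append.mp hx with h | h
  · exact h2 x h
  · exact h4 x h

theorem IsProd.of_good {G : Type u} [Group G] {m x : ℕ} (h : Good G m x) : IsProd G m x :=
  ⟨[x], by simp, by simpa using h⟩

theorem Chiefy.lift {G : Type u} [Group G] (R : Subgroup G) [R.Normal] {x : ℕ}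
    (h : Chiefy (G ⧸ R) x) : Chiefy G x := by
  obtain ⟨K, L, hK, hL, hlt, hmin, hd⟩ := h
  have hs := QuotientGroup.mk'_surjective R
  set π := QuotientGroup.mk' R with hπ
  refine ⟨K.comap π, L.comap π, hK.comap π, hL.comap π,
    (Subgroup.comap_lt_comap_of_surjective hs).mpr hlt, ?_, ?_⟩
  · intro M hM h1 h2
    have hker : π.ker ≤ M := (Subgroup.ker_le_comap π K).trans h1
    have h3 := hmin (M.map π) (hM.map π hs) (by
      rw [← Subgroup.map_comap_eq_self_of_surjective hs K]
      exact Subgroup.map_mono h1) (by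
      rw [Subgroup.map_le_iff_le_comap]
      exact h2)
    rcases h3 with h3 | h3
    · left
      rw [← h3, Subgroup.comap_map_eq_self hker]
    · right
      rw [← h3, Subgroup.comap_map_eq_self hker]
  · rw [Subgroup.relIndex_comap, Subgroup.map_comap_eq_self_of_surjective hs]
    exact hd

theorem IsProd.lift {G : Type u} [Group G] (R : Subgroup G) [R.Normal] {m m' N : ℕ}
    (hmm : m' ∣ m) (h : IsProd (G ⧸ R) m' N) : IsProd G m N := by
  obtain ⟨l, h1, h2⟩ := h
  refine ⟨l, h1, fun x hx => ?_⟩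
  obtain ⟨h3, h4, q, hq, hqd, hmod⟩ := h2 x hx
  exact ⟨h3, Chiefy.lift R h4, q, hq, hqd.trans hmm, hmod⟩

/-- The centralizer in `L`. -/
abbrev CL {G : Type u} [Group G] (L X : Subgroup G) : Subgroup G :=
  L ⊓ Subgroup.centralizer (X : Set G)

theorem decomp {G : Type u} [Group G] [Finite G] [Group.IsSolvable G] (L : Subgroup G) [hLn : L.Normal]
    {r : ℕ} (hr : r.Prime) (hLr : IsPGroup r L) (hch : ∀ x, x ∣ Nat.card L → Chiefy G x) (m : ℕ) :
    ∀ (s : ℕ) (X : Subgroup G), Nat.card X = s → ¬ r ∣ s → (∀ q : ℕ, q.Prime → q ∣ s → q ∣ m) →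
      IsProd G m ((CL L X).relIndex L) := by
  haveI : Fact r.Prime := ⟨hr⟩
  intro s
  induction s using Nat.strong_induction_on with
  | _ s ih =>
  intro X hXs hrs hm
  by_cases hX : X = ⊥
  · have h1 : (CL L X).relIndex L = 1 := by
      rw [Subgroup.relIndex_eq_one]
      intro l hl
      refine ⟨hl, Subgroup.mem_centralizer_iff.mpr ?_⟩
      intro h hh
      rw [hX] at hh
      have : h = 1 := hh
      rw [this]; simp
    rw [h1]
    exact IsProd.one
  have hnt : Nontrivial X := (Subgroup.nontrivial_iff_ne_bot X).mpr hX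
  haveI : Group.IsSolvable X := inferInstance
  obtain ⟨T, q, hq, hTc, hTn, hTi⟩ := H19.exists_normal_prime_index (G := X)
  haveI : Fact q.Prime := ⟨hq⟩
  set T' : Subgroup G := T.map X.subtype with hT'
  have hT'X : T' ≤ X := Subgroup.map_subtype_le T
  have hcT : Nat.card T' = Nat.card T := Subgroup.card_map_of_injective X.subtype_injective
  have hidx := T.card_mul_index
  rw [hTi, hXs] at hidx
  have hspos : 0 < s := by rw [← hXs]; exact Nat.card_pos
  have hlt : Nat.card T < s := by
    rw [← hidx]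
    have h2 : 0 < Nat.card T := Nat.card_pos
    nlinarith [hq.two_le]
  have hdT : Nat.card T ∣ s := ⟨q, hidx.symm⟩
  have hqs : q ∣ s := ⟨Nat.card T, by rw [← hidx]; ring⟩
  have hih := ih (Nat.card T) hlt T' hcT (fun h => hrs (h.trans hdT))
    (fun q' hq' hd => hm q' hq' (hd.trans hdT))
  have hCC : CL L X ≤ CL L T' :=
    inf_le_inf_left L (Subgroup.centralizer_le hT'X)
  have hCL : CL L T' ≤ L := inf_le_left
  have hrel := Subgroup.relIndex_mul_relIndex (CL L X) (CL L T') L hCC hCL
  rw [← hrel]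
  refine IsProd.mul (IsProd.of_good ?_) hih
  obtain ⟨a, ha⟩ := IsPGroup.iff_card.mp hLr
  have hdL : (CL L X).relIndex (CL L T') ∣ Nat.card L :=
    (Subgroup.relIndex_dvd_card _ _).trans (Subgroup.card_dvd_of_le hCL)
  refine ⟨?_, hch _ hdL, q, hq, hm q hq hqs, ?_⟩
  · rw [ha] at hdL
    obtain ⟨e, -, he⟩ := (Nat.dvd_prime_pow hr).mp hdL
    exact ⟨r, e, hr, he⟩
  -- the congruence
  obtain ⟨Q₀⟩ : Nonempty (Sylow q X) := inferInstance
  have hQT : ¬ (Q₀ : Subgroup X) ≤ T := by
    intro h
    have h5 := Subgroup.index_dvd_of_le h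
    rw [hTi] at h5
    exact Q₀.not_dvd_index h5
  have hsup : T ⊔ (Q₀ : Subgroup X) = ⊤ := by
    apply hTc.2
    exact lt_of_le_of_ne le_sup_left (fun h => hQT (by rw [h]; exact le_sup_right))
  set W := CL L T' with hW
  have hact : ∀ (z : X) (w : G), w ∈ W → (z : G) * w * (z : G)⁻¹ ∈ W := by
    intro z w hw
    refine ⟨hLn.conj_mem w hw.1 z, Subgroup.mem_centralizer_iff.mpr ?_⟩
    rintro _ ⟨t, ht, rfl⟩
    have h1 : z⁻¹ * t * z ∈ T := by
      have := hTn.conj_mem t ht z⁻¹
      simpa using this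
    have h2 := (Subgroup.mem_centralizer_iff.mp hw.2) ((z⁻¹ * t * z : X) : G)
      ⟨_, h1, rfl⟩
    have h3 : (z : G)⁻¹ * (t : G) * z * w = w * ((z : G)⁻¹ * t * z) := by
      simpa using h2
    show (t : G) * _ = _ * (t : G)
    calc (t : G) * ((z : G) * w * (z : G)⁻¹) = z * ((z : G)⁻¹ * t * z * w) * (z : G)⁻¹ := by group
      _ = z * (w * ((z : G)⁻¹ * t * z)) * (z : G)⁻¹ := by rw [h3]
      _ = _ := by group
  letI act : MulAction (Q₀ : Subgroup X) W :=
    { smul := fun z w => ⟨((z : X) : G) * w * ((z : X) : G)⁻¹, hact z w w.2⟩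
      one_smul := fun w => Subtype.ext (by
        show (((1 : (Q₀ : Subgroup X)) : X) : G) * (w : G) * (((1 : (Q₀ : Subgroup X)) : X) : G)⁻¹ = w
        simp)
      mul_smul := fun a b w => Subtype.ext (by
        show (((a * b : (Q₀ : Subgroup X)) : X) : G) * (w : G) * (((a * b : (Q₀ : Subgroup X)) : X) : G)⁻¹ =
          ((a : X) : G) * (((b : X) : G) * w * ((b : X) : G)⁻¹) * ((a : X) : G)⁻¹
        simp [mul_assoc]) }
  have hmod := IsPGroup.card_modEq_card_fixedPoints (p := q) Q₀.isPGroup' (α := W)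
  have hfix : Nat.card (MulAction.fixedPoints (Q₀ : Subgroup X) W) = Nat.card (CL L X) := by
    apply Nat.card_congr
    refine ⟨fun w => ⟨w.1.1, w.1.2.1, ?_⟩, fun w => ⟨⟨w.1, hCC w.2⟩, ?_⟩, fun _ => rfl, fun _ => rfl⟩
    · have hw := w.2
      refine Subgroup.mem_centralizer_iff.mpr ?_
      intro x hx
      set C : Subgroup X := (Subgroup.centralizer ({(w.1.1 : G)} : Set G)).comap X.subtype with hC
      have hC1 : T ≤ C := by
        intro t ht
        have := (Subgroup.mem_centralizer_iff.mp w.1.2.2) (t : G) ⟨t, ht, rfl⟩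
        rw [hC, Subgroup.mem_comap, Subgroup.mem_centralizer_singleton_iff]
        exact this
      have hC2 : (Q₀ : Subgroup X) ≤ C := by
        intro z hz
        have h1 : (⟨z, hz⟩ : (Q₀ : Subgroup X)) • w.1 = w.1 := (MulAction.mem_fixedPoints.mp hw) _
        have h2 : (z : G) * (w.1.1 : G) * (z : G)⁻¹ = w.1.1 := congrArg Subtype.val h1
        rw [hC, Subgroup.mem_comap, Subgroup.mem_centralizer_singleton_iff]
        show (z : G) * _ = _ * (z : G)
        calc (z : G) * (w.1.1 : G) = (z : G) * (w.1.1 : G) * (z : G)⁻¹ * z := by group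
          _ = _ := by rw [h2]
      have hCtop : C = ⊤ := by
        rw [eq_top_iff, ← hsup]
        exact sup_le hC1 hC2
      have h3 : (⟨x, hx⟩ : X) ∈ C := hCtop ▸ Subgroup.mem_top _
      rw [hC, Subgroup.mem_comap, Subgroup.mem_centralizer_singleton_iff] at h3
      exact h3
    · rw [MulAction.mem_fixedPoints]
      intro z
      apply Subtype.ext
      show ((z : X) : G) * (w : G) * ((z : X) : G)⁻¹ = w
      have h1 := (Subgroup.mem_centralizer_iff.mp w.2.2) ((z : X) : G) (z : X).2
      rw [h1]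
      group
  rw [hfix] at hmod
  have hcard : Nat.card (CL L X) * (CL L X).relIndex W = Nat.card W := by
    have h1 := ((CL L X).subgroupOf W).card_mul_index
    rwa [H01.card_subgroupOf_of_le hCC] at h1
  rw [← hcard] at hmod
  have hqr : q ≠ r := fun h => hrs (h ▸ hqs)
  have hcop : Nat.gcd q (Nat.card (CL L X)) = 1 := by
    have h1 : Nat.card (CL L X) ∣ r ^ a := by
      rw [← ha]
      exact Subgroup.card_dvd_of_le inf_le_left
    have h2 : Nat.Coprime q (r ^ a) := Nat.Coprime.pow_right _ ((Nat.coprime_primes hq hr).mpr hqr)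
    exact Nat.Coprime.coprime_dvd_right h1 h2
  have h4 : Nat.card (CL L X) * (CL L X).relIndex W ≡ Nat.card (CL L X) * 1 [MOD q] := by
    rw [mul_one]; exact hmod
  exact Nat.ModEq.cancel_left_of_coprime hcop h4

theorem card_hall_eq_index {G : Type u} [Group G] [Finite G] [Group.IsSolvable G] (m n : ℕ)
    (hG : Nat.card G = m * n) (hmn : m.Coprime n) (H₀ : Subgroup G) (hH₀ : Nat.card H₀ = m) :
    Nat.card {H : Subgroup G // Nat.card H = m} = (normalizer (H₀ : Set G)).index := by
  letI act : MulAction G (Subgroup G) := MulAction.compHom (Subgroup G) (MulAut.conj : G →* MulAut G)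
  have hsm : ∀ (g : G) (H : Subgroup G), g • H = cj g H := fun _ _ => rfl
  have h1 := MulAction.index_stabilizer G H₀
  have h2 : MulAction.stabilizer G H₀ = normalizer (H₀ : Set G) := by
    ext g
    rw [MulAction.mem_stabilizer_iff, hsm, mem_normalizer_iff_cj]
  have h3 : MulAction.orbit G H₀ = {H : Subgroup G | Nat.card H = m} := by
    ext H
    constructor
    · rintro ⟨g, rfl⟩
      show Nat.card (g • H₀ : Subgroup G) = m
      rw [hsm, ← hH₀]
      exact Subgroup.card_map_of_injective (MulAut.conj g).injective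
    · intro hH
      obtain ⟨g, hg⟩ := H01.hall_conj _ G rfl m n hG hmn H₀ H hH₀ hH
      exact ⟨g, hg⟩
  rw [h2, h3] at h1
  rw [h1]
  rfl

theorem main : ∀ (N : ℕ) (G : Type u) [Group G] [Finite G] [Group.IsSolvable G], Nat.card G = N →
    ∀ m n : ℕ, Nat.card G = m * n → m.Coprime n →
      IsProd G m (Nat.card {H : Subgroup G // Nat.card H = m}) := by
  intro N
  induction N using Nat.strong_induction_on with
  | _ N ih =>
  intro G _ _ _ hN m n hG hmn
  by_cases hnt : Nontrivial G
  swap
  · rw [not_nontrivial_iff_subsingleton] at hnt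
    have hm1 : m = 1 := by
      have h1 : Nat.card G = 1 := Nat.card_unique
      rw [h1] at hG
      exact Nat.eq_one_of_mul_eq_one_right hG.symm
    have : Nat.card {H : Subgroup G // Nat.card H = m} = 1 := by
      rw [Nat.card_eq_one_iff_unique]
      refine ⟨⟨fun a b => Subtype.ext (Subsingleton.elim _ _)⟩, ⟨⟨⊥, by rw [hm1]; simp⟩⟩⟩
    rw [this]
    exact IsProd.one
  obtain ⟨L, hLn, hLb, hmin⟩ := H01.exists_minimal_normal (G := G)
  obtain ⟨hab, r, hr, hpow⟩ := H01.minimal_normal_elementary_abelian L hLb hmin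
  haveI : Fact r.Prime := ⟨hr⟩
  have hLr : IsPGroup r L := fun x => ⟨1, by
    apply Subtype.ext
    simpa using hpow x x.2⟩
  obtain ⟨a, ha⟩ := IsPGroup.iff_card.mp hLr
  have hch : ∀ x, x ∣ Nat.card L → Chiefy G x := by
    intro x hx
    refine ⟨⊥, L, inferInstance, hLn, bot_lt_iff_ne_bot.mpr hLb, ?_, ?_⟩
    · intro M hM _ h2
      exact hmin M hM h2
    · rwa [Subgroup.relIndex_bot_left]
  have hcardL : 1 < Nat.card L := by
    have : Nontrivial L := (Subgroup.nontrivial_iff_ne_bot L).mpr hLb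
    exact Finite.one_lt_card
  have hcq := H01.card_quotient_mul L
  have hlt : Nat.card (G ⧸ L) < N := by
    rw [← hN, ← hcq]
    have h2 : 0 < Nat.card (G ⧸ L) := Nat.card_pos
    nlinarith
  have hLdvd : Nat.card L ∣ m * n := hG ▸ Subgroup.card_subgroup_dvd_card L
  obtain ⟨H₀, hH₀, -⟩ := H01.hall_containment _ G rfl m n hG hmn ⊥ (by simp)
  have hsurj := QuotientGroup.mk'_surjective L
  set π := QuotientGroup.mk' L with hπ
  have hker : π.ker = L := QuotientGroup.ker_mk' L
  have hcount := card_hall_eq_index m n hG hmn H₀ hH₀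
  by_cases hrm : r ∣ m
  · -- `L` is contained in all the subgroups of order `m`
    have hcop : (Nat.card L).Coprime n := by
      rw [ha]
      exact Nat.Coprime.pow_left _ (Nat.Coprime.coprime_dvd_left hrm hmn)
    obtain ⟨m', hm'⟩ : Nat.card L ∣ m := hcop.dvd_of_dvd_mul_right hLdvd
    have hcardL0 : 0 < Nat.card L := Nat.card_pos
    have hG' : Nat.card (G ⧸ L) = m' * n := by
      apply Nat.eq_of_mul_eq_mul_right hcardL0
      rw [hcq, hG, hm']
      ring
    have hmn' : m'.Coprime n := Nat.Coprime.coprime_dvd_left ⟨Nat.card L, by rw [hm']; ring⟩ hmn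
    have hLH : L ≤ H₀ := H01.le_of_card_of_coprime m n hG H₀ L hH₀ hcop
    have hcH : Nat.card (H₀.map π) = m' := by
      have h1 := H01.card_map_mk_of_le L H₀ hLH
      rw [hH₀, hm'] at h1
      apply Nat.eq_of_mul_eq_mul_right hcardL0
      rw [mul_comm m']
      exact h1
    have hih := ih _ hlt (G ⧸ L) rfl m' n hG' hmn'
    have hcount' := card_hall_eq_index m' n hG' hmn' (H₀.map π) hcH
    rw [hcount', ← Subgroup.index_comap_of_surjective _ hsurj] at hih
    have hcomap : (normalizer ((H₀.map π : Subgroup (G ⧸ L)) : Set (G ⧸ L))).comap π =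
        normalizer (H₀ : Set G) := by
      ext g
      rw [Subgroup.mem_comap, mem_normalizer_iff_cj, mem_normalizer_iff_cj, ← map_cj]
      constructor
      · intro h
        have hc : π.ker ≤ cj g H₀ := by
          rw [hker, ← cj_normal L g]
          exact cj_mono hLH
        have hc2 : π.ker ≤ H₀ := by rw [hker]; exact hLH
        exact Subgroup.map_injective_of_ker_le π hc hc2 h
      · intro h
        rw [h]
    rw [hcomap] at hih
    rw [hcount]
    exact IsProd.lift L ⟨Nat.card L, by rw [hm']; ring⟩ hih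
  · have hcop : (Nat.card L).Coprime m := by
      rw [ha]
      exact Nat.Coprime.pow_left _ ((Nat.Prime.coprime_iff_not_dvd hr).mpr hrm)
    obtain ⟨n', hn'⟩ : Nat.card L ∣ n := hcop.dvd_of_dvd_mul_left hLdvd
    have hcardL0 : 0 < Nat.card L := Nat.card_pos
    have hG' : Nat.card (G ⧸ L) = m * n' := by
      apply Nat.eq_of_mul_eq_mul_right hcardL0
      rw [hcq, hG, hn']
      ring
    have hmn' : m.Coprime n' := Nat.Coprime.coprime_dvd_right ⟨Nat.card L, by rw [hn']; ring⟩ hmn
    have hdisj : Disjoint H₀ L := H01.disjoint_of_coprime (by rw [hH₀]; exact hcop.symm)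
    have hcH : Nat.card (H₀.map π) = m := by
      rw [H01.card_map_mk_of_disjoint L H₀ hdisj, hH₀]
    have hih := ih _ hlt (G ⧸ L) rfl m n' hG' hmn'
    have hcount' := card_hall_eq_index m n' hG' hmn' (H₀.map π) hcH
    rw [hcount', ← Subgroup.index_comap_of_surjective _ hsurj] at hih
    have hih2 := IsProd.lift L (dvd_refl m) hih
    set M : Subgroup G := (normalizer ((H₀.map π : Subgroup (G ⧸ L)) : Set (G ⧸ L))).comap π with hM
    have hNM : normalizer (H₀ : Set G) ≤ M := by
      rw [hM, ← Subgroup.map_le_iff_le_comap]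
      exact Subgroup.le_normalizer_map π
    have hLM : L ≤ M := by
      intro l hl
      have h1 : l ∈ π.ker := by rw [hker]; exact hl
      exact Subgroup.ker_le_comap π _ h1
    have hMeq : M = normalizer (H₀ : Set G) ⊔ L := by
      apply le_antisymm _ (sup_le hNM hLM)
      intro g hg
      rw [hM, Subgroup.mem_comap, mem_normalizer_iff_cj, ← map_cj] at hg
      set W := H₀ ⊔ L with hW
      have hH₀W : H₀ ≤ W := le_sup_left
      have hgW : cj g H₀ ≤ W := by
        intro x hx
        have h1 : π x ∈ H₀.map π := by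
          rw [← hg]
          exact Subgroup.mem_map_of_mem π hx
        obtain ⟨h, hh, hhx⟩ := h1
        have h2 : h⁻¹ * x ∈ L := by
          rw [← hker, MonoidHom.mem_ker, map_mul, map_inv, hhx]; simp
        have h3 : x = h * (h⁻¹ * x) := by group
        rw [h3]
        exact Subgroup.mul_mem _ (Subgroup.mem_sup_left hh) (Subgroup.mem_sup_right h2)
      have hcW : Nat.card W = m * Nat.card L := by
        have h1 := H01.card_sup_mul_card_inf H₀ L
        rw [hdisj.eq_bot, Subgroup.card_bot, mul_one, hH₀] at h1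
        exact h1
      have hcg : Nat.card (cj g H₀) = m := by
        rw [← hH₀]
        exact Subgroup.card_map_of_injective (MulAut.conj g).injective
      obtain ⟨w, hw⟩ := H01.hall_conj _ W rfl m (Nat.card L) hcW hcop.symm
        (H₀.subgroupOf W) ((cj g H₀).subgroupOf W)
        (by rw [H01.card_subgroupOf_of_le hH₀W, hH₀])
        (by rw [H01.card_subgroupOf_of_le hgW, hcg])
      have hw1 : cj (w : G) H₀ = cj g H₀ := by
        have h1 : cj w (H₀.subgroupOf W) = (cj g H₀).subgroupOf W := hw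
        have h2 := congrArg (Subgroup.map W.subtype) h1
        rw [map_subtype_cj, Subgroup.subgroupOf_map_subtype, Subgroup.subgroupOf_map_subtype,
          inf_eq_left.mpr hH₀W, inf_eq_left.mpr hgW] at h2
        exact h2
      have hwW : (w : G) ∈ L ⊔ H₀ := by
        rw [sup_comm]; exact w.2
      obtain ⟨y, hy, z, hz, hyz⟩ := Subgroup.mem_sup_of_normal_left.mp hwW
      have hw2 : cj y H₀ = cj g H₀ := by
        rw [← hw1, ← hyz, ← cj_cj, cj_of_mem hz]
      have h5 : y⁻¹ * g ∈ normalizer (H₀ : Set G) := by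
        rw [mem_normalizer_iff_cj, ← cj_cj, ← hw2, cj_inv_cj]
      have h7 : g = y * (y⁻¹ * g) := by group
      rw [h7]
      exact Subgroup.mul_mem _ (Subgroup.mem_sup_right hy) (Subgroup.mem_sup_left h5)
    have hNL : normalizer (H₀ : Set G) ⊓ L = CL L H₀ := by
      apply le_antisymm
      · rintro l ⟨hl1, hl2⟩
        refine ⟨hl2, Subgroup.mem_centralizer_iff.mpr ?_⟩
        intro h hh
        have h1 : l * h⁻¹ * l⁻¹ ∈ H₀ := (Subgroup.mem_normalizer_iff.mp hl1 _).mp (inv_mem hh)
        have h2 : h * l * h⁻¹ * l⁻¹ ∈ H₀ := by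
          have : h * l * h⁻¹ * l⁻¹ = h * (l * h⁻¹ * l⁻¹) := by group
          rw [this]
          exact H₀.mul_mem hh h1
        have h3 : h * l * h⁻¹ * l⁻¹ ∈ L := by
          exact L.mul_mem (hLn.conj_mem l hl2 h) (L.inv_mem hl2)
        have h4 := Subgroup.disjoint_def.mp hdisj h2 h3
        have h5 : h * l * h⁻¹ = l := mul_inv_eq_one.mp h4
        calc h * l = h * l * h⁻¹ * h := by group
          _ = l * h := by rw [h5]
      · rintro l ⟨hl1, hl2⟩
        exact ⟨Subgroup.centralizer_le_normalizer _ hl2, hl1⟩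
    have hrel : (normalizer (H₀ : Set G)).relIndex M = (CL L H₀).relIndex L := by
      rw [hMeq, H20.relIndex_sup_of_normal, ← hNL, Subgroup.inf_relIndex_right]
    rw [hcount, ← Subgroup.relIndex_mul_index hNM, hrel]
    exact (decomp L hr hLr hch m m H₀ hH₀ hrm (fun q _ h => h)).mul hih2

/-- Let `G` be a finite solvable group of order `mn` with `gcd(m, n) = 1`. Then the number of subgroups of order `m` is a product of natural numbers each of which is a power of a prime, divides the order of some chief factor of `G` (a quotient `L/K` of normal subgroups `K < L` of `G` with no normal subgroup of `G` strictly between them), and is congruent to `1` modulo some prime divisor of `m`. -/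
theorem result {G : Type*} [Group G] [Finite G] [Group.IsSolvable G] (m n : ℕ) (hG : Nat.card G = m * n) (hmn : Nat.Coprime m n) : ∃ (k : ℕ) (f : Fin k → ℕ), Nat.card {H : Subgroup G // Nat.card H = m} = ∏ i, f i ∧ ∀ i, (∃ q e : ℕ, q.Prime ∧ f i = q ^ e) ∧ (∃ K L : Subgroup G, K.Normal ∧ L.Normal ∧ K < L ∧ (∀ M : Subgroup G, M.Normal → K ≤ M → M ≤ L → M = K ∨ M = L) ∧ f i ∣ K.relIndex L) ∧ (∃ q : ℕ, q.Prime ∧ q ∣ m ∧ f i ≡ 1 [MOD q]) := by
  obtain ⟨l, h1, h2⟩ := main _ G rfl m n hG hmn
  refine ⟨l.length, l.get, ?_, fun i => h2 _ (List.get_mem l i)⟩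
  rw [← h1, ← List.prod_ofFn, List.ofFn_get]

end Cfsg.Agent.S4214
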