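import Mathlib
import Cfsg.Statements.S4217

set_option autoImplicit false
set_option linter.unusedVariables false
set_option linter.style.haveILetI false
open Pointwise
open Cfsg

namespace Cfsg.Agent.S4217

variable {G : Type*} [Group G] (A : Subgroup G) [A.Normal]

/-- the commutative group structure on an abelian subgroup -/
@[reducible] def commA (hA : IsMulCommutative A) : CommGroup A :=
  { (inferInstance : Group A) with mul_comm := hA.is_comm.comm }

/-- crossed homomorphisms on a subgroup `L` with values in `A` -/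
def Der (L : Subgroup G) (ρ : G → A) : Prop :=
  ∀ g ∈ L, ∀ h ∈ L, ρ (g * h) = ρ g * MulAut.conjNormal g (ρ h)

theorem cor_exists [Finite G] (hA : IsMulCommutative A) (L : Subgroup G) (hAL : A ≤ L)
    (ρ₁ : G → A) (h₁ : Der A L ρ₁) (hid : ∀ a : A, ρ₁ a = a) :
    ∃ ρ : G → A, Der A ⊤ ρ ∧ ∀ a : A, ρ a = a ^ L.index := by
  classical
  letI := commA A hA
  haveI : Fintype (G ⧸ L) := Fintype.ofFinite _
  let r : G ⧸ L → G := Quotient.out
  have hr : ∀ q : G ⧸ L, ((r q : G) : G ⧸ L) = q := Quotient.out_eq'
  let u : G → G ⧸ L → G := fun g q => (r (g • q))⁻¹ * g * r q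
  have hu : ∀ g q, u g q ∈ L := by
    intro g q
    have h1 : ((r (g • q) : G) : G ⧸ L) = ((g * r q : G) : G ⧸ L) := by
      rw [hr]
      have : ((g * r q : G) : G ⧸ L) = g • ((r q : G) : G ⧸ L) := rfl
      rw [this, hr]
    have h2 := QuotientGroup.eq.mp h1
    show (r (g • q))⁻¹ * g * r q ∈ L
    rwa [mul_assoc]
  refine ⟨fun g => ∏ q : G ⧸ L, MulAut.conjNormal (r (g • q)) (ρ₁ (u g q)), ?_, ?_⟩
  · intro g _ h _
    have key : ∀ q : G ⧸ L, MulAut.conjNormal (r ((g * h) • q)) (ρ₁ (u (g * h) q)) =
        MulAut.conjNormal (r (g • (h • q))) (ρ₁ (u g (h • q))) *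
          MulAut.conjNormal g (MulAut.conjNormal (r (h • q)) (ρ₁ (u h q))) := by
      intro q
      have e1 : u (g * h) q = u g (h • q) * u h q := by
        simp only [u, mul_smul, mul_assoc, mul_inv_cancel_left]
      rw [e1, h₁ _ (hu _ _) _ (hu _ _), map_mul, mul_smul]
      congr 1
      apply Subtype.ext
      have e2 : r (g • h • q) * u g (h • q) = g * r (h • q) := by
        simp only [u, mul_assoc, mul_inv_cancel_left]
      simp only [MulAut.conjNormal_apply]
      have e3 : ∀ x : G, r (g • h • q) * (u g (h • q) * x * (u g (h • q))⁻¹) * (r (g • h • q))⁻¹ =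
          g * (r (h • q) * x * (r (h • q))⁻¹) * g⁻¹ := by
        intro x
        have e4 : r (g • h • q) * (u g (h • q) * x * (u g (h • q))⁻¹) * (r (g • h • q))⁻¹ =
            (r (g • h • q) * u g (h • q)) * x * (r (g • h • q) * u g (h • q))⁻¹ := by group
        rw [e4, e2]; group
      exact e3 _
    simp only [Finset.prod_congr rfl (fun q _ => key q), Finset.prod_mul_distrib]
    congr 1
    · exact Fintype.prod_equiv (MulAction.toPerm h) _ _ (fun q => rfl)
    · rw [map_prod]
  · intro a
    have ha : ∀ q : G ⧸ L, (a : G) • q = q := by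
      intro q
      induction q using QuotientGroup.induction_on with
      | H x =>
        have : (a : G) • ((x : G) : G ⧸ L) = (((a : G) * x : G) : G ⧸ L) := rfl
        rw [this]
        apply QuotientGroup.eq.mpr
        have h2 : x⁻¹ * (a : G) * x⁻¹⁻¹ ∈ A :=
          Subgroup.Normal.conj_mem inferInstance _ a.2 _
        have : ((a : G) * x)⁻¹ * x = x⁻¹ * (a : G)⁻¹ * x⁻¹⁻¹ := by group
        rw [this]
        exact hAL (Subgroup.Normal.conj_mem inferInstance _ (A.inv_mem a.2) _)
    have key : ∀ q : G ⧸ L, MulAut.conjNormal (r ((a : G) • q)) (ρ₁ (u (a : G) q)) = a := by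
      intro q
      have hmem : u (a : G) q ∈ A := by
        show (r ((a : G) • q))⁻¹ * (a : G) * r q ∈ A
        rw [ha q]
        have := Subgroup.Normal.conj_mem inferInstance _ a.2 (r q)⁻¹
        rwa [inv_inv] at this
      have e := hid ⟨u (a : G) q, hmem⟩
      simp only at e
      rw [e]
      apply Subtype.ext
      simp only [MulAut.conjNormal_apply, u]
      rw [ha q]
      group
    simp only [Finset.prod_congr rfl (fun q _ => key q), Finset.prod_const, Finset.card_univ]
    rw [Subgroup.index_eq_card, Nat.card_eq_fintype_card]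

/-- a complement in `L` gives a crossed hom on `L` which is the identity on `A` -/
theorem der_of_complement (hA : IsMulCommutative A) (L K : Subgroup G)
    (h1 : K ⊓ A = ⊥) (h2 : K ⊔ A = L) :
    ∃ ρ : G → A, Der A L ρ ∧ ∀ a : A, ρ a = a := by
  classical
  have hex : ∀ g ∈ L, ∃ a : A, ∃ k ∈ K, g = a * k := by
    intro g hg
    rw [← h2, sup_comm] at hg
    rw [← SetLike.mem_coe, Subgroup.normal_mul] at hg
    obtain ⟨a, ha, k, hk, rfl⟩ := hg
    exact ⟨⟨a, ha⟩, k, hk, rfl⟩
  have huniq : ∀ (a a' : A) (k k' : G), k ∈ K → k' ∈ K → (a : G) * k = a' * k' → a = a' := by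
    intro a a' k k' hk hk' e
    have h3 : (a' : G)⁻¹ * a = k' * k⁻¹ := by
      have : (a : G) = a' * k' * k⁻¹ := by rw [← e]; group
      rw [this]; group
    have h4 : (a' : G)⁻¹ * a ∈ K ⊓ A :=
      ⟨h3 ▸ K.mul_mem hk' (K.inv_mem hk), A.mul_mem (A.inv_mem a'.2) a.2⟩
    rw [h1, Subgroup.mem_bot] at h4
    apply Subtype.ext
    exact (inv_mul_eq_one.mp h4).symm
  let ρ : G → A := fun g => if hg : g ∈ L then (hex g hg).choose else 1
  have hρ : ∀ g (hg : g ∈ L) (a : A) (k : G), k ∈ K → g = a * k → ρ g = a := by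
    intro g hg a k hk e
    have : ρ g = (hex g hg).choose := dif_pos hg
    rw [this]
    obtain ⟨k', hk', e'⟩ := (hex g hg).choose_spec
    exact huniq _ _ _ _ hk' hk (e'.symm.trans e)
  have hAL : A ≤ L := h2 ▸ le_sup_right
  refine ⟨ρ, ?_, ?_⟩
  · intro g hg h hh
    obtain ⟨a, k, hk, rfl⟩ := hex g hg
    obtain ⟨a', k', hk', rfl⟩ := hex h hh
    have e1 := hρ _ hg a k hk rfl
    have e2 := hρ _ hh a' k' hk' rfl
    rw [e1, e2]
    have hkA : k * (a' : G) * k⁻¹ ∈ A := Subgroup.Normal.conj_mem inferInstance _ a'.2 k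
    apply hρ _ (L.mul_mem hg hh) _ (k * k') (K.mul_mem hk hk')
    have hcomm : (a : G) * (k * a' * k⁻¹) = (k * a' * k⁻¹) * a :=
      congrArg Subtype.val (hA.is_comm.comm a ⟨_, hkA⟩)
    simp only [Subgroup.coe_mul, MulAut.conjNormal_apply]
    have : (a : G) * k * (a' : G) * (a : G) ⁻¹ * (a : G) = (a : G) * k * a' := by group
    calc (a : G) * k * (a' * k') = (a : G) * (k * a' * k⁻¹) * (k * k') := by group
      _ = (a : G) * ((a * k) * a' * (a * k)⁻¹) * (k * k') := by
        congr 2
        have e3 : ((a : G) * k) * a' * (a * k)⁻¹ = a * (k * a' * k⁻¹) * (a : G)⁻¹ := by group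
        rw [e3, hcomm]; group
  · intro a
    apply hρ _ (hAL a.2) a 1 K.one_mem
    simp

theorem index_eq_one_case [Finite G] (h : A.index = 1) : ∃ K : Subgroup G, K.IsComplement' A := by
  have : A = ⊤ := Subgroup.index_eq_one.mp h
  subst this
  exact ⟨⊥, Subgroup.isComplement'_bot_top⟩

/-- Let `A` be an abelian normal subgroup of the finite group `G`. Then `A` has a complement in `G` if and only if, for every prime `p` dividing the index of `A`, there are a Sylow `p`-subgroup `S` of `G/A` and a subgroup `K` of `G` with `K ∩ A = 1` and `KA` equal to the preimage of `S` (that is, `A` has a complement in the preimage of a Sylow `p`-subgroup of `G/A`). -/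
theorem result {G : Type*} [Group G] [Finite G] (A : Subgroup G) [A.Normal] (hA : IsMulCommutative A) : (∃ K : Subgroup G, K.IsComplement' A) ↔ ∀ p : ℕ, p.Prime → p ∣ A.index → ∃ (S : Sylow p (G ⧸ A)) (K : Subgroup G), K ⊓ A = ⊥ ∧ K ⊔ A = (S : Subgroup (G ⧸ A)).comap (QuotientGroup.mk' A) := by
  classical
  constructor
  · rintro ⟨K, hK⟩ p hp _
    haveI : Fact p.Prime := ⟨hp⟩
    obtain ⟨S⟩ : Nonempty (Sylow p (G ⧸ A)) := inferInstance
    refine ⟨S, K ⊓ (S : Subgroup (G ⧸ A)).comap (QuotientGroup.mk' A), ?_, ?_⟩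
    · have := hK.disjoint
      rw [disjoint_iff] at this
      apply le_bot_iff.mp
      rw [← this]
      exact inf_le_inf_right _ inf_le_left
    · apply le_antisymm
      · apply sup_le inf_le_right
        intro a ha
        rw [Subgroup.mem_comap]
        have : QuotientGroup.mk' A a = 1 := (QuotientGroup.eq_one_iff a).mpr ha
        rw [this]
        exact Subgroup.one_mem _
      · intro g hg
        obtain ⟨⟨k, a⟩, e⟩ := hK.2 g
        have e' : (k : G) * (a : G) = g := e
        have hkL : (k : G) ∈ (S : Subgroup (G ⧸ A)).comap (QuotientGroup.mk' A) := by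
          have h1 : (k : G) = g * (a : G)⁻¹ := by rw [← e']; group
          rw [h1]
          refine Subgroup.mul_mem _ hg ?_
          rw [Subgroup.mem_comap]
          have : QuotientGroup.mk' A (a : G)⁻¹ = 1 :=
            (QuotientGroup.eq_one_iff _).mpr (A.inv_mem a.2)
          rw [this]
          exact Subgroup.one_mem _
        rw [← e']
        exact Subgroup.mul_mem _ (Subgroup.mem_sup_left ⟨k.2, hkL⟩) (Subgroup.mem_sup_right a.2)
  · intro H
    by_cases hindex : A.index = 1
    · exact index_eq_one_case A hindex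
    letI := commA A hA
    -- the set of integers `m` for which a crossed hom with `a ↦ a^m` exists
    let D : AddSubgroup ℤ :=
      { carrier := {m | ∃ ρ : G → A, Der A ⊤ ρ ∧ ∀ a : A, ρ a = a ^ m}
        zero_mem' := by
          refine ⟨fun _ => 1, ?_, ?_⟩
          · intro g _ h _
            simp
          · intro a
            simp
        add_mem' := by
          rintro m n ⟨ρ, h1, h2⟩ ⟨σ, h3, h4⟩
          refine ⟨fun g => ρ g * σ g, ?_, ?_⟩
          · intro g _ h _
            simp only
            rw [h1 g trivial h trivial, h3 g trivial h trivial, map_mul, mul_mul_mul_comm]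
          · intro a
            simp only
            rw [h2, h4, zpow_add]
        neg_mem' := by
          rintro m ⟨ρ, h1, h2⟩
          refine ⟨fun g => (ρ g)⁻¹, ?_, ?_⟩
          · intro g _ h _
            simp only
            rw [h1 g trivial h trivial, map_inv, mul_inv]
          · intro a
            simp only
            rw [h2, zpow_neg] }
    have hDp : ∀ p : ℕ, p.Prime → p ∣ A.index → ∃ n : ℕ, (n : ℤ) ∈ D ∧ ¬ p ∣ n ∧ n ∣ A.index := by
      intro p hp hpA
      haveI : Fact p.Prime := ⟨hp⟩
      obtain ⟨S, K, h1, h2⟩ := H p hp hpA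
      obtain ⟨ρ₁, hρ₁, hid⟩ := der_of_complement A hA _ K h1 h2
      have hAL : A ≤ (S : Subgroup (G ⧸ A)).comap (QuotientGroup.mk' A) := by
        rw [← h2]; exact le_sup_right
      obtain ⟨ρ, hρ, hρA⟩ := cor_exists A hA _ hAL ρ₁ hρ₁ hid
      refine ⟨((S : Subgroup (G ⧸ A)).comap (QuotientGroup.mk' A)).index, ?_, ?_, ?_⟩
      · refine ⟨ρ, hρ, ?_⟩
        intro a
        rw [zpow_natCast]
        exact hρA a
      · rw [Subgroup.index_comap_of_surjective _ (QuotientGroup.mk'_surjective A)]
        exact S.not_dvd_index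
      · rw [Subgroup.index_comap_of_surjective _ (QuotientGroup.mk'_surjective A)]
        rw [Subgroup.index_eq_card A]
        exact Subgroup.index_dvd_card _
    obtain ⟨d, hd⟩ := Int.subgroup_cyclic D
    have hdmem : ∀ m ∈ D, d ∣ m := by
      intro m hm
      rw [hd] at hm
      obtain ⟨k, rfl⟩ := AddSubgroup.mem_closure_singleton.mp hm
      exact ⟨k, by simp [mul_comm]⟩
    have hone : d.natAbs = 1 := by
      by_contra hne
      obtain ⟨r, hr, hrd⟩ := Nat.exists_prime_and_dvd hne
      have hrd' : (r : ℤ) ∣ d := Int.natCast_dvd.mpr hrd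
      -- any prime dividing the index
      obtain ⟨p, hp, hpA⟩ := Nat.exists_prime_and_dvd hindex
      obtain ⟨n, hn, hnp, hnA⟩ := hDp p hp hpA
      have h1 : r ∣ n := by
        have := hrd'.trans (hdmem _ hn)
        exact_mod_cast this
      have h2 : r ∣ A.index := h1.trans hnA
      obtain ⟨n', hn', hnr, _⟩ := hDp r hr h2
      apply hnr
      have := hrd'.trans (hdmem _ hn')
      exact_mod_cast this
    have h1mem : (1 : ℤ) ∈ D := by
      have h2 : d ∈ D := by rw [hd]; exact AddSubgroup.subset_closure rfl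
      rcases Int.natAbs_eq d with h | h
      · rw [hone] at h
        rw [h] at h2
        exact_mod_cast h2
      · rw [hone] at h
        rw [h] at h2
        have := D.neg_mem h2
        simpa using this
    obtain ⟨ρ, hρ, hρA⟩ := h1mem
    have hρid : ∀ a : A, ρ a = a := by
      intro a
      simpa using hρA a
    have hρ1 : ρ 1 = 1 := by
      have := hρ 1 trivial 1 trivial
      rw [mul_one, map_one, MulAut.one_apply] at this
      exact left_eq_mul.mp this
    let K : Subgroup G :=
      { carrier := {g | ρ g = 1}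
        one_mem' := hρ1
        mul_mem' := by
          intro a b ha hb
          simp only [Set.mem_ofPred_eq] at ha hb ⊢
          rw [hρ a trivial b trivial, ha, hb]
          simp
        inv_mem' := by
          intro a ha
          simp only [Set.mem_ofPred_eq] at ha ⊢
          have := hρ a trivial a⁻¹ trivial
          rw [mul_inv_cancel, hρ1, ha, one_mul] at this
          have h2 : MulAut.conjNormal a (ρ a⁻¹) = 1 := this.symm
          exact (map_eq_one_iff _ (MulEquiv.injective _)).mp h2 }
    refine ⟨K, ?_⟩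
    apply Subgroup.IsComplement'.symm
    apply Subgroup.isComplement'_of_disjoint_and_mul_eq_univ
    · rw [Subgroup.disjoint_def]
      intro x hxA hxK
      have h1 := hρid ⟨x, hxA⟩
      have h2 : ρ x = 1 := hxK
      rw [h2] at h1
      exact (congrArg Subtype.val h1).symm
    · ext g
      simp only [Set.mem_univ, iff_true]
      refine Set.mem_mul.mpr ⟨ρ g, (ρ g).2, (ρ g : G)⁻¹ * g, ?_, by group⟩
      show ρ ((ρ g : G)⁻¹ * g) = 1
      have hmem : (ρ g : G)⁻¹ = ((ρ g)⁻¹ : A) := rfl
      rw [hρ _ trivial g trivial, hmem, hρid]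
      have : MulAut.conjNormal (((ρ g)⁻¹ : A) : G) (ρ g) = ρ g := by
        apply Subtype.ext
        rw [MulAut.conjNormal_apply]
        have := hA.is_comm.comm (ρ g)⁻¹ (ρ g)
        have h3 := congrArg Subtype.val this
        simp only [Subgroup.coe_mul, Subgroup.coe_inv] at h3 ⊢
        group
      rw [this]
      simp

end Cfsg.Agent.S4217
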