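import Cfsg.Statements.S4218
import Cfsg.Agent.Lib.H08.HallHigman
import Cfsg.Agent.Lib.H03.PSolv
import Cfsg.Agent.Lib.H01.Coprime4
import Cfsg.Agent.Lib.H01.Basic
import Cfsg.Agent.Lib.H06.Layer2

set_option autoImplicit false
set_option linter.unusedSectionVars false
set_option linter.style.haveILetI false
open Cfsg

namespace Cfsg.Agent.S4218

open scoped commutatorElement

section core
variable {X : Type*} [Group X] [Finite X] {p : ℕ} [Fact p.Prime]

theorem mem_pCore_of_trivial (hS : IsPSolvable p X) (hred : pPrimeCore p X = ⊥) (a : X)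
    (ha : ∀ y ∈ pCore p X, a * y * a⁻¹ * y⁻¹ ∈ (frattini (pCore p X)).map (pCore p X).subtype) :
    a ∈ pCore p X := by
  classical
  have hp : p.Prime := Fact.out
  haveI hQn : (pCore p X).Normal := Cfsg.Agent.H01.pCore_normal p
  have hQp : IsPGroup p (pCore p X) := Cfsg.Agent.H01.pCore_isPGroup p
  set Q := pCore p X with hQ
  set D : Subgroup X := (frattini Q).map Q.subtype with hD
  haveI hDn : D.Normal := ConjAct.normal_of_characteristic_of_normal
  have hDQ : D ≤ Q := by
    rintro _ ⟨x, -, rfl⟩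
    exact x.2
  let A : Subgroup X :=
    { carrier := {a | ∀ y ∈ Q, a * y * a⁻¹ * y⁻¹ ∈ D}
      one_mem' := fun y _ => by simp [D.one_mem]
      mul_mem' := by
        intro a b ha hb y hy
        have e : a * b * y * (a * b)⁻¹ * y⁻¹ = a * (b * y * b⁻¹ * y⁻¹) * a⁻¹ * (a * y * a⁻¹ * y⁻¹) := by
          group
        rw [e]
        exact D.mul_mem (hDn.conj_mem _ (hb y hy) a) (ha y hy)
      inv_mem' := by
        intro a ha y hy
        have h1 : a⁻¹ * y * a ∈ Q := by
          have := hQn.conj_mem y hy a⁻¹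
          simpa using this
        have h2 := ha _ h1
        have e : a⁻¹ * y * a⁻¹⁻¹ * y⁻¹ = (a * (a⁻¹ * y * a) * a⁻¹ * (a⁻¹ * y * a)⁻¹)⁻¹ := by
          group
        rw [e]
        exact D.inv_mem h2 }
  have hAmem : ∀ b, b ∈ A ↔ ∀ y ∈ Q, b * y * b⁻¹ * y⁻¹ ∈ D := fun b => Iff.rfl
  have hAn : A.Normal := by
    refine ⟨fun b hb g y hy => ?_⟩
    have h1 : g⁻¹ * y * g ∈ Q := by
      have := hQn.conj_mem y hy g⁻¹
      simpa using this
    have h2 := hb _ h1
    have e : g * b * g⁻¹ * y * (g * b * g⁻¹)⁻¹ * y⁻¹ =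
        g * (b * (g⁻¹ * y * g) * b⁻¹ * (g⁻¹ * y * g)⁻¹) * g⁻¹ := by group
    rw [e]
    exact hDn.conj_mem _ h2 g
  have hAp : IsPGroup p A := by
    rintro ⟨b, hb⟩
    set s := (orderOf b).factorization p with hs
    have hdvd : p ^ s ∣ orderOf b := Nat.ordProj_dvd _ _
    set c := b ^ (p ^ s) with hc
    have hcA : c ∈ A := A.pow_mem hb _
    have hcord : orderOf c = orderOf b / p ^ s :=
      orderOf_pow_of_dvd (pow_ne_zero s hp.ne_zero) hdvd
    have hcop : (orderOf c).Coprime p := by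
      rw [hcord]
      exact (Nat.coprime_ordCompl hp (orderOf_pos b).ne').symm
    have hBA : Subgroup.zpowers c ≤ A := (Subgroup.zpowers_le).2 hcA
    have hcen : Subgroup.zpowers c ≤ Subgroup.centralizer (Q : Set X) := by
      apply Cfsg.Agent.H01.centralizes_of_trivial_on_frattini_quotient (Subgroup.zpowers c) Q
      · rw [Subgroup.normalizer_eq_top]
        exact le_top
      · rw [Nat.card_zpowers]
        have h1 : IsPGroup p (frattini Q) := hQp.to_subgroup _
        obtain ⟨k, hk⟩ := IsPGroup.iff_card.1 h1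
        rw [hk]
        exact hcop.pow_right k
      · intro x hx k hk
        exact hBA hx k hk
    have hcQ : c ∈ Q := Cfsg.Agent.H08.hall_higman hS hred (hcen (Subgroup.mem_zpowers c))
    have hc1 : c = 1 := by
      obtain ⟨j, hj⟩ := (IsPGroup.iff_orderOf.1 hQp) ⟨c, hcQ⟩
      rw [Subgroup.orderOf_mk] at hj
      have h3 : orderOf c = 1 := by
        have h4 := hcop
        rw [hj] at h4
        have h5 : (p ^ j).Coprime p := h4
        rcases Nat.eq_zero_or_pos j with rfl | hjpos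
        · simpa using hj
        · have := Nat.Coprime.eq_one_of_dvd h5.symm (dvd_pow_self p hjpos.ne')
          exact absurd this hp.one_lt.ne'
      exact orderOf_eq_one_iff.1 h3
    refine ⟨s, Subtype.ext ?_⟩
    simpa using hc1
  have hAQ : A ≤ Q := Cfsg.Agent.H01.le_pCore hAn hAp
  exact hAQ ha

end core

/-- Let `G` be a finite `p`-solvable group, `N₀ = O_{p'}(G)`, `P₁ = O_{p',p}(G)`, and let `F ≤ P₁` be the preimage of the Frattini subgroup of `P₁/N₀`. Then an element `g` of `G` induces the identity on `P₁/F` by conjugation (that is, `g x g⁻¹ x⁻¹ ∈ F` for all `x ∈ P₁`) if and only if `g ∈ P₁`: the group `G/P₁` acts faithfully on `P₁/F`. -/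
theorem result {G : Type*} [Group G] [Finite G] {p : ℕ} [Fact p.Prime] (hG : Cfsg.IsPSolvable p G) (g : G) : (∀ x ∈ Cfsg.pPrimePCore p G, g * x * g⁻¹ * x⁻¹ ∈ ((frattini (↥(Cfsg.pPrimePCore p G) ⧸ (Cfsg.pPrimeCore p G).subgroupOf (Cfsg.pPrimePCore p G))).comap (QuotientGroup.mk' ((Cfsg.pPrimeCore p G).subgroupOf (Cfsg.pPrimePCore p G)))).map (Cfsg.pPrimePCore p G).subtype) ↔ g ∈ Cfsg.pPrimePCore p G := by
  classical
  have hp : p.Prime := Fact.out
  haveI hKn : (pPrimeCore p G).Normal := Subgroup.sSup_normal _ (fun _ h => h.1)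
  haveI hP₁n : (pPrimePCore p G).Normal := Cfsg.Agent.H06.pPrimePCore_normal p G
  set K := pPrimeCore p G with hK
  set P₁ := pPrimePCore p G with hP₁
  set K₁ : Subgroup P₁ := K.subgroupOf P₁ with hK₁
  let π : G →* G ⧸ K := QuotientGroup.mk' K
  have hπs : Function.Surjective π := QuotientGroup.mk'_surjective K
  have hqp : IsPGroup p (P₁ ⧸ K₁) := by
    intro z
    obtain ⟨u, rfl⟩ := QuotientGroup.mk'_surjective K₁ z
    obtain ⟨k, hk⟩ := Cfsg.Agent.H06.exists_pow_mem_pPrimeCore p u.2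
    refine ⟨k, ?_⟩
    rw [← map_pow]
    refine (QuotientGroup.eq_one_iff _).2 ?_
    rw [hK₁, Subgroup.mem_subgroupOf]
    simpa using hk
  constructor
  · intro h
    -- the reduction to the quotient
    have hS : IsPSolvable p (G ⧸ K) := Cfsg.Agent.H03.isPSolvable_of_surjective hπs hG
    have hred : pPrimeCore p (G ⧸ K) = ⊥ := Cfsg.Agent.H08.pPrimeCore_quotient_eq_bot p
    have hmem : π g ∈ pCore p (G ⧸ K) := by
      apply mem_pCore_of_trivial hS hred
      intro y hy
      obtain ⟨x, rfl⟩ := hπs y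
      have hx : x ∈ P₁ := hy
      obtain ⟨u, hu, hue⟩ := h x hx
      -- the map from `P₁/K₁` onto `O_p(G/K)`
      let φ₀ : P₁ →* pCore p (G ⧸ K) :=
        { toFun := fun v => ⟨π v, v.2⟩
          map_one' := by ext; simp
          map_mul' := fun a b => by ext; simp }
      have hφ₀ : ∀ v ∈ K₁, φ₀ v = 1 := by
        intro v hv
        apply Subtype.ext
        exact (QuotientGroup.eq_one_iff _).2 (Subgroup.mem_subgroupOf.1 hv)
      let φ : P₁ ⧸ K₁ →* pCore p (G ⧸ K) := QuotientGroup.lift K₁ φ₀ hφ₀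
      have hφs : Function.Surjective φ := by
        rintro ⟨w, hw⟩
        obtain ⟨v, rfl⟩ := hπs w
        exact ⟨QuotientGroup.mk' K₁ ⟨v, hw⟩, rfl⟩
      have h1 := frattini_le_comap_frattini_of_surjective hφs hu
      refine ⟨φ (QuotientGroup.mk' K₁ u), h1, ?_⟩
      have : (u : G) = g * x * g⁻¹ * x⁻¹ := hue
      show π (u : G) = _
      rw [this]
      simp only [map_mul, map_inv]
    exact hmem
  · intro hg x hx
    have hc : g * x * g⁻¹ * x⁻¹ ∈ P₁ :=
      P₁.mul_mem (P₁.mul_mem (P₁.mul_mem hg hx) (P₁.inv_mem hg)) (P₁.inv_mem hx)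
    refine ⟨⟨_, hc⟩, ?_, rfl⟩
    show QuotientGroup.mk' K₁ ⟨_, hc⟩ ∈ frattini (P₁ ⧸ K₁)
    apply Cfsg.Agent.H01.commutator_le_frattini_of_isPGroup hqp
    have e : (QuotientGroup.mk' K₁ ⟨_, hc⟩ : P₁ ⧸ K₁) =
        ⁅QuotientGroup.mk' K₁ ⟨g, hg⟩, QuotientGroup.mk' K₁ ⟨x, hx⟩⁆ := by
      rw [← map_commutatorElement]
      rfl
    rw [e]
    exact Subgroup.commutator_mem_commutator (Subgroup.mem_top _) (Subgroup.mem_top _)

end Cfsg.Agent.S4218
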