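import Cfsg.Statements.S4219

set_option autoImplicit false
open Cfsg
open scoped Pointwise

namespace Cfsg.Agent.S4219

theorem key_abs {G : Type*} [Group G] [Finite G] (H : Subgroup G) {p : ℕ} [Fact p.Prime]
    (P : Sylow p H) (u₀ : G)
    (hconjH : ∀ y ∈ (P : Subgroup H).map H.subtype, u₀⁻¹ * y * u₀ ∈ H) :
    ∃ h ∈ H, u₀ * h⁻¹ ∈ Subgroup.normalizer (((P : Subgroup H).map H.subtype : Subgroup G) : Set G) := by
  set P' : Subgroup G := (P : Subgroup H).map H.subtype with hP'
  -- the conjugate of P' as subgroup of H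
  let Q : Subgroup H := (P'.map (MulAut.conj u₀⁻¹).toMonoidHom).subgroupOf H
  have hQmem : ∀ z : H, z ∈ Q ↔ u₀ * (z : G) * u₀⁻¹ ∈ P' := by
    intro z
    rw [Subgroup.mem_subgroupOf]
    constructor
    · rintro ⟨y, hy, hyz⟩
      have : (z : G) = u₀⁻¹ * y * u₀ := by
        rw [← hyz]; simp
      rw [this]
      simpa [mul_assoc] using hy
    · intro h
      refine ⟨_, h, ?_⟩
      simp [mul_assoc]
  have hPmem : ∀ z : H, z ∈ (P : Subgroup H) ↔ (z : G) ∈ P' := by
    intro z
    constructor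
    · intro hz
      exact ⟨z, hz, rfl⟩
    · rintro ⟨w, hw, hwz⟩
      have : w = z := Subtype.ext hwz
      exact this ▸ hw
  have hcardQ : Nat.card Q = Nat.card (P : Subgroup H) := by
    refine Nat.card_congr ?_
    have e1 : (P : Subgroup H) ≃* P' := (P : Subgroup H).equivMapOfInjective H.subtype H.subtype_injective
    refine Equiv.trans ?_ e1.symm.toEquiv
    exact
      { toFun := fun z => ⟨u₀ * ((z : H) : G) * u₀⁻¹, (hQmem z).mp z.2⟩
        invFun := fun y => ⟨⟨u₀⁻¹ * y * u₀, hconjH y y.2⟩, (hQmem _).mpr (by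
          simp [mul_assoc])⟩
        left_inv := fun z => by
          apply Subtype.ext; apply Subtype.ext
          simp [mul_assoc]
        right_inv := fun y => by
          apply Subtype.ext
          simp [mul_assoc] }
  let Qs : Sylow p H := Sylow.ofCard Q (by rw [hcardQ]; exact P.card_eq_multiplicity)
  obtain ⟨h, hh⟩ := MulAction.exists_smul_eq H Qs P
  have hPh : ∀ z : H, z ∈ (P : Subgroup H) ↔ h⁻¹ * z * h ∈ Q := by
    intro z
    rw [← hh, Sylow.coe_subgroup_smul, Subgroup.mem_pointwise_smul_iff_inv_smul_mem]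
    simp only [MulAut.smul_def, MulAut.conj_inv_apply]
    rw [Sylow.coe_ofCard]
  refine ⟨h, h.2, ?_⟩
  rw [Subgroup.mem_normalizer_iff]
  intro y
  have ew : u₀ * (h : G)⁻¹ * y * (u₀ * (h : G)⁻¹)⁻¹ = u₀ * (h : G)⁻¹ * y * h * u₀⁻¹ := by group
  rw [ew]
  constructor
  · intro hy
    -- y ∈ P' so y ∈ P, h⁻¹ y h ∈ Q
    have hyH : y ∈ H := by
      obtain ⟨w, _, hw⟩ := hy
      rw [← hw]; exact w.2
    have h1 : (⟨y, hyH⟩ : H) ∈ (P : Subgroup H) := (hPmem _).mpr hy
    have h2 := (hPh _).mp h1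
    have h3 := (hQmem _).mp h2
    simpa [mul_assoc] using h3
  · intro hy
    -- z := u₀ h⁻¹ y h u₀⁻¹ ∈ P' ; set y' = u₀⁻¹ z u₀ = h⁻¹ y h ∈ H
    have h1 := hconjH _ hy
    have e1 : u₀⁻¹ * (u₀ * (h : G)⁻¹ * y * h * u₀⁻¹) * u₀ = (h : G)⁻¹ * y * h := by group
    rw [e1] at h1
    have hyH : y ∈ H := by
      have := H.mul_mem (H.mul_mem h.2 h1) (H.inv_mem h.2)
      have e2 : (h : G) * ((h : G)⁻¹ * y * h) * (h : G)⁻¹ = y := by group
      rwa [e2] at this
    have h2 : (h⁻¹ * ⟨y, hyH⟩ * h : H) ∈ Q := by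
      rw [hQmem]
      simpa [mul_assoc] using hy
    have h3 := (hPh _).mpr h2
    exact (hPmem _).mp h3

theorem key {G : Type*} [Group G] [Finite G] {α : Type*} [MulAction G α] {t : ℕ}
    (hG : MulAction.IsMultiplyPretransitive G α t) (x : Fin t ↪ α) {p : ℕ} [Fact p.Prime]
    (P : Sylow p (MulAction.stabilizer G x)) (a : Fin t ↪ α)
    (ha : ∀ i, a i ∈ MulAction.fixedPoints ((P : Subgroup (MulAction.stabilizer G x)).map (MulAction.stabilizer G x).subtype) α) :
    ∃ u ∈ Subgroup.normalizer ((((P : Subgroup (MulAction.stabilizer G x)).map (MulAction.stabilizer G x).subtype) : Subgroup G) : Set G), u • x = a := by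
  obtain ⟨u₀, hu₀⟩ := MulAction.exists_smul_eq G x a
  have hfixa : ∀ y ∈ (P : Subgroup (MulAction.stabilizer G x)).map (MulAction.stabilizer G x).subtype, y • a = a := by
    intro y hy
    ext i
    exact ha i ⟨y, hy⟩
  have hconjH : ∀ y ∈ (P : Subgroup (MulAction.stabilizer G x)).map (MulAction.stabilizer G x).subtype,
      u₀⁻¹ * y * u₀ ∈ MulAction.stabilizer G x := by
    intro y hy
    rw [MulAction.mem_stabilizer_iff, mul_smul, mul_smul, hu₀, hfixa y hy, ← hu₀, inv_smul_smul]
  obtain ⟨h, hh, hn⟩ := key_abs _ P u₀ hconjH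
  refine ⟨u₀ * h⁻¹, hn, ?_⟩
  have hhx : h⁻¹ • x = x := (MulAction.stabilizer G x).inv_mem hh
  rw [mul_smul, hhx, hu₀]

/-- Let a finite group `G` act `t`-fold transitively on a finite set, let `H` be the stabilizer of `t` distinct points and `P` a Sylow `p`-subgroup of `H`. Then the normalizer of `P` in `G` is `t`-fold transitive on the fixed points of `P`: any `t` distinct fixed points of `P` can be carried to any other `t` distinct fixed points of `P` by an element normalizing `P`. -/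
theorem result {G : Type*} [Group G] [Finite G] {α : Type*} [Fintype α] [MulAction G α] {t : ℕ} (hG : MulAction.IsMultiplyPretransitive G α t) (x : Fin t ↪ α) {p : ℕ} [Fact p.Prime] (P : Sylow p (MulAction.stabilizer G x)) (a b : Fin t ↪ α) (ha : ∀ i, a i ∈ MulAction.fixedPoints ((P : Subgroup (MulAction.stabilizer G x)).map (MulAction.stabilizer G x).subtype) α) (hb : ∀ i, b i ∈ MulAction.fixedPoints ((P : Subgroup (MulAction.stabilizer G x)).map (MulAction.stabilizer G x).subtype) α) : ∃ g ∈ Subgroup.normalizer ((((P : Subgroup (MulAction.stabilizer G x)).map (MulAction.stabilizer G x).subtype) : Subgroup G) : Set G), g • a = b := by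
  obtain ⟨u, hu, hux⟩ := key hG x P a ha
  obtain ⟨v, hv, hvx⟩ := key hG x P b hb
  refine ⟨v * u⁻¹, Subgroup.mul_mem _ hv (Subgroup.inv_mem _ hu), ?_⟩
  rw [mul_smul, ← hux, inv_smul_smul, hvx]

end Cfsg.Agent.S4219
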