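import Cfsg.Statements.S4220
import Mathlib
import Cfsg.Agent.S0713
import Cfsg.Agent.Lib.H20.JK4

set_option autoImplicit false
set_option linter.unusedVariables false
set_option linter.unusedSectionVars false
open Cfsg

namespace Cfsg.Agent.S4220

open Cfsg.Agent.H20.JK
open Equiv Equiv.Perm
open scoped commutatorElement
open scoped Pointwise

section aux
variable {α : Type*} [Fintype α] [DecidableEq α]

/-- The orbits, as an `L`-invariant family of sets. -/
def OmSub (P L : Subgroup (Perm α)) (Δ : Finset α) (hL : ∀ l ∈ L, ∀ v ∈ P, l * v * l⁻¹ ∈ P)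
    (hLΔ : ∀ l ∈ L, ∀ x, l x ∈ Δ ↔ x ∈ Δ) : SubMulAction L (Set α) where
  carrier := {s | ∃ x, x ∉ Δ ∧ s = Orb P x}
  smul_mem' := by
    rintro l _ ⟨x, hx, rfl⟩
    refine ⟨(l : Perm α) x, fun h => hx ((hLΔ l l.2 x).mp h), ?_⟩
    ext z
    rw [Set.mem_smul_set]
    constructor
    · rintro ⟨_, ⟨v, hv, rfl⟩, rfl⟩
      refine ⟨(l : Perm α) * v * (l : Perm α)⁻¹, hL l l.2 v hv, ?_⟩
      simp [Subgroup.smul_def]
    · rintro ⟨v, hv, rfl⟩
      have hl' := L.inv_mem l.2
      have h1 := hL _ hl' v hv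
      rw [inv_inv] at h1
      refine ⟨_, ⟨_, h1, rfl⟩, ?_⟩
      simp [Subgroup.smul_def]

theorem card_Om {P L : Subgroup (Perm α)} {Δ : Finset α} {k p : ℕ} (hp : p.Prime)
    (hL : ∀ l ∈ L, ∀ v ∈ P, l * v * l⁻¹ ∈ P)
    (hLΔ : ∀ l ∈ L, ∀ x, l x ∈ Δ ↔ x ∈ Δ) (hO : ∀ x, x ∉ Δ → (Orb P x).ncard = p)
    (hPfix : ∀ v ∈ P, ∀ x ∈ Δ, v x = x)
    (hc : (Δᶜ).card = k * p) [Fintype (OmSub P L Δ hL hLΔ)] :
    Fintype.card (OmSub P L Δ hL hLΔ) = k := by
  let f : {x // x ∉ Δ} → OmSub P L Δ hL hLΔ := fun x => ⟨Orb P x.1, x.1, x.2, rfl⟩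
  have hfib : ∀ ω : OmSub P L Δ hL hLΔ, Fintype.card {y // f y = ω} = p := by
    rintro ⟨s, x₀, hx₀, rfl⟩
    rw [← Nat.card_eq_fintype_card, ← hO x₀ hx₀, ← Nat.card_coe_set_eq]
    have hOΔ : ∀ z ∈ Orb P x₀, z ∉ Δ := by
      rintro _ ⟨v, hv, rfl⟩ h
      have h1 := hPfix v hv _ h
      have h2 : v x₀ = x₀ := v.injective h1
      rw [h2] at h
      exact hx₀ h
    refine Nat.card_congr ⟨fun y => ⟨y.1.1, ?_⟩, fun z => ⟨⟨z.1, hOΔ _ z.2⟩, ?_⟩, ?_, ?_⟩
    · have h1 : Orb P y.1.1 = Orb P x₀ := congrArg Subtype.val y.2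
      have h2 := mem_Orb_self (P := P) y.1.1
      rwa [h1] at h2
    · exact Subtype.ext (Orb_eq z.2)
    · intro y; rfl
    · intro z; rfl
  have h1 := Fintype.card_congr (Equiv.sigmaFiberEquiv f)
  rw [Fintype.card_sigma] at h1
  simp only [hfib, Finset.sum_const, Finset.card_univ, smul_eq_mul] at h1
  have h2 : Fintype.card {x // x ∉ Δ} = k * p := by
    rw [← hc, Fintype.card_subtype]
    congr 1
    ext x
    simp
  rw [h2] at h1
  exact Nat.eq_of_mul_eq_mul_right hp.pos h1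

theorem cover3 {T : Type*} [Fintype T] (h : Fintype.card T ≤ 3) (hne : 0 < Fintype.card T) :
    ∃ a b c : T, ∀ t, t = a ∨ t = b ∨ t = c := by
  let e := Fintype.equivFin T
  have hlt1 : min 1 (Fintype.card T - 1) < Fintype.card T := by omega
  have hlt2 : min 2 (Fintype.card T - 1) < Fintype.card T := by omega
  refine ⟨e.symm ⟨0, hne⟩, e.symm ⟨_, hlt1⟩, e.symm ⟨_, hlt2⟩, fun t => ?_⟩
  have h1 := (e t).2
  have h2 : ∀ i : Fin (Fintype.card T), (e t).1 = i.1 → t = e.symm i := by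
    intro i hi
    have : e t = i := Fin.ext hi
    rw [← this]; simp
  have h3 : (e t).1 = 0 ∨ (e t).1 = min 1 (Fintype.card T - 1) ∨ (e t).1 = min 2 (Fintype.card T - 1) := by
    omega
  rcases h3 with h3 | h3 | h3
  · exact Or.inl (h2 _ h3)
  · exact Or.inr (Or.inl (h2 _ h3))
  · exact Or.inr (Or.inr (h2 _ h3))

theorem dt_pow {D : Type*} [DecidableEq D] {a b c d : D} (hab : a ≠ b) (hac : a ≠ c) (had : a ≠ d)
    (hbc : b ≠ c) (hbd : b ≠ d) (hcd : c ≠ d) {p : ℕ} (hp : Odd p) :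
    (swap a b * swap c d) ^ p = swap a b * swap c d := by
  have h := congrArg (tr (em4 a b c d hab hac had hbc hbd hcd))
    (show (swap (0 : Fin 4) 1 * swap 2 3) ^ 2 = 1 from by decide)
  simp only [map_pow, map_mul, map_one, tr_swap] at h
  have h2 : (swap a b * swap c d) ^ 2 = 1 := h
  obtain ⟨m, rfl⟩ := hp
  rw [pow_succ, pow_mul, h2, one_pow, one_mul]

theorem pow_three_form {D : Type*} [Fintype D] [DecidableEq D] {σ : Perm D} (hσ : σ.IsThreeCycle) {p : ℕ}
    (hp : p % 3 ≠ 0) : (σ ^ p).IsThreeCycle := by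
  have h3 : σ ^ 3 = 1 := by
    have := hσ.orderOf
    rw [← this]; exact pow_orderOf_eq_one σ
  have h1 : σ ^ p = σ ^ (p % 3) := by
    conv_lhs => rw [← Nat.div_add_mod p 3, pow_add, pow_mul, h3, one_pow, one_mul]
  rw [h1]
  have h2 : p % 3 = 1 ∨ p % 3 = 2 := by omega
  rcases h2 with h2 | h2
  · rw [h2, pow_one]; exact hσ
  · rw [h2, sq]; exact hσ.isThreeCycle_sq

end aux

/-- Let `n = kp + r` with `p` prime, `1 ≤ k < p` and `r > k`, excluding the case `k = 1, r = 2`. Then a permutation group of degree `n` that is `(r + 1)`-fold transitive contains the alternating group. -/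
theorem result {α : Type*} [Fintype α] [DecidableEq α] (G : Subgroup (Equiv.Perm α)) {k p r : ℕ} (hp : p.Prime) (hn : Fintype.card α = k * p + r) (hk : 1 ≤ k) (hpk : k < p) (hrk : k < r) (hex : ¬ (k = 1 ∧ r = 2)) (hG : MulAction.IsMultiplyPretransitive G α (r + 1)) : alternatingGroup α ≤ G := by
  classical
  have hr3 : 3 ≤ r := by omega
  have hkp : p ≤ k * p := Nat.le_mul_of_pos_left p hk
  have hp2 := hp.two_le
  have hnat : Nat.card α = k * p + r := by rw [Nat.card_eq_fintype_card, hn]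
  have h4t : MulAction.IsMultiplyPretransitive G α 4 :=
    MulAction.isMultiplyPretransitive_of_le (n := r + 1) (by omega) (by rw [hnat]; omega)
  have h2t : MulAction.IsMultiplyPretransitive G α 2 :=
    MulAction.isMultiplyPretransitive_of_le (n := r + 1) (by omega) (by rw [hnat]; omega)
  have hprim : MulAction.IsPreprimitive G α := MulAction.isPreprimitive_of_is_two_pretransitive h2t
  have hn5 : 5 ≤ Fintype.card α := by omega
  by_cases hspecial : k = 2 ∧ r = 3 ∧ p = 3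
  · obtain ⟨rfl, rfl, rfl⟩ := hspecial
    exact nine h4t hn
  obtain ⟨Δ, P, L, hΔ, hPG, hLG, hPfix, hPp, hO, hLnorm, hLinv, hLsurj⟩ := exists_config hp hn hk hpk hG
  have hΓ : (Δᶜ).card = k * p := by
    rw [Finset.card_compl, hn, hΔ]; omega
  by_cases hW : ∀ t ∈ P, ∀ x, x ∉ Δ → (∀ z, z ∉ Orb P x → t z = z) → t = 1
  swap
  · -- a `p`-cycle
    push Not at hW
    obtain ⟨t, ht, x, hx, hsup, ht1⟩ := hW
    obtain ⟨y, hy⟩ : ∃ y, t y ≠ y := by
      by_contra hcon
      push Not at hcon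
      exact ht1 (Equiv.ext hcon)
    have hyO : y ∈ Orb P x := by
      by_contra hcon
      exact hy (hsup y hcon)
    have hOy : Orb P y = Orb P x := Orb_eq hyO
    have hOyc : (Orb P y).ncard = p := by rw [hOy]; exact hO x hx
    have hmem : ∀ w, t w ≠ w → w ∈ Orb P y := by
      intro w hw
      rw [hOy]
      by_contra hcon
      exact hw (hsup w hcon)
    have hpow : ∀ w ∈ Orb P y, ∃ e : ℕ, (t ^ e) y = w := by
      rintro _ ⟨v, hv, rfl⟩
      obtain ⟨e, he⟩ := exists_pow hp hPp hOyc ht hy hv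
      exact ⟨e, (he y (mem_Orb_self y)).symm⟩
    have hcyc : t.IsCycle := by
      refine ⟨y, hy, fun w hw => ?_⟩
      obtain ⟨e, he⟩ := hpow w (hmem w hw)
      exact ⟨e, by simpa using he⟩
    have hsupp : t.support.card = p := by
      rw [← hOyc, Set.ncard_eq_toFinset_card']
      congr 1
      ext w
      simp only [mem_support, Set.mem_toFinset]
      refine ⟨hmem w, fun hw h => ?_⟩
      obtain ⟨e, he⟩ := hpow w hw
      apply hy
      have h1 : (t ^ e) (t y) = (t ^ e) y := by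
        rw [← Perm.mul_apply, ← pow_succ, pow_succ', Perm.mul_apply, he, h]
      exact (t ^ e).injective h1
    exact Cfsg.Agent.S0713.result G hprim hp hn5 (by omega) hcyc hsupp (hPG ht)
  -- no element is supported on a single orbit
  have hk2 : 2 ≤ k := by
    by_contra hcon
    have hk1 : k = 1 := by omega
    subst hk1
    obtain ⟨x₀, hx₀⟩ : (Δᶜ).Nonempty := Finset.card_pos.mp (by omega)
    rw [Finset.mem_compl] at hx₀
    obtain ⟨c, hc, hcx⟩ := exists_move hp (hO x₀ hx₀)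
    apply hcx
    rw [hW c hc x₀ hx₀ ?_]
    · rfl
    intro z hz
    by_cases hzΔ : z ∈ Δ
    · exact hPfix c hc z hzΔ
    · exfalso
      apply hz
      have hsub : Orb P x₀ ⊆ ((Δᶜ : Finset α) : Set α) := by
        rintro _ ⟨v, hv, rfl⟩
        simp only [Finset.coe_compl, Set.mem_compl_iff, Finset.mem_coe]
        intro h
        have h1 := hPfix v hv _ h
        have h2 : v x₀ = x₀ := v.injective h1
        rw [h2] at h
        exact hx₀ h
      have heq := Set.eq_of_subset_of_ncard_le hsub (by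
        rw [Set.ncard_coe_finset, hΓ, hO x₀ hx₀, one_mul]) (Finset.finite_toSet _)
      rw [heq]
      simpa using hzΔ
  have hpodd : 3 ≤ p := by omega
  have hpodd' : Odd p := hp.odd_of_ne_two (by omega)
  let Om := OmSub P L Δ hLnorm hLinv
  letI : Fintype Om := Fintype.ofFinite _
  have hcardOm : Fintype.card Om = k := card_Om hp hLnorm hLinv hO hPfix hΓ
  let ρ : L →* Perm Δ := rhoL Δ L hLinv
  have hρ : Function.Surjective ρ := by
    intro σ
    obtain ⟨l, hl, h⟩ := hLsurj σ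
    exact ⟨⟨l, hl⟩, by ext y; exact h y⟩
  let φ : L →* Perm Om := MulAction.toPermHom L Om
  let M : Subgroup L := φ.ker
  have hcardΔ : Fintype.card Δ = r := by rw [Fintype.card_coe, hΔ]
  have hu := exists_mem_ker_ne ρ hρ φ (by omega) (by omega)
  have hMpres : ∀ u ∈ M, ∀ x, x ∉ Δ → ∀ z, z ∈ Orb P x ↔ (u : Perm α) z ∈ Orb P x := by
    intro u hu x hx z
    have h1 : φ u = 1 := hu
    have h2 : u • (Orb P x) = Orb P x := by
      have := congrArg (fun s : Perm Om => ((s ⟨Orb P x, x, hx, rfl⟩ : Om) : Set α)) h1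
      exact this
    constructor
    · intro hz
      rw [← h2]
      exact Set.smul_mem_smul_set hz
    · intro hz
      rw [← h2] at hz
      obtain ⟨w, hw, e⟩ := Set.mem_smul_set.mp hz
      have : w = z := (u : Perm α).injective e
      rwa [← this]
  have hnL : ∀ l : L, ∀ v ∈ P, (l : Perm α) * v * (l : Perm α)⁻¹ ∈ P := fun l => hLnorm l l.2
  have hnL' : ∀ l : L, ∀ v ∈ P, (l : Perm α)⁻¹ * v * (l : Perm α) ∈ P := by
    intro l v hv
    have := hLnorm _ (L.inv_mem l.2) v hv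
    rwa [inv_inv] at this
  let C : Subgroup L :=
    { carrier := {y | y ∈ M ∧ ∀ v ∈ P, (y : Perm α) * v * (y : Perm α)⁻¹ = v}
      mul_mem' := by
        rintro a b ⟨ha, ha'⟩ ⟨hb, hb'⟩
        refine ⟨M.mul_mem ha hb, fun v hv => ?_⟩
        have e1 : ((a * b : L) : Perm α) * v * ((a * b : L) : Perm α)⁻¹ =
            (a : Perm α) * ((b : Perm α) * v * (b : Perm α)⁻¹) * (a : Perm α)⁻¹ := by
          simp only [Subgroup.coe_mul]; group
        rw [e1, hb' v hv, ha' v hv]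
      one_mem' := ⟨M.one_mem, fun v _ => by simp⟩
      inv_mem' := by
        rintro a ⟨ha, ha'⟩
        refine ⟨M.inv_mem ha, fun v hv => ?_⟩
        have e1 : ((a⁻¹ : L) : Perm α) * ((a : Perm α) * v * (a : Perm α)⁻¹) * ((a⁻¹ : L) : Perm α)⁻¹ = v := by
          simp only [Subgroup.coe_inv]; group
        rwa [ha' v hv] at e1 }
  haveI hMnormal : M.Normal := φ.normal_ker
  haveI hCnormal : C.Normal := by
    refine ⟨fun y hy n => ⟨hMnormal.conj_mem _ hy.1 n, fun v hv => ?_⟩⟩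
    have e1 : ((n * y * n⁻¹ : L) : Perm α) * v * ((n * y * n⁻¹ : L) : Perm α)⁻¹ =
        (n : Perm α) * ((y : Perm α) * ((n : Perm α)⁻¹ * v * (n : Perm α)) * (y : Perm α)⁻¹) * (n : Perm α)⁻¹ := by
      simp only [Subgroup.coe_mul, Subgroup.coe_inv]; group
    rw [e1, hy.2 _ (hnL' n v hv)]
    group
  have hCpow : ∀ y ∈ C, ∀ x, x ∉ Δ → ((y : Perm α) ^ p) x = x := by
    intro y hy x hx
    exact pow_p_of_centralizes hp hPp (hO x hx) hy.2 ((hMpres y hy.1 x hx x).mp (mem_Orb_self x))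
  have hfinal : ∀ y ∈ C, (y : Perm α) ^ p = Perm.ofSubtype ((ρ y) ^ p) := by
    intro y hy
    ext z
    by_cases hz : z ∈ Δ
    · rw [Perm.ofSubtype_apply_of_mem _ hz, ← map_pow]
      rfl
    · rw [Perm.ofSubtype_apply_of_not_mem _ hz, hCpow y hy z hz]
  have dt_close : ∀ y ∈ C, ∀ a b c d : Δ, a ≠ b → a ≠ c → a ≠ d → b ≠ c → b ≠ d → c ≠ d →
      ρ y = swap a b * swap c d → alternatingGroup α ≤ G := by
    intro y hy a b c d hab hac had hbc hbd hcd e
    have h1 := hfinal y hy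
    rw [e, dt_pow hab hac had hbc hbd hcd hpodd', map_mul, Perm.ofSubtype_swap_eq, Perm.ofSubtype_swap_eq] at h1
    have h2 : swap (a : α) b * swap (c : α) d ∈ G := by
      rw [← h1]; exact G.pow_mem (hLG y.2) p
    exact dt_done h4t hprim hn5 (fun h => hab (Subtype.ext h)) (fun h => hac (Subtype.ext h))
      (fun h => had (Subtype.ext h)) (fun h => hbc (Subtype.ext h)) (fun h => hbd (Subtype.ext h))
      (fun h => hcd (Subtype.ext h)) h2
  have three_close : ∀ y ∈ C, ∀ a b c : Δ, a ≠ b → a ≠ c → b ≠ c → p ≠ 3 →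
      ρ y = swap a b * swap a c → alternatingGroup α ≤ G := by
    intro y hy a b c hab hac hbc hp3 e
    have h1 := hfinal y hy
    have h3 : (ρ y).IsThreeCycle := by
      rw [e]; exact isThreeCycle_swap_mul_swap_same hab hac hbc
    have hmod : p % 3 ≠ 0 := by
      intro h
      exact hp3 ((Nat.prime_dvd_prime_iff_eq Nat.prime_three hp).mp (Nat.dvd_of_mod_eq_zero h)).symm
    have h4 := pow_three_form h3 hmod
    have h5 : ((y : Perm α) ^ p).IsThreeCycle := by
      rw [h1]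
      show (Perm.ofSubtype ((ρ y) ^ p)).cycleType = {3}
      rw [Perm.cycleType_ofSubtype]
      exact h4
    exact alternatingGroup_le_of_isPreprimitive_of_isThreeCycle_mem hprim h5 (G.pow_mem (hLG y.2) p)
  by_cases hr5 : 5 ≤ r
  · have hMC : ∀ u ∈ M, ∀ w ∈ M, ⁅u, w⁆ ∈ C := by
      intro u hu w hw
      refine ⟨comm_mem_left M hu w, fun v hv => ?_⟩
      exact comm_centralizes hp hPp hPfix hO (hnL u) (hnL w) (hnL' u) (hnL' w) (hMpres u hu) (hMpres w hw) hv
    obtain ⟨y, hy, a, b, c, d, hab, hac, had, hbc, hbd, hcd, e⟩ :=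
      abs5 (by rw [hcardΔ]; exact hr5) ρ hρ M C hMC hu
    exact dt_close y hy a b c d hab hac had hbc hbd hcd e
  -- at most three orbits: scalars
  obtain ⟨s₁, s₂, s₃, hcov⟩ := cover3 (T := Om) (by omega) (by omega)
  rcases s₁ with ⟨_, x₁, hx₁, rfl⟩
  rcases s₂ with ⟨_, x₂, hx₂, rfl⟩
  rcases s₃ with ⟨_, x₃, hx₃, rfl⟩
  have hcovz : ∀ z, z ∉ Δ → z ∈ Orb P x₁ ∨ z ∈ Orb P x₂ ∨ z ∈ Orb P x₃ := by
    intro z hz
    have hzO := mem_Orb_self (P := P) z
    rcases hcov ⟨Orb P z, z, hz, rfl⟩ with h | h | h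
    · have h' : Orb P z = Orb P x₁ := congrArg Subtype.val h
      rw [h'] at hzO
      exact Or.inl hzO
    · have h' : Orb P z = Orb P x₂ := congrArg Subtype.val h
      rw [h'] at hzO
      exact Or.inr (Or.inl hzO)
    · have h' : Orb P z = Orb P x₃ := congrArg Subtype.val h
      rw [h'] at hzO
      exact Or.inr (Or.inr hzO)
  have hMCl : ∀ u ∈ M, ∀ l : L, ⁅u, l⁆ ∈ C := by
    intro u hu l
    refine ⟨comm_mem_left M hu l, fun v hv => ?_⟩
    obtain ⟨a, ha⟩ := exists_global_scalar hp hPp hPfix hO hW hx₁ hx₂ hx₃ hcovz (hnL u) (hMpres u hu)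
    exact scalar_comm_centralizes ha (hnL' u) (hnL l) (hnL' l) hv
  by_cases hr4 : r = 4
  · obtain ⟨y, hy, a, b, c, d, hab, hac, had, hbc, hbd, hcd, e⟩ :=
      abs4 (by rw [hcardΔ]; omega) ρ hρ M C hMCl hu
    exact dt_close y hy a b c d hab hac had hbc hbd hcd e
  · have hr : r = 3 := by omega
    have hk' : k = 2 := by omega
    have hp3 : p ≠ 3 := fun h => hspecial ⟨hk', hr, h⟩
    obtain ⟨y, hy, h⟩ := abs3 (by rw [hcardΔ]; omega) ρ hρ M C hMCl hu
    rcases h with ⟨a, b, c, hab, hac, hbc, e⟩ | ⟨a, b, c, d, hab, hac, had, hbc, hbd, hcd, e⟩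
    · exact three_close y hy a b c hab hac hbc hp3 e
    · exact dt_close y hy a b c d hab hac had hbc hbd hcd e

end Cfsg.Agent.S4220
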