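import Cfsg.Statements.S4222

set_option autoImplicit false
open Cfsg

namespace Cfsg.Agent.S4222

/-- If a normal subgroup `N` of a finite group is complete (its centre is trivial and every automorphism of `N` is inner), then the group is the internal direct product of `N` and the centralizer of `N`: the centralizer is a complement to `N`. -/
theorem result {T : Type*} [Group T] [Finite T] (N : Subgroup T) [N.Normal] (hz : Subgroup.center ↥N = ⊥) (ha : Function.Surjective (MulAut.conj : ↥N →* MulAut ↥N)) : (Subgroup.centralizer (N : Set T)).IsComplement' N := by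
  apply Subgroup.isComplement'_of_disjoint_and_mul_eq_univ
  · rw [Subgroup.disjoint_def]
    intro x hxC hxN
    have : (⟨x, hxN⟩ : N) ∈ Subgroup.center N := by
      rw [Subgroup.mem_center_iff]
      rintro ⟨y, hy⟩
      apply Subtype.ext
      exact Subgroup.mem_centralizer_iff.mp hxC y hy
    rw [hz, Subgroup.mem_bot] at this
    exact congrArg Subtype.val this
  · rw [Set.eq_univ_iff_forall]
    intro t
    -- conjugation by `t` is an automorphism of `N`
    let φ : MulAut N := MulAut.conjNormal t
    obtain ⟨n, hn⟩ := ha φ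
    have hc : ∀ y ∈ N, (n : T) * y * (n : T)⁻¹ = t * y * t⁻¹ := by
      intro y hy
      have := congrArg (fun f : MulAut N => ((f ⟨y, hy⟩ : N) : T)) hn
      simpa [φ, MulAut.conj_apply, MulAut.conjNormal_apply] using this
    refine Set.mem_mul.mpr ⟨t * (n : T)⁻¹, ?_, (n : T), n.2, by simp⟩
    rw [SetLike.mem_coe, Subgroup.mem_centralizer_iff]
    intro y hy
    have hy' : (n : T)⁻¹ * y * (n : T) ∈ N := by
      have := N.mul_mem (N.mul_mem (N.inv_mem n.2) hy) n.2
      exact this
    have h1 := hc _ hy'
    have h2 : (n : T) * ((n : T)⁻¹ * y * (n : T)) * (n : T)⁻¹ = y := by group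
    rw [h2] at h1
    rw [eq_comm]
    calc t * (n : T)⁻¹ * y = (t * ((n : T)⁻¹ * y * (n : T)) * t⁻¹) * (t * (n : T)⁻¹) := by group
      _ = y * (t * (n : T)⁻¹) := by rw [← h1]

end Cfsg.Agent.S4222
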