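import Cfsg.Statements.S4223
import Mathlib

set_option autoImplicit false
set_option linter.unusedVariables false
set_option linter.style.haveILetI false
set_option linter.unusedSectionVars false
open Cfsg

namespace Cfsg.Agent.S4223

universe u v

/-- Indecomposable. -/
def Indec (A : Type*) [Group A] : Prop :=
  Nontrivial A ∧ ∀ H K : Subgroup A, H.Normal → K.Normal → H ⊓ K = ⊥ → H ⊔ K = ⊤ → H = ⊥ ∨ K = ⊥

/-- Normal endomorphism. -/
def IsNormalEnd {A : Type*} [Group A] (f : A →* A) : Prop :=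
  ∀ a x, f (a * x * a⁻¹) = a * f x * a⁻¹

theorem exists_idem {M : Type*} [Monoid M] [Finite M] (x : M) :
    ∃ N : ℕ, 1 ≤ N ∧ x ^ N * x ^ N = x ^ N := by
  have hninj : ¬ Function.Injective (fun k : ℕ => x ^ (k + 1)) := not_injective_infinite_finite _
  simp only [Function.Injective, not_forall] at hninj
  obtain ⟨a, b, hab, hne⟩ := hninj
  wlog hlt : a < b generalizing a b
  · exact this b a hab.symm (Ne.symm hne) (by omega)
  obtain ⟨d, rfl⟩ := Nat.exists_eq_add_of_lt hlt
  have hper : ∀ m k : ℕ, x ^ (a + 1 + m + k * (d + 1)) = x ^ (a + 1 + m) := by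
    intro m k
    induction k with
    | zero => simp
    | succ k ih =>
      have h1 : x ^ (a + 1 + d + 1) = x ^ (a + 1) := by
        have : a + d + 1 + 1 = a + 1 + d + 1 := by omega
        rw [← this]; exact hab.symm
      calc x ^ (a + 1 + m + (k + 1) * (d + 1))
          = x ^ (a + 1 + d + 1) * x ^ (m + k * (d + 1)) := by
            rw [← pow_add]; congr 1; ring
        _ = x ^ (a + 1) * x ^ (m + k * (d + 1)) := by rw [h1]
        _ = x ^ (a + 1 + m + k * (d + 1)) := by
            rw [← pow_add]; congr 1; ring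
        _ = _ := ih
  refine ⟨(a + 1) * (d + 1), Nat.mul_pos (by omega) (by omega), ?_⟩
  rw [← pow_add]
  have h1 := hper (a * d + d) (a + 1)
  have h2 : a + 1 + (a * d + d) = (a + 1) * (d + 1) := by ring
  rw [h2] at h1
  exact h1

theorem isNormalEnd_iterate {A : Type*} [Group A] {f : A →* A} (hf : IsNormalEnd f) (n : ℕ) (a x : A) :
    f^[n] (a * x * a⁻¹) = a * f^[n] x * a⁻¹ := by
  induction n with
  | zero => rfl
  | succ n ih => rw [Function.iterate_succ_apply', Function.iterate_succ_apply', ih, hf]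

theorem fitting {A : Type*} [Group A] [Finite A] (hA : Indec A) (f : A →* A) (hf : IsNormalEnd f) :
    Function.Bijective f ∨ ∃ n : ℕ, ∀ x, f^[n] x = 1 := by
  haveI : Finite (Monoid.End A) :=
    Finite.of_injective (fun f : Monoid.End A => (f : A → A)) DFunLike.coe_injective
  let f' : Monoid.End A := f
  obtain ⟨N, hN, hid⟩ := exists_idem f'
  let g : Monoid.End A := f' ^ N
  let ε : A →* A := g
  have hεf : ∀ x, ε x = f^[N] x := by
    intro x
    show (f' ^ N) x = _
    rw [Monoid.End.coe_pow]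
    rfl
  have hεε : ∀ x, ε (ε x) = ε x := by
    intro x
    have h0 : (g * g) x = g x := DFunLike.congr_fun hid x
    exact h0
  have hnorm : (MonoidHom.range ε).Normal := by
    refine ⟨?_⟩
    rintro _ ⟨z, rfl⟩ g
    refine ⟨g * z * g⁻¹, ?_⟩
    rw [hεf, hεf, isNormalEnd_iterate hf]
  have hinf : ε.ker ⊓ ε.range = ⊥ := by
    rw [eq_bot_iff]
    rintro y ⟨hy1, z, rfl⟩
    have hy1' : ε z ∈ ε.ker := hy1
    rw [MonoidHom.mem_ker, hεε] at hy1'
    rw [Subgroup.mem_bot, hy1']
  have hsup : ε.ker ⊔ ε.range = ⊤ := by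
    rw [eq_top_iff]
    intro x _
    have hx : x = (x * (ε x)⁻¹) * ε x := by group
    rw [hx]
    refine Subgroup.mul_mem _ (Subgroup.mem_sup_left ?_) (Subgroup.mem_sup_right ⟨x, rfl⟩)
    rw [MonoidHom.mem_ker, map_mul, map_inv, hεε]
    group
  rcases hA.2 _ _ inferInstance hnorm hinf hsup with h | h
  · left
    apply Finite.injective_iff_bijective.mp
    have h1 : Function.Injective ε := (MonoidHom.ker_eq_bot_iff ε).mp h
    have h2 : (⇑ε) = (f^[N - 1]) ∘ f := by
      funext x
      rw [hεf]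
      conv_lhs => rw [show N = (N - 1) + 1 by omega]
      rw [Function.iterate_succ_apply]
      rfl
    rw [h2] at h1
    exact Function.Injective.of_comp h1
  · right
    refine ⟨N, fun x => ?_⟩
    rw [← hεf]
    have : ε x ∈ ε.range := ⟨x, rfl⟩
    rwa [h, Subgroup.mem_bot] at this

theorem sum_lemma {A : Type*} [Group A] [Finite A] (hA : Indec A) (φ ψ θ : A →* A)
    (hφ : IsNormalEnd φ) (hψ : IsNormalEnd ψ) (hθ : ∀ x, θ x = φ x * ψ x)
    (hb : Function.Bijective θ) : Function.Bijective φ ∨ Function.Bijective ψ := by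
  have hθn : IsNormalEnd θ := by
    intro a x
    rw [hθ, hθ, hφ, hψ]
    group
  set θe := MulEquiv.ofBijective θ hb with hθe
  have hθe1 : ∀ x, θe x = θ x := fun x => rfl
  set φ' : A →* A := φ.comp θe.symm.toMonoidHom with hφ'
  have hφ'1 : ∀ x, φ' x = φ (θe.symm x) := fun x => rfl
  have hφ'2 : ∀ y, φ' (θ y) = φ y := by
    intro y
    rw [hφ'1, ← hθe1, MulEquiv.symm_apply_apply]
  have hn' : IsNormalEnd φ' := by
    intro a x
    obtain ⟨y, rfl⟩ := hb.2 x
    rw [← hθn, hφ'2, hφ'2, hφ]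
  rcases fitting hA φ' hn' with h | ⟨n, hn⟩
  · left
    have : (⇑φ) = φ' ∘ θ := by
      funext y; exact (hφ'2 y).symm
    rw [this]
    exact h.comp hb
  · right
    apply Finite.injective_iff_bijective.mp
    rw [injective_iff_map_eq_one]
    intro y hy
    have h1 : θ y = φ' (θ y) := by
      rw [hφ'2, hθ, hy, mul_one]
    have h2 : ∀ k : ℕ, φ'^[k] (θ y) = θ y := by
      intro k
      induction k with
      | zero => rfl
      | succ k ih => rw [Function.iterate_succ_apply', ih, ← h1]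
    have h3 := hn (θ y)
    rw [h2] at h3
    exact (injective_iff_map_eq_one θ).mp hb.1 y h3

section pi

variable {ι : Type} {κ : Type} [Fintype ι] [Fintype κ] [DecidableEq ι] [DecidableEq κ]
  {A : ι → Type u} {B : κ → Type v} [∀ i, Group (A i)] [∀ j, Group (B j)]

/-- Restriction to a subset of the factors. -/
def piRes (B : κ → Type v) [∀ j, Group (B j)] (s : Finset κ) : (∀ j, B j) →* (∀ j, B j) where
  toFun h j := if j ∈ s then h j else 1
  map_one' := by funext j; simp
  map_mul' a b := by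
    funext j
    by_cases hj : j ∈ s <;> simp [hj]

theorem piRes_apply (s : Finset κ) (h : ∀ j, B j) (j : κ) :
    piRes B s h j = if j ∈ s then h j else 1 := rfl

theorem piRes_conj (s : Finset κ) (h k : ∀ j, B j) :
    piRes B s (h * k * h⁻¹) = h * piRes B s k * h⁻¹ := by
  funext j
  by_cases hj : j ∈ s <;> simp [piRes_apply, hj]

theorem piRes_insert {j : κ} {t : Finset κ} (hj : j ∉ t) (h : ∀ j, B j) :
    piRes B (insert j t) h = piRes B {j} h * piRes B t h := by
  funext k
  by_cases hk : k = j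
  · subst hk
    simp [piRes_apply, hj]
  · simp [piRes_apply, hk]

theorem piRes_singleton (j : κ) (h : ∀ j, B j) :
    piRes B {j} h = MonoidHom.mulSingle B j (h j) := by
  funext k
  by_cases hk : k = j
  · subst hk
    simp [piRes_apply]
  · simp [piRes_apply, hk]

/-- The composite endomorphism of a factor. -/
def cmp (e : (∀ i, A i) ≃* (∀ j, B j)) (i₀ : ι) (s : Finset κ) : A i₀ →* A i₀ :=
  (Pi.evalMonoidHom A i₀).comp (e.symm.toMonoidHom.comp ((piRes B s).comp
    (e.toMonoidHom.comp (MonoidHom.mulSingle A i₀))))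

theorem cmp_apply (e : (∀ i, A i) ≃* (∀ j, B j)) (i₀ : ι) (s : Finset κ) (x : A i₀) :
    cmp e i₀ s x = e.symm (piRes B s (e (MonoidHom.mulSingle A i₀ x))) i₀ := rfl

theorem cmp_normal (e : (∀ i, A i) ≃* (∀ j, B j)) (i₀ : ι) (s : Finset κ) :
    IsNormalEnd (cmp e i₀ s) := by
  intro a x
  rw [cmp_apply, cmp_apply]
  set m := MonoidHom.mulSingle A i₀ with hm
  have h1 : m (a * x * a⁻¹) = m a * m x * (m a)⁻¹ := by simp only [map_mul, map_inv]
  have h2 : e (m a * m x * (m a)⁻¹) = e (m a) * e (m x) * (e (m a))⁻¹ := by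
    simp only [map_mul, map_inv]
  rw [h1, h2, piRes_conj]
  have h3 : ∀ Y, e.symm (e (m a) * Y * (e (m a))⁻¹) = m a * e.symm Y * (m a)⁻¹ := by
    intro Y
    simp only [map_mul, map_inv, MulEquiv.symm_apply_apply]
  rw [h3]
  simp [hm]

theorem cmp_insert (e : (∀ i, A i) ≃* (∀ j, B j)) (i₀ : ι) {j : κ} {t : Finset κ} (hj : j ∉ t)
    (x : A i₀) : cmp e i₀ (insert j t) x = cmp e i₀ {j} x * cmp e i₀ t x := by
  rw [cmp_apply, cmp_apply, cmp_apply, piRes_insert hj, map_mul]
  rfl

theorem cmp_univ (e : (∀ i, A i) ≃* (∀ j, B j)) (i₀ : ι) (x : A i₀) :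
    cmp e i₀ Finset.univ x = x := by
  have h1 : piRes B Finset.univ (e (MonoidHom.mulSingle A i₀ x)) = e (MonoidHom.mulSingle A i₀ x) := by
    funext j; simp [piRes_apply]
  rw [cmp_apply, h1, MulEquiv.symm_apply_apply]
  simp

theorem cmp_empty (e : (∀ i, A i) ≃* (∀ j, B j)) (i₀ : ι) (x : A i₀) :
    cmp e i₀ ∅ x = 1 := by
  have h1 : piRes B ∅ (e (MonoidHom.mulSingle A i₀ x)) = 1 := by
    funext j; simp [piRes_apply]
  rw [cmp_apply, h1, map_one]
  rfl

theorem exists_cmp_bij [∀ i, Finite (A i)] (e : (∀ i, A i) ≃* (∀ j, B j)) (i₀ : ι)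
    (hA : Indec (A i₀)) : ∃ j : κ, Function.Bijective (cmp e i₀ {j}) := by
  have key : ∀ s : Finset κ, Function.Bijective (cmp e i₀ s) →
      ∃ j : κ, Function.Bijective (cmp e i₀ {j}) := by
    intro s
    induction s using Finset.induction_on with
    | empty =>
      intro h
      exfalso
      haveI := hA.1
      obtain ⟨x, hx⟩ := exists_ne (1 : A i₀)
      apply hx
      apply h.1
      rw [cmp_empty, map_one]
    | insert j t hj ih =>
      intro h
      rcases sum_lemma hA _ _ _ (cmp_normal e i₀ {j}) (cmp_normal e i₀ t)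
        (cmp_insert e i₀ hj) h with h1 | h1
      · exact ⟨j, h1⟩
      · exact ih h1
  apply key Finset.univ
  have : (⇑(cmp e i₀ Finset.univ)) = id := funext (cmp_univ e i₀)
  rw [this]
  exact Function.bijective_id

/-- From a factor to a factor. -/
def fmap (e : (∀ i, A i) ≃* (∀ j, B j)) (i₀ : ι) (j : κ) : A i₀ →* B j :=
  (Pi.evalMonoidHom B j).comp (e.toMonoidHom.comp (MonoidHom.mulSingle A i₀))

/-- From a factor to a factor. -/
def hmap (e : (∀ i, A i) ≃* (∀ j, B j)) (i₀ : ι) (j : κ) : B j →* A i₀ :=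
  (Pi.evalMonoidHom A i₀).comp (e.symm.toMonoidHom.comp (MonoidHom.mulSingle B j))

theorem hmap_fmap (e : (∀ i, A i) ≃* (∀ j, B j)) (i₀ : ι) (j : κ) (x : A i₀) :
    hmap e i₀ j (fmap e i₀ j x) = cmp e i₀ {j} x := by
  rw [cmp_apply, piRes_singleton]
  rfl

theorem fmap_hmap (e : (∀ i, A i) ≃* (∀ j, B j)) (i₀ : ι) (j : κ) (y : B j) :
    fmap e i₀ j (hmap e i₀ j y) = cmp e.symm j {i₀} y := by
  rw [cmp_apply, piRes_singleton]
  rfl

theorem exchange [∀ i, Finite (A i)] [∀ j, Finite (B j)] (e : (∀ i, A i) ≃* (∀ j, B j)) (i₀ : ι)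
    (hA : Indec (A i₀)) (hB : ∀ j, Indec (B j)) :
    ∃ j : κ, Function.Bijective (fmap e i₀ j) ∧ Function.Bijective (hmap e i₀ j) := by
  obtain ⟨j, hj⟩ := exists_cmp_bij e i₀ hA
  refine ⟨j, ?_⟩
  have hc : (⇑(cmp e i₀ {j})) = hmap e i₀ j ∘ fmap e i₀ j := by
    funext x; exact (hmap_fmap e i₀ j x).symm
  have hfi : Function.Injective (fmap e i₀ j) := by
    have := hj.1
    rw [hc] at this
    exact Function.Injective.of_comp this
  have hhs : Function.Surjective (hmap e i₀ j) := by
    have := hj.2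
    rw [hc] at this
    exact Function.Surjective.of_comp this
  have hg : (⇑(cmp e.symm j {i₀})) = fmap e i₀ j ∘ hmap e i₀ j := by
    funext x; exact (fmap_hmap e i₀ j x).symm
  rcases fitting (hB j) (cmp e.symm j {i₀}) (cmp_normal e.symm j {i₀}) with h | ⟨n, hn⟩
  · rw [hg] at h
    exact ⟨⟨hfi, Function.Surjective.of_comp h.2⟩, ⟨Function.Injective.of_comp h.1, hhs⟩⟩
  · exfalso
    haveI := hA.1
    obtain ⟨x, hx⟩ := exists_ne (1 : A i₀)
    obtain ⟨y, rfl⟩ := hhs x
    apply hx
    have h1 : ∀ k : ℕ, hmap e i₀ j ((cmp e.symm j {i₀})^[k] y) =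
        (cmp e i₀ {j})^[k] (hmap e i₀ j y) := by
      intro k
      induction k with
      | zero => rfl
      | succ k ih =>
        rw [Function.iterate_succ_apply', Function.iterate_succ_apply', ← fmap_hmap e i₀ j,
          hmap_fmap, ih]
    have h2 := h1 n
    rw [hn, map_one] at h2
    have h3 : Function.Injective ((cmp e i₀ {j})^[n]) := hj.1.iterate n
    apply h3
    rw [← h2, Function.iterate_fixed (map_one _)]

/-- Extension by one. -/
def extH (A : ι → Type u) [∀ i, Group (A i)] (i₀ : ι) : (∀ i : {i // i ≠ i₀}, A i) →* (∀ i, A i) where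
  toFun x i := if h : i = i₀ then 1 else x ⟨i, h⟩
  map_one' := by
    funext i
    by_cases h : i = i₀ <;> simp [h]
  map_mul' a b := by
    funext i
    by_cases h : i = i₀ <;> simp [h]

/-- Restriction. -/
def resH (B : κ → Type v) [∀ j, Group (B j)] (j : κ) : (∀ k, B k) →* (∀ k : {k // k ≠ j}, B k) where
  toFun h k := h k
  map_one' := rfl
  map_mul' _ _ := rfl

/-- The map of the complements. -/
def Phi (e : (∀ i, A i) ≃* (∀ j, B j)) (i₀ : ι) (j : κ) :
    (∀ i : {i // i ≠ i₀}, A i) →* (∀ k : {k // k ≠ j}, B k) :=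
  (resH B j).comp (e.toMonoidHom.comp (extH A i₀))

theorem Phi_bij (e : (∀ i, A i) ≃* (∀ j, B j)) (i₀ : ι) (j : κ)
    (hh : Function.Bijective (hmap e i₀ j)) : Function.Bijective (Phi e i₀ j) := by
  constructor
  · rw [injective_iff_map_eq_one]
    intro x hx
    have h1 : e (extH A i₀ x) = MonoidHom.mulSingle B j (e (extH A i₀ x) j) := by
      funext k
      by_cases hk : k = j
      · subst hk; simp
      · have h2 := congrFun hx ⟨k, hk⟩
        have h3 : e (extH A i₀ x) k = 1 := h2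
        rw [h3]; simp [hk]
    have h4 : hmap e i₀ j (e (extH A i₀ x) j) = 1 := by
      show e.symm (MonoidHom.mulSingle B j (e (extH A i₀ x) j)) i₀ = 1
      rw [← h1, MulEquiv.symm_apply_apply]
      simp [extH]
    have h5 := (injective_iff_map_eq_one (hmap e i₀ j)).mp hh.1 _ h4
    rw [h5, map_one] at h1
    have h6 : extH A i₀ x = 1 := by
      have := congrArg e.symm h1
      simpa using this
    funext i
    have h7 := congrFun h6 i.1
    have h8 : extH A i₀ x i.1 = x i := by
      simp [extH, i.2]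
    rw [← h8, h7]
    rfl
  · intro y
    obtain ⟨b, hb⟩ := hh.2 (e.symm (extH B j y) i₀)⁻¹
    set z : ∀ i, A i := e.symm (extH B j y) * e.symm (MonoidHom.mulSingle B j b) with hz
    have hz0 : z i₀ = 1 := by
      have : e.symm (MonoidHom.mulSingle B j b) i₀ = hmap e i₀ j b := rfl
      simp only [hz, Pi.mul_apply]
      rw [this, hb]
      simp
    refine ⟨fun i => z i, ?_⟩
    have h1 : extH A i₀ (fun i => z i) = z := by
      funext i
      by_cases hi : i = i₀
      · subst hi
        simp [extH, hz0]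
      · simp [extH, hi]
    funext k
    show e (extH A i₀ (fun i => z i)) k = y k
    rw [h1, hz, map_mul, MulEquiv.apply_symm_apply, MulEquiv.apply_symm_apply]
    simp [extH, k.2]

end pi

theorem ks : ∀ (n : ℕ) (ι κ : Type) [Fintype ι] [Fintype κ] [DecidableEq ι] [DecidableEq κ]
    (A : ι → Type u) (B : κ → Type v) [∀ i, Group (A i)] [∀ j, Group (B j)]
    [∀ i, Finite (A i)] [∀ j, Finite (B j)] (hA : ∀ i, Indec (A i)) (hB : ∀ j, Indec (B j))
    (e : (∀ i, A i) ≃* (∀ j, B j)), Fintype.card ι = n →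
    ∃ σ : ι ≃ κ, ∀ i, Nonempty (A i ≃* B (σ i)) := by
  intro n
  induction n with
  | zero =>
    intro ι κ _ _ _ _ A B _ _ _ _ hA hB e hn
    haveI : IsEmpty ι := Fintype.card_eq_zero_iff.mp hn
    have hκ : IsEmpty κ := by
      refine ⟨fun j => ?_⟩
      haveI := (hB j).1
      obtain ⟨b, hb⟩ := exists_ne (1 : B j)
      apply hb
      have h1 : e.symm (MonoidHom.mulSingle B j b) = 1 := Subsingleton.elim _ _
      have h2 : MonoidHom.mulSingle B j b = 1 := by
        have := congrArg e h1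
        simpa using this
      have := congrFun h2 j
      simpa using this
    exact ⟨Equiv.equivOfIsEmpty ι κ, fun i => isEmptyElim i⟩
  | succ n ih =>
    intro ι κ _ _ _ _ A B _ _ _ _ hA hB e hn
    have hne : Nonempty ι := Fintype.card_pos_iff.mp (by omega)
    obtain ⟨i₀⟩ := hne
    obtain ⟨j, hf, hh⟩ := exchange e i₀ (hA i₀) hB
    have hcard : Fintype.card {i // i ≠ i₀} = n := by
      rw [Fintype.card_subtype_compl]
      simp [hn]
    obtain ⟨σ', hσ'⟩ := ih {i // i ≠ i₀} {k // k ≠ j} (fun i => A i) (fun k => B k)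
      (fun i => hA i) (fun k => hB k) (MulEquiv.ofBijective _ (Phi_bij e i₀ j hh)) hcard
    obtain ⟨σ, hσ0, hσ1⟩ : ∃ σ : ι ≃ κ, σ i₀ = j ∧ ∀ i (hi : i ≠ i₀), σ i = (σ' ⟨i, hi⟩ : κ) := by
      refine ⟨(Equiv.optionSubtypeNe i₀).symm.trans ((Equiv.optionCongr σ').trans
        (Equiv.optionSubtypeNe j)), ?_, ?_⟩
      · show Equiv.optionSubtypeNe j (Equiv.optionCongr σ' ((Equiv.optionSubtypeNe i₀).symm i₀)) = j
        rw [Equiv.optionSubtypeNe_symm_self]; rfl
      · intro i hi
        show Equiv.optionSubtypeNe j (Equiv.optionCongr σ' ((Equiv.optionSubtypeNe i₀).symm i)) = _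
        rw [Equiv.optionSubtypeNe_symm_of_ne hi]; rfl
    refine ⟨σ, fun i => ?_⟩
    by_cases hi : i = i₀
    · subst hi
      rw [hσ0]
      exact ⟨MulEquiv.ofBijective _ hf⟩
    · rw [hσ1 i hi]
      exact hσ' ⟨i, hi⟩

/-- If a finite group is isomorphic both to a direct product of `m` directly indecomposable nontrivial groups and to a direct product of `n` such groups (a group is directly indecomposable when it is not the internal direct product of two nontrivial normal subgroups), then `m = n` and the factors are isomorphic in pairs after a suitable matching. -/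
theorem result {m n : ℕ} {A : Fin m → Type*} {B : Fin n → Type*} [∀ i, Group (A i)] [∀ j, Group (B j)] [∀ i, Finite (A i)] [∀ j, Finite (B j)] (hA : ∀ i, Nontrivial (A i) ∧ ∀ H K : Subgroup (A i), H.Normal → K.Normal → H ⊓ K = ⊥ → H ⊔ K = ⊤ → H = ⊥ ∨ K = ⊥) (hB : ∀ j, Nontrivial (B j) ∧ ∀ H K : Subgroup (B j), H.Normal → K.Normal → H ⊓ K = ⊥ → H ⊔ K = ⊤ → H = ⊥ ∨ K = ⊥) (e : ((i : Fin m) → A i) ≃* ((j : Fin n) → B j)) : ∃ σ : Fin m ≃ Fin n, ∀ i, Nonempty (A i ≃* B (σ i)) :=
  ks m (Fin m) (Fin n) A B hA hB e (by simp)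

end Cfsg.Agent.S4223
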