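import Cfsg.Statements.S4224
import Cfsg.Agent.Lib.H20.Regular

set_option autoImplicit false
open Cfsg

namespace Cfsg.Agent.S4224

/-- In a regular `p`-group, for all elements `a`, `b` and every power `q = p^k`: `a^q` commutes with `b` if and only if the commutator `a⁻¹b⁻¹ab` has `q`-th power equal to `1`. -/
theorem result {G : Type*} [Group G] [Finite G] {p : ℕ} [Fact p.Prime] (hG : Cfsg.IsRegularPGroup p G) (a b : G) (k : ℕ) : a ^ p ^ k * b = b * a ^ p ^ k ↔ (a⁻¹ * b⁻¹ * a * b) ^ p ^ k = 1 := by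
  have hc : ∀ x y : G, x * y = y * x ↔ y⁻¹ * x * y = x := by
    intro x y
    constructor
    · intro h; rw [mul_assoc, h]; group
    · intro h
      calc x * y = y * (y⁻¹ * x * y) := by group
        _ = y * x := by rw [h]
  have hp : (b⁻¹ * a * b) ^ p ^ k = b⁻¹ * a ^ p ^ k * b := by
    have := conj_pow (a := b⁻¹) (b := a) (i := p ^ k)
    simpa using this
  constructor
  · intro h
    have h1 := (hc _ _).1 h
    have h2 : a ^ p ^ k = (b⁻¹ * a * b) ^ p ^ k := by rw [hp, h1]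
    have := Cfsg.Agent.H20.reg_fwd hG k a (b⁻¹ * a * b) h2
    have e : a⁻¹ * (b⁻¹ * a * b) = a⁻¹ * b⁻¹ * a * b := by group
    rwa [e] at this
  · intro h
    have e : a⁻¹ * (b⁻¹ * a * b) = a⁻¹ * b⁻¹ * a * b := by group
    rw [← e] at h
    have h3 := Cfsg.Agent.H20.reg_rev hG k _ a⁻¹ (by
      have e2 : (b⁻¹ * a * b)⁻¹ * a = ((a⁻¹ * (b⁻¹ * a * b))⁻¹) := by group
      rw [e2, inv_pow, h, inv_one] : ((b⁻¹ * a * b)⁻¹ * a) ^ p ^ k = 1)
    have e3 : (b⁻¹ * a * b)⁻¹ * a * a⁻¹ = (b⁻¹ * a * b)⁻¹ := by group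
    rw [e3, inv_pow, inv_pow, inv_inj, hp] at h3
    rw [hc]
    exact h3

end Cfsg.Agent.S4224
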