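import Cfsg.Statements.S4227
import Cfsg.Agent.S4218
import Cfsg.Agent.Lib.H18.PLen
import Cfsg.Agent.Lib.H06.PSolvable
import Cfsg.Agent.Lib.Lead.Burnside

set_option autoImplicit false
set_option linter.unusedSectionVars false
set_option linter.style.haveILetI false
open Cfsg

namespace Cfsg.Agent.S4227

open Cfsg.Agent.H01 Cfsg.Agent.H18
open scoped commutatorElement

theorem pow3 {M : Type*} [Monoid M] (x : M) : x ^ 3 = x * x * x := by
  rw [pow_succ, pow_two]

section abstract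

/-- The key computation on the module. -/
theorem core_lemma {W : Type*} [CommGroup W] (A B Y : W →* W)
    (h3 : ∀ v : W, v * v * v = 1)
    (hA : ∀ v, A (A v) = v) (hB : ∀ v, B (B v) = v) (hAB : ∀ v, A (B v) = B (A v))
    (hYA : ∀ v, Y (A v) = B (Y v)) (hYB : ∀ v, Y (B v) = A (B (Y v)))
    (hN : ∀ v, v * Y v * Y (Y v) = 1) : ∀ v, A v = v := by
  have h2 : ∀ v : W, v * v = 1 → v = 1 := by
    intro v hv
    have := h3 v
    rw [hv, one_mul] at this
    exact this
  have step1 : ∀ w : W, A w = w⁻¹ → B w = w⁻¹ → w = 1 := by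
    intro w hAw hBw
    have e1 : B (Y w) = (Y w)⁻¹ := by
      rw [← hYA, hAw, map_inv]
    have e2 : A (Y w) = Y w := by
      have := hYB w
      rw [hBw, map_inv, e1, map_inv] at this
      exact inv_injective this.symm
    have e3 : B (Y (Y w)) = Y (Y w) := by
      rw [← hYA, e2]
    have e4 : A (Y (Y w)) = (Y (Y w))⁻¹ := by
      have := hYB (Y w)
      rw [e1, map_inv, e3] at this
      exact this.symm
    have e5 := congrArg A (hN w)
    rw [map_mul, map_mul, hAw, e2, e4, map_one] at e5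
    have e6 : (Y w) * (Y w) = 1 := by
      calc (Y w) * (Y w) = (w * Y w * Y (Y w)) * (w⁻¹ * Y w * (Y (Y w))⁻¹) := by
            rw [mul_mul_mul_comm, mul_mul_mul_comm w]
            simp
        _ = 1 := by rw [hN w, e5, one_mul]
    have e7 := h2 _ e6
    have e8 := hN w
    rw [e7, map_one, mul_one, mul_one] at e8
    exact e8
  have step2 : ∀ w : W, A w = w⁻¹ → B w = w → w = 1 := by
    intro w hAw hBw
    have e1 : B (Y w) = (Y w)⁻¹ := by
      rw [← hYA, hAw, map_inv]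
    have e2 : A (Y w) = (Y w)⁻¹ := by
      have := hYB w
      rw [hBw, e1, map_inv] at this
      have h := congrArg (fun z => z⁻¹) this
      simpa using h.symm
    have e3 : B (Y (Y w)) = (Y (Y w))⁻¹ := by
      rw [← hYA, e2, map_inv]
    have e4 : A (Y (Y w)) = Y (Y w) := by
      have := hYB (Y w)
      rw [e1, map_inv, e3, map_inv] at this
      exact inv_injective this.symm
    have e5 := congrArg A (hN w)
    rw [map_mul, map_mul, hAw, e2, e4, map_one] at e5
    have e6 : (Y (Y w)) * (Y (Y w)) = 1 := by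
      calc (Y (Y w)) * (Y (Y w)) = (w * Y w * Y (Y w)) * (w⁻¹ * (Y w)⁻¹ * Y (Y w)) := by
            rw [mul_mul_mul_comm, mul_mul_mul_comm w]
            simp
        _ = 1 := by rw [hN w, e5, one_mul]
    have e7 := h2 _ e6
    have e8 := hN w
    rw [e7, mul_one] at e8
    have e9 : Y w = w⁻¹ := eq_inv_of_mul_eq_one_right e8
    have e10 : Y (Y w) = w := by rw [e9, map_inv, e9, inv_inv]
    rw [← e10, e7]
  intro u
  set w := u * (A u)⁻¹ with hw
  have hAw : A w = w⁻¹ := by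
    rw [hw, map_mul, map_inv, hA]
    simp [mul_comm]
  have hBw : B w = w := by
    set w₁ := w * (B w)⁻¹ with hw₁
    have h1 : B w₁ = w₁⁻¹ := by
      rw [hw₁, map_mul, map_inv, hB]
      simp [mul_comm]
    have h2' : A w₁ = w₁⁻¹ := by
      rw [hw₁, map_mul, map_inv, hAB, hAw, map_inv]
      simp [mul_comm]
    have h3' := step1 w₁ h2' h1
    rw [hw₁] at h3'
    exact (mul_inv_eq_one.1 h3').symm
  have h4 := step2 w hAw hBw
  rw [hw] at h4
  exact (mul_inv_eq_one.1 h4).symm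

end abstract

section
variable {X : Type*} [Group X]

theorem square_of_two_elt (h6 : ∀ x : X, x ^ 6 = 1) {x : X} {k : ℕ} (hx : x ^ (2 ^ k) = 1) :
    x ^ 2 = 1 := by
  have h1 : orderOf x ∣ 2 ^ k := orderOf_dvd_of_pow_eq_one hx
  have h2 : orderOf x ∣ 2 * 3 := orderOf_dvd_of_pow_eq_one (h6 x)
  have h3 : (orderOf x).Coprime 3 :=
    Nat.Coprime.coprime_dvd_left h1 (Nat.Coprime.pow_left k (by norm_num))
  exact orderOf_dvd_iff_pow_eq_one.1 (h3.dvd_of_dvd_mul_right h2)

theorem cube_of_three_elt (h6 : ∀ x : X, x ^ 6 = 1) {x : X} {k : ℕ} (hx : x ^ (3 ^ k) = 1) :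
    x ^ 3 = 1 := by
  have h1 : orderOf x ∣ 3 ^ k := orderOf_dvd_of_pow_eq_one hx
  have h2 : orderOf x ∣ 3 * 2 := orderOf_dvd_of_pow_eq_one (h6 x)
  have h3 : (orderOf x).Coprime 2 :=
    Nat.Coprime.coprime_dvd_left h1 (Nat.Coprime.pow_left k (by norm_num))
  exact orderOf_dvd_iff_pow_eq_one.1 (h3.dvd_of_dvd_mul_right h2)

theorem comm_of_squares {a b : X} (ha : a ^ 2 = 1) (hb : b ^ 2 = 1) (hab : (a * b) ^ 2 = 1) :
    a * b = b * a := by
  have ha' : a⁻¹ = a := by
    rw [pow_two] at ha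
    exact inv_eq_of_mul_eq_one_left ha
  have hb' : b⁻¹ = b := by
    rw [pow_two] at hb
    exact inv_eq_of_mul_eq_one_left hb
  have h : (a * b)⁻¹ = a * b := by
    rw [pow_two] at hab
    exact inv_eq_of_mul_eq_one_left hab
  rw [mul_inv_rev, ha', hb'] at h
  exact h.symm

variable [Finite X]

theorem solvable_of_exp6 (h6 : ∀ x : X, x ^ 6 = 1) : Group.IsSolvable X := by
  classical
  set n := Nat.card X with hn
  have hn0 : n ≠ 0 := Nat.card_pos.ne'
  have hprime : ∀ q : ℕ, q.Prime → q ∣ n → q = 2 ∨ q = 3 := by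
    intro q hq hd
    haveI : Fact q.Prime := ⟨hq⟩
    obtain ⟨x, hx⟩ := exists_prime_orderOf_dvd_card' q hd
    have h1 : q ∣ 2 * 3 := by
      rw [← hx]
      exact orderOf_dvd_of_pow_eq_one (h6 x)
    rcases (Nat.Prime.dvd_mul hq).1 h1 with h | h
    · left; exact (Nat.prime_dvd_prime_iff_eq hq Nat.prime_two).1 h
    · right; exact (Nat.prime_dvd_prime_iff_eq hq Nat.prime_three).1 h
  set a := n.factorization 2
  set b := n.factorization 3
  set m := n / 2 ^ a with hm
  have hm0 : 2 ^ a * m = n := Nat.ordProj_mul_ordCompl_eq_self n 2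
  have hmne : m ≠ 0 := fun h => hn0 (by rw [← hm0, h, mul_zero])
  have hm2 : ¬ 2 ∣ m := Nat.not_dvd_ordCompl Nat.prime_two hn0
  have hm1 : 3 ^ (m.factorization 3) * (m / 3 ^ (m.factorization 3)) = m :=
    Nat.ordProj_mul_ordCompl_eq_self m 3
  have hm3' : ¬ 3 ∣ (m / 3 ^ (m.factorization 3)) := Nat.not_dvd_ordCompl Nat.prime_three hmne
  generalize m.factorization 3 = c at hm1 hm3'
  generalize hm' : m / 3 ^ c = m' at hm1 hm3'
  have hm3 : ¬ 3 ∣ m' := hm3'
  have hm'1 : m' = 1 := by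
    by_contra hne
    obtain ⟨q, hq, hqd⟩ := Nat.exists_prime_and_dvd hne
    have hq1 : q ∣ m := hqd.trans (Dvd.intro_left _ hm1)
    have hq2 : q ∣ n := hq1.trans (Dvd.intro_left _ hm0)
    rcases hprime q hq hq2 with rfl | rfl
    · exact hm2 hq1
    · exact hm3 hqd
  have hcard : Nat.card X = 2 ^ a * 3 ^ c := by
    rw [hm'1, mul_one] at hm1
    rw [← hn, ← hm0, hm1]
  exact Cfsg.Agent.Lead.burnside_two_prime 2 3 _ _ Nat.prime_two Nat.prime_three hcard

theorem pCore_quot_self (p : ℕ) [Fact p.Prime] [hn : (pCore p X).Normal] :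
    pCore p (X ⧸ pCore p X) = ⊥ := by
  have hQp : IsPGroup p (pCore p X) := pCore_isPGroup p
  set Q := pCore p X with hQ
  set O := pCore p (X ⧸ Q) with hO
  have hOn : O.Normal := Cfsg.Agent.H01.pCore_normal p
  have hOp : IsPGroup p O := pCore_isPGroup p
  have hcn : (O.comap (QuotientGroup.mk' Q)).Normal := hOn.comap _
  have hcp : IsPGroup p (O.comap (QuotientGroup.mk' Q)) := by
    rintro ⟨x, hx⟩
    obtain ⟨k, hk⟩ := hOp ⟨QuotientGroup.mk' Q x, hx⟩
    have h1 : (QuotientGroup.mk' Q x) ^ p ^ k = 1 := congrArg Subtype.val hk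
    rw [← map_pow] at h1
    have h2 : x ^ p ^ k ∈ Q := (QuotientGroup.eq_one_iff _).1 h1
    obtain ⟨j, hj⟩ := hQp ⟨_, h2⟩
    refine ⟨k + j, Subtype.ext ?_⟩
    have h3 : (x ^ p ^ k) ^ p ^ j = 1 := by simpa using congrArg Subtype.val hj
    rw [← pow_mul, ← pow_add] at h3
    simpa using h3
  have hle : O.comap (QuotientGroup.mk' Q) ≤ Q := le_pCore hcn hcp
  rw [eq_bot_iff]
  intro z hz
  obtain ⟨x, rfl⟩ := QuotientGroup.mk'_surjective Q z
  exact (QuotientGroup.eq_one_iff _).2 (hle hz)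

theorem lemma_two (h6 : ∀ x : X, x ^ 6 = 1) (hred : pPrimeCore 2 X = ⊥) (t : X) (ht : t ^ 2 = 1) :
    t ∈ pCore 2 X := by
  classical
  haveI := solvable_of_exp6 h6
  have hS : IsPSolvable 2 X := Cfsg.Agent.H06.isPSolvable_of_isSolvable 2 X
  have hHH := Cfsg.Agent.H08.hall_higman hS hred
  apply hHH
  have htp : IsPGroup 2 (Subgroup.zpowers t) := by
    apply IsPGroup.of_card (n := (orderOf t).factorization 2)
    rw [Nat.card_zpowers]
    have h1 : orderOf t ∣ 2 ^ 1 := by simpa using orderOf_dvd_of_pow_eq_one ht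
    obtain ⟨j, -, hj⟩ := (Nat.dvd_prime_pow Nat.prime_two).1 h1
    rw [hj]
    simp [Nat.Prime.factorization_self Nat.prime_two]
  obtain ⟨T, hT⟩ := htp.exists_le_sylow
  have htT : t ∈ (T : Subgroup X) := hT (Subgroup.mem_zpowers t)
  have hQT := pCore_le_sylow 2 T
  have hsq : ∀ s ∈ (T : Subgroup X), s ^ 2 = 1 := by
    intro s hs
    obtain ⟨k, hk⟩ := T.isPGroup' ⟨s, hs⟩
    have : s ^ (2 ^ k) = 1 := by simpa using congrArg Subtype.val hk
    exact square_of_two_elt h6 this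
  rw [Subgroup.mem_centralizer_iff]
  intro q hq
  have hqT := hQT hq
  exact comm_of_squares (hsq _ hqT) (hsq _ htT) (hsq _ ((T : Subgroup X).mul_mem hqT htT))

theorem lemma_three (h6 : ∀ x : X, x ^ 6 = 1) (hred : pPrimeCore 3 X = ⊥) (y : X) (hy3 : y ^ 3 = 1) :
    y ∈ pCore 3 X := by
  classical
  by_contra hyQ
  haveI := solvable_of_exp6 h6
  haveI : Fact (Nat.Prime 3) := ⟨Nat.prime_three⟩
  haveI : Fact (Nat.Prime 2) := ⟨Nat.prime_two⟩
  have hS3 : IsPSolvable 3 X := Cfsg.Agent.H06.isPSolvable_of_isSolvable 3 X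
  haveI hQn : (pCore 3 X).Normal := Cfsg.Agent.H01.pCore_normal 3
  have hQp : IsPGroup 3 (pCore 3 X) := pCore_isPGroup 3
  set Q := pCore 3 X with hQ
  let μ : X →* X ⧸ Q := QuotientGroup.mk' Q
  have hμs : Function.Surjective μ := QuotientGroup.mk'_surjective Q
  have hμ1 : ∀ x, μ x = 1 ↔ x ∈ Q := fun x => QuotientGroup.eq_one_iff x
  have h6h : ∀ z : X ⧸ Q, z ^ 6 = 1 := by
    intro z
    obtain ⟨x, rfl⟩ := hμs z
    rw [← map_pow, h6, map_one]
  have hO3 : pCore 3 (X ⧸ Q) = ⊥ := pCore_quot_self 3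
  have hO2' : pPrimeCore 2 (X ⧸ Q) = ⊥ := by
    have hOn : (pPrimeCore 2 (X ⧸ Q)).Normal := Subgroup.sSup_normal _ (fun _ h => h.1)
    have hOc : (Nat.card (pPrimeCore 2 (X ⧸ Q))).Coprime 2 := Cfsg.Agent.H06.coprime_card_pPrimeCore 2
    have hOp : IsPGroup 3 (pPrimeCore 2 (X ⧸ Q)) := by
      rintro ⟨z, hz⟩
      refine ⟨1, Subtype.ext ?_⟩
      have h1 : orderOf (⟨z, hz⟩ : pPrimeCore 2 (X ⧸ Q)) ∣ _ := orderOf_dvd_natCard _
      rw [Subgroup.orderOf_mk] at h1
      have h2 : (orderOf z).Coprime 2 := Nat.Coprime.coprime_dvd_left h1 hOc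
      have h3 : orderOf z ∣ 2 * 3 := orderOf_dvd_of_pow_eq_one (h6h z)
      have h4 := h2.dvd_of_dvd_mul_left h3
      have h5 := orderOf_dvd_iff_pow_eq_one.1 h4
      simpa using h5
    have := le_pCore hOn hOp
    rw [hO3] at this
    exact le_bot_iff.1 this
  haveI := solvable_of_exp6 h6h
  have hSh : IsPSolvable 2 (X ⧸ Q) := Cfsg.Agent.H06.isPSolvable_of_isSolvable 2 _
  have hHH2 := Cfsg.Agent.H08.hall_higman hSh hO2'
  haveI hRn : (pCore 2 (X ⧸ Q)).Normal := Cfsg.Agent.H01.pCore_normal 2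
  have hRp : IsPGroup 2 (pCore 2 (X ⧸ Q)) := pCore_isPGroup 2
  set R := pCore 2 (X ⧸ Q) with hR
  have hRsq : ∀ r ∈ R, r ^ 2 = 1 := by
    intro r hr
    obtain ⟨k, hk⟩ := hRp ⟨r, hr⟩
    have : r ^ (2 ^ k) = 1 := by simpa using congrArg Subtype.val hk
    exact square_of_two_elt h6h this
  have hRcomm : ∀ r ∈ R, ∀ s ∈ R, r * s = s * r := fun r hr s hs =>
    comm_of_squares (hRsq r hr) (hRsq s hs) (hRsq _ (R.mul_mem hr hs))
  have hRsq' : ∀ r ∈ R, r * r = 1 := fun r hr => by rw [← pow_two]; exact hRsq r hr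
  set yh := μ y with hyh
  have hyh1 : yh ≠ 1 := fun h => hyQ ((hμ1 y).1 h)
  have hyh3 : yh ^ 3 = 1 := by rw [hyh, ← map_pow, hy3, map_one]
  have hyhC : yh ∉ Subgroup.centralizer (R : Set (X ⧸ Q)) := by
    intro h
    have h1 := hRsq _ (hHH2 h)
    apply hyh1
    calc yh = yh ^ 3 * (yh ^ 2)⁻¹ := by group
      _ = 1 := by rw [hyh3, h1]; simp
  rw [Subgroup.mem_centralizer_iff] at hyhC
  push Not at hyhC
  obtain ⟨r, hr, hrne⟩ := hyhC
  have hr' : r ∈ R := hr
  set r₁ := yh * r * yh⁻¹ with hr₁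
  have hr₁R : r₁ ∈ R := hRn.conj_mem r hr' yh
  set r₂ := yh * r₁ * yh⁻¹ with hr₂
  have hr₂R : r₂ ∈ R := hRn.conj_mem r₁ hr₁R yh
  have hr₃ : yh * r₂ * yh⁻¹ = r := by
    have e : yh * r₂ * yh⁻¹ = yh ^ 3 * r * (yh ^ 3)⁻¹ := by
      rw [hr₂, hr₁, pow3]
      group
    rw [e, hyh3]
    simp
  set ah := r * r₁ with hah
  have hahR : ah ∈ R := R.mul_mem hr' hr₁R
  have hah1 : ah ≠ 1 := by
    intro h
    apply hrne
    have h1 : r₁ = r := by
      have h2 : r * r₁ = r * r := by rw [hRsq' r hr']; exact h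
      exact mul_left_cancel h2
    have h3 : yh * r * yh⁻¹ = r := h1
    calc r * yh = (yh * r * yh⁻¹) * yh := by rw [h3]
      _ = yh * r := by group
  obtain ⟨a₀, ha₀⟩ := hμs ah
  set a := a₀ ^ 3 with ha
  have hμa : μ a = ah := by
    rw [ha, map_pow, ha₀]
    calc ah ^ 3 = (ah * ah) * ah := pow3 ah
      _ = ah := by rw [hRsq' _ hahR, one_mul]
  have ha2 : a * a = 1 := by
    rw [ha, ← pow_add]
    exact h6 a₀
  set b := y * a * y⁻¹ with hb
  set c := y * b * y⁻¹ with hc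
  have hμb : μ b = r₁ * r₂ := by
    rw [hb, map_mul μ (y * a), map_mul μ y a, map_inv, hμa, ← hyh, hah, hr₂, hr₁]
    group
  have hμc : μ c = r₂ * r := by
    rw [hc, map_mul μ (y * b), map_mul μ y b, map_inv, hμb, ← hyh]
    have e : yh * (r₁ * r₂) * yh⁻¹ = (yh * r₁ * yh⁻¹) * (yh * r₂ * yh⁻¹) := by group
    rw [e, hr₃]
  have hb2 : b * b = 1 := by
    have e : b * b = y * (a * a) * y⁻¹ := by rw [hb]; group
    rw [e, ha2]
    simp
  have hμab : μ (a * b) = μ (b * a) := by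
    rw [map_mul μ a b, map_mul μ b a, hμa, hμb]
    exact hRcomm _ hahR _ (R.mul_mem hr₁R hr₂R)
  have hμc' : μ c = μ (a * b) := by
    rw [hμc, map_mul μ a b, hμa, hμb, hah]
    have e : r * r₁ * (r₁ * r₂) = r * (r₁ * r₁) * r₂ := by group
    rw [e, hRsq' _ hr₁R, mul_one]
    exact hRcomm _ hr₂R _ hr'
  -- the Frattini quotient
  set D : Subgroup X := (frattini Q).map Q.subtype with hD
  haveI hDn : D.Normal := ConjAct.normal_of_characteristic_of_normal
  have hDQ : D ≤ Q := by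
    rintro _ ⟨x, -, rfl⟩
    exact x.2
  let π : X →* X ⧸ D := QuotientGroup.mk' D
  have hπs : Function.Surjective π := QuotientGroup.mk'_surjective D
  have hπ1 : ∀ x, π x = 1 ↔ x ∈ D := fun x => QuotientGroup.eq_one_iff x
  set V : Subgroup (X ⧸ D) := Q.map π with hV
  haveI hVn : V.Normal := Subgroup.Normal.map hQn π hπs
  have hcommQ : ∀ q₁ ∈ Q, ∀ q₂ ∈ Q, q₁ * q₂ * q₁⁻¹ * q₂⁻¹ ∈ D := by
    intro q₁ h₁ q₂ h₂
    have h1 : ⁅(⟨q₁, h₁⟩ : Q), (⟨q₂, h₂⟩ : Q)⁆ ∈ commutator Q :=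
      Subgroup.commutator_mem_commutator (Subgroup.mem_top _) (Subgroup.mem_top _)
    exact ⟨_, commutator_le_frattini_of_isPGroup hQp h1, rfl⟩
  have hVcomm : ∀ v w : V, v * w = w * v := by
    rintro ⟨_, q₁, h₁, rfl⟩ ⟨_, q₂, h₂, rfl⟩
    apply Subtype.ext
    show π q₁ * π q₂ = π q₂ * π q₁
    have h1 := (hπ1 _).2 (hcommQ q₁ h₁ q₂ h₂)
    simp only [map_mul, map_inv] at h1
    have h2 : π q₁ * π q₂ * (π q₁)⁻¹ = π q₂ := by
      rw [mul_inv_eq_one] at h1
      exact h1
    calc π q₁ * π q₂ = (π q₁ * π q₂ * (π q₁)⁻¹) * π q₁ := by group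
      _ = π q₂ * π q₁ := by rw [h2]
  letI hVC : CommGroup V := { (inferInstance : Group V) with mul_comm := hVcomm }
  let T : X →* MulAut V := (MulAut.conjNormal (H := V)).comp π
  have hTapp : ∀ g (v : V), ((T g v : V) : X ⧸ D) = π g * v * (π g)⁻¹ := by
    intro g v
    exact MulAut.conjNormal_apply _ _
  have hTmul : ∀ g h (v : V), T (g * h) v = T g (T h v) := by
    intro g h v
    rw [map_mul]
    rfl
  have hTone : ∀ (v : V), T 1 v = v := by
    intro v
    rw [map_one]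
    rfl
  have hTQ : ∀ q ∈ Q, ∀ v : V, T q v = v := by
    intro q hq v
    apply Subtype.ext
    rw [hTapp]
    have hqV : π q ∈ V := ⟨q, hq, rfl⟩
    have := hVcomm ⟨_, hqV⟩ v
    have h1 : π q * (v : X ⧸ D) = (v : X ⧸ D) * π q := congrArg Subtype.val this
    rw [h1]
    group
  have hTeq : ∀ g h : X, μ g = μ h → ∀ v : V, T g v = T h v := by
    intro g h e v
    have h1 : g⁻¹ * h ∈ Q := QuotientGroup.eq.1 e
    have h2 : h = g * (g⁻¹ * h) := by group
    conv_rhs => rw [h2, hTmul, hTQ _ h1]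
  -- the operators
  let A : V →* V := (T a).toMonoidHom
  let B : V →* V := (T b).toMonoidHom
  let Y : V →* V := (T y).toMonoidHom
  have hfix : ∀ v : V, A v = v := by
    apply core_lemma A B Y
    · rintro ⟨_, q, hq, rfl⟩
      apply Subtype.ext
      show π q * π q * π q = 1
      obtain ⟨k, hk⟩ := hQp ⟨q, hq⟩
      have h1 : q ^ (3 ^ k) = 1 := by simpa using congrArg Subtype.val hk
      have h2 := cube_of_three_elt h6 h1
      have h3 : π q * π q * π q = π (q ^ 3) := by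
        rw [map_pow, pow3]
      rw [h3, h2, map_one]
    · intro v
      show T a (T a v) = v
      rw [← hTmul, ha2, hTone]
    · intro v
      show T b (T b v) = v
      rw [← hTmul, hb2, hTone]
    · intro v
      show T a (T b v) = T b (T a v)
      rw [← hTmul, ← hTmul]
      exact hTeq _ _ hμab v
    · intro v
      show T y (T a v) = T b (T y v)
      rw [← hTmul, ← hTmul]
      congr 2
      rw [hb]
      group
    · intro v
      show T y (T b v) = T a (T b (T y v))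
      rw [← hTmul, ← hTmul, ← hTmul]
      have e : y * b = c * y := by rw [hc]; group
      rw [e]
      apply hTeq
      rw [map_mul μ c y, map_mul μ (a * b) y, hμc']
    · rintro ⟨_, q, hq, rfl⟩
      apply Subtype.ext
      show π q * ((T y ⟨π q, _⟩ : V) : X ⧸ D) * ((T y (T y ⟨π q, _⟩) : V) : X ⧸ D) = 1
      rw [hTapp, hTapp, hTapp]
      -- the cube of `y q`
      have hcube : (y * q) ^ 3 = 1 := by
        have h1 : μ ((y * q) ^ 3) = 1 := by
          rw [map_pow, map_mul, (hμ1 q).2 hq, mul_one, ← hyh, hyh3]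
        have h2 : (y * q) ^ 3 ∈ Q := (hμ1 _).1 h1
        obtain ⟨k, hk⟩ := hQp ⟨_, h2⟩
        have h3 : ((y * q) ^ 3) ^ (3 ^ k) = 1 := by simpa using congrArg Subtype.val hk
        rw [← pow_mul, ← pow_succ'] at h3
        exact cube_of_three_elt h6 h3
      have hyinv : y⁻¹ * y⁻¹ = y := by
        have e : y ^ 3 = y * y * y := pow3 y
        rw [e] at hy3
        calc y⁻¹ * y⁻¹ = (y * y * y) * (y⁻¹ * y⁻¹) := by rw [hy3, one_mul]
          _ = y := by group
      have hcube' : (y * q * y⁻¹) * (y * (y * q * y⁻¹) * y⁻¹) * q = 1 := by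
        have e : (y * q) ^ 3 = y * q * y * q * y * q := by
          rw [pow3]; simp only [mul_assoc]
        rw [e] at hcube
        calc (y * q * y⁻¹) * (y * (y * q * y⁻¹) * y⁻¹) * q
            = y * q * y * q * (y⁻¹ * y⁻¹) * q := by group
          _ = y * q * y * q * y * q := by rw [hyinv]
          _ = 1 := hcube
      have hπc := congrArg π hcube'
      simp only [map_mul, map_inv, map_one] at hπc
      have hqV : π q ∈ V := ⟨q, hq, rfl⟩
      have hxV : π y * π q * (π y)⁻¹ * (π y * (π y * π q * (π y)⁻¹) * (π y)⁻¹) ∈ V := by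
        refine V.mul_mem ?_ ?_
        · exact hVn.conj_mem _ hqV _
        · exact hVn.conj_mem _ (hVn.conj_mem _ hqV _) _
      have hcomm := hVcomm ⟨_, hqV⟩ ⟨_, hxV⟩
      have hcomm' := congrArg Subtype.val hcomm
      simp only [Subgroup.coe_mul] at hcomm'
      calc π q * (π y * π q * (π y)⁻¹) * (π y * (π y * π q * (π y)⁻¹) * (π y)⁻¹)
          = π q * (π y * π q * (π y)⁻¹ * (π y * (π y * π q * (π y)⁻¹) * (π y)⁻¹)) := by group
        _ = _ := hcomm'
        _ = 1 := hπc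
  -- hence `a` is trivial modulo `Q`
  have haQ : a ∈ Q := by
    apply Cfsg.Agent.S4218.mem_pCore_of_trivial hS3 hred
    intro q hq
    have hqV : π q ∈ V := ⟨q, hq, rfl⟩
    have h1 := hfix ⟨_, hqV⟩
    have h2 : π a * π q * (π a)⁻¹ = π q := by
      have h3 := congrArg Subtype.val h1
      have h4 : ((T a ⟨π q, hqV⟩ : V) : X ⧸ D) = π q := h3
      rwa [hTapp] at h4
    apply (hπ1 _).1
    simp only [map_mul, map_inv]
    rw [h2, mul_inv_cancel]
  apply hah1
  rw [← hμa]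
  exact (hμ1 a).2 haQ

/-- Assembling the chain. -/
theorem plength_one {G : Type*} [Group G] [Finite G] (p : ℕ) [Fact p.Prime] (m : ℕ) (hm : m.Coprime p)
    (h : ∀ x : G, x ^ m ∈ pPrimePCore p G) : PLengthLE p 1 G := by
  classical
  rw [pLengthLE_iff]
  have hKn : (pPrimeCore p G).Normal := Subgroup.sSup_normal _ (fun _ h => h.1)
  have hKc : (Nat.card (pPrimeCore p G)).Coprime p := Cfsg.Agent.H06.coprime_card_pPrimeCore p
  have h0 : Reach p 0 (pPrimeCore p G) := by
    refine Reach.pp (Reach.bot 0) bot_le ?_ ?_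
    · rw [Subgroup.normal_subgroupOf_iff_le_normalizer bot_le]
      intro x _
      rw [Subgroup.mem_normalizer_iff]
      intro z
      simp
    · intro x hx
      refine ⟨Nat.card (pPrimeCore p G), hKc, ?_⟩
      have h1 : orderOf x ∣ Nat.card (pPrimeCore p G) := Subgroup.orderOf_dvd_natCard _ hx
      rw [orderOf_dvd_iff_pow_eq_one.1 h1]
      exact Subgroup.one_mem _
  have h1 : Reach p 1 (pPrimePCore p G) := by
    refine Reach.pg h0 (Cfsg.Agent.H06.pPrimeCore_le_pPrimePCore p G) ?_ ?_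
    · exact Subgroup.Normal.subgroupOf hKn _
    · intro x hx
      exact Cfsg.Agent.H06.exists_pow_mem_pPrimeCore p hx
  refine Reach.pp h1 le_top ?_ ?_
  · have := Cfsg.Agent.H06.pPrimePCore_normal p G
    exact Subgroup.Normal.subgroupOf this _
  · intro x _
    exact ⟨m, hm, h x⟩

end

/-- A finite group in which every element has order dividing `6` has `2`-length at most `1` and `3`-length at most `1`. -/
theorem result {G : Type*} [Group G] [Finite G] (h : ∀ x : G, x ^ 6 = 1) : Cfsg.PLengthLE 2 1 G ∧ Cfsg.PLengthLE 3 1 G := by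
  classical
  haveI : Fact (Nat.Prime 3) := ⟨Nat.prime_three⟩
  haveI : Fact (Nat.Prime 2) := ⟨Nat.prime_two⟩
  constructor
  · apply plength_one 2 3 (by norm_num)
    intro x
    have hn : (pPrimeCore 2 G).Normal := Subgroup.sSup_normal _ (fun _ h => h.1)
    have h6 : ∀ z : G ⧸ pPrimeCore 2 G, z ^ 6 = 1 := by
      intro z
      obtain ⟨x, rfl⟩ := QuotientGroup.mk'_surjective _ z
      rw [← map_pow, h, map_one]
    refine lemma_two h6 (Cfsg.Agent.H08.pPrimeCore_quotient_eq_bot 2) _ ?_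
    rw [← map_pow, ← pow_mul]
    show QuotientGroup.mk' _ (x ^ 6) = 1
    rw [h, map_one]
  · apply plength_one 3 2 (by norm_num)
    intro x
    have hn : (pPrimeCore 3 G).Normal := Subgroup.sSup_normal _ (fun _ h => h.1)
    have h6 : ∀ z : G ⧸ pPrimeCore 3 G, z ^ 6 = 1 := by
      intro z
      obtain ⟨x, rfl⟩ := QuotientGroup.mk'_surjective _ z
      rw [← map_pow, h, map_one]
    refine lemma_three h6 (Cfsg.Agent.H08.pPrimeCore_quotient_eq_bot 3) _ ?_
    rw [← map_pow, ← pow_mul]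
    show QuotientGroup.mk' _ (x ^ 6) = 1
    rw [h, map_one]

end Cfsg.Agent.S4227
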