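import Cfsg.Statements.S4275

set_option autoImplicit false
open Cfsg

namespace Cfsg.Agent.S4275

/-- Let G be a transitive group of permutations of a finite set Ω, let o ∈ Ω, and let α be an automorphism of G. Then α is induced by conjugation by a permutation of Ω normalizing G if and only if the image under α of the stabilizer of o fixes some point of Ω. -/
theorem result {Ω : Type*} [Fintype Ω] (G : Subgroup (Equiv.Perm Ω)) (htr : MulAction.IsPretransitive G Ω) (o : Ω) (α : G ≃* G) : (∃ σ : Equiv.Perm Ω, σ ∈ Subgroup.normalizer (G : Set (Equiv.Perm Ω)) ∧ ∀ g : G, ((α g : G) : Equiv.Perm Ω) = σ * (g : Equiv.Perm Ω) * σ⁻¹) ↔ ∃ ω : Ω, ∀ g ∈ (MulAction.stabilizer G o).map α.toMonoidHom, g • ω = ω := by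
  constructor
  · rintro ⟨σ, -, hσ⟩
    refine ⟨σ o, ?_⟩
    rintro _ ⟨g, hg, rfl⟩
    have hg' : (g : Equiv.Perm Ω) o = o := hg
    show ((α g : G) : Equiv.Perm Ω) (σ o) = σ o
    rw [hσ g]
    simp [hg']
  · rintro ⟨ω, hω⟩
    have hw : ∀ g h : G, g • o = h • o → α g • ω = α h • ω := by
      intro g h hgh
      have h1 : g⁻¹ * h ∈ MulAction.stabilizer G o := by
        rw [MulAction.mem_stabilizer_iff, mul_smul, ← hgh, smul_smul]; simp
      have h2 := hω _ (Subgroup.mem_map_of_mem α.toMonoidHom h1)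
      have h3 : α (g⁻¹ * h) • ω = ω := h2
      rw [map_mul, map_inv, mul_smul, inv_smul_eq_iff] at h3
      exact h3.symm
    choose rep hrep using (fun p : Ω => MulAction.exists_smul_eq G o p)
    let f : Ω → Ω := fun p => α (rep p) • ω
    have hf : ∀ g : G, f (g • o) = α g • ω := fun g => hw _ _ (hrep _)
    have hsurj : Function.Surjective f := by
      intro p
      obtain ⟨k, hk⟩ := MulAction.exists_smul_eq G ω p
      refine ⟨(α.symm k) • o, ?_⟩
      rw [hf]
      simpa using hk
    have hbij : Function.Bijective f := Function.Surjective.bijective_of_finite hsurj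
    let σ : Equiv.Perm Ω := Equiv.ofBijective f hbij
    have hσ : ∀ g : G, σ (g • o) = α g • ω := hf
    have hconj : ∀ g : G, ((α g : G) : Equiv.Perm Ω) = σ * (g : Equiv.Perm Ω) * σ⁻¹ := by
      intro g
      ext p
      obtain ⟨q, rfl⟩ := σ.surjective p
      obtain ⟨h, rfl⟩ := MulAction.exists_smul_eq G o q
      simp only [Equiv.Perm.coe_mul, Function.comp_apply]
      have e0 : σ⁻¹ (σ (h • o)) = h • o := by simp
      have e1 : (g : Equiv.Perm Ω) (h • o) = (g * h) • o := by
        rw [mul_smul]; rfl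
      rw [e0, e1, hσ, hσ, map_mul, mul_smul]
      rfl
    refine ⟨σ, ?_, hconj⟩
    rw [Subgroup.mem_normalizer_iff]
    intro x
    constructor
    · intro hx
      have := hconj ⟨x, hx⟩
      show σ * x * σ⁻¹ ∈ G
      have e : σ * x * σ⁻¹ = ((α ⟨x, hx⟩ : G) : Equiv.Perm Ω) := this.symm
      rw [e]
      exact (α ⟨x, hx⟩).2
    · intro hx
      have h1 := hconj (α.symm ⟨_, hx⟩)
      rw [MulEquiv.apply_symm_apply] at h1
      have h2 : σ * x * σ⁻¹ = σ * ((α.symm ⟨_, hx⟩ : G) : Equiv.Perm Ω) * σ⁻¹ := h1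
      have h3 : x = ((α.symm ⟨_, hx⟩ : G) : Equiv.Perm Ω) := by
        simpa using h2
      rw [h3]
      exact (α.symm ⟨_, hx⟩).2

end Cfsg.Agent.S4275
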