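import Cfsg.Statements.S4276
import Cfsg.Agent.Lib.H20.OddAut

set_option autoImplicit false
set_option linter.unusedVariables false
set_option linter.style.haveILetI false
set_option linter.unusedSectionVars false
open Cfsg

namespace Cfsg.Agent.S4276

theorem result {Ω : Type*} [Fintype Ω] (G : Subgroup (Equiv.Perm Ω)) (h2 : MulAction.IsMultiplyPretransitive G Ω 2) (o : Ω) (α : MulAut G) (hα : Odd (orderOf α)) (ω : Ω) (hk : (Nat.card (MulAction.orbit ((MulAction.stabilizer G o).map α.toMonoidHom) ω)).Coprime (Fintype.card Ω)) : (∃ σ : Equiv.Perm Ω, σ ∈ Subgroup.normalizer (G : Set (Equiv.Perm Ω)) ∧ ∀ g : G, ((α g : G) : Equiv.Perm Ω) = σ * (g : Equiv.Perm Ω) * σ⁻¹) ∧ (Nat.card (MulAction.orbit ((MulAction.stabilizer G o).map α.toMonoidHom) ω) = 1 ∨ Nat.card (MulAction.orbit ((MulAction.stabilizer G o).map α.toMonoidHom) ω) = Fintype.card Ω - 1) := by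
  classical
  set H' := (MulAction.stabilizer G o).map α.toMonoidHom with hH'
  haveI : Nonempty Ω := ⟨o⟩
  by_cases hn : 2 ≤ Fintype.card Ω
  swap
  · -- trivial case
    have hle : Fintype.card Ω ≤ 1 := by omega
    haveI hsub : Subsingleton Ω := Fintype.card_le_one_iff_subsingleton.1 hle
    haveI hsubP : Subsingleton (Equiv.Perm Ω) := inferInstance
    refine ⟨⟨1, ?_, fun g => Subsingleton.elim _ _⟩, Or.inl ?_⟩
    · exact Subgroup.one_mem _
    · have hne : Nonempty (MulAction.orbit H' ω) := ⟨⟨ω, MulAction.mem_orbit_self ω⟩⟩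
      haveI : Subsingleton (MulAction.orbit H' ω) := inferInstance
      exact Nat.card_unique
  have h2' : ∀ a b c d : Ω, a ≠ b → c ≠ d → ∃ g : G, g • a = c ∧ g • b = d :=
    fun a b c d hab hcd => MulAction.is_two_pretransitive_iff.1 h2 hab hcd
  have hcard1 : 1 < Fintype.card Ω := hn
  have hex : ∀ a c : Ω, ∃ g : G, g • a = c := by
    intro a c
    obtain ⟨b, hb⟩ := Fintype.exists_ne_of_one_lt_card hcard1 a
    obtain ⟨d, hd⟩ := Fintype.exists_ne_of_one_lt_card hcard1 c
    obtain ⟨g, hg, -⟩ := h2' a b c d hb.symm hd.symm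
    exact ⟨g, hg⟩
  haveI : Finite G := inferInstance
  let O : Finset Ω := (MulAction.orbit H' ω).toFinset
  have hOmem : ∀ z, z ∈ O ↔ ∃ x : H', (x : G) • ω = z := by
    intro z
    simp only [O, Set.mem_toFinset, MulAction.mem_orbit_iff]
    rfl
  have hOcard : Nat.card (MulAction.orbit H' ω) = O.card := by
    rw [Nat.card_eq_fintype_card, Set.toFinset_card]
  have hωO : ω ∈ O := (hOmem ω).2 ⟨1, by simp⟩
  have hinvO : ∀ x ∈ H', ∀ z ∈ O, (x : G) • z ∈ O := by
    intro x hx z hz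
    obtain ⟨y, rfl⟩ := (hOmem z).1 hz
    refine (hOmem _).2 ⟨⟨x, hx⟩ * y, ?_⟩
    rw [Subgroup.coe_mul, mul_smul]
  have hO : ∀ h : G, h • o = o → ∀ z ∈ O, α h • z ∈ O := by
    intro h hh z hz
    exact hinvO _ ⟨h, hh, rfl⟩ z hz
  rw [hOcard] at hk ⊢
  have hres := Cfsg.Agent.H20.odd_aut_orbit h2' hn α hα (pow_orderOf_eq_one α) o O hO hk ⟨ω, hωO⟩
  refine ⟨?_, hres⟩
  -- a fixed point of H'
  obtain ⟨ω₀, hω₀⟩ : ∃ ω₀ : Ω, ∀ x ∈ H', (x : G) • ω₀ = ω₀ := by
    rcases hres with h1 | h1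
    · refine ⟨ω, fun x hx => ?_⟩
      obtain ⟨c, hc⟩ := Finset.card_eq_one.1 h1
      have h3 := hinvO x hx ω hωO
      rw [hc, Finset.mem_singleton] at h3 hωO
      rw [h3, hωO]
    · have h3 : Oᶜ.card = 1 := by
        rw [Finset.card_compl]
        omega
      obtain ⟨c, hc⟩ := Finset.card_eq_one.1 h3
      refine ⟨c, fun x hx => ?_⟩
      have hcm : c ∈ Oᶜ := by rw [hc]; exact Finset.mem_singleton_self c
      have h4 : (x : G) • c ∈ Oᶜ := by
        rw [Finset.mem_compl]
        intro h5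
        have h6 := hinvO x⁻¹ (H'.inv_mem hx) _ h5
        rw [inv_smul_smul] at h6
        exact (Finset.mem_compl.1 hcm) h6
      rw [hc, Finset.mem_singleton] at h4
      exact h4
  have hle : H' ≤ MulAction.stabilizer G ω₀ := fun x hx => hω₀ x hx
  have hcardstab : ∀ w : Ω, Nat.card (MulAction.stabilizer G w) = Nat.card (MulAction.stabilizer G o) := by
    intro w
    obtain ⟨g, rfl⟩ := hex o w
    rw [MulAction.stabilizer_smul_eq_stabilizer_map_conj]
    exact Subgroup.card_map_of_injective (MulAut.conj g).injective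
  have hcardH' : Nat.card H' = Nat.card (MulAction.stabilizer G o) :=
    Subgroup.card_map_of_injective α.injective
  have hH'eq : H' = MulAction.stabilizer G ω₀ :=
    Subgroup.eq_of_le_of_card_ge hle (by rw [hcardH', hcardstab])
  -- the map
  have hwell : ∀ h h' : G, h • o = h' • o ↔ α h • ω₀ = α h' • ω₀ := by
    intro h h'
    constructor
    · intro e
      have h3 : (h'⁻¹ * h) ∈ MulAction.stabilizer G o := by
        rw [MulAction.mem_stabilizer_iff, mul_smul, e, inv_smul_smul]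
      have h4 : α (h'⁻¹ * h) ∈ H' := ⟨_, h3, rfl⟩
      have h5 := hω₀ _ h4
      rw [map_mul, map_inv, mul_smul, inv_smul_eq_iff] at h5
      exact h5
    · intro e
      have h3 : α (h'⁻¹ * h) ∈ MulAction.stabilizer G ω₀ := by
        rw [MulAction.mem_stabilizer_iff, map_mul, map_inv, mul_smul, e, inv_smul_smul]
      rw [← hH'eq] at h3
      obtain ⟨y, hy, hye⟩ := h3
      have h6 : y = h'⁻¹ * h := α.injective hye
      have hy' : y ∈ MulAction.stabilizer G o := hy
      rw [h6, MulAction.mem_stabilizer_iff, mul_smul, inv_smul_eq_iff] at hy'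
      exact hy'
  choose rep hrep using fun w => hex o w
  let f : Ω → Ω := fun w => α (rep w) • ω₀
  have hf : ∀ h : G, f (h • o) = α h • ω₀ := fun h => (hwell _ _).1 (hrep _)
  have hinj : Function.Injective f := by
    intro a b hab
    have := (hwell (rep a) (rep b)).2 hab
    rwa [hrep, hrep] at this
  have hbij : Function.Bijective f := ⟨hinj, Finite.injective_iff_surjective.1 hinj⟩
  let σ : Equiv.Perm Ω := Equiv.ofBijective f hbij
  have hσ : ∀ h : G, σ (h • o) = α h • ω₀ := hf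
  have hconj : ∀ g : G, ((α g : G) : Equiv.Perm Ω) = σ * (g : Equiv.Perm Ω) * σ⁻¹ := by
    intro g
    rw [eq_mul_inv_iff_mul_eq]
    ext w
    obtain ⟨h, rfl⟩ := hex o w
    show ((α g : G) : Equiv.Perm Ω) (σ (h • o)) = σ ((g : Equiv.Perm Ω) (h • o))
    have e1 : (g : Equiv.Perm Ω) (h • o) = (g * h) • o := by
      rw [mul_smul]; rfl
    rw [e1, hσ, hσ, map_mul, mul_smul]
    rfl
  refine ⟨σ, ?_, hconj⟩
  rw [Subgroup.mem_normalizer_iff]
  intro h
  constructor
  · intro hh
    have := hconj ⟨h, hh⟩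
    have e : σ * h * σ⁻¹ = ((α ⟨h, hh⟩ : G) : Equiv.Perm Ω) := this.symm
    show σ * h * σ⁻¹ ∈ G
    rw [e]
    exact (α ⟨h, hh⟩).2
  · intro hh
    have := hconj (α.symm ⟨σ * h * σ⁻¹, hh⟩)
    rw [MulEquiv.apply_symm_apply] at this
    have e : σ * h * σ⁻¹ = σ * ((α.symm ⟨σ * h * σ⁻¹, hh⟩ : G) : Equiv.Perm Ω) * σ⁻¹ := this
    have e2 : h = ((α.symm ⟨σ * h * σ⁻¹, hh⟩ : G) : Equiv.Perm Ω) := by
      have := mul_right_cancel e
      exact mul_left_cancel this
    rw [e2]
    exact (α.symm ⟨σ * h * σ⁻¹, hh⟩).2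

end Cfsg.Agent.S4276
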