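import Cfsg.Statements.S4277
import Cfsg.Agent.Lib.H03.PrimeDeg2
import Cfsg.Agent.Lib.H20.OddAut

set_option autoImplicit false
set_option linter.unusedVariables false
set_option linter.style.haveILetI false
set_option linter.unusedSectionVars false
open Cfsg
open scoped Pointwise

namespace Cfsg.Agent.S4277

variable {G : Type*} [Group G]

/-- automorphisms sending `H` into a conjugate of `H`. -/
def NN (H : Subgroup G) (α : MulAut G) : Prop := ∃ g : G, ∀ h ∈ H, g⁻¹ * α h * g ∈ H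

theorem NN.one (H : Subgroup G) : NN H 1 := ⟨1, fun h hh => by simpa using hh⟩

theorem NN.mul {H : Subgroup G} {α β : MulAut G} (hα : NN H α) (hβ : NN H β) : NN H (α * β) := by
  obtain ⟨g₁, h₁⟩ := hα
  obtain ⟨g₂, h₂⟩ := hβ
  refine ⟨α g₂ * g₁, fun h hh => ?_⟩
  have e : (α g₂ * g₁)⁻¹ * (α * β) h * (α g₂ * g₁) = g₁⁻¹ * α (g₂⁻¹ * β h * g₂) * g₁ := by
    simp only [MulAut.mul_apply, map_mul, map_inv]
    group
  rw [e]
  exact h₁ _ (h₂ h hh)

theorem NN.pow {H : Subgroup G} {α : MulAut G} (hα : NN H α) (n : ℕ) : NN H (α ^ n) := by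
  induction n with
  | zero => rw [pow_zero]; exact NN.one H
  | succ n ih => rw [pow_succ]; exact ih.mul hα

theorem NN.inv [Finite G] {H : Subgroup G} {α : MulAut G} (hα : NN H α) : NN H α⁻¹ := by
  have : Finite (MulAut G) := inferInstance
  have h1 : α⁻¹ = α ^ (orderOf α - 1) := by
    rw [inv_eq_iff_mul_eq_one, ← pow_succ']
    rw [Nat.sub_add_cancel (orderOf_pos α), pow_orderOf_eq_one]
  rw [h1]
  exact hα.pow _

theorem NN.conj (H : Subgroup G) (c : G) : NN H (MulAut.conj c) := by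
  refine ⟨c, fun h hh => ?_⟩
  have e : c⁻¹ * MulAut.conj c h * c = h := by
    simp [MulAut.conj_apply]; group
  rw [e]; exact hh

/-- The kernel lemma. -/
theorem kernel_lemma {H P : Subgroup G} {γ : MulAut G} (hγ : NN H γ) (hfix : ∀ x ∈ P, γ x = x)
    (hPH : ∀ g : G, ∃ u ∈ P, ∃ h ∈ H, g = u * h) (hPc : ∀ x ∈ P, ∀ y ∈ P, x * y = y * x)
    (hcore : ∀ t : G, (∀ g : G, g⁻¹ * t * g ∈ H) → t = 1) :
    ∃ u : G, γ = MulAut.conj u := by
  obtain ⟨g, hg⟩ := hγ
  obtain ⟨u, hu, h₀, hh₀, rfl⟩ := hPH g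
  have hβH : ∀ h ∈ H, u⁻¹ * γ h * u ∈ H := by
    intro h hh
    have e : u⁻¹ * γ h * u = h₀ * ((u * h₀)⁻¹ * γ h * (u * h₀)) * h₀⁻¹ := by group
    rw [e]
    exact H.mul_mem (H.mul_mem hh₀ (hg h hh)) (H.inv_mem hh₀)
  have hβP : ∀ x ∈ P, u⁻¹ * γ x * u = x := by
    intro x hx
    rw [hfix x hx, mul_assoc, hPc x hx u hu, inv_mul_cancel_left]
  -- beta is the identity on H
  have hβ : ∀ h ∈ H, u⁻¹ * γ h * u = h := by
    intro h hh
    have ht : (u⁻¹ * γ h * u)⁻¹ * h = 1 := by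
      apply hcore
      intro g'
      obtain ⟨x, hx, k, hk, rfl⟩ := hPH g'
      obtain ⟨y, hy, h', hh', hxy⟩ := hPH (h * x)
      -- apply β to h * x = y * h'
      have h1 : (u⁻¹ * γ h * u) * x = y * (u⁻¹ * γ h' * u) := by
        have e1 : u⁻¹ * γ (h * x) * u = (u⁻¹ * γ h * u) * (u⁻¹ * γ x * u) := by
          rw [map_mul]; group
        have e2 : u⁻¹ * γ (y * h') * u = (u⁻¹ * γ y * u) * (u⁻¹ * γ h' * u) := by
          rw [map_mul]; group
        rw [hβP x hx] at e1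
        rw [hβP y hy] at e2
        rw [← e1, ← e2, hxy]
      have h2 : x⁻¹ * ((u⁻¹ * γ h * u)⁻¹ * h) * x = (u⁻¹ * γ h' * u)⁻¹ * h' := by
        have h3 : (u⁻¹ * γ h * u)⁻¹ * y = x * (u⁻¹ * γ h' * u)⁻¹ := by
          rw [inv_mul_eq_iff_eq_mul, ← mul_assoc, h1]
          group
        calc x⁻¹ * ((u⁻¹ * γ h * u)⁻¹ * h) * x = x⁻¹ * (u⁻¹ * γ h * u)⁻¹ * (h * x) := by group
          _ = x⁻¹ * (u⁻¹ * γ h * u)⁻¹ * (y * h') := by rw [hxy]
          _ = x⁻¹ * ((u⁻¹ * γ h * u)⁻¹ * y) * h' := by group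
          _ = x⁻¹ * (x * (u⁻¹ * γ h' * u)⁻¹) * h' := by rw [h3]
          _ = _ := by group
      have h4 : (x * k)⁻¹ * ((u⁻¹ * γ h * u)⁻¹ * h) * (x * k) =
          k⁻¹ * (x⁻¹ * ((u⁻¹ * γ h * u)⁻¹ * h) * x) * k := by group
      rw [h4, h2]
      exact H.mul_mem (H.mul_mem (H.inv_mem hk) (H.mul_mem (H.inv_mem (hβH h' hh')) hh')) hk
    exact inv_mul_eq_one.1 ht
  refine ⟨u, ?_⟩
  ext y
  obtain ⟨x, hx, k, hk, rfl⟩ := hPH y
  have h1 := hβP x hx
  have h2 := hβ k hk
  have e1 : γ x = u * x * u⁻¹ := by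
    calc γ x = u * (u⁻¹ * γ x * u) * u⁻¹ := by group
      _ = _ := by rw [h1]
  have e2 : γ k = u * k * u⁻¹ := by
    calc γ k = u * (u⁻¹ * γ k * u) * u⁻¹ := by group
      _ = _ := by rw [h2]
  rw [map_mul, e1, e2, MulAut.conj_apply]
  group


/-- odd automorphisms send `H` into a conjugate, for 2-transitive action on cosets. -/
theorem odd_NN [Finite G] {H : Subgroup G} [Fintype (G ⧸ H)] [DecidableEq (G ⧸ H)]
    (h2 : ∀ a b c d : G ⧸ H, a ≠ b → c ≠ d → ∃ g : G, g • a = c ∧ g • b = d)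
    (hn : 2 ≤ Fintype.card (G ⧸ H)) (hcop : (Nat.card H).Coprime (Fintype.card (G ⧸ H)))
    (α : MulAut G) (hα : Odd (orderOf α)) : NN H α := by
  classical
  let o : G ⧸ H := ((1 : G) : G ⧸ H)
  let H' : Subgroup G := H.map α.toMonoidHom
  let O : Finset (G ⧸ H) := (MulAction.orbit H' o).toFinset
  have hOmem : ∀ z, z ∈ O ↔ ∃ x : H', (x : G) • o = z := by
    intro z
    simp only [O, Set.mem_toFinset, MulAction.mem_orbit_iff]
    rfl
  have hoO : o ∈ O := (hOmem o).2 ⟨1, by simp⟩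
  have hinvO : ∀ x ∈ H', ∀ z ∈ O, (x : G) • z ∈ O := by
    intro x hx z hz
    obtain ⟨y, rfl⟩ := (hOmem z).1 hz
    refine (hOmem _).2 ⟨⟨x, hx⟩ * y, ?_⟩
    rw [Subgroup.coe_mul, mul_smul]
  have hstab : ∀ h : G, h • o = o → h ∈ H := by
    intro h hh
    have h1 : ((h * 1 : G) : G ⧸ H) = ((1 : G) : G ⧸ H) := hh
    rw [QuotientGroup.eq] at h1
    simpa using H.inv_mem h1
  have hO : ∀ h : G, h • o = o → ∀ z ∈ O, α h • z ∈ O := by
    intro h hh z hz
    exact hinvO _ ⟨h, hstab h hh, rfl⟩ z hz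
  have hOcard : O.card ∣ Nat.card H := by
    have h3 : Nat.card H' = Nat.card H := Subgroup.card_map_of_injective α.injective
    have h4 : O.card = (MulAction.orbit H' o).ncard := by
      rw [Set.ncard_eq_toFinset_card']
    rw [h4, ← MulAction.index_stabilizer, ← h3]
    exact Subgroup.index_dvd_card _
  have hres := Cfsg.Agent.H20.odd_aut_orbit h2 hn α hα (pow_orderOf_eq_one α) o O hO
    (Nat.Coprime.coprime_dvd_left hOcard hcop) ⟨o, hoO⟩
  obtain ⟨ω₀, hω₀⟩ : ∃ ω₀ : G ⧸ H, ∀ x ∈ H', (x : G) • ω₀ = ω₀ := by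
    rcases hres with h1 | h1
    · refine ⟨o, fun x hx => ?_⟩
      obtain ⟨c, hc⟩ := Finset.card_eq_one.1 h1
      have h3 := hinvO x hx o hoO
      rw [hc, Finset.mem_singleton] at h3 hoO
      rw [h3, hoO]
    · have h3 : Oᶜ.card = 1 := by
        rw [Finset.card_compl]
        omega
      obtain ⟨c, hc⟩ := Finset.card_eq_one.1 h3
      refine ⟨c, fun x hx => ?_⟩
      have hcm : c ∈ Oᶜ := by rw [hc]; exact Finset.mem_singleton_self c
      have h4 : (x : G) • c ∈ Oᶜ := by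
        rw [Finset.mem_compl]
        intro h5
        have h6 := hinvO x⁻¹ (H'.inv_mem hx) _ h5
        rw [inv_smul_smul] at h6
        exact (Finset.mem_compl.1 hcm) h6
      rw [hc, Finset.mem_singleton] at h4
      exact h4
  obtain ⟨g, rfl⟩ := QuotientGroup.mk_surjective ω₀
  refine ⟨g, fun h hh => ?_⟩
  have h1 : ((α h * g : G) : G ⧸ H) = (g : G ⧸ H) := hω₀ (α h) ⟨h, hh, rfl⟩
  rw [eq_comm, QuotientGroup.eq] at h1
  have e : g⁻¹ * α h * g = g⁻¹ * (α h * g) := by group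
  rw [e]; exact h1


theorem out_comm [Finite G] {H : Subgroup G} {x : G} {p : ℕ} [Fact p.Prime] (hx : orderOf x = p)
    (hcop : (Nat.card H).Coprime p) (hcard : Nat.card G = Nat.card H * p)
    (hcore : ∀ t : G, (∀ g : G, g⁻¹ * t * g ∈ H) → t = 1)
    {α β : MulAut G} (hα : NN H α) (hβ : NN H β) :
    ((α : MulAut G) : Cfsg.Out G) * (β : Cfsg.Out G) = (β : Cfsg.Out G) * (α : Cfsg.Out G) := by
  classical
  have hpp : p.Prime := Fact.out
  let P : Subgroup G := Subgroup.zpowers x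
  have hPc : ∀ a ∈ P, ∀ b ∈ P, a * b = b * a := by
    intro a ha b hb
    obtain ⟨i, rfl⟩ := Subgroup.mem_zpowers_iff.1 ha
    obtain ⟨j, rfl⟩ := Subgroup.mem_zpowers_iff.1 hb
    rw [← zpow_add, ← zpow_add, add_comm]
  have hPH' : ∀ a ∈ P, a ∈ H → a = 1 := by
    intro a ha hh
    have h1 : orderOf a ∣ p := by
      have := Subgroup.orderOf_dvd_natCard P ha
      rwa [Nat.card_zpowers, hx] at this
    have h2 : orderOf a ∣ Nat.card H := Subgroup.orderOf_dvd_natCard H hh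
    have h3 : orderOf a ∣ Nat.gcd (Nat.card H) p := Nat.dvd_gcd h2 h1
    rw [hcop, Nat.dvd_one] at h3
    exact orderOf_eq_one_iff.1 h3
  have hPH : ∀ g : G, ∃ u ∈ P, ∃ h ∈ H, g = u * h := by
    haveI : Fintype (G ⧸ H) := Fintype.ofFinite _
    let f : P → G ⧸ H := fun u => ((u : G) : G ⧸ H)
    have hinj : Function.Injective f := by
      rintro ⟨a, ha⟩ ⟨b, hb⟩ hab
      have h1 : a⁻¹ * b ∈ H := QuotientGroup.eq.1 hab
      have h2 := hPH' _ (P.mul_mem (P.inv_mem ha) hb) h1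
      exact Subtype.ext (inv_mul_eq_one.1 h2)
    have hidx : Nat.card (G ⧸ H) = p := by
      have h1 := Subgroup.card_eq_card_quotient_mul_card_subgroup H
      rw [hcard, mul_comm] at h1
      exact (Nat.eq_of_mul_eq_mul_right Nat.card_pos h1).symm
    have hsurj : Function.Surjective f := by
      haveI : Finite P := inferInstance
      apply (Function.Injective.bijective_of_nat_card_le hinj _).2
      rw [hidx, Nat.card_zpowers, hx]
    intro g
    obtain ⟨u, hu⟩ := hsurj (g : G ⧸ H)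
    have h1 : (u : G)⁻¹ * g ∈ H := QuotientGroup.eq.1 hu
    exact ⟨u, u.2, _, h1, by group⟩
  have hidxz : ∀ y : G, orderOf y = p → ¬ p ∣ (Subgroup.zpowers y).index := by
    intro y hy hd
    have h1 := Subgroup.card_mul_index (Subgroup.zpowers y)
    rw [Nat.card_zpowers, hy, hcard, mul_comm (Nat.card H)] at h1
    have h2 : (Subgroup.zpowers y).index = Nat.card H := Nat.eq_of_mul_eq_mul_left hpp.pos h1
    rw [h2] at hd
    have h3 := Nat.dvd_gcd hd (dvd_refl p)
    rw [hcop, Nat.dvd_one] at h3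
    exact hpp.one_lt.ne' h3
  have hpz : ∀ y : G, orderOf y = p → IsPGroup p (Subgroup.zpowers y) := by
    intro y hy
    apply IsPGroup.of_card (n := 1)
    rw [Nat.card_zpowers, hy, pow_one]
  have hnorm : ∀ δ : MulAut G, ∃ c : G, (MulAut.conj c * δ) x ∈ P := by
    intro δ
    have hy : orderOf (δ x) = p := by
      rw [MulEquiv.orderOf_eq, hx]
    let Sy := (hpz _ hy).toSylow (hidxz _ hy)
    let Sx := (hpz _ hx).toSylow (hidxz _ hx)
    obtain ⟨c, hc⟩ := MulAction.exists_smul_eq G Sy Sx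
    refine ⟨c, ?_⟩
    have h1 : δ x ∈ (Sy : Subgroup G) := by
      rw [IsPGroup.toSylow_coe]; exact Subgroup.mem_zpowers _
    have h2 : MulAut.conj c • δ x ∈ MulAut.conj c • (Sy : Subgroup G) :=
      Subgroup.smul_mem_pointwise_smul _ _ _ h1
    rw [← Sylow.coe_subgroup_smul, hc, IsPGroup.toSylow_coe] at h2
    exact h2
  obtain ⟨c₁, hc₁⟩ := hnorm α
  obtain ⟨c₂, hc₂⟩ := hnorm β
  set α₁ := MulAut.conj c₁ * α with hα₁
  set β₁ := MulAut.conj c₂ * β with hβ₁
  have hα₁N : NN H α₁ := (NN.conj H c₁).mul hα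
  have hβ₁N : NN H β₁ := (NN.conj H c₂).mul hβ
  obtain ⟨a, ha⟩ := Subgroup.mem_zpowers_iff.1 hc₁
  obtain ⟨b, hb⟩ := Subgroup.mem_zpowers_iff.1 hc₂
  let γ : MulAut G := (β₁ * α₁)⁻¹ * (α₁ * β₁)
  have hγN : NN H γ := ((hβ₁N.mul hα₁N).inv).mul (hα₁N.mul hβ₁N)
  have hcomm : (α₁ * β₁) x = (β₁ * α₁) x := by
    have ha' : α₁ x = x ^ a := ha.symm
    have hb' : β₁ x = x ^ b := hb.symm
    calc (α₁ * β₁) x = α₁ (β₁ x) := rfl
      _ = α₁ (x ^ b) := by rw [hb']
      _ = (α₁ x) ^ b := map_zpow _ _ _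
      _ = (x ^ a) ^ b := by rw [ha']
      _ = (x ^ b) ^ a := by rw [← zpow_mul, ← zpow_mul, mul_comm]
      _ = (β₁ x) ^ a := by rw [hb']
      _ = β₁ (x ^ a) := (map_zpow _ _ _).symm
      _ = β₁ (α₁ x) := by rw [ha']
      _ = (β₁ * α₁) x := rfl
  have hγx : γ x = x := by
    show ((β₁ * α₁)⁻¹ * (α₁ * β₁)) x = x
    rw [MulAut.mul_apply, hcomm, MulAut.inv_apply_self]
  have hγP : ∀ y ∈ P, γ y = y := by
    intro y hy
    obtain ⟨k, rfl⟩ := Subgroup.mem_zpowers_iff.1 hy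
    rw [map_zpow, hγx]
  obtain ⟨u, hu⟩ := kernel_lemma hγN hγP hPH hPc hcore
  have hmk1 : ∀ c : G, ((MulAut.conj c : MulAut G) : Cfsg.Out G) = 1 := by
    intro c
    rw [QuotientGroup.eq_one_iff]
    exact ⟨c, rfl⟩
  have hα₁e : ((α₁ : MulAut G) : Cfsg.Out G) = (α : Cfsg.Out G) := by
    rw [hα₁, QuotientGroup.mk_mul, hmk1, one_mul]
  have hβ₁e : ((β₁ : MulAut G) : Cfsg.Out G) = (β : Cfsg.Out G) := by
    rw [hβ₁, QuotientGroup.mk_mul, hmk1, one_mul]
  rw [← hα₁e, ← hβ₁e, ← QuotientGroup.mk_mul, ← QuotientGroup.mk_mul]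
  rw [QuotientGroup.eq, ]
  have : (β₁ * α₁)⁻¹ * (α₁ * β₁) = γ := rfl
  have h5 : (α₁ * β₁)⁻¹ * (β₁ * α₁) = γ⁻¹ := by
    show _ = ((β₁ * α₁)⁻¹ * (α₁ * β₁))⁻¹
    group
  rw [h5, hu]
  exact Subgroup.inv_mem _ ⟨u, rfl⟩


/-- The statement. -/
theorem result {G : Type*} [Group G] [Finite G] [IsSimpleGroup G] (H : Subgroup G) (hH : H.index.Prime) : Group.IsSolvable (Cfsg.Out G) := by
  classical
  haveI : Fact H.index.Prime := ⟨hH⟩
  set p := H.index with hp
  haveI : Finite (G ⧸ H) := inferInstance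
  haveI : Fintype (G ⧸ H) := Fintype.ofFinite _
  have hcardΩ : Fintype.card (G ⧸ H) = p := by
    rw [hp, Subgroup.index, Nat.card_eq_fintype_card]
  haveI : Finite (MulAut G) := inferInstance
  -- faithful
  have hcoreN : (H.normalCore).Normal := Subgroup.normalCore_normal H
  have hHne : H ≠ ⊤ := by
    rintro rfl
    rw [hp, Subgroup.index_top] at hH
    exact Nat.not_prime_one hH
  have hcore0 : H.normalCore = ⊥ := by
    rcases hcoreN.eq_bot_or_eq_top with h | h
    · exact h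
    · exfalso
      apply hHne
      rw [eq_top_iff, ← h]
      exact Subgroup.normalCore_le H
  have hcore : ∀ t : G, (∀ g : G, g⁻¹ * t * g ∈ H) → t = 1 := by
    intro t ht
    have h1 : t ∈ H.normalCore := by
      intro b
      have := ht b⁻¹
      rwa [inv_inv] at this
    rw [hcore0] at h1
    exact h1
  haveI hfaith : FaithfulSMul G (G ⧸ H) := by
    refine ⟨fun {g₁ g₂} h12 => ?_⟩
    have h1 : g₂⁻¹ * g₁ = 1 := by
      apply hcore
      intro g
      have h2 := h12 (g : G ⧸ H)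
      have h3 : ((g₁ * g : G) : G ⧸ H) = ((g₂ * g : G) : G ⧸ H) := h2
      rw [QuotientGroup.eq] at h3
      have e : g⁻¹ * (g₂⁻¹ * g₁) * g = ((g₂ * g)⁻¹ * (g₁ * g)) := by group
      rw [e]
      have h4 := H.inv_mem h3
      have e2 : ((g₁ * g)⁻¹ * (g₂ * g))⁻¹ = (g₂ * g)⁻¹ * (g₁ * g) := by group
      rwa [e2] at h4
    exact (inv_mul_eq_one.1 h1).symm
  rcases Cfsg.Agent.H03.burnside_prime_degree (α := G ⧸ H) (p := p) G hcardΩ with hsol | h2t
  · -- solvable case
    have hcomm : ∀ a b : G, a * b = b * a := by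
      exact IsSimpleGroup.comm_iff_isSolvable.2 hsol
    have hHn : H.Normal := by
      refine ⟨fun n hn g => ?_⟩
      rw [hcomm g n, mul_inv_cancel_right]
      exact hn
    have hH0 : H = ⊥ := by
      rcases hHn.eq_bot_or_eq_top with h | h
      · exact h
      · exact (hHne h).elim
    have hcardG : Nat.card G = p := by
      have := Subgroup.card_mul_index H
      rw [hH0] at this
      rw [hp, hH0]
      simpa using this.symm
    haveI : IsCyclic G := isCyclic_of_prime_card hcardG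
    have hS : Group.IsSolvable (MulAut G) :=
      Group.isSolvable_of_isSolvable_injective (f := (IsCyclic.mulAutMulEquiv G).toMonoidHom) (IsCyclic.mulAutMulEquiv G).injective
    infer_instance
  · have h2 : ∀ a b c d : G ⧸ H, a ≠ b → c ≠ d → ∃ g : G, g • a = c ∧ g • b = d :=
      fun a b c d hab hcd => MulAction.is_two_pretransitive_iff.1 h2t hab hcd
    have hpp : p.Prime := hH
    have hn : 2 ≤ Fintype.card (G ⧸ H) := by
      rw [hcardΩ]; exact hpp.two_le
    have hcardG : Nat.card G = Nat.card H * p := (Subgroup.card_mul_index H).symm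
    have hdvd : Nat.card G ∣ p.factorial := by
      have h1 := Subgroup.card_dvd_of_injective (MulAction.toPermHom G (G ⧸ H)) (MulAction.toPerm_injective)
      rwa [Nat.card_eq_fintype_card (α := Equiv.Perm (G ⧸ H)), Fintype.card_perm, hcardΩ] at h1
    have hcop : (Nat.card H).Coprime p := by
      rw [Nat.coprime_comm, hpp.coprime_iff_not_dvd]
      intro hd
      have h1 : p * p ∣ p.factorial := by
        refine dvd_trans ?_ hdvd
        rw [hcardG, mul_comm (Nat.card H)]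
        exact Nat.mul_dvd_mul_left p hd
      have h2' : p.factorial = p * (p - 1).factorial := (Nat.mul_factorial_pred hpp.pos.ne').symm
      rw [h2'] at h1
      have h3 := Nat.dvd_of_mul_dvd_mul_left hpp.pos h1
      have h4 := (hpp.dvd_factorial).1 h3
      have := hpp.pos
      omega
    obtain ⟨x, hx⟩ : ∃ x : G, orderOf x = p := by
      apply exists_prime_orderOf_dvd_card' p
      rw [hcardG]; exact dvd_mul_left _ _
    have hcopΩ : (Nat.card H).Coprime (Fintype.card (G ⧸ H)) := by rw [hcardΩ]; exact hcop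
    have hodd : ∀ α : MulAut G, Odd (orderOf α) → NN H α := fun α hα => odd_NN h2 hn hcopΩ α hα
    -- the subgroup of good automorphisms
    let 𝒩 : Subgroup (MulAut G) :=
      { carrier := {α | NN H α}
        mul_mem' := fun ha hb => NN.mul ha hb
        one_mem' := NN.one H
        inv_mem' := fun ha => NN.inv ha }
    let T : Subgroup (Cfsg.Out G) := 𝒩.map (QuotientGroup.mk' (Cfsg.Inn G))
    have hTcomm : ∀ a ∈ T, ∀ b ∈ T, a * b = b * a := by
      rintro _ ⟨α, hα, rfl⟩ _ ⟨β, hβ, rfl⟩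
      exact out_comm hx hcop hcardG hcore hα hβ
    have hparts : ∀ {Γ : Type _} [Group Γ] [Finite Γ] (q : Γ), ∃ e : ℕ, Odd (orderOf (q ^ 2 ^ e)) := by
      intro Γ _ _ q
      obtain ⟨e, m, hm, he⟩ := Nat.exists_eq_two_pow_mul_odd (orderOf_pos q).ne'
      refine ⟨e, ?_⟩
      rw [orderOf_pow_of_dvd (by positivity) (by rw [he]; exact dvd_mul_right _ _), he,
        Nat.mul_div_cancel_left _ (by positivity)]
      exact hm
    have hST : ∀ q : Cfsg.Out G, Odd (orderOf q) → q ∈ T := by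
      intro q hq
      obtain ⟨α₀, rfl⟩ := QuotientGroup.mk_surjective q
      obtain ⟨e, he⟩ := hparts α₀
      have hN : NN H (α₀ ^ 2 ^ e) := hodd _ he
      have hcop2 : (2 ^ e).Coprime (orderOf ((α₀ : MulAut G) : Cfsg.Out G)) := by
        apply Nat.Coprime.pow_left
        exact Nat.coprime_two_left.2 hq
      obtain ⟨r, hr⟩ := exists_pow_eq_self_of_coprime hcop2
      refine ⟨(α₀ ^ 2 ^ e) ^ r, hN.pow r, ?_⟩
      show (((α₀ ^ 2 ^ e) ^ r : MulAut G) : Cfsg.Out G) = _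
      rw [QuotientGroup.mk_pow, QuotientGroup.mk_pow]
      exact hr
    let K : Subgroup (Cfsg.Out G) := Subgroup.closure {q | Odd (orderOf q)}
    have hKT : K ≤ T := (Subgroup.closure_le _).2 hST
    have hKn : K.Normal := by
      refine ⟨fun y hy g => ?_⟩
      induction hy using Subgroup.closure_induction with
      | mem y hy =>
        apply Subgroup.subset_closure
        show Odd (orderOf (g * y * g⁻¹))
        have e : g * y * g⁻¹ = MulAut.conj g y := rfl
        rw [e, MulEquiv.orderOf_eq]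
        exact hy
      | one => rw [mul_one, mul_inv_cancel]; exact Subgroup.one_mem _
      | mul a b _ _ iha ihb =>
        have e : g * (a * b) * g⁻¹ = (g * a * g⁻¹) * (g * b * g⁻¹) := by group
        rw [e]; exact K.mul_mem iha ihb
      | inv a _ iha =>
        have e : g * a⁻¹ * g⁻¹ = (g * a * g⁻¹)⁻¹ := by group
        rw [e]; exact K.inv_mem iha
    haveI : K.Normal := hKn
    have hKsol : Group.IsSolvable K := Group.isSolvable_of_comm (by
      rintro ⟨a, ha⟩ ⟨b, hb⟩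
      exact Subtype.ext (hTcomm a (hKT ha) b (hKT hb)))
    haveI : Fact (Nat.Prime 2) := ⟨Nat.prime_two⟩
    have hQp : IsPGroup 2 (Cfsg.Out G ⧸ K) := by
      intro y
      obtain ⟨q, rfl⟩ := QuotientGroup.mk_surjective y
      obtain ⟨e, he⟩ := hparts q
      refine ⟨e, ?_⟩
      rw [← QuotientGroup.mk_pow, QuotientGroup.eq_one_iff]
      exact Subgroup.subset_closure he
    haveI : Group.IsNilpotent (Cfsg.Out G ⧸ K) := hQp.isNilpotent
    have hQsol : Group.IsSolvable (Cfsg.Out G ⧸ K) := inferInstance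
    refine Group.isSolvable_of_ker_le_range K.subtype (QuotientGroup.mk' K) ?_
    rw [QuotientGroup.ker_mk', Subgroup.range_subtype]

end Cfsg.Agent.S4277
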