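import Cfsg.Statements.S4282
import Cfsg.Agent.Lib.H26.HBCrit
import Mathlib

set_option autoImplicit false
set_option linter.style.haveILetI false
set_option linter.unusedVariables false

open Cfsg

namespace Cfsg.Agent.S4282

open Module Cfsg.Agent.H26.HBLin Cfsg.Agent.H26.ExtraRep Cfsg.Agent.H26.HBCrit

/-- A critical case behind the Hall–Higman theorem. Let p ≠ q be primes and G a finite group generated by a normal q-subgroup Q and a cyclic p-subgroup generated by x, such that the centralizer of every non-identity element of that cyclic subgroup is its product with the centre of G. Let K be an algebraically closed field of characteristic p and ρ a faithful representation of G on a nonzero finite-dimensional K-space whose restriction to Q is irreducible. If s is the least exponent with (ρ(x) − 1)^s = 0, then |⟨x⟩| − 1 ≤ s ≤ |⟨x⟩|; and if s = |⟨x⟩| − 1 then |⟨x⟩| − 1 is a power of q and Q is non-abelian. -/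
theorem result {G : Type*} [Group G] [Finite G] (p q : ℕ) [Fact p.Prime] [Fact q.Prime] (hpq : p ≠ q) (Q : Subgroup G) [Q.Normal] (hQ : IsPGroup q Q) (x : G) (hx : IsPGroup p (Subgroup.zpowers x)) (hgen : Q ⊔ Subgroup.zpowers x = ⊤) (hC : ∀ y ∈ Subgroup.zpowers x, y ≠ 1 → Subgroup.centralizer ({y} : Set G) = Subgroup.zpowers x ⊔ Subgroup.center G) {K : Type*} [Field K] [IsAlgClosed K] [CharP K p] {V : Type*} [AddCommGroup V] [Module K V] [FiniteDimensional K V] [Nontrivial V] (ρ : Representation K G V) (hfaith : Function.Injective ρ) (hirr : ∀ W : Submodule K V, (∀ g ∈ Q, Submodule.map (ρ g) W ≤ W) → W = ⊥ ∨ W = ⊤) (s : ℕ) (hs : (ρ x - 1) ^ s = 0) (hmin : ∀ k < s, (ρ x - 1) ^ k ≠ 0) : Nat.card (Subgroup.zpowers x) - 1 ≤ s ∧ s ≤ Nat.card (Subgroup.zpowers x) ∧ (s = Nat.card (Subgroup.zpowers x) - 1 → (∃ b : ℕ, Nat.card (Subgroup.zpowers x) - 1 = q ^ b) ∧ ¬ IsMulCommutative Q) := by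
  classical
  haveI : Fintype Q := Fintype.ofFinite Q
  obtain ⟨k, hk⟩ := IsPGroup.iff_card.mp hx
  rw [hk]
  have hord : orderOf x = p ^ k := by rw [← Nat.card_zpowers]; exact hk
  have hx1 : x ^ p ^ k = 1 := by rw [← hord]; exact pow_orderOf_eq_one x
  have hp : p.Prime := Fact.out
  have hs1 : 1 ≤ s := by
    by_contra hcon
    have h0 : s = 0 := by omega
    subst h0
    rw [pow_zero] at hs
    exact one_ne_zero hs
  by_cases hk0 : k = 0
  · subst hk0
    have hx1' : x = 1 := by simpa using hx1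
    have hρ : ρ x - 1 = 0 := by rw [hx1', map_one, sub_self]
    have hs2 : s ≤ 1 := by
      by_contra hcon
      apply hmin 1 (by omega)
      rw [pow_one, hρ]
    refine ⟨by simp, by simpa using hs2, ?_⟩
    intro h
    simp at h
    omega
  have hh1 : 1 < p ^ k := Nat.one_lt_pow hk0 hp.one_lt
  let r : Q →* End K V := ρ.comp Q.subtype
  have hrcoe : ∀ u : Q, r u = ρ (u : G) := fun u => rfl
  have hsimple : ∀ W : Submodule K V, (∀ y, ∀ x ∈ W, r y x ∈ W) → W = ⊥ ∨ W = ⊤ := by
    intro W hW
    apply hirr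
    intro g hg
    rintro _ ⟨w, hw, rfl⟩
    exact hW ⟨g, hg⟩ w hw
  let σ : Equiv.Perm Q := (MulAut.conjNormal x : MulAut Q).toEquiv
  have hσcoe : ∀ u : Q, ((σ u : Q) : G) = x * u * x⁻¹ := fun u => rfl
  have hσi : ∀ (i : ℕ) (u : Q), (((σ ^ i) u : Q) : G) = x ^ i * u * (x ^ i)⁻¹ := by
    intro i
    induction i with
    | zero => intro u; simp
    | succ i ih =>
      intro u
      rw [pow_succ', Equiv.Perm.mul_apply, hσcoe, ih, pow_succ']
      group
  have hA : (ρ x) ^ (p ^ k) = 1 := by rw [← map_pow, hx1, map_one]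
  have hint : ∀ u, ρ x * r u = r (σ u) * ρ x := by
    intro u
    rw [hrcoe, hrcoe, hσcoe, ← map_mul, ← map_mul]
    congr 1
    group
  have hσh : ∀ u, (σ ^ (p ^ k)) u = u := by
    intro u
    apply Subtype.ext
    rw [hσi, hx1]
    simp
  have hcenter : ∀ u : Q, (u : G) ∈ Subgroup.zpowers x ⊔ Subgroup.center G →
      (u : G) ∈ Subgroup.center G := by
    intro u hu
    obtain ⟨a, ha, c, hc, hac⟩ := Subgroup.mem_sup_of_normal_right.mp hu
    have hcomm : Commute a c := (Subgroup.mem_center_iff.mp hc) a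
    have h1 : (u : G) ^ p ^ k = c ^ p ^ k := by
      rw [← hac, hcomm.mul_pow]
      obtain ⟨n, rfl⟩ := Subgroup.mem_zpowers_iff.mp ha
      rw [← zpow_natCast, ← zpow_natCast, ← zpow_mul, mul_comm, zpow_mul, zpow_natCast x, hx1, one_zpow,
        one_mul]
    have h2 : (u : G) ^ p ^ k ∈ Subgroup.center G := by
      rw [h1]; exact Subgroup.pow_mem _ hc _
    obtain ⟨m, hm⟩ := IsPGroup.iff_orderOf.mp hQ u
    have h3 : (p ^ k).Coprime (orderOf (u : G)) := by
      have : orderOf (u : G) = orderOf u := Subgroup.orderOf_coe u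
      rw [this, hm]
      exact Nat.Coprime.pow _ _ ((Nat.coprime_primes hp Fact.out).mpr hpq)
    obtain ⟨e, he⟩ := exists_pow_eq_self_of_coprime h3
    rw [← he]
    exact Subgroup.pow_mem _ h2 _
  have hscal : ∀ c ∈ Subgroup.center G, ∀ hc' : c ∈ Q, ∃ d : K, r ⟨c, hc'⟩ = d • 1 := by
    intro c hc hc'
    refine schur (r := r) hsimple _ (fun y => ?_)
    rw [hrcoe, hrcoe, ← map_mul, ← map_mul]
    congr 1
    exact (Subgroup.mem_center_iff.mp hc _)
  have hfree : ∀ i, 0 < i → i < p ^ k → ∀ u, (σ ^ i) u = u → ∃ c : K, r u = c • 1 := by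
    intro i hi0 hih u hu
    have h1 : x ^ i ≠ 1 := by
      intro h
      have := orderOf_dvd_of_pow_eq_one h
      rw [hord] at this
      exact absurd (Nat.le_of_dvd hi0 this) (by omega)
    have h2 : (u : G) ∈ Subgroup.centralizer ({x ^ i} : Set G) := by
      rw [Subgroup.mem_centralizer_iff]
      intro g hg
      rw [Set.mem_singleton_iff] at hg
      subst hg
      have h3 := congrArg Subtype.val hu
      rw [hσi] at h3
      rw [mul_inv_eq_iff_eq_mul] at h3
      exact h3
    rw [hC _ (Subgroup.npow_mem_zpowers _ _) h1] at h2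
    exact hscal _ (hcenter u h2) u.2
  have hns : ∃ u, ¬ ∃ c : K, r u = c • 1 := by
    by_contra hcon
    push Not at hcon
    have hall : ∀ u, ∃ c : K, r u = c • 1 := hcon
    have h0 : LinearMap.ker (ρ x - 1) = ⊤ := by
      refine (hsimple _ ?_).resolve_left ?_
      · intro y w hw
        obtain ⟨c, hc⟩ := hall y
        rw [hc]
        simpa using Submodule.smul_mem _ c hw
      · intro hbot
        have h1 : (ρ x - 1) ^ (s - 1) ≠ 0 := hmin _ (by omega)
        apply h1
        ext w
        have h2 : (ρ x - 1) (((ρ x - 1) ^ (s - 1)) w) = 0 := by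
          rw [← Module.End.mul_apply, ← pow_succ', Nat.sub_add_cancel hs1, hs]
          rfl
        have h3 : ((ρ x - 1) ^ (s - 1)) w ∈ LinearMap.ker (ρ x - 1) := h2
        rw [hbot] at h3
        exact (Submodule.mem_bot K).mp h3
    have h1 : ρ x = 1 := by
      ext w
      have h2 : w ∈ LinearMap.ker (ρ x - 1) := by rw [h0]; trivial
      have h3 : (ρ x - 1) w = 0 := h2
      simpa [sub_eq_zero] using h3
    have h2 : x = 1 := hfaith (h1.trans (map_one ρ).symm)
    rw [h2, orderOf_one] at hord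
    omega
  have hmain := crit_main hpq hQ r hsimple σ (ρ x) k hA hint hσh hfree hns s hs hmin
  rcases hmain with h1 | ⟨h1, h2⟩
  · refine ⟨by omega, by omega, fun h => by omega⟩
  · refine ⟨by omega, by omega, fun _ => ⟨?_, ?_⟩⟩
    · obtain ⟨b, hb⟩ := finrank_prime_pow (K := K) (q := q) _ Q hQ V r hsimple rfl
      exact ⟨b, by omega⟩
    · intro hcomm
      obtain ⟨u, hu⟩ := hns
      apply hu
      refine schur (r := r) hsimple _ (fun y => ?_)
      rw [← map_mul, ← map_mul]
      congr 1
      exact hcomm.is_comm.comm y u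

end Cfsg.Agent.S4282
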