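import Cfsg.Statements.S4283
import Cfsg.Agent.Lib.H20.Frob

set_option autoImplicit false
open Cfsg
open scoped Pointwise

namespace Cfsg.Agent.S4283

open Cfsg.Agent.H20

theorem index_centralizer_conj {G : Type*} [Group G] [Finite G] (g y : G) :
    (Subgroup.centralizer ({g * y * g⁻¹} : Set G)).index =
      (Subgroup.centralizer ({y} : Set G)).index := by
  have e : Subgroup.centralizer ({g * y * g⁻¹} : Set G) =
      (Subgroup.centralizer ({y} : Set G)).map (MulAut.conj g).toMonoidHom := by
    ext w
    rw [Subgroup.mem_centralizer_singleton_iff]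
    constructor
    · intro h
      refine ⟨g⁻¹ * w * g, ?_, by simp [mul_assoc]⟩
      refine Subgroup.mem_centralizer_singleton_iff.mpr ?_
      calc g⁻¹ * w * g * y = g⁻¹ * (w * (g * y * g⁻¹)) * g := by group
        _ = g⁻¹ * (g * y * g⁻¹ * w) * g := by rw [h]
        _ = y * (g⁻¹ * w * g) := by group
    · rintro ⟨v, hv, rfl⟩
      have hv' : v * y = y * v := Subgroup.mem_centralizer_singleton_iff.mp hv
      show g * v * g⁻¹ * (g * y * g⁻¹) = g * y * g⁻¹ * (g * v * g⁻¹)
      calc g * v * g⁻¹ * (g * y * g⁻¹) = g * (v * y) * g⁻¹ := by group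
        _ = g * (y * v) * g⁻¹ := by rw [hv']
        _ = _ := by group
  rw [e, Subgroup.index_map]
  have hk : (MulAut.conj g).toMonoidHom.ker = ⊥ :=
    (MonoidHom.ker_eq_bot_iff _).mpr (MulAut.conj g).injective
  have hr : (MulAut.conj g).toMonoidHom.range = ⊤ :=
    MonoidHom.range_eq_top.mpr (MulAut.conj g).surjective
  rw [hk, hr, sup_bot_eq, Subgroup.index_top, mul_one]

/-- Let G be a finite group with centre Z and let K, H be abelian subgroups of G containing Z such that G/Z is a Frobenius group with complement H/Z and kernel K/Z. Then the conjugacy class sizes of G are exactly 1, [G : K] and [G : H], and these two indices are coprime. (This is the converse half of the characterization of finite groups whose conjugacy class sizes are exactly 1, m and n with m and n coprime.) -/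
theorem result {G : Type*} [Group G] [Finite G] (K H : Subgroup G) (hZK : Subgroup.center G ≤ K) (hZH : Subgroup.center G ≤ H) (hK : IsMulCommutative K) (hH : IsMulCommutative H) (hFrob : Cfsg.IsFrobeniusComplement (H.map (QuotientGroup.mk' (Subgroup.center G)))) (hker : Cfsg.frobeniusKernel (H.map (QuotientGroup.mk' (Subgroup.center G))) = (K.map (QuotientGroup.mk' (Subgroup.center G)) : Set (G ⧸ Subgroup.center G))) : Set.range (fun x : G => (Subgroup.centralizer ({x} : Set G)).index) = ({1, K.index, H.index} : Set ℕ) ∧ K.index.Coprime H.index := by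
  set Z := Subgroup.center G with hZ
  set q := QuotientGroup.mk' Z with hq
  set Hb := H.map q with hHb
  set Kb := K.map q with hKb
  have hqsurj : Function.Surjective q := QuotientGroup.mk'_surjective Z
  have hqker : q.ker = Z := QuotientGroup.ker_mk' Z
  have hcomapH : Hb.comap q = H := by
    rw [hHb, Subgroup.comap_map_eq, hqker]; exact sup_eq_left.mpr hZH
  have hcomapK : Kb.comap q = K := by
    rw [hKb, Subgroup.comap_map_eq, hqker]; exact sup_eq_left.mpr hZK
  have hmemH : ∀ x, q x ∈ Hb ↔ x ∈ H := fun x => by
    rw [← Subgroup.mem_comap, hcomapH]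
  have hmemK : ∀ x, q x ∈ Kb ↔ x ∈ K := fun x => by
    rw [← Subgroup.mem_comap, hcomapK]
  have hq1 : ∀ x, q x = 1 ↔ x ∈ Z := fun x => by
    rw [← MonoidHom.mem_ker, hqker]
  have hker' : ∀ y : G ⧸ Z, y ∈ Kb ↔ (y = 1 ∨ ∀ g : G ⧸ Z, y ∉ MulAut.conj g • Hb) := by
    intro y
    have : y ∈ (Kb : Set (G ⧸ Z)) ↔ y ∈ Cfsg.frobeniusKernel Hb := by rw [hker]
    exact this
  have hcommK : ∀ a ∈ K, ∀ b ∈ K, a * b = b * a := fun a ha b hb =>
    congrArg Subtype.val (hK.is_comm.comm (⟨a, ha⟩ : K) ⟨b, hb⟩)
  have hcommH : ∀ a ∈ H, ∀ b ∈ H, a * b = b * a := fun a ha b hb =>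
    congrArg Subtype.val (hH.is_comm.comm (⟨a, ha⟩ : H) ⟨b, hb⟩)
  -- centralizers of noncentral elements
  have hCH : ∀ y ∈ H, y ∉ Z → Subgroup.centralizer ({y} : Set G) = H := by
    intro y hy hyZ
    apply le_antisymm
    · intro w hw
      have hw' : w * y = y * w := Subgroup.mem_centralizer_singleton_iff.mp hw
      rw [← hmemH]
      refine frob_centralizer_le Hb hFrob (q y) ((hmemH y).mpr hy)
        (fun h => hyZ ((hq1 y).mp h)) (q w) ?_
      rw [← map_mul, ← map_mul, hw']
    · intro w hw
      exact Subgroup.mem_centralizer_singleton_iff.mpr (hcommH w hw y hy)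
  have hCK : ∀ x ∈ K, x ∉ Z → Subgroup.centralizer ({x} : Set G) = K := by
    intro x hx hxZ
    apply le_antisymm
    · intro w hw
      have hw' : w * x = x * w := Subgroup.mem_centralizer_singleton_iff.mp hw
      by_contra hwK
      have hqwK : q w ∉ Kb := fun h => hwK ((hmemK w).mp h)
      rw [hker'] at hqwK
      push Not at hqwK
      obtain ⟨hqw1, a, ha⟩ := hqwK
      rw [mem_conj_smul_iff] at ha
      have hxb : q x ∈ Kb := (hmemK x).mpr hx
      have hx1 : q x ≠ 1 := fun h => hxZ ((hq1 x).mp h)
      have hxno := ((hker' _).mp hxb).resolve_left hx1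
      apply hxno a
      rw [mem_conj_smul_iff]
      refine frob_centralizer_le Hb hFrob _ ha ?_ _ ?_
      · intro h
        apply hqw1
        have : q w = a * (a⁻¹ * q w * a) * a⁻¹ := by group
        rw [this, h]; simp
      · have e : q w * q x = q x * q w := by rw [← map_mul, ← map_mul, hw']
        calc a⁻¹ * q x * a * (a⁻¹ * q w * a) = a⁻¹ * (q x * q w) * a := by group
          _ = a⁻¹ * (q w * q x) * a := by rw [e]
          _ = _ := by group
    · intro w hw
      exact Subgroup.mem_centralizer_singleton_iff.mpr (hcommK w hw x hx)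
  -- cardinalities
  have hidxH : Hb.index = H.index := by
    rw [hHb, Subgroup.index_map, hqker, sup_eq_left.mpr hZH,
      MonoidHom.range_eq_top.mpr hqsurj, Subgroup.index_top, mul_one]
  have hidxK : Kb.index = K.index := by
    rw [hKb, Subgroup.index_map, hqker, sup_eq_left.mpr hZK,
      MonoidHom.range_eq_top.mpr hqsurj, Subgroup.index_top, mul_one]
  have hcardK : Nat.card Kb = H.index := by
    have h1 := card_frobeniusKernel Hb hFrob
    rw [hker] at h1
    rw [← hidxH, ← h1]
    rfl
  have hcardH : Nat.card Hb = K.index := by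
    have h1 := Subgroup.card_mul_index Hb
    have h2 := Subgroup.card_mul_index Kb
    rw [hcardK, hidxK] at h2
    rw [hidxH] at h1
    have hpos : 0 < H.index := Nat.pos_of_ne_zero Subgroup.index_ne_zero_of_finite
    have : H.index * Nat.card Hb = H.index * K.index := by
      rw [h2, mul_comm, h1]
    exact Nat.eq_of_mul_eq_mul_left hpos this
  refine ⟨?_, ?_⟩
  · ext n
    simp only [Set.mem_range, Set.mem_insert_iff, Set.mem_singleton_iff]
    constructor
    · rintro ⟨x, rfl⟩
      by_cases hxZ : x ∈ Z
      · left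
        have : Subgroup.centralizer ({x} : Set G) = ⊤ := by
          rw [eq_top_iff]
          intro w _
          exact Subgroup.mem_centralizer_singleton_iff.mpr
            ((Subgroup.mem_center_iff.mp hxZ w))
        rw [this, Subgroup.index_top]
      · by_cases hxK : x ∈ K
        · right; left
          rw [hCK x hxK hxZ]
        · right; right
          have hqx : q x ∉ Kb := fun h => hxK ((hmemK x).mp h)
          rw [hker'] at hqx
          push Not at hqx
          obtain ⟨_, a, ha⟩ := hqx
          obtain ⟨g, rfl⟩ := hqsurj a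
          rw [mem_conj_smul_iff, ← map_inv, ← map_mul, ← map_mul, hmemH] at ha
          have hyZ : g⁻¹ * x * g ∉ Z := by
            intro h
            apply hxZ
            have h2 := (Subgroup.mem_center_iff.mp h)
            rw [Subgroup.mem_center_iff]
            intro w
            have h3 := h2 (g⁻¹ * w * g)
            have h4 : g⁻¹ * (w * x) * g = g⁻¹ * (x * w) * g := by
              calc g⁻¹ * (w * x) * g = g⁻¹ * w * g * (g⁻¹ * x * g) := by group
                _ = g⁻¹ * x * g * (g⁻¹ * w * g) := h3
                _ = _ := by group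
            simpa using h4
          have e : x = g * (g⁻¹ * x * g) * g⁻¹ := by group
          rw [e, index_centralizer_conj, hCH _ ha hyZ]
    · rintro (rfl | rfl | rfl)
      · refine ⟨1, ?_⟩
        have : Subgroup.centralizer ({(1 : G)} : Set G) = ⊤ := by
          rw [eq_top_iff]
          intro w _
          exact Subgroup.mem_centralizer_singleton_iff.mpr (by simp)
        simp only [this, Subgroup.index_top]
      · -- K is bigger than Z
        have hbig : 1 < Nat.card Kb := by
          rw [hcardK, ← hidxH]
          have h0 : Hb.index ≠ 0 := Subgroup.index_ne_zero_of_finite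
          have h1 : Hb.index ≠ 1 := by
            rw [Ne, Subgroup.index_eq_one]; exact hFrob.2.1
          omega
        obtain ⟨y, hy⟩ : ∃ y : Kb, y ≠ 1 := by
          have : Nontrivial Kb := Finite.one_lt_card_iff_nontrivial.mp hbig
          exact exists_ne 1
        obtain ⟨x, hx, hxy⟩ := y.2
        refine ⟨x, ?_⟩
        refine congrArg Subgroup.index (hCK x hx ?_)
        intro hxZ
        apply hy
        apply Subtype.ext
        show (y : G ⧸ Z) = 1
        rw [← hxy]
        exact (hq1 x).mpr hxZ
      · obtain ⟨y, hy, hy1⟩ : ∃ y ∈ Hb, y ≠ 1 := by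
          by_contra hcon
          push Not at hcon
          exact hFrob.1 (eq_bot_iff.mpr (fun y hy => Subgroup.mem_bot.mpr (hcon y hy)))
        obtain ⟨x, hx, rfl⟩ := hy
        refine ⟨x, ?_⟩
        exact congrArg Subgroup.index (hCH x hx (fun h => hy1 ((hq1 x).mpr h)))
  · -- coprimality
    rw [← hcardH, ← hcardK]
    apply Nat.Coprime.symm
    apply Nat.coprime_of_dvd
    intro r hr hd1 hd2
    have := Fact.mk hr
    obtain ⟨u, hu⟩ := exists_prime_orderOf_dvd_card' (G := Hb) r hd2
    have hu1 : (u : G ⧸ Z) ≠ 1 := by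
      intro h
      have : u = 1 := Subtype.ext h
      rw [this, orderOf_one] at hu
      exact hr.one_lt.ne hu
    have huord : (u : G ⧸ Z) ^ r = 1 := by
      have := pow_orderOf_eq_one u
      rw [hu] at this
      exact congrArg Subtype.val this
    have hKbnorm : ∀ (g k : G ⧸ Z), k ∈ Kb → g * k * g⁻¹ ∈ Kb := by
      intro g k hk
      rw [hker'] at hk ⊢
      rcases hk with rfl | hk
      · left; simp
      · right
        intro a ha
        apply hk (g⁻¹ * a)
        rw [mem_conj_smul_iff] at ha ⊢
        have e : (g⁻¹ * a)⁻¹ * k * (g⁻¹ * a) = a⁻¹ * (g * k * g⁻¹) * a := by group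
        rw [e]; exact ha
    classical
    have := Fintype.ofFinite Kb
    let f : Function.End Kb := fun k => ⟨(u : G ⧸ Z) * k * (u : G ⧸ Z)⁻¹, hKbnorm _ _ k.2⟩
    have hfpow : ∀ (n : ℕ) (k : Kb), (((f ^ n) k : Kb) : G ⧸ Z) =
        (u : G ⧸ Z) ^ n * k * ((u : G ⧸ Z) ^ n)⁻¹ := by
      intro n k
      induction n with
      | zero => simp; rfl
      | succ n ih =>
        rw [pow_succ']
        show (u : G ⧸ Z) * (((f ^ n) k : Kb) : G ⧸ Z) * (u : G ⧸ Z)⁻¹ = _
        rw [ih, pow_succ']
        group
    have hf1 : f ^ r ^ 1 = 1 := by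
      refine funext (fun k => Subtype.ext ?_)
      rw [pow_one, hfpow, huord]
      simp
      rfl
    have hmod := Equiv.Perm.card_fixedPoints_modEq (α := Kb) (f := f) (p := r) (n := 1) hf1
    have hfix : Function.fixedPoints f = {(1 : Kb)} := by
      ext k
      simp only [Set.mem_singleton_iff]
      constructor
      · intro hk
        have hk' : f k = k := hk
        have h1 : (u : G ⧸ Z) * k * (u : G ⧸ Z)⁻¹ = k := congrArg Subtype.val hk'
        have h2 : (k : G ⧸ Z) * u = u * k := by
          rw [mul_inv_eq_iff_eq_mul] at h1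
          exact h1.symm
        have h3 : (k : G ⧸ Z) ∈ Hb := frob_centralizer_le Hb hFrob u u.2 hu1 k h2
        by_contra hk1
        have hk1' : (k : G ⧸ Z) ≠ 1 := fun h => hk1 (Subtype.ext h)
        have hno := ((hker' _).mp k.2).resolve_left hk1'
        apply hno 1
        rw [mem_conj_smul_iff]
        simpa using h3
      · rintro rfl
        show f 1 = 1
        apply Subtype.ext
        show (u : G ⧸ Z) * 1 * (u : G ⧸ Z)⁻¹ = 1
        simp
    have hc : Fintype.card (Function.fixedPoints f) = 1 := by
      have := Fintype.card_congr (Equiv.setCongr hfix)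
      rw [this]; simp
    rw [hc, ← Nat.card_eq_fintype_card] at hmod
    have h0 : Nat.card Kb % r = 0 := Nat.mod_eq_zero_of_dvd hd1
    have h1 : Nat.card Kb % r = 1 % r := hmod
    rw [h0, Nat.mod_eq_of_lt hr.one_lt] at h1
    exact absurd h1 (by norm_num)

end Cfsg.Agent.S4283
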