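import Cfsg.Statements.S4284
import Mathlib
import Cfsg.Agent.Lib.H13.TC6
import Cfsg.Agent.Lib.H13.TC8

set_option autoImplicit false
open Cfsg

namespace Cfsg.Agent.S4284

/-- Let G be a finite group with no nontrivial abelian direct factor whose conjugacy class sizes are exactly 1, m and m·n with m, n > 1 coprime. Then m is a prime p dividing n − 1; the elements whose class has size 1 or p form an abelian normal subgroup of index p; G has a normal p-complement; and the commutator subgroup of a Sylow p-subgroup of G has order p. -/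
theorem result {G : Type*} [Group G] [Finite G] (hnodf : ∀ A B : Subgroup G, A.Normal → B.Normal → A ⊓ B = ⊥ → A ⊔ B = ⊤ → IsMulCommutative A → A = ⊥) (m n : ℕ) (hm : 1 < m) (hn : 1 < n) (hcop : m.Coprime n) (h : Set.range (fun x : G => (Subgroup.centralizer ({x} : Set G)).index) = ({1, m, m * n} : Set ℕ)) : m.Prime ∧ m ∣ n - 1 ∧ (∃ M : Subgroup G, M.Normal ∧ (M : Set G) = {x : G | (Subgroup.centralizer ({x} : Set G)).index = 1 ∨ (Subgroup.centralizer ({x} : Set G)).index = m} ∧ M.index = m ∧ IsMulCommutative M) ∧ (∃ N : Subgroup G, N.Normal ∧ (Nat.card N).Coprime m ∧ ∃ a : ℕ, N.index = m ^ a) ∧ ∀ P : Sylow m G, Nat.card (commutator (P : Subgroup G)) = m := by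
  classical
  have hcls : Cfsg.Agent.H13.RT.Cls m (m * n) G := by
    intro x
    have h1 : (Subgroup.centralizer ({x} : Set G)).index ∈ Set.range (fun x : G => (Subgroup.centralizer ({x} : Set G)).index) := ⟨x, rfl⟩
    rw [h] at h1
    simpa using h1
  have hexm : ∃ x : G, (H19.cz x).index = m := by
    have h1 : m ∈ ({1, m, m * n} : Set ℕ) := by simp
    rw [← h] at h1
    exact h1
  have hexn : ∃ x : G, (H19.cz x).index = m * n := by
    have h1 : m * n ∈ ({1, m, m * n} : Set ℕ) := by simp
    rw [← h] at h1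
    exact h1
  have S : Cfsg.Agent.H13.TC.Setup m n G := ⟨hm, hn, hcop, hcls, hexm, hexn⟩
  obtain ⟨q, c, hq, hmq, hc⟩ := S.m_prime_pow
  by_cases hex : ∃ (e : ℕ) (x : G), orderOf x = q ^ e ∧ (H19.cz x).index = m
  · obtain ⟨e, y, hy, hym⟩ := hex
    obtain ⟨s, hs, hsn⟩ := Nat.exists_prime_and_dvd (ne_of_gt hn)
    obtain ⟨z, f, D⟩ := S.mdata hq hmq hc hy hym hs hsn
    exact D.final hnodf
  · push Not at hex
    obtain ⟨s, T⟩ := S.t2 hq hmq hc hex
    exact T.false_case.elim

end Cfsg.Agent.S4284
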