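import Cfsg.Statements.S4290
import Cfsg.Agent.S4276

set_option autoImplicit false
set_option linter.unusedVariables false
open Cfsg

namespace Cfsg.Agent.S4290

theorem result {Ω : Type*} [Fintype Ω] (G : Subgroup (Equiv.Perm Ω)) (h2 : MulAction.IsMultiplyPretransitive G Ω 2) (o : Ω) (hHall : (Nat.card (MulAction.stabilizer G o)).Coprime (MulAction.stabilizer G o).index) (α : MulAut G) (hα : Odd (orderOf α)) : ∃ σ : Equiv.Perm Ω, σ ∈ Subgroup.normalizer (G : Set (Equiv.Perm Ω)) ∧ ∀ g : G, ((α g : G) : Equiv.Perm Ω) = σ * (g : Equiv.Perm Ω) * σ⁻¹ := by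
  classical
  by_cases hn : 2 ≤ Fintype.card Ω
  · set H' := (MulAction.stabilizer G o).map α.toMonoidHom with hH'
    have hidx : (MulAction.stabilizer G o).index = Fintype.card Ω := by
      have h2' : ∀ a b c d : Ω, a ≠ b → c ≠ d → ∃ g : G, g • a = c ∧ g • b = d :=
        fun a b c d hab hcd => MulAction.is_two_pretransitive_iff.1 h2 hab hcd
      have hcard1 : 1 < Fintype.card Ω := hn
      have hex : ∀ c : Ω, ∃ g : G, g • o = c := by
        intro c
        obtain ⟨b, hb⟩ := Fintype.exists_ne_of_one_lt_card hcard1 o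
        obtain ⟨d, hd⟩ := Fintype.exists_ne_of_one_lt_card hcard1 c
        obtain ⟨g, hg, -⟩ := h2' o b c d hb.symm hd.symm
        exact ⟨g, hg⟩
      rw [MulAction.index_stabilizer]
      have : MulAction.orbit G o = Set.univ := Set.eq_univ_of_forall (fun c => hex c)
      rw [this, Set.ncard_univ, Nat.card_eq_fintype_card]
    rw [hidx] at hHall
    have hdvd : Nat.card (MulAction.orbit H' o) ∣ Nat.card (MulAction.stabilizer G o) := by
      have h3 : Nat.card H' = Nat.card (MulAction.stabilizer G o) :=
        Subgroup.card_map_of_injective α.injective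
      rw [← h3, Nat.card_coe_set_eq, ← MulAction.index_stabilizer]
      exact Subgroup.index_dvd_card _
    exact (Cfsg.Agent.S4276.result G h2 o α hα o (Nat.Coprime.coprime_dvd_left hdvd hHall)).1
  · have hle : Fintype.card Ω ≤ 1 := by omega
    haveI hsub : Subsingleton Ω := Fintype.card_le_one_iff_subsingleton.1 hle
    exact ⟨1, Subgroup.one_mem _, fun g => Subsingleton.elim _ _⟩

end Cfsg.Agent.S4290
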