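import Cfsg.Statements.S4293
import Mathlib
import Cfsg.Agent.Lib.H20.FrobSemi

set_option autoImplicit false
open Cfsg

namespace Cfsg.Agent.S4293


set_option linter.unusedSectionVars false

universe v₀ u₀

/-- Universe-free version of `H20.exists_frob_of_act`. -/
theorem exists_frob_of_act' {V : Type v₀} {H : Type u₀} [AddCommGroup V] [Finite V] [Nontrivial V]
    [Group H] [Finite H] [Nontrivial H] (act : H → V → V) (h1 : ∀ v, act 1 v = v)
    (hmul : ∀ g h v, act (g * h) v = act g (act h v))
    (hadd : ∀ g v w, act g (v + w) = act g v + act g w)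
    (hfree : ∀ h : H, h ≠ 1 → ∀ v : V, v ≠ 0 → act h v ≠ v) :
    ∃ (L : Type) (_ : Group L) (_ : Finite L) (K : Subgroup L),
      Cfsg.IsFrobeniusComplement K ∧ Nonempty (H ≃* K) := by
  classical
  let E₁ : Shrink.{0} H ≃* H := Shrink.mulEquiv
  let E₂ : Shrink.{0} V ≃+ V := Shrink.addEquiv
  haveI : Finite (Shrink.{0} H) := Finite.of_equiv _ E₁.symm.toEquiv
  haveI : Finite (Shrink.{0} V) := Finite.of_equiv _ E₂.symm.toEquiv
  haveI : Nontrivial (Shrink.{0} H) := E₁.toEquiv.nontrivial
  haveI : Nontrivial (Shrink.{0} V) := E₂.toEquiv.nontrivial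
  obtain ⟨L, i1, i2, K, hK, ⟨e⟩⟩ := H20.exists_frob_of_act (V := Shrink.{0} V) (H := Shrink.{0} H)
    (fun g x => E₂.symm (act (E₁ g) (E₂ x)))
    (by intro v; simp [h1])
    (by intro g h v; simp [hmul])
    (by intro g v w; simp [hadd])
    (by
      intro h hh v hv h3
      have h4 := congrArg E₂ h3
      simp only [AddEquiv.apply_symm_apply] at h4
      refine hfree (E₁ h) ?_ (E₂ v) ?_ h4
      · intro h5
        apply hh
        apply E₁.injective
        rw [h5, map_one]
      · intro h5
        apply hv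
        apply E₂.injective
        rw [h5, map_zero])
  exact ⟨L, i1, i2, K, hK, ⟨E₁.symm.trans e.symm⟩⟩


/-- A nontrivial finite subgroup of the multiplicative group of a division ring occurs as a Frobenius complement of some finite Frobenius group. -/
theorem result {D : Type*} [DivisionRing D] (H : Subgroup Dˣ) [Finite H] (hH : H ≠ ⊥) :
    ∃ (L : Type) (_ : Group L) (_ : Finite L) (C : Subgroup L), Cfsg.IsFrobeniusComplement C ∧ Nonempty (H ≃* C) := by
  classical
have hH' : Nontrivial H := (Subgroup.nontrivial_iff_ne_bot H).2 hH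
-- the additive group generated by `H`
let S : Set D := Set.range (fun h : H => ((h : Dˣ) : D))
let R : AddSubgroup D := AddSubgroup.closure S
have hS1 : (1 : D) ∈ R := AddSubgroup.subset_closure ⟨1, by simp⟩
have hRmul : ∀ h : H, ∀ r ∈ R, ((h : Dˣ) : D) * r ∈ R := by
  intro h r hr
  induction hr using AddSubgroup.closure_induction with
  | mem x hx =>
    obtain ⟨g, rfl⟩ := hx
    exact AddSubgroup.subset_closure ⟨h * g, by simp⟩
  | zero => simp [R.zero_mem]
  | add x y _ _ hx hy => rw [mul_add]; exact R.add_mem hx hy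
  | neg x _ hx => rw [mul_neg]; exact R.neg_mem hx
-- the prime
obtain ⟨p, hp, hchoice⟩ : ∃ p : ℕ, p.Prime ∧ ((p : D) = 0 ∨ ((∀ q : ℕ, q ≠ 0 → (q : D) ≠ 0) ∧ Nat.card H < p)) := by
  obtain ⟨ℓ, hℓ⟩ := CharP.exists D
  rcases CharP.char_is_prime_or_zero D ℓ with h | h
  · exact ⟨ℓ, h, Or.inl (CharP.cast_eq_zero D ℓ)⟩
  · subst h
    obtain ⟨p, hp1, hp2⟩ := Nat.exists_infinite_primes (Nat.card H + 1)
    refine ⟨p, hp2, Or.inr ⟨?_, by omega⟩⟩
    intro q hq h5
    exact hq ((CharP.cast_eq_zero_iff D 0 q).1 h5 |> Nat.eq_zero_of_zero_dvd)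
haveI : Fact p.Prime := ⟨hp⟩
-- the module
let π : R →+ R := nsmulAddMonoidHom p
let U : AddSubgroup R := π.range
have hUmem : ∀ x, x ∈ U ↔ ∃ s : R, p • s = x := fun x => Iff.rfl
let T : H → (R →+ R) := fun h =>
  { toFun := fun r => ⟨((h : Dˣ) : D) * r, hRmul h r r.2⟩
    map_zero' := by
      apply Subtype.ext
      show ((h : Dˣ) : D) * 0 = 0
      simp
    map_add' := fun x y => by
      apply Subtype.ext
      show ((h : Dˣ) : D) * (x + y) = ((h : Dˣ) : D) * x + ((h : Dˣ) : D) * y
      rw [mul_add] }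
have hTval : ∀ h r, ((T h r : R) : D) = ((h : Dˣ) : D) * r := fun _ _ => rfl
have hTU : ∀ h, ∀ x ∈ U, T h x ∈ U := by
  rintro h x ⟨s, rfl⟩
  exact ⟨T h s, by
    show p • T h s = T h (p • s)
    rw [map_nsmul]⟩
let V := R ⧸ U
let act : H → V → V := fun h => QuotientAddGroup.map U U (T h) (hTU h)
have hact : ∀ h (r : R), act h (r : V) = ((T h r : R) : V) := fun _ _ => rfl
-- finiteness
have hRfg : AddGroup.FG R := by
  rw [AddGroup.fg_iff_addSubgroup_fg]
  have hSfin : S.Finite := Set.finite_range _
  exact ⟨hSfin.toFinset, by rw [hSfin.coe_toFinset]⟩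
have hpV : ∀ v : V, p • v = 0 := by
  intro v
  induction v using QuotientAddGroup.induction_on with
  | H r =>
    have h1 : p • (r : V) = ((p • r : R) : V) := rfl
    rw [h1]
    exact (QuotientAddGroup.eq_zero_iff _).2 ⟨r, rfl⟩
haveI hVfin : Finite V := by
  haveI : AddGroup.FG V := inferInstance
  refine AddCommGroup.finite_of_fg_isAddTorsion V ?_
  intro v
  exact isOfFinAddOrder_iff_nsmul_eq_zero.2 ⟨p, hp.pos, hpV v⟩
have hUval : ∀ s : R, (((p • s : R)) : D) = (p : D) * s := by
  intro s
  show p • (s : D) = _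
  rw [nsmul_eq_mul]
haveI hVnt : Nontrivial V := by
  rcases hchoice with h0 | ⟨hq, -⟩
  · refine ⟨⟨(((⟨1, hS1⟩ : R)) : V), 0, ?_⟩⟩
    intro h1
    obtain ⟨s, hs⟩ := (QuotientAddGroup.eq_zero_iff _).1 h1
    have h2 : ((p • s : R) : D) = 1 := congrArg Subtype.val hs
    rw [hUval, h0, zero_mul] at h2
    exact zero_ne_one h2
  · haveI : IsAddTorsionFree R := by
      refine ⟨fun n hn x y hxy => ?_⟩
      have h1 : (n • (x : D)) = n • (y : D) := congrArg Subtype.val hxy
      rw [nsmul_eq_mul, nsmul_eq_mul] at h1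
      exact Subtype.ext (mul_left_cancel₀ (hq n hn) h1)
    haveI : Module.Finite ℤ R := Module.Finite.iff_addGroup_fg.mpr hRfg
    haveI : Module.Free ℤ R := Module.free_of_finite_type_torsion_free'
    let b := Module.Free.chooseBasis ℤ R
    have hx0 : (⟨1, hS1⟩ : R) ≠ 0 := by
      intro h
      exact one_ne_zero (congrArg Subtype.val h)
    obtain ⟨i, -⟩ : ∃ i, b.repr ⟨1, hS1⟩ i ≠ 0 := by
      by_contra hcon
      push Not at hcon
      apply hx0
      apply b.repr.injective
      ext i
      simpa using hcon i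
    refine ⟨⟨((b i : R) : V), 0, ?_⟩⟩
    intro h1
    obtain ⟨s, hs⟩ := (QuotientAddGroup.eq_zero_iff _).1 h1
    have hs' : p • s = b i := hs
    have h2 := congrArg (fun x => b.repr x i) hs'
    simp only [map_nsmul, Finsupp.smul_apply, Module.Basis.repr_self, Finsupp.single_eq_same] at h2
    have h3 : (p : ℤ) ∣ 1 := ⟨b.repr s i, by
      rw [← h2]
      simp⟩
    have h4 : p ∣ 1 := by exact_mod_cast h3
    exact hp.one_lt.ne' (Nat.dvd_one.1 h4)
have hact1 : ∀ v, act 1 v = v := by
  intro v
  induction v using QuotientAddGroup.induction_on with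
  | H r =>
    rw [hact]
    congr 1
    apply Subtype.ext
    rw [hTval]
    simp
have hactmul : ∀ g h v, act (g * h) v = act g (act h v) := by
  intro g h v
  induction v using QuotientAddGroup.induction_on with
  | H r =>
    rw [hact, hact, hact]
    congr 1
    apply Subtype.ext
    rw [hTval, hTval, hTval]
    simp [mul_assoc]
refine exists_frob_of_act' (V := V) (H := H) act hact1 hactmul ?_ ?_
· intro g v w
  exact map_add (QuotientAddGroup.map U U (T g) (hTU g)) v w
· intro h hh v hv hfix
  have hh' : ((h : Dˣ) : D) ≠ 1 := by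
    intro h5
    apply hh
    apply Subtype.ext
    apply Units.ext
    exact h5
  have hh1 : ((h : Dˣ) : D) - 1 ≠ 0 := sub_ne_zero.2 hh'
  induction v using QuotientAddGroup.induction_on with
  | H r =>
  rcases hchoice with h0 | ⟨-, hlt⟩
  · -- characteristic `p`
    rw [hact] at hfix
    obtain ⟨s, hs⟩ := QuotientAddGroup.eq.1 hfix.symm
    have hs' : p • s = -r + T h r := hs
    have h2 : ((p • s : R) : D) = -(r : D) + ((h : Dˣ) : D) * r := congrArg Subtype.val hs'
    rw [hUval, h0, zero_mul] at h2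
    have h3 : (((h : Dˣ) : D) - 1) * r = 0 := by
      rw [sub_mul, one_mul]
      rw [eq_comm, neg_add_eq_zero, eq_comm] at h2
      rw [h2, sub_self]
    have h4 : (r : D) = 0 := (mul_eq_zero.1 h3).resolve_left hh1
    apply hv
    have h5 : r = 0 := Subtype.ext h4
    rw [h5]
    rfl
  · -- characteristic zero
    set n := orderOf h with hn
    have hpow : ∀ k : ℕ, act (h ^ k) (r : V) = (r : V) := by
      intro k
      induction k with
      | zero => rw [pow_zero, hact1]
      | succ k ih => rw [pow_succ, hactmul, hfix, ih]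
    have hsum0 : ∑ k ∈ Finset.range n, ((h : Dˣ) : D) ^ k = 0 := by
      have h1 := geom_sum_mul ((h : Dˣ) : D) n
      have h2 : ((h : Dˣ) : D) ^ n = 1 := by
        have h3 : h ^ n = 1 := pow_orderOf_eq_one h
        have h4 := congrArg (fun x : H => ((x : Dˣ) : D)) h3
        simpa using h4
      rw [h2, sub_self] at h1
      exact (mul_eq_zero.1 h1).resolve_right hh1
    have hsumR : ∑ k ∈ Finset.range n, T (h ^ k) r = 0 := by
      apply Subtype.ext
      have h1 := map_sum R.subtype (fun k => T (h ^ k) r) (Finset.range n)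
      refine h1.trans ?_
      have h2 : ∀ k, R.subtype (T (h ^ k) r) = ((h : Dˣ) : D) ^ k * r := by
        intro k
        show ((((h ^ k : H) : Dˣ) : D)) * r = _
        simp
      simp only [h2]
      rw [← Finset.sum_mul, hsum0, zero_mul]
      rfl
    have hnr : n • (r : V) = 0 := by
      calc n • (r : V) = ∑ k ∈ Finset.range n, (r : V) := by simp
        _ = ∑ k ∈ Finset.range n, act (h ^ k) (r : V) := by
            apply Finset.sum_congr rfl
            intro k _
            rw [hpow]
        _ = ∑ k ∈ Finset.range n, QuotientAddGroup.mk' U (T (h ^ k) r) := by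
            apply Finset.sum_congr rfl
            intro k _
            rfl
        _ = QuotientAddGroup.mk' U (∑ k ∈ Finset.range n, T (h ^ k) r) := (map_sum _ _ _).symm
        _ = 0 := by rw [hsumR, map_zero]
    have hnH : n ∣ Nat.card H := orderOf_dvd_natCard h
    have hn0 : 0 < n := Nat.pos_of_ne_zero (by
      intro h0
      rw [h0, zero_dvd_iff] at hnH
      exact Nat.card_pos.ne' hnH)
    have hnp : Nat.Coprime n p := by
      rw [Nat.coprime_comm, Nat.Prime.coprime_iff_not_dvd hp]
      intro h3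
      have h4 := Nat.le_of_dvd hn0 h3
      have h5 := Nat.le_of_dvd Nat.card_pos hnH
      omega
    have h6 : addOrderOf (r : V) ∣ Nat.gcd n p :=
      Nat.dvd_gcd (addOrderOf_dvd_of_nsmul_eq_zero hnr) (addOrderOf_dvd_of_nsmul_eq_zero (hpV _))
    rw [hnp, Nat.dvd_one, AddMonoid.addOrderOf_eq_one_iff] at h6
    exact hv h6

end Cfsg.Agent.S4293
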