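import Cfsg.Statements.S4295
import Mathlib
import Cfsg.Agent.Lib.H20.FrobSemi
import Cfsg.Agent.Lib.H18.FrobQ8

set_option autoImplicit false
open Cfsg

namespace Cfsg.Agent.S4295


set_option linter.unusedSectionVars false

open QuaternionGroup in
theorem q8_key : ∀ g : QuaternionGroup 2, g ≠ 1 → g = a ((2 : ℕ) : ZMod (2 * 2)) ∨ g * g = a ((2 : ℕ) : ZMod (2 * 2)) := by
  decide

open QuaternionGroup in
/-- `Q₈` acts on an odd abelian group with the `Q₈` relations. -/
theorem exists_frob_q8 (V : Type) [AddCommGroup V] [Finite V] (hodd : Odd (Nat.card V))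
    (hV : 1 < Nat.card V) (I J : V →+ V)
    (hI : ∀ x, I (I x) = -x) (hJ : ∀ x, J (J x) = -x) (hIJ : ∀ x, J (I x) = - I (J x)) :
    ∃ (L : Type) (_ : Group L) (_ : Finite L) (H : Subgroup L), Cfsg.IsFrobeniusComplement H ∧
      Nonempty (H ≃* QuaternionGroup 2) ∧ Nat.card (Cfsg.frobeniusKernel H) = Nat.card V := by
  classical
  haveI : Nontrivial V := Finite.one_lt_card_iff_nontrivial.1 hV
  have h2 : ∀ v : V, v = - v → v = 0 := by
    intro v hv
    have h3 : 2 • v = 0 := by
      rw [two_nsmul]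
      nth_rw 1 [hv]
      simp
    have h4 : addOrderOf v ∣ 2 := addOrderOf_dvd_of_nsmul_eq_zero h3
    have h5 : addOrderOf v ∣ Nat.card V := addOrderOf_dvd_natCard v
    have h6 : addOrderOf v ∣ Nat.gcd 2 (Nat.card V) := Nat.dvd_gcd h4 h5
    have h7 : Nat.gcd 2 (Nat.card V) = 1 := Nat.coprime_two_left.2 hodd
    rw [h7, Nat.dvd_one, AddMonoid.addOrderOf_eq_one_iff] at h6
    exact h6
  let RI : AddMonoid.End V := I
  let RJ : AddMonoid.End V := J
  have hII : RI * RI = -1 := by
    ext x
    exact hI x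
  have hJJ : RJ * RJ = -1 := by
    ext x
    exact hJ x
  have hJI : RJ * RI = -(RI * RJ) := by
    ext x
    exact hIJ x
  have hI4 : RI ^ 4 = 1 := by
    calc RI ^ 4 = (RI * RI) * (RI * RI) := by noncomm_ring
      _ = 1 := by rw [hII]; noncomm_ring
  let s : ZMod (2 * 2) → AddMonoid.End V := fun i => RI ^ i.val
  have s_add : ∀ i j, s (i + j) = s i * s j := by
    intro i j
    show RI ^ (i + j).val = RI ^ i.val * RI ^ j.val
    rw [ZMod.val_add, ← pow_add]
    exact (pow_eq_pow_mod _ hI4).symm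
  have s0 : s 0 = 1 := by
    show RI ^ (0 : ZMod (2 * 2)).val = 1
    simp
  have s2 : s ((2 : ℕ) : ZMod (2 * 2)) = -1 := by
    show RI ^ (((2 : ℕ) : ZMod (2 * 2))).val = -1
    have : (((2 : ℕ) : ZMod (2 * 2))).val = 2 := by decide
    rw [this, pow_two, hII]
  have hIJ' : RI * RJ = RJ * (-RI) := by
    rw [mul_neg, hJI, neg_neg]
  have hsJ : ∀ i, s i * RJ = RJ * s (-i) := by
    intro i
    have h3 : RI ^ 3 = - RI := by
      calc RI ^ 3 = (RI * RI) * RI := by noncomm_ring
        _ = - RI := by rw [hII]; noncomm_ring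
    have h1 : RI ^ 2 = -1 := by rw [pow_two, hII]
    have key : ∀ i : Fin 4, RI ^ (i : ZMod (2 * 2)).val * RJ = RJ * RI ^ (-(i : ZMod (2 * 2))).val := by
      intro i
      fin_cases i
      · show RI ^ 0 * RJ = RJ * RI ^ 0
        simp
      · show RI ^ 1 * RJ = RJ * RI ^ 3
        rw [h3, pow_one]
        exact hIJ'
      · show RI ^ 2 * RJ = RJ * RI ^ 2
        rw [h1]
        noncomm_ring
      · show RI ^ 3 * RJ = RJ * RI ^ 1
        rw [h3, pow_one, neg_mul, hIJ']
        noncomm_ring
    exact key i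
  let ρ : QuaternionGroup 2 → AddMonoid.End V := fun g =>
    match g with
    | a i => s i
    | xa i => RJ * s i
  have ρmul : ∀ g h, ρ (g * h) = ρ g * ρ h := by
    intro g h
    rcases g with i | i <;> rcases h with j | j
    · show s (i + j) = s i * s j
      exact s_add i j
    · show RJ * s (j - i) = s i * (RJ * s j)
      rw [← mul_assoc, hsJ, mul_assoc, ← s_add]
      congr 2
      ring
    · show RJ * s (i + j) = RJ * s i * s j
      rw [s_add, mul_assoc]
    · show s (((2 : ℕ) : ZMod (2 * 2)) + j - i) = RJ * s i * (RJ * s j)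
      have h3 : ((2 : ℕ) : ZMod (2 * 2)) + j - i = ((2 : ℕ) : ZMod (2 * 2)) + (-i + j) := by ring
      rw [h3, s_add, s2, s_add]
      calc -1 * (s (-i) * s j) = (RJ * RJ) * (s (-i) * s j) := by rw [hJJ]
        _ = RJ * (RJ * s (-i)) * s j := by noncomm_ring
        _ = RJ * (s i * RJ) * s j := by rw [hsJ]
        _ = _ := by noncomm_ring
  have ρone : ρ 1 = 1 := s0
  have ρinv1 : ∀ g, ρ g⁻¹ * ρ g = 1 := fun g => by rw [← ρmul, inv_mul_cancel, ρone]
  have ρinv2 : ∀ g, ρ g * ρ g⁻¹ = 1 := fun g => by rw [← ρmul, mul_inv_cancel, ρone]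
  let φ : QuaternionGroup 2 →* MulAut (Multiplicative V) :=
    { toFun := fun h =>
        { toFun := fun x => Multiplicative.ofAdd (ρ h (Multiplicative.toAdd x))
          invFun := fun x => Multiplicative.ofAdd (ρ h⁻¹ (Multiplicative.toAdd x))
          left_inv := fun x => by
            show Multiplicative.ofAdd ((ρ h⁻¹ * ρ h) (Multiplicative.toAdd x)) = x
            rw [ρinv1]; rfl
          right_inv := fun x => by
            show Multiplicative.ofAdd ((ρ h * ρ h⁻¹) (Multiplicative.toAdd x)) = x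
            rw [ρinv2]; rfl
          map_mul' := fun x y => by
            show Multiplicative.ofAdd (ρ h (Multiplicative.toAdd x + Multiplicative.toAdd y)) = _
            rw [map_add]; rfl }
      map_one' := by
        ext x
        show Multiplicative.ofAdd (ρ 1 (Multiplicative.toAdd x)) = x
        rw [ρone]; rfl
      map_mul' := fun g h => by
        ext x
        show Multiplicative.ofAdd (ρ (g * h) (Multiplicative.toAdd x)) = _
        rw [ρmul]; rfl }
  have hfree : ∀ g : QuaternionGroup 2, g ≠ 1 → ∀ v : V, v ≠ 0 → ρ g v ≠ v := by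
    intro g hg v hv hfix
    have ha2 : ρ (a ((2 : ℕ) : ZMod (2 * 2))) v = v := by
      rcases q8_key g hg with h3 | h3
      · rw [← h3]; exact hfix
      · rw [← h3, ρmul]
        show ρ g (ρ g v) = v
        rw [hfix, hfix]
    have h4 : ρ (a ((2 : ℕ) : ZMod (2 * 2))) = -1 := s2
    rw [h4] at ha2
    apply hv
    apply h2
    exact ha2.symm
  haveI : Nontrivial (Multiplicative V) := inferInstanceAs (Nontrivial V)
  have : Nontrivial (QuaternionGroup 2) := ⟨⟨xa 0, a 0, by intro h; cases h⟩⟩
  have hfr := H20.frob_semidirect φ (by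
    intro h hh x hx h5
    apply hfree h hh (Multiplicative.toAdd x) (by simpa using hx)
    exact congrArg Multiplicative.toAdd h5)
  have hfin : Finite (Multiplicative V ⋊[φ] QuaternionGroup 2) :=
    Finite.of_equiv _ (SemidirectProduct.equivProd (φ := φ)).symm
  refine ⟨Multiplicative V ⋊[φ] QuaternionGroup 2, inferInstance, hfin, _, hfr, ?_, ?_⟩
  · exact ⟨(MonoidHom.ofInjective (f := SemidirectProduct.inr (φ := φ)) (by
      intro x y hxy
      simpa using congrArg SemidirectProduct.right hxy)).symm⟩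
  · rw [H20.card_frobeniusKernel _ hfr]
    have h5 := Subgroup.card_mul_index (SemidirectProduct.inr (φ := φ)).range
    have h6 : Nat.card (Multiplicative V ⋊[φ] QuaternionGroup 2) =
        Nat.card V * Nat.card (QuaternionGroup 2) := by
      rw [Nat.card_congr (SemidirectProduct.equivProd (φ := φ)), Nat.card_prod]
      rfl
    have h7 : Nat.card (SemidirectProduct.inr (φ := φ)).range = Nat.card (QuaternionGroup 2) :=
      (Nat.card_congr (MonoidHom.ofInjective (f := SemidirectProduct.inr (φ := φ)) (by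
        intro x y hxy
        simpa using congrArg SemidirectProduct.right hxy)).toEquiv).symm
    rw [h6, h7, mul_comm] at h5
    exact Nat.eq_of_mul_eq_mul_right Nat.card_pos h5

/-- Existence of the modules. -/
theorem exists_quat_module : ∀ n : ℕ, Odd n → ∃ (V : Type) (_ : AddCommGroup V) (_ : Finite V) (I J : V →+ V),
    Nat.card V = n * n ∧ (∀ x, I (I x) = -x) ∧ (∀ x, J (J x) = -x) ∧ (∀ x, J (I x) = - I (J x)) := by
  intro n
  induction n using Nat.strong_induction_on with
  | _ n ih =>
  intro hodd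
  rcases eq_or_ne n 1 with rfl | hn1
  · refine ⟨PUnit, inferInstance, inferInstance, 0, 0, by simp, ?_, ?_, ?_⟩ <;> intro x <;> rfl
  obtain ⟨p, hp, hpn⟩ := Nat.exists_prime_and_dvd hn1
  obtain ⟨k, rfl⟩ := hpn
  have hpodd : Odd p := (Nat.odd_mul.1 hodd).1
  have hkodd : Odd k := (Nat.odd_mul.1 hodd).2
  have hklt : k < p * k := by
    have := hp.one_lt
    have hk0 : 0 < k := hkodd.pos
    nlinarith
  obtain ⟨V, i1, i2, I, J, h1, h2, h3, h4⟩ := ih k hklt hkodd
  haveI : Fact p.Prime := ⟨hp⟩
  obtain ⟨c, d, hcd⟩ := ZMod.sq_add_sq p (-1)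
  let F := ZMod p
  let I' : (V × F × F) →+ (V × F × F) :=
    { toFun := fun x => (I x.1, - x.2.2, x.2.1)
      map_zero' := by simp
      map_add' := fun x y => by
        ext <;> simp <;> ring }
  let J' : (V × F × F) →+ (V × F × F) :=
    { toFun := fun x => (J x.1, c * x.2.1 + d * x.2.2, d * x.2.1 - c * x.2.2)
      map_zero' := by simp
      map_add' := fun x y => by
        ext <;> simp <;> ring }
  have hF : Nat.card F = p := Nat.card_zmod p
  refine ⟨V × F × F, inferInstance, inferInstance, I', J', ?_, ?_, ?_, ?_⟩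
  · rw [Nat.card_prod, Nat.card_prod, h1, hF]
    ring
  · intro x
    show (I (I x.1), - x.2.1, - x.2.2) = _
    rw [h2]
    rfl
  · intro x
    show (J (J x.1), c * (c * x.2.1 + d * x.2.2) + d * (d * x.2.1 - c * x.2.2),
      d * (c * x.2.1 + d * x.2.2) - c * (d * x.2.1 - c * x.2.2)) = _
    rw [h3]
    ext
    · rfl
    · show c * (c * x.2.1 + d * x.2.2) + d * (d * x.2.1 - c * x.2.2) = - x.2.1
      linear_combination x.2.1 * hcd
    · show d * (c * x.2.1 + d * x.2.2) - c * (d * x.2.1 - c * x.2.2) = - x.2.2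
      linear_combination x.2.2 * hcd
  · intro x
    show (J (I x.1), c * (- x.2.2) + d * x.2.1, d * (- x.2.2) - c * x.2.1) =
      - (I (J x.1), - (d * x.2.1 - c * x.2.2), c * x.2.1 + d * x.2.2)
    rw [h4]
    ext
    · rfl
    · show c * (- x.2.2) + d * x.2.1 = - (- (d * x.2.1 - c * x.2.2))
      ring
    · show d * (- x.2.2) - c * x.2.1 = - (c * x.2.1 + d * x.2.2)
      ring


/-- For a natural number m the following are equivalent: (a) some finite group has a Frobenius complement isomorphic to the quaternion group of order 8 whose Frobenius kernel (the identity together with the elements lying in no conjugate of the complement) has exactly m elements; (b) m is an odd perfect square greater than 1. -/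
theorem result (m : ℕ) :
    (∃ (L : Type) (_ : Group L) (_ : Finite L) (H : Subgroup L), Cfsg.IsFrobeniusComplement H ∧
        Nonempty (H ≃* QuaternionGroup 2) ∧ Nat.card (Cfsg.frobeniusKernel H) = m) ↔
    (Odd m ∧ IsSquare m ∧ 1 < m) := by
  classical
constructor
· rintro ⟨L, i1, i2, H, hF, ⟨e⟩, hm⟩
  obtain ⟨u, v, h1, h2, h3, h4⟩ : ∃ u v : QuaternionGroup 2,
      (u ^ 2) ^ 2 = 1 ∧ u ^ 2 ≠ 1 ∧ v ^ 2 = u ^ 2 ∧ v * u = u⁻¹ * v :=
    ⟨QuaternionGroup.a 1, QuaternionGroup.xa 0, by decide, by decide, by decide, by decide⟩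
  let φ : QuaternionGroup 2 →* L := H.subtype.comp e.symm.toMonoidHom
  have hinj : Function.Injective φ := by
    intro a b hab
    exact e.symm.injective (Subtype.ext hab)
  have h5 := H18.odd_square_of_complement H hF φ (fun q => (e.symm q).2) hinj u v h1 h2 h3 h4
  rw [hm] at h5
  refine ⟨h5.1, h5.2, ?_⟩
  have h6 := H20.card_frobeniusKernel H hF
  rw [hm] at h6
  rw [h6]
  have h7 : H.index ≠ 0 := Subgroup.index_ne_zero_of_finite
  have h8 : H.index ≠ 1 := fun h => hF.2.1 (Subgroup.index_eq_one.1 h)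
  omega
· rintro ⟨hodd, ⟨n, rfl⟩, hm⟩
  have hnodd : Odd n := (Nat.odd_mul.1 hodd).1
  obtain ⟨V, i1, i2, I, J, h1, h2, h3, h4⟩ := exists_quat_module n hnodd
  obtain ⟨L, i3, i4, H, hF, he, hk⟩ := exists_frob_q8 V (by rw [h1]; exact hodd) (by rw [h1]; exact hm)
    I J h2 h3 h4
  exact ⟨L, i3, i4, H, hF, he, by rw [hk, h1]⟩

end Cfsg.Agent.S4295
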