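import Cfsg.Statements.S4296
import Mathlib
import Cfsg.Agent.S0040
import Cfsg.Agent.S0039
import Cfsg.Agent.Lib.H18.FrobQ8

set_option autoImplicit false
open Cfsg

namespace Cfsg.Agent.S4296

/-- Let H be a Frobenius complement in a finite group, and suppose some Sylow subgroup of H is not cyclic. Then the number of elements of the Frobenius kernel (the identity together with the elements lying in no conjugate of H) is an odd perfect square. -/
theorem result {L : Type*} [Group L] [Finite L] (H : Subgroup L) (hF : Cfsg.IsFrobeniusComplement H)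
    (hZ : ∃ (p : ℕ) (_ : Fact p.Prime) (P : Sylow p H), ¬ IsCyclic P) :
    Odd (Nat.card (Cfsg.frobeniusKernel H)) ∧ IsSquare (Nat.card (Cfsg.frobeniusKernel H)) := by
  classical
obtain ⟨p, hpf, P, hP⟩ := hZ
obtain ⟨N, hNset, hNn, hc⟩ := H01.frobenius_theorem H hF
have hNbot : N ≠ ⊥ := by
  rintro rfl
  have h1 := hc.sup_eq_top
  rw [bot_sup_eq] at h1
  exact hF.2.1 h1
have hfpf : ∀ h ∈ H, h ≠ 1 → N ⊓ Subgroup.centralizer {h} = ⊥ :=
  (S0039.result N H hc hNbot hF.1).1 hF
rcases S0040.result N H hc hNbot hfpf p P with hq | ⟨n, ⟨e⟩⟩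
· exact absurd hq hP
have hn : 1 ≤ n := by
  by_contra hn0
  have hn00 : n = 0 := by omega
  subst hn00
  apply hP
  haveI : NeZero (2 ^ 0) := ⟨by norm_num⟩
  have h1 : IsCyclic (QuaternionGroup (2 ^ 0)) := by
    apply isCyclic_of_orderOf_eq_card (QuaternionGroup.xa 0)
    rw [QuaternionGroup.orderOf_xa, Nat.card_eq_fintype_card, QuaternionGroup.card]
    norm_num
  exact isCyclic_of_surjective e.symm e.symm.surjective
obtain ⟨u, v, h1, h2, h3, h4⟩ := H18.quat_elements n hn
let φ : QuaternionGroup (2 ^ n) →* L :=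
  H.subtype.comp (((P : Subgroup H).subtype).comp e.symm.toMonoidHom)
refine H18.odd_square_of_complement H hF φ (fun q => (e.symm q : H).2) ?_ u v h1 h2 h3 h4
intro a b hab
apply e.symm.injective
apply Subtype.ext
apply Subtype.ext
exact hab

end Cfsg.Agent.S4296
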