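import Cfsg.Statements.S4297
import Cfsg.Agent.Lib.H20.FrobSemi

set_option autoImplicit false
open Cfsg

namespace Cfsg.Agent.S4297

open QuaternionGroup

theorem result (n : ℕ) (hn : 2 ≤ n) :
    ∃ (L : Type) (_ : Group L) (_ : Finite L) (H : Subgroup L), Cfsg.IsFrobeniusComplement H ∧ Nonempty (H ≃* QuaternionGroup n) := by
  have hn0 : n ≠ 0 := by omega
  have h2n : 2 * n ≠ 0 := by omega
  have : NeZero n := ⟨hn0⟩
  have : NeZero (2 * n) := ⟨h2n⟩
  obtain ⟨q, hq, hq2, ζ, hζ⟩ := H20.exists_prime_unit_order (2 * n) h2n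
  have : Fact q.Prime := ⟨hq⟩
  let F := ZMod q
  let z : ZMod (2 * n) → Fˣ := fun i => ζ ^ i.val
  have z_add : ∀ i j, z (i + j) = z i * z j := by
    intro i j
    show ζ ^ (i + j).val = ζ ^ i.val * ζ ^ j.val
    rw [ZMod.val_add]
    have : ζ ^ ((i.val + j.val) % (2 * n)) = ζ ^ (i.val + j.val) := by
      generalize i.val + j.val = m
      rw [← hζ, pow_mod_orderOf]
    rw [this, pow_add]
  have z_zero : z 0 = 1 := by
    show ζ ^ (0 : ZMod (2 * n)).val = 1
    simp
  have z_eq_one : ∀ i, z i = 1 → i = 0 := by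
    intro i hi
    have h1 : orderOf ζ ∣ i.val := orderOf_dvd_of_pow_eq_one hi
    rw [hζ] at h1
    have h2 : i.val < 2 * n := ZMod.val_lt i
    have h3 : i.val = 0 := Nat.eq_zero_of_dvd_of_lt h1 h2
    exact (ZMod.val_eq_zero i).mp h3
  have z_sub : ∀ i j, z (j - i) = z j * (z i)⁻¹ := by
    intro i j
    have := z_add (j - i) i
    rw [sub_add_cancel] at this
    rw [this]; simp
  have zn : ((z (n : ZMod (2 * n)) : Fˣ) : F) = -1 := by
    have hval : ((n : ZMod (2 * n))).val = n := ZMod.val_cast_of_lt (by omega)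
    have h1 : (z (n : ZMod (2 * n))) ^ 2 = 1 := by
      show (ζ ^ ((n : ZMod (2 * n))).val) ^ 2 = 1
      rw [hval, ← pow_mul, mul_comm, ← hζ, pow_orderOf_eq_one]
    have h2 : z (n : ZMod (2 * n)) ≠ 1 := by
      intro h3
      have := z_eq_one _ h3
      have h4 : ((n : ZMod (2 * n))).val = 0 := by rw [this]; simp
      omega
    have h3 : ((z (n : ZMod (2 * n)) : Fˣ) : F) ^ 2 = 1 := by
      rw [← Units.val_pow_eq_pow_val, h1]; simp
    have h4 : ((z (n : ZMod (2 * n)) : Fˣ) : F) ≠ 1 := by
      intro h5
      exact h2 (Units.ext h5)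
    rcases (sq_eq_one_iff.mp h3) with h5 | h5
    · exact absurd h5 h4
    · exact h5
  let w : ZMod (2 * n) → F := fun i => ((z i : Fˣ) : F)
  let w' : ZMod (2 * n) → F := fun i => (((z i)⁻¹ : Fˣ) : F)
  have w_add : ∀ i j, w (i + j) = w i * w j := by
    intro i j
    show ((z (i + j) : Fˣ) : F) = _
    rw [z_add]; rfl
  have w'_add : ∀ i j, w' (i + j) = w' i * w' j := by
    intro i j
    show (((z (i + j))⁻¹ : Fˣ) : F) = _
    rw [z_add, mul_inv_rev, mul_comm]; rfl
  have ww' : ∀ i, w i * w' i = 1 := by
    intro i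
    show ((z i : Fˣ) : F) * (((z i)⁻¹ : Fˣ) : F) = 1
    simp
  have w_sub : ∀ i j, w (j - i) = w j * w' i := by
    intro i j
    show ((z (j - i) : Fˣ) : F) = _
    rw [z_sub]; rfl
  have w'_sub : ∀ i j, w' (j - i) = w' j * w i := by
    intro i j
    show (((z (j - i))⁻¹ : Fˣ) : F) = _
    rw [z_sub, mul_inv_rev, inv_inv, mul_comm]; rfl
  have wn : w (n : ZMod (2 * n)) = -1 := zn
  have wn' : w' (n : ZMod (2 * n)) = -1 := by
    have := ww' (n : ZMod (2 * n))
    rw [wn] at this
    linear_combination -this
  let act : QuaternionGroup n → F × F → F × F := fun g =>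
    match g with
    | a i => fun p => (w i * p.1, w' i * p.2)
    | xa i => fun p => (w' i * p.2, - w i * p.1)
  have h2F : (2 : F) ≠ 0 := by
    intro h
    have h3 : ((2 : ℕ) : ZMod q) = 0 := by exact_mod_cast h
    rw [ZMod.natCast_eq_zero_iff] at h3
    have := Nat.le_of_dvd (by norm_num) h3
    omega
  have : Nontrivial (QuaternionGroup n) := ⟨⟨xa 0, a 0, by intro h; cases h⟩⟩
  have w0 : w 0 = 1 := by
    show ((z 0 : Fˣ) : F) = 1
    rw [z_zero]; rfl
  have w'0 : w' 0 = 1 := by
    show (((z 0)⁻¹ : Fˣ) : F) = 1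
    rw [z_zero]; simp
  obtain ⟨L, i1, i2, K, hK, ⟨e⟩⟩ := H20.exists_frob_of_act (V := F × F) (H := QuaternionGroup n) act
    (by
      intro v
      show act (a 0) v = v
      ext <;> simp [act, w0, w'0])
    (by
      intro g h v
      rcases g with i | i <;> rcases h with j | j
      · show act (a (i + j)) v = act (a i) (act (a j) v)
        ext
        · simp [act, w_add]; ring
        · simp [act, w'_add]; ring
      · show act (xa (j - i)) v = act (a i) (act (xa j) v)
        ext
        · simp [act, w'_sub]; ring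
        · simp [act, w_sub]; ring
      · show act (xa (i + j)) v = act (xa i) (act (a j) v)
        ext
        · simp [act, w'_add]; ring
        · simp [act, w_add]; ring
      · show act (a ((n : ZMod (2 * n)) + j - i)) v = act (xa i) (act (xa j) v)
        ext
        · simp [act, w_sub, w_add, wn]; ring
        · simp [act, w'_sub, w'_add, wn']; ring)
    (by
      intro g v w1
      rcases g with i | i <;> ext <;> simp [act] <;> ring)
    (by
      intro h hh v hv h3
      rcases h with i | i
      · have hi : i ≠ 0 := by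
          intro h0
          apply hh
          rw [h0]; rfl
        obtain ⟨u1, u2⟩ := v
        have e1 : w i * u1 = u1 := congrArg Prod.fst h3
        have e2 : w' i * u2 = u2 := congrArg Prod.snd h3
        have hw : w i ≠ 1 := by
          intro h0
          exact hi (z_eq_one i (Units.ext h0))
        have hw' : w' i ≠ 1 := by
          intro h0
          apply hw
          have := ww' i
          rw [h0, mul_one] at this
          exact this
        have u10 : u1 = 0 := by
          have : (w i - 1) * u1 = 0 := by rw [sub_mul, e1, one_mul, sub_self]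
          exact (mul_eq_zero.mp this).resolve_left (sub_ne_zero.mpr hw)
        have u20 : u2 = 0 := by
          have : (w' i - 1) * u2 = 0 := by rw [sub_mul, e2, one_mul, sub_self]
          exact (mul_eq_zero.mp this).resolve_left (sub_ne_zero.mpr hw')
        exact hv (by rw [u10, u20]; rfl)
      · obtain ⟨u1, u2⟩ := v
        have e1 : w' i * u2 = u1 := congrArg Prod.fst h3
        have e2 : - w i * u1 = u2 := congrArg Prod.snd h3
        have h20 : (2 : F) * u2 = 0 := by
          have := ww' i
          rw [← e1] at e2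
          linear_combination (-1 : F) * e2 - u2 * this
        have u20 : u2 = 0 := (mul_eq_zero.mp h20).resolve_left h2F
        have u10 : u1 = 0 := by rw [← e1, u20, mul_zero]
        exact hv (by rw [u10, u20]; rfl))
  exact ⟨L, i1, i2, K, hK, ⟨e⟩⟩

end Cfsg.Agent.S4297
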