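import Cfsg.Statements.S4298
import Cfsg.Agent.Lib.H20.FrobSemi

set_option autoImplicit false
open Cfsg

namespace Cfsg.Agent.S4298

/-- An explicit embedding of `SL(2,3)` into `SL(2,5)`, as a table. -/
def tbl : List (ZMod 5 × ZMod 5 × ZMod 5 × ZMod 5) :=
  [(1,0,0,1), (1,0,0,1), (1,0,0,1), (1,0,0,1), (1,0,0,1), (1,0,0,1), (1,0,0,1), (1,0,0,1), (1,0,0,1),
   (1,0,0,1), (1,0,0,1), (1,0,0,1), (1,0,0,1), (1,0,0,1), (1,0,0,1), (0,4,1,0), (2,4,3,4), (3,2,1,1),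
   (1,0,0,1), (1,0,0,1), (1,0,0,1), (0,1,4,0), (2,3,4,4), (3,1,2,1), (1,0,0,1), (1,0,0,1), (1,0,0,1),
   (1,0,0,1), (1,0,0,1), (1,0,0,1), (1,0,0,1), (1,2,1,3), (1,0,0,1), (1,0,0,1), (3,3,4,1), (1,0,0,1),
   (1,0,0,1), (1,1,2,3), (1,0,0,1), (1,0,0,1), (1,0,0,1), (0,2,2,0), (4,2,1,2), (1,0,0,1), (1,0,0,1),
   (1,0,0,1), (3,4,3,1), (1,0,0,1), (4,1,2,2), (1,0,0,1), (1,0,0,1), (1,0,0,1), (1,0,0,1), (3,0,0,2),
   (1,0,0,1), (1,0,0,1), (4,0,0,4), (1,0,0,1), (1,0,0,1), (2,2,1,4), (1,0,0,1), (1,0,0,1), (4,3,4,2),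
   (1,0,0,1), (1,0,0,1), (2,1,2,4), (1,0,0,1), (2,0,0,3), (1,0,0,1), (1,4,3,3), (1,0,0,1), (1,0,0,1),
   (1,0,0,1), (1,0,0,1), (4,4,3,2), (1,3,4,3), (1,0,0,1), (1,0,0,1), (1,0,0,1), (0,3,3,0), (1,0,0,1)]

def T (a b c d : ZMod 3) : ZMod 5 × ZMod 5 × ZMod 5 × ZMod 5 :=
  tbl.getD (27 * a.val + 9 * b.val + 3 * c.val + d.val) (1, 0, 0, 1)

set_option maxRecDepth 100000 in
lemma T_mul : ∀ a b c d a' b' c' d' : ZMod 3, a * d - b * c = 1 → a' * d' - b' * c' = 1 →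
    (T (a * a' + b * c') (a * b' + b * d') (c * a' + d * c') (c * b' + d * d')).1 =
      (T a b c d).1 * (T a' b' c' d').1 + (T a b c d).2.1 * (T a' b' c' d').2.2.1 ∧
    (T (a * a' + b * c') (a * b' + b * d') (c * a' + d * c') (c * b' + d * d')).2.1 =
      (T a b c d).1 * (T a' b' c' d').2.1 + (T a b c d).2.1 * (T a' b' c' d').2.2.2 ∧
    (T (a * a' + b * c') (a * b' + b * d') (c * a' + d * c') (c * b' + d * d')).2.2.1 =
      (T a b c d).2.2.1 * (T a' b' c' d').1 + (T a b c d).2.2.2 * (T a' b' c' d').2.2.1 ∧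
    (T (a * a' + b * c') (a * b' + b * d') (c * a' + d * c') (c * b' + d * d')).2.2.2 =
      (T a b c d).2.2.1 * (T a' b' c' d').2.1 + (T a b c d).2.2.2 * (T a' b' c' d').2.2.2 := by
  decide +kernel

lemma T_one : T 1 0 0 1 = (1, 0, 0, 1) := by decide +kernel

set_option maxRecDepth 100000 in
lemma T_free : ∀ a b c d : ZMod 3, a * d - b * c = 1 → ¬ (a = 1 ∧ b = 0 ∧ c = 0 ∧ d = 1) →
    ∀ u v : ZMod 5, ¬ (u = 0 ∧ v = 0) →
      ¬ ((T a b c d).1 * u + (T a b c d).2.1 * v = u ∧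
         (T a b c d).2.2.1 * u + (T a b c d).2.2.2 * v = v) := by
  decide +kernel

abbrev SL23 := Matrix.SpecialLinearGroup (Fin 2) (ZMod 3)

lemma SL23_det (g : SL23) : g.1 0 0 * g.1 1 1 - g.1 0 1 * g.1 1 0 = 1 := by
  have := g.2
  rwa [Matrix.det_fin_two] at this

def T' (g : SL23) : ZMod 5 × ZMod 5 × ZMod 5 × ZMod 5 := T (g.1 0 0) (g.1 0 1) (g.1 1 0) (g.1 1 1)

def act (g : SL23) (p : ZMod 5 × ZMod 5) : ZMod 5 × ZMod 5 :=
  ((T' g).1 * p.1 + (T' g).2.1 * p.2, (T' g).2.2.1 * p.1 + (T' g).2.2.2 * p.2)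

theorem result :
    ∃ (L : Type) (_ : Group L) (_ : Finite L) (H : Subgroup L), Cfsg.IsFrobeniusComplement H ∧ Nonempty (H ≃* Matrix.SpecialLinearGroup (Fin 2) (ZMod 3)) := by
  have : Fact (Nat.Prime 5) := ⟨by norm_num⟩
  have : Nontrivial SL23 := ⟨⟨1, ⟨!![1, 1; 0, 1], by simp [Matrix.det_fin_two]⟩, by
    intro h
    have := congrArg (fun g : SL23 => g.1 0 1) h
    simp at this⟩⟩
  refine H20.exists_frob_of_act (V := ZMod 5 × ZMod 5) (H := SL23) act ?_ ?_ ?_ ?_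
  · intro v
    have : T' (1 : SL23) = (1, 0, 0, 1) := by
      show T ((1 : SL23).1 0 0) ((1 : SL23).1 0 1) ((1 : SL23).1 1 0) ((1 : SL23).1 1 1) = _
      simp only [Matrix.SpecialLinearGroup.coe_one, Matrix.one_apply_eq]
      rw [Matrix.one_apply_ne (by decide), Matrix.one_apply_ne (by decide)]
      exact T_one
    ext <;> simp [act, this]
  · intro g h v
    have key := T_mul _ _ _ _ _ _ _ _ (SL23_det g) (SL23_det h)
    have hm : ∀ i j, (g * h).1 i j = g.1 i 0 * h.1 0 j + g.1 i 1 * h.1 1 j := by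
      intro i j
      simp [Matrix.mul_apply, Fin.sum_univ_two]
    have hT : T' (g * h) = T (g.1 0 0 * h.1 0 0 + g.1 0 1 * h.1 1 0) (g.1 0 0 * h.1 0 1 + g.1 0 1 * h.1 1 1)
        (g.1 1 0 * h.1 0 0 + g.1 1 1 * h.1 1 0) (g.1 1 0 * h.1 0 1 + g.1 1 1 * h.1 1 1) := by
      show T _ _ _ _ = _
      rw [hm, hm, hm, hm]
    obtain ⟨k1, k2, k3, k4⟩ := key
    ext
    · show (T' (g * h)).1 * v.1 + (T' (g * h)).2.1 * v.2 =
        (T' g).1 * ((T' h).1 * v.1 + (T' h).2.1 * v.2) + (T' g).2.1 * ((T' h).2.2.1 * v.1 + (T' h).2.2.2 * v.2)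
      rw [hT, k1, k2]
      simp only [T']
      ring
    · show (T' (g * h)).2.2.1 * v.1 + (T' (g * h)).2.2.2 * v.2 =
        (T' g).2.2.1 * ((T' h).1 * v.1 + (T' h).2.1 * v.2) + (T' g).2.2.2 * ((T' h).2.2.1 * v.1 + (T' h).2.2.2 * v.2)
      rw [hT, k3, k4]
      simp only [T']
      ring
  · intro g v w
    ext <;> simp [act] <;> ring
  · intro h hh v hv h3
    apply T_free _ _ _ _ (SL23_det h) ?_ v.1 v.2 ?_ ⟨congrArg Prod.fst h3, congrArg Prod.snd h3⟩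
    · rintro ⟨h1, h2, h4, h5⟩
      apply hh
      ext i j
      fin_cases i <;> fin_cases j <;> simp [h1, h2, h4, h5]
    · rintro ⟨h1, h2⟩
      exact hv (Prod.ext h1 h2)

end Cfsg.Agent.S4298
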