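import Cfsg.Statements.S4299
import Cfsg.Agent.Lib.H20.FrobSemi

set_option autoImplicit false
open Cfsg

namespace Cfsg.Agent.S4299

theorem result {C : Type*} [Group C] [Finite C] [IsCyclic C] [Nontrivial C] :
    ∃ (L : Type) (_ : Group L) (_ : Finite L) (H : Subgroup L), Cfsg.IsFrobeniusComplement H ∧ Nonempty (C ≃* H) := by
  have hn : Nat.card C ≠ 0 := Nat.card_pos.ne'
  obtain ⟨q, hq, hq2, ζ, hζ⟩ := H20.exists_prime_unit_order (Nat.card C) hn
  have : Fact q.Prime := ⟨hq⟩
  let U : Subgroup (ZMod q)ˣ := Subgroup.zpowers ζ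
  have hU : Nat.card U = Nat.card C := by
    rw [Nat.card_zpowers, hζ]
  have : Nontrivial U := by
    rw [← Finite.one_lt_card_iff_nontrivial, hU]
    exact Finite.one_lt_card
  obtain ⟨L, i1, i2, K, hK, ⟨e⟩⟩ := H20.exists_frob_of_act (V := ZMod q) (H := U)
    (fun h v => ((h : (ZMod q)ˣ) : ZMod q) * v) (by simp) (by
      intro g h v; simp [mul_assoc]) (by intro g v w; simp [mul_add]) (by
    intro h hh v hv h3
    apply hh
    have h4 : ((h : (ZMod q)ˣ) : ZMod q) = 1 := by
      have : (((h : (ZMod q)ˣ) : ZMod q) - 1) * v = 0 := by rw [sub_mul, h3, one_mul, sub_self]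
      rcases mul_eq_zero.mp this with h5 | h5
      · exact sub_eq_zero.mp h5
      · exact absurd h5 hv
    ext
    simpa using h4)
  exact ⟨L, i1, i2, K, hK, ⟨(mulEquivOfCyclicCardEq hU.symm).trans e.symm⟩⟩

end Cfsg.Agent.S4299
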