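import Cfsg.Statements.S4300

set_option autoImplicit false
open Cfsg

namespace Cfsg.Agent.S4300

/-- Let G act faithfully and primitively on a set X, and suppose the stabilizer of some point is a simple group. Then either G is simple, or G has a normal subgroup, neither trivial nor the whole group, that acts regularly on X (transitively with trivial point stabilizers). -/
theorem result {G : Type*} [Group G] {X : Type*} [MulAction G X] [FaithfulSMul G X]
    (hprim : MulAction.IsPreprimitive G X) (x : X) (hsimple : IsSimpleGroup (MulAction.stabilizer G x)) :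
    IsSimpleGroup G ∨ ∃ N : Subgroup G, N.Normal ∧ N ≠ ⊥ ∧ N ≠ ⊤ ∧
      MulAction.IsPretransitive N X ∧ ∀ y : X, MulAction.stabilizer N y = ⊥ := by
  by_cases hG : IsSimpleGroup G
  · exact Or.inl hG
  right
  have hnt : Nontrivial G := by
    obtain ⟨⟨a, b, hab⟩⟩ := hsimple.toNontrivial
    exact ⟨⟨a, b, fun h => hab (Subtype.ext h)⟩⟩
  have hex : ∃ N : Subgroup G, N.Normal ∧ N ≠ ⊥ ∧ N ≠ ⊤ := by
    by_contra hcon
    push Not at hcon
    exact hG ⟨fun H hH => by
      by_cases h : H = ⊥
      · exact Or.inl h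
      · exact Or.inr (hcon H hH h)⟩
  obtain ⟨N, hN, hbot, htop⟩ := hex
  have hfix : MulAction.fixedPoints N X ≠ Set.univ := by
    intro h
    apply hbot
    rw [eq_bot_iff]
    intro z hz
    rw [Subgroup.mem_bot]
    apply FaithfulSMul.eq_of_smul_eq_smul (α := X)
    intro p
    have : p ∈ MulAction.fixedPoints N X := h ▸ Set.mem_univ p
    simpa using this ⟨z, hz⟩
  have htrans : MulAction.IsPretransitive N X :=
    MulAction.IsQuasiPreprimitive.isPretransitive_of_normal hfix
  refine ⟨N, hN, hbot, htop, htrans, ?_⟩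
  have hK : ((N ⊓ MulAction.stabilizer G x).subgroupOf (MulAction.stabilizer G x)).Normal := by
    refine ⟨fun a ha g => ?_⟩
    rw [Subgroup.mem_subgroupOf] at ha ⊢
    exact ⟨hN.conj_mem _ ha.1 _, Subgroup.mul_mem _ (Subgroup.mul_mem _ g.2 ha.2) (Subgroup.inv_mem _ g.2)⟩
  rcases hsimple.eq_bot_or_eq_top_of_normal _ hK with h | h
  · intro y
    rw [eq_bot_iff]
    rintro ⟨z, hz⟩ hzy
    rw [Subgroup.mem_bot]
    apply Subtype.ext
    show z = 1
    obtain ⟨n, hn⟩ := MulAction.exists_smul_eq N x y
    have hzy' : z • y = y := hzy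
    have hn' : (n : G) • x = y := hn
    have h1 : (n : G)⁻¹ * z * n ∈ MulAction.stabilizer G x := by
      rw [MulAction.mem_stabilizer_iff, mul_smul, mul_smul, hn', hzy', ← hn', inv_smul_smul]
    have h2 : (⟨(n : G)⁻¹ * z * n, h1⟩ : MulAction.stabilizer G x) ∈
        (N ⊓ MulAction.stabilizer G x).subgroupOf (MulAction.stabilizer G x) := by
      rw [Subgroup.mem_subgroupOf]
      exact ⟨N.mul_mem (N.mul_mem (N.inv_mem n.2) hz) n.2, h1⟩
    rw [h, Subgroup.mem_bot] at h2
    have h3 : (n : G)⁻¹ * z * n = 1 := congrArg Subtype.val h2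
    have : z = (n : G) * ((n : G)⁻¹ * z * n) * (n : G)⁻¹ := by group
    rw [this, h3]
    simp
  · exfalso
    apply htop
    rw [eq_top_iff]
    intro g _
    obtain ⟨n, hn⟩ := MulAction.exists_smul_eq N x (g • x)
    have hn' : (n : G) • x = g • x := hn
    have h1 : (n : G)⁻¹ * g ∈ MulAction.stabilizer G x := by
      rw [MulAction.mem_stabilizer_iff, mul_smul, ← hn', inv_smul_smul]
    have h2 : (⟨(n : G)⁻¹ * g, h1⟩ : MulAction.stabilizer G x) ∈
        (N ⊓ MulAction.stabilizer G x).subgroupOf (MulAction.stabilizer G x) := by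
      rw [h]; exact Subgroup.mem_top _
    rw [Subgroup.mem_subgroupOf] at h2
    have h3 := N.mul_mem n.2 h2.1
    simpa using h3

end Cfsg.Agent.S4300
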