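import Cfsg.Statements.S4301

set_option autoImplicit false
open Cfsg

namespace Cfsg.Agent.S4301

variable {X : Type*}

/-- Every pair of distinct points extends to an embedding of `Fin k`. -/
theorem exists_extend {k : ℕ} (hk : 2 ≤ k) (hkX : Nonempty (Fin k ↪ X)) (u v : X) (huv : u ≠ v) :
    ∃ a : Fin k ↪ X, a ⟨0, by omega⟩ = u ∧ a ⟨1, by omega⟩ = v := by
  classical
  obtain ⟨c⟩ := hkX
  set c0 := c ⟨0, by omega⟩ with hc0
  set c1 := c ⟨1, by omega⟩ with hc1
  have hne : c0 ≠ c1 := fun h => by
    have := c.injective h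
    simp at this
  -- a permutation of `X` mapping c0 to u and c1 to v
  obtain ⟨σ, hσ0, hσ1⟩ : ∃ σ : Equiv.Perm X, σ c0 = u ∧ σ c1 = v := by
    have := (Equiv.Perm.isMultiplyPretransitive X 2)
    let p : Fin 2 ↪ X := ⟨![c0, c1], by
      intro i j hij
      fin_cases i <;> fin_cases j <;> simp_all⟩
    let q : Fin 2 ↪ X := ⟨![u, v], by
      intro i j hij
      fin_cases i <;> fin_cases j <;> simp_all⟩
    obtain ⟨σ, hσ⟩ := MulAction.exists_smul_eq (Equiv.Perm X) p q
    refine ⟨σ, ?_, ?_⟩
    · have := congrArg (fun e : Fin 2 ↪ X => e 0) hσ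
      exact this
    · have := congrArg (fun e : Fin 2 ↪ X => e 1) hσ
      exact this
  exact ⟨c.trans σ.toEmbedding, hσ0, hσ1⟩

theorem two_trans (G : Subgroup (Equiv.Perm (Option X)))
    (k : ℕ) (hk : 2 ≤ k) (hkX : Nonempty (Fin k ↪ X))
    (htrans : ∀ a b : Fin k ↪ X, ∃ f ∈ G, ∀ i, f (some (a i)) = some (b i))
    (u v u' v' : X) (huv : u ≠ v) (huv' : u' ≠ v') :
    ∃ f ∈ G, f (some u) = some u' ∧ f (some v) = some v' := by
  obtain ⟨a, ha0, ha1⟩ := exists_extend hk hkX u v huv
  obtain ⟨b, hb0, hb1⟩ := exists_extend hk hkX u' v' huv'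
  obtain ⟨f, hf, hfab⟩ := htrans a b
  refine ⟨f, hf, ?_, ?_⟩
  · rw [← ha0, ← hb0]; exact hfab _
  · rw [← ha1, ← hb1]; exact hfab _

/-- One-point extension of a multiply transitive group. Let X be a set and G a group of permutations of Option X (the set X with one extra point ∗ = none) all of whose elements fix ∗, such that G is k-transitive on the points of X for some k ≥ 2, X having at least k points. Suppose a permutation h of Option X and an element g of G satisfy: h interchanges ∗ with a point x of X and fixes a point y of X; g interchanges x and y; (g h)³ and h² lie in G; and for every f in G fixing x, the product h f h lies in G and fixes x. Then an element of the group generated by G and h fixes ∗ exactly when it lies in G, and that group acts (k+1)-transitively on Option X. -/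
theorem result {X : Type*} (G : Subgroup (Equiv.Perm (Option X))) (hfix : ∀ f ∈ G, f none = none)
    (k : ℕ) (hk : 2 ≤ k) (hkX : Nonempty (Fin k ↪ X))
    (htrans : ∀ a b : Fin k ↪ X, ∃ f ∈ G, ∀ i, f (some (a i)) = some (b i))
    (h g : Equiv.Perm (Option X)) (hg : g ∈ G) (x y : X)
    (h1 : h none = some x) (h2 : h (some x) = none) (h3 : h (some y) = some y)
    (h4 : g (some x) = some y) (h5 : g (some y) = some x)
    (h6 : (g * h) ^ 3 ∈ G) (h7 : h ^ 2 ∈ G)
    (h8 : ∀ f ∈ G, f (some x) = some x → h * f * h ∈ G ∧ (h * f * h) (some x) = some x) :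
    (∀ f ∈ Subgroup.closure ((G : Set (Equiv.Perm (Option X))) ∪ {h}), f none = none ↔ f ∈ G) ∧
      MulAction.IsMultiplyPretransitive (Subgroup.closure ((G : Set (Equiv.Perm (Option X))) ∪ {h})) (Option X) (k + 1) := by
  have hxy : x ≠ y := by
    rintro rfl
    rw [h2] at h3
    exact absurd h3 (by simp)
  have hsome : ∀ f ∈ G, ∀ z : X, ∃ z' : X, f (some z) = some z' := by
    intro f hf z
    rcases hfz : f (some z) with _ | z'
    · exfalso
      have := f.injective (hfz.trans (hfix f hf).symm)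
      exact absurd this (by simp)
    · exact ⟨z', rfl⟩
  have hbh : ∀ b ∈ G, h * b * h ∈ G ∨ ∃ c ∈ G, ∃ d ∈ G, h * b * h = c * h * d := by
    intro b hb
    obtain ⟨z, hz⟩ := hsome b hb x
    by_cases hzx : z = x
    · left
      subst hzx
      exact (h8 b hb hz).1
    · right
      obtain ⟨b₁, hb₁, hb₁x, hb₁y⟩ := two_trans G k hk hkX htrans x y x z hxy (Ne.symm hzx)
      set b₂ := g⁻¹ * b₁⁻¹ * b with hb₂
      have hb₂G : b₂ ∈ G := G.mul_mem (G.mul_mem (G.inv_mem hg) (G.inv_mem hb₁)) hb
      have hb₂x : b₂ (some x) = some x := by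
        have e1 : b₁⁻¹ (some z) = some y := by
          rw [Equiv.Perm.inv_eq_iff_eq]; exact hb₁y.symm
        have e2 : g⁻¹ (some y) = some x := by
          rw [Equiv.Perm.inv_eq_iff_eq]; exact h4.symm
        simp only [hb₂, Equiv.Perm.coe_mul, Function.comp_apply, hz, e1, e2]
      have hbdec : b = b₁ * g * b₂ := by rw [hb₂]; group
      have hp := (h8 b₁ hb₁ hb₁x).1
      have hq := (h8 b₂ hb₂G hb₂x).1
      refine ⟨(h * b₁ * h) * ((h ^ 2)⁻¹ * g⁻¹ * (g * h) ^ 3 * (h ^ 2)⁻¹),
        G.mul_mem hp (G.mul_mem (G.mul_mem (G.mul_mem (G.inv_mem h7) (G.inv_mem hg)) h6) (G.inv_mem h7)),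
        (g⁻¹ * (h ^ 2)⁻¹) * (h * b₂ * h),
        G.mul_mem (G.mul_mem (G.inv_mem hg) (G.inv_mem h7)) hq, ?_⟩
      rw [hbdec]
      simp only [pow_succ, pow_zero, one_mul]
      group
  let Yp : Equiv.Perm (Option X) → Prop := fun l => l ∈ G ∨ ∃ a ∈ G, ∃ b ∈ G, l = a * h * b
  have hYG : ∀ l, Yp l → ∀ f ∈ G, Yp (l * f) := by
    rintro l (hl | ⟨a, ha, b, hb, rfl⟩) f hf
    · exact Or.inl (G.mul_mem hl hf)
    · exact Or.inr ⟨a, ha, b * f, G.mul_mem hb hf, by group⟩
  have hYh : ∀ l, Yp l → Yp (l * h) := by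
    rintro l (hl | ⟨a, ha, b, hb, rfl⟩)
    · exact Or.inr ⟨l, hl, 1, G.one_mem, by simp⟩
    · rcases hbh b hb with hc | ⟨c, hc, d, hd, hcd⟩
      · left
        have : a * h * b * h = a * (h * b * h) := by group
        rw [this]
        exact G.mul_mem ha hc
      · right
        refine ⟨a * c, G.mul_mem ha hc, d, hd, ?_⟩
        have : a * h * b * h = a * (h * b * h) := by group
        rw [this, hcd]
        group
  have hinvh : h⁻¹ = h * (h ^ 2)⁻¹ := by
    rw [pow_two]; group
  have hY : ∀ l ∈ Subgroup.closure ((G : Set (Equiv.Perm (Option X))) ∪ {h}), Yp l := by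
    intro l hl
    induction hl using Subgroup.closure_induction_right with
    | one => exact Or.inl G.one_mem
    | mul_right l hl f hf ih =>
      rcases hf with hf | hf
      · exact hYG l ih f hf
      · rw [Set.mem_singleton_iff.mp hf]
        exact hYh l ih
    | mul_inv_cancel l hl f hf ih =>
      rcases hf with hf | hf
      · exact hYG l ih _ (G.inv_mem hf)
      · rw [Set.mem_singleton_iff.mp hf, hinvh, ← mul_assoc]
        exact hYG _ (hYh l ih) _ (G.inv_mem h7)
  have hfixG : ∀ f ∈ Subgroup.closure ((G : Set (Equiv.Perm (Option X))) ∪ {h}),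
      f none = none ↔ f ∈ G := by
    intro f hf
    refine ⟨fun hn => ?_, hfix f⟩
    rcases hY f hf with h' | ⟨a, ha, b, hb, rfl⟩
    · exact h'
    · exfalso
      simp only [Equiv.Perm.coe_mul, Function.comp_apply, hfix b hb, h1] at hn
      obtain ⟨z, hz⟩ := hsome a ha x
      rw [hz] at hn
      exact absurd hn (by simp)
  refine ⟨hfixG, ?_⟩
  set L := Subgroup.closure ((G : Set (Equiv.Perm (Option X))) ∪ {h}) with hL
  have hGL : ∀ f ∈ G, f ∈ L := fun f hf => Subgroup.subset_closure (Or.inl hf)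
  have hhL : h ∈ L := Subgroup.subset_closure (Or.inr rfl)
  obtain ⟨c⟩ := id hkX
  have hother : ∀ u : X, ∃ v : X, u ≠ v := by
    intro u
    by_cases h0 : u = c ⟨0, by omega⟩
    · refine ⟨c ⟨1, by omega⟩, ?_⟩
      rw [h0]
      intro h'
      have := c.injective h'
      simp at this
    · exact ⟨_, h0⟩
  -- `G` is transitive on `X`
  have htr1 : ∀ u v : X, ∃ f ∈ G, f (some u) = some v := by
    intro u v
    obtain ⟨u', hu'⟩ := hother u
    obtain ⟨v', hv'⟩ := hother v
    obtain ⟨f, hf, hf1, -⟩ := two_trans G k hk hkX htrans u u' v v' hu' hv'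
    exact ⟨f, hf, hf1⟩
  let b₀ : Fin (k + 1) ↪ Option X :=
    ⟨fun i => Fin.cases none (fun j => some (c j)) i, by
      intro i j hij
      induction i using Fin.cases with
      | zero =>
        induction j using Fin.cases with
        | zero => rfl
        | succ j => exact absurd hij (by simp)
      | succ i =>
        induction j using Fin.cases with
        | zero => exact absurd hij (by simp)
        | succ j =>
          simp only [Fin.cases_succ, Option.some.injEq] at hij
          rw [c.injective hij]⟩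
  have hreach : ∀ a : Fin (k + 1) ↪ Option X, ∃ l ∈ L, ∀ i, l (a i) = b₀ i := by
    intro a
    obtain ⟨l₁, hl₁, hl₁0⟩ : ∃ l₁ ∈ L, l₁ (a 0) = none := by
      rcases ha0 : a 0 with _ | w
      · exact ⟨1, L.one_mem, rfl⟩
      · obtain ⟨f, hf, hfw⟩ := htr1 w x
        refine ⟨h * f, L.mul_mem hhL (hGL f hf), ?_⟩
        simp only [Equiv.Perm.coe_mul, Function.comp_apply, hfw, h2]
    have hsucc : ∀ j : Fin k, ∃ z : X, l₁ (a j.succ) = some z := by
      intro j
      rcases hz : l₁ (a j.succ) with _ | z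
      · exfalso
        have := a.injective (l₁.injective (hz.trans hl₁0.symm))
        exact (Fin.succ_ne_zero j) this
      · exact ⟨z, rfl⟩
    choose d hd using hsucc
    have hdinj : Function.Injective d := by
      intro i j hij
      have : l₁ (a i.succ) = l₁ (a j.succ) := by rw [hd, hd, hij]
      have := a.injective (l₁.injective this)
      exact Fin.succ_injective _ this
    obtain ⟨f, hf, hfd⟩ := htrans ⟨d, hdinj⟩ c
    refine ⟨f * l₁, L.mul_mem (hGL f hf) hl₁, fun i => ?_⟩
    induction i using Fin.cases with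
    | zero =>
      simp only [Equiv.Perm.coe_mul, Function.comp_apply, hl₁0, hfix f hf]
      rfl
    | succ j =>
      simp only [Equiv.Perm.coe_mul, Function.comp_apply, hd]
      exact hfd j
  refine ⟨fun a a' => ?_⟩
  obtain ⟨l, hl, hla⟩ := hreach a
  obtain ⟨l', hl', hla'⟩ := hreach a'
  refine ⟨⟨l'⁻¹ * l, L.mul_mem (L.inv_mem hl') hl⟩, ?_⟩
  refine Function.Embedding.ext (fun i => ?_)
  show ((l'⁻¹ * l) (a i)) = _
  simp only [Equiv.Perm.coe_mul, Function.comp_apply, hla]
  rw [Equiv.Perm.inv_eq_iff_eq, hla']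

end Cfsg.Agent.S4301
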