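import Cfsg.Statements.S4302
import Cfsg.Agent.Lib.H20.TH3
import Mathlib

set_option autoImplicit false
set_option linter.unusedVariables false
set_option linter.style.haveILetI false
open Cfsg

namespace Cfsg.Agent.S4302

open Cfsg.Agent.H14 Cfsg.Agent.H20.TH

/-- Let `X` be a finite solvable group whose Fitting subgroup is a 2-group (equivalently `F(X) = O₂(X)`), `T` a Sylow 2-subgroup of `X`, `J(T)` the subgroup generated by the abelian subgroups of `T` of largest order, `C` the largest normal subgroup of `X` centralizing the centre `Z(T)`, and `Y` the normal closure of `J(T)` in `X`. Then `X = C · Y · N_X(J(T))`, and either `Y ≤ C`, or `CY/C` is isomorphic to a direct product of at least one copy of the symmetric group of degree 3. -/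
theorem result {X : Type*} [Group X] [Finite X]
    [Group.IsSolvable X] (hF : Cfsg.fittingSubgroup X = Cfsg.pCore 2 X) (T : Sylow 2 X) :
    ((Subgroup.centralizer (((T : Subgroup X) ⊓ Subgroup.centralizer ((T : Subgroup X) : Set X) : Subgroup X) : Set X)).normalCore
        ⊔ Subgroup.normalClosure (Cfsg.thompsonSubgroupAOf (T : Subgroup X) : Set X)
        ⊔ Subgroup.normalizer (Cfsg.thompsonSubgroupAOf (T : Subgroup X) : Set X) = ⊤) ∧
    (Subgroup.normalClosure (Cfsg.thompsonSubgroupAOf (T : Subgroup X) : Set X)
        ≤ (Subgroup.centralizer (((T : Subgroup X) ⊓ Subgroup.centralizer ((T : Subgroup X) : Set X) : Subgroup X) : Set X)).normalCore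
      ∨ ∃ n : ℕ, 1 ≤ n ∧
        Nonempty (↥(Subgroup.normalClosure (Cfsg.thompsonSubgroupAOf (T : Subgroup X) : Set X)) ⧸
            ((Subgroup.centralizer (((T : Subgroup X) ⊓ Subgroup.centralizer ((T : Subgroup X) : Set X) : Subgroup X) : Set X)).normalCore).subgroupOf
              (Subgroup.normalClosure (Cfsg.thompsonSubgroupAOf (T : Subgroup X) : Set X))
          ≃* (Fin n → Equiv.Perm (Fin 3)))) := by
  classical
  have h1 := frattini_Y T
  refine ⟨?_, ?_⟩
  · rw [eq_top_iff, ← h1]
    exact sup_le (le_sup_of_le_left le_sup_right) le_sup_right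
  · have hC : (Subgroup.centralizer (((T : Subgroup X) ⊓ Subgroup.centralizer ((T : Subgroup X) : Set X) : Subgroup X) : Set X)).normalCore =
        Subgroup.centralizer (omV hF : Set X) := by
      rw [core_eq T, cent_omV hF]
    by_cases hYC : Subgroup.normalClosure (Cfsg.thompsonSubgroupAOf (T : Subgroup X) : Set X)
        ≤ (Subgroup.centralizer (((T : Subgroup X) ⊓ Subgroup.centralizer ((T : Subgroup X) : Set X) : Subgroup X) : Set X)).normalCore
    · exact Or.inl hYC
    right
    have hV := omV_ea hF
    have hs : IsPSolvable 2 X := Cfsg.Agent.H06.isPSolvable_of_isSolvable 2 X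
    have hO := omV_core hF
    obtain ⟨Y, hY⟩ : ∃ Y, Y = Subgroup.normalClosure (Cfsg.thompsonSubgroupAOf (T : Subgroup X) : Set X) := ⟨_, rfl⟩
    haveI hYn : Y.Normal := by
      rw [hY]; infer_instance
    have hFF := hol_FFS (omV hF) hV hs hO Y
    have hYeq : Y = sSup (MaxAb X) := by
      rw [hY]; exact normalClosure_eq T
    have hS3 : Y.map (holF (omV hF)) =
        ⨆ A : {A : Subgroup (Hol (omV hF)) // A ≤ Y.map (holF (omV hF)) ∧ IsBestOffenderOn 2 (holV (omV hF)) A}, (A : Subgroup (Hol (omV hF))) := by
      apply le_antisymm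
      · rw [Subgroup.map_le_iff_le_comap]
        conv_lhs => rw [hYeq]
        apply sSup_le
        intro A hA
        rw [← Subgroup.map_le_iff_le_comap]
        refine le_iSup_of_le (⟨A.map (holF (omV hF)), Subgroup.map_mono ?_, best_ab hF hA⟩ :
          {A : Subgroup (Hol (omV hF)) // A ≤ Y.map (holF (omV hF)) ∧ IsBestOffenderOn 2 (holV (omV hF)) A}) le_rfl
        rw [hYeq]
        exact le_sSup hA
      · exact iSup_le fun A => A.2.1
    have hH1 : Y.map (holF (omV hF)) ≠ ⊥ := by
      intro hb
      apply hYC
      rw [hC, ← hY]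
      intro y hy
      have h2 : holF (omV hF) y ∈ Y.map (holF (omV hF)) := ⟨y, hy, rfl⟩
      rw [hb] at h2
      exact (holF_eq_one_iff (omV hF)).1 h2
    obtain ⟨-, hE, hind, hsup, -, -⟩ := FFIdx.main hFF hS3 hH1
    haveI hne : Nonempty (FFIdx 2 (holV (omV hF)) (Y.map (holF (omV hF)))
        ((pPrimeCore 2 ↥(Y.map (holF (omV hF)))).map (Y.map (holF (omV hF))).subtype)) := by
      by_contra hcon
      rw [not_nonempty_iff] at hcon
      apply hH1
      rw [← hsup]
      exact iSup_of_empty _
    obtain ⟨n, hn, ⟨e⟩⟩ := exists_iso_pi _ (Y.map (holF (omV hF))) (fun E => (hE E).1) hind hsup (fun E => (hE E).2.1)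
    refine ⟨n, hn, ⟨?_⟩⟩
    let r : ↥Y →* ↥(Y.map (holF (omV hF))) := (holF (omV hF)).subgroupMap Y
    have hr : Function.Surjective r := (holF (omV hF)).subgroupMap_surjective Y
    subst hY
    have hker : ((Subgroup.centralizer (((T : Subgroup X) ⊓ Subgroup.centralizer ((T : Subgroup X) : Set X) : Subgroup X) : Set X)).normalCore).subgroupOf
              (Subgroup.normalClosure (Cfsg.thompsonSubgroupAOf (T : Subgroup X) : Set X)) = r.ker := by
      ext x
      rw [Subgroup.mem_subgroupOf, MonoidHom.mem_ker, hC]
      constructor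
      · intro h
        exact Subtype.ext ((holF_eq_one_iff (omV hF)).2 h)
      · intro h
        exact (holF_eq_one_iff (omV hF)).1 (congrArg Subtype.val h)
    exact (QuotientGroup.quotientMulEquivOfEq hker).trans
      ((QuotientGroup.quotientKerEquivOfSurjective r hr).trans e)

end Cfsg.Agent.S4302
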