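import Cfsg.Statements.S4303
import Cfsg.Agent.Lib.H20.SylowNumber

set_option autoImplicit false
universe u
open Cfsg

namespace Cfsg.Agent.S4303

theorem result {G : Type u} [Group G] [Finite G]
    (p : ℕ) [Fact p.Prime] :
    ∃ l : List ℕ, l.prod = Nat.card (Sylow p G) ∧
      ∀ m ∈ l, (IsPrimePow m ∧ m % p = 1) ∨
        ∃ (S : Type u) (_ : Group S) (_ : Finite S), IsSimpleGroup S ∧ m = Nat.card (Sylow p S) := by
  have hp : p.Prime := Fact.out
  refine H20.sylow_number_induction.{u} p (fun _ _ => True) (fun _ _ _ _ => trivial) (fun _ _ _ _ _ => trivial)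
    (fun n => ∃ l : List ℕ, l.prod = n ∧ ∀ m ∈ l, (IsPrimePow m ∧ m % p = 1) ∨
        ∃ (S : Type u) (_ : Group S) (_ : Finite S), IsSimpleGroup S ∧ m = Nat.card (Sylow p S))
    ⟨[], rfl, by simp⟩ ?_ ?_ ?_ _ G rfl trivial
  · rintro a b ⟨l1, h1, h2⟩ ⟨l3, h3, h4⟩
    refine ⟨l1 ++ l3, by rw [List.prod_append, h1, h3], ?_⟩
    intro m hm
    rcases List.mem_append.mp hm with hm | hm
    · exact h2 m hm
    · exact h4 m hm
  · intro q e hq he
    by_cases he0 : e = 0
    · subst he0
      exact ⟨[], by simp, by simp⟩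
    · refine ⟨[q ^ e], by simp, ?_⟩
      intro m hm
      rw [List.mem_singleton] at hm
      subst hm
      left
      refine ⟨hq.isPrimePow.pow he0, ?_⟩
      have := he
      rw [Nat.ModEq, Nat.mod_eq_of_lt hp.one_lt] at this
      exact this
  · intro S _ _ hS _
    exact ⟨[Nat.card (Sylow p S)], by simp, by
      intro m hm
      rw [List.mem_singleton] at hm
      subst hm
      right
      exact ⟨S, inferInstance, inferInstance, hS, rfl⟩⟩

end Cfsg.Agent.S4303
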