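import Cfsg.Statements.S4304
import Cfsg.Agent.Lib.H20.TwoPOne

set_option autoImplicit false
open Cfsg

namespace Cfsg.Agent.S4304

/-- No finite group has exactly 15 Sylow 7-subgroups. -/
theorem result {G : Type*} [Group G] [Finite G] : Nat.card (Sylow 7 G) ≠ 15 := by
  have : Fact (Nat.Prime 7) := ⟨by norm_num⟩
  refine H20.no_sylow_count 7 (by norm_num) (by norm_num) (by norm_num) (by norm_num) (by norm_num)
    ?_ ?_ G
  · intro a b ha hb hab
    have ha15 : a ≤ 15 := Nat.le_of_dvd (by norm_num) (Dvd.intro _ hab)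
    have ha' : a % 7 = 1 % 7 := ha
    have hb' : b % 7 = 1 % 7 := hb
    interval_cases a <;> omega
  · intro q e hq h
    have h15 : q ^ e = 15 := h
    have he : e ≠ 0 := by
      rintro rfl
      simp at h15
    have h3 : 3 ∣ q := (Nat.Prime.dvd_of_dvd_pow (by norm_num : Nat.Prime 3)
      (by rw [h15]; norm_num))
    have h5 : 5 ∣ q := (Nat.Prime.dvd_of_dvd_pow (by norm_num : Nat.Prime 5)
      (by rw [h15]; norm_num))
    have e3 := (Nat.prime_dvd_prime_iff_eq (by norm_num) hq).mp h3
    have e5 := (Nat.prime_dvd_prime_iff_eq (by norm_num) hq).mp h5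
    omega

end Cfsg.Agent.S4304
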