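import Cfsg.Statements.S4305
import Cfsg.Agent.Lib.H13.SF11

set_option autoImplicit false
open Cfsg

namespace Cfsg.Agent.S4305

/-- Let the symmetric group of degree 3 act by automorphisms on a finite solvable group `G` of order prime to 6, so that only the identity of `G` is fixed by all of it. Then the derived subgroup of `G` is nilpotent. -/
theorem result {G : Type*} [Group G] [Finite G] [Group.IsSolvable G]
    [MulDistribMulAction (Equiv.Perm (Fin 3)) G] (hcop : (Nat.card G).Coprime 6)
    (hfpf : ∀ g : G, (∀ a : Equiv.Perm (Fin 3), a • g = g) → g = 1) :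
    Group.IsNilpotent ↥(commutator G) := by
  obtain ⟨c, s, hc3, hs2, hsc, hall⟩ : ∃ c s : Equiv.Perm (Fin 3), c * c * c = 1 ∧ s * s = 1 ∧ s * c * s = c * c ∧
      ∀ p : Equiv.Perm (Fin 3), p = 1 ∨ p = c ∨ p = c * c ∨ p = s ∨ p = c * s ∨ p = c * c * s :=
    ⟨Equiv.swap 0 1 * Equiv.swap 1 2, Equiv.swap 0 1, by decide, by decide, by decide, by decide⟩
  let a : G ≃* G := MulDistribMulAction.toMulAut (Equiv.Perm (Fin 3)) G c
  let b : G ≃* G := MulDistribMulAction.toMulAut (Equiv.Perm (Fin 3)) G s
  have ha : ∀ g, a g = c • g := fun _ => rfl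
  have hb : ∀ g, b g = s • g := fun _ => rfl
  have hAct : Cfsg.Agent.H13.SF.AAct a b :=
    { ha3 := fun g => by
        rw [ha, ha, ha, smul_smul, smul_smul, hc3, one_smul]
      hb2 := fun g => by
        rw [hb, hb, smul_smul, hs2, one_smul]
      hba := fun g => by
        rw [hb, ha, hb, ha, ha, smul_smul, smul_smul, smul_smul, hsc]
      hfp := fun g h1 h2 => by
        have h1' : c • g = g := h1
        have h2' : s • g = g := h2
        apply hfpf
        intro p
        rcases hall p with rfl | rfl | rfl | rfl | rfl | rfl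
        · exact one_smul _ _
        · exact h1'
        · rw [mul_smul, h1', h1']
        · exact h2'
        · rw [mul_smul, h2', h1']
        · rw [mul_smul, mul_smul, h2', h1', h1']
      hcop := hcop }
  exact Cfsg.Agent.H13.SF.MT _ G a b hAct rfl

end Cfsg.Agent.S4305
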