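import Cfsg.Statements.S4314
import Cfsg.Agent.Lib.H20.Basic
import Cfsg.Agent.Lib.Lead.Burnside
import Cfsg.Agent.Lib.H19.Real

set_option autoImplicit false
open Cfsg

namespace Cfsg.Agent.S4314

universe u

/-- centralizer of an element -/
abbrev Cn {G : Type*} [Group G] (x : G) : Subgroup G := Subgroup.centralizer ({x} : Set G)

def Hyp (G : Type*) [Group G] : Prop := ∀ x : G, (Cn x).index = 1 ∨ ((Cn x).index).Prime

lemma memCn {G : Type*} [Group G] {y g : G} : g ∈ Cn y ↔ g * y = y * g :=
  Subgroup.mem_centralizer_singleton_iff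

lemma le_comap_cn {G H : Type*} [Group G] [Group H] (f : G →* H) (g : G) :
    Cn g ≤ (Cn (f g)).comap f := by
  intro c hc
  rw [Subgroup.mem_comap, memCn, ← map_mul, ← map_mul, memCn.mp hc]

lemma index_quot_dvd {G H : Type*} [Group G] [Group H] (f : G →* H)
    (hf : Function.Surjective f) (g : G) : (Cn (f g)).index ∣ (Cn g).index := by
  rw [← Subgroup.index_comap_of_surjective _ hf]
  exact Subgroup.index_dvd_of_le (le_comap_cn f g)

lemma one_or_prime_of_dvd {a b : ℕ} (hab : a ∣ b) (hb : b = 1 ∨ b.Prime) : a = 1 ∨ a.Prime := by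
  rcases hb with rfl | hb
  · left; exact Nat.dvd_one.mp hab
  · rcases (Nat.dvd_prime hb).mp hab with h | h
    · left; exact h
    · right; rw [h]; exact hb

lemma Hyp.quot {G H : Type*} [Group G] [Group H] (h : Hyp G) (f : G →* H)
    (hf : Function.Surjective f) : Hyp H := by
  intro y
  obtain ⟨g, rfl⟩ := hf y
  exact one_or_prime_of_dvd (index_quot_dvd f hf g) (h g)

lemma Hyp.sub {G : Type*} [Group G] [Finite G] (h : Hyp G) (N : Subgroup G) [N.Normal] : Hyp N := by
  intro y
  have h1 : Cn y = (Cn (y : G)).subgroupOf N := by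
    ext c
    rw [Subgroup.mem_subgroupOf, memCn, memCn]
    constructor
    · intro hc
      exact congrArg Subtype.val hc
    · intro hc
      exact Subtype.ext hc
  rw [h1]
  exact one_or_prime_of_dvd (H20.relIndex_dvd_index_of_right_normal _ N) (h y)

theorem solvable_of_hyp : ∀ (n : ℕ) (G : Type u) [Group G] [Finite G], Nat.card G = n → Hyp G →
    Group.IsSolvable G := by
  intro n
  induction n using Nat.strong_induction_on with
  | _ n ih =>
    intro G _ _ hn hG
    by_cases hnt : Nontrivial G
    swap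
    · rw [not_nontrivial_iff_subsingleton] at hnt
      infer_instance
    by_cases hsimple : IsSimpleGroup G
    · by_cases hab : ∀ a b : G, a * b = b * a
      · exact Group.isSolvable_of_comm hab
      · exfalso
        push Not at hab
        obtain ⟨a, b, hab⟩ := hab
        rcases hG b with h1 | h1
        · have : Cn b = ⊤ := Subgroup.index_eq_one.mp h1
          have h2 : a ∈ Cn b := by rw [this]; trivial
          exact hab (memCn.mp h2)
        · exact Cfsg.Agent.Lead.not_class_prime_pow _ 1 h1 one_ne_zero b (by simp)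
    · obtain ⟨N, hN, hN1, hN2⟩ : ∃ N : Subgroup G, N.Normal ∧ N ≠ ⊥ ∧ N ≠ ⊤ := by
        by_contra hcon
        push Not at hcon
        apply hsimple
        refine ⟨fun H hH => ?_⟩
        by_cases hb : H = ⊥
        · exact Or.inl hb
        · exact Or.inr (hcon H hH hb)
      have := hN
      have hlt1 : Nat.card N < n := by
        rw [← hn]
        have := Subgroup.card_le_card_group N
        have hne : Nat.card N ≠ Nat.card G := by
          intro h
          exact hN2 (Subgroup.eq_top_of_card_eq N h)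
        omega
      have hlt2 : Nat.card (G ⧸ N) < n := by
        rw [← hn]
        have h1 := Subgroup.card_mul_index N
        have h2 : 1 < Nat.card N := by
          rw [Finite.one_lt_card_iff_nontrivial]
          exact (Subgroup.nontrivial_iff_ne_bot N).mpr hN1
        have h3 : Nat.card (G ⧸ N) = N.index := rfl
        rw [h3, ← h1]
        have h4 : 0 < N.index := Nat.pos_of_ne_zero Subgroup.index_ne_zero_of_finite
        nlinarith
      have s1 := ih _ hlt1 N rfl (hG.sub N)
      have s2 := ih _ hlt2 (G ⧸ N) rfl (hG.quot (QuotientGroup.mk' N) (QuotientGroup.mk'_surjective N))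
      exact Group.isSolvable_of_ker_le_range N.subtype (QuotientGroup.mk' N) (by simp)

lemma class2_of_nilpotent {G : Type*} [Group G] [Finite G] [hN : Group.IsNilpotent G] (h : Hyp G) :
    Subgroup.upperCentralSeries G 2 = ⊤ := by
  rw [eq_top_iff]
  intro x _
  rw [Subgroup.mem_upperCentralSeries_succ_iff]
  intro y
  rw [Subgroup.upperCentralSeries_one, Subgroup.mem_center_iff]
  intro w
  rcases h w with h1 | h1
  · have : Cn w = ⊤ := Subgroup.index_eq_one.mp h1
    have h2 : x * y * x⁻¹ * y⁻¹ ∈ Cn w := by rw [this]; trivial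
    exact (memCn.mp h2).symm
  · have hcoat : IsCoatom (Cn w) := H20.isCoatom_of_index_prime _ h1
    have hnorm : (Cn w).Normal :=
      Subgroup.NormalizerCondition.normal_of_coatom (Cn w) Group.normalizerCondition_of_isNilpotent hcoat
    have := hnorm
    have : Fact ((Cn w).index).Prime := ⟨h1⟩
    have hcard : Nat.card (G ⧸ Cn w) = (Cn w).index := rfl
    have : IsCyclic (G ⧸ Cn w) := isCyclic_of_prime_card hcard
    have hc : ((x * y * x⁻¹ * y⁻¹ : G) : G ⧸ Cn w) = 1 := by
      have h3 : ((x : G ⧸ Cn w)) * (y : G ⧸ Cn w) = (y : G ⧸ Cn w) * (x : G ⧸ Cn w) :=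
        (IsCyclic.isMulCommutative (α := G ⧸ Cn w)).is_comm.comm _ _
      simp only [QuotientGroup.mk_mul, QuotientGroup.mk_inv, h3]
      group
    have h2 := (QuotientGroup.eq_one_iff _).mp hc
    exact (memCn.mp h2).symm

lemma conj_eq_of_relIndex {G : Type*} [Group G] [Finite G] (Y : Subgroup G) [Y.Normal] (s : G)
    (h : (Cn s).relIndex Y = (Cn s).index) (g : G) : ∃ v ∈ Y, g⁻¹ * s * g = v⁻¹ * s * v := by
  have h1 : (Cn s).relIndex (Cn s ⊔ Y) = (Cn s).relIndex Y := H20.relIndex_sup_of_normal _ _
  have h2 := Subgroup.relIndex_mul_index (le_sup_left : Cn s ≤ Cn s ⊔ Y)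
  rw [h1, h] at h2
  have h3 : (Cn s).index ≠ 0 := Subgroup.index_ne_zero_of_finite
  have h4 : (Cn s ⊔ Y).index = 1 := by
    apply Nat.eq_of_mul_eq_mul_left (Nat.pos_of_ne_zero h3)
    rw [h2, mul_one]
  have h5 : Cn s ⊔ Y = ⊤ := Subgroup.index_eq_one.mp h4
  have h6 : g ∈ Cn s ⊔ Y := by rw [h5]; trivial
  rw [← SetLike.mem_coe, Subgroup.mul_normal] at h6
  obtain ⟨c, hc, v, hv, rfl⟩ := h6
  refine ⟨v, hv, ?_⟩
  have h7 : c⁻¹ * s * c = s := by
    have := memCn.mp (SetLike.mem_coe.mp hc)
    rw [mul_assoc, inv_mul_eq_iff_eq_mul, this]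
  calc (c * v)⁻¹ * s * (c * v) = v⁻¹ * (c⁻¹ * s * c) * v := by group
    _ = _ := by rw [h7]

theorem base {G : Type*} [Group G] [Finite G] [Nontrivial G] [Group.IsSolvable G] (hG : Hyp G)
    (hZ : Subgroup.center G = ⊥) :
    ∃ p q : ℕ, p.Prime ∧ q.Prime ∧ p ≠ q ∧ Nat.card G = p * q := by
  classical
  obtain ⟨r, X, hr, hXn, hX1, hXc, hXe⟩ := H19.exists_normal_abelian_prime_exp (G := G)
  have := hXn
  have hXp : IsPGroup r X := by
    intro v
    exact ⟨1, by ext; simpa using hXe v v.2⟩
  have hnoncentral : ∀ y : G, y ≠ 1 → ∃ t, t * y ≠ y * t := by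
    intro y hy
    by_contra hcon
    push Not at hcon
    have : y ∈ Subgroup.center G := Subgroup.mem_center_iff.mpr hcon
    rw [hZ, Subgroup.mem_bot] at this
    exact hy this
  obtain ⟨x, hxX, hx1⟩ := X.bot_or_exists_ne_one.resolve_left hX1
  obtain ⟨t, ht⟩ := hnoncentral x hx1
  -- indices
  have hdvd1 : (Cn t).relIndex X ∣ (Cn t).index := H20.relIndex_dvd_index_of_right_normal _ X
  have hd1 : (Cn t).relIndex X ≠ 1 := by
    intro h
    rw [Subgroup.relIndex_eq_one] at h
    have := memCn.mp (h hxX)
    exact ht this.symm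
  have hfp : Fact r.Prime := ⟨hr⟩
  obtain ⟨k, hk⟩ := hXp.index ((Cn t).subgroupOf X)
  have hk' : (Cn t).relIndex X = r ^ k := hk
  have hk0 : k ≠ 0 := by
    rintro rfl
    exact hd1 (by simpa using hk')
  have hrd : r ∣ (Cn t).relIndex X := by rw [hk']; exact dvd_pow_self r hk0
  have hidx : (Cn t).index = r := by
    rcases hG t with h1 | h1
    · rw [h1] at hdvd1
      exact absurd (Nat.dvd_one.mp hdvd1) hd1
    · exact ((Nat.prime_dvd_prime_iff_eq hr h1).mp (hrd.trans hdvd1)).symm
  have hrel : (Cn t).relIndex X = r := by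
    rw [hidx] at hdvd1
    exact ((Nat.dvd_prime hr).mp hdvd1).resolve_left hd1
  -- ψ
  have hconjX : ∀ (g : G), ∀ v ∈ X, g⁻¹ * v * g ∈ X := by
    intro g v hv
    have := hXn.conj_mem v hv g⁻¹
    simpa using this
  let ψ : X →* X :=
    { toFun := fun v => ⟨t⁻¹ * (v : G)⁻¹ * t * v, X.mul_mem (hconjX t _ (X.inv_mem v.2)) v.2⟩
      map_one' := by ext; simp
      map_mul' := fun v w => by
        ext
        show t⁻¹ * ((v : G) * w)⁻¹ * t * ((v : G) * w) = (t⁻¹ * (v : G)⁻¹ * t * v) * (t⁻¹ * (w : G)⁻¹ * t * w)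
        have ha := hconjX t _ (X.inv_mem v.2)
        have hb := hconjX t _ (X.inv_mem w.2)
        have h1 := hXc _ ha _ w.2
        have h2 := hXc _ ha _ hb
        calc t⁻¹ * ((v : G) * w)⁻¹ * t * ((v : G) * w)
            = (t⁻¹ * (w : G)⁻¹ * t) * (t⁻¹ * (v : G)⁻¹ * t) * v * w := by group
          _ = (t⁻¹ * (v : G)⁻¹ * t) * (t⁻¹ * (w : G)⁻¹ * t) * v * w := by rw [h2]
          _ = (t⁻¹ * (v : G)⁻¹ * t) * ((t⁻¹ * (w : G)⁻¹ * t) * v) * w := by group
          _ = (t⁻¹ * (v : G)⁻¹ * t) * (v * (t⁻¹ * (w : G)⁻¹ * t)) * w := by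
              rw [hXc _ hb _ v.2]
          _ = _ := by group }
  set U : Subgroup G := ψ.range.map X.subtype with hU
  have hUX : U ≤ X := by
    rintro _ ⟨w, _, rfl⟩
    exact w.2
  have hUmem : ∀ v ∈ X, t⁻¹ * v⁻¹ * t * v ∈ U := by
    intro v hv
    exact ⟨ψ ⟨v, hv⟩, ⟨⟨v, hv⟩, rfl⟩, rfl⟩
  have hUform : ∀ u ∈ U, ∃ v ∈ X, u = t⁻¹ * v⁻¹ * t * v := by
    rintro _ ⟨_, ⟨v, rfl⟩, rfl⟩
    exact ⟨v, v.2, rfl⟩
  have hkerψ : ψ.ker = (Cn t).subgroupOf X := by
    ext v
    rw [MonoidHom.mem_ker, Subgroup.mem_subgroupOf, memCn, Subtype.ext_iff]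
    show t⁻¹ * (v : G)⁻¹ * t * v = 1 ↔ _
    have h2 : t⁻¹ * (v : G)⁻¹ * t * v = ((v : G) * t)⁻¹ * (t * v) := by group
    rw [h2, inv_mul_eq_one]
  have hUcard : Nat.card U = r := by
    have h1 : Nat.card U = Nat.card ψ.range :=
      (Nat.card_congr (ψ.range.equivMapOfInjective X.subtype X.subtype_injective).toEquiv).symm
    rw [h1, ← Subgroup.index_ker, hkerψ]
    exact hrel
  have h3 : ∀ g, ∃ u ∈ U, g⁻¹ * t * g = t * u := by
    intro g
    obtain ⟨v, hv, hgv⟩ := conj_eq_of_relIndex X t (by rw [hrel, hidx]) g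
    refine ⟨t⁻¹ * v⁻¹ * t * v, hUmem v hv, ?_⟩
    rw [hgv]; group
  have hUn : U.Normal := by
    refine ⟨fun u hu g => ?_⟩
    obtain ⟨v, hv, rfl⟩ := hUform u hu
    obtain ⟨u0, hu0, hu0e⟩ := h3 g⁻¹
    rw [inv_inv] at hu0e
    have hw : g * v * g⁻¹ ∈ X := hXn.conj_mem v hv g
    set w := g * v * g⁻¹ with hwdef
    have ha := hconjX t _ (X.inv_mem hw)
    have hc := hXc _ ha _ (hUX hu0)
    have : g * (t⁻¹ * v⁻¹ * t * v) * g⁻¹ = t⁻¹ * w⁻¹ * t * w := by
      have h4 : g * (t⁻¹ * v⁻¹ * t * v) * g⁻¹ = (g * t * g⁻¹)⁻¹ * w⁻¹ * (g * t * g⁻¹) * w := by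
        rw [hwdef]; group
      rw [h4, hu0e]
      calc (t * u0)⁻¹ * w⁻¹ * (t * u0) * w = u0⁻¹ * ((t⁻¹ * w⁻¹ * t) * u0) * w := by group
        _ = u0⁻¹ * (u0 * (t⁻¹ * w⁻¹ * t)) * w := by rw [hc]
        _ = _ := by group
    rw [this]
    exact hUmem w hw
  have := hUn
  have hUnt : U ≠ ⊥ := by
    intro h
    rw [h, Subgroup.card_bot] at hUcard
    exact hr.one_lt.ne hUcard
  have hgen : ∀ w ∈ U, w ≠ 1 → ∀ c, c * w = w * c → ∀ w' ∈ U, c * w' = w' * c := by
    intro w hw hw1 c hc w' hw'
    have h1 : Subgroup.zpowers w ≤ U := by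
      rw [Subgroup.zpowers_le]; exact hw
    have h2 : Nat.card (Subgroup.zpowers w) ∣ r := by
      rw [← hUcard]
      exact Subgroup.card_dvd_of_le h1
    have h3' : Nat.card (Subgroup.zpowers w) = r := by
      refine ((Nat.dvd_prime hr).mp h2).resolve_left ?_
      rw [Nat.card_zpowers, orderOf_eq_one_iff]
      exact hw1
    have h4 : Subgroup.zpowers w = U := Subgroup.eq_of_le_of_card_ge h1 (by rw [h3', hUcard])
    rw [← h4] at hw'
    obtain ⟨k, rfl⟩ := hw'
    have hcomm : Commute c w := hc
    exact (hcomm.zpow_right k)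
  obtain ⟨u, huU, hu1⟩ := U.bot_or_exists_ne_one.resolve_left hUnt
  set M : Subgroup G := Cn u with hM
  have hMmem : ∀ c, c ∈ M ↔ ∀ w ∈ U, c * w = w * c := by
    intro c
    constructor
    · intro hc
      exact hgen u huU hu1 c (memCn.mp hc)
    · intro hc
      exact memCn.mpr (hc u huU)
  have hMprime : M.index.Prime := by
    rcases hG u with h1 | h1
    · exfalso
      have h2 : Cn u = ⊤ := Subgroup.index_eq_one.mp h1
      have h3' : u ∈ Subgroup.center G := by
        rw [Subgroup.mem_center_iff]
        intro g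
        have : g ∈ Cn u := by rw [h2]; trivial
        exact memCn.mp this
      rw [hZ, Subgroup.mem_bot] at h3'
      exact hu1 h3'
    · exact h1
  have hMcoat : IsCoatom M := H20.isCoatom_of_index_prime _ hMprime
  have hMtop : M ≠ ⊤ := hMcoat.1
  obtain ⟨s0, hs0⟩ : ∃ s, s ∉ M := by
    by_contra hcon
    push Not at hcon
    exact hMtop (eq_top_iff.mpr fun g _ => hcon g)
  -- elements outside M
  have hout : ∀ s, s ∉ M → ∀ g, s⁻¹ * g⁻¹ * s * g ∈ U := by
    intro s hs g
    have hne : ¬ U ≤ Cn s := by
      intro hle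
      apply hs
      rw [hMmem]
      intro w hw
      exact (memCn.mp (hle hw)).symm
    have hd : (Cn s).relIndex U ∣ r := by
      rw [← hUcard]
      exact Subgroup.relIndex_dvd_card _ _
    have hd' : (Cn s).relIndex U = r := by
      refine ((Nat.dvd_prime hr).mp hd).resolve_left ?_
      rw [Subgroup.relIndex_eq_one]
      exact hne
    have hd2 : r ∣ (Cn s).index := by
      rw [← hd']
      exact H20.relIndex_dvd_index_of_right_normal _ U
    have hidxs : (Cn s).index = r := by
      rcases hG s with h1 | h1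
      · rw [h1] at hd2
        exact absurd (Nat.dvd_one.mp hd2) hr.one_lt.ne'
      · exact ((Nat.prime_dvd_prime_iff_eq hr h1).mp hd2).symm
    obtain ⟨v, hv, hgv⟩ := conj_eq_of_relIndex U s (by rw [hd', hidxs]) g
    have : s⁻¹ * g⁻¹ * s * g = (s⁻¹ * v⁻¹ * s) * v := by
      have h5 : s⁻¹ * g⁻¹ * s * g = s⁻¹ * (g⁻¹ * s * g) := by group
      rw [h5, hgv]; group
    rw [this]
    apply U.mul_mem _ hv
    have := hUn.conj_mem v⁻¹ (U.inv_mem hv) s⁻¹
    simpa using this
  -- G/U abelian
  have hab : ∀ a b : G, a⁻¹ * b⁻¹ * a * b ∈ U := by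
    let Q := G ⧸ U
    have hcentral : ∀ a : G, (a : Q) ∈ Subgroup.center Q := by
      have hs : ∀ s, s ∉ M → (s : Q) ∈ Subgroup.center Q := by
        intro s hs
        rw [Subgroup.mem_center_iff]
        intro q
        obtain ⟨g, rfl⟩ := QuotientGroup.mk'_surjective U q
        show ((g : Q)) * (s : Q) = (s : Q) * (g : Q)
        rw [← QuotientGroup.mk_mul, ← QuotientGroup.mk_mul, QuotientGroup.eq]
        have h1 := hout s hs g
        have h2 : (g * s)⁻¹ * (s * g) = s⁻¹ * g⁻¹ * s * g := by group
        rw [h2]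
        exact h1
      intro a
      by_cases ha : a ∈ M
      · have h1 : s0 * a ∉ M := fun h => hs0 (by
          have := M.mul_mem h (M.inv_mem ha)
          simpa using this)
        have h2 := hs _ h1
        have h3' := hs _ hs0
        have : (a : Q) = (s0 : Q)⁻¹ * ((s0 * a : G) : Q) := by
          rw [QuotientGroup.mk_mul]; group
        rw [this]
        exact Subgroup.mul_mem _ (Subgroup.inv_mem _ h3') h2
      · exact hs a ha
    intro a b
    rw [← QuotientGroup.eq_one_iff]
    simp only [QuotientGroup.mk_mul, QuotientGroup.mk_inv]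
    have h1 := Subgroup.mem_center_iff.mp (hcentral a) (b : Q)
    have : ((a : Q)⁻¹ * (b : Q)⁻¹ * (a : Q) * (b : Q)) = (a : Q)⁻¹ * (b : Q)⁻¹ * ((a : Q) * (b : Q)) := by group
    rw [this, ← h1]
    group
  -- U ≤ M, M abelian
  have hUcomm : ∀ a ∈ U, ∀ b ∈ U, a * b = b * a := fun a ha b hb => hXc a (hUX ha) b (hUX hb)
  have hUM : U ≤ M := fun w hw => (hMmem w).mpr (fun w' hw' => hUcomm w hw w' hw')
  have hMab : ∀ y ∈ M, ∀ m ∈ M, y⁻¹ * m⁻¹ * y * m = 1 := by
    intro y hy m hm
    by_contra hw
    set w := y⁻¹ * m⁻¹ * y * m with hwdef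
    have hwU : w ∈ U := hab y m
    have ha := hab y s0
    have hb := hab m s0
    set a' := y⁻¹ * s0⁻¹ * y * s0 with ha'
    set b' := m⁻¹ * s0⁻¹ * m * s0 with hb'
    have hya : s0⁻¹ * y * s0 = y * a' := by rw [ha']; group
    have hmb : s0⁻¹ * m * s0 = m * b' := by rw [hb']; group
    have hfix : s0⁻¹ * w * s0 = w := by
      have h4 : s0⁻¹ * w * s0 = (s0⁻¹ * y * s0)⁻¹ * (s0⁻¹ * m * s0)⁻¹ * (s0⁻¹ * y * s0) * (s0⁻¹ * m * s0) := by
        rw [hwdef]; group
      rw [h4, hya, hmb]
      have hay : Commute a' y := ((hMmem y).mp hy a' ha).symm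
      have ham : Commute a' m := ((hMmem m).mp hm a' ha).symm
      have hby : Commute b' y := ((hMmem y).mp hy b' hb).symm
      have hbm : Commute b' m := ((hMmem m).mp hm b' hb).symm
      have hab1 : Commute a' b' := hUcomm a' ha b' hb
      have cX : Commute a' (y⁻¹ * b'⁻¹ * m⁻¹ * y) :=
        ((((hay.inv_right).mul_right hab1.inv_right).mul_right ham.inv_right).mul_right hay)
      have cY : Commute b' (m⁻¹ * y * m) :=
        ((hbm.inv_right).mul_right hby).mul_right hbm
      calc (y * a')⁻¹ * (m * b')⁻¹ * (y * a') * (m * b')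
          = a'⁻¹ * ((y⁻¹ * b'⁻¹ * m⁻¹ * y) * a') * m * b' := by group
        _ = a'⁻¹ * (a' * (y⁻¹ * b'⁻¹ * m⁻¹ * y)) * m * b' := by rw [cX.eq]
        _ = y⁻¹ * (b'⁻¹ * ((m⁻¹ * y * m) * b')) := by group
        _ = y⁻¹ * (b'⁻¹ * (b' * (m⁻¹ * y * m))) := by rw [cY.eq]
        _ = y⁻¹ * m⁻¹ * y * m := by group
    have hs0M : s0 ∈ M := by
      rw [hMmem]
      intro w' hw'
      refine hgen w hwU hw s0 ?_ w' hw'
      have : s0 * (s0⁻¹ * w * s0) = s0 * w := by rw [hfix]
      rw [← this]
      group
    exact hs0 hs0M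
  have hMcomm : ∀ y ∈ M, ∀ m ∈ M, y * m = m * y := by
    intro y hy m hm
    have h1 := hMab y hy m hm
    have h2 : y⁻¹ * m⁻¹ * y * m = (m * y)⁻¹ * (y * m) := by group
    rw [h2, inv_mul_eq_one] at h1
    exact h1.symm
  -- card M = r
  have hcardM : Nat.card M = r := by
    apply le_antisymm
    · rw [← hUcard]
      have hinj : Function.Injective (fun y : M =>
          (⟨s0⁻¹ * (y : G)⁻¹ * s0 * y, hout s0 hs0 y⟩ : U)) := by
        intro y y' h
        have h1 : s0⁻¹ * (y : G)⁻¹ * s0 * y = s0⁻¹ * (y' : G)⁻¹ * s0 * y' := congrArg Subtype.val h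
        have h2 : (y : G)⁻¹ * s0 * y = (y' : G)⁻¹ * s0 * y' := by
          have := congrArg (fun z => s0 * z) h1
          calc (y : G)⁻¹ * s0 * y = s0 * (s0⁻¹ * (y : G)⁻¹ * s0 * y) := by group
            _ = s0 * (s0⁻¹ * (y' : G)⁻¹ * s0 * y') := this
            _ = _ := by group
        set k : G := (y : G) * (y' : G)⁻¹ with hk'
        have hkM : k ∈ M := M.mul_mem y.2 (M.inv_mem y'.2)
        have h3 : k⁻¹ * s0 * k = s0 := by
          rw [hk']
          calc ((y : G) * (y' : G)⁻¹)⁻¹ * s0 * ((y : G) * (y' : G)⁻¹)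
              = (y' : G) * ((y : G)⁻¹ * s0 * y) * (y' : G)⁻¹ := by group
            _ = (y' : G) * ((y' : G)⁻¹ * s0 * y') * (y' : G)⁻¹ := by rw [h2]
            _ = s0 := by group
        have h4 : s0 * k = k * s0 := by
          have : k * (k⁻¹ * s0 * k) = k * s0 := by rw [h3]
          rw [← this]
          group
        have hMle : M ≤ Cn k := fun c hc => memCn.mpr (hMcomm c hc k hkM)
        have hlt : M < Cn k := lt_of_le_of_ne hMle (by
          intro he
          apply hs0
          rw [he]
          exact memCn.mpr h4)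
        have htop := hMcoat.2 _ hlt
        have hkc : k ∈ Subgroup.center G := by
          rw [Subgroup.mem_center_iff]
          intro g
          have : g ∈ Cn k := by rw [htop]; trivial
          exact memCn.mp this
        rw [hZ, Subgroup.mem_bot] at hkc
        have : (y : G) = y' := by
          rw [hk'] at hkc
          exact mul_inv_eq_one.mp hkc
        exact Subtype.ext this
      exact Nat.card_le_card_of_injective _ hinj
    · rw [← hUcard]
      exact Subgroup.card_le_of_le hUM
  have hcardG : Nat.card G = M.index * r := by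
    rw [← hcardM, mul_comm]
    exact (Subgroup.card_mul_index M).symm
  refine ⟨M.index, r, hMprime, hr, ?_, hcardG⟩
  intro heq
  rw [heq] at hcardG
  have hpg : IsPGroup r G := IsPGroup.of_card (n := 2) (by rw [hcardG]; ring)
  have := hpg.center_nontrivial
  rw [hZ] at this
  exact (Subgroup.nontrivial_iff_ne_bot _).mp this rfl

theorem main : ∀ (n : ℕ) (G : Type u) [Group G] [Finite G], Nat.card G = n → Hyp G →
    Subgroup.upperCentralSeries G 2 = ⊤ ∨
      ∃ p q : ℕ, p.Prime ∧ q.Prime ∧ p ≠ q ∧ Nat.card (G ⧸ Subgroup.center G) = p * q ∧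
        ¬ IsMulCommutative (G ⧸ Subgroup.center G) := by
  intro n
  induction n using Nat.strong_induction_on with
  | _ n ih =>
    intro G _ _ hn hG
    by_cases hZ : Subgroup.center G = ⊥
    · by_cases hnt : Nontrivial G
      · have := solvable_of_hyp _ G rfl hG
        obtain ⟨p, q, hp, hq, hpq, hcard⟩ := base hG hZ
        right
        refine ⟨p, q, hp, hq, hpq, ?_, ?_⟩
        · show (Subgroup.center G).index = _
          rw [hZ, Subgroup.index_bot, hcard]
        · intro hcomm
          have h1 : ∀ a b : G, a * b = b * a := by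
            intro a b
            have h2 := hcomm.is_comm.comm ((a : G ⧸ Subgroup.center G)) (b : G ⧸ Subgroup.center G)
            rw [← QuotientGroup.mk_mul, ← QuotientGroup.mk_mul, QuotientGroup.eq, hZ,
              Subgroup.mem_bot] at h2
            rw [inv_mul_eq_one] at h2
            exact h2
          have h2 : Subgroup.center G = ⊤ := by
            rw [eq_top_iff]
            intro g _
            rw [Subgroup.mem_center_iff]
            intro w
            exact h1 w g
          rw [hZ] at h2
          exact bot_ne_top h2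
      · left
        rw [not_nontrivial_iff_subsingleton] at hnt
        rw [eq_top_iff]
        intro x _
        rw [Subsingleton.elim x 1]
        exact Subgroup.one_mem _
    · -- nontrivial centre
      have hlt : Nat.card (G ⧸ Subgroup.center G) < n := by
        rw [← hn]
        have h1 := Subgroup.card_mul_index (Subgroup.center G)
        have h2 : 1 < Nat.card (Subgroup.center G) := by
          rw [Finite.one_lt_card_iff_nontrivial]
          exact (Subgroup.nontrivial_iff_ne_bot _).mpr hZ
        have h3 : Nat.card (G ⧸ Subgroup.center G) = (Subgroup.center G).index := rfl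
        rw [h3, ← h1]
        have h4 : 0 < (Subgroup.center G).index := Nat.pos_of_ne_zero Subgroup.index_ne_zero_of_finite
        nlinarith
      have hQ : Hyp (G ⧸ Subgroup.center G) :=
        hG.quot (QuotientGroup.mk' _) (QuotientGroup.mk'_surjective _)
      rcases ih _ hlt (G ⧸ Subgroup.center G) rfl hQ with h | ⟨p, q, hp, hq, hpq, hcard, hnc⟩
      · left
        have h1 : Group.IsNilpotent (G ⧸ Subgroup.center G) := ⟨⟨2, h⟩⟩
        have h2 : Group.IsNilpotent G := Group.of_quotient_center_nilpotent h1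
        exact class2_of_nilpotent hG
      · right
        set Qb := G ⧸ Subgroup.center G with hQb
        let H := Qb ⧸ Subgroup.center Qb
        let f : G →* H := (QuotientGroup.mk' (Subgroup.center Qb)).comp (QuotientGroup.mk' (Subgroup.center G))
        have hf : Function.Surjective f :=
          (QuotientGroup.mk'_surjective _).comp (QuotientGroup.mk'_surjective _)
        have hker : ∀ y : G, f y = 1 → ∀ g : G, f g ∉ Subgroup.center H → y * g = g * y := by
          intro y hy g hg
          have h1 : (Cn (f g)).index ≠ 1 := by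
            intro h2
            apply hg
            rw [Subgroup.mem_center_iff]
            intro w
            have h3 : Cn (f g) = ⊤ := Subgroup.index_eq_one.mp h2
            have h4 : w ∈ Cn (f g) := by rw [h3]; trivial
            exact memCn.mp h4
          have hE : ((Cn (f g)).comap f).index = (Cn (f g)).index :=
            Subgroup.index_comap_of_surjective _ hf
          have hle := le_comap_cn f g
          have hdvd : ((Cn (f g)).comap f).index ∣ (Cn g).index := Subgroup.index_dvd_of_le hle
          have hcg : Cn g = (Cn (f g)).comap f := by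
            rcases hG g with h2 | h2
            · rw [h2, hE] at hdvd
              exact absurd (Nat.dvd_one.mp hdvd) h1
            · have h3 := ((Nat.dvd_prime h2).mp hdvd).resolve_left (by rw [hE]; exact h1)
              apply Subgroup.eq_of_le_of_card_ge hle
              have h4 := Subgroup.card_mul_index (Cn g)
              have h5 := Subgroup.card_mul_index ((Cn (f g)).comap f)
              rw [h3] at h5
              have h6 : Nat.card ((Cn (f g)).comap f) = Nat.card (Cn g) := by
                apply Nat.eq_of_mul_eq_mul_right h2.pos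
                rw [h4, h5]
              exact h6.le
          have h2 : y ∈ (Cn (f g)).comap f := by
            rw [Subgroup.mem_comap, hy]
            exact Subgroup.one_mem _
          rw [← hcg] at h2
          exact memCn.mp h2
        have hnc' : ∃ s : G, f s ∉ Subgroup.center H := by
          by_contra hcon
          push Not at hcon
          apply hnc
          refine ⟨⟨fun a b => ?_⟩⟩
          obtain ⟨a', rfl⟩ := hf a
          exact Subgroup.mem_center_iff.mp (hcon a') b |>.symm
        obtain ⟨s, hs⟩ := hnc'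
        have hker2 : ∀ y : G, f y = 1 → y ∈ Subgroup.center G := by
          intro y hy
          rw [Subgroup.mem_center_iff]
          intro g
          by_cases hg : f g ∈ Subgroup.center H
          · have h1 : f (s * g) ∉ Subgroup.center H := by
              rw [map_mul]
              intro h2
              apply hs
              have := Subgroup.mul_mem _ h2 (Subgroup.inv_mem _ hg)
              simpa using this
            have h2 := hker y hy _ h1
            have h3 := hker y hy _ hs
            have h4 : s * (g * y) = s * (y * g) := by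
              calc s * (g * y) = (s * g) * y := by group
                _ = y * (s * g) := h2.symm
                _ = (y * s) * g := by group
                _ = (s * y) * g := by rw [h3]
                _ = s * (y * g) := by group
            exact mul_left_cancel h4
          · exact (hker y hy g hg).symm
        have hZb : Subgroup.center Qb = ⊥ := by
          rw [eq_bot_iff]
          intro z hz
          obtain ⟨y, rfl⟩ := QuotientGroup.mk'_surjective _ z
          rw [Subgroup.mem_bot]
          have h1 : f y = 1 := by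
            show (QuotientGroup.mk' (Subgroup.center Qb)) ((QuotientGroup.mk' (Subgroup.center G)) y) = 1
            exact (QuotientGroup.eq_one_iff _).mpr hz
          have h2 := hker2 y h1
          exact (QuotientGroup.eq_one_iff _).mpr h2
        refine ⟨p, q, hp, hq, hpq, ?_, ?_⟩
        · have h1 : (Subgroup.center Qb).index = p * q := hcard
          rw [hZb, Subgroup.index_bot] at h1
          exact h1
        · intro hcomm
          apply hnc
          refine ⟨⟨fun a b => ?_⟩⟩
          obtain ⟨a', rfl⟩ := QuotientGroup.mk'_surjective _ a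
          obtain ⟨b', rfl⟩ := QuotientGroup.mk'_surjective _ b
          rw [← map_mul, ← map_mul, hcomm.is_comm.comm a' b']

theorem result {G : Type*} [Group G] [Finite G]
    (h : ∀ x : G, (Subgroup.centralizer ({x} : Set G)).index = 1 ∨ ((Subgroup.centralizer ({x} : Set G)).index).Prime) :
    Subgroup.upperCentralSeries G 2 = ⊤ ∨
      ∃ p q : ℕ, p.Prime ∧ q.Prime ∧ p ≠ q ∧ Nat.card (G ⧸ Subgroup.center G) = p * q ∧ ¬ IsMulCommutative (G ⧸ Subgroup.center G) :=
  main _ G rfl h

end Cfsg.Agent.S4314
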