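import Cfsg.Statements.S4320

set_option autoImplicit false
set_option linter.unusedVariables false
set_option linter.style.haveILetI false
set_option linter.unusedSectionVars false
open Cfsg

namespace Cfsg.Agent.S4320

section Mag

variable (ι Q : Type*) [CommGroup Q]

/-- A Magnus-type semidirect product of the free module over the integral group ring with the group. -/
@[ext] structure Mag where
  v : ι → MonoidAlgebra ℤ Q
  q : Q

variable {ι Q}

noncomputable instance : Mul (Mag ι Q) :=
  ⟨fun x y => ⟨fun k => x.v k + MonoidAlgebra.single x.q (1 : ℤ) * y.v k, x.q * y.q⟩⟩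

noncomputable instance : One (Mag ι Q) := ⟨⟨0, 1⟩⟩

noncomputable instance : Inv (Mag ι Q) :=
  ⟨fun x => ⟨fun k => -(MonoidAlgebra.single x.q⁻¹ (1 : ℤ) * x.v k), x.q⁻¹⟩⟩

theorem Mag.mul_v (x y : Mag ι Q) (k : ι) :
    (x * y).v k = x.v k + MonoidAlgebra.single x.q (1 : ℤ) * y.v k := rfl
theorem Mag.mul_q (x y : Mag ι Q) : (x * y).q = x.q * y.q := rfl
theorem Mag.one_v (k : ι) : (1 : Mag ι Q).v k = 0 := rfl
theorem Mag.one_q : (1 : Mag ι Q).q = 1 := rfl
theorem Mag.inv_v (x : Mag ι Q) (k : ι) :
    (x⁻¹).v k = -(MonoidAlgebra.single x.q⁻¹ (1 : ℤ) * x.v k) := rfl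
theorem Mag.inv_q (x : Mag ι Q) : (x⁻¹).q = x.q⁻¹ := rfl

theorem single_one_eq : MonoidAlgebra.single (1 : Q) (1 : ℤ) = 1 := rfl

noncomputable instance : Group (Mag ι Q) where
  mul_assoc x y z := by
    apply Mag.ext
    · funext k
      simp only [Mag.mul_v, Mag.mul_q, mul_add, add_assoc, ← mul_assoc, MonoidAlgebra.single_mul_single, one_mul]
    · simp only [Mag.mul_q, mul_assoc]
  one_mul x := by
    apply Mag.ext
    · funext k
      simp only [Mag.mul_v, Mag.one_v, Mag.one_q, single_one_eq, one_mul, zero_add]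
    · simp only [Mag.mul_q, Mag.one_q, one_mul]
  mul_one x := by
    apply Mag.ext
    · funext k
      simp only [Mag.mul_v, Mag.one_v, mul_zero, add_zero]
    · simp only [Mag.mul_q, Mag.one_q, mul_one]
  inv_mul_cancel x := by
    apply Mag.ext
    · funext k
      simp only [Mag.mul_v, Mag.inv_v, Mag.inv_q, Mag.one_v, inv_inv]
      simp
    · simp only [Mag.mul_q, Mag.inv_q, Mag.one_q, inv_mul_cancel]

/-- additive extension of a function on the group -/
noncomputable def lam {B : Type*} [AddCommGroup B] (f : Q → B) : MonoidAlgebra ℤ Q →+ B :=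
  (Finsupp.liftAddHom (fun q => zmultiplesHom B (f q))).comp
    (MonoidAlgebra.coeffAddEquiv (R := ℤ) (M := Q)).toAddMonoidHom

theorem lam_single {B : Type*} [AddCommGroup B] (f : Q → B) (q : Q) (n : ℤ) :
    lam f (MonoidAlgebra.single q n) = n • f q := by
  simp [lam]

theorem lam_eq {B : Type*} [AddCommGroup B] [Fintype Q] (f : Q → B) (x : MonoidAlgebra ℤ Q) :
    lam f x = ∑ q, x.coeff q • f q := by
  simp only [lam, AddMonoidHom.coe_comp, Function.comp_apply]
  show (Finsupp.liftAddHom (fun q => zmultiplesHom B (f q))) x.coeff = _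
  rw [Finsupp.liftAddHom_apply, Finsupp.sum_fintype]
  · simp
  · intro i; simp

/-- The augmentation -/
noncomputable def aug : MonoidAlgebra ℤ Q →+* ℤ :=
  (MonoidAlgebra.lift ℤ ℤ Q (1 : Q →* ℤ)).toRingHom

theorem aug_single (q : Q) (n : ℤ) : aug (MonoidAlgebra.single q n) = n := by
  show MonoidAlgebra.lift ℤ ℤ Q (1 : Q →* ℤ) (MonoidAlgebra.single q n) = n
  rw [MonoidAlgebra.lift_single]
  simp

theorem aug_eq [Fintype Q] (x : MonoidAlgebra ℤ Q) : aug x = ∑ q, x.coeff q := by
  show MonoidAlgebra.lift ℤ ℤ Q (1 : Q →* ℤ) x = _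
  rw [MonoidAlgebra.lift_apply, Finsupp.sum_fintype]
  · simp
  · intro i; simp

end Mag

theorem det_mul_t {R : Type*} [CommRing R] {ι : Type*} [Fintype ι] [DecidableEq ι] (M : Matrix ι ι R)
    (t : ι → R) (h : ∀ i, ∑ k, M i k * t k = 0) (k : ι) : M.det * t k = 0 := by
  have h1 : M.mulVec t = 0 := by
    funext i
    simpa [Matrix.mulVec, dotProduct] using h i
  have h2 : (M.adjugate * M).mulVec t = 0 := by
    rw [← Matrix.mulVec_mulVec, h1, Matrix.mulVec_zero]
  rw [Matrix.adjugate_mul, Matrix.smul_mulVec, Matrix.one_mulVec] at h2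
  have := congrFun h2 k
  simpa using this

theorem cramer {R B : Type*} [CommRing R] [AddCommGroup B] {ι : Type*} [Fintype ι] [DecidableEq ι]
    (M : Matrix ι ι R) (Λ : (ι → R) →+ B) (h : ∀ (r : R) (i : ι), Λ (fun k => r * M i k) = 0) (i₀ : ι) :
    Λ (fun k => if i₀ = k then M.det else 0) = 0 := by
  have h1 : (fun k => if i₀ = k then M.det else 0) = ∑ i, (fun k => M.adjugate i₀ i * M i k) := by
    funext k
    have h2 : (M.adjugate * M) i₀ k = if i₀ = k then M.det else 0 := by
      rw [Matrix.adjugate_mul]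
      simp [Matrix.one_apply]
    rw [← h2, Matrix.mul_apply, Finset.sum_apply]
  rw [h1, map_sum]
  exact Finset.sum_eq_zero (fun i _ => h _ i)


section Main

variable {G Q ι B : Type*} [Group G] [CommGroup Q] [AddCommGroup B] [Fintype ι] [DecidableEq ι]
  (π : G →* Q) (L : Q → G → B) (g : ι → G)

/-- generators -/
noncomputable def gen (k : ι) : G × Mag ι Q := (g k, ⟨Pi.single k 1, π (g k)⟩)

/-- The subgroup generated by the generators. -/
noncomputable def H0 : Subgroup (G × Mag ι Q) := Subgroup.closure (Set.range (gen π g))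

/-- The chain map. -/
noncomputable def Lam : (ι → MonoidAlgebra ℤ Q) →+ B :=
  ∑ k, (lam (fun p => L p (g k))).comp (Pi.evalAddMonoidHom _ k)

theorem Lam_apply (ξ : ι → MonoidAlgebra ℤ Q) :
    Lam L g ξ = ∑ k, lam (fun p => L p (g k)) (ξ k) := by
  simp [Lam, AddMonoidHom.finset_sum_apply]

theorem Lam_single (i : ι) (x : MonoidAlgebra ℤ Q) :
    Lam L g (fun k => if i = k then x else 0) = lam (fun p => L p (g i)) x := by
  rw [Lam_apply, Finset.sum_eq_single i]
  · simp
  · intro b _ hb
    rw [if_neg (Ne.symm hb), map_zero]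
  · intro h; exact (h (Finset.mem_univ _)).elim

theorem single_mul_single_one (p q : Q) :
    MonoidAlgebra.single p (1 : ℤ) * MonoidAlgebra.single q (1 : ℤ) = MonoidAlgebra.single (p * q) 1 := by
  rw [MonoidAlgebra.single_mul_single, one_mul]

theorem path (hL : ∀ p a b, L p (a * b) = L p a + L (p * π a) b) {x : G × Mag ι Q} (hx : x ∈ H0 π g) :
    x.2.q = π x.1 ∧ (∀ p, Lam L g (fun k => MonoidAlgebra.single p (1 : ℤ) * x.2.v k) = L p x.1) ∧
      ∑ k, x.2.v k * (MonoidAlgebra.single (π (g k)) (1 : ℤ) - 1) = MonoidAlgebra.single x.2.q (1 : ℤ) - 1 := by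
  have hL1 : ∀ p, L p 1 = 0 := by
    intro p
    have := hL p 1 1
    simpa using this
  induction hx using Subgroup.closure_induction with
  | mem x hx =>
    obtain ⟨k, rfl⟩ := hx
    refine ⟨rfl, ?_, ?_⟩
    · intro p
      have e : (fun j => MonoidAlgebra.single p (1 : ℤ) * (gen π g k).2.v j) =
          (fun j => if k = j then MonoidAlgebra.single p (1 : ℤ) else 0) := by
        funext j
        show MonoidAlgebra.single p (1 : ℤ) * (Pi.single k 1 : ι → MonoidAlgebra ℤ Q) j = _
        by_cases hj : k = j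
        · subst hj; simp
        · simp [hj, Pi.single_apply, Ne.symm hj]
      rw [e, Lam_single, lam_single, one_smul]
      rfl
    · show ∑ j, (Pi.single k 1 : ι → MonoidAlgebra ℤ Q) j * (MonoidAlgebra.single (π (g j)) (1 : ℤ) - 1) = _
      rw [Finset.sum_eq_single k]
      · simp [gen]
      · intro b _ hb
        simp [Pi.single_apply, hb]
      · intro h; exact (h (Finset.mem_univ _)).elim
  | one =>
    refine ⟨by simp [Mag.one_q], ?_, ?_⟩
    · intro p
      have e : (fun k => MonoidAlgebra.single p (1 : ℤ) * (1 : G × Mag ι Q).2.v k) = 0 := by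
        funext k
        show _ * (0 : MonoidAlgebra ℤ Q) = 0
        simp
      rw [e, map_zero]
      exact (hL1 p).symm
    · show ∑ k, (0 : MonoidAlgebra ℤ Q) * _ = MonoidAlgebra.single (1 : Q) (1 : ℤ) - 1
      simp [single_one_eq]
  | mul x y hx hy ihx ihy =>
    obtain ⟨q1, p1, f1⟩ := ihx
    obtain ⟨q2, p2, f2⟩ := ihy
    refine ⟨?_, ?_, ?_⟩
    · show x.2.q * y.2.q = π (x.1 * y.1)
      rw [q1, q2, map_mul]
    · intro p
      have e : (fun k => MonoidAlgebra.single p (1 : ℤ) * (x * y).2.v k) =
          (fun k => MonoidAlgebra.single p (1 : ℤ) * x.2.v k) +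
            (fun k => MonoidAlgebra.single (p * x.2.q) (1 : ℤ) * y.2.v k) := by
        funext k
        show MonoidAlgebra.single p (1 : ℤ) * (x.2.v k + MonoidAlgebra.single x.2.q (1 : ℤ) * y.2.v k) = _ + _
        rw [mul_add, ← mul_assoc, single_mul_single_one]
      rw [e, map_add, p1, p2, q1]
      show _ = L p (x.1 * y.1)
      rw [hL]
    · have e : ∀ k, (x * y).2.v k * (MonoidAlgebra.single (π (g k)) (1 : ℤ) - 1) =
          x.2.v k * (MonoidAlgebra.single (π (g k)) (1 : ℤ) - 1) +
            MonoidAlgebra.single x.2.q (1 : ℤ) * (y.2.v k * (MonoidAlgebra.single (π (g k)) (1 : ℤ) - 1)) := by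
        intro k
        show (x.2.v k + MonoidAlgebra.single x.2.q (1 : ℤ) * y.2.v k) * _ = _
        rw [add_mul, mul_assoc]
      simp only [e]
      rw [Finset.sum_add_distrib, ← Finset.mul_sum, f1, f2, mul_sub, single_mul_single_one]
      show _ = MonoidAlgebra.single (x.2.q * y.2.q) (1 : ℤ) - 1
      ring
  | inv x hx ih =>
    obtain ⟨q1, p1, f1⟩ := ih
    refine ⟨?_, ?_, ?_⟩
    · show x.2.q⁻¹ = π (x.1⁻¹)
      rw [q1, map_inv]
    · intro p
      have e : (fun k => MonoidAlgebra.single p (1 : ℤ) * (x⁻¹).2.v k) =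
          -(fun k => MonoidAlgebra.single (p * x.2.q⁻¹) (1 : ℤ) * x.2.v k) := by
        funext k
        show MonoidAlgebra.single p (1 : ℤ) * (-(MonoidAlgebra.single x.2.q⁻¹ (1 : ℤ) * x.2.v k)) = _
        rw [mul_neg, ← mul_assoc, single_mul_single_one]
        rfl
      rw [e, map_neg, p1]
      have h3 := hL (p * x.2.q⁻¹) x.1 x.1⁻¹
      rw [mul_inv_cancel, hL1, q1, inv_mul_cancel_right] at h3
      rw [q1]
      show _ = L p (x.1⁻¹)
      rw [eq_comm]
      exact eq_neg_of_add_eq_zero_right h3.symm
    · have e : ∀ k, (x⁻¹).2.v k * (MonoidAlgebra.single (π (g k)) (1 : ℤ) - 1) =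
          -(MonoidAlgebra.single x.2.q⁻¹ (1 : ℤ) * (x.2.v k * (MonoidAlgebra.single (π (g k)) (1 : ℤ) - 1))) := by
        intro k
        show (-(MonoidAlgebra.single x.2.q⁻¹ (1 : ℤ) * x.2.v k)) * _ = _
        rw [neg_mul, mul_assoc]
      simp only [e]
      rw [Finset.sum_neg_distrib, ← Finset.mul_sum, f1, mul_sub, single_mul_single_one, inv_mul_cancel, single_one_eq]
      show _ = MonoidAlgebra.single x.2.q⁻¹ (1 : ℤ) - 1
      ring

/-- The augmentation as a homomorphism. -/
noncomputable def augHom (k : ι) : G × Mag ι Q →* Multiplicative ℤ where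
  toFun x := Multiplicative.ofAdd (aug (x.2.v k))
  map_one' := by
    show Multiplicative.ofAdd (aug (0 : MonoidAlgebra ℤ Q)) = 1
    simp
  map_mul' x y := by
    show Multiplicative.ofAdd (aug (x.2.v k + MonoidAlgebra.single x.2.q (1 : ℤ) * y.2.v k)) = _
    rw [map_add, map_mul, aug_single, one_mul, ofAdd_add]

theorem exists_row (hL : ∀ p a b, L p (a * b) = L p a + L (p * π a) b)
    (hgen : Subgroup.closure (Set.range g) = ⊤) (hker : ∀ y, π y = 1 → y ∈ commutator G) (i : ι) :
    ∃ τ : ι → MonoidAlgebra ℤ Q, (∀ p, Lam L g (fun k => MonoidAlgebra.single p (1 : ℤ) * τ k) = 0) ∧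
      (∑ k, τ k * (MonoidAlgebra.single (π (g k)) (1 : ℤ) - 1) = 0) ∧
      ∀ k, aug (τ k) = if i = k then (orderOf (π (g i)) : ℤ) else 0 := by
  classical
  have hmap : (H0 π g).map (MonoidHom.fst G (Mag ι Q)) = ⊤ := by
    rw [H0, MonoidHom.map_closure, ← hgen]
    congr 1
    ext a
    constructor
    · rintro ⟨_, ⟨k, rfl⟩, rfl⟩
      exact ⟨k, rfl⟩
    · rintro ⟨k, rfl⟩
      exact ⟨_, ⟨k, rfl⟩, rfl⟩
  have hcomm : (⁅H0 π g, H0 π g⁆).map (MonoidHom.fst G (Mag ι Q)) = commutator G := by
    rw [Subgroup.map_commutator, hmap, commutator_def]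
  set d := orderOf (π (g i)) with hd
  let y : G × Mag ι Q := (gen π g i) ^ d
  have hyH : y ∈ H0 π g := Subgroup.pow_mem _ (Subgroup.subset_closure (Set.mem_range_self i)) d
  have hy1 : y.1 = (g i) ^ d := by
    show ((gen π g i) ^ d).1 = _
    rw [Prod.pow_fst]; rfl
  have hy2 : π y.1 = 1 := by
    rw [hy1, map_pow, hd, pow_orderOf_eq_one]
  have hymem : y.1 ∈ commutator G := hker _ hy2
  rw [← hcomm] at hymem
  obtain ⟨w, hw, hwy⟩ := hymem
  have hwH : w ∈ H0 π g := by
    have : ⁅H0 π g, H0 π g⁆ ≤ H0 π g := Subgroup.commutator_le.2 (fun a ha b hb => by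
      rw [commutatorElement_def]
      exact Subgroup.mul_mem _ (Subgroup.mul_mem _ (Subgroup.mul_mem _ ha hb) (Subgroup.inv_mem _ ha)) (Subgroup.inv_mem _ hb))
    exact this hw
  have hwaug : ∀ k, augHom k w = 1 := by
    intro k
    have : ⁅H0 π g, H0 π g⁆ ≤ (augHom (G := G) (Q := Q) k).ker := Subgroup.commutator_le.2 (fun a _ b _ => by
      rw [MonoidHom.mem_ker, map_commutatorElement, commutatorElement_eq_one_iff_mul_comm]
      exact mul_comm _ _)
    exact this hw
  let z : G × Mag ι Q := y * w⁻¹
  have hzH : z ∈ H0 π g := Subgroup.mul_mem _ hyH (Subgroup.inv_mem _ hwH)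
  have hz1 : z.1 = 1 := by
    show y.1 * (w.1)⁻¹ = 1
    have : w.1 = y.1 := hwy
    rw [this, mul_inv_cancel]
  obtain ⟨q1, p1, f1⟩ := path π L g hL hzH
  rw [hz1, map_one] at q1
  refine ⟨z.2.v, ?_, ?_, ?_⟩
  · intro p
    rw [p1, hz1]
    have := hL p 1 1
    simpa using this
  · rw [f1, q1, single_one_eq, sub_self]
  · intro k
    have h1 : augHom k z = augHom k y * (augHom k w)⁻¹ := by
      rw [map_mul, map_inv]
    have h2 : augHom k y = (augHom k (gen π g i)) ^ d := map_pow _ _ _
    have h3 : augHom k (gen π g i) = Multiplicative.ofAdd (if i = k then (1 : ℤ) else 0) := by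
      show Multiplicative.ofAdd (aug ((Pi.single i 1 : ι → MonoidAlgebra ℤ Q) k)) = _
      congr 1
      by_cases hk : i = k
      · subst hk; simp
      · simp [hk, Pi.single_apply, Ne.symm hk]
    rw [hwaug, inv_one, mul_one, h2, h3] at h1
    have h4 : Multiplicative.toAdd (augHom k z) = aug (z.2.v k) := rfl
    rw [← h4, h1, toAdd_pow, toAdd_ofAdd]
    by_cases hk : i = k
    · simp [hk]
    · simp [hk]

theorem main_sum [Fintype Q] (hL : ∀ p a b, L p (a * b) = L p a + L (p * π a) b)
    (hgen : Subgroup.closure (Set.range g) = ⊤) (hker : ∀ y, π y = 1 → y ∈ commutator G)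
    (hsurj : Function.Surjective π)
    (hcard : ∏ k, (orderOf (π (g k)) : ℤ) = Fintype.card Q) (i₀ : ι) :
    ∑ p, L p (g i₀) = 0 := by
  classical
  choose τ h1 h2 h3 using exists_row π L g hL hgen hker
  let M : Matrix ι ι (MonoidAlgebra ℤ Q) := Matrix.of τ
  have hr : ∀ (r : MonoidAlgebra ℤ Q) (i : ι), Lam L g (fun k => r * M i k) = 0 := by
    intro r i
    induction r using MonoidAlgebra.induction_linear with
    | zero =>
      have : (fun k => (0 : MonoidAlgebra ℤ Q) * M i k) = 0 := by funext k; simp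
      rw [this, map_zero]
    | add x y hx hy =>
      have : (fun k => (x + y) * M i k) = (fun k => x * M i k) + (fun k => y * M i k) := by
        funext k; simp [add_mul]
      rw [this, map_add, hx, hy, add_zero]
    | single q n =>
      have : (fun k => MonoidAlgebra.single q n * M i k) =
          n • (fun k => MonoidAlgebra.single q (1 : ℤ) * M i k) := by
        funext k
        show MonoidAlgebra.single q n * M i k = n • (MonoidAlgebra.single q (1 : ℤ) * M i k)
        have e : MonoidAlgebra.single q n = n • MonoidAlgebra.single q (1 : ℤ) := by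
          rw [MonoidAlgebra.smul_single]; simp
        rw [e, smul_mul_assoc]
      have h5 : Lam L g (fun k => MonoidAlgebra.single q (1 : ℤ) * M i k) = 0 := h1 i q
      rw [this, map_zsmul, h5, smul_zero]
  have hc := cramer M (Lam L g) hr i₀
  rw [Lam_single] at hc
  have ht : ∀ k, M.det * MonoidAlgebra.single (π (g k)) (1 : ℤ) = M.det := by
    intro k
    have := det_mul_t M (fun k => MonoidAlgebra.single (π (g k)) (1 : ℤ) - 1) (fun i => h2 i) k
    rw [mul_sub, mul_one, sub_eq_zero] at this
    exact this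
  have hinv : ∀ a : G, M.det * MonoidAlgebra.single (π a) (1 : ℤ) = M.det := by
    intro a
    have ha : a ∈ Subgroup.closure (Set.range g) := by rw [hgen]; exact Subgroup.mem_top a
    induction ha using Subgroup.closure_induction with
    | mem x hx =>
      obtain ⟨k, rfl⟩ := hx
      exact ht k
    | one => rw [map_one, single_one_eq, mul_one]
    | mul x y _ _ ihx ihy =>
      rw [map_mul, ← single_mul_single_one, ← mul_assoc, ihx, ihy]
    | inv x _ ih =>
      have e := congrArg (· * MonoidAlgebra.single (π x)⁻¹ (1 : ℤ)) ih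
      simp only [mul_assoc, single_mul_single_one, mul_inv_cancel, single_one_eq, mul_one] at e
      rw [map_inv]
      exact e.symm
  have hconst : ∀ q, M.det.coeff q = M.det.coeff 1 := by
    intro q
    obtain ⟨a, rfl⟩ := hsurj q
    have := MonoidAlgebra.coeff_mul_single_mul M.det (1 : ℤ) (π a) 1
    rw [hinv, one_mul, mul_one] at this
    exact this
  have haug : aug M.det = Fintype.card Q := by
    rw [RingHom.map_det]
    have : (aug (Q := Q)).mapMatrix M = Matrix.diagonal (fun i => (orderOf (π (g i)) : ℤ)) := by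
      ext i k
      rw [RingHom.mapMatrix_apply, Matrix.map_apply, Matrix.diagonal_apply]
      show aug (τ i k) = _
      rw [h3]
    rw [this, Matrix.det_diagonal, hcard]
  rw [aug_eq] at haug
  simp only [hconst] at haug
  rw [Finset.sum_const, Finset.card_univ, nsmul_eq_mul] at haug
  have hc1 : M.det.coeff 1 = 1 := by
    have hpos : (Fintype.card Q : ℤ) ≠ 0 := by
      have : 0 < Fintype.card Q := Fintype.card_pos
      omega
    exact mul_left_cancel₀ hpos (by rw [haug, mul_one])
  rw [lam_eq] at hc
  simp only [hconst, hc1, one_smul] at hc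
  exact hc

end Main


section Final

universe u

variable {G : Type u} [Group G] [Finite G]

theorem exists_gens : ∃ (ι : Type u) (_ : Fintype ι) (g : ι → G), Subgroup.closure (Set.range g) = ⊤ ∧
    ∏ k, (orderOf (Abelianization.of (g k)) : ℤ) = Nat.card (Abelianization G) := by
  classical
  obtain ⟨ι₁, _, n, hn, ⟨e⟩⟩ := CommGroup.equiv_prod_multiplicative_zmod_of_finite (Abelianization G)
  haveI : ∀ i, NeZero (n i) := fun i => ⟨by have := hn i; omega⟩
  let b : ι₁ → Abelianization G := fun i => e.symm (Pi.mulSingle i (Multiplicative.ofAdd 1))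
  have hb : ∀ i, orderOf (b i) = n i := by
    intro i
    show orderOf (e.symm _) = _
    rw [MulEquiv.orderOf_eq, orderOf_piMulSingle, orderOf_ofAdd_eq_addOrderOf, ZMod.addOrderOf_one]
  have hsurj : Function.Surjective (Abelianization.of : G →* Abelianization G) :=
    QuotientGroup.mk_surjective
  choose l hl using fun i => hsurj (b i)
  haveI : Fintype (commutator G) := Fintype.ofFinite _
  let g : ι₁ ⊕ ↥(commutator G) → G := Sum.elim l (fun u => u)
  refine ⟨_, inferInstance, g, ?_, ?_⟩
  · set K := Subgroup.closure (Set.range g) with hK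
    have hcomm : commutator G ≤ K := fun u hu =>
      Subgroup.subset_closure ⟨Sum.inr ⟨u, hu⟩, rfl⟩
    have hl' : ∀ i, l i ∈ K := fun i => Subgroup.subset_closure ⟨Sum.inl i, rfl⟩
    have hall : ∀ q : Abelianization G, ∃ y ∈ K, Abelianization.of y = q := by
      intro q
      let S : Subgroup (Abelianization G) := K.map Abelianization.of
      have hbS : ∀ i, b i ∈ S := fun i => ⟨l i, hl' i, hl i⟩
      have hq : q ∈ S := by
        have e1 : e q = ∏ i, Pi.mulSingle i (e q i) := (Finset.univ_prod_mulSingle (e q)).symm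
        have e2 : q = e.symm (∏ i, Pi.mulSingle i (e q i)) := by
          rw [← e1, e.symm_apply_apply]
        rw [e2, map_prod]
        refine Subgroup.prod_mem _ (fun i _ => ?_)
        have e3 : (e q i) = (Multiplicative.ofAdd (1 : ZMod (n i))) ^ (Multiplicative.toAdd (e q i)).val := by
          apply Multiplicative.toAdd.injective
          rw [toAdd_pow, toAdd_ofAdd]
          simp
        rw [e3, ← MonoidHom.mulSingle_apply, map_pow, map_pow]
        exact Subgroup.pow_mem _ (hbS i) _
      obtain ⟨y, hy, hyq⟩ := hq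
      exact ⟨y, hy, hyq⟩
    rw [eq_top_iff]
    intro x _
    obtain ⟨y, hy, hyq⟩ := hall (Abelianization.of x)
    have h1 : y⁻¹ * x ∈ commutator G := by
      rw [← Abelianization.ker_of, MonoidHom.mem_ker, map_mul, map_inv, hyq, inv_mul_cancel]
    have := K.mul_mem hy (hcomm h1)
    rwa [mul_inv_cancel_left] at this
  · rw [Fintype.prod_sum_type]
    have h1 : ∀ u : ↥(commutator G), ((orderOf (Abelianization.of (g (Sum.inr u))) : ℕ) : ℤ) = 1 := by
      intro u
      have : Abelianization.of (g (Sum.inr u)) = 1 := by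
        show Abelianization.of (u : G) = 1
        have hu : (u : G) ∈ (Abelianization.of (G := G)).ker := by
          rw [Abelianization.ker_of]; exact u.2
        exact hu
      rw [this, orderOf_one]; rfl
    have h2 : ∀ i : ι₁, ((orderOf (Abelianization.of (g (Sum.inl i))) : ℕ) : ℤ) = n i := by
      intro i
      have : Abelianization.of (g (Sum.inl i)) = b i := hl i
      rw [this, hb]
    simp only [h1, h2, Finset.prod_const_one, mul_one]
    have h3 : Nat.card (Abelianization G) = ∏ i, n i := by
      rw [Nat.card_congr e.toEquiv, Nat.card_pi]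
      refine Finset.prod_congr rfl (fun i _ => ?_)
      show Nat.card (ZMod (n i)) = _
      rw [Nat.card_eq_fintype_card, ZMod.card]
    rw [h3]
    push_cast
    rfl

variable {A : Type*} [CommGroup A] (ϕ : ↥(commutator G) →* A)

/-- The representative from a transversal. -/
noncomputable def rep (T : (commutator G).LeftTransversal) (p : Abelianization G) : G :=
  ((T.2.leftQuotientEquiv (p⁻¹ : Abelianization G) : T.1) : G)⁻¹

theorem of_rep (T : (commutator G).LeftTransversal) (p : Abelianization G) :
    Abelianization.of (rep T p) = p := by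
  rw [rep, map_inv]
  have := Subgroup.IsComplement.quotientGroupMk_leftQuotientEquiv T.2 (p⁻¹ : Abelianization G)
  have h2 : Abelianization.of ((T.2.leftQuotientEquiv (p⁻¹ : Abelianization G) : T.1) : G) = p⁻¹ := this
  rw [h2, inv_inv]

theorem mem_rep (T : (commutator G).LeftTransversal) (p : Abelianization G) (a : G) :
    rep T p * a * (rep T (p * Abelianization.of a))⁻¹ ∈ commutator G := by
  rw [← Abelianization.ker_of, MonoidHom.mem_ker, map_mul, map_mul, map_inv, of_rep, of_rep]
  group

/-- The labels. -/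
noncomputable def labelL (T : (commutator G).LeftTransversal) (p : Abelianization G) (a : G) : Additive A :=
  Additive.ofMul (ϕ ⟨rep T p * a * (rep T (p * Abelianization.of a))⁻¹, mem_rep T p a⟩)

theorem labelL_mul (T : (commutator G).LeftTransversal) (p : Abelianization G) (a b : G) :
    labelL ϕ T p (a * b) = labelL ϕ T p a + labelL ϕ T (p * Abelianization.of a) b := by
  rw [labelL, labelL, labelL, ← ofMul_mul, ← map_mul]
  congr 2
  apply Subtype.ext
  show rep T p * (a * b) * (rep T (p * Abelianization.of (a * b)))⁻¹ =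
    rep T p * a * (rep T (p * Abelianization.of a))⁻¹ *
      (rep T (p * Abelianization.of a) * b * (rep T (p * Abelianization.of a * Abelianization.of b))⁻¹)
  rw [map_mul, mul_assoc p]
  group


theorem smul_eq_of (a : G) (q : Abelianization G) :
    a • (show G ⧸ commutator G from q) = (show G ⧸ commutator G from (Abelianization.of a * q : Abelianization G)) :=
  QuotientGroup.induction_on q (fun x => rfl)

theorem transfer_eq [Fintype (Abelianization G)] (T : (commutator G).LeftTransversal) (a : G) :
    MonoidHom.transfer ϕ a = Additive.toMul (∑ p : Abelianization G, labelL ϕ T p a) := by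
  classical
  rw [MonoidHom.transfer_def ϕ T a, toMul_sum]
  letI : Fintype (G ⧸ commutator G) := (commutator G).fintypeQuotientOfFiniteIndex
  simp only [Subgroup.leftTransversals.diff]
  refine Fintype.prod_equiv (show (G ⧸ commutator G) ≃ Abelianization G from Equiv.inv (Abelianization G)) _ _ (fun q => ?_)
  show _ = ϕ _
  apply congrArg ϕ
  apply Subtype.ext
  let q' : Abelianization G := q
  show ((T.2.leftQuotientEquiv q : T.1) : G)⁻¹ * (((a • T).2.leftQuotientEquiv q : (a • T).1) : G) =
    rep T (q'⁻¹) * a * (rep T (q'⁻¹ * Abelianization.of a))⁻¹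
  rw [Subgroup.smul_apply_eq_smul_apply_inv_smul]
  have e1 : a⁻¹ • q = (show G ⧸ commutator G from (q'⁻¹ * Abelianization.of a)⁻¹) := by
    have h1 := smul_eq_of a⁻¹ q'
    refine h1.trans ?_
    show (Abelianization.of a⁻¹ * q' : Abelianization G) = (q'⁻¹ * Abelianization.of a)⁻¹
    rw [map_inv, mul_inv_rev, inv_inv]
  rw [e1, rep, rep, inv_inv, inv_inv, smul_eq_mul, mul_assoc]
  rfl

end Final

theorem result {G : Type*} [Group G] [Finite G] :
    MonoidHom.transfer (Abelianization.of : ↥(commutator G) →* Abelianization ↥(commutator G)) =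
      (1 : G →* Abelianization ↥(commutator G)) := by
  classical
  obtain ⟨ι, _, g, hgen, hcard⟩ := exists_gens (G := G)
  haveI : Finite (Abelianization G) := inferInstanceAs (Finite (G ⧸ commutator G))
  letI : Fintype (Abelianization G) := Fintype.ofFinite _
  let T : (commutator G).LeftTransversal := default
  let ϕ : ↥(commutator G) →* Abelianization ↥(commutator G) := Abelianization.of
  have hsum : ∀ i₀ : ι, ∑ p, labelL ϕ T p (g i₀) = 0 := by
    intro i₀
    refine main_sum (Abelianization.of) (labelL ϕ T) g (labelL_mul ϕ T) hgen ?_ QuotientGroup.mk_surjective ?_ i₀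
    · intro y hy
      rw [← Abelianization.ker_of, MonoidHom.mem_ker]
      exact hy
    · rw [hcard, Nat.card_eq_fintype_card]
  apply MonoidHom.eq_of_eqOn_dense hgen
  rintro _ ⟨i, rfl⟩
  rw [transfer_eq ϕ T, hsum]
  rfl

end Cfsg.Agent.S4320
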