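import Cfsg.Statements.S4421

set_option autoImplicit false
open Cfsg

namespace Cfsg.Agent.S4421

variable {G : Type*} [Group G]

theorem mem_normalizer_of_map_eq (A : Subgroup G) (x : G) (h : A.map (MulAut.conj x).toMonoidHom = A) :
    x ∈ Subgroup.normalizer (A : Set G) := by
  rw [Subgroup.mem_normalizer_iff]
  intro y
  constructor
  · intro hy
    rw [← h]
    exact ⟨y, hy, rfl⟩
  · intro hy
    rw [← SetLike.mem_coe, ← h] at hy
    obtain ⟨z, hz, hzy⟩ := hy
    have : z = y := by simpa using hzy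
    exact this ▸ hz

theorem map_eq_of_mem_normalizer (A : Subgroup G) (x : G) (h : x ∈ Subgroup.normalizer (A : Set G)) :
    A.map (MulAut.conj x).toMonoidHom = A := by
  rw [Subgroup.mem_normalizer_iff] at h
  ext y
  constructor
  · rintro ⟨z, hz, rfl⟩
    exact (h z).mp hz
  · intro hy
    refine ⟨x⁻¹ * y * x, ?_, by simp [MulAut.conj_apply, mul_assoc]⟩
    rw [SetLike.mem_coe, h]
    simpa [mul_assoc] using hy

theorem map_conj_mul (A : Subgroup G) (a b : G) :
    A.map (MulAut.conj (a * b)).toMonoidHom =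
      (A.map (MulAut.conj b).toMonoidHom).map (MulAut.conj a).toMonoidHom := by
  rw [Subgroup.map_map]
  congr 1
  ext y
  simp [MulAut.conj_apply, mul_assoc]

/-- A factorization of a normalizer from two-step control of fusion. Let `G` be a finite group and `A ≤ S ≤ H` subgroups of `G` such that: (i) `S` controls the `G`-fusion of `A` in the sense that every `G`-conjugate of `A` lying in `S` is an `S`-conjugate of `A`; (ii) `H` controls the `G`-fusion of `S` in the same sense; (iii) every conjugate of `S` by an element of the normalizer of `A` lies in `H`. Then `N_G(A) = N_H(A) · (N_G(S) ∩ N_G(A))`: every element of the normalizer of `A` is a product of an element of `H` normalizing `A` and an element normalizing both `S` and `A`. -/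
theorem result {G : Type*} [Group G] [Finite G] (A S H : Subgroup G)
    (hAS : A ≤ S) (hSH : S ≤ H)
    (h1 : ∀ g : G, A.map (MulAut.conj g).toMonoidHom ≤ S → ∃ s ∈ S, A.map (MulAut.conj g).toMonoidHom = A.map (MulAut.conj s).toMonoidHom)
    (h2 : ∀ g : G, S.map (MulAut.conj g).toMonoidHom ≤ H → ∃ y ∈ H, S.map (MulAut.conj g).toMonoidHom = S.map (MulAut.conj y).toMonoidHom)
    (h3 : ∀ x ∈ Subgroup.normalizer (A : Set G), S.map (MulAut.conj x).toMonoidHom ≤ H) :
    ∀ x ∈ Subgroup.normalizer (A : Set G), ∃ y ∈ H ⊓ Subgroup.normalizer (A : Set G),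
      ∃ z ∈ Subgroup.normalizer (S : Set G) ⊓ Subgroup.normalizer (A : Set G), x = y * z := by
  intro x hx
  obtain ⟨y, hyH, hy⟩ := h2 x (h3 x hx)
  -- z₀ = y⁻¹ x normalizes S
  have hz₀S : y⁻¹ * x ∈ Subgroup.normalizer (S : Set G) := by
    apply mem_normalizer_of_map_eq
    rw [map_conj_mul, hy, ← map_conj_mul]
    simp only [inv_mul_cancel, map_one]
    ext w
    simp
  have hmapS := map_eq_of_mem_normalizer S _ hz₀S
  have hz₀A : A.map (MulAut.conj (y⁻¹ * x)).toMonoidHom ≤ S := by
    rw [← hmapS]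
    exact Subgroup.map_mono hAS
  obtain ⟨s, hs, hsA⟩ := h1 _ hz₀A
  have hys : y * s ∈ Subgroup.normalizer (A : Set G) := by
    apply mem_normalizer_of_map_eq
    rw [map_conj_mul, ← hsA, ← map_conj_mul]
    simp only [mul_inv_cancel_left]
    exact map_eq_of_mem_normalizer A x hx
  refine ⟨y * s, ⟨H.mul_mem hyH (hSH hs), hys⟩, s⁻¹ * (y⁻¹ * x), ⟨?_, ?_⟩, by group⟩
  · refine Subgroup.mul_mem _ ?_ hz₀S
    refine Subgroup.inv_mem _ ?_
    exact Subgroup.le_normalizer hs
  · have : s⁻¹ * (y⁻¹ * x) = (y * s)⁻¹ * x := by group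
    rw [this]
    exact Subgroup.mul_mem _ (Subgroup.inv_mem _ hys) hx

end Cfsg.Agent.S4421
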