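import Cfsg.Statements.S4422

set_option autoImplicit false
open Cfsg

namespace Cfsg.Agent.S4422

theorem prime_case (q e r : ℕ) (hq : 2 ≤ q) (he : 1 ≤ e) (hr : r.Prime)
    (hm : r ∣ q ^ e - 1) (hcop : ∀ i : ℕ, 1 ≤ i → i < e → ¬ r ∣ q ^ i - 1) : r % e = 1 % e := by
  have := Fact.mk hr
  have h1 : 1 ≤ q ^ e := Nat.one_le_pow _ _ (by omega)
  have hone : ∀ i, r ∣ q ^ i - 1 → (q : ZMod r) ^ i = 1 := by
    intro i hi
    have h1 : 1 ≤ q ^ i := Nat.one_le_pow _ _ (by omega)
    have h2 : ((q ^ i - 1 : ℕ) : ZMod r) = 0 := (ZMod.natCast_eq_zero_iff _ _).mpr hi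
    rw [Nat.cast_sub h1] at h2
    push_cast at h2
    exact sub_eq_zero.mp h2
  have hqe := hone e hm
  have hq0 : (q : ZMod r) ≠ 0 := by
    intro h0
    rw [h0, zero_pow (by omega)] at hqe
    exact zero_ne_one hqe
  set d := orderOf (q : ZMod r) with hd
  have hde : d ∣ e := orderOf_dvd_of_pow_eq_one hqe
  have hdpos : 0 < d := Nat.pos_of_dvd_of_pos hde (by omega)
  have hdeq : d = e := by
    by_contra hne
    have hlt : d < e := lt_of_le_of_ne (Nat.le_of_dvd (by omega) hde) hne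
    apply hcop d hdpos hlt
    have h1 : 1 ≤ q ^ d := Nat.one_le_pow _ _ (by omega)
    rw [← ZMod.natCast_eq_zero_iff, Nat.cast_sub h1]
    push_cast
    rw [hd, pow_orderOf_eq_one, sub_self]
  have hdvd : d ∣ r - 1 := orderOf_dvd_of_pow_eq_one (ZMod.pow_card_sub_one_eq_one hq0)
  rw [hdeq] at hdvd
  have hr1 : 1 ≤ r := hr.one_lt.le
  have : r ≡ 1 [MOD e] := ((Nat.modEq_iff_dvd' hr1).mpr hdvd).symm
  exact this

/-- Primitive divisors of `q^e - 1` are congruent to 1 modulo `e`. Let `q ≥ 2` and `e ≥ 1` be natural numbers and let `m` be a divisor of `q^e - 1` that is coprime to `q^i - 1` for every `1 ≤ i < e` (so `m` divides the primitive part of `q^e - 1`, the largest such divisor). Then `m ≡ 1 (mod e)`. -/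
theorem result (q e m : ℕ) (hq : 2 ≤ q) (he : 1 ≤ e)
    (hm : m ∣ q ^ e - 1) (hcop : ∀ i : ℕ, 1 ≤ i → i < e → Nat.Coprime m (q ^ i - 1)) :
    m % e = 1 % e := by
  have hpos : 0 < q ^ e - 1 := by
    have : 2 ^ 1 ≤ q ^ e := (Nat.pow_le_pow_left hq 1).trans (Nat.pow_le_pow_right (by omega) he)
    omega
  have hm0 : m ≠ 0 := fun h => by
    rw [h] at hm
    exact (Nat.pos_iff_ne_zero.mp hpos) (zero_dvd_iff.mp hm)
  induction m using Nat.recOnMul with
  | zero => exact absurd rfl hm0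
  | one => rfl
  | prime r hr =>
    have hr' : r.Prime := hr
    refine prime_case q e r hq he hr' hm (fun i hi hie hdvd => ?_)
    have := hcop i hi hie
    have h2 := Nat.Coprime.eq_one_of_dvd this hdvd
    exact hr'.one_lt.ne' h2
  | mul a b ha hb =>
    have h1 := ha (dvd_trans (Dvd.intro _ rfl) hm)
      (fun i hi hie => Nat.Coprime.coprime_dvd_left (Dvd.intro _ rfl) (hcop i hi hie))
      (fun h => hm0 (by rw [h, zero_mul]))
    have h2 := hb (dvd_trans (Dvd.intro_left _ rfl) hm)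
      (fun i hi hie => Nat.Coprime.coprime_dvd_left (Dvd.intro_left _ rfl) (hcop i hi hie))
      (fun h => hm0 (by rw [h, mul_zero]))
    have h1' : a ≡ 1 [MOD e] := h1
    have h2' : b ≡ 1 [MOD e] := h2
    have := h1'.mul h2'
    simpa [Nat.ModEq] using this

end Cfsg.Agent.S4422
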