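import Cfsg.Statements.S4423
import Cfsg.Agent.Lib.H13.Zsigmondy
import Mathlib

set_option autoImplicit false
set_option linter.unusedVariables false
set_option linter.style.haveILetI false
open Cfsg

namespace Cfsg.Agent.S4423

open Cfsg.Agent.H13.Zsig

/-! ### The computable primitive part -/

def rem1 (k : ℕ) : ℕ → ℕ → ℕ
  | 0, n => n
  | f + 1, n => rem1 k f (n / Nat.gcd n k)

theorem dvd_div_gcd {m n k : ℕ} (h : m ∣ n) (hc : Nat.Coprime m k) : m ∣ n / Nat.gcd n k := by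
  rcases Nat.eq_zero_or_pos n with rfl | hn
  · simp
  have h1 : Nat.gcd n k * (n / Nat.gcd n k) = n := Nat.mul_div_cancel' (Nat.gcd_dvd_left n k)
  have h2 : Nat.Coprime m (Nat.gcd n k) := Nat.Coprime.coprime_dvd_right (Nat.gcd_dvd_right n k) hc
  apply h2.dvd_of_dvd_mul_left
  rw [h1]; exact h

theorem dvd_rem1 {m k : ℕ} (f : ℕ) {n : ℕ} (h : m ∣ n) (hc : Nat.Coprime m k) : m ∣ rem1 k f n := by
  induction f generalizing n with
  | zero => exact h
  | succ f ih => exact ih (dvd_div_gcd h hc)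

def prim (q e : ℕ) : ℕ :=
  (List.range' 1 (e - 1)).foldl (fun n i => rem1 (q ^ i - 1) 8 n) (q ^ e - 1)

theorem dvd_foldl {m q : ℕ} (l : List ℕ) {n : ℕ} (h : m ∣ n)
    (hc : ∀ i ∈ l, Nat.Coprime m (q ^ i - 1)) :
    m ∣ l.foldl (fun n i => rem1 (q ^ i - 1) 8 n) n := by
  induction l generalizing n with
  | nil => exact h
  | cons a l ih =>
    simp only [List.foldl_cons]
    exact ih (dvd_rem1 _ h (hc a (by simp))) (fun i hi => hc i (by simp [hi]))

theorem dvd_prim {m q e : ℕ} (h : m ∣ q ^ e - 1)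
    (hc : ∀ i, 1 ≤ i → i < e → Nat.Coprime m (q ^ i - 1)) : m ∣ prim q e := by
  apply dvd_foldl _ h
  intro i hi
  rw [List.mem_range'_1] at hi
  exact hc i hi.1 (by omega)

def LL : List (ℕ × ℕ) :=
  [(2, 6), (2, 4), (2, 10), (2, 12), (2, 18), (3, 4), (3, 6), (5, 6), (2, 3), (2, 8), (2, 20),
    (4, 3), (4, 6)]

def chk (q e : ℕ) : Bool :=
  decide (3 * e + 1 ≤ prim q e) && decide (prim q e ∣ q ^ e - 1) &&
    (List.range' 1 (e - 1)).all (fun i => Nat.gcd (prim q e) (q ^ i - 1) == 1)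

def tabQ : List (ℕ × ℕ) :=
  [(3, 7), (4, 9), (5, 4), (6, 12), (7, 4), (8, 5), (9, 4), (10, 6), (11, 3), (12, 6), (13, 3),
    (14, 4), (15, 4), (16, 4), (17, 3), (18, 5), (20, 4), (21, 3), (22, 4), (24, 4), (26, 3),
    (27, 3), (28, 3), (30, 4), (32, 3), (34, 3), (36, 3), (38, 3), (40, 3), (42, 4), (44, 3),
    (48, 3), (50, 3), (54, 3), (60, 3), (66, 3), (78, 3), (84, 3), (90, 3)]

def Qt (e : ℕ) : ℕ := (tabQ.lookup e).getD 0

def entry (e : ℕ) : Bool :=
  decide (2 ^ e.totient * (e * (3 * e + 1)) ≤ 3 ^ e.totient) ||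
    (decide (e * (3 * e + 1) ≤ (Qt e - 1) ^ e.totient) &&
      (List.range (Qt e)).all (fun q => decide (q < 2) || decide ((q, e) ∈ LL) || chk q e))

set_option maxRecDepth 100000 in
theorem entry_all : ∀ e ∈ List.range 385, 3 ≤ e → entry e = true := by
  decide +kernel

theorem clauseB_tab : ∀ p ∈ LL, 0 < prim p.1 p.2 ∧ prim p.1 p.2 ≤ 2 * p.2 + 1 := by
  decide +kernel

/-! ### The primitive part through the cyclotomic value -/

theorem struct_of_nonprim {q e r k : ℕ} (hq : 2 ≤ q) (he : 0 < e) (hr : r.Prime)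
    (hrΦ : (r : ℤ) ∣ Phi (q : ℤ) e) (hk0 : 0 < k) (hke : k < e) (hk : r ∣ q ^ k - 1) :
    ∃ K d : ℕ, 1 ≤ K ∧ e = r ^ K * d ∧ ¬ r ∣ d ∧ d ∣ r - 1 ∧ 0 < d ∧
      IsPrimitiveRoot (((q : ℤ) : ZMod r)) d := by
  haveI : Fact r.Prime := ⟨hr⟩
  obtain ⟨K, d, hd, hnd⟩ := Nat.exists_eq_pow_mul_and_not_dvd he.ne' r hr.ne_one
  subst hnd
  have hprim := primitive_of_dvd hd hrΦ
  have hdpos : 0 < d := by
    rcases Nat.eq_zero_or_pos d with h0 | h0
    · simp [h0] at he
    · exact h0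
  refine ⟨K, d, ?_, rfl, hd, ?_, hdpos, hprim⟩
  · rcases Nat.eq_zero_or_pos K with h0 | h0
    · exfalso
      subst h0
      simp only [pow_zero, one_mul] at *
      exact hprim.pow_ne_one_of_pos_of_lt hk0.ne' hke ((nat_dvd_iff (by omega)).1 hk)
    · exact h0
  · have hne : (((q : ℤ) : ZMod r)) ≠ 0 := by
      intro h0
      have := hprim.pow_eq_one
      rw [h0, zero_pow hdpos.ne'] at this
      exact zero_ne_one this
    exact hprim.dvd_of_pow_eq_one _ (ZMod.pow_card_sub_one_eq_one hne)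

theorem exists_of_phi_large {q e : ℕ} (hq : 2 ≤ q) (he : 3 ≤ e)
    (hΦ : ((e * (3 * e + 1) : ℕ) : ℤ) ≤ Phi (q : ℤ) e) :
    ∃ m : ℕ, m ∣ q ^ e - 1 ∧ (∀ i : ℕ, 1 ≤ i → i < e → Nat.Coprime m (q ^ i - 1)) ∧
      3 * e + 1 ≤ m := by
  have hq1 : (1 : ℤ) < q := by exact_mod_cast (by omega : 1 < q)
  have hpos := Phi_pos hq1 e
  obtain ⟨F, hF⟩ : ∃ F : ℕ, (F : ℤ) = Phi (q : ℤ) e := ⟨(Phi (q : ℤ) e).toNat, by
    rw [Int.toNat_of_nonneg hpos.le]⟩
  have hFpos : 0 < F := by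
    have : (0 : ℤ) < F := by rw [hF]; exact hpos
    exact_mod_cast this
  have hFge : e * (3 * e + 1) ≤ F := by
    have : ((e * (3 * e + 1) : ℕ) : ℤ) ≤ F := by rw [hF]; exact hΦ
    exact_mod_cast this
  have hFdvd : F ∣ q ^ e - 1 := by
    have h1 := Phi_dvd (q : ℤ) e
    rw [← hF] at h1
    have h2 : ((q ^ e - 1 : ℕ) : ℤ) = (q : ℤ) ^ e - 1 := by
      rw [Nat.cast_sub (Nat.one_le_pow _ _ (by omega))]
      push_cast
      ring
    rw [← h2] at h1
    exact_mod_cast h1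
  have hcast : ∀ s : ℕ, s ∣ F → (s : ℤ) ∣ Phi (q : ℤ) e := by
    intro s hs
    rw [← hF]
    exact_mod_cast hs
  by_cases hex : ∃ r k : ℕ, r.Prime ∧ r ∣ F ∧ 0 < k ∧ k < e ∧ r ∣ q ^ k - 1
  · obtain ⟨r, k, hr, hrF, hk0, hke, hrk⟩ := hex
    obtain ⟨K, d, hK, hed, hnd, hdr, hd0, hprim⟩ :=
      struct_of_nonprim hq (by omega) hr (hcast r hrF) hk0 hke hrk
    have hne2 : r ^ K * d ≠ 2 := by rw [← hed]; omega
    have hsq : ¬ ((r : ℤ) ^ 2 ∣ Phi (q : ℤ) (r ^ K * d)) :=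
      step3 (by omega) hr hK hd0 hdr hne2 hprim
    rw [← hed] at hsq
    obtain ⟨m, rfl⟩ := hrF
    have hrm : ¬ r ∣ m := by
      intro h
      apply hsq
      rw [← hF]
      obtain ⟨c, rfl⟩ := h
      exact ⟨c, by push_cast; ring⟩
    have hre : r ≤ e := by
      have h1 : r ∣ e := by
        rw [hed]
        exact Dvd.dvd.mul_right (dvd_pow_self r (by omega)) d
      exact Nat.le_of_dvd (by omega) h1
    refine ⟨m, (Dvd.intro_left r rfl).trans hFdvd, ?_, ?_⟩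
    · intro i hi1 hi2
      apply Nat.Coprime.symm
      rw [Nat.coprime_comm]
      apply Nat.coprime_of_dvd
      intro s hs hsm hsi
      obtain ⟨K', d', hK', hed', hnd', hdr', hd0', hprim'⟩ :=
        struct_of_nonprim hq (by omega) hs (hcast s (hsm.trans (Dvd.intro_left r rfl)))
          (by omega : 0 < i) hi2 hsi
      have hsr : r = s := step2 hr hs hed hed' hK hK' hdr hdr'
      subst hsr
      exact hrm hsm
    · have h1 : r * (3 * e + 1) ≤ r * m := by
        calc r * (3 * e + 1) ≤ e * (3 * e + 1) := Nat.mul_le_mul_right _ hre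
          _ ≤ r * m := hFge
      exact Nat.le_of_mul_le_mul_left h1 hr.pos
  · refine ⟨F, hFdvd, ?_, ?_⟩
    · intro i hi1 hi2
      apply Nat.Coprime.symm
      rw [Nat.coprime_comm]
      apply Nat.coprime_of_dvd
      intro s hs hsm hsi
      exact hex ⟨s, i, hs, hsm, by omega, hi2, hsi⟩
    · calc 3 * e + 1 = 1 * (3 * e + 1) := by ring
        _ ≤ e * (3 * e + 1) := Nat.mul_le_mul_right _ (by omega)
        _ ≤ F := hFge

/-! ### The bound for `q = 2` -/

theorem pow3a (p : ℕ) (hp : 2 ≤ p) : (3 : ℤ) ^ p ≤ 2 ^ p * (2 ^ p - 1) := by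
  induction p, hp using Nat.le_induction with
  | base => norm_num
  | succ n hn ih =>
    have h2 : (0 : ℤ) < 2 ^ n := by positivity
    rw [pow_succ, pow_succ]
    nlinarith

theorem pow3b (k : ℕ) (hk : 2 ≤ k) : (3 : ℤ) ^ (k + 1) ≤ 2 ^ k * (2 ^ (k + 1) - 1) := by
  induction k, hk using Nat.le_induction with
  | base => norm_num
  | succ n hn ih =>
    have h2 : (0 : ℤ) < 2 ^ n := by positivity
    have e1 : (3 : ℤ) ^ (n + 1 + 1) = 3 * 3 ^ (n + 1) := by ring
    have e2 : (2 : ℤ) ^ (n + 1) = 2 * 2 ^ n := by ring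
    have e3 : (2 : ℤ) ^ (n + 1 + 1) = 4 * 2 ^ n := by ring
    rw [e1, e2, e3]
    rw [e2] at ih
    nlinarith

theorem sq_eq_aux (a j : ℕ) : (a ^ (j + 1)) ^ 2 = a ^ 2 * (a ^ 2) ^ j := by
  rw [← pow_mul, ← pow_mul, ← pow_add]
  congr 1
  ring

theorem caseA {p d : ℕ} (hp : p.Prime) (hd : p ∣ d) :
    (3 : ℤ) ^ (d * p).totient ≤ 2 ^ (d * p).totient * Phi 2 (d * p) := by
  have h0 : Phi ((2 : ℤ) ^ p) d = Phi 2 (d * p) := Phi_expand_dvd hp hd 2
  have h1 : (d * p).totient = p * d.totient := by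
    rw [mul_comm d p]
    exact Nat.totient_mul_of_prime_of_dvd hp hd
  rw [h1, ← h0]
  have h2p : (1 : ℤ) < 2 ^ p := one_lt_pow₀ (by norm_num) hp.ne_zero
  have hl := Phi_lower h2p d
  have h3 := pow3a p hp.two_le
  have hnn : (0 : ℤ) ≤ 3 ^ p := by positivity
  calc (3 : ℤ) ^ (p * d.totient) = ((3 : ℤ) ^ p) ^ d.totient := pow_mul _ _ _
    _ ≤ ((2 : ℤ) ^ p * (2 ^ p - 1)) ^ d.totient := pow_le_pow_left₀ hnn h3 _
    _ = (2 : ℤ) ^ (p * d.totient) * (2 ^ p - 1) ^ d.totient := by rw [mul_pow, pow_mul]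
    _ ≤ (2 : ℤ) ^ (p * d.totient) * Phi ((2 : ℤ) ^ p) d :=
        mul_le_mul_of_nonneg_left hl (by positivity)

theorem caseB {p d : ℕ} (hp : p.Prime) (hp3 : 3 ≤ p) (hd : ¬ p ∣ d) :
    (3 : ℤ) ^ (d * p).totient ≤ 2 ^ (d * p).totient * Phi 2 (d * p) := by
  have h0 : Phi ((2 : ℤ) ^ p) d = Phi 2 (d * p) * Phi 2 d := Phi_expand_not_dvd hp hd 2
  have hcop : Nat.Coprime d p := ((Nat.Prime.coprime_iff_not_dvd hp).mpr hd).symm
  have h1 : (d * p).totient = (p - 1) * d.totient := by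
    rw [Nat.totient_mul hcop, Nat.totient_prime hp, mul_comm]
  rw [h1]
  set t := d.totient with ht
  have h2p : (1 : ℤ) < 2 ^ p := one_lt_pow₀ (by norm_num) hp.ne_zero
  have hl := Phi_lower h2p d
  have hu : Phi 2 d ≤ (2 + 1) ^ d.totient := Phi_upper (a := 2) (by norm_num) d
  rw [← ht] at hl hu
  obtain ⟨k, rfl⟩ : ∃ k, p = k + 1 := ⟨p - 1, by omega⟩
  simp only [Nat.add_sub_cancel] at *
  have h3 := pow3b k (by omega)
  have hpos : (0 : ℤ) < Phi 2 (d * (k + 1)) := Phi_pos (by norm_num) _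
  have h3t : (0 : ℤ) < 3 ^ t := by positivity
  have hnn : (0 : ℤ) ≤ 3 ^ (k + 1) := by positivity
  have hkey : (3 : ℤ) ^ (k * t) * 3 ^ t ≤ (2 ^ (k * t) * Phi 2 (d * (k + 1))) * 3 ^ t := by
    calc (3 : ℤ) ^ (k * t) * 3 ^ t = (3 ^ (k + 1)) ^ t := by
          rw [← pow_mul, ← pow_add]; congr 1; ring
      _ ≤ ((2 : ℤ) ^ k * (2 ^ (k + 1) - 1)) ^ t := pow_le_pow_left₀ hnn h3 _
      _ = (2 : ℤ) ^ (k * t) * (2 ^ (k + 1) - 1) ^ t := by rw [mul_pow, pow_mul]
      _ ≤ (2 : ℤ) ^ (k * t) * Phi ((2 : ℤ) ^ (k + 1)) d :=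
          mul_le_mul_of_nonneg_left hl (by positivity)
      _ = (2 : ℤ) ^ (k * t) * (Phi 2 (d * (k + 1)) * Phi 2 d) := by rw [h0]
      _ ≤ (2 : ℤ) ^ (k * t) * (Phi 2 (d * (k + 1)) * 3 ^ t) := by
          apply mul_le_mul_of_nonneg_left _ (by positivity)
          apply mul_le_mul_of_nonneg_left _ hpos.le
          simpa using hu
      _ = (2 ^ (k * t) * Phi 2 (d * (k + 1))) * 3 ^ t := by ring
  exact le_of_mul_le_mul_right hkey h3t

theorem two_case {e : ℕ} (he : 3 ≤ e) : (3 : ℤ) ^ e.totient ≤ 2 ^ e.totient * Phi 2 e := by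
  by_cases hodd : ∃ p : ℕ, p.Prime ∧ p ≠ 2 ∧ p ∣ e
  · obtain ⟨p, hp, hp2, d, hd⟩ := hodd
    have hp3 : 3 ≤ p := by
      have := hp.two_le
      omega
    have hed : e = d * p := by rw [hd]; ring
    rw [hed]
    by_cases hpd : p ∣ d
    · exact caseA hp hpd
    · exact caseB hp hp3 hpd
  · push Not at hodd
    have h2 : ∀ {d : ℕ}, d.Prime → d ∣ e → d = 2 := by
      intro d hd hde
      by_contra hne
      exact hodd d hd hne hde
    have hpow := Nat.eq_prime_pow_of_unique_prime_dvd (by omega : e ≠ 0) h2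
    set k := e.primeFactorsList.length with hk
    have hk2 : 2 ≤ k := by
      by_contra hlt
      have : k = 0 ∨ k = 1 := by omega
      rcases this with h | h <;> rw [h] at hpow <;> simp at hpow <;> omega
    obtain ⟨j, hj⟩ : ∃ j, k = j + 2 := ⟨k - 2, by omega⟩
    have hed : e = (2 ^ (j + 1)) * 2 := by rw [hpow, hj]; ring
    rw [hed]
    exact caseA Nat.prime_two (dvd_pow_self 2 (by omega))

/-! ### A lower bound for the totient -/

theorem ww_key (A B C D : Prop) [Decidable A] [Decidable B] [Decidable C] [Decidable D]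
    (h1 : ¬ (A ∧ B)) (h2 : ¬ (C ∧ D)) :
    ((if A ∨ B then 4 else 1) * (if C ∨ D then 9 else 8)) * 8 =
      ((if A then 4 else 1) * (if C then 9 else 8)) * ((if B then 4 else 1) * (if D then 9 else 8)) := by
  by_cases hA : A <;> by_cases hB : B <;> by_cases hC : C <;> by_cases hD : D <;> simp_all

def WW (n : ℕ) : ℕ := (if 2 ∣ n then 4 else 1) * (if 3 ∣ n then 9 else 8)

theorem totient_aux (n : ℕ) : 8 * n ^ 2 ≤ WW n * n.totient ^ 3 := by
  induction n using Nat.recOnPosPrimePosCoprime with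
  | zero => simp
  | one => simp [WW]
  | prime_pow p k hp hk =>
    obtain ⟨j, rfl⟩ : ∃ j, k = j + 1 := ⟨k - 1, by omega⟩
    rw [Nat.totient_prime_pow_succ hp]
    have hdvd : ∀ s : ℕ, s.Prime → (s ∣ p ^ (j + 1) ↔ s = p) := by
      intro s hs
      constructor
      · intro h
        exact (Nat.prime_dvd_prime_iff_eq hs hp).mp (hs.dvd_of_dvd_pow h)
      · rintro rfl
        exact dvd_pow_self s (by omega)
    unfold WW
    simp only [hdvd 2 Nat.prime_two, hdvd 3 Nat.prime_three]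
    by_cases hp2 : 2 = p
    · subst hp2
      simp only [if_true, show ¬ (3 = 2) by norm_num, if_false]
      have h1 : (2 ^ 2) ^ j ≤ (2 ^ 3) ^ j := Nat.pow_le_pow_left (by norm_num) j
      have e1 := sq_eq_aux 2 j
      have e2 : (2 ^ j * (2 - 1)) ^ 3 = (2 ^ 3) ^ j := by
        rw [show 2 - 1 = 1 from rfl, mul_one, ← pow_mul, ← pow_mul, mul_comm]
      rw [e1, e2]
      generalize (2 ^ 2) ^ j = A at *
      generalize (2 ^ 3) ^ j = B at *
      norm_num
      omega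
    by_cases hp3 : 3 = p
    · subst hp3
      simp only [if_true, show ¬ (2 = 3) by norm_num, if_false]
      have h1 : (3 ^ 2) ^ j ≤ (3 ^ 3) ^ j := Nat.pow_le_pow_left (by norm_num) j
      have e1 := sq_eq_aux 3 j
      have e2 : (3 ^ j * (3 - 1)) ^ 3 = 8 * (3 ^ 3) ^ j := by
        rw [show 3 - 1 = 2 from rfl, mul_pow, ← pow_mul, ← pow_mul, mul_comm j 3]; ring
      rw [e1, e2]
      generalize (3 ^ 2) ^ j = A at *
      generalize (3 ^ 3) ^ j = B at *
      norm_num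
      omega
    · simp only [hp2, hp3, if_false]
      have hp5 : 5 ≤ p := by
        have h2 := hp.two_le
        by_contra hlt
        have h4 : p ≠ 4 := by
          rintro rfl
          norm_num at hp
        omega
      obtain ⟨u, rfl⟩ : ∃ u, p = u + 1 := ⟨p - 1, by omega⟩
      simp only [Nat.add_sub_cancel]
      have h1 : (u + 1) ^ 2 ≤ u ^ 3 := by
        have : 4 ≤ u := by omega
        nlinarith
      have h2 : ((u + 1) ^ 2) ^ j ≤ ((u + 1) ^ 3) ^ j :=
        Nat.pow_le_pow_left (Nat.pow_le_pow_right (by omega) (by norm_num)) j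
      have e1 := sq_eq_aux (u + 1) j
      have e2 : ((u + 1) ^ j * u) ^ 3 = u ^ 3 * ((u + 1) ^ 3) ^ j := by
        rw [mul_pow, ← pow_mul, ← pow_mul, mul_comm j 3]; ring
      rw [e1, e2]
      have : (u + 1) ^ 2 * ((u + 1) ^ 2) ^ j ≤ u ^ 3 * ((u + 1) ^ 3) ^ j :=
        Nat.mul_le_mul h1 h2
      omega
  | coprime a b ha hb hab iha ihb =>
    have hW : WW (a * b) * 8 = WW a * WW b := by
      unfold WW
      have h2 : ¬ (2 ∣ a ∧ 2 ∣ b) := by
        rintro ⟨h1, h2⟩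
        have := Nat.dvd_gcd h1 h2
        rw [hab] at this
        omega
      have h3 : ¬ (3 ∣ a ∧ 3 ∣ b) := by
        rintro ⟨h1, h2⟩
        have := Nat.dvd_gcd h1 h2
        rw [hab] at this
        omega
      have e2 : (2 ∣ a * b) ↔ (2 ∣ a ∨ 2 ∣ b) := Nat.Prime.dvd_mul Nat.prime_two
      have e3 : (3 ∣ a * b) ↔ (3 ∣ a ∨ 3 ∣ b) := Nat.Prime.dvd_mul Nat.prime_three
      simp only [e2, e3]
      exact ww_key _ _ _ _ h2 h3
    rw [Nat.totient_mul hab]
    have h1 := Nat.mul_le_mul iha ihb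
    have h2 : 8 * (8 * (a * b) ^ 2) ≤ 8 * (WW (a * b) * (a.totient * b.totient) ^ 3) := by
      calc 8 * (8 * (a * b) ^ 2) = 8 * a ^ 2 * (8 * b ^ 2) := by ring
        _ ≤ WW a * a.totient ^ 3 * (WW b * b.totient ^ 3) := h1
        _ = (WW a * WW b) * (a.totient * b.totient) ^ 3 := by ring
        _ = 8 * (WW (a * b) * (a.totient * b.totient) ^ 3) := by rw [← hW]; ring
    exact Nat.le_of_mul_le_mul_left h2 (by norm_num)

theorem totient_bound (n : ℕ) : 2 * n ^ 2 ≤ 9 * n.totient ^ 3 := by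
  have h := totient_aux n
  have hW : WW n ≤ 36 := by
    unfold WW
    split_ifs <;> norm_num
  have h2 : 8 * n ^ 2 ≤ 36 * n.totient ^ 3 := h.trans (Nat.mul_le_mul_right _ hW)
  omega

theorem pow_aux (t : ℕ) (ht : 33 ≤ t) : 18 * t ^ 3 * 2 ^ t ≤ 3 ^ t := by
  induction t, ht using Nat.le_induction with
  | base => norm_num
  | succ n hn ih =>
    have h1 : (n + 1) ^ 3 * 2 ≤ 3 * n ^ 3 := by
      have h2 : 33 * n ^ 2 ≤ n ^ 3 := by nlinarith [sq_nonneg n]
      have h3 : 33 * n ≤ n ^ 2 := by nlinarith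
      nlinarith
    rw [pow_succ 2, pow_succ 3]
    have h4 : 0 < 2 ^ n := by positivity
    calc 18 * (n + 1) ^ 3 * (2 ^ n * 2) = 18 * ((n + 1) ^ 3 * 2) * 2 ^ n := by ring
      _ ≤ 18 * (3 * n ^ 3) * 2 ^ n := by gcongr
      _ = (18 * n ^ 3 * 2 ^ n) * 3 := by ring
      _ ≤ 3 ^ n * 3 := Nat.mul_le_mul_right _ ih

theorem good_of_large {e : ℕ} (he : 385 ≤ e) :
    2 ^ e.totient * (e * (3 * e + 1)) ≤ 3 ^ e.totient := by
  have h := totient_bound e
  set t := e.totient with ht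
  have ht33 : 33 ≤ t := by
    by_contra hlt
    have h1 : t ≤ 32 := by omega
    have h2 : t ^ 3 ≤ 32 ^ 3 := Nat.pow_le_pow_left h1 3
    have h3 : 385 ^ 2 ≤ e ^ 2 := Nat.pow_le_pow_left he 2
    omega
  have h1 := pow_aux t ht33
  have h2 : e * (3 * e + 1) ≤ 18 * t ^ 3 := by nlinarith
  calc 2 ^ t * (e * (3 * e + 1)) ≤ 2 ^ t * (18 * t ^ 3) := Nat.mul_le_mul_left _ h2
    _ = 18 * t ^ 3 * 2 ^ t := by ring
    _ ≤ 3 ^ t := h1

/-! ### Assembly -/

theorem of_good {q e : ℕ} (hq : 2 ≤ q) (he : 3 ≤ e)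
    (hg : 2 ^ e.totient * (e * (3 * e + 1)) ≤ 3 ^ e.totient) :
    ((e * (3 * e + 1) : ℕ) : ℤ) ≤ Phi (q : ℤ) e := by
  set t := e.totient with ht
  set X := e * (3 * e + 1) with hX
  rcases Nat.eq_or_lt_of_le hq with rfl | hq3
  · have h1 := two_case he
    rw [← ht] at h1
    have h2 : ((2 : ℤ) ^ t * (X : ℤ)) ≤ 3 ^ t := by exact_mod_cast hg
    have h3 : (0 : ℤ) < 2 ^ t := by positivity
    have h4 : (2 : ℤ) ^ t * (X : ℤ) ≤ 2 ^ t * Phi 2 e := h2.trans h1
    have := le_of_mul_le_mul_left h4 h3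
    simpa using this
  · have h1 : (1 : ℤ) < q := by exact_mod_cast (by omega : 1 < q)
    have h2 := Phi_lower h1 e
    rw [← ht] at h2
    have h3 : (2 : ℤ) ≤ (q : ℤ) - 1 := by
      have : (3 : ℤ) ≤ q := by exact_mod_cast hq3
      omega
    have h4 : (2 : ℤ) ^ t ≤ ((q : ℤ) - 1) ^ t := pow_le_pow_left₀ (by norm_num) h3 t
    have h5 : X ≤ 2 ^ t := by
      have h6 : 2 ^ t * X ≤ 2 ^ t * 2 ^ t := by
        calc 2 ^ t * X ≤ 3 ^ t := hg
          _ ≤ (2 * 2) ^ t := Nat.pow_le_pow_left (by norm_num) t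
          _ = 2 ^ t * 2 ^ t := by rw [mul_pow]
      exact Nat.le_of_mul_le_mul_left h6 (by positivity)
    have h7 : (X : ℤ) ≤ 2 ^ t := by exact_mod_cast h5
    linarith

theorem clauseA {q e : ℕ} (hq : 2 ≤ q) (he : 3 ≤ e) (hL : (q, e) ∉ LL) :
    ∃ m : ℕ, m ∣ q ^ e - 1 ∧ (∀ i : ℕ, 1 ≤ i → i < e → Nat.Coprime m (q ^ i - 1)) ∧
      3 * e + 1 ≤ m := by
  by_cases hlarge : 385 ≤ e
  · exact exists_of_phi_large hq he (of_good hq he (good_of_large hlarge))
  have hen : entry e = true :=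
    entry_all e (List.mem_range.mpr (by omega)) he
  unfold entry at hen
  rw [Bool.or_eq_true, Bool.and_eq_true, decide_eq_true_iff, decide_eq_true_iff] at hen
  rcases hen with hg | ⟨hQ, hall⟩
  · exact exists_of_phi_large hq he (of_good hq he hg)
  · by_cases hqQ : q < Qt e
    · have h1 := (List.all_eq_true.mp hall) q (List.mem_range.mpr hqQ)
      simp only [Bool.or_eq_true, decide_eq_true_iff] at h1
      rcases h1 with (h1 | h1) | h1
      · omega
      · exact absurd h1 hL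
      · unfold chk at h1
        simp only [Bool.and_eq_true, decide_eq_true_iff] at h1
        obtain ⟨⟨h2, h3⟩, h4⟩ := h1
        refine ⟨prim q e, h3, ?_, h2⟩
        intro i hi1 hi2
        have h5 := (List.all_eq_true.mp h4) i (by
          rw [List.mem_range'_1]
          omega)
        simpa using h5
    · apply exists_of_phi_large hq he
      have h1 : (1 : ℤ) < q := by exact_mod_cast (by omega : 1 < q)
      have h2 := Phi_lower h1 e
      have hqge : Qt e - 1 ≤ q - 1 := by omega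
      have h3 : (Qt e - 1) ^ e.totient ≤ (q - 1) ^ e.totient := Nat.pow_le_pow_left hqge _
      have h4 : ((q - 1 : ℕ) : ℤ) = (q : ℤ) - 1 := by
        rw [Nat.cast_sub (by omega)]
        simp
      have h5 : ((e * (3 * e + 1) : ℕ) : ℤ) ≤ (((q - 1) ^ e.totient : ℕ) : ℤ) := by
        exact_mod_cast hQ.trans h3
      rw [Nat.cast_pow, h4] at h5
      exact h5.trans h2

/-- Size of the primitive part of `q^e - 1`. For a prime power `q` and `e ≥ 3`, call a divisor of `q^e - 1` primitive when it is coprime to `q^i - 1` for every `1 ≤ i < e`; the primitive part is the largest primitive divisor. Apart from thirteen exceptional pairs, the primitive part is at least `3e + 1`: there is a primitive divisor `m ≥ 3e + 1` unless `(q, e)` is `(2, 6)` (where every primitive divisor is 1), one of `(2,4), (2,10), (2,12), (2,18), (3,4), (3,6), (5,6)` (where the primitive part is exactly `e + 1`), or one of `(2,3), (2,8), (2,20), (4,3), (4,6)`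 (where it is exactly `2e + 1`). The statement asserts the existence of a primitive divisor `m ≥ 3e + 1` outside the thirteen pairs, and that every primitive divisor is at most `2e + 1` for the thirteen pairs. -/
theorem result (q e : ℕ) (hq : IsPrimePow q) (he : 3 ≤ e) :
    ((q, e) ∉ [(2, 6), (2, 4), (2, 10), (2, 12), (2, 18), (3, 4), (3, 6), (5, 6), (2, 3), (2, 8), (2, 20), (4, 3), (4, 6)] →
      ∃ m : ℕ, m ∣ q ^ e - 1 ∧ (∀ i : ℕ, 1 ≤ i → i < e → Nat.Coprime m (q ^ i - 1)) ∧ 3 * e + 1 ≤ m) ∧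
    ((q, e) ∈ [(2, 6), (2, 4), (2, 10), (2, 12), (2, 18), (3, 4), (3, 6), (5, 6), (2, 3), (2, 8), (2, 20), (4, 3), (4, 6)] →
      ∀ m : ℕ, m ∣ q ^ e - 1 → (∀ i : ℕ, 1 ≤ i → i < e → Nat.Coprime m (q ^ i - 1)) → m ≤ 2 * e + 1) := by
  constructor
  · intro hL
    exact clauseA hq.two_le he hL
  · intro hL m hm hc
    have h1 := clauseB_tab (q, e) hL
    have h2 := dvd_prim hm hc
    exact (Nat.le_of_dvd h1.1 h2).trans h1.2

end Cfsg.Agent.S4423
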