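import Cfsg.Statements.S4425
import Cfsg.Agent.Lib.H21.RegProj

set_option autoImplicit false
open Cfsg

namespace Cfsg.Agent.S4425

/-- Let χ be an irreducible character of the finite group G, p a prime, p^a the p-part of the order of G and p^b the p-part of the degree χ(1). Let χ̃ be the class function equal to p^a · χ on p-regular elements and zero on p-singular elements. Then p^(−b) · χ̃ is a generalized character of G, while p^(−(b+1)) · χ̃ is not. -/
theorem result {G : Type*} [Group G] [Finite G] (p : ℕ) [Fact p.Prime] (χ : Cfsg.IrrCharacter G) : Cfsg.IsGeneralizedCharacter G (fun x : G => if p ∣ orderOf x then (0 : ℂ) else ((p ^ ((Nat.card G).factorization p - (Cfsg.charDegree (χ : G → ℂ)).factorization p) : ℕ) : ℂ) * (χ : G → ℂ) x) ∧ ¬ Cfsg.IsGeneralizedCharacter G (fun x : G => if p ∣ orderOf x then (0 : ℂ) else ((p ^ (Nat.card G).factorization p : ℕ) : ℂ) / ((p ^ ((Cfsg.charDegree (χ : G → ℂ)).factorization p + 1) : ℕ) : ℂ) * (χ : G → ℂ) x) := by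
  classical
  haveI := Fintype.ofFinite G
  haveI := Fintype.ofFinite (Cfsg.IrrCharacter G)
  have hp : p.Prime := Fact.out
  obtain ⟨M, hM⟩ := H21.exists_pModular hp
  haveI : M.IsPrime := hM.2.1.isPrime
  set a := (Nat.card G).factorization p with ha
  set b := (Cfsg.charDegree χ.1).factorization p with hb
  have hle : b ≤ a := H21.factorization_degree_le χ
  have hp0 : (p : ℂ) ≠ 0 := by exact_mod_cast hp.ne_zero
  constructor
  · -- divisibility
    have hn := fun ξ => H21.crt_int (p := p) χ ξ
    choose n hn using hn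
    have hd := fun ξ => H21.tilde_dvd' hM χ ξ (hn ξ)
    have hex : ∀ ξ, ∃ y : ℤ, n ξ = (p : ℤ) ^ b * y := fun ξ => hd ξ
    choose y hy using hex
    have hcl : Cfsg.IsClassFunction G (H21.rp p χ.1) :=
      H21.rp_isClass (H21.isClassFunction_of_isCharacter (H21.isCharacter_of_irr χ.2))
    have hexp := H21.classFunction_expansion (H21.rp p χ.1) hcl
    have hfun : (fun x : G => if p ∣ orderOf x then (0 : ℂ)
        else ((p ^ (a - b) : ℕ) : ℂ) * (χ : G → ℂ) x)
        = ∑ ξ : Cfsg.IrrCharacter G, (y ξ) • (ξ : G → ℂ) := by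
      have h1 : (fun x : G => if p ∣ orderOf x then (0 : ℂ)
          else ((p ^ (a - b) : ℕ) : ℂ) * (χ : G → ℂ) x) = ((p ^ (a - b) : ℕ) : ℂ) • H21.rp p χ.1 := by
        funext x
        simp only [Pi.smul_apply, smul_eq_mul, H21.rp]
        split_ifs <;> simp
      rw [h1]
      conv_lhs => rw [hexp]
      rw [Finset.smul_sum]
      refine Finset.sum_congr rfl fun ξ _ => ?_
      rw [smul_smul]
      have h2 : ((p ^ (a - b) : ℕ) : ℂ) * Cfsg.classInner (H21.rp p χ.1) (ξ : G → ℂ) = (y ξ : ℂ) := by
        have h3 := hn ξ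
        rw [hy ξ] at h3
        have h4 : H21.crt p χ ξ = Cfsg.classInner (H21.rp p χ.1) (ξ : G → ℂ) := rfl
        rw [← h4]
        have hpb : (p : ℂ) ^ b ≠ 0 := pow_ne_zero _ hp0
        apply mul_left_cancel₀ hpb
        push_cast at h3 ⊢
        rw [← mul_assoc, ← pow_add, Nat.add_sub_cancel' hle, h3]
      rw [h2]
      funext x
      simp
    rw [hfun]
    refine H06.gen_sum _ _ fun ξ _ => ?_
    exact H06.gen_zsmul (H06.gen_of_char (H21.isCharacter_of_irr ξ.2)) _
  · intro hgen
    obtain ⟨P⟩ : Nonempty (Sylow p G) := inferInstance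
    haveI : Fintype (P : Subgroup G) := Fintype.ofFinite _
    set φ : G → ℂ := (fun x : G => if p ∣ orderOf x then (0 : ℂ) else ((p ^ (Nat.card G).factorization p : ℕ) : ℂ) / ((p ^ ((Cfsg.charDegree (χ : G → ℂ)).factorization p + 1) : ℕ) : ℂ) * (χ : G → ℂ) x) with hφ
    -- restrict to `P`
    have hres : Cfsg.IsGeneralizedCharacter (P : Subgroup G) (fun t : (P : Subgroup G) => φ t) := by
      obtain ⟨c, d, hc, hd, hcd⟩ := hgen
      refine ⟨_, _, H21.isCharacter_restrict _ hc, H21.isCharacter_restrict _ hd, ?_⟩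
      funext t
      have := congrFun hcd (t : G)
      simpa using this
    obtain ⟨m, hm⟩ := H06.gen_inner_int hres (H06.gen_of_char (H21.isCharacter_one (G := (P : Subgroup G))))
    have hPcard : Nat.card (P : Subgroup G) = p ^ a := Sylow.card_eq_multiplicity P
    have hval : Cfsg.classInner (fun t : (P : Subgroup G) => φ t) (fun _ => (1 : ℂ))
        = (Cfsg.charDegree χ.1 : ℂ) / ((p ^ (b + 1) : ℕ) : ℂ) := by
      unfold Cfsg.classInner
      rw [Finset.sum_eq_single (1 : (P : Subgroup G))]
      · have h1 : φ ((1 : (P : Subgroup G)) : G) = ((p ^ a : ℕ) : ℂ) / ((p ^ (b + 1) : ℕ) : ℂ) * (Cfsg.charDegree χ.1 : ℂ) := by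
          simp only [hφ, Subgroup.coe_one, orderOf_one]
          rw [if_neg (by simpa using hp.one_lt.ne' ∘ Nat.dvd_one.mp), H21.one_eq_charDegree (H21.isCharacter_of_irr χ.2)]
        simp only [map_one, mul_one]
        rw [h1, hPcard]
        have h2 : ((p ^ a : ℕ) : ℂ) ≠ 0 := by
          push_cast
          exact pow_ne_zero _ hp0
        field_simp
      · intro t _ ht
        have h3 : φ (t : G) = 0 := by
          simp only [hφ]
          rw [if_pos]
          obtain ⟨k, hk⟩ := (IsPGroup.iff_orderOf.mp P.isPGroup') t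
          have h4 : orderOf (t : G) = p ^ k := by
            rw [← hk]
            exact Subgroup.orderOf_coe t
          rw [h4]
          apply dvd_pow_self
          rintro rfl
          rw [pow_zero] at h4
          apply ht
          apply Subtype.ext
          simpa using orderOf_eq_one_iff.mp h4
        simp [h3]
      · simp
    rw [hval] at hm
    have hpb1 : ((p ^ (b + 1) : ℕ) : ℂ) ≠ 0 := by
      push_cast
      exact pow_ne_zero _ hp0
    have h5 : (Cfsg.charDegree χ.1 : ℂ) = ((p ^ (b + 1) : ℕ) : ℂ) * (m : ℂ) := by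
      field_simp at hm
      rw [hm]
    have h6 : ((Cfsg.charDegree χ.1 : ℕ) : ℤ) = ((p ^ (b + 1) : ℕ) : ℤ) * m := by
      exact_mod_cast h5
    have h7 : ((p ^ (b + 1) : ℕ) : ℤ) ∣ ((Cfsg.charDegree χ.1 : ℕ) : ℤ) := ⟨m, h6⟩
    have h8 : p ^ (b + 1) ∣ Cfsg.charDegree χ.1 := Int.natCast_dvd_natCast.mp h7
    exact Nat.pow_succ_factorization_not_dvd (H21.irr_charDegree_pos χ.2).ne' hp h8

end Cfsg.Agent.S4425
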