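import Cfsg.Statements.S4426
import Cfsg.Agent.Lib.H21.RegProj

set_option autoImplicit false
open Cfsg

namespace Cfsg.Agent.S4426

/-- Let χ be an irreducible character in the p-block B of the finite group G (relative to a maximal ideal M of the algebraic integers containing p), let p^a be the p-part of the order of G, and let χ̃ be the class function equal to p^a · χ on p-regular elements and zero elsewhere. For ξ ∈ B the inner product [χ̃, ξ] is an integer. The following are equivalent: (a) χ has height zero in B; (b) for some ξ ∈ B the integer [χ̃, ξ] is nonzero and the exact power of p dividing it equals the exact power of p dividing ξ(1); (c) the same holds for every ξ ∈ B. -/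
theorem result {G : Type*} [Group G] [Fintype G] (p : ℕ) [Fact p.Prime] (M : Ideal Cfsg.AlgInt) (hM : Cfsg.IsPModular p M) (B : Set (Cfsg.IrrCharacter G)) (hB : Cfsg.IsPBlock M B) (χ : Cfsg.IrrCharacter G) (hχ : χ ∈ B) : (Cfsg.blockHeight p B (χ : G → ℂ) = 0 ↔ ∃ ξ ∈ B, ∃ n : ℤ, Cfsg.classInner (fun x : G => if p ∣ orderOf x then (0 : ℂ) else ((p ^ (Nat.card G).factorization p : ℕ) : ℂ) * (χ : G → ℂ) x) (ξ : G → ℂ) = (n : ℂ) ∧ n ≠ 0 ∧ padicValInt p n = (Cfsg.charDegree (ξ : G → ℂ)).factorization p) ∧ (Cfsg.blockHeight p B (χ : G → ℂ) = 0 ↔ ∀ ξ ∈ B, ∃ n : ℤ, Cfsg.classInner (fun x : G => if p ∣ orderOf x then (0 : ℂ) else ((p ^ (Nat.card G).factorization p : ℕ) : ℂ) * (χ : G → ℂ) x) (ξ : G → ℂ) = (n : ℂ) ∧ n ≠ 0 ∧ padicValInt p n = (Cfsg.charDegree (ξ : G → ℂ)).factorization p) := by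
  classical
  
  haveI := Fintype.ofFinite (Cfsg.IrrCharacter G)
  haveI : M.IsPrime := hM.2.1.isPrime
  have hp : p.Prime := Fact.out
  -- reformulate height zero
  have hheight : Cfsg.blockHeight p B (χ : G → ℂ) = 0 ↔
      (Cfsg.charDegree χ.1).factorization p = H21.minExp p B := by
    have h1 := H21.minExp_le (p := p) hχ
    have h2 : Cfsg.blockHeight p B (χ : G → ℂ)
        = (Cfsg.charDegree χ.1).factorization p - H21.minExp p B := rfl
    omega
  have hfun : ∀ ξ : Cfsg.IrrCharacter G, Cfsg.classInner (fun x : G => if p ∣ orderOf x then (0 : ℂ)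
      else ((p ^ (Nat.card G).factorization p : ℕ) : ℂ) * (χ : G → ℂ) x) (ξ : G → ℂ)
      = ((p ^ (Nat.card G).factorization p : ℕ) : ℂ) * H21.crt p χ ξ := by
    intro ξ
    have : (fun x : G => if p ∣ orderOf x then (0 : ℂ)
        else ((p ^ (Nat.card G).factorization p : ℕ) : ℂ) * (χ : G → ℂ) x)
        = ((p ^ (Nat.card G).factorization p : ℕ) : ℂ) • H21.rp p χ.1 := by
      funext x
      simp only [Pi.smul_apply, smul_eq_mul, H21.rp]
      split_ifs <;> simp
    rw [this, H21.classInner_smul_left]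
    rfl
  -- the equivalence for a fixed `ξ`
  have hkey : ∀ ξ ∈ B, ∀ n : ℤ, ((p ^ (Nat.card G).factorization p : ℕ) : ℂ) * H21.crt p χ ξ = n →
      ((Cfsg.charDegree χ.1).factorization p = H21.minExp p B ↔
        (n ≠ 0 ∧ padicValInt p n = (Cfsg.charDegree ξ.1).factorization p)) := by
    intro ξ hξ n hn
    rw [H21.tilde_exact hM hB hχ hξ hn]
    have hd := H21.tilde_dvd hM χ ξ hn
    haveI : Fact p.Prime := ⟨hp⟩
    constructor
    · intro h
      have hn0 : n ≠ 0 := by
        rintro rfl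
        exact h (dvd_zero _)
      refine ⟨hn0, ?_⟩
      have h1 := (padicValInt_dvd_iff (p := p) ((Cfsg.charDegree ξ.1).factorization p) n).mp hd
      have h2 := h1.resolve_left hn0
      by_contra hne
      apply h
      rw [padicValInt_dvd_iff]
      right
      omega
    · rintro ⟨hn0, hv⟩ hdv
      rw [padicValInt_dvd_iff] at hdv
      rcases hdv with h | h
      · exact hn0 h
      · omega
  constructor
  · rw [hheight]
    constructor
    · intro h
      refine ⟨χ, hχ, ?_⟩
      obtain ⟨n, hn⟩ := H21.crt_int (p := p) χ χ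
      exact ⟨n, (hfun χ).trans hn, ((hkey χ hχ n hn).mp h).1, ((hkey χ hχ n hn).mp h).2⟩
    · rintro ⟨ξ, hξ, n, hn, hn0, hv⟩
      exact (hkey ξ hξ n ((hfun ξ).symm.trans hn)).mpr ⟨hn0, hv⟩
  · rw [hheight]
    constructor
    · intro h ξ hξ
      obtain ⟨n, hn⟩ := H21.crt_int (p := p) χ ξ
      exact ⟨n, (hfun ξ).trans hn, ((hkey ξ hξ n hn).mp h).1, ((hkey ξ hξ n hn).mp h).2⟩
    · intro h
      obtain ⟨n, hn, hn0, hv⟩ := h χ hχ
      exact (hkey χ hχ n ((hfun χ).symm.trans hn)).mpr ⟨hn0, hv⟩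

end Cfsg.Agent.S4426
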