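import Cfsg.Statements.S4444
import Cfsg.Agent.Lib.H21.GlaubConj

set_option autoImplicit false
open Cfsg

namespace Cfsg.Agent.S4444

/-- The Glauberman correspondence for a p-group of operators. Inside a finite group Γ let S normalise G with the orders of G and S coprime, S a p-group, and let C = G ⊓ C(S) be the fixed points. Call an irreducible character χ of G S-invariant when χ(s g s⁻¹) = χ(g) for s ∈ S, g ∈ G. Then: (i) for every S-invariant χ there is exactly one irreducible character β of C whose multiplicity [χ_C, β] in the restriction of χ is not divisible by p; (ii) that multiplicity is ≡ 1 or ≡ −1 (mod p); (iii) distinct S-invariant χ give distinct β; (iv) every irreducible character of C arises in this way. So χ ↦ β is a bijection from the S-invariant irreducible characters of G onto the irreducible characters of C. -/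
theorem result {Γ : Type*} [Group Γ] [Fintype Γ] (G S : Subgroup Γ) [Fintype G] (hnorm : ∀ s ∈ S, ∀ g ∈ G, s * g * s⁻¹ ∈ G) (hcop : (Nat.card G).Coprime (Nat.card S)) (p : ℕ) (hp : p.Prime) (hS : IsPGroup p S) (C : Subgroup Γ) [Fintype C] (hC : C = G ⊓ Subgroup.centralizer (S : Set Γ)) (hCG : C ≤ G) : (∀ χ : Cfsg.IrrCharacter G, (∀ s ∈ S, ∀ g g' : G, (g' : Γ) = s * g * s⁻¹ → (χ : G → ℂ) g' = (χ : G → ℂ) g) → ∃! β : Cfsg.IrrCharacter C, ∃ m : ℕ, Cfsg.classInner (fun c : C => (χ : G → ℂ) ⟨c, hCG c.2⟩) (β : C → ℂ) = (m : ℂ) ∧ ¬ p ∣ m) ∧ (∀ χ : Cfsg.IrrCharacter G, (∀ s ∈ S, ∀ g g' : G, (g' : Γ) = s * g * s⁻¹ → (χ : G → ℂ) g' = (χ : G → ℂ) g) → ∀ β : Cfsg.IrrCharacter C, ∀ m : ℕ, Cfsg.classInner (fun c : C => (χ : G → ℂ) ⟨c, hCG c.2⟩) (β : C → ℂ) = (m : ℂ) → ¬ p ∣ m → ((m : ℤ) ≡ 1 [ZMOD p] ∨ (m : ℤ) ≡ -1 [ZMOD p])) ∧ (∀ χ χ' : Cfsg.IrrCharacter G, (∀ s ∈ S, ∀ g g' : G, (g' : Γ) = s * g * s⁻¹ → (χ : G → ℂ) g' = (χ : G → ℂ) g) → (∀ s ∈ S, ∀ g g' : G, (g' : Γ) = s * g * s⁻¹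 → (χ' : G → ℂ) g' = (χ' : G → ℂ) g) → ∀ β : Cfsg.IrrCharacter C, ∀ m m' : ℕ, Cfsg.classInner (fun c : C => (χ : G → ℂ) ⟨c, hCG c.2⟩) (β : C → ℂ) = (m : ℂ) → ¬ p ∣ m → Cfsg.classInner (fun c : C => (χ' : G → ℂ) ⟨c, hCG c.2⟩) (β : C → ℂ) = (m' : ℂ) → ¬ p ∣ m' → χ = χ') ∧ (∀ β : Cfsg.IrrCharacter C, ∃ χ : Cfsg.IrrCharacter G, (∀ s ∈ S, ∀ g g' : G, (g' : Γ) = s * g * s⁻¹ → (χ : G → ℂ) g' = (χ : G → ℂ) g) ∧ ∃ m : ℕ, Cfsg.classInner (fun c : C => (χ : G → ℂ) ⟨c, hCG c.2⟩) (β : C → ℂ) = (m : ℂ) ∧ ¬ p ∣ m) := by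
  classical
  haveI : Fact p.Prime := ⟨hp⟩
  haveI : Fintype (IrrCharacter G) := Fintype.ofFinite _
  haveI : Fintype (IrrCharacter C) := Fintype.ofFinite _
  let ι : C →* G := Subgroup.inclusion hCG
  have hιapp : ∀ c : C, ι c = ⟨c, hCG c.2⟩ := fun c => rfl
  by_cases hpG : p ∣ Nat.card G
  · -- `S` is trivial
    have hS1 : Nat.card S = 1 := by
      obtain ⟨k, hk⟩ := IsPGroup.iff_card.1 hS
      rcases Nat.eq_zero_or_pos k with h0 | h0
      · rw [hk, h0, pow_zero]
      · exfalso
        have : p ∣ Nat.card S := by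
          rw [hk]
          exact dvd_pow_self p h0.ne'
        have h2 := Nat.dvd_gcd hpG this
        rw [Nat.Coprime.gcd_eq_one hcop] at h2
        exact hp.one_lt.ne' (Nat.dvd_one.1 h2)
    have hSbot : S = ⊥ := Subgroup.eq_bot_of_card_eq _ hS1
    have hCeq : C = G := by
      rw [hC]
      apply le_antisymm inf_le_left
      intro g hg
      refine ⟨hg, ?_⟩
      show g ∈ Subgroup.centralizer (S : Set Γ)
      rw [Subgroup.mem_centralizer_iff]
      intro s hs
      have hs1 : s = 1 := by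
        rw [hSbot] at hs
        exact Subgroup.mem_bot.1 hs
      rw [hs1]
      simp
    have hιb : Function.Bijective ι := by
      refine ⟨Subgroup.inclusion_injective hCG, ?_⟩
      rintro ⟨g, hg⟩
      exact ⟨⟨g, hCeq ▸ hg⟩, rfl⟩
    have hinner := fun (χ : IrrCharacter G) (β : IrrCharacter C) => H21.classInner_comp_iso ι hιb χ β
    have hirr : ∀ χ : IrrCharacter G, IsIrrCharacter C (fun c => χ.1 (ι c)) := fun χ =>
      H21.isIrrCharacter_comp_of_surjective ι hιb.2 χ.2
    refine ⟨?_, ?_, ?_, ?_⟩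
    · intro χ _
      refine ⟨⟨_, hirr χ⟩, ⟨1, ?_, ?_⟩, ?_⟩
      · have := hinner χ ⟨_, hirr χ⟩
        simp only [if_true] at this
        show classInner (fun c => χ.1 (ι c)) (fun c => χ.1 (ι c)) = ((1 : ℕ) : ℂ)
        rw [Nat.cast_one]
        exact this
      · intro hd
        exact hp.one_lt.ne' (Nat.dvd_one.1 hd)
      · rintro β ⟨m, hm, hpm⟩
        have h1 := hinner χ β
        by_contra hne
        have h2 : ¬ (fun c => χ.1 (ι c)) = β.1 := fun e => hne (Subtype.ext e.symm)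
        rw [if_neg h2] at h1
        have h3 : (m : ℂ) = 0 := by
          rw [← hm]
          exact h1
        have h4 : m = 0 := by exact_mod_cast h3
        exact hpm (h4 ▸ dvd_zero p)
    · intro χ _ β m hm hpm
      have h1 := hinner χ β
      by_cases h2 : (fun c => χ.1 (ι c)) = β.1
      · rw [if_pos h2] at h1
        have h3 : (m : ℂ) = 1 := by
          rw [← hm]
          exact h1
        have h4 : m = 1 := by exact_mod_cast h3
        left
        rw [h4]
        rfl
      · rw [if_neg h2] at h1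
        have h3 : (m : ℂ) = 0 := by
          rw [← hm]
          exact h1
        have h4 : m = 0 := by exact_mod_cast h3
        exact absurd (h4 ▸ dvd_zero p) hpm
    · intro χ χ' _ _ β m m' hm hpm hm' hpm'
      have key : ∀ (ξ : IrrCharacter G) (n : ℕ), classInner (fun c : C => ξ.1 ⟨c, hCG c.2⟩) β.1 = n →
          ¬ p ∣ n → (fun c => ξ.1 (ι c)) = β.1 := by
        intro ξ n hn hpn
        by_contra h2
        have h1 := hinner ξ β
        rw [if_neg h2] at h1
        have h3 : (n : ℂ) = 0 := by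
          rw [← hn]
          exact h1
        have h4 : n = 0 := by exact_mod_cast h3
        exact hpn (h4 ▸ dvd_zero p)
      have e1 := (key χ m hm hpm).trans (key χ' m' hm' hpm').symm
      apply Subtype.ext
      funext g
      obtain ⟨c, rfl⟩ := hιb.2 g
      exact congrFun e1 c
    · intro β
      let e : C ≃* G := MulEquiv.ofBijective ι hιb
      have hχ : IsIrrCharacter G (fun g => β.1 (e.symm g)) :=
        H21.isIrrCharacter_comp_of_surjective e.symm.toMonoidHom e.symm.surjective β.2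
      refine ⟨⟨_, hχ⟩, ?_, 1, ?_, ?_⟩
      · intro s hs g g' e'
        have hs1 : s = 1 := by
          rw [hSbot] at hs
          exact Subgroup.mem_bot.1 hs
        have : g' = g := Subtype.ext (by rw [e', hs1]; simp)
        rw [this]
      · have h1 := hinner ⟨_, hχ⟩ β
        have h2 : (fun c => (⟨_, hχ⟩ : IrrCharacter G).1 (ι c)) = β.1 := by
          funext c
          show β.1 (e.symm (ι c)) = β.1 c
          have : ι c = e c := rfl
          rw [this, e.symm_apply_apply]
        rw [if_pos h2] at h1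
        show classInner (fun c => β.1 (e.symm (ι c))) β.1 = ((1 : ℕ) : ℂ)
        rw [Nat.cast_one]
        exact h1
      · intro hd
        exact hp.one_lt.ne' (Nat.dvd_one.1 hd)
  · have hset : H21.CopSetup (H21.conjHom G S hnorm) ι p := by
      refine ⟨Subgroup.inclusion_injective hCG, ?_, hS, hpG⟩
      intro g
      constructor
      · intro h
        have hmem : (g : Γ) ∈ C := by
          rw [hC]
          refine ⟨g.2, ?_⟩
          show (g : Γ) ∈ Subgroup.centralizer (S : Set Γ)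
          rw [Subgroup.mem_centralizer_iff]
          intro s hs
          have h1 := congrArg Subtype.val (h ⟨s, hs⟩)
          rw [H21.conjHom_apply] at h1
          simp only at h1
          calc s * g = s * g * s⁻¹ * s := by group
            _ = g * s := by rw [h1]
        exact ⟨⟨g, hmem⟩, rfl⟩
      · rintro ⟨c, rfl⟩ a
        apply Subtype.ext
        rw [H21.conjHom_apply]
        have h1 : (c : Γ) ∈ G ⊓ Subgroup.centralizer (S : Set Γ) := hC ▸ c.2
        have h2 := (Subgroup.mem_centralizer_iff.1 h1.2) a.1 a.2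
        show a.1 * (c : Γ) * a.1⁻¹ = c
        rw [h2]
        group
    have hiff := fun ξ : IrrCharacter G => H21.inv_iff G S hnorm ξ.1
    refine ⟨?_, ?_, ?_, ?_⟩
    · intro χ hχ
      have hχ' := (hiff χ).1 hχ
      obtain ⟨β, m, hm, hpm⟩ := H21.glaub_exists hset χ hχ'
      refine ⟨β, ⟨m, hm, hpm⟩, ?_⟩
      rintro γ ⟨n, hn, hpn⟩
      exact H21.glaub_unique hset χ hχ' hn hm hpn hpm
    · intro χ hχ β m hm hpm
      exact H21.glaub_sign hset χ ((hiff χ).1 hχ) hm hpm
    · intro χ χ' hχ hχ' β m m' hm hpm hm' hpm'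
      exact H21.glaub_inj hset χ χ' ((hiff χ).1 hχ) ((hiff χ').1 hχ') hm hpm hm' hpm'
    · intro β
      obtain ⟨χ, hχ, m, hm, hpm⟩ := H21.glaub_surj hset β
      exact ⟨χ, (hiff χ).2 hχ, m, hm, hpm⟩

end Cfsg.Agent.S4444
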