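import Cfsg.Statements.S4445
import Cfsg.Agent.Lib.H21.GlaubSolv

set_option autoImplicit false
open Cfsg

namespace Cfsg.Agent.S4445

/-- Inside a finite group Γ let the solvable subgroup S normalise G with the orders of G and S coprime. Then the number of S-invariant irreducible characters of G (χ(s g s⁻¹) = χ(g) for all s ∈ S, g ∈ G) equals the number of conjugacy classes of G mapped to themselves by conjugation by every element of S. -/
theorem result {Γ : Type*} [Group Γ] [Fintype Γ] (G S : Subgroup Γ) [Fintype G] (hnorm : ∀ s ∈ S, ∀ g ∈ G, s * g * s⁻¹ ∈ G) (hcop : (Nat.card G).Coprime (Nat.card S)) (hsolv : Group.IsSolvable S) : Nat.card {χ : Cfsg.IrrCharacter G // (∀ s ∈ S, ∀ g g' : G, (g' : Γ) = s * g * s⁻¹ → (χ : G → ℂ) g' = (χ : G → ℂ) g)} = Nat.card {K : ConjClasses G // ∀ s ∈ S, ∀ g g' : G, (g' : Γ) = s * g * s⁻¹ → ConjClasses.mk g = K → ConjClasses.mk g' = K} := by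
  classical
  let φ := H21.conjHom G S hnorm
  let B : Subgroup (MulAut G) := φ.range
  have hsolv' : Group.IsSolvable B := by
    exact Group.isSolvable_of_surjective (f := φ.rangeRestrict) φ.rangeRestrict_surjective
  have hcard : Nat.card B ∣ Nat.card S := by
    have e1 : Nat.card B = φ.ker.index := (Subgroup.index_ker φ).symm
    rw [e1]
    exact Subgroup.index_dvd_card _
  have hcop' : (Nat.card B).Coprime (Nat.card G) :=
    Nat.Coprime.coprime_dvd_left hcard hcop.symm
  have key := H21.count_inv (Nat.card B) G B hsolv' hcop' le_rfl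
  have e1 : Nat.card {χ : Cfsg.IrrCharacter G // (∀ s ∈ S, ∀ g g' : G, (g' : Γ) = s * g * s⁻¹ → (χ : G → ℂ) g' = (χ : G → ℂ) g)} =
      Nat.card {χ : Cfsg.IrrCharacter G // ∀ b : B, ∀ g, χ.1 (b.1 g) = χ.1 g} := by
    apply Nat.card_congr
    apply Equiv.subtypeEquivRight
    intro χ
    constructor
    · rintro h ⟨_, s, rfl⟩ g
      exact h s.1 s.2 g _ rfl
    · intro h s hs g g' e
      have : g' = φ ⟨s, hs⟩ g := Subtype.ext e
      rw [this]
      exact h ⟨φ ⟨s, hs⟩, ⟨s, hs⟩, rfl⟩ g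
  have e2 : Nat.card {K : ConjClasses G // ∀ s ∈ S, ∀ g g' : G, (g' : Γ) = s * g * s⁻¹ → ConjClasses.mk g = K → ConjClasses.mk g' = K} =
      Nat.card {K : ConjClasses G // ∀ b : B, ∀ g, ConjClasses.mk g = K → ConjClasses.mk (b.1 g) = K} := by
    apply Nat.card_congr
    apply Equiv.subtypeEquivRight
    intro K
    constructor
    · rintro h ⟨_, s, rfl⟩ g hg
      exact h s.1 s.2 g _ rfl hg
    · intro h s hs g g' e hg
      have : g' = φ ⟨s, hs⟩ g := Subtype.ext e
      rw [this]
      exact h ⟨φ ⟨s, hs⟩, ⟨s, hs⟩, rfl⟩ g hg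
  rw [e1, e2]
  exact key

end Cfsg.Agent.S4445
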