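import Cfsg.Statements.S4446
import Cfsg.Agent.Lib.H21.GlaubCyc4

set_option autoImplicit false
open Cfsg

namespace Cfsg.Agent.S4446

/-- Let the finite group Γ be generated by a normal subgroup G and a cyclic subgroup S of coprime orders, C = G ⊓ C(S), and let χ be an S-invariant irreducible character of G with canonical extension χ̂ to Γ (the extension whose determinantal order is coprime to the order of S). Then there are exactly one irreducible character β of C and one sign ε such that χ̂(c s) = ε β(c) for every c ∈ C and every generator s of S; this β is a constituent of the restriction of χ to C; distinct S-invariant χ give distinct β; and every irreducible character of C arises in this way. -/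
theorem result {Γ : Type*} [Group Γ] [Fintype Γ] (G S : Subgroup Γ) [Fintype G] (hnorm : ∀ s ∈ S, ∀ g ∈ G, s * g * s⁻¹ ∈ G) (hcop : (Nat.card G).Coprime (Nat.card S)) (htop : G ⊔ S = ⊤) (hcyc : IsCyclic S) (C : Subgroup Γ) [Fintype C] (hC : C = G ⊓ Subgroup.centralizer (S : Set Γ)) (hCG : C ≤ G) : (∀ (χ : Cfsg.IrrCharacter G) (χh : Cfsg.IrrCharacter Γ), (∀ s ∈ S, ∀ g g' : G, (g' : Γ) = s * g * s⁻¹ → (χ : G → ℂ) g' = (χ : G → ℂ) g) → (∀ g : G, (χh : Γ → ℂ) g = (χ : G → ℂ) g) → (Cfsg.detOrder (χh : Γ → ℂ)).Coprime (Nat.card S) → (∃! βε : Cfsg.IrrCharacter C × ℤ, (βε.2 = 1 ∨ βε.2 = -1) ∧ ∀ c : C, ∀ s : Γ, Subgroup.zpowers s = S → (χh : Γ → ℂ) ((c : Γ) * s) = (βε.2 : ℂ) * (βε.1 : C → ℂ) c) ∧ ∀ β : Cfsg.IrrCharacter C, ∀ ε : ℤ, (ε = 1 ∨ ε = -1) → (∀ c : C, ∀ s : Γ, Subgroup.zpowers s = S → (χh : Γ → ℂ) ((c : Γ) * s) = (ε : ℂ) * (β : C → ℂ) c) → Cfsg.classInner (fun c : C => (χ : G → ℂ) ⟨c,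 hCG c.2⟩) (β : C → ℂ) ≠ 0) ∧ (∀ (χ χ' : Cfsg.IrrCharacter G) (χh χh' : Cfsg.IrrCharacter Γ), (∀ s ∈ S, ∀ g g' : G, (g' : Γ) = s * g * s⁻¹ → (χ : G → ℂ) g' = (χ : G → ℂ) g) → (∀ s ∈ S, ∀ g g' : G, (g' : Γ) = s * g * s⁻¹ → (χ' : G → ℂ) g' = (χ' : G → ℂ) g) → (∀ g : G, (χh : Γ → ℂ) g = (χ : G → ℂ) g) → (∀ g : G, (χh' : Γ → ℂ) g = (χ' : G → ℂ) g) → (Cfsg.detOrder (χh : Γ → ℂ)).Coprime (Nat.card S) → (Cfsg.detOrder (χh' : Γ → ℂ)).Coprime (Nat.card S) → ∀ β : Cfsg.IrrCharacter C, ∀ ε ε' : ℤ, (ε = 1 ∨ ε = -1) → (ε' = 1 ∨ ε' = -1) → (∀ c : C, ∀ s : Γ, Subgroup.zpowers s = S → (χh : Γ → ℂ) ((c : Γ) * s) = (ε : ℂ) * (β : C → ℂ) c) → (∀ c : C, ∀ s : Γ, Subgroup.zpowers s = S → (χh' : Γ → ℂ) ((c : Γ) * s) = (ε' : ℂ) * (β : C → ℂ) c) → χ = χ') ∧ (∀ β : Cfsg.IrrCharacter C, ∃ (χ : Cfsg.IrrCharacter G) (χh : Cfsg.IrrCharacter Γ) (ε : ℤ), (∀ s ∈ S, ∀ g g' : G, (g' : Γ) = s * g * s⁻¹ → (χ : G → ℂ) g' =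 (χ : G → ℂ) g) ∧ (∀ g : G, (χh : Γ → ℂ) g = (χ : G → ℂ) g) ∧ (Cfsg.detOrder (χh : Γ → ℂ)).Coprime (Nat.card S) ∧ (ε = 1 ∨ ε = -1) ∧ ∀ c : C, ∀ s : Γ, Subgroup.zpowers s = S → (χh : Γ → ℂ) ((c : Γ) * s) = (ε : ℂ) * (β : C → ℂ) c) := by
  classical
  haveI : Finite Γ := Finite.of_fintype Γ
  rename_i inst3
  have hfin : inst3 = H22.fintypeOfFiniteH22 := Subsingleton.elim _ _
  subst hfin
  refine ⟨?_, ?_, ?_⟩
  · intro χ χh hinv hext hdet
    constructor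
    · obtain ⟨β, ε, hε, hf⟩ := H21.glaub_cyc_pull G S hnorm hcop htop hcyc hext hdet
      obtain ⟨a, hb, hs⟩ := H21.exists_gen_of_cyclic S hcyc
      refine ⟨(H21.toCIrr G S hnorm hC hCG β, ε), ⟨hε, fun c s hss => ?_⟩, ?_⟩
      · exact hf (H21.eqCF G S hnorm hC hCG c) s hss
      · rintro ⟨β', ε'⟩ ⟨hε', hf'⟩
        simp only at hε' hf'
        have h1 : ∀ c : C, (ε' : ℂ) * β'.1 c = (ε : ℂ) * β.1 (H21.eqCF G S hnorm hC hCG c) := by
          intro c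
          rw [← hf' c a.1 hs]
          exact hf (H21.eqCF G S hnorm hC hCG c) a.1 hs
        have h2 : ε' = ε := by
          have h10 := h1 1
          rw [map_one] at h10
          refine H21.sign_eq_of_values hε' hε ?_ ?_ h10
          · exact ⟨_, H21.irr_charDegree_pos β'.2, H21.one_eq_charDegree (H21.isCharacter_of_irr β'.2)⟩
          · exact ⟨_, H21.irr_charDegree_pos β.2, H21.one_eq_charDegree (H21.isCharacter_of_irr β.2)⟩
        subst h2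
        have hε0 : (ε' : ℂ) ≠ 0 := by
          rcases hε with rfl | rfl <;> simp
        have h3 : β' = H21.toCIrr G S hnorm hC hCG β := by
          apply Subtype.ext
          funext c
          exact mul_left_cancel₀ hε0 (h1 c)
        rw [h3]
    · intro β ε hε hf
      exact H21.glaub_cyc_constituent G S hnorm hC hCG hcyc hext hε hf
  · intro χ χ' χh χh' _ _ hext hext' _ _ β ε ε' hε hε' hf hf'
    exact H21.glaub_cyc_inj G S hnorm hcop hC hCG hcyc hext hext' hε hε' hf hf'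
  · intro β
    exact H21.glaub_cyc_surj G S hnorm hcop htop hC hCG hcyc β

end Cfsg.Agent.S4446
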