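import Cfsg.Statements.S4447
import Cfsg.Agent.Lib.H21.GlaubPerm2

set_option autoImplicit false
open Cfsg

namespace Cfsg.Agent.S4447

/-- Inside a finite group Γ let S normalise G and also normalise a normal subgroup N of G, with the order of S coprime to the index of N in G and S or G/N solvable. Then for every S-invariant irreducible character χ of G, the restriction of χ to N has an S-invariant irreducible constituent. -/
theorem result {Γ : Type*} [Group Γ] [Fintype Γ] (G S N : Subgroup Γ) [Fintype G] [Fintype N] (hnorm : ∀ s ∈ S, ∀ g ∈ G, s * g * s⁻¹ ∈ G) (hNG : N ≤ G) [hNn : (N.subgroupOf G).Normal] (hNS : ∀ s ∈ S, ∀ n ∈ N, s * n * s⁻¹ ∈ N) (hcop : (N.relIndex G).Coprime (Nat.card S)) (hsolv : Group.IsSolvable S ∨ Group.IsSolvable (G ⧸ N.subgroupOf G)) (χ : Cfsg.IrrCharacter G) (hinv : (∀ s ∈ S, ∀ g g' : G, (g' : Γ) = s * g * s⁻¹ → (χ : G → ℂ) g' = (χ : G → ℂ) g)) : ∃ θ : Cfsg.IrrCharacter N, Cfsg.classInner (fun n :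 N => (χ : G → ℂ) ⟨n, hNG n.2⟩) (θ : N → ℂ) ≠ 0 ∧ (∀ s ∈ S, ∀ g g' : N, (g' : Γ) = s * g * s⁻¹ → (θ : N → ℂ) g' = (θ : N → ℂ) g) := by
  classical
  haveI : Finite Γ := Finite.of_fintype Γ
  rename_i inst3
  have hfin : inst3 = H22.fintypeOfFiniteH22 := Subsingleton.elim _ _
  subst hfin
  let φ := H21.conjHom G S hnorm
  let N₁ : Subgroup G := N.subgroupOf G
  have hstab : ∀ a, ∀ x ∈ N₁, φ a x ∈ N₁ := by
    rintro s x hx
    rw [Subgroup.mem_subgroupOf] at hx ⊢
    exact hNS s.1 s.2 x.1 hx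
  have hinv' : ∀ a g, χ.1 (φ a g) = χ.1 g := (H21.inv_iff G S hnorm χ.1).mp hinv
  obtain ⟨θ₁, hθ₁, hθinv⟩ := H21.inv_constituent φ N₁ hstab hcop hsolv χ hinv'
  let E := Subgroup.subgroupOfEquivOfLe hNG
  refine ⟨⟨fun n => θ₁.1 (E.symm n),
    H21.isIrrCharacter_comp_of_surjective E.symm.toMonoidHom E.symm.surjective θ₁.2⟩, ?_, ?_⟩
  · intro h0
    apply hθ₁
    have e2 := H21.classInner_comp_equiv E (fun n : N => χ.1 ⟨n, hNG n.2⟩)
      (fun n => θ₁.1 (E.symm n))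
    simp only [MulEquiv.symm_apply_apply] at e2
    exact e2.trans h0
  · intro s hs g g' h
    show θ₁.1 (E.symm g') = θ₁.1 (E.symm g)
    have e : H21.resA φ N₁ hstab ⟨s, hs⟩ (E.symm g) = E.symm g' := by
      apply Subtype.ext
      apply Subtype.ext
      exact h.symm
    rw [← e]
    exact hθinv _ _

end Cfsg.Agent.S4447
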