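import Cfsg.Statements.S4448
import Cfsg.Agent.Lib.H21.GlaubPerm5

set_option autoImplicit false
open Cfsg

namespace Cfsg.Agent.S4448

/-- Inside a finite group Γ let S normalise G and also normalise a normal subgroup N of G, with the order of S coprime to the index of N in G and G/N solvable. Then for every S-invariant irreducible character ϑ of N, the induced character ϑ^G has an S-invariant irreducible constituent. -/
theorem result {Γ : Type*} [Group Γ] [Fintype Γ] (G S N : Subgroup Γ) [Fintype G] [Fintype N] (hnorm : ∀ s ∈ S, ∀ g ∈ G, s * g * s⁻¹ ∈ G) (hNG : N ≤ G) [hNn : (N.subgroupOf G).Normal] (hNS : ∀ s ∈ S, ∀ n ∈ N, s * n * s⁻¹ ∈ N) (hcop : (N.relIndex G).Coprime (Nat.card S)) (hsolv : Group.IsSolvable (G ⧸ N.subgroupOf G)) (θ : Cfsg.IrrCharacter N) (hinv : (∀ s ∈ S, ∀ g g' : N, (g' : Γ) = s * g * s⁻¹ → (θ : N → ℂ) g' = (θ : N → ℂ) g)) : ∃ χ : Cfsg.IrrCharacter G, Cfsg.classInner (fun n :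 N => (χ : G → ℂ) ⟨n, hNG n.2⟩) (θ : N → ℂ) ≠ 0 ∧ (∀ s ∈ S, ∀ g g' : G, (g' : Γ) = s * g * s⁻¹ → (χ : G → ℂ) g' = (χ : G → ℂ) g) := by
  classical
  haveI : Finite Γ := Finite.of_fintype Γ
  rename_i inst3
  have hfin : inst3 = H22.fintypeOfFiniteH22 := Subsingleton.elim _ _
  subst hfin
  let φ := H21.conjHom G S hnorm
  let N₁ : Subgroup G := N.subgroupOf G
  have hstab : ∀ a, ∀ x ∈ N₁, φ a x ∈ N₁ := by
    rintro s x hx
    rw [Subgroup.mem_subgroupOf] at hx ⊢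
    exact hNS s.1 s.2 x.1 hx
  let E := Subgroup.subgroupOfEquivOfLe hNG
  let θ₁ : IrrCharacter N₁ := ⟨fun x => θ.1 (E x),
    H21.isIrrCharacter_comp_of_surjective E.toMonoidHom E.surjective θ.2⟩
  have hθ₁ : ∀ a n, θ₁.1 (H21.resA φ N₁ hstab a n) = θ₁.1 n := by
    intro a n
    exact hinv a.1 a.2 (E n) _ rfl
  obtain ⟨χ, hχ1, hχ2⟩ := H21.inv_above _ G φ N₁ hstab le_rfl hcop
    (H21.derived_le_of_solvable N₁ hsolv) θ₁ hθ₁
  refine ⟨χ, ?_, (H21.inv_iff G S hnorm χ.1).mpr hχ2⟩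
  intro h0
  apply hχ1
  have e2 := H21.classInner_comp_equiv E (fun n : N => χ.1 ⟨n, hNG n.2⟩) θ.1
  exact e2.trans h0

end Cfsg.Agent.S4448
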