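import Cfsg.Statements.S4449
import Cfsg.Agent.Lib.H21.GlaubRel3

set_option autoImplicit false
open Cfsg

namespace Cfsg.Agent.S4449

/-- Inside a finite group Γ let the solvable subgroup S normalise G with the orders of G and S coprime, and let N be a normal subgroup of G normalised by S. Then for every S-invariant irreducible character ϑ of N, the induced character ϑ^G has an S-invariant irreducible constituent. -/
theorem result {Γ : Type*} [Group Γ] [Fintype Γ] (G S N : Subgroup Γ) [Fintype G] [Fintype N] (hnorm : ∀ s ∈ S, ∀ g ∈ G, s * g * s⁻¹ ∈ G) (hNG : N ≤ G) (hNnormal : ∀ g ∈ G, ∀ n ∈ N, g * n * g⁻¹ ∈ N) (hNS : ∀ s ∈ S, ∀ n ∈ N, s * n * s⁻¹ ∈ N) (hcop : (Nat.card G).Coprime (Nat.card S)) (hsolv : Group.IsSolvable S) (θ : Cfsg.IrrCharacter N) (hinv : (∀ s ∈ S, ∀ g g' : N, (g' : Γ) = s * g * s⁻¹ → (θ : N → ℂ) g' = (θ : N → ℂ) g)) : ∃ χ : Cfsg.IrrCharacter G, Cfsg.classInner (fun n : N => (χ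 : G → ℂ) ⟨n, hNG n.2⟩) (θ : N → ℂ) ≠ 0 ∧ (∀ s ∈ S, ∀ g g' : G, (g' : Γ) = s * g * s⁻¹ → (χ : G → ℂ) g' = (χ : G → ℂ) g) := by
  classical
  haveI : Finite Γ := Finite.of_fintype Γ
  rename_i inst3
  have hfin : inst3 = H22.fintypeOfFiniteH22 := Subsingleton.elim _ _
  subst hfin
  let ψ := H21.conjHom G S hnorm
  let B : Subgroup (MulAut G) := ψ.range
  let N₁ : Subgroup G := N.subgroupOf G
  haveI hN₁ : N₁.Normal := ⟨fun n hn g => by
    rw [Subgroup.mem_subgroupOf] at hn ⊢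
    exact hNnormal g.1 g.2 n.1 hn⟩
  have hNB : ∀ b : B, ∀ x ∈ N₁, b.1 x ∈ N₁ := by
    rintro ⟨_, s, rfl⟩ x hx
    rw [Subgroup.mem_subgroupOf] at hx ⊢
    exact hNS s.1 s.2 x.1 hx
  have hsolv' : Group.IsSolvable B := by
    haveI := hsolv
    exact Group.isSolvable_of_surjective (f := ψ.rangeRestrict) ψ.rangeRestrict_surjective
  have hcardB : Nat.card B ∣ Nat.card S := by
    have e1 : Nat.card B = ψ.ker.index := (Subgroup.index_ker ψ).symm
    rw [e1]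
    exact Subgroup.index_dvd_card _
  have hcop' : (Nat.card B).Coprime (Nat.card G) :=
    Nat.Coprime.coprime_dvd_left hcardB hcop.symm
  let E := Subgroup.subgroupOfEquivOfLe hNG
  let θ₁ : IrrCharacter N₁ := ⟨fun x => θ.1 (E x),
    H21.isIrrCharacter_comp_of_surjective E.toMonoidHom E.surjective θ.2⟩
  have hθ₁ : ∀ (b : B) (x : N₁), θ₁.1 (H21.resN N₁ hNB b x) = θ₁.1 x := by
    rintro ⟨_, s, rfl⟩ x
    exact hinv s.1 s.2 (E x) (E (H21.resN N₁ hNB ⟨ψ s, s, rfl⟩ x)) rfl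
  obtain ⟨χ, hχne, hχinv⟩ := H21.rel_main _ G B N₁ hNB hsolv' hcop' le_rfl θ₁ hθ₁
  refine ⟨χ, ?_, ?_⟩
  · have e2 := H21.classInner_comp_equiv E (fun n : N => χ.1 ⟨n, hNG n.2⟩) θ.1
    rw [← e2]
    exact hχne
  · rw [H21.inv_iff G S hnorm]
    intro a g
    exact hχinv ⟨ψ a, a, rfl⟩ g

end Cfsg.Agent.S4449
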