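import Cfsg.Statements.S4451
import Cfsg.Agent.Lib.H21.GlaubCyc6

set_option autoImplicit false
open Cfsg

namespace Cfsg.Agent.S4451

/-- Let the finite group Γ be generated by a normal subgroup G and a cyclic subgroup S of coprime orders such that every non-identity element of S has the same centraliser C = G ⊓ C(S) in G. Let χ be an S-invariant irreducible character of G, χ̂ its canonical extension to Γ (determinantal order coprime to the order of S), and β the irreducible character of C with χ̂(c s) = ε₀ β(c) for c ∈ C and generators s of S (ε₀ = ±1). Then there are a sign ε = ±1, which may differ from ε₀, and a linear character μ of S with μ² = 1, such that: (a) χ̂(c x) = ε β(c) μ(x) for all c ∈ C and all x ∈ S other than 1; (b) the restriction of χ to C equals |S|·ϑ + ε β for some character ϑ of C or ϑ = 0; (c) |S| divides χ(1) − ε β(1). -/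
theorem result {Γ : Type*} [Group Γ] [Fintype Γ] (G S : Subgroup Γ) [Fintype G] (hnorm : ∀ s ∈ S, ∀ g ∈ G, s * g * s⁻¹ ∈ G) (hcop : (Nat.card G).Coprime (Nat.card S)) (htop : G ⊔ S = ⊤) (hcyc : IsCyclic S) (C : Subgroup Γ) [Fintype C] (hC : C = G ⊓ Subgroup.centralizer (S : Set Γ)) (hCG : C ≤ G) (hfpf : ∀ x ∈ S, x ≠ 1 → G ⊓ Subgroup.centralizer ({x} : Set Γ) = C) (χ : Cfsg.IrrCharacter G) (hinv : (∀ s ∈ S, ∀ g g' : G, (g' : Γ) = s * g * s⁻¹ → (χ : G → ℂ) g' = (χ : G → ℂ) g)) (χh : Cfsg.IrrCharacter Γ) (hext : (∀ g : G, (χh : Γ → ℂ) g = (χ : G → ℂ) g)) (hdet : (Cfsg.detOrder (χh : Γ → ℂ)).Coprime (Nat.card S)) (β : Cfsg.IrrCharacter C) (ε₀ : ℤ) (hε₀ : ε₀ = 1 ∨ ε₀ = -1) (hβ : ∀ c : C, ∀ s : Γ, Subgroup.zpowers s = S → (χh : Γ → ℂ) ((c : Γ) * s) = (ε₀ : ℂ) * (β : C → ℂ) c) : ∃ ε : ℤ, (ε = 1 ∨ ε = -1) ∧ (∃ μ : S → ℂ, Cfsg.IsCharacter S μ ∧ μ 1 = 1 ∧ (∀ x : S, μ x * μ x = 1) ∧ ∀ c : C, ∀ x : S, x ≠ 1 → (χh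 : Γ → ℂ) ((c : Γ) * x) = (ε : ℂ) * (β : C → ℂ) c * μ x) ∧ (∃ ϑ : C → ℂ, Cfsg.IsCharacter C ϑ ∧ (fun c : C => (χ : G → ℂ) ⟨c, hCG c.2⟩) = fun c => (Nat.card S : ℂ) * ϑ c + (ε : ℂ) * (β : C → ℂ) c) ∧ (Nat.card S : ℤ) ∣ (Cfsg.charDegree (χ : G → ℂ) : ℤ) - ε * (Cfsg.charDegree (β : C → ℂ) : ℤ) := by
  classical
  haveI : Finite Γ := Finite.of_fintype Γ
  let φ := H21.conjHom G S hnorm
  let ψ : G ⋊[φ] S → ℂ := fun x => χh.1 (H21.liftE G S hnorm x)
  have hψ : IsIrrCharacter _ ψ :=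
    H21.isIrrCharacter_comp_of_surjective (H21.liftE G S hnorm)
      (H21.liftE_surj G S hnorm htop) χh.2
  have hirr : IsIrrCharacter G (fun k => ψ (SemidirectProduct.inl k)) := by
    have : (fun k => ψ (SemidirectProduct.inl k)) = χ.1 := by
      funext k
      show χh.1 (H21.liftE G S hnorm (SemidirectProduct.inl k)) = _
      rw [H21.liftE_inl]
      exact hext k
    rw [this]
    exact χ.2
  have hdet' : (detOrder ψ).Coprime (Nat.card S) :=
    Nat.Coprime.coprime_dvd_left (H21.detOrder_comp_hom_dvd _ (H21.isCharacter_of_irr χh.2)) hdet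
  obtain ⟨a, hb, hs⟩ := H21.exists_gen_of_cyclic S hcyc
  have hfix : ∀ x, x ≠ 1 → ∀ k, φ x k = k → k ∈ H21.CF φ := by
    intro x hx k hk
    have hx' : (x : Γ) ≠ 1 := fun h => hx (Subtype.ext h)
    have h1 := congrArg Subtype.val hk
    rw [H21.conjHom_apply] at h1
    have h2 : (k : Γ) ∈ G ⊓ Subgroup.centralizer ({(x : Γ)} : Set Γ) := by
      refine Subgroup.mem_inf.mpr ⟨k.2, ?_⟩
      rw [Subgroup.mem_centralizer_iff]
      intro h hh
      rw [Set.mem_singleton_iff] at hh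
      subst hh
      exact mul_inv_eq_iff_eq_mul.mp h1
    rw [hfpf x.1 x.2 hx'] at h2
    exact H21.mem_CF_of_mem G S hnorm hC h2 k.2
  have hf := H21.fC_ofC G S hnorm hC hCG (χh := χh) (β := β) (ε := (ε₀ : ℂ)) hs (fun c s hss => hβ c s hss)
  obtain ⟨δ, μ, ϑ, hδ, hϑ, hμ, hval, hres⟩ := H21.glaub_fpf hb hcop hψ hirr hdet' hfix hε₀ hf
  have hA := H23.comm_of_gen hb
  have hβe : ∀ c : C, (H21.ofCIrr G S hnorm hC hCG β).1 (H21.eqCF G S hnorm hC hCG c) = β.1 c := by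
    intro c
    show β.1 ((H21.eqCF G S hnorm hC hCG).symm (H21.eqCF G S hnorm hC hCG c)) = _
    rw [MulEquiv.symm_apply_apply]
  have hresC : ∀ c : C, χ.1 ⟨c, hCG c.2⟩ = (Nat.card S : ℂ) * ϑ (H21.eqCF G S hnorm hC hCG c)
      + (δ : ℂ) * β.1 c := by
    intro c
    have h1 := hres (H21.eqCF G S hnorm hC hCG c)
    rw [hβe] at h1
    rw [← h1]
    show _ = χh.1 (H21.liftE G S hnorm (SemidirectProduct.inl _))
    rw [H21.liftE_inl]
    exact (hext _).symm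
  refine ⟨δ, hδ, ⟨μ.1, H21.isCharacter_of_irr μ.2, ?_, hμ, ?_⟩,
    ⟨fun c => ϑ (H21.eqCF G S hnorm hC hCG c), ?_, ?_⟩, ?_⟩
  · exact H21.linear_one (H21.isCharacter_of_irr μ.2) (H21.irr_degree_one_of_comm hA μ.2)
  · intro c x hx
    have h1 := hval x hx (H21.eqCF G S hnorm hC hCG c)
    rw [hβe, H21.fC_liftE] at h1
    exact h1
  · exact H21.isCharacter_comp (H21.eqCF G S hnorm hC hCG).toMonoidHom hϑ
  · funext c
    exact hresC c
  · have h1 := hresC 1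
    have h2 : χ.1 ⟨((1 : C) : Γ), hCG (1 : C).2⟩ = χ.1 1 := rfl
    rw [h2, map_one, H21.one_eq_charDegree (H21.isCharacter_of_irr χ.2),
      H21.one_eq_charDegree hϑ, H21.one_eq_charDegree (H21.isCharacter_of_irr β.2)] at h1
    refine ⟨(charDegree ϑ : ℤ), ?_⟩
    have h3 : (((charDegree χ.1 : ℤ) - δ * (charDegree β.1 : ℤ) : ℤ) : ℂ)
        = (((Nat.card S : ℤ) * (charDegree ϑ : ℤ) : ℤ) : ℂ) := by
      push_cast
      rw [h1]
      ring
    exact_mod_cast h3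

end Cfsg.Agent.S4451
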