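import Cfsg.Statements.S4462
import Cfsg.Agent.Lib.H21.BroGar

set_option autoImplicit false
open Cfsg

namespace Cfsg.Agent.S4462

universe u

private def SeriesOf (G : Type u) [Group G] (m : ℕ) : Prop :=
  ∃ N : ℕ → Subgroup G, N 0 = ⊥ ∧ N m = ⊤ ∧ Monotone N ∧ (∀ i, (N i).Normal) ∧
    ∀ i, ∀ h : ((N i).subgroupOf (N (i + 1))).Normal,
      Group.IsNilpotent (↥(N (i + 1)) ⧸ (N i).subgroupOf (N (i + 1)))

private theorem nil_quot {G : Type u} [Group G] (A B : Subgroup G) (hB : Group.IsNilpotent B)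
    (h : (A.subgroupOf B).Normal) : Group.IsNilpotent (↥B ⧸ A.subgroupOf B) :=
  haveI := hB
  haveI := h
  Group.nilpotent_quotient_of_nilpotent _

private theorem nil_lift {G : Type u} [Group G] (F : Subgroup G) [hF : F.Normal]
    (A B : Subgroup (G ⧸ F)) (hA : A.Normal)
    (hnil : ∀ h : (A.subgroupOf B).Normal, Group.IsNilpotent (↥B ⧸ A.subgroupOf B))
    (h' : ((A.comap (QuotientGroup.mk' F)).subgroupOf (B.comap (QuotientGroup.mk' F))).Normal) :
    Group.IsNilpotent (↥(B.comap (QuotientGroup.mk' F)) ⧸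
      (A.comap (QuotientGroup.mk' F)).subgroupOf (B.comap (QuotientGroup.mk' F))) := by
  haveI hAB : (A.subgroupOf B).Normal := Subgroup.Normal.subgroupOf hA B
  haveI := hnil hAB
  let f : (B.comap (QuotientGroup.mk' F)) →* (↥B ⧸ A.subgroupOf B) :=
    (QuotientGroup.mk' (A.subgroupOf B)).comp
      (((QuotientGroup.mk' F).comp (B.comap (QuotientGroup.mk' F)).subtype).codRestrict B
        (fun d => d.2))
  have hker : (A.comap (QuotientGroup.mk' F)).subgroupOf (B.comap (QuotientGroup.mk' F)) ≤ f.ker := by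
    intro d hd
    rw [MonoidHom.mem_ker]
    show ((⟨QuotientGroup.mk' F d, d.2⟩ : B) : ↥B ⧸ A.subgroupOf B) = 1
    rw [QuotientGroup.eq_one_iff]
    exact Subgroup.mem_subgroupOf.2 (Subgroup.mem_subgroupOf.1 hd)
  let g := QuotientGroup.lift _ f hker
  have hg : Function.Injective g := by
    rw [injective_iff_map_eq_one]
    intro a ha
    obtain ⟨d, rfl⟩ := QuotientGroup.mk'_surjective _ a
    have h1 : f d = 1 := ha
    have h2 : ((⟨QuotientGroup.mk' F d, d.2⟩ : B) : ↥B ⧸ A.subgroupOf B) = 1 := h1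
    rw [QuotientGroup.eq_one_iff] at h2
    have h3 := Subgroup.mem_subgroupOf.1 h2
    show QuotientGroup.mk' _ d = 1
    refine (QuotientGroup.eq_one_iff d).2 ?_
    exact Subgroup.mem_subgroupOf.2 h3
  have hr : Group.IsNilpotent g.range := inferInstance
  exact Group.nilpotent_of_mulEquiv (MonoidHom.ofInjective hg).symm

private theorem nil_of_comm {G : Type u} [Group G] (N : Subgroup G)
    (hab : ∀ a ∈ N, ∀ b ∈ N, a * b = b * a) : Group.IsNilpotent N := by
  have hcomm : ∀ a b : N, a * b = b * a := fun a b => Subtype.ext (hab a a.2 b b.2)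
  letI : CommGroup N := { (inferInstance : Group N) with mul_comm := hcomm }
  exact CommGroup.isNilpotent

private theorem deg_inflate {G : Type u} [Group G] [Finite G] (F : Subgroup G) [F.Normal]
    (χ : Cfsg.IrrCharacter (G ⧸ F)) :
    Cfsg.charDegree ((χ : (G ⧸ F) → ℂ) ∘ QuotientGroup.mk' F) = Cfsg.charDegree (χ : (G ⧸ F) → ℂ) := by
  have h3 := H21.one_eq_charDegree (H21.isCharacter_of_irr χ.2)
  have h4 := H21.one_eq_charDegree (H21.isCharacter_of_irr (H21.isIrr_inflate F χ.2))
  have h5 : (Cfsg.charDegree ((χ : (G ⧸ F) → ℂ) ∘ QuotientGroup.mk' F) : ℂ) =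
      Cfsg.charDegree (χ : (G ⧸ F) → ℂ) := by
    rw [← h3, ← h4]
    rfl
  exact_mod_cast h5

private theorem series_main : ∀ (n : ℕ) (G : Type u) [Group G] [Finite G], Nat.card G = n →
    Group.IsSolvable G →
    SeriesOf G (Nat.card {d : ℕ // ∃ χ : Cfsg.IrrCharacter G, Cfsg.charDegree (χ : G → ℂ) = d}) := by
  intro n
  induction n using Nat.strong_induction_on with
  | _ n ih =>
  intro G _ _ hn hs
  classical
  haveI hirrfin : Finite (Cfsg.IrrCharacter G) := inferInstance
  have hDfin : ({d : ℕ | ∃ χ : Cfsg.IrrCharacter G, Cfsg.charDegree (χ : G → ℂ) = d}).Finite :=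
    (Set.finite_range (fun χ : Cfsg.IrrCharacter G => Cfsg.charDegree (χ : G → ℂ))).subset (by
      rintro d ⟨χ, rfl⟩
      exact ⟨χ, rfl⟩)
  haveI hDfin' : Finite {d : ℕ // ∃ χ : Cfsg.IrrCharacter G, Cfsg.charDegree (χ : G → ℂ) = d} :=
    hDfin
  by_cases hnil : Group.IsNilpotent G
  · haveI := hnil
    haveI : Nonempty {d : ℕ // ∃ χ : Cfsg.IrrCharacter G, Cfsg.charDegree (χ : G → ℂ) = d} :=
      ⟨⟨_, H22.oneIrr G, rfl⟩⟩
    have hm : Nat.card {d : ℕ // ∃ χ : Cfsg.IrrCharacter G, Cfsg.charDegree (χ : G → ℂ) = d} ≠ 0 :=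
      Nat.card_pos.ne'
    refine ⟨fun i => if i = 0 then ⊥ else ⊤, by simp, if_neg hm, ?_, ?_, ?_⟩
    · refine monotone_nat_of_le_succ fun i => ?_
      by_cases h : i = 0
      · simp [h]
      · simp [h]
    · intro i
      by_cases h : i = 0
      · simp only [h, if_true]
        infer_instance
      · simp only [h, if_false]
        infer_instance
    · intro i h
      exact nil_quot _ _ inferInstance h
  · haveI hFn : (Cfsg.fittingSubgroup G).Normal := H01.fitting_normal
    have hFnil : Group.IsNilpotent (Cfsg.fittingSubgroup G) := H01.fitting_nilpotent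
    have hFtop : Cfsg.fittingSubgroup G ≠ ⊤ := by
      intro h
      apply hnil
      rw [h] at hFnil
      exact Group.isNilpotent_top.1 hFnil
    have hFbot : Cfsg.fittingSubgroup G ≠ ⊥ := by
      have htop : (⊤ : Subgroup G) ≠ ⊥ := by
        intro h
        apply hFtop
        rw [eq_top_iff, h]
        exact bot_le
      have hs' : Group.IsSolvable (⊤ : Subgroup G) :=
        Group.isSolvable_of_surjective (f := (Subgroup.topEquiv (G := G)).symm.toMonoidHom)
          (Subgroup.topEquiv (G := G)).symm.surjective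
      obtain ⟨A, hAn, hA1, -, -, -, -, -, hab⟩ := H23.exists_min_normal (⊤ : Subgroup G) htop hs'
      have hle := H01.le_fitting hAn (nil_of_comm A hab)
      intro h
      apply hA1
      rw [eq_bot_iff, ← h]
      exact hle
    have hcard : Nat.card (G ⧸ Cfsg.fittingSubgroup G) < n := by
      have h1 := Subgroup.card_eq_card_quotient_mul_card_subgroup (Cfsg.fittingSubgroup G)
      haveI : Nontrivial (Cfsg.fittingSubgroup G) := (Subgroup.nontrivial_iff_ne_bot _).2 hFbot
      have h2 : 1 < Nat.card (Cfsg.fittingSubgroup G) := Finite.one_lt_card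
      have h3 : 0 < Nat.card (G ⧸ Cfsg.fittingSubgroup G) := Nat.card_pos
      rw [← hn, h1]
      nlinarith
    haveI := hs
    obtain ⟨Nb, h0, hm, hmono, hnormal, hstep⟩ := ih _ hcard (G ⧸ Cfsg.fittingSubgroup G) rfl
      inferInstance
    -- the number of degrees grows
    have hlt : Nat.card {d : ℕ // ∃ χ : Cfsg.IrrCharacter (G ⧸ Cfsg.fittingSubgroup G),
        Cfsg.charDegree (χ : (G ⧸ Cfsg.fittingSubgroup G) → ℂ) = d} + 1 ≤
        Nat.card {d : ℕ // ∃ χ : Cfsg.IrrCharacter G, Cfsg.charDegree (χ : G → ℂ) = d} := by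
      haveI : Nonempty (Cfsg.IrrCharacter (G ⧸ Cfsg.fittingSubgroup G)) := ⟨H22.oneIrr _⟩
      obtain ⟨χb, hχb⟩ := Finite.exists_max
        (fun χ : Cfsg.IrrCharacter (G ⧸ Cfsg.fittingSubgroup G) =>
          Cfsg.charDegree (χ : (G ⧸ Cfsg.fittingSubgroup G) → ℂ))
      let χ : Cfsg.IrrCharacter G := ⟨_, H21.isIrr_inflate _ χb.2⟩
      have hdχ : Cfsg.charDegree (χ : G → ℂ) =
          Cfsg.charDegree (χb : (G ⧸ Cfsg.fittingSubgroup G) → ℂ) := deg_inflate _ χb
      have hχc := H21.isCharacter_of_irr χ.2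
      have hFK : Cfsg.fittingSubgroup G ≤ H21.charKer χ.1 hχc := by
        intro f hf
        rw [H21.mem_charKer]
        show χb.1 (QuotientGroup.mk' _ f) = χb.1 (QuotientGroup.mk' _ 1)
        have h1 : QuotientGroup.mk' (Cfsg.fittingSubgroup G) f = 1 := (QuotientGroup.eq_one_iff f).2 hf
        rw [h1, map_one]
      have hex : ∃ ψ : Cfsg.IrrCharacter G, Cfsg.charDegree (χ : G → ℂ) < Cfsg.charDegree (ψ : G → ℂ) := by
        by_cases hKnil : Group.IsNilpotent (H21.charKer χ.1 hχc)
        · have hKF : H21.charKer χ.1 hχc = Cfsg.fittingSubgroup G :=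
            le_antisymm (H01.le_fitting inferInstance hKnil) hFK
          have hsq : Group.IsSolvable (G ⧸ H21.charKer χ.1 hχc) := inferInstance
          obtain ⟨ψ, hψ, -⟩ := H21.larger_of_fitting χ (H21.charKer χ.1 hχc) (fun g => Iff.rfl)
            (fun A hA hn' => by
              rw [hKF]
              exact H01.le_fitting hA hn') hsq (by
              rw [hKF]
              exact hFtop)
          exact ⟨ψ, hψ⟩
        · obtain ⟨ψ, hψ, -⟩ := H21.larger_of_not_nilpotent χ (H21.charKer χ.1 hχc)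
            (fun g => Iff.rfl) hKnil
          exact ⟨ψ, hψ⟩
      obtain ⟨ψ, hψ⟩ := hex
      have hss : {d : ℕ | ∃ χ : Cfsg.IrrCharacter (G ⧸ Cfsg.fittingSubgroup G),
          Cfsg.charDegree (χ : (G ⧸ Cfsg.fittingSubgroup G) → ℂ) = d} ⊂
          {d : ℕ | ∃ χ : Cfsg.IrrCharacter G, Cfsg.charDegree (χ : G → ℂ) = d} := by
        constructor
        · rintro d ⟨χ₁, rfl⟩
          exact ⟨⟨_, H21.isIrr_inflate _ χ₁.2⟩, deg_inflate _ χ₁⟩
        · intro hsub
          obtain ⟨χ₂, hχ₂⟩ := hsub ⟨ψ, rfl⟩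
          have h1 : Cfsg.charDegree (χ₂ : (G ⧸ Cfsg.fittingSubgroup G) → ℂ) ≤
              Cfsg.charDegree (χb : (G ⧸ Cfsg.fittingSubgroup G) → ℂ) := hχb χ₂
          rw [hχ₂] at h1
          omega
      have h1 := Set.ncard_lt_ncard hss hDfin
      rw [← Nat.card_coe_set_eq, ← Nat.card_coe_set_eq] at h1
      exact h1
    -- lift the series
    let N' : ℕ → Subgroup G := fun i => Nat.casesOn i ⊥ (fun j => (Nb j).comap (QuotientGroup.mk' _))
    have hN'0 : N' 0 = ⊥ := rfl
    have hN's : ∀ j, N' (j + 1) = (Nb j).comap (QuotientGroup.mk' _) := fun j => rfl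
    have hmono' : Monotone N' := by
      refine monotone_nat_of_le_succ fun i => ?_
      cases i with
      | zero => exact bot_le
      | succ j => exact Subgroup.comap_mono (hmono (Nat.le_succ j))
    have htop' : N' (Nat.card {d : ℕ // ∃ χ : Cfsg.IrrCharacter (G ⧸ Cfsg.fittingSubgroup G),
        Cfsg.charDegree (χ : (G ⧸ Cfsg.fittingSubgroup G) → ℂ) = d} + 1) = ⊤ := by
      rw [hN's, hm]
      exact Subgroup.comap_top _
    refine ⟨N', rfl, ?_, hmono', ?_, ?_⟩
    · rw [eq_top_iff, ← htop']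
      exact hmono' hlt
    · intro i
      cases i with
      | zero =>
        show (⊥ : Subgroup G).Normal
        infer_instance
      | succ j => exact Subgroup.Normal.comap (hnormal j) _
    · intro i
      cases i with
      | zero =>
        intro h
        refine nil_quot _ _ ?_ h
        have h1 : N' (0 + 1) = Cfsg.fittingSubgroup G := by
          rw [hN's, h0]
          ext g
          simp only [Subgroup.mem_comap, Subgroup.mem_bot]
          exact QuotientGroup.eq_one_iff g
        rw [h1]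
        exact hFnil
      | succ j =>
        intro h
        exact nil_lift _ (Nb j) (Nb (j + 1)) (hnormal j) (hstep j) h
/-- Let G be a finite solvable group with exactly n distinct irreducible character degrees. Then G has normal subgroups 1 = N₀ ≤ N₁ ≤ ⋯ ≤ Nₙ = G with every quotient N_{i+1}/N_i nilpotent (the nilpotent length of G is at most n). -/
theorem result {G : Type*} [Group G] [Finite G] (hsolv : Group.IsSolvable G) (n : ℕ) (hcd : Nat.card {d : ℕ // ∃ χ : Cfsg.IrrCharacter G, Cfsg.charDegree (χ : G → ℂ) = d} = n) : ∃ N : Fin (n + 1) → Subgroup G, N 0 = ⊥ ∧ N (Fin.last n) = ⊤ ∧ Monotone N ∧ (∀ i, (N i).Normal) ∧ ∀ i : Fin n, ∀ h : (N i.castSucc).subgroupOf (N i.succ) |>.Normal, Group.IsNilpotent (↥(N i.succ) ⧸ (N i.castSucc).subgroupOf (N i.succ)) := by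
  classical
  subst hcd
  obtain ⟨N, h0, hm, hmono, hnormal, hstep⟩ := series_main _ G rfl hsolv
  refine ⟨fun i => N i.val, h0, hm, ?_, fun i => hnormal _, fun i h => hstep i.val h⟩
  intro a b hab
  exact hmono hab

end Cfsg.Agent.S4462
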