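import Mathlib
import Cfsg.Statements.S4466
import Cfsg.Agent.Lib.H17.Pd7
import Cfsg.Agent.Lib.H23.CommSyl2

set_option autoImplicit false
set_option linter.style.longLine false
open Cfsg

namespace Cfsg.Agent.S4466

open Cfsg.Agent.H21

universe u

/-- the degree of a constituent of the restriction to a normal subgroup divides -/
lemma exists_degree_dvd {G : Type u} [Group G] [Fintype G] (N : Subgroup G) [hN : N.Normal] (θ : IrrCharacter N) :
    ∃ χ : IrrCharacter G, charDegree (θ : N → ℂ) ∣ charDegree (χ : G → ℂ) := by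
  classical
  letI : Fintype (IrrCharacter G) := Fintype.ofFinite _
  letI : Fintype (IrrCharacter N) := Fintype.ofFinite _
  letI : Fintype N := Fintype.ofFinite _
  have hind := isCharacter_indFun (H := N) (isCharacter_of_irr θ.2)
  have hψ1 : (θ : N → ℂ) 1 ≠ 0 := H03.PC.irr_one_ne θ
  have hcd := charDegree_indFun (H := N) (isCharacter_of_irr θ.2)
  have hpos : 0 < charDegree (θ : N → ℂ) := by
    rw [one_eq_charDegree (isCharacter_of_irr θ.2)] at hψ1
    exact Nat.pos_of_ne_zero (by exact_mod_cast hψ1)
  have hne : indFun N (θ : N → ℂ) 1 ≠ 0 := by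
    rw [one_eq_charDegree hind, hcd]
    have h2 : N.index ≠ 0 := Subgroup.index_ne_zero_of_finite
    exact_mod_cast (Nat.mul_ne_zero h2 hpos.ne')
  obtain ⟨χ, hχ⟩ := Cfsg.Agent.H01.exists_constituent hind hne
  have hcl := isClassFunction_of_isCharacter (isCharacter_of_irr χ.2)
  rw [frobenius_reciprocity (H := N) (θ : N → ℂ) (χ : G → ℂ) hcl] at hχ
  have hχ' : classInner (fun x : N => (χ : G → ℂ) x) (θ : N → ℂ) ≠ 0 := by
    intro h0
    have h5 := classInner_comm_conj (fun x : N => (χ : G → ℂ) x) (θ : N → ℂ)
    rw [h0, map_zero] at h5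
    exact hχ h5.symm
  have h6 := Cfsg.Agent.H22.clifford_degree_dvd N (H06.inertiaSub N θ.1)
    (H06.le_inertiaSub N (isClassFunction_of_isCharacter (isCharacter_of_irr θ.2))) θ.2
    (fun g => Iff.rfl) χ.2 hχ'
  exact ⟨χ, (Dvd.intro_left _ rfl).trans h6⟩

theorem main (n : ℕ) : ∀ (G : Type u) [Group G] [Finite G], Nat.card G = n →
    (∀ χ : IrrCharacter G, charDegree (χ : G → ℂ) ≠ 1 → (charDegree (χ : G → ℂ)).Prime) → Group.IsSolvable G := by
  induction n using Nat.strong_induction_on with
  | _ n ih =>
  intro G _ _ hn h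
  classical
  letI := Fintype.ofFinite G
  by_cases hab : ∀ a b : G, a * b = b * a
  · exact isSolvable_of_comm hab
  · push Not at hab
    by_cases hs : ∀ N : Subgroup G, N.Normal → N = ⊥ ∨ N = ⊤
    · exfalso
      refine Cfsg.Agent.H17.PD.no_simple hs hab (fun ψ => ?_)
      by_cases h1 : charDegree (ψ : G → ℂ) = 1
      · exact Or.inl h1
      · exact Or.inr (h ψ h1)
    · push Not at hs
      obtain ⟨N, hN, hbot, htop⟩ := hs
      haveI := hN
      have hcardN : Nat.card N < Nat.card G := by
        refine lt_of_le_of_ne (Subgroup.card_le_card_group N) ?_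
        intro h1
        exact htop (Subgroup.eq_top_of_card_eq N h1)
      have hcardN1 : 1 < Nat.card N := by
        have h1 : Nat.card N ≠ 1 := fun h1 => hbot (Subgroup.eq_bot_of_card_eq N h1)
        have h2 : Nat.card N ≠ 0 := Nat.card_pos.ne'
        omega
      have hcardQ : Nat.card (G ⧸ N) < Nat.card G := by
        have h1 := Subgroup.card_eq_card_quotient_mul_card_subgroup N
        have h2 : 0 < Nat.card (G ⧸ N) := Nat.card_pos
        rw [h1]
        nlinarith
      have h1 : Group.IsSolvable N := by
        refine ih (Nat.card N) (hn ▸ hcardN) N rfl (fun θ hθ => ?_)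
        letI := Fintype.ofFinite N
        obtain ⟨χ, hχ⟩ := exists_degree_dvd N θ
        have hχ1 : charDegree (χ : G → ℂ) ≠ 1 := by
          intro h2
          rw [h2] at hχ
          exact hθ (Nat.dvd_one.1 hχ)
        have h3 := h χ hχ1
        rcases (Nat.dvd_prime h3).1 hχ with h4 | h4
        · exact absurd h4 hθ
        · rw [h4]
          exact h3
      have h2 : Group.IsSolvable (G ⧸ N) := by
        refine ih (Nat.card (G ⧸ N)) (hn ▸ hcardQ) (G ⧸ N) rfl (fun θ hθ => ?_)
        letI : Fintype (G ⧸ N) := Fintype.ofFinite _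
        let ψ : IrrCharacter G := ⟨_, isIrrCharacter_comp_of_surjective (QuotientGroup.mk' N) (QuotientGroup.mk'_surjective N) θ.2⟩
        have hd : charDegree (ψ : G → ℂ) = charDegree (θ : (G ⧸ N) → ℂ) := by
          have h3 := one_eq_charDegree (isCharacter_of_irr ψ.2)
          have h4 := one_eq_charDegree (isCharacter_of_irr θ.2)
          have h5 : (ψ : G → ℂ) 1 = (θ : (G ⧸ N) → ℂ) 1 := by
            show (θ : (G ⧸ N) → ℂ) (QuotientGroup.mk' N 1) = _
            rw [map_one]
          rw [h5, h4] at h3
          exact_mod_cast h3.symm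
        rw [← hd]
        apply h ψ
        rw [hd]
        exact hθ
      refine solvable_of_ker_le_range N.subtype (QuotientGroup.mk' N) ?_
      rw [QuotientGroup.ker_mk', Subgroup.range_subtype]

/-- If every irreducible character of the finite group G of degree greater than one has prime degree, then G is solvable. -/
theorem result {G : Type*} [Group G] [Finite G] (h : ∀ χ : Cfsg.IrrCharacter G, Cfsg.charDegree (χ : G → ℂ) ≠ 1 → (Cfsg.charDegree (χ : G → ℂ)).Prime) : Group.IsSolvable G := by
  exact main (Nat.card G) G rfl h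

end Cfsg.Agent.S4466
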