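import Cfsg.Statements.S4475
import Cfsg.Agent.Lib.H23.RealRep1

set_option autoImplicit false
open Cfsg

namespace Cfsg.Agent.S4475

open Cfsg.Agent

/-- Let ρ be an irreducible representation of the finite group G on the coordinate space Fin n → ℂ whose character χ is real-valued, and let ν be the Frobenius–Schur indicator of χ (the average of χ(s²)). Writing X(g) for the matrix of ρ(g), there is a nonzero matrix M with X(g)ᵀ M X(g) = M for all g ∈ G; and every such M (zero or not) satisfies Mᵀ = ν·M. -/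
theorem result {G : Type*} [Group G] [Fintype G] (n : ℕ) (ρ : Representation ℂ G (Fin n → ℂ)) (hirr : ρ.IsIrreducible) (hreal : ∀ g : G, (ρ.character g).im = 0) : (∃ M : Matrix (Fin n) (Fin n) ℂ, M ≠ 0 ∧ ∀ g : G, (LinearMap.toMatrix' (ρ g)).transpose * M * LinearMap.toMatrix' (ρ g) = M) ∧ ∀ M : Matrix (Fin n) (Fin n) ℂ, (∀ g : G, (LinearMap.toMatrix' (ρ g)).transpose * M * LinearMap.toMatrix' (ρ g) = M) → M.transpose = ((Nat.card G : ℂ)⁻¹ * ∑ s : G, ρ.character (s * s)) • M := by
  classical
  have hI : Cfsg.IsIrrCharacter G ρ.character := ⟨n, ρ, hirr, rfl⟩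
  refine ⟨H23.rr_form_exists ρ hI hreal, fun M hM => ?_⟩
  exact H23.rr_form_symm ρ hI hreal hM

end Cfsg.Agent.S4475
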