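import Cfsg.Statements.S4477
import Cfsg.Agent.Lib.H18.Roquette
import Cfsg.Agent.Lib.H18.PNormal
import Cfsg.Agent.Lib.H23.TwoMax
import Cfsg.Agent.Lib.H01.MaxClass2
import Cfsg.Agent.Lib.H06.Nilp

set_option autoImplicit false
open Cfsg

namespace Cfsg.Agent.S4477

open Subgroup


section

variable {G : Type*} [Group G] [Finite G]

/-- A set closed under right multiplication by `R` is a union of cosets. -/
theorem dvd_card_right_inv (R : Subgroup G) (S : Set G) (h : ∀ s ∈ S, ∀ r ∈ R, s * r ∈ S) :
    Nat.card R ∣ Nat.card S := by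
  classical
  let t : Set (G ⧸ R) := (fun g : G => (g : G ⧸ R)) '' S
  have e : S = (fun g : G => (g : G ⧸ R)) ⁻¹' t := by
    ext g
    constructor
    · intro hg
      exact ⟨g, hg, rfl⟩
    · rintro ⟨s, hs, hsg⟩
      have h1 : s⁻¹ * g ∈ R := QuotientGroup.eq.1 hsg
      have h2 := h s hs _ h1
      simpa using h2
  have h3 := Nat.card_congr (QuotientGroup.preimageMkEquivSubgroupProdSet R t)
  rw [Nat.card_prod] at h3
  have h4 : Nat.card S = Nat.card ((fun g : G => (g : G ⧸ R)) ⁻¹' t) := by
    exact congrArg (fun X : Set G => Nat.card X) e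
  rw [h4]
  exact ⟨_, h3⟩


theorem dvd_card_finset (R : Subgroup G) [Fintype G] (S : Finset G) (h : ∀ s ∈ S, ∀ r ∈ R, s * r ∈ S) :
    Nat.card R ∣ S.card := by
  have h1 := dvd_card_right_inv R (S : Set G) (by simpa using h)
  have h2 : Nat.card (S : Set G) = S.card := by
    rw [Nat.card_coe_set_eq, Set.ncard_coe_finset]
  rwa [h2] at h1

theorem index_four_of_inv {c x : G} {a : ℕ} (hc : orderOf c = 2 ^ a) (ha : 2 ≤ a)
    (hC : (zpowers c).index = 2) (hk : x * c * x⁻¹ = c⁻¹) : (commutator G).index = 4 := by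
  have h4 : 4 ≤ 2 ^ a := by
    calc 4 = 2 ^ 2 := by norm_num
      _ ≤ 2 ^ a := Nat.pow_le_pow_right (by norm_num) ha
  have hx : x ∉ zpowers c := by
    intro h
    obtain ⟨i, rfl⟩ := mem_zpowers_iff.1 h
    have e : c ^ i * c * (c ^ i)⁻¹ = c := by
      rw [(Commute.zpow_self c i).eq, mul_inv_cancel_right]
    rw [e] at hk
    have h2 : c ^ 2 = 1 := by
      rw [pow_two]
      nth_rw 1 [hk]
      simp
    have h3 := orderOf_dvd_of_pow_eq_one h2
    rw [hc] at h3
    have := Nat.le_of_dvd (by norm_num) h3
    omega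
  refine H23.twoMax_index_four hc ha hC hx (k := 2 ^ a - 1) ?_ ?_
  · rw [hk]
    apply inv_eq_of_mul_eq_one_left
    rw [← pow_succ, Nat.sub_add_cancel (by omega), ← hc, pow_orderOf_eq_one]
  · obtain ⟨b, rfl⟩ : ∃ b, a = b + 2 := ⟨a - 2, by omega⟩
    have : 2 ^ (b + 2) = 4 * 2 ^ b := by rw [pow_add]; ring
    have h5 : 0 < 2 ^ b := by positivity
    omega

theorem zpowers_index_two {c : G} {a : ℕ} (hc : orderOf c = 2 ^ a) (hcard : Nat.card G = 2 ^ (a + 1)) :
    (zpowers c).index = 2 := by
  have h1 := (zpowers c).card_mul_index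
  rw [Nat.card_zpowers, hc, hcard, pow_succ] at h1
  exact Nat.eq_of_mul_eq_mul_left (by positivity) h1

theorem index_four_of_no_E4 (hG : IsPGroup 2 G) (hnc : ¬ IsCyclic G)
    (hno : ∀ R : Subgroup G, R.Normal → Nat.card R = 4 → ¬ ∀ x ∈ R, x * x = 1) :
    (commutator G).index = 4 := by
  classical
  haveI : Fact (Nat.Prime 2) := ⟨Nat.prime_two⟩
  have hn : ∀ A : Subgroup G, A.Normal → IsMulCommutative A → IsCyclic A := by
    intro A hAn hAab
    by_contra hAc
    have hu : ¬ H14.UniqueP 2 A := fun hu =>
      hAc (H14.isCyclic_of_comm_uniqueP (hG.to_subgroup A) (fun x y => hAab.is_comm.comm x y) hu)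
    unfold H14.UniqueP at hu
    push_neg at hu
    obtain ⟨x, y, hx, hy, hxy⟩ := hu
    have hcomm : ∀ a ∈ A, ∀ b ∈ A, a * b = b * a := by
      intro a ha b hb
      exact congrArg Subtype.val (hAab.is_comm.comm ⟨a, ha⟩ ⟨b, hb⟩)
    let V : Subgroup G :=
      { carrier := {a | a ∈ A ∧ a * a = 1}
        one_mem' := ⟨A.one_mem, one_mul 1⟩
        mul_mem' := by
          rintro a b ⟨ha, ha2⟩ ⟨hb, hb2⟩
          refine ⟨A.mul_mem ha hb, ?_⟩
          calc a * b * (a * b) = a * (b * a) * b := by group
            _ = a * (a * b) * b := by rw [hcomm b hb a ha]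
            _ = (a * a) * (b * b) := by group
            _ = 1 := by rw [ha2, hb2, one_mul]
        inv_mem' := by
          rintro a ⟨ha, ha2⟩
          refine ⟨A.inv_mem ha, ?_⟩
          rw [← mul_inv_rev, ha2, inv_one] }
    have hVn : V.Normal := by
      constructor
      rintro a ⟨ha, ha2⟩ g
      refine ⟨hAn.conj_mem a ha g, ?_⟩
      calc g * a * g⁻¹ * (g * a * g⁻¹) = g * (a * a) * g⁻¹ := by group
        _ = 1 := by rw [ha2]; group
    have sq : ∀ w : A, orderOf w = 2 → (w : G) * w = 1 := by
      intro w hw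
      have := pow_orderOf_eq_one w
      rw [hw, pow_two] at this
      exact congrArg Subtype.val this
    have hxV : (x : G) ∈ V := ⟨x.2, sq x hx⟩
    have hyV : (y : G) ∈ V := ⟨y.2, sq y hy⟩
    have h3 : 3 ≤ Nat.card V := by
      haveI := Fintype.ofFinite G
      have hx1 : (x : G) ≠ 1 := by
        intro h
        have : x = 1 := Subtype.ext h
        rw [this, orderOf_one] at hx
        omega
      have hy1 : (y : G) ≠ 1 := by
        intro h
        have : y = 1 := Subtype.ext h
        rw [this, orderOf_one] at hy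
        omega
      have hne : (x : G) ≠ y := by
        intro h
        apply hxy
        have : y = x := Subtype.ext h.symm
        rw [this]
        exact mem_zpowers x
      have h5 : ({1, (x : G), (y : G)} : Finset G).card = 3 := by
        rw [Finset.card_insert_of_notMem, Finset.card_insert_of_notMem, Finset.card_singleton]
        · simpa using hne
        · simp [hx1.symm, hy1.symm]
      have h6 : Nat.card V = (Finset.univ.filter (fun a => a ∈ V) : Finset G).card := by
        rw [Nat.card_eq_fintype_card]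
        exact Fintype.card_subtype _
      rw [h6, ← h5]
      apply Finset.card_le_card
      intro w hw
      simp only [Finset.mem_insert, Finset.mem_singleton] at hw
      simp only [Finset.mem_filter, Finset.mem_univ, true_and]
      rcases hw with rfl | rfl | rfl
      · exact V.one_mem
      · exact hxV
      · exact hyV
    have h4 : 2 ^ 2 ∣ Nat.card V := by
      obtain ⟨k, hk⟩ := IsPGroup.iff_card.1 (hG.to_subgroup V)
      rw [hk] at h3 ⊢
      apply pow_dvd_pow
      by_contra hlt
      have : k ≤ 1 := by omega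
      have h7 : 2 ^ k ≤ 2 ^ 1 := Nat.pow_le_pow_right (by norm_num) this
      omega
    obtain ⟨D, hDV, hDn, hDc⟩ := H18.exists_normal_le_card_pow hG hVn h4
    exact hno D hDn (by simpa using hDc) (fun a ha => (hDV ha).2)
  rcases H18.roquette_two hG hn hnc with ⟨n, ⟨e⟩⟩ | ⟨n, hn8, ⟨e⟩⟩ | ⟨n, hn3, hcard, x, y, hx, hy, hyx⟩
  · -- quaternion
    have hn0 : n ≠ 0 := by
      rintro rfl
      have : Finite (QuaternionGroup 0) := Finite.of_equiv G e.toEquiv
      have hi : Function.Injective (fun i : ℤ => (QuaternionGroup.a (n := 0) (show ZMod (2 * 0) from i))) :=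
        fun i j h => QuaternionGroup.a.inj h
      exact not_injective_infinite_finite _ hi
    haveI : NeZero n := ⟨hn0⟩
    obtain ⟨k, hk⟩ := IsPGroup.iff_card.1 hG
    have hcardQ : Nat.card G = 4 * n := by
      rw [Nat.card_congr e.toEquiv, Nat.card_eq_fintype_card, QuaternionGroup.card]
    rw [hcardQ] at hk
    have hk2 : 2 ≤ k := by
      by_contra hlt
      have h8 : k ≤ 1 := by omega
      have h9 : 2 ^ k ≤ 2 ^ 1 := Nat.pow_le_pow_right (by norm_num) h8
      have : 0 < n := Nat.pos_of_ne_zero hn0
      omega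
    obtain ⟨j, rfl⟩ : ∃ j, k = j + 2 := ⟨k - 2, by omega⟩
    have hnj : n = 2 ^ j := by
      have : 2 ^ (j + 2) = 4 * 2 ^ j := by rw [pow_add]; ring
      omega
    have hj : 1 ≤ j := by
      by_contra hlt
      have : j = 0 := by omega
      subst this
      have hn1 : n = 1 := by simpa using hnj
      subst hn1
      apply hnc
      have h10 : orderOf (e.symm (QuaternionGroup.xa 0)) = Nat.card G := by
        rw [MulEquiv.orderOf_eq, hcardQ]
        exact QuaternionGroup.orderOf_xa 0
      exact isCyclic_of_orderOf_eq_card _ h10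
    have hc : orderOf (e.symm (QuaternionGroup.a 1)) = 2 ^ (j + 1) := by
      rw [MulEquiv.orderOf_eq, QuaternionGroup.orderOf_a_one, hnj, pow_succ]
      ring
    refine index_four_of_inv (x := e.symm (QuaternionGroup.xa 0)) hc (by omega)
      (zpowers_index_two hc (by rw [hcardQ, hnj]; ring)) ?_
    have h1 : (QuaternionGroup.a 1 : QuaternionGroup n) * (QuaternionGroup.xa 0 * QuaternionGroup.a 1) = QuaternionGroup.xa 0 := by
      simp [QuaternionGroup.xa_mul_a, QuaternionGroup.a_mul_xa]
    have h2 : (QuaternionGroup.xa 0 : QuaternionGroup n) * QuaternionGroup.a 1 * (QuaternionGroup.xa 0)⁻¹ = (QuaternionGroup.a 1)⁻¹ := by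
      rw [eq_inv_mul_of_mul_eq h1]
      simp
    have h3 := congrArg e.symm h2
    simpa only [map_mul, map_inv] using h3
  · -- dihedral
    have hn0 : n ≠ 0 := by omega
    haveI : NeZero n := ⟨hn0⟩
    obtain ⟨k, hk⟩ := IsPGroup.iff_card.1 hG
    have hcardD : Nat.card G = 2 * n := by
      rw [Nat.card_congr e.toEquiv, DihedralGroup.nat_card]
    rw [hcardD] at hk
    have hk1 : 1 ≤ k := by
      by_contra hlt
      have : k = 0 := by omega
      subst this
      simp at hk
    obtain ⟨j, rfl⟩ : ∃ j, k = j + 1 := ⟨k - 1, by omega⟩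
    have hnj : n = 2 ^ j := by
      have : 2 ^ (j + 1) = 2 * 2 ^ j := by rw [pow_succ]; ring
      omega
    have hj : 2 ≤ j := by
      by_contra hlt
      have h8 : j ≤ 1 := by omega
      have h9 : 2 ^ j ≤ 2 ^ 1 := Nat.pow_le_pow_right (by norm_num) h8
      omega
    have hc : orderOf (e.symm (DihedralGroup.r 1)) = 2 ^ j := by
      rw [MulEquiv.orderOf_eq, DihedralGroup.orderOf_r_one, hnj]
    refine index_four_of_inv (x := e.symm (DihedralGroup.sr 0)) hc hj
      (zpowers_index_two hc (by rw [hcardD, hnj]; ring)) ?_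
    have h1 : (DihedralGroup.r 1 : DihedralGroup n) * (DihedralGroup.sr 0 * DihedralGroup.r 1) = DihedralGroup.sr 0 := by
      simp [DihedralGroup.sr_mul_r, DihedralGroup.r_mul_sr]
    have h2 : (DihedralGroup.sr 0 : DihedralGroup n) * DihedralGroup.r 1 * (DihedralGroup.sr 0)⁻¹ = (DihedralGroup.r 1)⁻¹ := by
      rw [eq_inv_mul_of_mul_eq h1]
      simp
    have h3 := congrArg e.symm h2
    simpa only [map_mul, map_inv] using h3
  · -- quasidihedral
    have hC := zpowers_index_two hx hcard
    have hK : (2 ^ (n - 1) - 1) % 4 = 3 := by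
      obtain ⟨b, rfl⟩ : ∃ b, n = b + 3 := ⟨n - 3, by omega⟩
      have e1 : 2 ^ (b + 3 - 1) = 4 * 2 ^ b := by
        rw [show b + 3 - 1 = b + 2 by omega, pow_add]; ring
      have h5 : 0 < 2 ^ b := by positivity
      omega
    refine H23.twoMax_index_four hx (by omega) hC ?_ hyx hK
    intro h
    obtain ⟨i, rfl⟩ := mem_zpowers_iff.1 h
    have e : x ^ i * x * (x ^ i)⁻¹ = x := by
      rw [(Commute.zpow_self x i).eq, mul_inv_cancel_right]
    rw [e] at hyx
    have h1 : x ^ (2 ^ (n - 1) - 2) = 1 := by
      have h2 : x ^ (2 ^ (n - 1) - 1) = x ^ (2 ^ (n - 1) - 2) * x := by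
        rw [← pow_succ]
        congr 1
        have : 2 ≤ 2 ^ (n - 1) := by
          calc 2 = 2 ^ 1 := by norm_num
            _ ≤ 2 ^ (n - 1) := Nat.pow_le_pow_right (by norm_num) (by omega)
        omega
      rw [h2] at hyx
      exact (mul_eq_right.1 hyx.symm)
    have h3 := orderOf_dvd_of_pow_eq_one h1
    rw [hx] at h3
    have h4 : 4 ≤ 2 ^ (n - 1) := by
      calc 4 = 2 ^ 2 := by norm_num
        _ ≤ 2 ^ (n - 1) := Nat.pow_le_pow_right (by norm_num) (by omega)
    have h5 := Nat.le_of_dvd (by omega) h3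
    have h6 : 2 ^ n = 2 * 2 ^ (n - 1) := by
      rw [← pow_succ']
      congr 1
      omega
    omega


theorem main_count (hG : IsPGroup 2 G) (R : Subgroup G) (hRn : R.Normal) (hRc : Nat.card R = 4)
    (hRe : ∀ x ∈ R, x * x = 1) :
    4 ∣ Nat.card {x : G // x * x = 1} ∨ (commutator G).index = 4 := by
  classical
  haveI : Fact (Nat.Prime 2) := ⟨Nat.prime_two⟩
  haveI := Fintype.ofFinite G
  haveI : Group.IsNilpotent G := hG.isNilpotent
  have hRbot : R ≠ ⊥ := by
    intro h
    rw [h] at hRc
    simp at hRc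
  obtain ⟨z, hzR, hz1, hzc⟩ := H06.exists_central_of_normal hRn hRbot
  have hzz := hRe z hzR
  have hzc' : ∀ g : G, g * z = z * g := fun g => ((Subgroup.mem_center_iff.1 hzc) g)
  have hzo : orderOf z = 2 := orderOf_eq_prime (by rw [pow_two]; exact hzz) hz1
  obtain ⟨u, huR, hu1, huz⟩ : ∃ u ∈ R, u ≠ 1 ∧ u ≠ z := by
    by_contra hc
    push_neg at hc
    have : R ≤ zpowers z := by
      intro r hr
      by_cases h : r = 1
      · rw [h]
        exact Subgroup.one_mem _
      · rw [hc r hr h]
        exact mem_zpowers z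
    have h2 := Subgroup.card_le_of_le this
    rw [Nat.card_zpowers, hzo, hRc] at h2
    omega
  have huu := hRe u huR
  have huzne1 : u * z ≠ 1 := by
    intro h
    apply huz
    have := eq_inv_of_mul_eq_one_left h
    rwa [inv_eq_of_mul_eq_one_left hzz] at this
  have huzne2 : u * z ≠ z := by
    intro h
    exact hu1 (mul_eq_right.1 h)
  have huzne3 : u * z ≠ u := by
    intro h
    exact hz1 (mul_eq_left.1 h)
  have hRcard : (Finset.univ.filter (fun a => a ∈ R) : Finset G).card = 4 := by
    rw [← hRc, Nat.card_eq_fintype_card]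
    exact (Fintype.card_subtype _).symm
  have hRcases : ∀ r ∈ R, r = 1 ∨ r = z ∨ r = u ∨ r = u * z := by
    intro r hr
    by_contra hc
    push_neg at hc
    obtain ⟨h1, h2, h3, h4⟩ := hc
    have h5 : ({r, 1, z, u, u * z} : Finset G).card = 5 := by
      rw [Finset.card_insert_of_notMem, Finset.card_insert_of_notMem, Finset.card_insert_of_notMem,
        Finset.card_insert_of_notMem, Finset.card_singleton]
      · simpa using huzne3.symm
      · simp only [Finset.mem_insert, Finset.mem_singleton, not_or]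
        exact ⟨huz.symm, huzne2.symm⟩
      · simp only [Finset.mem_insert, Finset.mem_singleton, not_or]
        exact ⟨hz1.symm, hu1.symm, huzne1.symm⟩
      · simp only [Finset.mem_insert, Finset.mem_singleton, not_or]
        exact ⟨h1, h2, h3, h4⟩
    have h6 : ({r, 1, z, u, u * z} : Finset G) ⊆ Finset.univ.filter (fun a => a ∈ R) := by
      intro w hw
      simp only [Finset.mem_insert, Finset.mem_singleton] at hw
      simp only [Finset.mem_filter, Finset.mem_univ, true_and]
      rcases hw with rfl | rfl | rfl | rfl | rfl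
      · exact hr
      · exact R.one_mem
      · exact hzR
      · exact huR
      · exact R.mul_mem huR hzR
    have h7 := Finset.card_le_card h6
    rw [h5, hRcard] at h7
    omega
  let T : Subgroup G := Subgroup.centralizer ({u} : Set G)
  have hT : ∀ g, g ∈ T ↔ u * g = g * u := by
    intro g
    simp [T, Subgroup.mem_centralizer_iff]
  have hRT : ∀ r ∈ R, r ∈ T := by
    intro r hr
    rw [hT]
    rcases hRcases r hr with rfl | rfl | rfl | rfl
    · simp
    · exact (hzc' u)
    · rfl
    · rw [mul_assoc, ← hzc' u]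
  have hTR : ∀ s ∈ T, ∀ r ∈ R, s * r = r * s := by
    intro s hs r hr
    have h1 := (hT s).1 hs
    rcases hRcases r hr with rfl | rfl | rfl | rfl
    · simp
    · exact hzc' s
    · exact h1.symm
    · rw [← mul_assoc, ← h1, mul_assoc, hzc' s, mul_assoc]
  by_cases hall : ∀ g, g ∈ T
  · left
    have h1 := dvd_card_finset R (Finset.univ.filter (fun x : G => x * x = 1)) (by
      intro s hs r hr
      simp only [Finset.mem_filter, Finset.mem_univ, true_and] at hs ⊢
      calc s * r * (s * r) = s * (r * s) * r := by group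
        _ = s * (s * r) * r := by rw [hTR s (hall s) r hr]
        _ = s * s * (r * r) := by group
        _ = 1 := by rw [hs, hRe r hr, one_mul])
    rw [hRc] at h1
    rw [Nat.card_eq_fintype_card, Fintype.card_subtype]
    exact h1
  push_neg at hall
  obtain ⟨g₀, hg₀⟩ := hall
  have hconj : ∀ g, g ∉ T → g * u * g⁻¹ = u * z := by
    intro g hg
    have h1 : g * u * g⁻¹ ∈ R := hRn.conj_mem u huR g
    rcases hRcases _ h1 with h2 | h2 | h2 | h2
    · exfalso
      apply hu1
      have := mul_inv_eq_one.1 h2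
      exact mul_eq_left.1 this
    · exfalso
      apply huz
      have h3 : g * u = z * g := mul_inv_eq_iff_eq_mul.1 h2
      rw [← hzc' g] at h3
      exact mul_left_cancel h3
    · exfalso
      apply hg
      rw [hT]
      have h3 : g * u = u * g := mul_inv_eq_iff_eq_mul.1 h2
      exact h3.symm
    · exact h2
  have hmulT : ∀ g h, g ∉ T → h ∉ T → g * h ∈ T := by
    intro g h hg hh
    rw [hT]
    have e1 := hconj g hg
    have e2 := hconj h hh
    have e3 : (g * h) * u * (g * h)⁻¹ = u := by
      calc (g * h) * u * (g * h)⁻¹ = g * (h * u * h⁻¹) * g⁻¹ := by group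
        _ = g * (u * z) * g⁻¹ := by rw [e2]
        _ = (g * u * g⁻¹) * z := by
          have : g * (u * z) * g⁻¹ = g * u * (z * g⁻¹) := by group
          rw [this, ← hzc' g⁻¹]
          group
        _ = u * z * z := by rw [e1]
        _ = u := by rw [mul_assoc, hzz, mul_one]
    have e4 : (g * h) * u = u * (g * h) := by
      nth_rw 2 [← e3]
      group
    exact e4.symm
  have hTidx : T.index = 2 := by
    rw [Subgroup.index_eq_two_iff]
    refine ⟨g₀, fun b => ?_⟩
    by_cases hb : b ∈ T
    · right
      refine ⟨hb, fun h => hg₀ ?_⟩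
      have := T.mul_mem (T.inv_mem hb) h
      simpa using this
    · left
      exact ⟨hmulT b g₀ hb hg₀, hb⟩
  haveI hTn : T.Normal := Subgroup.normal_of_index_eq_two hTidx
  obtain ⟨n, hn⟩ := IsPGroup.iff_card.1 hG
  have hTcard : Nat.card T * 2 = 2 ^ n := by
    rw [← hn, ← hTidx]
    exact T.card_mul_index
  have hRTle : R ≤ T := hRT
  have h4T : 4 ≤ Nat.card T := by
    rw [← hRc]
    exact Subgroup.card_le_of_le hRTle
  have hcomm : g₀ * u * g₀⁻¹ * u⁻¹ ∈ commutator G := by
    rw [_root_.commutator_def]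
    exact Subgroup.commutator_mem_commutator (Subgroup.mem_top _) (Subgroup.mem_top _)
  by_cases hT4 : Nat.card T = 4
  · -- order eight
    right
    have hcard8 : Nat.card G = 8 := by rw [hn, ← hTcard, hT4]
    have h1 : 2 ^ 2 ≤ (commutator G).index := H01.index_ge_of_noncomm hG ⟨g₀, u, by
      intro h
      apply hg₀
      rw [hT]
      exact h.symm⟩
    have h2 : 2 ≤ Nat.card (commutator G) := by
      have : commutator G ≠ ⊥ := by
        intro h
        rw [h, Subgroup.mem_bot, hconj g₀ hg₀] at hcomm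
        have : u * z * u⁻¹ = z := by
          rw [mul_assoc, ← hzc' u⁻¹]
          group
        rw [this] at hcomm
        exact hz1 hcomm
      exact (Subgroup.one_lt_card_iff_ne_bot _).2 this
    have h3 := (commutator G).card_mul_index
    rw [hcard8] at h3
    have h4 : (commutator G).index ≤ 4 := by
      by_contra hlt
      have : 5 ≤ (commutator G).index := by omega
      have := Nat.mul_le_mul h2 this
      omega
    omega
  left
  have hT8 : 8 ≤ Nat.card T := by
    obtain ⟨m, hm⟩ := IsPGroup.iff_card.1 (hG.to_subgroup T)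
    rw [hm] at h4T hT4 ⊢
    have hm3 : 3 ≤ m := by
      by_contra hlt
      have h1 : m = 0 ∨ m = 1 ∨ m = 2 := by omega
      rcases h1 with rfl | rfl | rfl <;> simp at h4T hT4
    calc 8 = 2 ^ 3 := by norm_num
      _ ≤ 2 ^ m := Nat.pow_le_pow_right (by norm_num) hm3
  haveI := hRn
  have hQ : IsPGroup 2 (G ⧸ R) := hG.to_quotient R
  haveI : Group.IsNilpotent (G ⧸ R) := hQ.isNilpotent
  let Tb : Subgroup (G ⧸ R) := T.map (QuotientGroup.mk' R)
  have hTbn : Tb.Normal := hTn.map _ (QuotientGroup.mk'_surjective R)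
  have hTbot : Tb ≠ ⊥ := by
    intro h
    have : T ≤ R := by
      intro t ht
      have h1 : QuotientGroup.mk' R t ∈ Tb := ⟨t, ht, rfl⟩
      rw [h, Subgroup.mem_bot] at h1
      exact (QuotientGroup.eq_one_iff t).1 h1
    have := Subgroup.card_le_of_le this
    omega
  obtain ⟨y, hyT, hy1, hyc⟩ := H06.exists_central_of_normal hTbn hTbot
  obtain ⟨m, hm⟩ := (IsPGroup.iff_orderOf.1 hQ) y
  have hm0 : m ≠ 0 := by
    rintro rfl
    exact hy1 (orderOf_eq_one_iff.1 (by simpa using hm))
  have h2y : 2 ∣ orderOf y := by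
    rw [hm]
    exact dvd_pow_self 2 hm0
  have hco : orderOf (y ^ (orderOf y / 2)) = 2 :=
    orderOf_pow_orderOf_div (orderOf_pos y).ne' h2y
  set c := y ^ (orderOf y / 2) with hc
  have hcT : c ∈ Tb := Tb.pow_mem hyT _
  have hcc : c ∈ Subgroup.center (G ⧸ R) := Subgroup.pow_mem _ hyc _
  have hcsq : c ^ 2 = 1 := by rw [← hco]; exact pow_orderOf_eq_one c
  let R1 : Subgroup G := (zpowers c).comap (QuotientGroup.mk' R)
  have hR1c : Nat.card R1 = 8 := by
    have i1 : R1.index = (zpowers c).index :=
      Subgroup.index_comap_of_surjective _ (QuotientGroup.mk'_surjective R)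
    have c1 := R1.card_mul_index
    have c2 := (zpowers c).card_mul_index
    rw [Nat.card_zpowers, hco] at c2
    have c3 := R.card_mul_index
    rw [hRc] at c3
    have c4 : R.index = Nat.card (G ⧸ R) := rfl
    rw [c4, ← c2, ← i1] at c3
    have hpos : 0 < R1.index := by
      rw [i1]
      exact Nat.pos_of_ne_zero Subgroup.index_ne_zero_of_finite
    rw [← c3] at c1
    have : Nat.card R1 * R1.index = 8 * R1.index := by rw [c1]; ring
    exact Nat.eq_of_mul_eq_mul_right hpos this
  have hw : ∀ r ∈ R1, QuotientGroup.mk' R r ∈ Subgroup.center (G ⧸ R) ∧ QuotientGroup.mk' R r ∈ Tb ∧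
      QuotientGroup.mk' R r * QuotientGroup.mk' R r = 1 := by
    intro r hr
    have hr' : QuotientGroup.mk' R r ∈ zpowers c := hr
    refine ⟨(Subgroup.zpowers_le.2 hcc) hr', (Subgroup.zpowers_le.2 hcT) hr', ?_⟩
    obtain ⟨i, hi⟩ := Subgroup.mem_zpowers_iff.1 hr'
    rw [← hi, ← pow_two, ← zpow_natCast, ← zpow_mul, mul_comm, zpow_mul]
    have : c ^ ((2 : ℕ) : ℤ) = 1 := by exact_mod_cast hcsq
    rw [this, one_zpow]
  have hR1T : ∀ r ∈ R1, r ∈ T := by
    intro r hr
    obtain ⟨t, ht, hte⟩ := (hw r hr).2.1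
    have h1 : t⁻¹ * r ∈ R := by
      have : (t : G ⧸ R) = (r : G ⧸ R) := hte
      exact QuotientGroup.eq.1 this
    have h2 := T.mul_mem ht (hRT _ h1)
    simpa using h2
  let C : Finset G := Finset.univ.filter (fun g => g ∉ T ∧ g * g ∈ R)
  have hC8 : 8 ∣ C.card := by
    rw [← hR1c]
    apply dvd_card_finset
    intro s hs r hr
    simp only [C, Finset.mem_filter, Finset.mem_univ, true_and] at hs ⊢
    refine ⟨fun h => hs.1 ?_, ?_⟩
    · have := T.mul_mem h (T.inv_mem (hR1T r hr))
      simpa using this
    · rw [← QuotientGroup.eq_one_iff]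
      obtain ⟨h1, -, h3⟩ := hw r hr
      have h4 : ((s * s : G) : G ⧸ R) = 1 := (QuotientGroup.eq_one_iff _).2 hs.2
      have h5 := (Subgroup.mem_center_iff.1 h1) (s : G ⧸ R)
      have h3' : (r : G ⧸ R) * (r : G ⧸ R) = 1 := h3
      have h5' : (s : G ⧸ R) * (r : G ⧸ R) = (r : G ⧸ R) * (s : G ⧸ R) := h5
      calc ((s * r * (s * r) : G) : G ⧸ R) = (s : G ⧸ R) * (r : G ⧸ R) * ((s : G ⧸ R) * (r : G ⧸ R)) := rfl
        _ = (s : G ⧸ R) * ((r : G ⧸ R) * (s : G ⧸ R)) * (r : G ⧸ R) := by group
        _ = (s : G ⧸ R) * ((s : G ⧸ R) * (r : G ⧸ R)) * (r : G ⧸ R) := by rw [h5']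
        _ = ((s : G ⧸ R) * (s : G ⧸ R)) * ((r : G ⧸ R) * (r : G ⧸ R)) := by group
        _ = 1 := by
          rw [h3', mul_one]
          exact h4
  let A : Finset G := Finset.univ.filter (fun g => g ∉ T ∧ g * g = 1)
  let B : Finset G := Finset.univ.filter (fun g => g ∉ T ∧ g * g = z)
  have hCAB : C = A ∪ B := by
    ext g
    simp only [C, A, B, Finset.mem_union, Finset.mem_filter, Finset.mem_univ, true_and]
    constructor
    · rintro ⟨hg, hgR⟩
      rcases hRcases _ hgR with h | h | h | h
      · exact Or.inl ⟨hg, h⟩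
      · exact Or.inr ⟨hg, h⟩
      · exfalso
        apply hg
        rw [hT, ← h]
        group
      · exfalso
        apply hg
        rw [hT]
        have h1 : u * z * g = g * (u * z) := by
          rw [← h]
          group
        have h2 : u * z * g = u * g * z := by
          rw [mul_assoc, ← hzc' g, mul_assoc]
        have h3 : g * (u * z) = g * u * z := by rw [mul_assoc]
        rw [h2, h3] at h1
        exact mul_right_cancel h1
    · rintro (⟨hg, h⟩ | ⟨hg, h⟩)
      · exact ⟨hg, by rw [h]; exact R.one_mem⟩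
      · exact ⟨hg, by rw [h]; exact hzR⟩
  have hdisj : Disjoint A B := by
    rw [Finset.disjoint_left]
    intro g hA hB
    simp only [A, B, Finset.mem_filter, Finset.mem_univ, true_and] at hA hB
    exact hz1 (hB.2.symm.trans hA.2)
  have hsq : ∀ g, g ∉ T → (g * u) * (g * u) = g * g * z := by
    intro g hg
    have hgi : g⁻¹ ∉ T := fun h => hg (by simpa using T.inv_mem h)
    have h1 := hconj g⁻¹ hgi
    rw [inv_inv] at h1
    have h2 : u * g = g * (u * z) := by
      rw [← h1]
      group
    calc (g * u) * (g * u) = g * (u * g) * u := by group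
      _ = g * (g * (u * z)) * u := by rw [h2]
      _ = g * g * (u * z * u) := by group
      _ = g * g * ((u * u) * z) := by
        congr 1
        rw [mul_assoc, ← hzc' u, mul_assoc]
      _ = g * g * z := by rw [huu, one_mul]
  have hnotT : ∀ g, g ∉ T → g * u ∉ T := by
    intro g hg h
    apply hg
    have := T.mul_mem h (T.inv_mem (hRT u huR))
    simpa using this
  have hAB : A.card = B.card := by
    refine Finset.card_nbij' (fun g => g * u) (fun g => g * u) ?_ ?_ ?_ ?_
    · intro g hg
      simp only [A, B, Finset.coe_filter, Finset.mem_univ, true_and, Set.mem_setOf_eq] at hg ⊢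
      exact ⟨hnotT g hg.1, by rw [hsq g hg.1, hg.2, one_mul]⟩
    · intro g hg
      simp only [A, B, Finset.coe_filter, Finset.mem_univ, true_and, Set.mem_setOf_eq] at hg ⊢
      exact ⟨hnotT g hg.1, by rw [hsq g hg.1, hg.2, hzz]⟩
    · intro g _
      simp only
      rw [mul_assoc, huu, mul_one]
    · intro g _
      simp only
      rw [mul_assoc, huu, mul_one]
  have hA4 : 4 ∣ A.card := by
    rw [hCAB, Finset.card_union_of_disjoint hdisj, ← hAB] at hC8
    obtain ⟨k, hk⟩ := hC8
    exact ⟨k, by omega⟩
  let OT : Finset G := Finset.univ.filter (fun g => g ∈ T ∧ g * g = 1)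
  have hOT : 4 ∣ OT.card := by
    rw [← hRc]
    apply dvd_card_finset
    intro s hs r hr
    simp only [OT, Finset.mem_filter, Finset.mem_univ, true_and] at hs ⊢
    refine ⟨T.mul_mem hs.1 (hRT r hr), ?_⟩
    calc s * r * (s * r) = s * (r * s) * r := by group
      _ = s * (s * r) * r := by rw [hTR s hs.1 r hr]
      _ = s * s * (r * r) := by group
      _ = 1 := by rw [hs.2, hRe r hr, one_mul]
  have hS : (Finset.univ.filter (fun x : G => x * x = 1)) = OT ∪ A := by
    ext g
    simp only [OT, A, Finset.mem_union, Finset.mem_filter, Finset.mem_univ, true_and]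
    by_cases h : g ∈ T <;> simp [h]
  have hdisj2 : Disjoint OT A := by
    rw [Finset.disjoint_left]
    intro g h1 h2
    simp only [OT, A, Finset.mem_filter, Finset.mem_univ, true_and] at h1 h2
    exact h2.1 h1.1
  rw [Nat.card_eq_fintype_card, Fintype.card_subtype, hS, Finset.card_union_of_disjoint hdisj2]
  exact Nat.dvd_add hOT hA4

theorem main_thm (hG : IsPGroup 2 G) (ht : Nat.card {x : G // orderOf x = 2} % 4 = 1) :
    IsCyclic G ∨ (commutator G).index = 4 := by
  classical
  by_cases hnc : IsCyclic G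
  · exact Or.inl hnc
  right
  by_cases hno : ∀ R : Subgroup G, R.Normal → Nat.card R = 4 → ¬ ∀ x ∈ R, x * x = 1
  · exact index_four_of_no_E4 hG hnc hno
  push_neg at hno
  obtain ⟨R, hRn, hRc, hRe⟩ := hno
  rcases main_count hG R hRn hRc hRe with h | h
  · exfalso
    haveI := Fintype.ofFinite G
    have e : Nat.card {x : G // x * x = 1} = Nat.card {x : G // orderOf x = 2} + 1 := by
      rw [Nat.card_eq_fintype_card, Nat.card_eq_fintype_card, Fintype.card_subtype, Fintype.card_subtype]
      have h1 : (Finset.univ.filter (fun x : G => x * x = 1)) = insert 1 (Finset.univ.filter (fun x : G => orderOf x = 2)) := by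
        ext x
        simp only [Finset.mem_filter, Finset.mem_univ, true_and, Finset.mem_insert]
        constructor
        · intro hx
          by_cases h1 : x = 1
          · exact Or.inl h1
          · exact Or.inr (orderOf_eq_prime (by rw [pow_two]; exact hx) h1)
        · rintro (rfl | hx)
          · simp
          · have := pow_orderOf_eq_one x
            rw [hx, pow_two] at this
            exact this
      rw [h1, Finset.card_insert_of_notMem]
      simp
    rw [e] at h
    omega
  · exact h

end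



/-- Let G be a finite 2-group whose number of involutions is congruent to 1 modulo 4. Then G is cyclic or its commutator subgroup has index 4. -/
theorem result {G : Type*} [Group G] [Finite G] (hG : IsPGroup 2 G) (ht : Nat.card {x : G // orderOf x = 2} % 4 = 1) : IsCyclic G ∨ (commutator G).index = 4 := by
  exact main_thm hG ht

end Cfsg.Agent.S4477
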