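import Cfsg.Statements.S4483
import Cfsg.Agent.Lib.H21.RegProj

set_option autoImplicit false
open Cfsg

namespace Cfsg.Agent.S4483

/-- Let G be a finite group of order 2^n·g₀ with g₀ odd, and M a maximal ideal of the algebraic integers containing 2. Every real-valued irreducible character of G of odd degree lies in the principal 2-block; consequently G has at most 2^(2n) real-valued irreducible characters of odd degree. -/
theorem result {G : Type*} [Group G] [Finite G] (M : Ideal Cfsg.AlgInt) (hM : Cfsg.IsPModular 2 M) : (∀ χ : Cfsg.IrrCharacter G, (∀ g : G, ((χ : G → ℂ) g).im = 0) → Odd (Cfsg.charDegree (χ : G → ℂ)) → χ ∈ Cfsg.principalBlock M G) ∧ Nat.card {χ : Cfsg.IrrCharacter G // (∀ g : G, ((χ : G → ℂ) g).im = 0) ∧ Odd (Cfsg.charDegree (χ : G → ℂ))} ≤ 2 ^ (2 * (Nat.card G).factorization 2) := by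
  classical
  haveI := Fintype.ofFinite G
  haveI := Fintype.ofFinite (Cfsg.IrrCharacter G)
  haveI : M.IsPrime := hM.2.1.isPrime
  haveI : Fact (Nat.Prime 2) := ⟨Nat.prime_two⟩
  have hfirst : ∀ χ : Cfsg.IrrCharacter G, (∀ g : G, ((χ : G → ℂ) g).im = 0) →
      Odd (Cfsg.charDegree (χ : G → ℂ)) → χ ∈ Cfsg.principalBlock M G := by
    intro χ hre hodd
    refine H21.principal_of_real_odd hM χ ?_ ?_
    · intro h2
      exact (Nat.not_even_iff_odd.mpr hodd) (even_iff_two_dvd.mpr h2)
    · intro g
      have h : H22.cc g⁻¹ χ = H22.cc g χ := by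
        show Cfsg.centralChar χ.1 g⁻¹ = Cfsg.centralChar χ.1 g
        unfold Cfsg.centralChar
        rw [H21.centralizer_inv_index, H22.irr_inv' χ]
        have : (starRingEnd ℂ) (χ.1 g) = χ.1 g := Complex.conj_eq_iff_im.mpr (hre g)
        rw [this]
      rw [h, sub_self]
      exact H22.mli_zero
  refine ⟨hfirst, ?_⟩
  have hB := H22.principalBlock_isBlock (M := M) (G := G)
  have hbf := H21.brauer_feit hM hB
  have hmin : H21.minExp 2 (Cfsg.principalBlock M G) = 0 := by
    have h1 := H21.minExp_le (p := 2) (H22.oneIrr_mem_principal (M := M) (G := G))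
    have h2 : Cfsg.charDegree (H22.oneIrr G).1 = 1 := by
      have := H21.one_eq_charDegree (H21.isCharacter_of_irr (H22.oneIrr G).2)
      have h3 : (H22.oneIrr G).1 1 = 1 := rfl
      rw [h3] at this
      exact_mod_cast this.symm
    rw [h2] at h1
    simpa using h1
  rw [H21.blockDefect_eq, hmin, Nat.sub_zero] at hbf
  have hle : Nat.card {χ : Cfsg.IrrCharacter G // (∀ g : G, ((χ : G → ℂ) g).im = 0) ∧
      Odd (Cfsg.charDegree (χ : G → ℂ))} ≤ Nat.card (Cfsg.principalBlock M G) := by
    refine Nat.card_le_card_of_injective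
      (fun x => (⟨x.1, hfirst x.1 x.2.1 x.2.2⟩ : (Cfsg.principalBlock M G : Set _))) ?_
    intro x y hxy
    apply Subtype.ext
    simpa using congrArg Subtype.val hxy
  have hq : 1 ≤ 2 ^ (2 * (Nat.card G).factorization 2) := Nat.one_le_two_pow
  omega

end Cfsg.Agent.S4483
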