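import Cfsg.Statements.S4490
import Cfsg.Agent.Lib.H21.MinMax

set_option autoImplicit false
open Cfsg

namespace Cfsg.Agent.S4490

/-- Let G be a finite group and M a maximal ideal of the algebraic integers containing 2. Every 2-block B of G whose defect groups are the Sylow 2-subgroups of G (a block of full defect) and which is not the principal block is different from its complex-conjugate block, the block formed by the complex conjugates of the members of B. -/
theorem result {G : Type*} [Group G] [Finite G] (M : Ideal Cfsg.AlgInt) (hM : Cfsg.IsPModular 2 M) (B : Set (Cfsg.IrrCharacter G)) (hB : Cfsg.IsPBlock M B) (P : Sylow 2 G) (hfull : Cfsg.IsDefectGroup 2 M B (P : Subgroup G)) (hnp : B ≠ Cfsg.principalBlock M G) : {ψ : Cfsg.IrrCharacter G | ∃ χ ∈ B, (ψ : G → ℂ) = fun g => (starRingEnd ℂ) ((χ : G → ℂ) g)} ≠ B := by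
  classical
  haveI := Fintype.ofFinite G
  haveI := Fintype.ofFinite (Cfsg.IrrCharacter G)
  haveI : M.IsPrime := hM.2.1.isPrime
  intro hstable
  apply hnp
  obtain ⟨g, hdc, Q, hQ⟩ := hfull
  have hodd : ¬ 2 ∣ (Subgroup.centralizer ({g} : Set G)).index := by
    have hle : (P : Subgroup G) ≤ Subgroup.centralizer ({g} : Set G) := by
      rw [hQ]
      exact Subgroup.map_subtype_le _
    have h1 := Subgroup.index_dvd_of_le hle
    exact fun h => P.not_dvd_index (h.trans h1)
  have hex : ∃ χ ∈ B, ¬ 2 ∣ Cfsg.charDegree χ.1 := by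
    by_contra hcon
    push Not at hcon
    have := H21.dvd_index_of_blockCoeff hM hB 1 (by simpa using hcon) g hdc.2.1
    exact hodd (by simpa using this)
  obtain ⟨χ, hχB, hodd'⟩ := hex
  refine H21.block_eq_principal_of_real hM hB χ hχB hodd' ?_
  rw [← hstable]
  exact ⟨χ, hχB, rfl⟩

end Cfsg.Agent.S4490
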