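import Cfsg.Statements.S4493
import Cfsg.Agent.Lib.H22.NormalAb
import Cfsg.Agent.Lib.H23.Ito2
import Cfsg.Agent.Lib.H06.PSolvable

set_option autoImplicit false
open Cfsg

namespace Cfsg.Agent.S4493

/-- Let G be a finite solvable group and p a prime. Then G has a normal abelian Sylow p-subgroup if and only if no irreducible character degree of G is divisible by p. -/
theorem result {G : Type*} [Group G] [Finite G] (hsolv : Group.IsSolvable G) (p : ℕ) (hp : p.Prime) : (∃ P : Subgroup G, P.Normal ∧ (∀ x ∈ P, ∀ y ∈ P, x * y = y * x) ∧ IsPGroup p P ∧ ¬ p ∣ P.index) ↔ ∀ χ : Cfsg.IrrCharacter G, ¬ p ∣ Cfsg.charDegree (χ : G → ℂ) := by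
  classical
  haveI := Fact.mk hp
  haveI : Fintype G := Fintype.ofFinite _
  constructor
  · rintro ⟨P, hPn, hPc, -, hPi⟩ χ hd
    haveI := hPn
    exact hPi (hd.trans (H23.ito_dvd χ.2 P hPc))
  · intro h
    obtain ⟨P⟩ : Nonempty (Sylow p G) := inferInstance
    haveI := hsolv
    obtain ⟨h1, h2⟩ := H22.normal_abelian_of_degrees (p := p) _ G rfl
      (H06.isPSolvable_of_isSolvable p G) h P
    exact ⟨P, h1, h2, P.isPGroup', P.not_dvd_index⟩

end Cfsg.Agent.S4493
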