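import Cfsg.Statements.S4498
import Cfsg.Agent.Lib.H22.Osima2

set_option autoImplicit false
open Cfsg

namespace Cfsg.Agent.S4498

/-- Let p and q be distinct primes dividing the order of the finite group G, and suppose G has no element of order p·q. Fix maximal ideals M_p over p and M_q over q of the algebraic integers. Then the principal p-block and the principal q-block of G have a non-principal irreducible character in common. -/
theorem result {G : Type*} [Group G] [Finite G] (p q : ℕ) [Fact p.Prime] [Fact q.Prime] (hpq : p ≠ q) (hp : p ∣ Nat.card G) (hq : q ∣ Nat.card G) (hno : ∀ g : G, orderOf g ≠ p * q) (Mp Mq : Ideal Cfsg.AlgInt) (hMp : Cfsg.IsPModular p Mp) (hMq : Cfsg.IsPModular q Mq) : ∃ χ : Cfsg.IrrCharacter G, (χ : G → ℂ) ≠ (fun _ => 1) ∧ χ ∈ Cfsg.principalBlock Mp G ∧ χ ∈ Cfsg.principalBlock Mq G := by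
  classical
  haveI := Fintype.ofFinite G
  haveI := Fintype.ofFinite (Cfsg.IrrCharacter G)
  haveI : Mp.IsPrime := hMp.2.1.isPrime
  haveI : Mq.IsPrime := hMq.2.1.isPrime
  obtain ⟨x, hx⟩ := exists_prime_orderOf_dvd_card' p hp
  obtain ⟨y, hy⟩ := exists_prime_orderOf_dvd_card' q hq
  by_contra hcon
  push Not at hcon
  have hpp : p.Prime := Fact.out
  have hqp : q.Prime := Fact.out
  have hBp := H22.principalBlock_isBlock (M := Mp) (G := G)
  have hBq := H22.principalBlock_isBlock (M := Mq) (G := G)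
  set Bp := Cfsg.principalBlock Mp G with hBpdef
  set Bq := Cfsg.principalBlock Mq G with hBqdef
  -- no element has order divisible by both primes
  have hboth : ∀ g : G, ¬ (p ∣ orderOf g ∧ q ∣ orderOf g) := by
    rintro g ⟨h1, h2⟩
    have hcop : Nat.Coprime p q := (Nat.coprime_primes hpp hqp).2 hpq
    have h3 : p * q ∣ orderOf g := hcop.mul_dvd_of_dvd_of_dvd h1 h2
    obtain ⟨c, hc⟩ := h3
    apply hno (g ^ c)
    rw [orderOf_pow_of_dvd (x := g) (n := c)]
    · rw [hc]
      have hc0 : c ≠ 0 := by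
        rintro rfl
        rw [mul_zero] at hc
        exact (orderOf_pos g).ne' hc
      exact Nat.mul_div_cancel _ (Nat.pos_of_ne_zero hc0)
    · rintro rfl
      rw [mul_zero] at hc
      exact (orderOf_pos g).ne' hc
    · exact ⟨p * q, by rw [hc]; ring⟩
  let A : G → ℂ := fun g => ∑ χ : Cfsg.IrrCharacter G, H22.eB Bp χ * (χ.1 x * (starRingEnd ℂ) (χ.1 g))
  let C : G → ℂ := fun g => ∑ χ : Cfsg.IrrCharacter G, H22.eB Bq χ * (χ.1 y * (starRingEnd ℂ) (χ.1 g))
  have hxp : p ∣ orderOf x := by rw [hx]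
  have hyq : q ∣ orderOf y := by rw [hy]
  have hprod : ∀ g : G, C g * (starRingEnd ℂ) (A g) = 0 := by
    intro g
    by_cases h1 : p ∣ orderOf g
    · have h2 : ¬ q ∣ orderOf g := fun h2 => hboth g ⟨h1, h2⟩
      have : C g = 0 := H22.block_orth_singular_regular hMq hBq hyq h2
      rw [this, zero_mul]
    · have : A g = 0 := H22.block_orth_singular_regular hMp hBp hxp h1
      rw [this, map_zero, mul_zero]
  have hsum : ∑ g : G, C g * (starRingEnd ℂ) (A g) = 0 := Finset.sum_eq_zero fun g _ => hprod g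
  have hexp : ∑ g : G, C g * (starRingEnd ℂ) (A g) = (Nat.card G : ℂ) *
      ∑ χ : Cfsg.IrrCharacter G, H22.eB Bq χ * H22.eB Bp χ * (χ.1 y * (starRingEnd ℂ) (χ.1 x)) := by
    have h1 : ∀ g : G, C g * (starRingEnd ℂ) (A g) =
        ∑ χ : Cfsg.IrrCharacter G, ∑ ψ : Cfsg.IrrCharacter G,
          (H22.eB Bq χ * χ.1 y) * (H22.eB Bp ψ * (starRingEnd ℂ) (ψ.1 x)) *
            (ψ.1 g * (starRingEnd ℂ) (χ.1 g)) := by
      intro g
      simp only [C, A, map_sum, map_mul, Complex.conj_conj, H22.eB_conj]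
      rw [Finset.sum_mul_sum]
      refine Finset.sum_congr rfl fun χ _ => Finset.sum_congr rfl fun ψ _ => ?_
      ring
    simp only [h1]
    rw [Finset.sum_comm]
    simp only [Finset.sum_comm (s := Finset.univ (α := G))]
    rw [Finset.mul_sum]
    refine Finset.sum_congr rfl fun χ _ => ?_
    have h2 : ∀ ψ : Cfsg.IrrCharacter G, ∑ g : G, (H22.eB Bq χ * χ.1 y) * (H22.eB Bp ψ * (starRingEnd ℂ) (ψ.1 x)) *
            (ψ.1 g * (starRingEnd ℂ) (χ.1 g)) = (H22.eB Bq χ * χ.1 y) * (H22.eB Bp ψ * (starRingEnd ℂ) (ψ.1 x)) * (∑ g : G, ψ.1 g * (starRingEnd ℂ) (χ.1 g)) := by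
      intro ψ; rw [Finset.mul_sum]
    simp only [h2]
    have h3 : ∀ ψ : Cfsg.IrrCharacter G, (∑ g : G, ψ.1 g * (starRingEnd ℂ) (χ.1 g)) =
        if ψ = χ then (Nat.card G : ℂ) else 0 := by
      intro ψ
      have h4 := H21.classInner_irr ψ χ
      rw [Cfsg.classInner] at h4
      have hne : (Nat.card G : ℂ) ≠ 0 := by simp [Nat.card_pos.ne']
      split_ifs with h5
      · rw [if_pos h5] at h4
        field_simp at h4
        exact h4
      · rw [if_neg h5] at h4
        have := (mul_eq_zero.1 h4).resolve_left (inv_ne_zero hne)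
        exact this
    simp only [h3]
    rw [Finset.sum_eq_single χ]
    · simp only [if_true]
      ring
    · intro ψ _ h
      rw [if_neg h, mul_zero]
    · simp
  have hne : (Nat.card G : ℂ) ≠ 0 := by simp [Nat.card_pos.ne']
  rw [hexp] at hsum
  have hz := (mul_eq_zero.1 hsum).resolve_left hne
  -- only the principal character survives
  have hone : ∑ χ : Cfsg.IrrCharacter G, H22.eB Bq χ * H22.eB Bp χ * (χ.1 y * (starRingEnd ℂ) (χ.1 x)) = 1 := by
    rw [Finset.sum_eq_single (H22.oneIrr G)]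
    · have h1 : H22.oneIrr G ∈ Bq := H22.self_mem_blockOf (H22.oneIrr G)
      have h2 : H22.oneIrr G ∈ Bp := H22.self_mem_blockOf (H22.oneIrr G)
      rw [H22.eB_apply_mem h1, H22.eB_apply_mem h2]
      simp [H22.oneIrr]
    · intro χ _ hχ
      by_cases h1 : χ ∈ Bp
      · have h2 : χ ∉ Bq := by
          intro h2
          apply hχ
          apply Subtype.ext
          by_contra h3
          exact hcon χ h3 h1 h2
        rw [H22.eB_apply_not_mem h2]
        simp
      · rw [H22.eB_apply_not_mem h1]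
        simp
    · simp
  rw [hone] at hz
  exact one_ne_zero hz

end Cfsg.Agent.S4498
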