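import Cfsg.Statements.S4499
import Cfsg.Agent.Lib.H21.RegProj

set_option autoImplicit false
open Cfsg

namespace Cfsg.Agent.S4499

/-- Let G be a finite group whose order has p-part p^a (a ≥ 1), and fix a maximal ideal M of the algebraic integers containing p. If the degree of one irreducible character of a p-block B is divisible by p^(a−1), then the degree of every irreducible character in B is divisible by p^(a−1) (so B has defect at most 1). -/
theorem result {G : Type*} [Group G] [Finite G] (p : ℕ) [Fact p.Prime] (M : Ideal Cfsg.AlgInt) (hM : Cfsg.IsPModular p M) (hpa : p ∣ Nat.card G) (B : Set (Cfsg.IrrCharacter G)) (hB : Cfsg.IsPBlock M B) (χ : Cfsg.IrrCharacter G) (hχ : χ ∈ B) (hdiv : p ^ ((Nat.card G).factorization p - 1) ∣ Cfsg.charDegree (χ : G → ℂ)) (ψ : Cfsg.IrrCharacter G) (hψ : ψ ∈ B) : p ^ ((Nat.card G).factorization p - 1) ∣ Cfsg.charDegree (ψ : G → ℂ) := by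
  classical
  haveI := Fintype.ofFinite G
  haveI := Fintype.ofFinite (Cfsg.IrrCharacter G)
  haveI : M.IsPrime := hM.2.1.isPrime
  have hp : p.Prime := Fact.out
  set a := (Nat.card G).factorization p with ha
  have hapos : 1 ≤ a := (hp.dvd_iff_one_le_factorization Nat.card_pos.ne').mp hpa
  have hχdeg : Cfsg.charDegree χ.1 ≠ 0 := (H21.irr_charDegree_pos χ.2).ne'
  set e := (Cfsg.charDegree χ.1).factorization p with he
  have he1 : a - 1 ≤ e := (hp.pow_dvd_iff_le_factorization hχdeg).mp hdiv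
  have hea : e ≤ a := H21.factorization_degree_le χ
  -- it suffices that `χ` has height zero
  suffices h0 : e = H21.minExp p B by
    have h1 := H21.minExp_le (p := p) hψ
    exact (hp.pow_dvd_iff_le_factorization (H21.irr_charDegree_pos ψ.2).ne').mpr (by omega)
  by_contra hne
  obtain ⟨χ₁, hχ₁, h₁⟩ := H21.exists_min_height (p := p) hB
  have hdiff : χ₁ ≠ χ := by
    rintro rfl
    exact hne h₁
  obtain ⟨y, hy, hsum⟩ := H21.row_int hM χ
  rw [← ha, ← he] at hsum hy
  have hp0 : (p : ℂ) ≠ 0 := by exact_mod_cast hp.ne_zero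
  have hpe : (p : ℂ) ^ e ≠ 0 := pow_ne_zero _ hp0
  -- `y χ₁ ≠ 0`
  have hy1 : y χ₁ ≠ 0 := by
    intro h
    obtain ⟨n, hn⟩ := H21.crt_int (p := p) χ₁ χ
    have h2 := (H21.tilde_exact hM hB hχ₁ hχ hn).mp h₁
    apply h2
    have h3 : n = 0 := by
      have h4 := hy χ₁
      rw [H21.crt_symm, hn, h] at h4
      simpa using h4
    rw [h3]
    exact dvd_zero _
  -- `p ∣ y χ`
  have hyχ : (p : ℤ) ∣ y χ := by
    obtain ⟨n, hn⟩ := H21.crt_int (p := p) χ χ
    have h2 := H21.tilde_exact hM hB hχ hχ hn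
    have h3 : (p : ℤ) ^ (e + 1) ∣ n := by
      by_contra h
      exact hne (h2.mpr h)
    have h4 : n = (p : ℤ) ^ e * y χ := by
      have h5 := hy χ
      rw [hn] at h5
      exact_mod_cast h5
    rw [h4, pow_succ] at h3
    exact (mul_dvd_mul_iff_left (pow_ne_zero _ (by exact_mod_cast hp.ne_zero))).mp h3
  obtain ⟨z, hz⟩ := hyχ
  have hsplit : ∑ ξ, y ξ ^ 2 = y χ ^ 2 + ∑ ξ ∈ Finset.univ.erase χ, y ξ ^ 2 :=
    (Finset.add_sum_erase _ _ (Finset.mem_univ χ)).symm
  have hother : y χ₁ ^ 2 ≤ ∑ ξ ∈ Finset.univ.erase χ, y ξ ^ 2 :=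
    Finset.single_le_sum (f := fun ξ => y ξ ^ 2) (fun _ _ => by positivity)
      (Finset.mem_erase.mpr ⟨hdiff, Finset.mem_univ _⟩)
  have hy1pos : 0 < y χ₁ ^ 2 := by positivity
  have hplt : (2 : ℤ) ≤ (p : ℤ) := by exact_mod_cast hp.two_le
  have hae : a - e = 0 ∨ a - e = 1 := by omega
  rw [hsplit, hz] at hsum
  rcases hae with h | h
  · rw [h, pow_zero, one_mul] at hsum
    -- `(p z)^2 + S = p z`, `S > 0`
    have hS : 0 < ∑ ξ ∈ Finset.univ.erase χ, y ξ ^ 2 := lt_of_lt_of_le hy1pos hother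
    have h3 : (↑p * z) * (↑p * z - 1) < 0 := by nlinarith
    have h4 : 0 < (p : ℤ) * z ∧ (p : ℤ) * z - 1 < 0 ∨ (p : ℤ) * z < 0 ∧ 0 < (p : ℤ) * z - 1 := by
      rcases mul_neg_iff.mp h3 with h5 | h5
      · exact Or.inl h5
      · exact Or.inr h5
    rcases h4 with h5 | h5 <;> omega
  · rw [h, pow_one] at hsum
    -- `(p z)^2 + S = p * (p z)`, `S > 0`
    have hS : 0 < ∑ ξ ∈ Finset.univ.erase χ, y ξ ^ 2 := lt_of_lt_of_le hy1pos hother
    have h3 : (p : ℤ) ^ 2 * (z * (z - 1)) < 0 := by nlinarith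
    have hpp : 0 < (p : ℤ) ^ 2 := by positivity
    have h4 : z * (z - 1) < 0 := by
      by_contra h5
      push Not at h5
      have := mul_nonneg hpp.le h5
      omega
    rcases mul_neg_iff.mp h4 with h5 | h5 <;> omega

end Cfsg.Agent.S4499
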