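import Cfsg.Statements.S4506
import Cfsg.Agent.Lib.H21.PConj

set_option autoImplicit false
open Cfsg

namespace Cfsg.Agent.S4506

/-- Let G be a finite group, p a prime, p^a the p-part of the order of G and g′ its p′-part. Call two irreducible characters p-conjugate when one is obtained from the other by applying a field automorphism of ℂ that fixes the g′-th roots of unity, and let r be the number of characters p-conjugate to the irreducible character χ (χ included). Then the exponent of p in r·χ(1) is at most a; and if p^a divides r·χ(1) then p^a already divides χ(1). -/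
theorem result {G : Type*} [Group G] [Finite G] (p : ℕ) (hp : p.Prime) (χ : Cfsg.IrrCharacter G) (r : ℕ) (hr : Nat.card {ψ : Cfsg.IrrCharacter G // ∃ σ : ℂ ≃+* ℂ, σ (Complex.exp (2 * Real.pi * Complex.I / ((Nat.card G / p ^ (Nat.card G).factorization p) : ℕ))) = Complex.exp (2 * Real.pi * Complex.I / ((Nat.card G / p ^ (Nat.card G).factorization p) : ℕ)) ∧ (ψ : G → ℂ) = fun g => σ ((χ : G → ℂ) g)} = r) : (r * Cfsg.charDegree (χ : G → ℂ)).factorization p ≤ (Nat.card G).factorization p ∧ (p ^ (Nat.card G).factorization p ∣ r * Cfsg.charDegree (χ : G → ℂ) → p ^ (Nat.card G).factorization p ∣ Cfsg.charDegree (χ : G → ℂ)) := by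
  classical
  haveI := Fintype.ofFinite G
  haveI := Fintype.ofFinite (Cfsg.IrrCharacter G)
  haveI : Fact p.Prime := ⟨hp⟩
  obtain ⟨M, hM⟩ := H21.exists_pModular hp
  haveI : M.IsPrime := hM.2.1.isPrime
  set a := (Nat.card G).factorization p with ha
  have hmdef : Nat.card G / p ^ a = H21.pco p G := rfl
  have hm0 : H21.pco p G ≠ 0 := H21.pco_ne_zero p
  simp only [hmdef] at hr ⊢
  set S : Finset (Cfsg.IrrCharacter G) := Finset.univ.filter (fun ψ => ∃ σ : ℂ ≃+* ℂ, σ (Complex.exp (2 * Real.pi * Complex.I / (H21.pco p G : ℕ))) = Complex.exp (2 * Real.pi * Complex.I / (H21.pco p G : ℕ)) ∧ (ψ : G → ℂ) = fun g => σ ((χ : G → ℂ) g)) with hS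
  have hSmem : ∀ ψ, ψ ∈ S ↔ ∃ σ : ℂ ≃+* ℂ, σ (Complex.exp (2 * Real.pi * Complex.I / (H21.pco p G : ℕ))) = Complex.exp (2 * Real.pi * Complex.I / (H21.pco p G : ℕ)) ∧ (ψ : G → ℂ) = fun g => σ ((χ : G → ℂ) g) := by
    intro ψ
    simp [hS]
  have hrS : S.card = r := by
    rw [← hr, Nat.card_eq_fintype_card, Fintype.card_subtype]
  have hχS : χ ∈ S := (hSmem χ).mpr ⟨RingEquiv.refl ℂ, rfl, rfl⟩
  have hχch := H21.isCharacter_of_irr χ.2
  -- agreement on regular elements
  have hagree : ∀ ψ ∈ S, ∀ u : G, ¬ p ∣ orderOf u → ψ.1 u = χ.1 u := by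
    intro ψ hψ u hu
    obtain ⟨σ, hσ, h⟩ := (hSmem ψ).mp hψ
    rw [h]
    exact H21.sigma_fix_character hm0 hσ hχch (H21.orderOf_dvd_pco hu)
  obtain ⟨y, hy, hsum⟩ := H21.row_int hM χ
  set e := (Cfsg.charDegree χ.1).factorization p with he
  have hea : e ≤ a := H21.factorization_degree_le χ
  have hd0 : Cfsg.charDegree χ.1 ≠ 0 := (H21.irr_charDegree_pos χ.2).ne'
  have hp0 : (p : ℂ) ≠ 0 := by exact_mod_cast hp.ne_zero
  -- constancy of the row on `S`
  have hyS : ∀ ψ ∈ S, y ψ = y χ := by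
    intro ψ hψ
    have h1 : H21.crt p χ ψ = H21.crt p χ χ := by
      rw [H21.crt_eq_sum, H21.crt_eq_sum]
      congr 1
      refine Finset.sum_congr rfl fun g _ => ?_
      by_cases hg : p ∣ orderOf g
      · rw [H21.rp_of_sing _ hg, zero_mul, zero_mul]
      · rw [hagree ψ hψ g hg]
    have h2 := hy ψ
    rw [h1, hy χ] at h2
    have h3 : ((p ^ e : ℕ) : ℂ) ≠ 0 := by
      push_cast
      exact pow_ne_zero _ hp0
    have h4 := mul_left_cancel₀ h3 h2
    exact_mod_cast h4.symm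
  -- nonvanishing of the diagonal
  have hcl : Cfsg.IsClassFunction G (H21.rp p χ.1) :=
    H21.rp_isClass (H21.isClassFunction_of_isCharacter hχch)
  have hexp := H21.classFunction_expansion (H21.rp p χ.1) hcl
  have hYne : y χ ≠ 0 := by
    intro h0
    rw [h0, mul_zero] at hsum
    have hall : ∀ ξ, y ξ = 0 := by
      intro ξ
      have := (Finset.sum_eq_zero_iff_of_nonneg (fun i _ => sq_nonneg (y i))).mp hsum ξ (Finset.mem_univ ξ)
      exact pow_eq_zero_iff (two_ne_zero) |>.mp this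
    have hcrt0 : ∀ ξ, H21.crt p χ ξ = 0 := by
      intro ξ
      have h1 := hy ξ
      rw [hall ξ] at h1
      have h3 : ((p ^ a : ℕ) : ℂ) ≠ 0 := by
        push_cast
        exact pow_ne_zero _ hp0
      have h4 : ((p ^ a : ℕ) : ℂ) * H21.crt p χ ξ = 0 := by
        rw [h1]
        simp
      exact (mul_eq_zero.mp h4).resolve_left h3
    have h1 := congrFun hexp 1
    rw [Finset.sum_apply, Finset.sum_eq_zero, H21.rp_of_reg _ (by simpa using hp.one_lt.ne' ∘ Nat.dvd_one.mp)] at h1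
    · exact H22.irr_one_ne_zero' χ h1
    · intro ξ _
      have : Cfsg.classInner (H21.rp p χ.1) ξ.1 = 0 := hcrt0 ξ
      rw [Pi.smul_apply, this, zero_smul]
  have hqpos : (0 : ℤ) < (p : ℤ) ^ (a - e) := by
    have : 0 < p := hp.pos
    positivity
  have hself : y χ ^ 2 ≤ ∑ ξ, y ξ ^ 2 :=
    Finset.single_le_sum (f := fun ξ => y ξ ^ 2) (fun _ _ => sq_nonneg _) (Finset.mem_univ χ)
  have hYpos : 0 < y χ := by
    have h1 : 0 < y χ ^ 2 := by positivity
    have h2 : 0 < (p : ℤ) ^ (a - e) * y χ := by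
      rw [← hsum]
      linarith
    exact (pos_iff_pos_of_mul_pos h2).mp hqpos
  -- the main inequality
  have hSsum : ((S.card : ℤ)) * y χ ^ 2 = ∑ ξ ∈ S, y ξ ^ 2 := by
    rw [Finset.sum_congr rfl (fun ξ hξ => by rw [hyS ξ hξ])]
    simp
  have hSle : ∑ ξ ∈ S, y ξ ^ 2 ≤ ∑ ξ, y ξ ^ 2 :=
    Finset.sum_le_sum_of_subset_of_nonneg (Finset.subset_univ _) (fun _ _ _ => sq_nonneg _)
  have hrY : (r : ℤ) * y χ ≤ (p : ℤ) ^ (a - e) := by
    rw [hrS] at hSsum
    have h1 : (r : ℤ) * y χ * y χ ≤ (p : ℤ) ^ (a - e) * y χ := by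
      rw [← hsum]
      calc (r : ℤ) * y χ * y χ = (r : ℤ) * y χ ^ 2 := by ring
        _ = ∑ ξ ∈ S, y ξ ^ 2 := hSsum
        _ ≤ _ := hSle
    exact le_of_mul_le_mul_right h1 hYpos
  have hrpos : 0 < r := by
    rw [← hrS]
    exact Finset.card_pos.mpr ⟨χ, hχS⟩
  have hrle : r ≤ p ^ (a - e) := by
    have h1 : (r : ℤ) ≤ (p : ℤ) ^ (a - e) := by
      have : (r : ℤ) ≤ (r : ℤ) * y χ := by nlinarith
      linarith
    exact_mod_cast h1
  have hfac : (r * Cfsg.charDegree χ.1).factorization p = r.factorization p + e := by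
    rw [Nat.factorization_mul hrpos.ne' hd0]
    rfl
  have hvr : r.factorization p ≤ a - e := by
    have h1 : p ^ r.factorization p ∣ r := Nat.ordProj_dvd r p
    have h2 : p ^ r.factorization p ≤ p ^ (a - e) := (Nat.le_of_dvd hrpos h1).trans hrle
    exact (Nat.pow_le_pow_iff_right hp.one_lt).mp h2
  refine ⟨by rw [hfac]; omega, ?_⟩
  intro hdvd
  by_contra hnot
  have hlt : e < a := by
    by_contra hle
    apply hnot
    exact (hp.pow_dvd_iff_le_factorization hd0).mpr (by omega)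
  have hv2 : a ≤ r.factorization p + e := by
    rw [← hfac]
    exact (hp.pow_dvd_iff_le_factorization (Nat.mul_ne_zero hrpos.ne' hd0)).mp hdvd
  have hreq : r = p ^ (a - e) := by
    apply le_antisymm hrle
    have h1 : p ^ (a - e) ∣ r := (hp.pow_dvd_iff_le_factorization hrpos.ne').mpr (by omega)
    exact Nat.le_of_dvd hrpos h1
  have hY1 : y χ = 1 := by
    have h1 : (r : ℤ) * y χ ≤ (r : ℤ) := by
      rw [hreq]
      push_cast
      rw [hreq] at hrY
      push_cast at hrY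
      exact hrY
    have hr' : (0 : ℤ) < r := by exact_mod_cast hrpos
    nlinarith
  have hsum2 : ∑ ξ, y ξ ^ 2 = (r : ℤ) := by
    rw [hsum, hY1, mul_one, hreq]
    push_cast
    rfl
  have hzero : ∀ ξ, ξ ∉ S → y ξ = 0 := by
    intro ξ hξ
    have h1 := Finset.sum_add_sum_compl S (fun ξ => y ξ ^ 2)
    rw [← hSsum, hrS, hY1, hsum2] at h1
    have h2 : ∑ ξ ∈ Sᶜ, y ξ ^ 2 = 0 := by
      linarith
    have := (Finset.sum_eq_zero_iff_of_nonneg (fun i _ => sq_nonneg (y i))).mp h2 ξ (Finset.mem_compl.mpr hξ)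
    exact pow_eq_zero_iff (two_ne_zero) |>.mp this
  have hrC : (r : ℂ) ≠ 0 := by exact_mod_cast hrpos.ne'
  -- the truncation as an average
  have hcrt : ∀ ξ, (r : ℂ) * H21.crt p χ ξ = (y ξ : ℂ) := by
    intro ξ
    have h1 := hy ξ
    have h2 : ((p ^ a : ℕ) : ℂ) = ((p ^ e : ℕ) : ℂ) * (r : ℂ) := by
      rw [hreq]
      push_cast
      rw [← pow_add, Nat.add_sub_cancel' hea]
    rw [h2, mul_assoc] at h1
    have h3 : ((p ^ e : ℕ) : ℂ) ≠ 0 := by
      push_cast
      exact pow_ne_zero _ hp0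
    exact mul_left_cancel₀ h3 h1
  have hSig : ∀ g : G, ∑ ξ ∈ S, ξ.1 g = (r : ℂ) * H21.rp p χ.1 g := by
    intro g
    have h1 := congrFun hexp g
    rw [Finset.sum_apply] at h1
    rw [h1, Finset.mul_sum]
    have h5 : ∀ ξ : Cfsg.IrrCharacter G, (r : ℂ) * ((Cfsg.classInner (H21.rp p χ.1) ξ.1 • ξ.1) g) = (y ξ : ℂ) * ξ.1 g := by
      intro ξ
      rw [Pi.smul_apply, smul_eq_mul, ← mul_assoc]
      have h2 : Cfsg.classInner (H21.rp p χ.1) ξ.1 = H21.crt p χ ξ := rfl
      rw [h2, hcrt]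
    simp only [h5]
    rw [← Finset.sum_subset (Finset.subset_univ S) (f := fun ξ => (y ξ : ℂ) * ξ.1 g) (fun ξ _ hξ => by simp [hzero ξ hξ])]
    refine Finset.sum_congr rfl fun ξ hξ => ?_
    rw [hyS ξ hξ, hY1]
    simp
  -- degrees in `S`
  have hdeg : ∀ ξ ∈ S, ξ.1 1 = χ.1 1 := by
    intro ξ hξ
    exact hagree ξ hξ 1 (by simpa using hp.one_lt.ne' ∘ Nat.dvd_one.mp)
  -- the idempotent of `S`
  let c : Cfsg.IrrCharacter G → ℂ := fun ξ => if ξ ∈ S then 1 else 0
  set f := Cfsg.charDegree χ.1 / p ^ e with hf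
  have hfd : Cfsg.charDegree χ.1 = p ^ e * f := (Nat.mul_div_cancel' (Nat.ordProj_dvd _ _)).symm
  have hfp : ¬ p ∣ f := Nat.not_dvd_ordCompl hp hd0
  have hmC : (H21.pco p G : ℂ) ≠ 0 := by exact_mod_cast hm0
  have hGcard : (Nat.card G : ℂ) = (p : ℂ) ^ a * (H21.pco p G : ℂ) := by
    have := H21.pow_mul_pco (G := G) p
    exact_mod_cast this.symm
  have hofOm : ∀ g, H22.ofOm c g = (f : ℂ) * (H21.pco p G : ℂ)⁻¹ * (starRingEnd ℂ) (H21.rp p χ.1 g) := by
    intro g
    unfold H22.ofOm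
    have h1 : ∑ ξ : Cfsg.IrrCharacter G, c ξ * (ξ.1 1 * (starRingEnd ℂ) (ξ.1 g))
        = χ.1 1 * (starRingEnd ℂ) (∑ ξ ∈ S, ξ.1 g) := by
      rw [map_sum, Finset.mul_sum]
      rw [← Finset.sum_subset (Finset.subset_univ S) (f := fun ξ => c ξ * (ξ.1 1 * (starRingEnd ℂ) (ξ.1 g))) (fun ξ _ hξ => by simp only [c, if_neg hξ, zero_mul])]
      refine Finset.sum_congr rfl fun ξ hξ => ?_
      simp only [c, if_pos hξ, one_mul]
      rw [hdeg ξ hξ]
    rw [h1, hSig, map_mul, map_natCast, H21.one_eq_charDegree hχch, hfd, hGcard, hreq]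
    push_cast
    have hpe : (p : ℂ) ^ e ≠ 0 := pow_ne_zero _ hp0
    have hsplit : (p : ℂ) ^ a = (p : ℂ) ^ e * (p : ℂ) ^ (a - e) := by
      rw [← pow_add, Nat.add_sub_cancel' hea]
    rw [hsplit]
    have hq : (p : ℂ) ^ (a - e) ≠ 0 := pow_ne_zero _ hp0
    field_simp
  have hlocal : ∀ g, MemLocalRing M ((f : ℂ) * (H21.pco p G : ℂ)⁻¹ * (starRingEnd ℂ) (H21.rp p χ.1 g)) := by
    intro g
    refine H22.mlr_mul (H22.mlr_mul (H22.mlr_natCast _) (H22.mlr_inv (H22.mlr_natCast _) (H21.not_mli_natCast_of_odd hM H21.pco_not_dvd)).2) ?_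
    by_cases hg : p ∣ orderOf g
    · rw [H21.rp_of_sing _ hg, map_zero]
      exact H22.mlr_zero
    · rw [H21.rp_of_reg _ hg, ← H22.irr_inv' χ]
      exact H22.mlr_of_isIntegral (H22.irr_isIntegral' χ _)
  -- a class where the idempotent is a unit
  haveI : Fintype (ConjClasses G) := Fintype.ofFinite _
  have hone : ∑ C : ConjClasses G, H22.ofOm c C.out * H22.cc C.out χ = 1 := by
    have h1 := H22.om_ofOm c χ
    rw [H22.om_eq_sum_classes _ (H22.ofOm_isClass _)] at h1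
    rw [h1]
    simp only [c, if_pos hχS]
  obtain ⟨C, hC⟩ : ∃ C : ConjClasses G, ¬ MemLocalIdeal M (H22.ofOm c C.out * H22.cc C.out χ) := by
    by_contra hcon
    push Not at hcon
    have := H22.mli_sum Finset.univ _ (fun C _ => hcon C)
    rw [hone] at this
    exact H22.not_mli_one this
  set u := C.out with hu
  have hmlr1 : MemLocalRing M (H22.ofOm c u) := by
    rw [hofOm]
    exact hlocal u
  have hmlr2 : MemLocalRing M (H22.cc u χ) := H22.cc_mlr u χ
  have hc1 : ¬ MemLocalIdeal M (H22.ofOm c u) := fun h => hC (H22.mli_mul_right h hmlr2)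
  have hc2 : ¬ MemLocalIdeal M (H22.cc u χ) := fun h => hC (H22.mli_mul_left h hmlr1)
  have hureg : ¬ p ∣ orderOf u := by
    intro h
    apply hc1
    rw [hofOm, H21.rp_of_sing _ h]
    simpa using H22.mli_zero
  have hwreg : ¬ p ∣ orderOf u⁻¹ := by
    rwa [orderOf_inv]
  have hχw : ¬ MemLocalIdeal M (χ.1 u⁻¹) := by
    intro h
    apply hc1
    rw [hofOm, H21.rp_of_reg _ hureg, ← H22.irr_inv' χ]
    exact H22.mli_mul_left h (H22.mlr_mul (H22.mlr_natCast _) (H22.mlr_inv (H22.mlr_natCast _) (H21.not_mli_natCast_of_odd hM H21.pco_not_dvd)).2)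
  -- the Sylow subgroup of the centralizer
  let Cu := Subgroup.centralizer ({u} : Set G)
  obtain ⟨Q⟩ : Nonempty (Sylow p Cu) := inferInstance
  let Q' : Subgroup G := (Q : Subgroup Cu).map Cu.subtype
  haveI : Fintype Q' := Fintype.ofFinite _
  have hQ'card : Nat.card Q' = Nat.card (Q : Subgroup Cu) :=
    Nat.card_congr (Subgroup.equivMapOfInjective _ _ Cu.subtype_injective).symm.toEquiv
  have hQcard : Nat.card Q' = p ^ (Nat.card Cu).factorization p := by
    rw [hQ'card]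
    exact Sylow.card_eq_multiplicity Q
  have hcomm : ∀ t ∈ Q', Commute u⁻¹ t := by
    intro t ht
    obtain ⟨t', -, rfl⟩ := ht
    have h1 : (t' : G) ∈ Cu := t'.2
    have h2 : (t' : G) * u = u * t' := by
      have := Subgroup.mem_centralizer_singleton_iff.mp h1
      exact this
    have h3 : Commute u (t' : G) := h2.symm
    exact h3.inv_left
  have hQp : ∀ t : Q', ∃ k, orderOf (t : G) = p ^ k := by
    rintro ⟨t, ht⟩
    obtain ⟨t', ht', rfl⟩ := ht
    obtain ⟨k, hk⟩ := (IsPGroup.iff_orderOf.mp Q.isPGroup') ⟨t', ht'⟩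
    refine ⟨k, ?_⟩
    rw [← hk]
    show orderOf (t' : G) = _
    rw [Subgroup.orderOf_coe]
    exact (Subgroup.orderOf_coe (⟨t', ht'⟩ : (Q : Subgroup Cu)))
  -- the identity `χ(w) = |Q| · avg`
  set avg : ℂ := (Nat.card Q' : ℂ)⁻¹ * ∑ t : Q', χ.1 (u⁻¹ * t) with havg
  have hQne : (Nat.card Q' : ℂ) ≠ 0 := by simp [Nat.card_pos.ne']
  have hidentity : χ.1 u⁻¹ = (Nat.card Q' : ℂ) * avg := by
    obtain ⟨ι, hι, μ, hμ, hμs⟩ := H21.average_eq_sum_roots hχch u⁻¹ Q' hcomm
    have hfix : ∀ ξ ∈ S, (Nat.card Q' : ℂ)⁻¹ * ∑ t : Q', ξ.1 (u⁻¹ * t) = avg := by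
      intro ξ hξ
      obtain ⟨σ, hσ, h⟩ := (hSmem ξ).mp hξ
      have h1 : σ avg = avg := by
        rw [havg, hμs]
        exact H21.sigma_fix_sum hm0 hσ (H21.orderOf_dvd_pco hwreg) μ hμ
      rw [← h1, havg, map_mul, map_inv₀, map_natCast, map_sum, h]
    have h2 : ∑ ξ ∈ S, ((Nat.card Q' : ℂ)⁻¹ * ∑ t : Q', ξ.1 (u⁻¹ * t)) = (r : ℂ) * avg := by
      rw [Finset.sum_congr rfl hfix]
      simp [hrS]
    have h3 : ∑ ξ ∈ S, ((Nat.card Q' : ℂ)⁻¹ * ∑ t : Q', ξ.1 (u⁻¹ * t))
        = (Nat.card Q' : ℂ)⁻¹ * ((r : ℂ) * χ.1 u⁻¹) := by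
      rw [← Finset.mul_sum, Finset.sum_comm]
      congr 1
      simp only [hSig]
      rw [Finset.sum_eq_single (1 : Q')]
      · simp only [Subgroup.coe_one, mul_one]
        rw [H21.rp_of_reg _ hwreg]
      · intro t _ ht
        obtain ⟨k, hk⟩ := hQp t
        have h4 : p ∣ orderOf (u⁻¹ * (t : G)) :=
          H21.p_dvd_orderOf_mul hp (hcomm t t.2) hwreg k hk (fun h => ht (Subtype.ext h))
        rw [H21.rp_of_sing _ h4, mul_zero]
      · simp
    rw [h2] at h3
    have h4 : avg = (Nat.card Q' : ℂ)⁻¹ * χ.1 u⁻¹ := by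
      apply mul_left_cancel₀ hrC
      rw [h3]
      ring
    rw [h4]
    field_simp
  have havgint : IsIntegral ℤ avg := H21.isIntegral_average hχch u⁻¹ Q' hcomm
  by_cases hc : (Nat.card Cu).factorization p = 0
  · -- the class size is divisible by `p ^ a`
    have h1 := H21.factorization_index_add (p := p) u
    have h2 : (Subgroup.centralizer ({u} : Set G)).index.factorization p = a := by
      have h3 : (Nat.card (Subgroup.centralizer ({u} : Set G))).factorization p = 0 := hc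
      omega
    have h3 : p ^ (e + 1) ∣ (Subgroup.centralizer ({u} : Set G)).index := by
      refine (hp.pow_dvd_iff_le_factorization Subgroup.index_ne_zero_of_finite).mpr ?_
      omega
    exact hc2 (H21.cc_mli_of_exp hM χ u e he.symm h3)
  · apply hχw
    rw [hidentity, hQcard]
    refine H22.mli_mul_right ?_ (H22.mlr_of_isIntegral havgint)
    have : p ∣ p ^ (Nat.card Cu).factorization p := dvd_pow_self p hc
    have h5 := H21.mli_natCast_of_dvd hM this
    simpa using h5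

end Cfsg.Agent.S4506
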