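import Cfsg.Statements.S4509
import Cfsg.Agent.Lib.H21.SelfCent2

set_option autoImplicit false
open Cfsg

namespace Cfsg.Agent.S4509

open scoped commutatorElement

open Subgroup in
theorem derived_le {G : Type*} [Group G] [Finite G] {p : ℕ} {x : G} (h : H21.SelfCent p x)
    {S : Subgroup G} [hS : S.Normal] (hsup : normalizer (zpowers x : Set G) ⊔ S = ⊤) :
    ⁅commutator G, commutator G⁆ ≤ S := by
  let C : Subgroup G := (zpowers ((x : G) : G ⧸ S)).comap (QuotientGroup.mk' S)
  have key : ∀ a b : G, ((⁅a, b⁆ : G) : G ⧸ S) = ⁅(a : G ⧸ S), (b : G ⧸ S)⁆ := by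
    intro a b
    exact map_commutatorElement (QuotientGroup.mk' S) a b
  have hGC : commutator G ≤ C := by
    rw [commutator_def, Subgroup.commutator_le]
    intro g₁ _ g₂ _
    have h1 : g₁ ∈ normalizer (zpowers x : Set G) ⊔ S := by rw [hsup]; trivial
    have h2 : g₂ ∈ normalizer (zpowers x : Set G) ⊔ S := by rw [hsup]; trivial
    obtain ⟨n₁, hn₁, t₁, ht₁, rfl⟩ := Subgroup.mem_sup_of_normal_right.1 h1
    obtain ⟨n₂, hn₂, t₂, ht₂, rfl⟩ := Subgroup.mem_sup_of_normal_right.1 h2
    show ((⁅n₁ * t₁, n₂ * t₂⁆ : G) : G ⧸ S) ∈ zpowers ((x : G) : G ⧸ S)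
    have e1 : ((t₁ : G) : G ⧸ S) = 1 := (QuotientGroup.eq_one_iff _).2 ht₁
    have e2 : ((t₂ : G) : G ⧸ S) = 1 := (QuotientGroup.eq_one_iff _).2 ht₂
    rw [key, QuotientGroup.mk_mul, QuotientGroup.mk_mul, e1, e2, mul_one, mul_one, ← key]
    obtain ⟨k, hk⟩ := h.commutator_mem_of_normalizer hn₁ hn₂
    refine ⟨k, ?_⟩
    simp only at hk ⊢
    rw [← hk, QuotientGroup.mk_zpow]
  rw [Subgroup.commutator_le]
  intro u hu v hv
  rw [← QuotientGroup.eq_one_iff, key, commutatorElement_eq_one_iff_mul_comm]
  obtain ⟨i, hi⟩ := hGC hu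
  obtain ⟨j, hj⟩ := hGC hv
  simp only at hi hj
  have hi' : ((u : G) : G ⧸ S) = ((x : G) : G ⧸ S) ^ i := hi.symm
  have hj' : ((v : G) : G ⧸ S) = ((x : G) : G ⧸ S) ^ j := hj.symm
  rw [hi', hj']
  exact (Commute.refl _).zpow_zpow i j

/-- Let the finite group G contain an element x of prime order p with C_G(x) = ⟨x⟩; let t be the number of conjugacy classes of elements of order p and 1 + n·p the number of subgroups of order p. Then G has a normal subgroup of order 1 + n·p if and only if either t = p − 1, or t < p − 1 and G″ ≠ G′. Moreover, if t = p − 1 then G′ has order 1 + n·p and G/G′ is cyclic of order p; and if t < p − 1 and G″ ≠ G′ then G″ has order 1 + n·p and G′ has order p·(1 + n·p). -/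
theorem result {G : Type*} [Group G] [Finite G] (p : ℕ) (hp : p.Prime) (x : G) (hx : orderOf x = p) (hC : Subgroup.centralizer ({x} : Set G) = Subgroup.zpowers x) (t : ℕ) (ht : Nat.card {C : ConjClasses G // ∃ g ∈ C.carrier, orderOf g = p} = t) (n : ℕ) (hn : Nat.card {H : Subgroup G // Nat.card H = p} = 1 + n * p) : ((∃ S : Subgroup G, S.Normal ∧ Nat.card S = 1 + n * p) ↔ (t = p - 1 ∨ (t < p - 1 ∧ derivedSeries G 2 ≠ derivedSeries G 1))) ∧ (t = p - 1 → Nat.card (commutator G) = 1 + n * p ∧ IsCyclic (G ⧸ commutator G) ∧ (commutator G).index = p) ∧ (t < p - 1 → derivedSeries G 2 ≠ derivedSeries G 1 → Nat.card (derivedSeries G 2) = 1 + n * p ∧ Nat.card (commutator G) = p * (1 + n * p)) := by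
  have h : H21.SelfCent p x := ⟨hp, hx, hC⟩
  haveI : Fact p.Prime := ⟨hp⟩
  have hc := h.count
  rw [ht] at hc
  set N := Subgroup.normalizer (Subgroup.zpowers x : Set G) with hN
  set e := (Subgroup.zpowers x).relIndex N with he
  have hepos : e ≠ 0 := h.relIndex_pos
  have hp1 : 0 < p - 1 := by
    have := hp.one_lt
    omega
  have hnidx : N.index = 1 + n * p := by rw [← h.card_subgroups_eq, hn]
  have hPN : Subgroup.zpowers x ≤ N := Subgroup.le_normalizer
  have hcardN : Nat.card N = p * e := by
    rw [← h.card_zpowers, he, ← Subgroup.relIndex_bot_left N,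
      ← Subgroup.relIndex_mul_relIndex _ _ _ bot_le hPN, Subgroup.relIndex_bot_left]
  have hcardG : Nat.card G = p * e * (1 + n * p) := by
    rw [← hcardN, ← hnidx, Subgroup.card_mul_index]
  have e1 : derivedSeries G 1 = commutator G := rfl
  have e2 : derivedSeries G 2 = ⁅commutator G, commutator G⁆ := rfl
  rw [e1, e2]
  have part1 : t = p - 1 → Nat.card (commutator G) = 1 + n * p ∧ IsCyclic (G ⧸ commutator G) ∧
      (commutator G).index = p := by
    intro htp
    have he1 : e = 1 := by
      rw [htp] at hc
      exact Nat.eq_of_mul_eq_mul_left hp1 (by rw [hc, mul_one])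
    have hi := (h.commutator_of_relIndex_one he1).1
    refine ⟨?_, ?_, hi⟩
    · have := Subgroup.card_mul_index (commutator G)
      rw [hi, hcardG, he1, mul_one, mul_comm] at this
      exact Nat.eq_of_mul_eq_mul_left hp.pos this
    · apply isCyclic_of_prime_card (p := p)
      exact hi
  have hene : t < p - 1 → e ≠ 1 := by
    intro hlt he1
    rw [he1, mul_one] at hc
    omega
  have part2 : t < p - 1 → ⁅commutator G, commutator G⁆ ≠ commutator G →
      Nat.card (⁅commutator G, commutator G⁆ : Subgroup G) = 1 + n * p ∧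
        Nat.card (commutator G) = p * (1 + n * p) := by
    intro hlt hne
    have hP := h.zpowers_le_commutator (hene hlt)
    have hxA : x ∈ commutator G := hP (Subgroup.mem_zpowers x)
    have hD : ¬ p ∣ Nat.card (⁅commutator G, commutator G⁆ : Subgroup G) := by
      intro hd
      have h1 : commutator G ≤ ⁅commutator G, commutator G⁆ := h.commutator_le_of_dvd hd
      exact hne (le_antisymm (Subgroup.commutator_le_left _ _) h1)
    have hinf : commutator G ⊓ N = Subgroup.zpowers x := by
      apply le_antisymm
      · rintro a ⟨ha, haN⟩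
        have h1 : ⁅a, x⁆ ∈ (⁅commutator G, commutator G⁆ : Subgroup G) :=
          Subgroup.commutator_mem_commutator ha hxA
        have h2 : ⁅a, x⁆ ∈ Subgroup.zpowers x := by
          rw [commutatorElement_def]
          exact Subgroup.mul_mem _ (h.conj_mem_of_normalizer haN (Subgroup.mem_zpowers x))
            (Subgroup.inv_mem _ (Subgroup.mem_zpowers x))
        have h3 := h.zpowers_disjoint hD h1 h2
        rw [commutatorElement_eq_one_iff_mul_comm] at h3
        exact h.mem_cent_iff.1 h3
      · exact le_inf hP hPN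
    have hidx : (commutator G).index = e := by
      have e3 := h.normalizer_sup hP
      rw [← Subgroup.relIndex_top_right, ← e3, Subgroup.relIndex_sup_right,
        ← Subgroup.inf_relIndex_right, hinf]
    have hcA : Nat.card (commutator G) = p * (1 + n * p) := by
      have := Subgroup.card_mul_index (commutator G)
      rw [hidx, hcardG] at this
      apply Nat.eq_of_mul_eq_mul_right (Nat.pos_of_ne_zero hepos)
      rw [this]
      ring
    refine ⟨?_, hcA⟩
    haveI hDn : (⁅commutator G, commutator G⁆ : Subgroup G).Normal := inferInstance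
    have hgen : commutator G = Subgroup.zpowers x ⊔ ⁅commutator G, commutator G⁆ := by
      apply le_antisymm
      · intro g hg
        obtain ⟨k, hk⟩ := h.mem_sup_of_derived hD le_rfl hxA hg
        have e4 : g = x ^ k * ((x ^ k)⁻¹ * g) := by group
        rw [e4]
        exact Subgroup.mul_mem_sup (Subgroup.zpow_mem _ (Subgroup.mem_zpowers x) k) hk
      · exact sup_le hP (Subgroup.commutator_le_left _ _)
    have hbot : (⁅commutator G, commutator G⁆ : Subgroup G) ⊓ Subgroup.zpowers x = ⊥ := by
      rw [eq_bot_iff]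
      rintro y ⟨hy1, hy2⟩
      exact (Subgroup.mem_bot).2 (h.zpowers_disjoint hD hy1 hy2)
    have hrel : (⁅commutator G, commutator G⁆ : Subgroup G).relIndex (commutator G) = p := by
      have aux : (⁅commutator G, commutator G⁆ : Subgroup G).relIndex
          (Subgroup.zpowers x ⊔ ⁅commutator G, commutator G⁆) = p := by
        rw [Subgroup.relIndex_sup_right, ← Subgroup.inf_relIndex_right, hbot,
          Subgroup.relIndex_bot_left, h.card_zpowers]
      rwa [← hgen] at aux
    have h5 : Nat.card (⁅commutator G, commutator G⁆ : Subgroup G) *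
        (⁅commutator G, commutator G⁆ : Subgroup G).relIndex (commutator G)
          = Nat.card (commutator G) := by
      rw [← Subgroup.relIndex_bot_left (⁅commutator G, commutator G⁆ : Subgroup G),
        Subgroup.relIndex_mul_relIndex _ _ _ bot_le (Subgroup.commutator_le_left _ _),
        Subgroup.relIndex_bot_left]
    rw [hrel, hcA, mul_comm] at h5
    exact Nat.eq_of_mul_eq_mul_left hp.pos h5
  refine ⟨⟨?_, ?_⟩, part1, part2⟩
  · rintro ⟨S, hSn, hS⟩
    by_cases htp : t = p - 1
    · exact Or.inl htp
    · right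
      have hele : 1 ≤ e := Nat.pos_of_ne_zero hepos
      have he1 : e ≠ 1 := by
        intro he1
        rw [he1, mul_one] at hc
        exact htp hc
      have htlt : t < p - 1 := by
        rcases Nat.eq_zero_or_pos t with h0 | h0
        · omega
        · have : t * 2 ≤ t * e := Nat.mul_le_mul_left t (by omega)
          omega
      refine ⟨htlt, ?_⟩
      intro hG2
      have hSd : ¬ p ∣ Nat.card S := by
        rw [hS]
        intro hd
        have : p ∣ 1 := (Nat.dvd_add_left (Dvd.intro_left n rfl)).1 hd
        exact hp.one_lt.ne' (Nat.dvd_one.1 this)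
      have e5 := h.relIndex_normalizer_sup hSd
      have e6 := Subgroup.relIndex_mul_index (le_sup_left : N ≤ N ⊔ S)
      rw [e5, hS, hnidx] at e6
      have e7 : (N ⊔ S).index = 1 := by
        have hpp : 0 < 1 + n * p := by omega
        exact Nat.eq_of_mul_eq_mul_left hpp (by rw [e6, mul_one])
      have e8 : N ⊔ S = ⊤ := Subgroup.index_eq_one.1 e7
      have h9 := derived_le h e8
      rw [hG2] at h9
      have hP := h.zpowers_le_commutator he1
      have := h.zpowers_disjoint hSd (h9 (hP (Subgroup.mem_zpowers x))) (Subgroup.mem_zpowers x)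
      exact h.x_ne_one this
  · rintro (htp | ⟨hlt, hne⟩)
    · exact ⟨commutator G, inferInstance, (part1 htp).1⟩
    · exact ⟨⁅commutator G, commutator G⁆, inferInstance, (part2 hlt hne).1⟩

end Cfsg.Agent.S4509
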