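import Cfsg.Statements.S4510
import Cfsg.Agent.Lib.H21.MinMax2

set_option autoImplicit false
open Cfsg

namespace Cfsg.Agent.S4510

/-- Let G be a finite group, p a prime, M a maximal ideal of the algebraic integers containing p, and call the defect of a conjugacy class the exponent of p in the order of the centralizer of its elements. Two irreducible characters lying in p-blocks of defect exactly d lie in the same block if and only if their central characters (class size times χ(x)/χ(1)) agree modulo the local ideal at M at every p-regular element x whose class has defect exactly d. -/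
theorem result {G : Type*} [Group G] [Finite G] (p : ℕ) [Fact p.Prime] (M : Ideal Cfsg.AlgInt) (hM : Cfsg.IsPModular p M) (d : ℕ) (χ ψ : Cfsg.IrrCharacter G) (hχ : Cfsg.blockDefect p (Cfsg.blockOf M (χ : G → ℂ)) = d) (hψ : Cfsg.blockDefect p (Cfsg.blockOf M (ψ : G → ℂ)) = d) : Cfsg.SameBlock M (χ : G → ℂ) (ψ : G → ℂ) ↔ ∀ x : G, ¬ p ∣ orderOf x → (Nat.card (Subgroup.centralizer ({x} : Set G))).factorization p = d → Cfsg.MemLocalIdeal M (Cfsg.centralChar (χ : G → ℂ) x - Cfsg.centralChar (ψ : G → ℂ) x) := by
  classical
  haveI := Fintype.ofFinite G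
  haveI := Fintype.ofFinite (Cfsg.IrrCharacter G)
  haveI : Fintype (ConjClasses G) := Fintype.ofFinite _
  haveI : M.IsPrime := hM.2.1.isPrime
  have hpp : p.Prime := Fact.out
  constructor
  · intro h x _ _
    exact h x
  · intro h
    set B := Cfsg.blockOf M χ.1 with hBdef
    have hB : Cfsg.IsPBlock M B := H22.isBlock_blockOf χ
    have hB' : Cfsg.IsPBlock M (Cfsg.blockOf M ψ.1) := H22.isBlock_blockOf ψ
    have hs := H21.minExp_eq_of_defect (p := p) hB hχ
    have hs' := H21.minExp_eq_of_defect (p := p) hB' hψ
    by_contra hne
    have hψB : ψ ∉ B := hne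
    have h1 := H22.om_ofOm (H22.eB B) χ
    have h2 := H22.om_ofOm (H22.eB B) ψ
    rw [H22.eB_apply_mem (H22.self_mem_blockOf χ)] at h1
    rw [H22.eB_apply_not_mem hψB] at h2
    rw [H22.om_eq_sum_classes _ (H22.ofOm_isClass _)] at h1 h2
    have h3 : Cfsg.MemLocalIdeal M (1 - 0 : ℂ) := by
      rw [← h1, ← h2, ← Finset.sum_sub_distrib]
      refine H22.mli_sum _ _ fun C _ => ?_
      rw [← mul_sub]
      set x := C.out with hx
      rw [← H22.blockCoeff_eq_ofOm]
      by_cases hC : Cfsg.MemLocalIdeal M (Cfsg.blockCoeff B x)
      · refine H22.mli_mul_right hC ?_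
        exact H22.mlr_sub (H22.cc_mlr _ _) (H22.cc_mlr _ _)
      · refine H22.mli_mul_left ?_ (H22.blockCoeff_mlr hB x)
        have hreg : ¬ p ∣ orderOf x := by
          intro hd
          apply hC
          rw [H22.blockCoeff_eq_zero_of_singular hM hB hd]
          exact H22.mli_zero
        have hdvd := H21.dvd_index_of_blockCoeff hM hB (H21.minExp p B)
          (fun θ hθ => H21.pow_minExp_dvd hpp hθ) x hC
        have hi0 : (Subgroup.centralizer ({x} : Set G)).index ≠ 0 :=
          Subgroup.index_ne_zero_of_finite
        have hle := (Nat.Prime.pow_dvd_iff_le_factorization hpp hi0).1 hdvd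
        have hadd := H21.factorization_index_add (p := p) x
        by_cases hd : (Nat.card (Subgroup.centralizer ({x} : Set G))).factorization p = d
        · exact h x hreg hd
        · have hle2 : H21.minExp p B + 1 ≤ (Subgroup.centralizer ({x} : Set G)).index.factorization p := by
            have h5 := H21.minExp_le_card (p := p) hB
            have h7 : (Nat.card G).factorization p - H21.minExp p B = d := hχ
            omega
          have hdvd2 := (Nat.Prime.pow_dvd_iff_le_factorization hpp hi0).2 hle2
          refine H22.mli_sub (H21.cc_mli_of_block hM hB (H22.self_mem_blockOf χ) x hdvd2) ?_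
          refine H21.cc_mli_of_block hM hB' (H22.self_mem_blockOf ψ) x ?_
          have h6 : H21.minExp p (Cfsg.blockOf M ψ.1) = H21.minExp p B := by rw [hs, hs']
          rw [h6]
          exact hdvd2
    rw [sub_zero] at h3
    exact H22.not_mli_one h3

end Cfsg.Agent.S4510
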