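import Cfsg.Statements.S4636
import Mathlib

set_option autoImplicit false
open Cfsg

namespace Cfsg.Agent.S4636

open scoped Pointwise

lemma uniq_order_p {G : Type*} [Group G] [Finite G] (p : ℕ) (hp : 0 < p) (P : Subgroup G) (hcyc : IsCyclic P)
    (A B : Subgroup G) (hA : A ≤ P) (hB : B ≤ P) (cA : Nat.card A = p) (cB : Nat.card B = p)
    (hAp : ∀ a ∈ A, a ^ p = 1) (hBp : ∀ a ∈ B, a ^ p = 1) : A = B := by
  classical
  haveI := Fintype.ofFinite P
  let S : Finset P := Finset.univ.filter fun a : P => a ^ p = 1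
  have hS : S.card ≤ p := IsCyclic.card_pow_eq_one_le hp
  have key : ∀ C : Subgroup G, C ≤ P → Nat.card C = p → (∀ a ∈ C, a ^ p = 1) →
      ∀ a : P, (a : G) ∈ C ↔ a ∈ S := by
    intro C hC cC hCp
    let C' : Finset P := Finset.univ.filter fun a : P => (a : G) ∈ C
    have hsub : C' ⊆ S := by
      intro a ha
      have ha' : (a : G) ∈ C := (Finset.mem_filter.mp ha).2
      refine Finset.mem_filter.mpr ⟨Finset.mem_univ _, ?_⟩
      apply Subtype.ext
      simpa using hCp _ ha'
    have hcard : C'.card = p := by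
      have h1 : Nat.card {a : P // (a : G) ∈ C} = Nat.card C := by
        apply Nat.card_congr
        exact (Subgroup.subgroupOfEquivOfLe hC).toEquiv
      have h2 : C'.card = Nat.card {a : P // (a : G) ∈ C} := by
        rw [Nat.card_eq_fintype_card, Fintype.card_subtype]
      rw [h2, h1, cC]
    have heq : C' = S := Finset.eq_of_subset_of_card_le hsub (by rw [hcard]; exact hS)
    intro a
    rw [← heq]
    exact ⟨fun h => Finset.mem_filter.mpr ⟨Finset.mem_univ _, h⟩, fun h => (Finset.mem_filter.mp h).2⟩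
  ext x
  constructor
  · intro hx
    have := (key A hA cA hAp ⟨x, hA hx⟩).mp hx
    exact (key B hB cB hBp ⟨x, hA hx⟩).mpr this
  · intro hx
    have := (key B hB cB hBp ⟨x, hB hx⟩).mp hx
    exact (key A hA cA hAp ⟨x, hB hx⟩).mpr this

lemma pow_of_card {G : Type*} [Group G] (p : ℕ) (Z : Subgroup G) [Finite Z] (hZ : Nat.card Z = p) :
    ∀ a ∈ Z, a ^ p = 1 := by
  intro a ha
  have : (⟨a, ha⟩ : Z) ^ Nat.card Z = 1 := pow_card_eq_one'
  rw [hZ] at this
  simpa using congrArg Subtype.val this

lemma le_of_nontrivial {G : Type*} [Group G] [Finite G] (p : ℕ) [Fact p.Prime] (P : Subgroup G)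
    (hP : IsPGroup p P) (hcyc : IsCyclic P) (Z : Subgroup G) (hZ : Z ≤ P) (hZcard : Nat.card Z = p)
    (R : Subgroup G) (hR : R ≤ P) (hR1 : R ≠ ⊥) : Z ≤ R := by
  have hpp := (Fact.out : p.Prime)
  have hRp : IsPGroup p R := by
    have := hP.to_le hR
    exact this
  haveI : Nontrivial R := (Subgroup.nontrivial_iff_ne_bot R).mpr hR1
  have hdvd : p ∣ Nat.card R := by
    obtain ⟨k, hk⟩ := hRp.exists_card_eq
    rw [hk]
    have hk0 : k ≠ 0 := by
      rintro rfl
      rw [pow_zero] at hk
      have := Finite.one_lt_card (α := R)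
      omega
    exact dvd_pow_self p hk0
  obtain ⟨x, hx⟩ := exists_prime_orderOf_dvd_card' p hdvd
  have hxord : orderOf (x : G) = p := by
    rw [← hx, Subgroup.orderOf_coe]
  have hxR : Subgroup.zpowers (x : G) ≤ R := by
    rw [Subgroup.zpowers_le]
    exact x.2
  have hc : Nat.card (Subgroup.zpowers (x : G)) = p := by
    rw [Nat.card_zpowers, hxord]
  have := uniq_order_p p hpp.pos P hcyc Z (Subgroup.zpowers (x : G)) hZ (hxR.trans hR) hZcard hc
    (pow_of_card p Z hZcard) (pow_of_card p _ hc)
  rw [this]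
  exact hxR

theorem result {G : Type*} [Group G] [Finite G] (p : ℕ) [Fact p.Prime] (P : Subgroup G) (hP : IsPGroup p P) (hP1 : P ≠ ⊥) (hcyc : IsCyclic P) (Z : Subgroup G) (hZ : Z ≤ P) (hZcard : Nat.card Z = p) : (∀ x : G, x ∉ Subgroup.normalizer (Z : Set G) → P ⊓ MulAut.conj x • P = ⊥) ∧ ∀ Q : Subgroup G, Q ≤ P → Q ≠ ⊥ → Subgroup.normalizer (Q : Set G) ≤ Subgroup.normalizer (Z : Set G) := by
  have hpp := (Fact.out : p.Prime)
  have hconj : ∀ (x : G) (A : Subgroup G), (MulAut.conj x • A) = A.map (MulAut.conj x).toMonoidHom := fun x A => rfl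
  have hcard : ∀ (x : G) (A : Subgroup G), Nat.card (MulAut.conj x • A : Subgroup G) = Nat.card A := by
    intro x A
    rw [hconj]
    exact Subgroup.card_map_of_injective (MulAut.conj x).injective
  have hnorm : ∀ x : G, MulAut.conj x • Z = Z → x ∈ Subgroup.normalizer (Z : Set G) := by
    intro x hx
    rw [Subgroup.mem_normalizer_iff]
    intro h
    constructor
    · intro hh
      have : x * h * x⁻¹ ∈ MulAut.conj x • Z := by
        rw [hconj]
        exact ⟨h, hh, rfl⟩
      rwa [hx] at this
    · intro hh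
      rw [← hx] at hh
      rw [hconj] at hh
      obtain ⟨y, hy, hyh⟩ := hh
      have : y = h := by
        have h1 : x * y * x⁻¹ = x * h * x⁻¹ := hyh
        simpa using h1
      rwa [this] at hy
  constructor
  · intro x hx
    by_contra hR
    set R := P ⊓ MulAut.conj x • P with hRdef
    have h1 : Z ≤ R := le_of_nontrivial p P hP hcyc Z hZ hZcard R inf_le_left hR
    have hP' : IsPGroup p (MulAut.conj x • P : Subgroup G) := by
      rw [hconj]
      exact hP.map _
    have hcyc' : IsCyclic (MulAut.conj x • P : Subgroup G) := by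
      rw [hconj]
      exact isCyclic_of_surjective (P.equivMapOfInjective _ (MulAut.conj x).injective)
        (P.equivMapOfInjective _ (MulAut.conj x).injective).surjective
    have hZ' : MulAut.conj x • Z ≤ MulAut.conj x • P := by
      intro a ha
      rw [hconj] at ha ⊢
      exact Subgroup.map_mono hZ ha
    have h2 : MulAut.conj x • Z ≤ R := le_of_nontrivial p _ hP' hcyc' _ hZ' (by rw [hcard, hZcard]) R inf_le_right hR
    apply hx
    apply hnorm
    apply uniq_order_p p hpp.pos P hcyc _ Z (h2.trans inf_le_left) hZ (by rw [hcard, hZcard]) hZcard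
    · exact pow_of_card p _ (by rw [hcard, hZcard])
    · exact pow_of_card p _ hZcard
  · intro Q hQ hQ1 x hx
    have h1 : Z ≤ Q := le_of_nontrivial p P hP hcyc Z hZ hZcard Q hQ hQ1
    have h2 : MulAut.conj x • Z ≤ Q := by
      intro a ha
      rw [hconj] at ha
      obtain ⟨y, hy, rfl⟩ := ha
      exact (Subgroup.mem_normalizer_iff.mp hx y).mp (h1 hy)
    apply hnorm
    apply uniq_order_p p hpp.pos P hcyc _ Z (h2.trans hQ) hZ (by rw [hcard, hZcard]) hZcard
    · exact pow_of_card p _ (by rw [hcard, hZcard])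
    · exact pow_of_card p _ hZcard

end Cfsg.Agent.S4636
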