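import Cfsg.Statements.S4640
import Cfsg.Agent.Lib.H22.CovAb

set_option autoImplicit false
set_option linter.style.haveILetI false
set_option linter.unusedSectionVars false

open Cfsg

namespace Cfsg.Agent.S4640

open Cfsg.Agent.H21 Cfsg.Agent.H22
open scoped ComplexConjugate

theorem result {G : Type*} [Group G] [Fintype G] (p : ℕ) [Fact p.Prime] (M : Ideal Cfsg.AlgInt) (hM : Cfsg.IsPModular p M) (N : Subgroup G) [N.Normal] [Fintype N] (hNi : ∃ k : ℕ, N.index = p ^ k) (b : Set (Cfsg.IrrCharacter N)) (hb : Cfsg.IsPBlock M b) (hstab : ∀ g : G, Cfsg.StabilizesBlock N b g) (B : Set (Cfsg.IrrCharacter G)) (hB : Cfsg.IsPBlock M B) (hcov : ∃ χ ∈ B, ∃ θ ∈ b, Cfsg.classInner (fun n : N => (χ : G → ℂ) n) (θ : N → ℂ) ≠ 0) (P : Subgroup G) (hPD : Cfsg.IsDefectGroup p M B P) (hPab : ∀ x ∈ P, ∀ y ∈ P, x * y = y * x) : N ⊔ P = ⊤ ∧ Cfsg.IsDefectGroup p M b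 ((P ⊓ N).subgroupOf N) ∧ (∀ χ ∈ B, ∃ θ ∈ b, ∀ n : N, (χ : G → ℂ) n = (θ : N → ℂ) n) ∧ (∀ θ ∈ b, Nat.card {χ : Cfsg.IrrCharacter G // χ ∈ B ∧ ∀ n : N, (χ : G → ℂ) n = (θ : N → ℂ) n} = N.index) ∧ Nat.card B = N.index * Nat.card b ∧ Cfsg.blockRank p B = Cfsg.blockRank p b := by
  classical
  haveI : M.IsPrime := hM.2.1.isPrime
  have hinv : ∀ t : G, ∀ θ ∈ b, conjIrr N t θ ∈ b := fun t θ hθ => conjIrr_mem N (hstab t⁻¹) hθ
  obtain ⟨χ, hχ, θ, hθ, hne⟩ := hcov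
  exact cover_abelian_main hM hNi hb hinv hB ⟨χ, hχ, θ, hθ, (inner_ne_iff _ _).mp hne⟩ hPD hPab


end Cfsg.Agent.S4640
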