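import Cfsg.Statements.S4642
import Cfsg.Agent.Lib.H22.FongCon

set_option autoImplicit false
set_option linter.style.haveILetI false
set_option linter.unusedSectionVars false

open Cfsg

namespace Cfsg.Agent.S4642

open Cfsg.Agent.H21 Cfsg.Agent.H22
open scoped ComplexConjugate

theorem result {G : Type*} [Group G] [Fintype G] (p : ℕ) [Fact p.Prime] (M : Ideal Cfsg.AlgInt) (hM : Cfsg.IsPModular p M) (K : Subgroup G) (hK : K = Cfsg.pPrimeCore p G) [Fintype K] (L : Subgroup G) (hL : L = Cfsg.pPrimePCore p G) (Q : Subgroup G) (hQL : Q ≤ L) (hQp : IsPGroup p Q) (hQS : ¬ p ∣ Q.relIndex L) (hCQ : Subgroup.centralizer (Q : Set G) ≤ L) (θ : Cfsg.IrrCharacter K) (hθ : ∀ g : G, Cfsg.IsConjCharOf K g (θ : K → ℂ) (θ : K → ℂ)) (B : Set (Cfsg.IrrCharacter G)) (hBdef : ∀ χ : Cfsg.IrrCharacter G, χ ∈ B ↔ Cfsg.classInner (fun k : K => (χ : G → ℂ) k) (θ : K → ℂ) ≠ 0) : Cfsg.IsPBlock M B ∧ (∀ S : Sylow p G, Cfsg.IsDefectGroup p M B S) ∧ ∀ R : Subgroup G,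 IsPGroup p R → ∃! f : Set (Cfsg.IrrCharacter (Subgroup.centralizer (R : Set G))), Cfsg.IsInducedBlock M (Subgroup.centralizer (R : Set G)) f B := by
  classical
  subst hK
  subst hL
  haveI : M.IsPrime := hM.2.1.isPrime
  haveI hKn : (pPrimeCore p G).Normal := H03.pPrimeCore_normal'
  haveI hLn : (pPrimePCore p G).Normal := H06.pPrimePCore_normal p G
  have hKc : (Nat.card (pPrimeCore p G)).Coprime p := H06.coprime_card_pPrimeCore p
  have hK' : ¬ p ∣ Nat.card (pPrimeCore p G) := fun h =>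
    (Nat.Prime.coprime_iff_not_dvd (Fact.out : p.Prime)).1 hKc.symm h
  have hKL := H06.pPrimeCore_le_pPrimePCore p G
  have hLp : IsPGroup p ((pPrimePCore p G).map (QuotientGroup.mk' (pPrimeCore p G))) := by
    unfold pPrimePCore
    rw [Subgroup.map_comap_eq_self_of_surjective (QuotientGroup.mk'_surjective _)]
    exact H01.pCore_isPGroup p
  have hinv : ∀ t : G, conjIrr (pPrimeCore p G) t θ = θ := by
    intro t
    apply Subtype.ext
    funext n
    rw [conjIrr_apply]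
    exact hθ t n _ rfl
  have hB : ∀ χ : IrrCharacter G, χ ∈ B ↔
      (@Finset.sum (pPrimeCore p G) ℂ _ (@Finset.univ _ fintypeOfFiniteH22)
        fun n => conj (θ.1 n) * χ.1 n) ≠ 0 := by
    intro χ
    rw [hBdef χ]
    exact inner_ne_iff _ _
  obtain ⟨h1, h2⟩ := fong_block_defect hM hK' hKL hLp hQL hQp hQS hCQ θ hinv hB
  exact ⟨h1, h2, fun R hR => fong_principal_type hM hK' hKL hLp hQL hQp hQS hCQ θ hinv hB hR⟩

end Cfsg.Agent.S4642
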