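import Cfsg.Statements.S4645
import Cfsg.Agent.Lib.H22.NilpAb

set_option autoImplicit false
set_option linter.style.haveILetI false
set_option linter.unusedSectionVars false

open Cfsg

namespace Cfsg.Agent.S4645

open Cfsg.Agent.H21 Cfsg.Agent.H22
open scoped ComplexConjugate

theorem result {G : Type*} [Group G] [Finite G] (p : ℕ) [Fact p.Prime] (M : Ideal Cfsg.AlgInt) (hM : Cfsg.IsPModular p M) (B : Set (Cfsg.IrrCharacter G)) (hB : Cfsg.IsPBlock M B) (P : Subgroup G) (hPD : Cfsg.IsDefectGroup p M B P) (hP1 : P ≠ ⊥) (hcyc : IsCyclic P) (c : Set (Cfsg.IrrCharacter (Subgroup.centralizer (P : Set G)))) (hc : Cfsg.IsInducedBlock M (Subgroup.centralizer (P : Set G)) c B) (T : Subgroup G) (hT : ∀ g : G, g ∈ T ↔ (g ∈ Subgroup.normalizer (P : Set G) ∧ Cfsg.StabilizesBlock (Subgroup.centralizer (P : Set G)) c g)) (Q : Subgroup G) (hQP : Q ≤ P) (hQ1 : Q ≠ ⊥) (f : Set (Cfsg.IrrCharacter (Subgroup.centralizer (Q : Set G)))) (hf : Cfsg.IsInducedBlockIn M (Subgroup.centralizer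 (Q : Set G)) (Subgroup.centralizer (P : Set G)) c f) (T' : Subgroup G) (hT' : ∀ g : G, g ∈ T' ↔ (g ∈ Subgroup.normalizer (Q : Set G) ∧ Cfsg.StabilizesBlock (Subgroup.centralizer (Q : Set G)) f g)) : T' = T ⊔ Subgroup.centralizer (Q : Set G) ∧ (Subgroup.centralizer (Q : Set G)).relIndex T' = (Subgroup.centralizer (P : Set G)).relIndex T ∧ Cfsg.blockRank p f = 1 ∧ Cfsg.IsNilpotentBlock p M f := by
  classical
  haveI : M.IsPrime := hM.2.1.isPrime
  have hPp := defect_isPGroup hPD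
  have hab : ∀ x ∈ P, ∀ y ∈ P, x * y = y * x := by
    intro x hx y hy
    have := mul_comm' (hcyc) x hx y hy
    exact this
  have hmax := maximal_of_induced_defect hM hPD hc
  have hPe := (isBrauerPairOf_iff.mp hmax.1).1
  have hCT : Subgroup.centralizer (P : Set G) ≤ T := centralizer_le_T hT
  have hTN : T ≤ Subgroup.normalizer (P : Set G) := T_le_normalizer hT
  haveI hn : ((Subgroup.centralizer (P : Set G)).subgroupOf T).Normal :=
    (Subgroup.normal_subgroupOf_iff_le_normalizer hCT).mpr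
      (hTN.trans (normalizer_le_normalizer_centralizer P))
  obtain ⟨-, -, hfree⟩ := cyclic_defect_inertial hM hPD hP1 hcyc hc hT
  have hPC := le_centralizer_of_abelian hab hQP
  have hz := zComp_sub le_rfl hQP hPC
  obtain ⟨f₁, hf₁, hle₁⟩ := exists_subpairLE hM hPe Q hQP
  obtain ⟨hmaxH, hIn⟩ := local_setup_of_le hM hmax hab hle₁ hz
  obtain rfl : f = f₁ := inducedIn_unique hf hIn
  have hfn := (free_iff_nilpotent hM hPD hab hc hT).mp hfree Q hQP hQ1 f hf
  have hDf := isDefectGroup_of_maximal hM hmaxH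
  have habH : ∀ a ∈ P.subgroupOf (Subgroup.centralizer (Q : Set G)),
      ∀ b' ∈ P.subgroupOf (Subgroup.centralizer (Q : Set G)), a * b' = b' * a := by
    intro a ha b' hb'
    apply Subtype.ext
    exact hab _ (Subgroup.mem_subgroupOf.mp ha) _ (Subgroup.mem_subgroupOf.mp hb')
  have hrank := rank_one_of_nilpotent_abelian hM _ _ le_rfl f hIn.2.1 _ hDf habH hfn
  obtain ⟨hfac, hidx⟩ := abelian_factor hM hmax hab hle₁ hT' hT
  have hTQ : T ≤ Subgroup.normalizer (Q : Set G) := cyc_le_normalizer hcyc hQP hTN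
  have e1 : T ⊓ Subgroup.normalizer (Q : Set G) = T := inf_eq_left.mpr hTQ
  have e2 : T ⊓ Subgroup.centralizer (Q : Set G) = Subgroup.centralizer (P : Set G) := by
    obtain ⟨q₁, hq₁, hq₁1⟩ := Q.bot_or_exists_ne_one.resolve_left hQ1
    apply le_antisymm
    · rintro y ⟨hy1, hy2⟩
      refine hfree y hy1 q₁ (hQP hq₁) hq₁1 ?_
      have := Subgroup.mem_centralizer_iff.mp hy2 q₁ hq₁
      rw [← this]
      group
    · exact le_inf hCT (Subgroup.centralizer_le (by exact_mod_cast hQP))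
  rw [e1, e2] at hidx
  refine ⟨?_, hidx, hrank, hfn⟩
  apply le_antisymm
  · intro x hx
    obtain ⟨y, hy, c', hc', rfl⟩ := hfac x hx
    exact Subgroup.mul_mem _ (Subgroup.mem_sup_left hy) (Subgroup.mem_sup_right hc')
  · refine sup_le ?_ (centralizer_le_T hT')
    intro t ht
    obtain ⟨h1, h2⟩ := (hT t).mp ht
    exact (hT' t).mpr ⟨hTQ ht, stabilizes_below hM hPe hle₁ (hTQ ht) h1 h2⟩


end Cfsg.Agent.S4645
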