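import Cfsg.Statements.S4646
import Cfsg.Agent.Lib.H22.Rank1

set_option autoImplicit false
set_option linter.style.haveILetI false
set_option linter.unusedSectionVars false

open Cfsg

namespace Cfsg.Agent.S4646

open Cfsg.Agent.H21 Cfsg.Agent.H22
open scoped ComplexConjugate

theorem result {G : Type*} [Group G] [Finite G] (p : ℕ) [Fact p.Prime] (M : Ideal Cfsg.AlgInt) (hM : Cfsg.IsPModular p M) : Cfsg.IsNilpotentBlock p M (Cfsg.principalBlock M G) ↔ Cfsg.blockRank p (Cfsg.principalBlock M G) = 1 := by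
  haveI : M.IsPrime := hM.2.1.isPrime
  rw [nilpotent_principal_iff hM]
  exact ⟨rank_one_of_hasNPC hM, hasNPC_of_rank_one hM⟩

end Cfsg.Agent.S4646
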