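import Cfsg.Statements.S4653
import Cfsg.Agent.Lib.H22.NormalP

set_option linter.style.haveILetI false

namespace Cfsg.Agent.S4653

open Cfsg.Agent.H21 Cfsg.Agent.H22

theorem result {G : Type*} [Group G] [Fintype G] (p : ℕ) [Fact p.Prime] (M : Ideal Cfsg.AlgInt) (hM : Cfsg.IsPModular p M) (P : Subgroup G) [P.Normal] (hP : IsPGroup p P) (B : Set (Cfsg.IrrCharacter G)) (hB : Cfsg.IsPBlock M B) (g : G) (hg : g ∉ Subgroup.centralizer (P : Set G)) : Cfsg.blockCoeff B g = 0 := by
  classical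
  haveI : Fintype (Cfsg.IrrCharacter G) := Fintype.ofFinite _
  haveI : M.IsPrime := hM.2.1.isPrime
  exact blockCoeff_eq_zero_of_not_centralizer hM P hP (blockSat_of_isBlock hB) hg

end Cfsg.Agent.S4653
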