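import Cfsg.Statements.S4654
import Cfsg.Agent.Lib.H22.NormalPair

set_option autoImplicit false
set_option linter.style.haveILetI false
set_option linter.unusedSectionVars false

open Cfsg

namespace Cfsg.Agent.S4654

open Cfsg.Agent.H21 Cfsg.Agent.H22
open scoped ComplexConjugate

theorem result {G : Type*} [Group G] [Fintype G] (p : ℕ) [Fact p.Prime] (M : Ideal Cfsg.AlgInt) (hM : Cfsg.IsPModular p M) (P : Subgroup G) [P.Normal] (hP : IsPGroup p P) (B : Set (Cfsg.IrrCharacter G)) (e : Set (Cfsg.IrrCharacter (Subgroup.centralizer (P : Set G)))) (hBe : Cfsg.IsBrauerPairOf p M B P e) (T : Subgroup G) (hT : ∀ x : G, x ∈ T ↔ Cfsg.StabilizesBlock (Subgroup.centralizer (P : Set G)) e x) : (∃ E : Set (Cfsg.IrrCharacter T), Cfsg.IsPBlock M E ∧ ∀ t : T, Cfsg.blockCoeff E t = Cfsg.subgroupBlockCoeff (Subgroup.centralizer (P : Set G)) e (t : G)) ∧ ∀ g : G, Cfsg.blockCoeff B g = (Nat.card T : ℂ)⁻¹ * ∑ x : G, Cfsg.subgroupBlockCoeff (Subgroup.centralizer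 (P : Set G)) e (x⁻¹ * g * x) := by
  haveI : M.IsPrime := hM.2.1.isPrime
  obtain ⟨⟨-, he⟩, hB, -⟩ := isBrauerPairOf_iff.mp hBe
  have hT' : ∀ y : G, y ∈ T ↔ y ∈ Subgroup.normalizer (P : Set G) ∧
      StabilizesBlock (Subgroup.centralizer (P : Set G)) e y := by
    intro y
    rw [hT]
    exact ⟨fun h => ⟨normalizer_eq_top y, h⟩, fun h => h.2⟩
  refine ⟨exists_block_stabilizer hM hT' hP he, fun g => ?_⟩
  have h1 : ∑ x : G, subgroupBlockCoeff (Subgroup.centralizer (P : Set G)) e (x⁻¹ * g * x) =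
      (Nat.card T : ℂ) * subgroupBlockCoeff (Subgroup.centralizer (P : Set G)) (orbU P e) g := by
    convert sum_sbc_conj he hT g
  rw [h1, blockCoeff_eq_sbc_orbU hM hP hBe g]
  have h0 : (Nat.card T : ℂ) ≠ 0 := by exact_mod_cast Nat.card_pos.ne'
  field_simp

end Cfsg.Agent.S4654
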