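import Cfsg.Statements.S4665
import Cfsg.Agent.Lib.H22.BlockRank

set_option autoImplicit false
set_option linter.style.haveILetI false
open Cfsg

namespace Cfsg.Agent.S4665

open Cfsg.Agent.H21 Cfsg.Agent.H22
open scoped ComplexConjugate

/-- Fix a prime p, a maximal ideal M of the algebraic integers containing p, and a p-block B of the finite group G, and let p^a be the p-part of the order of G. Let χ be an integer combination of the irreducible characters in B. If the function that agrees with χ on p-regular elements and vanishes on p-singular elements is again an integer combination of the irreducible characters in B, then p^a divides χ(1). -/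
theorem result {G : Type*} [Group G] [Fintype G] (p : ℕ) [Fact p.Prime] (M : Ideal Cfsg.AlgInt) (hM : Cfsg.IsPModular p M) (B : Set (Cfsg.IrrCharacter G)) (hB : Cfsg.IsPBlock M B) (χ : G → ℂ) (hχ : (∃ n : Cfsg.IrrCharacter G → ℤ, ∀ g : G, χ g = ∑ᶠ ψ ∈ B, (n ψ : ℂ) * (ψ : G → ℂ) g)) (h0 : (∃ n : Cfsg.IrrCharacter G → ℤ, ∀ g : G, Cfsg.pRegularPart p χ g = ∑ᶠ ψ ∈ B, (n ψ : ℂ) * (ψ : G → ℂ) g)) : ∃ k : ℤ, χ 1 = (p ^ (Nat.card G).factorization p : ℂ) * k := by
  classical
  haveI : Fintype (IrrCharacter G) := Fintype.ofFinite _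
  have hp : p.Prime := Fact.out
  obtain ⟨n, hn⟩ := h0
  let S : Sylow p G := default
  haveI : Fintype (S : Subgroup G) := Fintype.ofFinite _
  have hcard : Nat.card (S : Subgroup G) = p ^ (Nat.card G).factorization p := S.card_eq_multiplicity
  have hS : IsPGroup p (S : Subgroup G) := S.isPGroup'
  -- the function restricted to the Sylow subgroup
  have hsum1 : ∑ y : (S : Subgroup G), pRegularPart p χ y = χ 1 := by
    rw [Finset.sum_eq_single (1 : (S : Subgroup G))]
    · rw [pRegularPart_of_regular]
      · rfl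
      · simp [hp.ne_one]
    · intro y _ hy
      apply pRegularPart_of_singular
      obtain ⟨k, hk⟩ := IsPGroup.iff_orderOf.mp hS y
      have hk0 : k ≠ 0 := by
        rintro rfl
        apply hy
        rw [pow_zero, orderOf_eq_one_iff] at hk
        exact hk
      rw [show orderOf (y : G) = orderOf y from Subgroup.orderOf_coe y, hk]
      exact dvd_pow_self p hk0
    · intro h
      exact absurd (Finset.mem_univ _) h
  have hex : ∀ ψ : IrrCharacter G, ∃ m : ℕ, ∑ y : (S : Subgroup G), ψ.1 y = (Nat.card (S : Subgroup G) : ℂ) * m := by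
    intro ψ
    obtain ⟨m, hm⟩ := classInner_isCharacter_nat (isCharacter_restrict (S : Subgroup G) (isCharacter_of_irr ψ.2)) (isCharacter_one (G := (S : Subgroup G)))
    refine ⟨m, ?_⟩
    rw [← hm]
    unfold classInner
    have h1 : (Nat.card (S : Subgroup G) : ℂ) ≠ 0 := by
      exact_mod_cast (Nat.card_pos (α := (S : Subgroup G))).ne'
    simp only [map_one, mul_one]
    field_simp
  choose m hm using hex
  refine ⟨∑ ψ : IrrCharacter G, (if ψ ∈ B then n ψ else 0) * m ψ, ?_⟩
  have hcard' : ((p : ℂ) ^ (Nat.card G).factorization p) = (Nat.card (S : Subgroup G) : ℂ) := by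
    rw [hcard]; push_cast; rfl
  rw [← hsum1, hcard']
  simp only [hn, finsum_mem_irr]
  rw [Finset.sum_comm]
  push_cast
  rw [Finset.mul_sum]
  refine Finset.sum_congr rfl fun ψ _ => ?_
  have h2 : ∑ y : (S : Subgroup G), eB B ψ * ((n ψ : ℂ) * ψ.1 y) = eB B ψ * (n ψ : ℂ) * ∑ y : (S : Subgroup G), ψ.1 y := by
    rw [Finset.mul_sum]
    refine Finset.sum_congr rfl fun y _ => ?_
    ring
  rw [h2, hm ψ]
  by_cases hψ : ψ ∈ B
  · rw [eB_apply_mem hψ, if_pos hψ]
    ring
  · rw [eB_apply_not_mem hψ, if_neg hψ]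
    simp

end Cfsg.Agent.S4665
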