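import Cfsg.Statements.S4666
import Cfsg.Agent.Lib.H22.RegInt
import Cfsg.Agent.Lib.H22.BlockRank

set_option autoImplicit false
set_option linter.style.haveILetI false
set_option linter.unusedSectionVars false

open Cfsg

namespace Cfsg.Agent.S4666

open Cfsg.Agent.H21 Cfsg.Agent.H22
open scoped ComplexConjugate

theorem result {G : Type*} [Group G] [Fintype G] (p : ℕ) [Fact p.Prime] (M : Ideal Cfsg.AlgInt) (hM : Cfsg.IsPModular p M) (B : Set (Cfsg.IrrCharacter G)) (hB : Cfsg.IsPBlock M B) (χ : G → ℂ) (hχ : (∃ n : Cfsg.IrrCharacter G → ℤ, ∀ g : G, χ g = ∑ᶠ ψ ∈ B, (n ψ : ℂ) * (ψ : G → ℂ) g)) : (∃ n : Cfsg.IrrCharacter G → ℤ, ∀ g : G, (p ^ Cfsg.blockDefect p B : ℂ) * Cfsg.pRegularPart p χ g = ∑ᶠ ψ ∈ B, (n ψ : ℂ) * (ψ : G → ℂ) g) := by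
  classical
  haveI hMp : M.IsPrime := hM.2.1.isPrime
  haveI := Fintype.ofFinite (IrrCharacter G)
  obtain ⟨n, hn⟩ := hχ
  have h0 : ∀ ψ ξ : IrrCharacter G, ∃ k : ℤ, ψ ∈ B → (p : ℂ) ^ blockDefect p B * crt p ψ ξ = k := by
    intro ψ ξ
    by_cases hψ : ψ ∈ B
    · obtain ⟨k, hk⟩ := crt_block_int hM hB hψ ξ
      exact ⟨k, fun _ => hk⟩
    · exact ⟨0, fun h => absurd h hψ⟩
  choose k hk using h0
  refine ⟨fun ξ => ∑ ψ : IrrCharacter G, if ψ ∈ B then n ψ * k ψ ξ else 0, fun g => ?_⟩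
  rw [finsum_mem_irr]
  have hreg : pRegularPart p χ g = ∑ ψ : IrrCharacter G, eB B ψ * ((n ψ : ℂ) * rp p ψ.1 g) := by
    by_cases hg : p ∣ orderOf g
    · rw [pRegularPart_of_singular p _ hg]
      symm
      apply Finset.sum_eq_zero
      intro ψ _
      rw [rp_of_sing _ hg]
      ring
    · rw [pRegularPart_of_regular p _ hg, hn, finsum_mem_irr]
      refine Finset.sum_congr rfl fun ψ _ => ?_
      rw [rp_of_reg _ hg]
  have hexp : ∀ ψ : IrrCharacter G, rp p ψ.1 g = ∑ ξ : IrrCharacter G, crt p ψ ξ * ξ.1 g := by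
    intro ψ
    have hcl : IsClassFunction G (rp p ψ.1) :=
      rp_isClass (isClassFunction_of_isCharacter (H21.isCharacter_of_irr ψ.2))
    have h1 := congrFun (classFunction_expansion (rp p ψ.1) hcl) g
    rw [h1]
    simp only [Finset.sum_apply, Pi.smul_apply, smul_eq_mul]
    rfl
  rw [hreg, Finset.mul_sum]
  have h2 : ∀ ψ : IrrCharacter G, (p : ℂ) ^ blockDefect p B * (eB B ψ * ((n ψ : ℂ) * rp p ψ.1 g)) =
      ∑ ξ : IrrCharacter G, eB B ξ * ((if ψ ∈ B then ((n ψ * k ψ ξ : ℤ) : ℂ) else 0) * ξ.1 g) := by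
    intro ψ
    by_cases hψ : ψ ∈ B
    · rw [eB_apply_mem hψ, hexp, one_mul, Finset.mul_sum, Finset.mul_sum]
      refine Finset.sum_congr rfl fun ξ _ => ?_
      rw [if_pos hψ, ← mul_assoc, ← mul_assoc, mul_comm _ (n ψ : ℂ), mul_assoc (n ψ : ℂ), hk ψ ξ hψ]
      by_cases hξ : ξ ∈ B
      · rw [eB_apply_mem hξ]
        push_cast
        ring
      · rw [eB_apply_not_mem hξ]
        have h3 : crt p ψ ξ = 0 := by
          apply crt_eq_zero hM
          intro hs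
          apply hξ
          rw [block_eq_of_mem hB hψ]
          exact sameBlock_symm hs
        have h4 := hk ψ ξ hψ
        rw [h3, mul_zero] at h4
        rw [← h4]
        simp
    · rw [eB_apply_not_mem hψ]
      simp [if_neg hψ]
  rw [Finset.sum_congr rfl fun ψ _ => h2 ψ, Finset.sum_comm]
  refine Finset.sum_congr rfl fun ξ _ => ?_
  rw [← Finset.mul_sum, ← Finset.sum_mul]
  congr 2
  push_cast
  refine Finset.sum_congr rfl fun ψ _ => ?_
  split_ifs
  · push_cast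
    rfl
  · simp

end Cfsg.Agent.S4666
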