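import Cfsg.Statements.S4669
import Cfsg.Agent.Lib.H22.CentralRank

set_option autoImplicit false
set_option linter.style.haveILetI false
set_option linter.unusedSectionVars false

open Cfsg

namespace Cfsg.Agent.S4669

open Cfsg.Agent.H21 Cfsg.Agent.H22
open scoped ComplexConjugate

theorem result {G : Type*} [Group G] [Fintype G] (p : ℕ) [Fact p.Prime] (M : Ideal Cfsg.AlgInt) (hM : Cfsg.IsPModular p M) (B : Set (Cfsg.IrrCharacter G)) (hB : Cfsg.IsPBlock M B) (P : Subgroup G) (hD : Cfsg.IsDefectGroup p M B P) (hPZ : P ≤ Subgroup.center G) : Cfsg.blockRank p B = 1 := by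
  classical
  haveI hMp : M.IsPrime := hM.2.1.isPrime
  have hZc : ∀ z ∈ P, ∀ g, z * g = g * z := fun z hz g =>
    (Subgroup.mem_center_iff.1 (hPZ hz) g).symm
  haveI hPn : P.Normal := ⟨fun n hn g => by
    have h1 : g * n = n * g := (hZc n hn g).symm
    rw [h1, mul_inv_cancel_right]
    exact hn⟩
  exact blockRank_central hM P hZc (defect_isPGroup hD) hB hD

end Cfsg.Agent.S4669
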