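import Cfsg.Statements.S4674
import Cfsg.Agent.Lib.H22.HarrisKnorr

set_option autoImplicit false
set_option linter.style.haveILetI false
set_option linter.unusedSectionVars false

open Cfsg

namespace Cfsg.Agent.S4674

open Cfsg.Agent.H21 Cfsg.Agent.H22
open scoped ComplexConjugate

theorem result {G : Type*} [Group G] [Fintype G] (p : ℕ) [Fact p.Prime] (M : Ideal Cfsg.AlgInt) (hM : Cfsg.IsPModular p M) (N : Subgroup G) [N.Normal] [Fintype N] (Q : Subgroup G) (hQ : IsPGroup p Q) (hQN : Q ≤ N) [Fintype ↥(Subgroup.normalizer (Q : Set G) ⊓ N)] (d : Set (Cfsg.IrrCharacter N)) (hd : Cfsg.IsPBlock M d) (hdQ : Cfsg.IsDefectGroup p M d (Q.subgroupOf N)) (e : Set (Cfsg.IrrCharacter ↥(Subgroup.normalizer (Q : Set G) ⊓ N))) (he : Cfsg.IsPBlock M e) (heQ : Cfsg.IsDefectGroup p M e (Q.subgroupOf (Subgroup.normalizer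 (Q : Set G) ⊓ N))) (hed : Cfsg.IsInducedBlockIn M N (Subgroup.normalizer (Q : Set G) ⊓ N) e d) : (∀ c : Set (Cfsg.IrrCharacter ↥(Subgroup.normalizer (Q : Set G))), Cfsg.IsPBlock M c → (∃ ψ ∈ c, ∃ ξ ∈ e, Cfsg.classInner (fun l : ↥(Subgroup.normalizer (Q : Set G) ⊓ N) => (ψ : ↥(Subgroup.normalizer (Q : Set G)) → ℂ) (Subgroup.inclusion inf_le_left l)) (ξ : ↥(Subgroup.normalizer (Q : Set G) ⊓ N) → ℂ) ≠ 0) → ∃! B : Set (Cfsg.IrrCharacter G), Cfsg.IsInducedBlock M (Subgroup.normalizer (Q : Set G)) c B ∧ (∃ χ ∈ B, ∃ θ ∈ d, Cfsg.classInner (fun n : N => (χ : G → ℂ) n) (θ : N → ℂ) ≠ 0)) ∧ (∀ B : Set (Cfsg.IrrCharacter G), Cfsg.IsPBlock M B → (∃ χ ∈ B, ∃ θ ∈ d, Cfsg.classInner (fun n : N => (χ : G → ℂ) n) (θ : N → ℂ) ≠ 0) → ∃! c : Set (Cfsg.IrrCharacter ↥(Subgroup.normalizer (Q : Set G))), (Cfsg.IsPBlock M c ∧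 ∃ ψ ∈ c, ∃ ξ ∈ e, Cfsg.classInner (fun l : ↥(Subgroup.normalizer (Q : Set G) ⊓ N) => (ψ : ↥(Subgroup.normalizer (Q : Set G)) → ℂ) (Subgroup.inclusion inf_le_left l)) (ξ : ↥(Subgroup.normalizer (Q : Set G) ⊓ N) → ℂ) ≠ 0) ∧ Cfsg.IsInducedBlock M (Subgroup.normalizer (Q : Set G)) c B) := by
  classical
  haveI : M.IsPrime := hM.2.1.isPrime
  have main := harris_knorr hM N Q hQ hQN d hd hdQ e he heQ hed
  refine ⟨fun c hc hcov => ?_, fun B hB hcov => ?_⟩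
  · obtain ⟨ψ, hψ, ξ, hξ, hne⟩ := hcov
    obtain ⟨B, ⟨hB1, χ, hχ, θ, hθ, hne2⟩, huniq⟩ :=
      main.1 c hc ⟨ψ, hψ, ξ, hξ, (over_iff_HK ψ ξ).mp hne⟩
    refine ⟨B, ⟨hB1, χ, hχ, θ, hθ, (inner_ne_iff _ _).mpr hne2⟩, ?_⟩
    rintro B' ⟨hB1', χ', hχ', θ', hθ', hne'⟩
    exact huniq B' ⟨hB1', χ', hχ', θ', hθ', (inner_ne_iff _ _).mp hne'⟩
  · obtain ⟨χ, hχ, θ, hθ, hne⟩ := hcov
    obtain ⟨c, ⟨⟨hc, ψ, hψ, ξ, hξ, hne2⟩, hc2⟩, huniq⟩ :=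
      main.2 B hB ⟨χ, hχ, θ, hθ, (inner_ne_iff _ _).mp hne⟩
    refine ⟨c, ⟨⟨hc, ψ, hψ, ξ, hξ, (over_iff_HK ψ ξ).mpr hne2⟩, hc2⟩, ?_⟩
    rintro c' ⟨⟨hc', ψ', hψ', ξ', hξ', hne'⟩, hc2'⟩
    exact huniq c' ⟨⟨hc', ψ', hψ', ξ', hξ', (over_iff_HK ψ' ξ').mp hne'⟩, hc2'⟩

end Cfsg.Agent.S4674
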