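import Cfsg.Statements.S4676
import Cfsg.Agent.Lib.H22.HeightBound

set_option autoImplicit false
set_option linter.style.haveILetI false
set_option linter.unusedSectionVars false

open Cfsg

namespace Cfsg.Agent.S4676

open Cfsg.Agent.H21 Cfsg.Agent.H22
open scoped ComplexConjugate

theorem result {G : Type*} [Group G] [Fintype G] (p : ℕ) [Fact p.Prime] (M : Ideal Cfsg.AlgInt) (hM : Cfsg.IsPModular p M) (B : Set (Cfsg.IrrCharacter G)) (hB : Cfsg.IsPBlock M B) (P : Subgroup G) (hP : Cfsg.IsDefectGroup p M B P) : ∑ᶠ χ ∈ B, p ^ (2 * Cfsg.blockHeight p B (χ : G → ℂ)) ≤ Nat.card P ^ 2 / 4 + 1 := by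
  classical
  haveI := Fintype.ofFinite (IrrCharacter G)
  haveI hMp : M.IsPrime := hM.2.1.isPrime
  have h1 := sum_height_bound hM hB
  rw [← H21.card_defect hM hB hP] at h1
  rw [finsum_mem_eq_finite_toFinset_sum _ (Set.toFinite B)]
  have h2 : ∀ χ : IrrCharacter G, blockHeight p B χ.1 = edeg p χ - H21.minExp p B := fun χ => rfl
  simp only [h2]
  have h3 : ∀ a b : ℕ, 4 * a ≤ b + 4 → a ≤ b / 4 + 1 := by
    intro a b h
    omega
  exact h3 _ _ h1

end Cfsg.Agent.S4676
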