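import Cfsg.Statements.S4681
import Cfsg.Agent.Lib.H22.Third
import Cfsg.Prelude.Def_BlockFusion

set_option autoImplicit false
set_option linter.style.haveILetI false
set_option linter.unusedSectionVars false

open Cfsg

namespace Cfsg.Agent.S4681

open Cfsg.Agent.H21 Cfsg.Agent.H22
open scoped ComplexConjugate

theorem result {G : Type*} [Group G] [Fintype G] (p : ℕ) [Fact p.Prime] (M : Ideal Cfsg.AlgInt) (hM : Cfsg.IsPModular p M) (S : Sylow p G) : Cfsg.IsMaximalBrauerPair p M (Cfsg.principalBlock M G) (S : Subgroup G) (Cfsg.principalBlock M (Subgroup.centralizer ((S : Subgroup G) : Set G))) ∧ ∀ F : Cfsg.FusionSystem (S : Subgroup G), Cfsg.IsBlockFusionSystemOn p M (Cfsg.principalBlock M G) (S : Subgroup G) (Cfsg.principalBlock M (Subgroup.centralizer ((S : Subgroup G) : Set G))) F → ∀ Q : Subgroup G, F.Hom Q = (Cfsg.groupFusionSystem (S : Subgroup G)).Hom Q := by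
  haveI : M.IsPrime := hM.2.1.isPrime
  have hS : IsPGroup p (S : Subgroup G) := S.isPGroup'
  refine ⟨⟨isBrauerPairOf_principal hM hS, fun R g hRg hle => ?_⟩, ?_⟩
  · exact S.is_maximal' (isBrauerPairOf_iff.mp hRg).1.1 (subpairLE_le hle)
  · intro F hF Q
    ext φ
    rw [hF.2]
    constructor
    · rintro ⟨hQ, g, hg, hgQ, f, h1, h2⟩
      refine ⟨hQ, fun x => ?_, g, hg⟩
      rw [hg]
      exact hgQ ⟨x, x.2, rfl⟩
    · rintro ⟨hQ, hT, g, hg⟩
      have hgQ : Q.map (MulAut.conj g).toMonoidHom ≤ (S : Subgroup G) := by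
        rintro _ ⟨q, hq, rfl⟩
        have := hT ⟨q, hq⟩
        rw [hg] at this
        exact this
      refine ⟨hQ, g, hg, hgQ, principalBlock M _, subpairLE_principal hM hS Q hQ, ?_⟩
      rw [conjBlock_principal]
      exact subpairLE_principal hM hS _ hgQ

end Cfsg.Agent.S4681
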