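import Cfsg.Statements.S4691
import Cfsg.Agent.Lib.H22.Third
import Cfsg.Agent.Lib.H13.FrobFusion

set_option autoImplicit false
set_option linter.style.haveILetI false
set_option linter.unusedSectionVars false

open Cfsg

namespace Cfsg.Agent.S4691

open Cfsg.Agent.H21 Cfsg.Agent.H22
open scoped ComplexConjugate

theorem result {G : Type*} [Group G] [Fintype G] (p : ℕ) [Fact p.Prime] (M : Ideal Cfsg.AlgInt) (hM : Cfsg.IsPModular p M) : Cfsg.HasNormalPComplement p G ↔ Cfsg.IsNilpotentBlock p M (Cfsg.principalBlock M G) := by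
  haveI : M.IsPrime := hM.2.1.isPrime
  have hpp : p.Prime := Fact.out
  constructor
  · intro h
    have hF := Cfsg.Agent.H13.frobCond_of_hasNormalPComplement h
    refine ⟨principalBlock_isBlock, fun Q e hQe x hx _ hreg => ?_⟩
    exact hF Q (isBrauerPairOf_iff.mp hQe).1.1 x hx ((hpp.coprime_iff_not_dvd.mpr hreg).symm)
  · intro h
    apply Cfsg.Agent.H13.hasNormalPComplement_of_frobCond
    intro Q hQ g hg hc
    have hreg : IsPRegular p g := fun hd => hpp.one_lt.ne' (Nat.Coprime.eq_one_of_dvd hc.symm hd)
    exact h.2 Q _ (isBrauerPairOf_principal hM hQ) g hg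
      (principal_stable (normalizer_le_normalizer_centralizer Q hg)) hreg

end Cfsg.Agent.S4691
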