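import Cfsg.Statements.S4698
import Cfsg.Agent.Lib.H22.BFMain

set_option autoImplicit false
set_option linter.style.haveILetI false
set_option linter.unusedSectionVars false

open Cfsg

namespace Cfsg.Agent.S4698

open Cfsg.Agent.H21 Cfsg.Agent.H22
open scoped ComplexConjugate

theorem result {G : Type*} [Group G] [Finite G] (p : ℕ) [Fact p.Prime] (M : Ideal Cfsg.AlgInt) (hM : Cfsg.IsPModular p M) (B : Set (Cfsg.IrrCharacter G)) (hB : Cfsg.IsPBlock M B) (d : ℕ) (hd : Cfsg.blockDefect p B = d) : (d ≤ 2 → Nat.card B ≤ p ^ d) ∧ (3 ≤ d → Nat.card B ≤ p ^ (2 * d - 2)) := by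
  classical
  haveI : M.IsPrime := hM.2.1.isPrime
  have h := Cfsg.Agent.H22.bf_bound (p := p) hM _ G B hB rfl
  rw [hd] at h
  unfold Cfsg.Agent.H22.FF at h
  refine ⟨fun h2 => ?_, fun h3 => ?_⟩
  · by_cases h1 : d ≤ 1
    · rwa [if_pos h1] at h
    · rw [if_neg h1] at h
      have h4 : d = 2 := by omega
      subst h4
      exact h
  · rwa [if_neg (by omega)] at h


end Cfsg.Agent.S4698
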