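import Cfsg.Statements.S4699
import Cfsg.Agent.Lib.H22.TICyclic

set_option autoImplicit false
set_option linter.style.haveILetI false
set_option linter.unusedSectionVars false

open Cfsg

namespace Cfsg.Agent.S4699

open Cfsg.Agent.H22
open scoped ComplexConjugate Pointwise

theorem result {G : Type*} [Group G] [Finite G] (p : ℕ) [Fact p.Prime] (P : Sylow p G) (hcyc : IsCyclic P) (n : ℕ) (hn : 2 ≤ n) (hPn : Nat.card P = p ^ n) (hTI : ∀ Q : Sylow p G, Q ≠ P → (P : Subgroup G) ⊓ (Q : Subgroup G) = ⊥) (F : Type*) [Field F] [Finite F] [CharP F p] (V : Type*) [AddCommGroup V] [Module F V] [FiniteDimensional F V] (ρ : Representation F G V) (hfaith : Function.Injective ρ) (hirr : ρ.IsIrreducible) : p ^ n - (p - 1) ≤ Module.finrank F V := by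
  classical
  haveI : Fintype G := Fintype.ofFinite G
  refine ti_cyclic_bound P hcyc hn hPn ?_ ρ hfaith hirr
  intro g hg x hx hgx
  have h1 : g • P ≠ P := fun h => hg (Sylow.smul_eq_iff_mem_normalizer.mp h)
  have h2 := hTI (g • P) h1
  have h3 : x ∈ (P : Subgroup G) ⊓ ((g • P : Sylow p G) : Subgroup G) := by
    refine ⟨hx, ?_⟩
    rw [Sylow.coe_subgroup_smul]
    refine (Subgroup.mem_smul_pointwise_iff_exists _ _ _).mpr ⟨_, hgx, ?_⟩
    simp [MulAut.smul_def, mul_assoc]
  rw [h2] at h3
  simpa using h3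


end Cfsg.Agent.S4699
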