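import Cfsg.Statements.S4710
import Cfsg.Agent.Lib.H22.HeightBound

set_option autoImplicit false
set_option linter.style.haveILetI false
set_option linter.unusedSectionVars false

open Cfsg

namespace Cfsg.Agent.S4710

open Cfsg.Agent.H21 Cfsg.Agent.H22
open scoped ComplexConjugate

theorem result {G : Type*} [Group G] [Finite G] (p : ℕ) [Fact p.Prime] (M : Ideal Cfsg.AlgInt) (hM : Cfsg.IsPModular p M) (B : Set (Cfsg.IrrCharacter G)) (hB : Cfsg.IsPBlock M B) (d : ℕ) (hd : Cfsg.blockDefect p B = d) : ((∃ χ ∈ B, 0 < Cfsg.blockHeight p B (χ : G → ℂ)) → 2 * Nat.card B ≤ p ^ (2 * d - 2)) ∧ ∀ χ ∈ B, (d ≤ 1 → Cfsg.blockHeight p B (χ : G → ℂ) = 0) ∧ (2 ≤ d → Cfsg.blockHeight p B (χ : G → ℂ) ≤ d - 2) := by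
  classical
  haveI := Fintype.ofFinite G
  haveI := Fintype.ofFinite (IrrCharacter G)
  haveI hMp : M.IsPrime := hM.2.1.isPrime
  have hh : ∀ χ : IrrCharacter G, blockHeight p B χ.1 = edeg p χ - H21.minExp p B := fun χ => rfl
  have hmin : ∀ χ ∈ B, H21.minExp p B ≤ edeg p χ := fun χ hχ => H21.minExp_le hχ
  subst hd
  refine ⟨?_, ?_⟩
  · rintro ⟨χ, hχ, hpos⟩
    rw [hh] at hpos
    exact (positive_height_bounds hM hB hχ (by omega)).2.2
  · intro χ hχ
    rw [hh]
    by_cases h0 : edeg p χ = H21.minExp p B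
    · rw [h0]
      simp
    · have := positive_height_bounds hM hB hχ h0
      have := hmin χ hχ
      omega

end Cfsg.Agent.S4710
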