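import Cfsg.Statements.S4711
import Cfsg.Agent.Lib.H22.PLengthOne

set_option autoImplicit false
set_option linter.style.haveILetI false
set_option linter.unusedSectionVars false

open Cfsg

namespace Cfsg.Agent.S4711

open Cfsg.Agent.H21 Cfsg.Agent.H22
open scoped ComplexConjugate

theorem result {G : Type*} [Group G] [Finite G] (p : ℕ) [Fact p.Prime] (M : Ideal Cfsg.AlgInt) (hM : Cfsg.IsPModular p M) (P : Sylow p G) : Cfsg.PLengthLE p 1 G ↔ ∀ χ ∈ Cfsg.principalBlock M G, Cfsg.IsIrrCharacter ↥(Subgroup.normalizer ((P : Subgroup G) : Set G)) (fun n : ↥(Subgroup.normalizer ((P : Subgroup G) : Set G)) => (χ : G → ℂ) n) := by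
  classical
  haveI := Fintype.ofFinite G
  haveI := Fintype.ofFinite (IrrCharacter G)
  haveI : M.IsPrime := hM.2.1.isPrime
  exact ⟨fun h => restrict_irr_of_plength hM P h, fun h => plength_one_of_restrict_irr hM P h⟩

end Cfsg.Agent.S4711
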