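import Cfsg.Statements.S4713
import Cfsg.Agent.Lib.H22.NormalAb

set_option autoImplicit false
set_option linter.style.haveILetI false
set_option linter.unusedSectionVars false

open Cfsg

namespace Cfsg.Agent.S4713

open Cfsg.Agent.H21 Cfsg.Agent.H22
open scoped ComplexConjugate

theorem result {G : Type*} [Group G] [Finite G] (p : ℕ) [Fact p.Prime] (hsolv : Cfsg.IsPSolvable p G) (P : Sylow p G) : ((P : Subgroup G).Normal ∧ IsMulCommutative P) ↔ ∀ χ : Cfsg.IrrCharacter G, ¬ p ∣ Cfsg.charDegree (χ : G → ℂ) := by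
  constructor
  · rintro ⟨hn, ha⟩ χ
    refine degrees_of_normal_abelian P hn ?_ χ
    intro a hA b hB
    have := ha.is_comm.comm ⟨a, hA⟩ ⟨b, hB⟩
    exact congrArg Subtype.val this
  · intro h
    obtain ⟨hn, ha⟩ := normal_abelian_of_degrees (Nat.card G) G rfl hsolv h P
    refine ⟨hn, ⟨⟨?_⟩⟩⟩
    rintro ⟨a, hA⟩ ⟨b, hB⟩
    exact Subtype.ext (ha a hA b hB)

end Cfsg.Agent.S4713
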