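import Cfsg.Statements.S4714
import Cfsg.Agent.Lib.H22.DCent

set_option autoImplicit false
set_option linter.style.haveILetI false
set_option linter.unusedSectionVars false

open Cfsg

namespace Cfsg.Agent.S4714


open scoped ComplexConjugate

theorem result {G : Type*} [Group G] [Finite G] (p : ℕ) [Fact p.Prime] (M : Ideal Cfsg.AlgInt) (hM : Cfsg.IsPModular p M) (D : Subgroup G) (hD : IsPGroup p D) (hG : D ⊔ Subgroup.centralizer (D : Set G) = ⊤) (B : Set (Cfsg.IrrCharacter G)) (hB : Cfsg.IsPBlock M B) (hBD : Cfsg.IsDefectGroup p M B D) (χ : Cfsg.IrrCharacter G) (hχ : χ ∈ B) (hχD : ∀ y ∈ D, (χ : G → ℂ) y = (χ : G → ℂ) 1) : (∀ θ : Cfsg.IrrCharacter G, θ ∈ B ↔ ∃ ζ : Cfsg.IrrCharacter D, (∀ (y : D) (x : G), ¬ p ∣ orderOf x → Commute (y : G) x → (θ : G → ℂ) ((y : G) * x) = (ζ : D → ℂ) y * (χ : G → ℂ) x) ∧ (∀ z : G, (∀ y : G, Cfsg.IsPPart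 p z y → y ∉ D) → (θ : G → ℂ) z = 0)) ∧ ∀ ζ : Cfsg.IrrCharacter D, ∃ θ ∈ B, (∀ (y : D) (x : G), ¬ p ∣ orderOf x → Commute (y : G) x → (θ : G → ℂ) ((y : G) * x) = (ζ : D → ℂ) y * (χ : G → ℂ) x) ∧ (∀ z : G, (∀ y : G, Cfsg.IsPPart p z y → y ∉ D) → (θ : G → ℂ) z = 0) := by
  classical
  haveI : Fintype G := Fintype.ofFinite G
  haveI : Fintype D := Fintype.ofFinite D
  obtain ⟨Φ, hΦ, hB'⟩ := Cfsg.Agent.H22.dc_main hM hD hG B hB hBD χ hχ (fun y hy => hχD y hy)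
  have hform : ∀ ζ : Cfsg.IrrCharacter D, (∀ (y : D) (x : G), ¬ p ∣ orderOf x → Commute (y : G) x →
      ((Φ ζ : Cfsg.IrrCharacter G) : G → ℂ) ((y : G) * x) = (ζ : D → ℂ) y * (χ : G → ℂ) x) ∧
      (∀ z : G, (∀ y : G, Cfsg.IsPPart p z y → y ∉ D) → ((Φ ζ : Cfsg.IrrCharacter G) : G → ℂ) z = 0) := by
    intro ζ
    constructor
    · intro y x hx _
      rw [hΦ, Cfsg.Agent.H22.fZ_mul hD hG _ _ y hx]
    · intro z hz
      rw [hΦ]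
      exact Cfsg.Agent.H22.fZ_of_not_mem _ _ (hz _ (Cfsg.Agent.H22.isPPart_pPt p z))
  refine ⟨fun θ => ⟨fun hθ => ?_, ?_⟩, fun ζ => ⟨Φ ζ, (hB' _).mpr ⟨ζ, rfl⟩, hform ζ⟩⟩
  · obtain ⟨ζ, rfl⟩ := (hB' θ).mp hθ
    exact ⟨ζ, hform ζ⟩
  · rintro ⟨ζ, h1, h2⟩
    refine (hB' θ).mpr ⟨ζ, Subtype.ext ?_⟩
    rw [hΦ]
    funext u
    by_cases hu : Cfsg.Agent.H22.pPt p u ∈ D
    · rw [Cfsg.Agent.H22.fZ_of_mem _ _ hu]
      have h3 := h1 ⟨_, hu⟩ _ (Cfsg.Agent.H22.rPt_not_dvd p u) (Cfsg.Agent.H22.commute_pPt_rPt p u)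
      simp only [Cfsg.Agent.H22.pPt_mul_rPt] at h3
      exact h3
    · rw [Cfsg.Agent.H22.fZ_of_not_mem _ _ hu]
      apply h2
      intro y hy
      rw [← Cfsg.Agent.H22.pPt_eq hy]
      exact hu

end Cfsg.Agent.S4714
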