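import Cfsg.Statements.S4717
import Cfsg.Agent.Lib.H22.Contribution
import Cfsg.Agent.Lib.H22.ZTransfer
import Cfsg.Agent.Lib.H21.CentralDefect
import Cfsg.Agent.Lib.H21.Second4

set_option autoImplicit false
set_option linter.style.haveILetI false
set_option linter.unusedSectionVars false

open Cfsg

namespace Cfsg.Agent.S4717

open Cfsg.Agent.H21 Cfsg.Agent.H22
open scoped ComplexConjugate

theorem result {G : Type*} [Group G] [Finite G] (p : ℕ) [Fact p.Prime] (M : Ideal Cfsg.AlgInt) (hM : Cfsg.IsPModular p M) (r : ℕ) : ((∀ B' : Set (Cfsg.IrrCharacter G), Cfsg.IsPBlock M B' → B' ≠ Cfsg.principalBlock M G → Cfsg.blockDefect p B' < r) → ∀ y : G, (∃ k : ℕ, orderOf y = p ^ k) → (∀ B' : Set (Cfsg.IrrCharacter ↥(Subgroup.centralizer ({y} : Set G))), Cfsg.IsPBlock M B' → B' ≠ Cfsg.principalBlock M ↥(Subgroup.centralizer ({y} : Set G)) → Cfsg.blockDefect p B' < r)) ∧ (0 < r → (∀ y : G, orderOf y = p → (∀ B' : Set (Cfsg.IrrCharacter ↥(Subgroup.centralizer ({y} : Set G))), Cfsg.IsPBlock M B' → B' ≠ Cfsg.principalBlock M ↥(Subgroup.centralizer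 ({y} : Set G)) → Cfsg.blockDefect p B' < r)) → (∀ B' : Set (Cfsg.IrrCharacter G), Cfsg.IsPBlock M B' → B' ≠ Cfsg.principalBlock M G → Cfsg.blockDefect p B' < r)) := by
  classical
  haveI hMp : M.IsPrime := hM.2.1.isPrime
  refine ⟨?_, ?_⟩
  · intro hG y ⟨k, hk⟩ B' hB' hne
    obtain ⟨B, hind⟩ := exists_induced_centralizer_elem hM hk hB'
    have hBne : B ≠ principalBlock M G := by
      rintro rfl
      exact hne ((induced_principal_iff hM hk hB').1 hind)
    have h1 := hG B hind.2.1 hBne
    obtain ⟨D', hD'⟩ := isDefectGroup_exists (p := p) hB'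
    obtain ⟨E, hE, hle⟩ := induced_defect_le hM hind hD'
    have h2 := H21.card_defect hM hB' hD'
    have h3 := H21.card_defect hM hind.2.1 hE
    have h4 : Nat.card D' ≤ Nat.card E := by
      have h5 : Nat.card (D'.map (Subgroup.centralizer ({y} : Set G)).subtype) = Nat.card D' :=
        Subgroup.card_map_of_injective (Subgroup.subtype_injective _)
      rw [← h5]
      exact Subgroup.card_le_of_le hle
    rw [h2, h3] at h4
    have h6 := (Nat.pow_le_pow_iff_right (Fact.out : p.Prime).one_lt).1 h4
    omega
  · intro hr hC B' hB' hne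
    by_contra hcon
    push Not at hcon
    obtain ⟨D, hD⟩ := isDefectGroup_exists (p := p) hB'
    have hcard := H21.card_defect hM hB' hD
    have hDp : IsPGroup p D := IsPGroup.of_card hcard
    have hnt : Nontrivial D := by
      apply Finite.one_lt_card_iff_nontrivial.1
      rw [hcard]
      exact Nat.one_lt_pow (by omega) (Fact.out : p.Prime).one_lt
    haveI := hnt
    haveI := hDp.center_nontrivial
    obtain ⟨z, hz⟩ : ∃ z : Subgroup.center D, orderOf z = p := by
      have hdvd : p ∣ Nat.card (Subgroup.center D) := by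
        have hpc : IsPGroup p (Subgroup.center D) := hDp.to_subgroup _
        obtain ⟨n, hn⟩ := IsPGroup.iff_card.1 hpc
        have h1 : Nat.card (Subgroup.center D) ≠ 1 := by
          exact (Finite.one_lt_card_iff_nontrivial.2 inferInstance).ne'
        rw [hn] at h1 ⊢
        exact dvd_pow_self p (by
          rintro rfl
          simp at h1)
      exact exists_prime_orderOf_dvd_card' p hdvd
    set y : G := ((z : D) : G) with hy
    have hyord : orderOf y = p := by
      rw [hy, Subgroup.orderOf_coe, Subgroup.orderOf_coe]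
      exact hz
    have hyD : y ∈ D := (z : D).2
    have hyc : ∀ d ∈ D, d * y = y * d := by
      intro d hd
      have := (Subgroup.mem_center_iff.1 z.2) ⟨d, hd⟩
      exact congrArg Subtype.val this
    set Q : Subgroup G := Subgroup.zpowers y with hQ
    have hQD : Q ≤ D := by
      rw [hQ, Subgroup.zpowers_le]
      exact hyD
    obtain ⟨e, hmax⟩ := exists_maximal_on_defect hM hD hB'
    have hPe := (isBrauerPairOf_iff.1 hmax.1).1
    obtain ⟨f, hf, hle⟩ := exists_subpairLE hM hPe Q hQD
    have hQB : IsBrauerPairOf p M B' Q f := (isBrauerPairOf_iff_of_subpairLE hM hf hle).1 hmax.1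
    have hind := induced_of_brauerPairOf hM hQB
    obtain ⟨D', hD', hDle⟩ := exists_defect_centralizer hM hPe hle hf.2
    have hfne : f ≠ principalBlock M (Subgroup.centralizer (Q : Set G)) := by
      rintro rfl
      have h1 := (induced_principal_iff_aux hM hf.1 hf.2).2 rfl
      exact hne (induced_unique hind h1)
    have hC' := hC y hyord
    rw [← centralizer_zpowers y] at hC'
    have h1 := hC' f hf.2 hfne
    have h2 := H21.card_defect hM hf.2 hD'
    have hDC : D ≤ Subgroup.centralizer (Q : Set G) := by
      intro d hd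
      rw [hQ, centralizer_zpowers]
      exact Subgroup.mem_centralizer_singleton_iff.2 (hyc d hd)
    have h3 : Nat.card D ≤ Nat.card D' := by
      have h4 : Nat.card ((D ⊓ Subgroup.centralizer (Q : Set G)).subgroupOf
          (Subgroup.centralizer (Q : Set G))) = Nat.card D := by
        rw [inf_eq_left.2 hDC]
        exact Nat.card_congr (Subgroup.subgroupOfEquivOfLe hDC).toEquiv
      rw [← h4]
      exact Subgroup.card_le_of_le hDle
    rw [hcard, h2] at h3
    have h6 := (Nat.pow_le_pow_iff_right (Fact.out : p.Prime).one_lt).1 h3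
    omega

end Cfsg.Agent.S4717
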