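import Cfsg.Statements.S4718
import Cfsg.Agent.Lib.H22.Landau
import Cfsg.Agent.Lib.H21.RegProj

universe u

set_option autoImplicit false
set_option linter.style.haveILetI false
set_option linter.unusedSectionVars false

open Cfsg

namespace Cfsg.Agent.S4718

open Cfsg.Agent.H21 Cfsg.Agent.H22
open scoped ComplexConjugate

theorem result (p : ℕ) [Fact p.Prime] (a : ℕ) : ∃ N : ℕ, ∀ (G : Type u) [Group G] [Finite G] (M : Ideal Cfsg.AlgInt), Cfsg.IsPModular p M → (Nat.card G).factorization p = a → (∀ B : Set (Cfsg.IrrCharacter G), Cfsg.IsPBlock M B → B = Cfsg.principalBlock M G) → Nat.card G ≤ N := by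
  obtain ⟨N, hN⟩ := landau_bound.{u} (p ^ (2 * a) + 1)
  refine ⟨N, ?_⟩
  intro G _ _ M hM ha hall
  classical
  haveI := Fintype.ofFinite G
  haveI := Fintype.ofFinite (IrrCharacter G)
  haveI hMp : M.IsPrime := hM.2.1.isPrime
  apply hN
  rw [← card_irr_eq_card_conjClasses]
  have hB := principalBlock_isBlock (M := M) (G := G)
  have h1 := H21.brauer_feit hM hB
  have h2 : ∀ χ : IrrCharacter G, χ ∈ principalBlock M G := by
    intro χ
    rw [← hall _ (isBlock_blockOf χ)]
    exact self_mem_blockOf χ
  have h3 : Nat.card (principalBlock M G) = Nat.card (IrrCharacter G) :=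
    Nat.card_congr (Equiv.subtypeUnivEquiv h2)
  rw [h3] at h1
  have h4 : blockDefect p (principalBlock M G) ≤ a := by
    rw [H21.blockDefect_eq, ha]
    omega
  have h5 : p ^ (2 * blockDefect p (principalBlock M G)) ≤ p ^ (2 * a) :=
    Nat.pow_le_pow_right (Fact.out : p.Prime).pos (by omega)
  omega

end Cfsg.Agent.S4718
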