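import Cfsg.Statements.S4719
import Cfsg.Agent.Lib.H22.VAutC

set_option autoImplicit false
set_option linter.style.haveILetI false
set_option linter.unusedSectionVars false

universe u
open Cfsg

namespace Cfsg.Agent.S4719

open Cfsg.Agent.H21 Cfsg.Agent.H22
open scoped ComplexConjugate

theorem result (a : ℕ) : ∃ N : ℕ, ∀ (G : Type u) [Group G] [Finite G] (M : Ideal Cfsg.AlgInt) (r : ℕ) (P : Sylow 2 G), Cfsg.IsPModular 2 M → Nat.card P = 2 ^ a → (∀ B : Set (Cfsg.IrrCharacter G), Cfsg.IsPBlock M B → B ≠ Cfsg.principalBlock M G → Cfsg.blockDefect 2 B < r) → (∃ E : Subgroup G, E ≤ (P : Subgroup G) ∧ IsMulCommutative E ∧ (∀ x ∈ E, x * x = 1) ∧ Nat.card E = 2 ^ (r + 1)) → Nat.card G ≤ N := by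
  obtain ⟨N, hN⟩ := block_bound.{u} a
  refine ⟨N, fun G _ _ M r P hM hP hG hE => ?_⟩
  haveI : Fact (Nat.Prime 2) := ⟨Nat.prime_two⟩
  obtain ⟨E, -, hEc, hE2, hEcard⟩ := hE
  refine hN G M r hM ?_ hG ⟨E, hEc, hE2, hEcard⟩
  have h1 := P.card_eq_multiplicity
  rw [hP] at h1
  have h2 := Nat.pow_right_injective (le_refl 2) h1
  omega

end Cfsg.Agent.S4719
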