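import Cfsg.Statements.S4720
import Cfsg.Agent.Lib.H22.ColumnInner

set_option autoImplicit false
set_option linter.style.haveILetI false
set_option linter.unusedSectionVars false

open Cfsg

namespace Cfsg.Agent.S4720

open Cfsg.Agent.H21 Cfsg.Agent.H22
open scoped ComplexConjugate

theorem result {G : Type*} [Group G] [Finite G] (p : ℕ) [Fact p.Prime] (M : Ideal Cfsg.AlgInt) (hM : Cfsg.IsPModular p M) (P : Subgroup G) (hP : IsPGroup p P) (N : Subgroup G) (hPN : P ≤ N) (hNN : N ≤ Subgroup.normalizer (P : Set G)) (U : Set G) (hUne : U.Nonempty) (hUP : U ⊆ (P : Set G)) (hUN : ∀ n ∈ N, ∀ u ∈ U, n * u * n⁻¹ ∈ U) (hfus : ∀ u ∈ U, ∀ g : G, g * u * g⁻¹ ∈ (P : Set G) → ∃ n ∈ N, n * u * n⁻¹ = g * u * g⁻¹) (w : ℚ) (hw : ∀ y ∈ U, ((∑ᶠ ψ ∈ Cfsg.principalBlock M ↥(Subgroup.centralizer ({y} : Set G)), Cfsg.charDegree (ψ : ↥(Subgroup.centralizer ({y} : Set G)) → ℂ) ^ 2) : ℚ) = w * Nat.card ↥(N ⊓ Subgroup.centralizer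 ({y} : Set G))) (θ η : ↥P → ℂ) (hθ : Cfsg.IsGeneralizedCharacter ↥P θ) (hη : Cfsg.IsGeneralizedCharacter ↥P η) (hθU : ∀ y : ↥P, (y : G) ∉ U → θ y = 0) : ∑ᶠ χ ∈ Cfsg.principalBlock M G, ((Nat.card ↥P : ℂ)⁻¹ * ∑ᶠ y : ↥P, (χ : G → ℂ) (y : G) * θ y⁻¹) * (starRingEnd ℂ) ((Nat.card ↥P : ℂ)⁻¹ * ∑ᶠ y : ↥P, (χ : G → ℂ) (y : G) * η y⁻¹) = ((w : ℂ) / ((Nat.card ↥P : ℂ) ^ 2)) * ∑ᶠ y : ↥P, θ y * (starRingEnd ℂ) (∑ᶠ x : ↥N, Cfsg.extendByZero P η ((x : G) * (y : G) * (x : G)⁻¹)) := by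
  classical
  haveI hMp : M.IsPrime := hM.2.1.isPrime
  letI : Fintype P := Fintype.ofFinite _
  letI : Fintype N := Fintype.ofFinite _
  have hord : ∀ v : P, ∃ k, orderOf (v : G) = p ^ k := by
    intro v
    obtain ⟨k, hk⟩ := (IsPGroup.iff_orderOf.1 hP) v
    exact ⟨k, by rw [← hk, Subgroup.orderOf_coe]⟩
  have hdeg : ∀ (y : G) , ∑ ψ : IrrCharacter (Subgroup.centralizer ({y} : Set G)),
      eB (principalBlock M (Subgroup.centralizer ({y} : Set G))) ψ * (ψ.1 1 * conj (ψ.1 1)) =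
      (((∑ᶠ ψ ∈ Cfsg.principalBlock M ↥(Subgroup.centralizer ({y} : Set G)),
        Cfsg.charDegree (ψ : ↥(Subgroup.centralizer ({y} : Set G)) → ℂ) ^ 2) : ℚ) : ℂ) := by
    intro y
    rw [← finsum_mem_irr, finsum_mem_eq_finite_toFinset_sum _ (Set.toFinite _),
      finsum_mem_eq_finite_toFinset_sum _ (Set.toFinite _)]
    push_cast
    refine Finset.sum_congr rfl fun ψ _ => ?_
    rw [one_eq_charDegree (isCharacter_of_irr ψ.2), map_natCast]
    ring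
  have key : ∀ v : P, θ v * ∑ v' : P, conj (η v') *
      ∑ χ : IrrCharacter G, eB (principalBlock M G) χ * (χ.1 (v' : G) * conj (χ.1 (v : G))) =
      w * (θ v * conj (∑ x : N, extendByZero P η ((x : G) * (v : G) * (x : G)⁻¹))) := by
    intro v
    by_cases hv : (v : G) ∈ U
    · rw [sum_conj_fiber hNN v (hfus v hv) η, map_sum, Finset.mul_sum, Finset.mul_sum,
        Finset.mul_sum]
      refine Finset.sum_congr rfl fun v' _ => ?_
      obtain ⟨k, hk⟩ := hord v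
      obtain ⟨l, hl⟩ := hord v'
      rw [principal_column_pair hM hl hk, hdeg, hw v hv]
      by_cases hc : IsConj (v : G) (v' : G)
      · simp only [if_pos hc, map_mul, map_natCast]
        push_cast
        ring
      · simp only [if_neg hc, map_zero, zero_mul, mul_zero]
    · simp [hθU v hv]
  have hterm : ∀ χ : IrrCharacter G,
      ((Nat.card ↥P : ℂ)⁻¹ * ∑ᶠ y : ↥P, (χ : G → ℂ) (y : G) * θ y⁻¹) *
        (starRingEnd ℂ) ((Nat.card ↥P : ℂ)⁻¹ * ∑ᶠ y : ↥P, (χ : G → ℂ) (y : G) * η y⁻¹) =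
      (Nat.card ↥P : ℂ)⁻¹ * (Nat.card ↥P : ℂ)⁻¹ * ∑ v : P, ∑ v' : P,
        θ v * conj (η v') * (χ.1 (v' : G) * conj (χ.1 (v : G))) := by
    intro χ
    have hinv : ∀ f : ↥P → ℂ, ∑ᶠ y : ↥P, (χ : G → ℂ) (y : G) * f y⁻¹ =
        ∑ v : P, conj (χ.1 (v : G)) * f v := by
      intro f
      rw [finsum_eq_sum_of_fintype, ← Equiv.sum_comp (Equiv.inv P)]
      refine Finset.sum_congr rfl fun y _ => ?_
      simp only [Equiv.inv_apply, Subgroup.coe_inv]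
      rw [isCharacter_inv (isCharacter_of_irr χ.2), inv_inv]
    rw [hinv, hinv, map_mul, map_sum, map_inv₀, map_natCast]
    rw [mul_mul_mul_comm, Finset.sum_mul_sum]
    congr 1
    refine Finset.sum_congr rfl fun v _ => Finset.sum_congr rfl fun v' _ => ?_
    rw [map_mul, Complex.conj_conj]
    ring
  rw [finsum_mem_irr]
  simp only [hterm]
  rw [finsum_eq_sum_of_fintype]
  simp only [finsum_eq_sum_of_fintype]
  have hsum : ∑ χ : IrrCharacter G, eB (principalBlock M G) χ *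
      ((Nat.card ↥P : ℂ)⁻¹ * (Nat.card ↥P : ℂ)⁻¹ * ∑ v : P, ∑ v' : P,
        θ v * conj (η v') * (χ.1 (v' : G) * conj (χ.1 (v : G)))) =
      (Nat.card ↥P : ℂ)⁻¹ * (Nat.card ↥P : ℂ)⁻¹ * ∑ v : P, θ v * ∑ v' : P, conj (η v') *
      ∑ χ : IrrCharacter G, eB (principalBlock M G) χ * (χ.1 (v' : G) * conj (χ.1 (v : G))) := by
    simp only [Finset.mul_sum]
    rw [Finset.sum_comm]
    refine Finset.sum_congr rfl fun v _ => ?_
    rw [Finset.sum_comm]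
    refine Finset.sum_congr rfl fun v' _ => ?_
    refine Finset.sum_congr rfl fun χ _ => ?_
    ring
  rw [hsum]
  simp only [key]
  rw [← Finset.mul_sum, div_eq_mul_inv, pow_two, mul_inv]
  ring

end Cfsg.Agent.S4720
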