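import Cfsg.Statements.S4721
import Cfsg.Agent.Lib.H22.BwG

set_option autoImplicit false
set_option linter.style.haveILetI false
set_option linter.unusedSectionVars false

open Cfsg

namespace Cfsg.Agent.S4721

open Cfsg.Agent.H21 Cfsg.Agent.H22
open scoped ComplexConjugate

theorem result {G : Type*} [Group G] [Finite G] (p : ℕ) [Fact p.Prime] (M : Ideal Cfsg.AlgInt) (hM : Cfsg.IsPModular p M) (P : Sylow p G) (hab : IsMulCommutative P) (hP1 : Nat.card P ≠ 1) (hCN : (Subgroup.centralizer ((P : Subgroup G) : Set G)).relIndex (Subgroup.normalizer ((P : Subgroup G) : Set G)) = 3) (hcyc : ∃ g : G, g ∈ Subgroup.normalizer ((P : Subgroup G) : Set G) ∧ Subgroup.centralizer ((P : Subgroup G) : Set G) ⊔ Subgroup.zpowers g = Subgroup.normalizer ((P : Subgroup G) : Set G)) (hm2 : 3 + 1 < Nat.card P) (hfrob : ∀ y : G, y ∈ (P : Subgroup G) → y ≠ 1 → Subgroup.centralizer ({y} : Set G) ⊓ Subgroup.normalizer ((P : Subgroup G) : Set G) = Subgroup.centralizer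 ((P : Subgroup G) : Set G)) : ∃ (X Y : Set (Cfsg.IrrCharacter G)), Cfsg.principalBlock M G = X ∪ Y ∧ Disjoint X Y ∧ Nat.card X = 3 ∧ Nat.card Y = (Nat.card P - 1) / 3 ∧ (∃ χ₁ ∈ X, (χ₁ : G → ℂ) = fun _ => 1) ∧ ∃ (a : Cfsg.IrrCharacter G → ℤ) (δ : ℤ) (ζ : (↥(P : Subgroup G) →* ℂˣ) → Cfsg.IrrCharacter G), (δ = 1 ∨ δ = -1) ∧ (∀ χ ∈ X, (a χ = 1 ∨ a χ = -1) ∧ ∀ z y : G, Cfsg.IsPPart p z y → y ∈ (P : Subgroup G) → y ≠ 1 → (χ : G → ℂ) z = (a χ : ℂ)) ∧ (∀ ψ : ↥(P : Subgroup G) →* ℂˣ, ψ ≠ 1 → ζ ψ ∈ Y) ∧ (∀ η ∈ Y, ∃ ψ : ↥(P : Subgroup G) →* ℂˣ, ψ ≠ 1 ∧ ζ ψ = η) ∧ (∀ ψ ψ' : ↥(P : Subgroup G) →* ℂˣ, ψ ≠ 1 → (∃ n : G, n ∈ Subgroup.normalizer ((P : Subgroup G) : Set G) ∧ ∀ w w' : ↥(P : Subgroup G), (w' : G) = n * w * n⁻¹ → ψ' w' = ψ w) → ζ ψ' = ζ ψ) ∧ (∀ ψ : ↥(P : Subgroup G) →* ℂˣ, ψ ≠ 1 → ∀ (z : G) (y : ↥(P : Subgroup G)), Cfsg.IsPPart p z (y : G) → (y : G) ≠ 1 → (ζ ψ : G → ℂ) z = (δ : ℂ) * ∑ᶠ ψ' ∈ {ψ' : ↥(P : Subgroup G) →* ℂˣ | ∃ n : G,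 n ∈ Subgroup.normalizer ((P : Subgroup G) : Set G) ∧ ∀ w w' : ↥(P : Subgroup G), (w' : G) = n * w * n⁻¹ → ψ' w' = ψ w}, ((ψ' y : ℂˣ) : ℂ)) ∧ ((∃ t : G, orderOf t = 2 ∧ ∀ K : Subgroup G, K.Normal → t ∈ K → K = ⊤) → Nat.card {χ : Cfsg.IrrCharacter G // χ ∈ X ∧ (χ : G → ℂ) ≠ (fun _ => 1) ∧ a χ = -1} + (if δ = 1 then 1 else 0) = 2 ∧ ∀ η ∈ Y, IsSquare (Cfsg.charDegree (η : G → ℂ) * ∏ᶠ χ ∈ {χ : Cfsg.IrrCharacter G | χ ∈ X ∧ (χ : G → ℂ) ≠ fun _ => 1}, Cfsg.charDegree (χ : G → ℂ))) := by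
  classical
  haveI hMp : M.IsPrime := hM.2.1.isPrime
  have hab' : IsMulCommutative (P : Subgroup G) := hab
  have hcomm : ∀ a ∈ (P : Subgroup G), ∀ b ∈ (P : Subgroup G), a * b = b * a := by
    intro a ha b hb
    have h1 := mul_comm' (⟨a, ha⟩ : (P : Subgroup G)) ⟨b, hb⟩
    exact congrArg Subtype.val h1
  obtain ⟨o, χ₁, χ₂, Y, a, δ, ζ, ho, ho1, ho2, h12, hU, hD, hYc, hYm, hao, ha₁, ha₂, hδ, hXval,
    hζY, hζS, hζC, hζV, hYA, hrel, hT⟩ := bw3_normal p M hM P hab hP1 hCN hm2 hfrob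
  refine ⟨{o, χ₁, χ₂}, Y, hU, hD, ?_, hYc, ⟨o, by simp, ho⟩, a, δ, ζ, hδ, ?_, hζY, hζS, hζC, hζV, ?_⟩
  · rw [Nat.card_coe_set_eq, Set.ncard_eq_three]
    exact ⟨o, χ₁, χ₂, ho1, ho2, h12, rfl⟩
  · intro χ hχ
    refine ⟨?_, hXval χ hχ⟩
    simp only [Set.mem_insert_iff, Set.mem_singleton_iff] at hχ
    rcases hχ with rfl | rfl | rfl
    · exact Or.inl hao
    · exact ha₁
    · exact ha₂
  · rintro ⟨t, ht, hnorm⟩
    have hfun1 : (χ₁ : G → ℂ) ≠ fun _ => 1 := fun h => ho1 (Subtype.ext (ho.trans h.symm))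
    have hfun2 : (χ₂ : G → ℂ) ≠ fun _ => 1 := fun h => ho2 (Subtype.ext (ho.trans h.symm))
    have hYne : Y.Nonempty := by
      by_contra hne
      rw [Set.not_nonempty_iff_eq_empty] at hne
      have h0 : Nat.card (↥(∅ : Set (IrrCharacter G))) = 0 := by simp
      rw [hne, h0] at hYm
      omega
    by_cases hp2 : p = 2
    · subst hp2
      exact (bw3_invol_two hM P hcomm hCN hfrob hm2 ho ho1 ho2 h12 hU hD hYm hao ha₁ ha₂ hδ hXval hYA
        hrel (hT rfl) ht hnorm).elim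
    · obtain ⟨y₀, hy₀⟩ : ∃ y : (P : Subgroup G), y ≠ 1 := by
        by_contra h
        push Not at h
        have h1 : Nat.card (P : Subgroup G) = 1 := by
          rw [Nat.card_eq_one_iff_unique]
          exact ⟨⟨fun a b => by rw [h a, h b]⟩, ⟨1⟩⟩
        exact hP1 h1
      have hy₀1 : (y₀ : G) ≠ 1 := fun h => hy₀ (Subtype.ext h)
      have key : ∀ η ∈ Y, (-δ) * a χ₁ * a χ₂ = 1 ∧
          IsSquare (charDegree χ₁.1 * charDegree χ₂.1 * charDegree η.1) := fun η hη =>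
        bw3_invol_odd hM P hcomm hCN hfrob hp2 ho ho1 ho2 h12 hU hD hao ha₁ ha₂ hδ hXval hYA hrel ht
          hnorm hη y₀.2 hy₀1
      obtain ⟨η₀, hη₀⟩ := hYne
      have hσ := (key η₀ hη₀).1
      have hone : ¬ p ∣ orderOf (1 : G) := by
        rw [orderOf_one]
        exact (Fact.out : p.Prime).not_dvd_one
      have hrel1 := hrel η₀ hη₀ 1 hone
      change 1 + (a χ₁ : ℂ) * χ₁.1 1 + (a χ₂ : ℂ) * χ₂.1 1 - (δ : ℂ) * η₀.1 1 = 0 at hrel1
      rw [one_eq_charDegree (isCharacter_of_irr χ₁.2), one_eq_charDegree (isCharacter_of_irr χ₂.2),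
        one_eq_charDegree (isCharacter_of_irr η₀.2)] at hrel1
      have hpos₁ := irr_charDegree_pos χ₁.2
      have hpos₂ := irr_charDegree_pos χ₂.2
      have hpos₀ := irr_charDegree_pos η₀.2
      have hrelZ : 1 + a χ₁ * (charDegree χ₁.1 : ℤ) + a χ₂ * (charDegree χ₂.1 : ℤ) -
          δ * (charDegree η₀.1 : ℤ) = 0 := by
        exact_mod_cast hrel1
      have hS : ∀ T : Set (IrrCharacter G), ({χ : IrrCharacter G | χ ∈ ({o, χ₁, χ₂} : Set (IrrCharacter G)) ∧
          (χ : G → ℂ) ≠ (fun _ => 1) ∧ a χ = -1} = T) →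
          Nat.card {χ : IrrCharacter G // χ ∈ ({o, χ₁, χ₂} : Set (IrrCharacter G)) ∧
            (χ : G → ℂ) ≠ (fun _ => 1) ∧ a χ = -1} = T.ncard := by
        intro T hT'
        rw [← hT', ← Nat.card_coe_set_eq]
        rfl
      constructor
      · rcases ha₁ with h1 | h1 <;> rcases ha₂ with h2 | h2
        · exfalso
          rw [h1, h2] at hσ hrelZ
          have hδ' : δ = -1 := by linarith
          rw [hδ'] at hrelZ
          have : (0 : ℤ) < charDegree χ₁.1 := by exact_mod_cast hpos₁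
          have : (0 : ℤ) < charDegree χ₂.1 := by exact_mod_cast hpos₂
          have : (0 : ℤ) < charDegree η₀.1 := by exact_mod_cast hpos₀
          linarith
        · rw [h1, h2] at hσ
          have hδ' : δ = 1 := by linarith
          rw [hS {χ₂}, Set.ncard_singleton, if_pos hδ']
          ext χ
          simp only [Set.mem_setOf_eq, Set.mem_insert_iff, Set.mem_singleton_iff]
          constructor
          · rintro ⟨rfl | rfl | rfl, h3, h4⟩
            · exact absurd ho h3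
            · rw [h1] at h4
              norm_num at h4
            · rfl
          · rintro rfl
            exact ⟨Or.inr (Or.inr rfl), hfun2, h2⟩
        · rw [h1, h2] at hσ
          have hδ' : δ = 1 := by linarith
          rw [hS {χ₁}, Set.ncard_singleton, if_pos hδ']
          ext χ
          simp only [Set.mem_setOf_eq, Set.mem_insert_iff, Set.mem_singleton_iff]
          constructor
          · rintro ⟨rfl | rfl | rfl, h3, h4⟩
            · exact absurd ho h3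
            · rfl
            · rw [h2] at h4
              norm_num at h4
          · rintro rfl
            exact ⟨Or.inr (Or.inl rfl), hfun1, h1⟩
        · rw [h1, h2] at hσ
          have hδ' : δ ≠ 1 := by
            intro h
            rw [h] at hσ
            norm_num at hσ
          rw [hS {χ₁, χ₂}, Set.ncard_pair h12, if_neg hδ']
          ext χ
          simp only [Set.mem_setOf_eq, Set.mem_insert_iff, Set.mem_singleton_iff]
          constructor
          · rintro ⟨rfl | rfl | rfl, h3, h4⟩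
            · exact absurd ho h3
            · exact Or.inl rfl
            · exact Or.inr rfl
          · rintro (rfl | rfl)
            · exact ⟨Or.inr (Or.inl rfl), hfun1, h1⟩
            · exact ⟨Or.inr (Or.inr rfl), hfun2, h2⟩
      · intro η hη
        have hset : {χ : IrrCharacter G | χ ∈ ({o, χ₁, χ₂} : Set (IrrCharacter G)) ∧
            (χ : G → ℂ) ≠ fun _ => 1} = {χ₁, χ₂} := by
          ext χ
          simp only [Set.mem_setOf_eq, Set.mem_insert_iff, Set.mem_singleton_iff]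
          constructor
          · rintro ⟨rfl | rfl | rfl, h3⟩
            · exact absurd ho h3
            · exact Or.inl rfl
            · exact Or.inr rfl
          · rintro (rfl | rfl)
            · exact ⟨Or.inr (Or.inl rfl), hfun1⟩
            · exact ⟨Or.inr (Or.inr rfl), hfun2⟩
        rw [hset, finprod_mem_pair h12]
        have h5 := (key η hη).2
        have e : charDegree η.1 * (charDegree χ₁.1 * charDegree χ₂.1) =
            charDegree χ₁.1 * charDegree χ₂.1 * charDegree η.1 := by ring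
        show IsSquare (charDegree η.1 * (charDegree χ₁.1 * charDegree χ₂.1))
        rw [e]
        exact h5

end Cfsg.Agent.S4721
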