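import Cfsg.Statements.S4722
import Cfsg.Agent.Lib.H22.ZStar

set_option autoImplicit false
set_option linter.style.haveILetI false
set_option linter.unusedSectionVars false

open Cfsg

namespace Cfsg.Agent.S4722

open Cfsg.Agent.H21 Cfsg.Agent.H22
open scoped ComplexConjugate

theorem result {G : Type*} [Group G] [Finite G] (M : Ideal Cfsg.AlgInt) (hM : Cfsg.IsPModular 2 M) (P : Subgroup G) (hP : IsPGroup 2 P) (U : Set G) (hUP : U ⊆ (P : Set G)) (t : G) (ht : orderOf t = 2) (hinv : ∀ u ∈ U, ∀ g : G, (g * t * g⁻¹) * u * (g * t * g⁻¹)⁻¹ ≠ u⁻¹) (θ : ↥P → ℂ) (hθ : Cfsg.IsGeneralizedCharacter ↥P θ) (hθU : ∀ y : ↥P, (y : G) ∉ U → θ y = 0) : (∑ᶠ χ ∈ Cfsg.principalBlock M G, ((Nat.card ↥P : ℂ)⁻¹ * ∑ᶠ y : ↥P, (χ : G → ℂ) (y : G) * θ y⁻¹) * (χ : G → ℂ) t ^ 2 / (χ : G → ℂ) 1 = 0) ∧ (∑ᶠ χ ∈ Cfsg.principalBlock M G, ((Nat.card ↥P : ℂ)⁻¹ * ∑ᶠ y : ↥P, (χ : G → ℂ) (y : G) * θ y⁻¹) * (χ : G → ℂ) 1 = 0) ∧ (∑ᶠ χ ∈ Cfsg.principalBlock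 M G, ((Nat.card ↥P : ℂ)⁻¹ * ∑ᶠ y : ↥P, (χ : G → ℂ) (y : G) * θ y⁻¹) * (χ : G → ℂ) t = 0) ∧ ((Nat.card ↥P : ℂ)⁻¹ * ∑ᶠ y : ↥P, θ y ≠ 0 → (2 ≤ Nat.card {χ : Cfsg.IrrCharacter G // χ ∈ Cfsg.principalBlock M G ∧ 0 < (((Nat.card ↥P : ℂ)⁻¹ * ∑ᶠ y : ↥P, (χ : G → ℂ) (y : G) * θ y⁻¹)).re} ∧ 2 ≤ Nat.card {χ : Cfsg.IrrCharacter G // χ ∈ Cfsg.principalBlock M G ∧ (((Nat.card ↥P : ℂ)⁻¹ * ∑ᶠ y : ↥P, (χ : G → ℂ) (y : G) * θ y⁻¹)).re < 0}) ∨ ∃ K : Subgroup G, K.Normal ∧ K ≠ ⊤ ∧ Cfsg.pPrimeCore 2 G ≤ K ∧ t ∈ K) := by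
  classical
  haveI hMp : M.IsPrime := hM.2.1.isPrime
  haveI hp2 : Fact (Nat.Prime 2) := ⟨Nat.prime_two⟩
  set B₀ := principalBlock M G with hB₀
  have hB : IsPBlock M B₀ := principalBlock_isBlock
  have ht1 : t * t = 1 := by
    have := pow_orderOf_eq_one t
    rw [ht, pow_two] at this
    exact this
  have htinv : t⁻¹ = t := inv_eq_of_mul_eq_one_left ht1
  have hord : ∀ v : P, ∃ k, orderOf (v : G) = 2 ^ k := by
    intro v
    obtain ⟨k, hk⟩ := (IsPGroup.iff_orderOf.1 hP) v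
    exact ⟨k, by rw [← hk, Subgroup.orderOf_coe]⟩
  -- inversion hypothesis for `y` with `y⁻¹ ∈ U`
  have hinv' : ∀ y : G, y⁻¹ ∈ U → ∀ g : G, (g * t * g⁻¹) * y * (g * t * g⁻¹)⁻¹ ≠ y⁻¹ := by
    intro y hy g h
    apply hinv _ hy g
    have : (g * t * g⁻¹) * y⁻¹ * (g * t * g⁻¹)⁻¹ = ((g * t * g⁻¹) * y * (g * t * g⁻¹)⁻¹)⁻¹ := by group
    rw [this, h]
  set a : IrrCharacter G → ℂ := fun χ =>
    (Nat.card ↥P : ℂ)⁻¹ * ∑ᶠ y : ↥P, (χ : G → ℂ) (y : G) * θ y⁻¹ with ha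
  have hsum : ∀ f : IrrCharacter G → ℂ,
      (∀ y : P, (y : G)⁻¹ ∈ U → ∑ χ : IrrCharacter G, eB B₀ χ * (f χ * χ.1 y) = 0) →
      ∑ᶠ χ ∈ B₀, a χ * f χ = 0 := by
    intro f hf
    rw [finsum_mem_irr]
    have h1 : ∑ χ : IrrCharacter G, eB B₀ χ * (a χ * f χ) =
        (Nat.card ↥P : ℂ)⁻¹ * ∑ y : P, θ y⁻¹ * ∑ χ : IrrCharacter G, eB B₀ χ * (f χ * χ.1 y) := by
      simp only [ha, finsum_eq_sum_of_fintype, Finset.mul_sum, Finset.sum_mul]
      rw [Finset.sum_comm]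
      refine Finset.sum_congr rfl fun y _ => Finset.sum_congr rfl fun χ _ => ?_
      ring
    rw [h1]
    refine mul_eq_zero_of_right _ (Finset.sum_eq_zero fun y _ => ?_)
    by_cases hy : (y : G)⁻¹ ∈ U
    · rw [hf y hy, mul_zero]
    · rw [hθU y⁻¹ (by simpa using hy), zero_mul]
  have hE2 : ∑ᶠ χ ∈ B₀, a χ * ((χ.1 t) ^ 2 / χ.1 1) = 0 := by
    apply hsum
    intro y hy
    obtain ⟨k, hk⟩ := hord y
    exact block_tsq_zero hM ht1 (y : G) (hinv' y hy) hB hk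
  have hE0 : ∑ᶠ χ ∈ B₀, a χ * χ.1 1 = 0 := by
    apply hsum
    intro y hy
    obtain ⟨k, hk⟩ := hord y
    have hne : ¬ IsConj (1 : G) (y : G) := by
      intro h
      have h1 : (y : G) = 1 := isConj_one_right.1 h
      apply hinv' y hy 1
      simp [h1]
    have h2 := block_orth_sections hM (g := 1) (x := 1) (h := (y : G)) (z := (y : G))
      (⟨1, mul_one _, Commute.one_right _, ⟨0, by simp⟩, by simpa using hp2.out.one_lt.ne'⟩)
      (⟨1, mul_one _, Commute.one_right _, ⟨k, hk⟩, by simpa using hp2.out.one_lt.ne'⟩) hne hB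
    rw [← h2]
    refine Finset.sum_congr rfl fun χ _ => ?_
    rw [one_eq_charDegree (isCharacter_of_irr χ.2), map_natCast]
    ring
  have hE1 : ∑ᶠ χ ∈ B₀, a χ * χ.1 t = 0 := by
    apply hsum
    intro y hy
    obtain ⟨k, hk⟩ := hord y
    have hne : ¬ IsConj t (y : G) := by
      intro h
      obtain ⟨c, hc⟩ := isConj_iff.1 h
      have hy2 : (y : G)⁻¹ = y := by
        rw [← hc]
        calc (c * t * c⁻¹)⁻¹ = c * t⁻¹ * c⁻¹ := by group
          _ = c * t * c⁻¹ := by rw [htinv]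
      apply hinv' y hy c
      rw [hc, hy2]
      have hyy : (y : G) * (y : G) = 1 := mul_eq_one_iff_eq_inv.2 hy2.symm
      rw [hyy, one_mul]
    have h2 := block_orth_sections hM (g := t) (x := t) (h := (y : G)) (z := (y : G))
      (⟨1, mul_one _, Commute.one_right _, ⟨1, by simpa using ht⟩, by simpa using hp2.out.one_lt.ne'⟩)
      (⟨1, mul_one _, Commute.one_right _, ⟨k, hk⟩, by simpa using hp2.out.one_lt.ne'⟩) hne hB
    rw [← h2]
    refine Finset.sum_congr rfl fun χ _ => ?_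
    have h3 : conj (χ.1 t) = χ.1 t := by
      rw [← isCharacter_inv (isCharacter_of_irr χ.2), htinv]
    rw [h3]
    ring
  refine ⟨?_, hE0, hE1, ?_⟩
  · simpa only [mul_div_assoc] using hE2
  intro hne
  -- integrality
  obtain ⟨θ₁, θ₂, h₁, h₂, hθe⟩ := hθ
  have hint : ∀ χ : IrrCharacter G, ∃ n : ℤ, a χ = n := by
    intro χ
    have hres := isCharacter_restrict P (isCharacter_of_irr χ.2)
    obtain ⟨m₁, hm₁⟩ := classInner_isCharacter_nat hres h₁
    obtain ⟨m₂, hm₂⟩ := classInner_isCharacter_nat hres h₂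
    refine ⟨(m₁ : ℤ) - m₂, ?_⟩
    unfold classInner at hm₁ hm₂
    push_cast
    rw [← hm₁, ← hm₂, ha]
    simp only [finsum_eq_sum_of_fintype]
    rw [← mul_sub, ← Finset.sum_sub_distrib]
    congr 1
    refine Finset.sum_congr rfl fun y _ => ?_
    rw [hθe, Pi.sub_apply, isCharacter_inv h₁, isCharacter_inv h₂]
    ring
  set x : IrrCharacter G → ℝ := fun χ => (a χ).re with hx
  have hxc : ∀ χ, a χ = (x χ : ℂ) := by
    intro χ
    obtain ⟨n, hn⟩ := hint χ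
    simp [hx, hn]
  set d : IrrCharacter G → ℝ := fun χ => (charDegree χ.1 : ℝ) with hd
  have hdc : ∀ χ : IrrCharacter G, χ.1 1 = (d χ : ℂ) := by
    intro χ
    rw [one_eq_charDegree (isCharacter_of_irr χ.2)]
    simp [hd]
  set c : IrrCharacter G → ℝ := fun χ => (χ.1 t).re with hc
  have hcc : ∀ χ : IrrCharacter G, χ.1 t = (c χ : ℂ) := by
    intro χ
    have h3 : conj (χ.1 t) = χ.1 t := by
      rw [← isCharacter_inv (isCharacter_of_irr χ.2), htinv]
    exact (Complex.conj_eq_iff_re.1 h3).symm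
  set S : Finset (IrrCharacter G) := (Set.toFinite B₀).toFinset with hS
  have hSm : ∀ χ, χ ∈ S ↔ χ ∈ B₀ := fun χ => Set.Finite.mem_toFinset _
  have hd0 : ∀ χ ∈ S, 0 < d χ := by
    intro χ _
    simp only [hd]
    exact_mod_cast irr_charDegree_pos χ.2
  have hcd : ∀ χ ∈ S, c χ ≤ d χ := by
    intro χ _
    have h3 := isCharacter_norm_le (isCharacter_of_irr χ.2) t
    rw [hcc, Complex.norm_real] at h3
    exact (le_abs_self _).trans h3
  have R0 : ∑ χ ∈ S, x χ * d χ = 0 := by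
    have h3 := hE0
    rw [finsum_mem_eq_finite_toFinset_sum _ (Set.toFinite B₀)] at h3
    have h4 : ((∑ χ ∈ S, x χ * d χ : ℝ) : ℂ) = 0 := by
      rw [← h3]
      push_cast
      exact Finset.sum_congr rfl fun χ _ => by rw [hxc, hdc]
    exact_mod_cast h4
  have R1 : ∑ χ ∈ S, x χ * c χ = 0 := by
    have h3 := hE1
    rw [finsum_mem_eq_finite_toFinset_sum _ (Set.toFinite B₀)] at h3
    have h4 : ((∑ χ ∈ S, x χ * c χ : ℝ) : ℂ) = 0 := by
      rw [← h3]
      push_cast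
      exact Finset.sum_congr rfl fun χ _ => by rw [hxc, hcc]
    exact_mod_cast h4
  have R2 : ∑ χ ∈ S, x χ * (c χ ^ 2 / d χ) = 0 := by
    have h3 := hE2
    rw [finsum_mem_eq_finite_toFinset_sum _ (Set.toFinite B₀)] at h3
    have h4 : ((∑ χ ∈ S, x χ * (c χ ^ 2 / d χ) : ℝ) : ℂ) = 0 := by
      rw [← h3]
      push_cast
      exact Finset.sum_congr rfl fun χ _ => by rw [hxc, hcc, hdc]
    exact_mod_cast h4
  -- the trivial character
  have h10 : oneIrr G ∈ S := (hSm _).2 oneIrr_mem_principal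
  have hx10 : x (oneIrr G) ≠ 0 := by
    intro h0
    apply hne
    have h3 : a (oneIrr G) = 0 := by rw [hxc, h0]; simp
    rw [ha] at h3
    simp only [finsum_eq_sum_of_fintype] at h3 ⊢
    rw [← h3]
    congr 1
    rw [← Equiv.sum_comp (Equiv.inv P)]
    refine Finset.sum_congr rfl fun y _ => ?_
    simp [oneIrr]
  have hc10 : c (oneIrr G) = d (oneIrr G) := by
    have h3 := hcc (oneIrr G)
    have h4 := hdc (oneIrr G)
    have h5 : (oneIrr G).1 t = (oneIrr G).1 1 := rfl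
    rw [h3, h4] at h5
    exact_mod_cast h5
  -- the kernel
  have hK : ∀ χ ∈ S, χ ≠ oneIrr G → c χ = d χ →
      ∃ K : Subgroup G, K.Normal ∧ K ≠ ⊤ ∧ pPrimeCore 2 G ≤ K ∧ t ∈ K := by
    intro χ hχ hχ1 hcχ
    refine ⟨charKer χ.1 (isCharacter_of_irr χ.2), inferInstance, ?_, ?_, ?_⟩
    · intro htop
      apply hχ1
      have h3 : ∀ g : G, χ.1 g = χ.1 1 := by
        intro g
        have : g ∈ charKer χ.1 (isCharacter_of_irr χ.2) := by rw [htop]; trivial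
        exact mem_charKer.1 this
      by_contra hne'
      have h4 := classInner_irr χ (oneIrr G)
      rw [if_neg hne'] at h4
      unfold classInner at h4
      have h5 : ∀ g : G, χ.1 g * conj ((oneIrr G).1 g) = χ.1 1 := by
        intro g
        rw [h3]
        simp [oneIrr]
      simp only [h5, Finset.sum_const, Finset.card_univ, nsmul_eq_mul] at h4
      have hcard : (Nat.card G : ℂ) ≠ 0 := by exact_mod_cast Nat.card_pos.ne'
      rw [← Nat.card_eq_fintype_card, ← mul_assoc, inv_mul_cancel₀ hcard, one_mul] at h4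
      rw [hdc] at h4
      have := hd0 χ hχ
      exact this.ne' (by exact_mod_cast h4)
    · unfold pPrimeCore
      refine sSup_le ?_
      rintro N ⟨hNn, hNc⟩ g hg
      haveI := hNn
      exact mem_charKer.2 (principal_trivial_on_normal hM N hNc χ ((hSm χ).1 hχ) g hg)
    · apply mem_charKer.2
      rw [hcc, hdc, hcχ]
  by_cases h2 : 2 ≤ Nat.card {χ : IrrCharacter G // χ ∈ principalBlock M G ∧ 0 < (a χ).re} ∧
      2 ≤ Nat.card {χ : IrrCharacter G // χ ∈ principalBlock M G ∧ (a χ).re < 0}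
  · exact Or.inl h2
  right
  have hP1 : Nat.card {χ : IrrCharacter G // χ ∈ principalBlock M G ∧ 0 < (a χ).re} < 2 →
      ∀ i ∈ S, ∀ j ∈ S, 0 < x i → 0 < x j → i = j := by
    intro h3 i hi j hj hxi hxj
    haveI := Finite.card_le_one_iff_subsingleton.1 (by omega :
      Nat.card {χ : IrrCharacter G // χ ∈ principalBlock M G ∧ 0 < (a χ).re} ≤ 1)
    exact congrArg Subtype.val (Subsingleton.elim
      (⟨i, (hSm i).1 hi, hxi⟩ : {χ : IrrCharacter G // χ ∈ principalBlock M G ∧ 0 < (a χ).re})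
      ⟨j, (hSm j).1 hj, hxj⟩)
  have hN1 : Nat.card {χ : IrrCharacter G // χ ∈ principalBlock M G ∧ (a χ).re < 0} < 2 →
      ∀ i ∈ S, ∀ j ∈ S, x i < 0 → x j < 0 → i = j := by
    intro h3 i hi j hj hxi hxj
    haveI := Finite.card_le_one_iff_subsingleton.1 (by omega :
      Nat.card {χ : IrrCharacter G // χ ∈ principalBlock M G ∧ (a χ).re < 0} ≤ 1)
    exact congrArg Subtype.val (Subsingleton.elim
      (⟨i, (hSm i).1 hi, hxi⟩ : {χ : IrrCharacter G // χ ∈ principalBlock M G ∧ (a χ).re < 0})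
      ⟨j, (hSm j).1 hj, hxj⟩)
  have h3 : Nat.card {χ : IrrCharacter G // χ ∈ principalBlock M G ∧ 0 < (a χ).re} < 2 ∨
      Nat.card {χ : IrrCharacter G // χ ∈ principalBlock M G ∧ (a χ).re < 0} < 2 := by
    by_contra h4
    push Not at h4
    exact h2 h4
  rcases lt_or_gt_of_ne hx10 with hlt | hgt
  · -- negative at the trivial character
    have hn : (∀ i ∈ S, ∀ j ∈ S, 0 < (fun χ => - x χ) i → 0 < (fun χ => - x χ) j → i = j) ∨
        (∀ i ∈ S, ∀ j ∈ S, (fun χ => - x χ) i < 0 → (fun χ => - x χ) j < 0 → i = j) := by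
      rcases h3 with h3 | h3
      · right
        intro i hi j hj hxi hxj
        exact hP1 h3 i hi j hj (by simpa using hxi) (by simpa using hxj)
      · left
        intro i hi j hj hxi hxj
        exact hN1 h3 i hi j hj (by simpa using hxi) (by simpa using hxj)
    obtain ⟨χ, hχ, hxχ, hcχ⟩ := moment_lemma S (fun χ => - x χ) d c hd0 hcd (oneIrr G) h10
      (by simpa using hlt) hc10
      (by simp only [neg_mul, Finset.sum_neg_distrib, R0, neg_zero])
      (by simp only [neg_mul, Finset.sum_neg_distrib, R1, neg_zero])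
      (by simp only [neg_mul, Finset.sum_neg_distrib, R2, neg_zero]) hn
    refine hK χ hχ ?_ hcχ
    rintro rfl
    simp only [Left.neg_neg_iff] at hxχ
    linarith
  · have hn : (∀ i ∈ S, ∀ j ∈ S, 0 < x i → 0 < x j → i = j) ∨
        (∀ i ∈ S, ∀ j ∈ S, x i < 0 → x j < 0 → i = j) := by
      rcases h3 with h3 | h3
      · exact Or.inl (hP1 h3)
      · exact Or.inr (hN1 h3)
    obtain ⟨χ, hχ, hxχ, hcχ⟩ := moment_lemma S x d c hd0 hcd (oneIrr G) h10 hgt hc10 R0 R1 R2 hn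
    refine hK χ hχ ?_ hcχ
    rintro rfl
    linarith

end Cfsg.Agent.S4722
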