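import Cfsg.Statements.S4723
import Cfsg.Agent.Lib.H22.Height0Stab

set_option autoImplicit false
set_option linter.style.haveILetI false
set_option linter.unusedSectionVars false

open Cfsg

namespace Cfsg.Agent.S4723

open Cfsg.Agent.H21 Cfsg.Agent.H22
open scoped ComplexConjugate

theorem result {G : Type*} [Group G] [Finite G] (p : ℕ) [Fact p.Prime] (M : Ideal Cfsg.AlgInt) (hM : Cfsg.IsPModular p M) (H : Subgroup G) [H.Normal] (b : Set (Cfsg.IrrCharacter ↥H)) (hb : Cfsg.IsPBlock M b) (T : Subgroup G) (hT : (∀ g : G, g ∈ T ↔ ∀ θ ∈ b, ∀ θ' : Cfsg.IrrCharacter ↥H, (∀ h h' : ↥H, (h' : G) = g * h * g⁻¹ → (θ' : ↥H → ℂ) h' = (θ : ↥H → ℂ) h) → θ' ∈ b)) : ∃ θ ∈ b, Cfsg.blockHeight p b (θ : ↥H → ℂ) = 0 ∧ ∃ S : Subgroup G, S ≤ T ∧ (∀ g : G, g ∈ S ↔ (g ∈ T ∧ ∀ h h' : ↥H, (h' : G) = g * h * g⁻¹ → (θ : ↥H → ℂ) h' = (θ : ↥H → ℂ) h)) ∧ ¬ p ∣ S.relIndex T := by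
  classical
  haveI hMp : M.IsPrime := hM.2.1.isPrime
  have hp : p.Prime := Fact.out
  have hHT : H ≤ T := by
    intro n hn
    rw [hT]
    intro θ hθ θ' hθ'
    have : θ' = θ := by
      apply Subtype.ext
      funext h
      have h1 := hθ' ⟨(n⁻¹ * h * n⁻¹⁻¹ : G), by
        have := Subgroup.Normal.conj_mem inferInstance (h : G) h.2 n⁻¹
        exact this⟩ h (by
        show (h : G) = n * (n⁻¹ * h * n⁻¹⁻¹) * n⁻¹
        group)
      rw [h1]
      have h2 := isClassFunction_of_isCharacter (H21.isCharacter_of_irr θ.2) h (⟨n⁻¹, H.inv_mem hn⟩ : H)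
      exact h2.symm.trans (congrArg θ.1 (Subtype.ext rfl)) |>.symm ▸ rfl
    rw [this]
    exact hθ
  have hst : ∀ x ∈ T, StabilizesBlock H b x := by
    intro x hx
    refine ⟨normalizer_eq_top x, fun θ hθ => ?_⟩
    refine ⟨conjIrr H x⁻¹ θ, ?_, ?_⟩
    · refine (hT x).1 hx θ hθ _ ?_
      intro h h' hh'
      rw [conjIrr_apply]
      refine congrArg θ.1 (Subtype.ext ?_)
      show x⁻¹ * (h' : G) * x⁻¹⁻¹ = h
      rw [hh']
      group
    · intro h h' hh'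
      rw [conjIrr_apply]
      refine congrArg θ.1 (Subtype.ext ?_)
      show x⁻¹ * (h' : G) * x⁻¹⁻¹ = h
      rw [hh']
      group
  obtain ⟨P⟩ : Nonempty (Sylow p T) := inferInstance
  obtain ⟨θ, hθ, h0, hle⟩ := height_zero_stable hM H b hb T hHT hst P
  refine ⟨θ, hθ, h0, T ⊓ H06.inertiaSub H θ.1, inf_le_left, ?_, ?_⟩
  · intro g
    constructor
    · rintro ⟨h1, h2⟩
      refine ⟨h1, fun h h' hh' => ?_⟩
      have h3 := (H06.mem_inertiaSub (K := H)).1 h2 h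
      rw [← h3]
      exact congrArg θ.1 (Subtype.ext hh')
    · rintro ⟨h1, h2⟩
      exact ⟨h1, fun h => h2 h _ rfl⟩
  · intro hdvd
    have h1 : (P : Subgroup T) ≤ (T ⊓ H06.inertiaSub H θ.1).subgroupOf T := by
      intro x hx
      rw [Subgroup.mem_subgroupOf]
      exact ⟨x.2, hle ⟨x, hx, rfl⟩⟩
    have h2 : ((T ⊓ H06.inertiaSub H θ.1).subgroupOf T).index ∣ (P : Subgroup T).index :=
      Subgroup.index_dvd_of_le h1
    exact P.not_dvd_index (hdvd.trans h2)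

end Cfsg.Agent.S4723
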