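import Cfsg.Statements.S4725
import Cfsg.Agent.Lib.H21.InducedBlock
import Cfsg.Agent.Lib.H21.MinMax2

set_option autoImplicit false
set_option linter.style.haveILetI false
set_option linter.unusedSectionVars false

open Cfsg

namespace Cfsg.Agent.S4725

open Cfsg.Agent.H21 Cfsg.Agent.H22
open scoped ComplexConjugate

theorem result {G : Type*} [Group G] [Fintype G] (p : ℕ) [Fact p.Prime] (M : Ideal Cfsg.AlgInt) (hM : Cfsg.IsPModular p M) (H : Subgroup G) (b : Set (Cfsg.IrrCharacter ↥H)) (B : Set (Cfsg.IrrCharacter G)) (hind : Cfsg.IsInducedBlock M H b B) (hdef : Cfsg.blockDefect p b = Cfsg.blockDefect p B) (ζ : Cfsg.IrrCharacter ↥H) (hζ : ζ ∈ b) (hζ0 : Cfsg.blockHeight p b (ζ : ↥H → ℂ) = 0) : ∃ χ ∈ B, Cfsg.blockHeight p B (χ : G → ℂ) = 0 ∧ ∃ a : ℕ, Cfsg.classInner (Cfsg.indFun H (ζ : ↥H → ℂ)) (χ : G → ℂ) = (a : ℂ) ∧ ¬ p ∣ a := by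
  classical
  haveI hMp : M.IsPrime := hM.2.1.isPrime
  haveI := Fintype.ofFinite (IrrCharacter G)
  haveI := Fintype.ofFinite (IrrCharacter H)
  have hp : p.Prime := Fact.out
  obtain ⟨n, hn, -, h2, -⟩ := H21.induced_blockPart hM hind hζ hind.2.1
  have h3 := h2 rfl
  have hd : charDegree (indFun H ζ.1) = H.index * charDegree ζ.1 :=
    H21.charDegree_indFun H (H21.isCharacter_of_irr ζ.2)
  have hζ1 : (charDegree ζ.1).factorization p = H21.minExp p b := by
    have h4 : blockHeight p b ζ.1 = (charDegree ζ.1).factorization p - H21.minExp p b := rfl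
    have h5 := H21.minExp_le (p := p) hζ
    omega
  have hne1 : charDegree ζ.1 ≠ 0 := (H21.irr_charDegree_pos ζ.2).ne'
  have hne2 : H.index ≠ 0 := Subgroup.index_ne_zero_of_finite
  have hne3 : Nat.card H ≠ 0 := Nat.card_pos.ne'
  have hcard : (Nat.card G).factorization p = (Nat.card H).factorization p + H.index.factorization p := by
    rw [← H.card_mul_index, Nat.factorization_mul hne3 hne2]
    rfl
  have hv : (charDegree (indFun H ζ.1)).factorization p = H21.minExp p B := by
    rw [hd, Nat.factorization_mul hne2 hne1, Finsupp.add_apply, hζ1]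
    have h6 := H21.blockDefect_eq p b
    have h7 := H21.blockDefect_eq p B
    have h8 := H21.minExp_le_card (p := p) hind.1
    have h9 := H21.minExp_le_card (p := p) hind.2.1
    omega
  rw [hv] at h3
  have hch : IsCharacter G (indFun H ζ.1) := H21.isCharacter_indFun H (H21.isCharacter_of_irr ζ.2)
  have h1 : ∀ χ : IrrCharacter G, ∃ m : ℕ, classInner (indFun H ζ.1) χ.1 = m := fun χ =>
    H21.classInner_isCharacter_nat hch (H21.isCharacter_of_irr χ.2)
  choose m hm using h1
  by_contra hcon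
  push Not at hcon
  have hall : ∀ χ ∈ B, p ^ (H21.minExp p B + 1) ∣ m χ * charDegree χ.1 := by
    intro χ hχ
    have hχ1 := H21.minExp_le (p := p) hχ
    have hχ0 : charDegree χ.1 ≠ 0 := (H21.irr_charDegree_pos χ.2).ne'
    by_cases h0 : blockHeight p B χ.1 = 0
    · have h10 := hcon χ hχ h0 (m χ) (hm χ)
      have h11 : blockHeight p B χ.1 = (charDegree χ.1).factorization p - H21.minExp p B := rfl
      have h12 : p ^ H21.minExp p B ∣ charDegree χ.1 := H21.pow_minExp_dvd hp hχ
      rw [pow_succ', mul_comm (m χ)]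
      exact mul_dvd_mul (by simpa using h10) h12 |>.trans (by rw [mul_comm])
    · have h11 : blockHeight p B χ.1 = (charDegree χ.1).factorization p - H21.minExp p B := rfl
      exact Dvd.dvd.mul_left ((Nat.Prime.pow_dvd_iff_le_factorization hp hχ0).2 (by omega)) _
  apply h3
  have h13 : (n : ℂ) = ∑ χ : IrrCharacter G, if χ ∈ B then ((m χ * charDegree χ.1 : ℕ) : ℂ) else 0 := by
    rw [← hn, H21.blockPart_eq]
    refine Finset.sum_congr rfl fun χ _ => ?_
    rw [hm, H21.one_eq_charDegree (H21.isCharacter_of_irr χ.2)]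
    by_cases hχ : χ ∈ B
    · rw [eB_apply_mem hχ, if_pos hχ, one_mul]
      push_cast
      ring
    · rw [eB_apply_not_mem hχ, if_neg hχ, zero_mul]
  have h14 : n = ∑ χ : IrrCharacter G, if χ ∈ B then m χ * charDegree χ.1 else 0 := by
    have : (n : ℂ) = ((∑ χ : IrrCharacter G, if χ ∈ B then m χ * charDegree χ.1 else 0 : ℕ) : ℂ) := by
      rw [h13]
      push_cast
      rfl
    exact_mod_cast this
  have h15 : p ^ (H21.minExp p B + 1) ∣ n := by
    rw [h14]
    refine Finset.dvd_sum fun χ _ => ?_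
    split_ifs with hχ
    · exact hall χ hχ
    · exact dvd_zero _
  exact_mod_cast Int.natCast_dvd_natCast.2 h15

end Cfsg.Agent.S4725
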