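import Cfsg.Statements.S4731
import Cfsg.Agent.Lib.H22.TwoBlocks

set_option autoImplicit false
set_option linter.style.haveILetI false
set_option linter.unusedSectionVars false

open Cfsg

namespace Cfsg.Agent.S4731

open Cfsg.Agent.H21 Cfsg.Agent.H22
open scoped ComplexConjugate

theorem result {G : Type*} [Group G] [Finite G] (p q : ℕ) [Fact p.Prime] [Fact q.Prime] (hpq : p ≠ q) (Mp Mq : Ideal Cfsg.AlgInt) (hMp : Cfsg.IsPModular p Mp) (hMq : Cfsg.IsPModular q Mq) (hno : ∀ g : G, orderOf g ≠ p * q) (b : ℕ) (hb : (Nat.card G).factorization q = b) (Bp : Set (Cfsg.IrrCharacter G)) (hBp : Cfsg.IsPBlock Mp Bp) (Bq : Set (Cfsg.IrrCharacter G)) (hBq : Cfsg.IsPBlock Mq Bq) (y : G) (hy : p ∣ orderOf y) : ∃ ω : Cfsg.AlgInt, ∑ᶠ χ ∈ Bp ∩ Bq, (Cfsg.charDegree (χ : G → ℂ) : ℂ) * (χ : G → ℂ) y = (q : ℂ) ^ b * (ω : ℂ) := by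
  classical
  haveI hMpp : Mp.IsPrime := hMp.2.1.isPrime
  have h := twoSum_integral hpq hMp hMq hno hb hBp hBq hy
  have hq0 : ((q : ℂ) ^ b) ≠ 0 := pow_ne_zero _ (by exact_mod_cast (Fact.out : q.Prime).ne_zero)
  refine ⟨⟨_, h⟩, ?_⟩
  show _ = (q : ℂ) ^ b * (twoSum Bp Bq y / (q : ℂ) ^ b)
  rw [mul_div_cancel₀ _ hq0]
  unfold twoSum
  rw [finsum_mem_irr]
  refine Finset.sum_congr rfl fun χ _ => ?_
  by_cases h1 : χ ∈ Bp <;> by_cases h2 : χ ∈ Bq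
  · rw [eB_apply_mem (⟨h1, h2⟩ : χ ∈ Bp ∩ Bq), eB_apply_mem h1, eB_apply_mem h2]
    ring
  · rw [eB_apply_not_mem (fun h3 : χ ∈ Bp ∩ Bq => h2 h3.2), eB_apply_not_mem h2]
    ring
  · rw [eB_apply_not_mem (fun h3 : χ ∈ Bp ∩ Bq => h1 h3.1), eB_apply_not_mem h1]
    ring
  · rw [eB_apply_not_mem (fun h3 : χ ∈ Bp ∩ Bq => h1 h3.1), eB_apply_not_mem h1]
    ring

end Cfsg.Agent.S4731
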