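import Cfsg.Statements.S4733
import Cfsg.Agent.Lib.H22.DefectZero

set_option autoImplicit false
set_option linter.style.haveILetI false
open Cfsg

namespace Cfsg.Agent.S4733

open Cfsg.Agent.H21 Cfsg.Agent.H22
open scoped ComplexConjugate

/-- Let p be a prime, M a maximal ideal of the algebraic integers containing p, and B a p-block of the finite group G with k irreducible characters and p-regular rank l (the number of irreducible Brauer characters). Then l ≤ k, and the following are equivalent: B has defect 0; k = l = 1; k = l. -/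
theorem result {G : Type*} [Group G] [Finite G] (p : ℕ) [Fact p.Prime] (M : Ideal Cfsg.AlgInt) (hM : Cfsg.IsPModular p M) (B : Set (Cfsg.IrrCharacter G)) (hB : Cfsg.IsPBlock M B) : Cfsg.blockRank p B ≤ Nat.card B ∧ (Cfsg.blockDefect p B = 0 ↔ (Nat.card B = 1 ∧ Cfsg.blockRank p B = 1)) ∧ (Cfsg.blockDefect p B = 0 ↔ Nat.card B = Cfsg.blockRank p B) := by
  classical
  haveI : Fintype G := Fintype.ofFinite G
  haveI : Fintype (IrrCharacter G) := Fintype.ofFinite _
  haveI : M.IsPrime := hM.2.1.isPrime
  haveI : Fintype B := Fintype.ofFinite _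
  have hp : p.Prime := Fact.out
  have hle : blockRank p B ≤ Nat.card B := by
    unfold blockRank
    have h1 : (fun χ : IrrCharacter G => pRegularPart p χ.1) '' B
        = Set.range (fun χ : B => pRegularPart p χ.1.1) := by
      ext f
      constructor
      · rintro ⟨χ, hχ, rfl⟩
        exact ⟨⟨χ, hχ⟩, rfl⟩
      · rintro ⟨χ, rfl⟩
        exact ⟨χ.1, χ.2, rfl⟩
    rw [h1, Nat.card_eq_fintype_card]
    exact finrank_range_le_card _
  have hne := block_nonempty hB
  -- defect zero in terms of the members
  have hdef : blockDefect p B = 0 ↔ ∀ χ ∈ B, ¬ p ∣ Nat.card G / charDegree χ.1 := by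
    unfold blockDefect
    have himg : ((fun χ : IrrCharacter G => (charDegree χ.1).factorization p) '' B).Nonempty :=
      hne.image _
    constructor
    · intro h χ hχ
      rw [not_dvd_codegree_iff]
      have h1 : sInf ((fun χ : IrrCharacter G => (charDegree χ.1).factorization p) '' B)
          ≤ (charDegree χ.1).factorization p := Nat.sInf_le ⟨χ, hχ, rfl⟩
      omega
    · intro h
      obtain ⟨χ, hχ, hval⟩ := Nat.sInf_mem himg
      have h1 := (not_dvd_codegree_iff χ).mp (h χ hχ)
      simp only at hval
      omega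
  have hforward : blockDefect p B = 0 → Nat.card B = 1 ∧ blockRank p B = 1 := by
    intro h0
    obtain ⟨χ, hχ⟩ := hne
    have hall := hdef.mp h0 χ hχ
    have hBeq : B = {χ} := by
      ext ψ
      constructor
      · intro hψ
        exact eq_of_mem_block_of_defect_zero hM χ hall (block_sameBlock hB hχ hψ)
      · rintro rfl
        exact hχ
    refine ⟨?_, ?_⟩
    · rw [hBeq]
      simp
    · unfold blockRank
      rw [hBeq, Set.image_singleton]
      apply finrank_span_singleton
      intro h1
      have h2 := congrFun h1 1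
      rw [pRegularPart_of_regular p _ (by simp [hp.ne_one])] at h2
      exact irr_one_ne_zero' χ h2
  have hback : Nat.card B = blockRank p B → blockDefect p B = 0 := by
    intro hk
    rw [hdef]
    intro χ hχ
    apply card_sylow_dvd_degree_of_vanish
    -- equality in the trace formula
    have h1 := card_mul_blockRank hM hB
    rw [← hk] at h1
    have h2 : (Nat.card G : ℂ) * (Nat.card B : ℂ)
        = ∑ x : G, ∑ χ : IrrCharacter G, eB B χ * (χ.1 x * conj (χ.1 x)) := by
      rw [Finset.sum_comm]
      have h3 : ∀ χ : IrrCharacter G, ∑ x : G, eB B χ * (χ.1 x * conj (χ.1 x))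
          = eB B χ * (Nat.card G : ℂ) := by
        intro χ
        rw [← Finset.mul_sum, sum_char_mul_conj]
      simp only [h3]
      rw [← Finset.sum_mul, mul_comm]
      congr 1
      have h4 := sum_coe_block B (fun _ => (1 : ℂ))
      simp only [mul_one, Finset.sum_const, Finset.card_univ, nsmul_eq_mul] at h4
      rw [← h4, Nat.card_eq_fintype_card]
    have h5 : ∑ x : G, ∑ ψ : IrrCharacter G, eB B ψ *
        (ψ.1 x * conj (ψ.1 x) - pRegularPart p ψ.1 x * conj (pRegularPart p ψ.1 x)) = 0 := by
      simp only [mul_sub, Finset.sum_sub_distrib]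
      rw [← h2, ← h1, sub_self]
    -- all terms are nonnegative reals
    have hterm : ∀ (x : G) (ψ : IrrCharacter G), eB B ψ *
        (ψ.1 x * conj (ψ.1 x) - pRegularPart p ψ.1 x * conj (pRegularPart p ψ.1 x))
        = (((if ψ ∈ B then (if p ∣ orderOf x then Complex.normSq (ψ.1 x) else 0) else 0 : ℝ)) : ℂ) := by
      intro x ψ
      by_cases hψ : ψ ∈ B
      · rw [eB_apply_mem hψ, one_mul, if_pos hψ]
        by_cases hx : p ∣ orderOf x
        · rw [if_pos hx, pRegularPart_of_singular p _ hx, Complex.mul_conj]
          simp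
        · rw [if_neg hx, pRegularPart_of_regular p _ hx, sub_self]
          simp
      · rw [eB_apply_not_mem hψ, zero_mul, if_neg hψ]
        simp
    simp only [hterm] at h5
    have h6 : ∑ x : G, ∑ ψ : IrrCharacter G,
        (if ψ ∈ B then (if p ∣ orderOf x then Complex.normSq (ψ.1 x) else 0) else 0 : ℝ) = 0 := by
      exact_mod_cast h5
    intro y hy
    have hnn : ∀ (x : G) (ψ : IrrCharacter G),
        0 ≤ (if ψ ∈ B then (if p ∣ orderOf x then Complex.normSq (ψ.1 x) else 0) else 0 : ℝ) := by
      intro x ψ
      split_ifs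
      · exact Complex.normSq_nonneg _
      · exact le_refl _
      · exact le_refl _
    have h7 := (Finset.sum_eq_zero_iff_of_nonneg (fun x _ => Finset.sum_nonneg fun ψ _ => hnn x ψ)).mp h6 y (Finset.mem_univ _)
    have h8 := (Finset.sum_eq_zero_iff_of_nonneg (fun ψ _ => hnn y ψ)).mp h7 χ (Finset.mem_univ _)
    rw [if_pos hχ, if_pos hy] at h8
    exact Complex.normSq_eq_zero.mp h8
  refine ⟨hle, ⟨hforward, ?_⟩, ?_, hback⟩
  · rintro ⟨h1, h2⟩
    exact hback (by rw [h1, h2])
  · intro h0
    obtain ⟨h1, h2⟩ := hforward h0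
    rw [h1, h2]

end Cfsg.Agent.S4733
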