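import Cfsg.Statements.S4735
import Cfsg.Agent.Lib.H22.PrincipalLam

set_option autoImplicit false
set_option linter.style.haveILetI false
set_option linter.unusedSectionVars false

open Cfsg

namespace Cfsg.Agent.S4735

open Cfsg.Agent.H21 Cfsg.Agent.H22
open scoped ComplexConjugate

theorem result {G : Type*} [Group G] [Finite G] (p : ℕ) [Fact p.Prime] (M : Ideal Cfsg.AlgInt) (hM : Cfsg.IsPModular p M) (x : G) : (∃ n : ℕ, 0 < n ∧ ∑ᶠ χ ∈ Cfsg.principalBlock M G, Complex.normSq ((χ : G → ℂ) x) = n) ∧ ∑ᶠ χ ∈ Cfsg.principalBlock M G, Complex.normSq ((χ : G → ℂ) x) = ∑ᶠ ψ ∈ Cfsg.principalBlock M (G ⧸ Cfsg.pPrimeCore p G), Complex.normSq ((ψ : G ⧸ Cfsg.pPrimeCore p G → ℂ) (QuotientGroup.mk x)) ∧ ∑ᶠ χ ∈ Cfsg.principalBlock M G, Complex.normSq ((χ : G → ℂ) x) ≤ (Nat.card ↥(Subgroup.centralizer ({(QuotientGroup.mk x : G ⧸ Cfsg.pPrimeCore p G)} : Set (G ⧸ Cfsg.pPrimeCore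 p G))) : ℝ) ∧ ((∑ᶠ χ ∈ Cfsg.principalBlock M G, Cfsg.charDegree (χ : G → ℂ) ^ 2) = (Cfsg.pPrimeCore p G).index ↔ ∀ B : Set (Cfsg.IrrCharacter (G ⧸ Cfsg.pPrimeCore p G)), Cfsg.IsPBlock M B → B = Cfsg.principalBlock M (G ⧸ Cfsg.pPrimeCore p G)) := by
  classical
  have hcop : ¬ p ∣ Nat.card (Cfsg.pPrimeCore p G) := by
    have h1 := Cfsg.Agent.H06.coprime_card_pPrimeCore (G := G) p
    intro h2
    have h3 := Nat.Coprime.eq_one_of_dvd h1.symm h2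
    exact (Fact.out : p.Prime).one_lt.ne' h3
  refine ⟨Cfsg.Agent.H22.lam_isNat hM x, Cfsg.Agent.H22.lam_quot hM _ hcop x, ?_, Cfsg.Agent.H22.lam_one_iff hM _ hcop⟩
  rw [Cfsg.Agent.H22.lam_quot hM _ hcop x]
  exact Cfsg.Agent.H22.lam_le hM (x : G ⧸ Cfsg.pPrimeCore p G)

end Cfsg.Agent.S4735
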