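import Cfsg.Statements.S4736
import Cfsg.Agent.Lib.H22.PSolvHeight

set_option autoImplicit false
set_option linter.style.haveILetI false
set_option linter.unusedSectionVars false

open Cfsg

namespace Cfsg.Agent.S4736

open Cfsg.Agent.H21 Cfsg.Agent.H22
open scoped ComplexConjugate

theorem result {G : Type*} [Group G] [Finite G] (p : ℕ) [Fact p.Prime] (M : Ideal Cfsg.AlgInt) (hM : Cfsg.IsPModular p M) (hsolv : Cfsg.IsPSolvable p G) (P : Sylow p G) : IsMulCommutative P ↔ ∀ χ ∈ Cfsg.principalBlock M G, Cfsg.blockHeight p (Cfsg.principalBlock M G) (χ : G → ℂ) = 0 := by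
  haveI : M.IsPrime := hM.2.1.isPrime
  have h1 := abelian_iff_degrees_principal hM hsolv P
  constructor
  · intro ha χ hχ
    rw [height_principal_eq_zero_iff]
    refine h1.1 ?_ χ hχ
    intro a hA b hB
    have := ha.is_comm.comm ⟨a, hA⟩ ⟨b, hB⟩
    exact congrArg Subtype.val this
  · intro h
    have h2 := h1.2 fun χ hχ => (height_principal_eq_zero_iff χ).1 (h χ hχ)
    refine ⟨⟨?_⟩⟩
    rintro ⟨a, hA⟩ ⟨b, hB⟩
    exact Subtype.ext (h2 a hA b hB)

end Cfsg.Agent.S4736
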