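import Cfsg.Statements.S4956
import Cfsg.Agent.Lib.H23.KGV

set_option autoImplicit false
open Cfsg

namespace Cfsg.Agent.S4956

open Cfsg.Agent

/-- Let X be a finite group, V an abelian normal subgroup of X (any two elements of V commute) and G a complement to V in X whose order is coprime to that of V. Let S be a set of representatives of the orbits of G on V under conjugation: S lies in V and every element of V is conjugate under G to exactly one member of S. Then the number of conjugacy classes of X equals the sum, over s in S, of the number of conjugacy classes of the centralizer of s in G. -/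
theorem result {X : Type*} [Group X] [Finite X] (V : Subgroup X) [V.Normal] (hab : ∀ a ∈ V, ∀ b ∈ V, a * b = b * a) (G : Subgroup X) (hGV : Subgroup.IsComplement' V G) (hcop : (Nat.card V).Coprime (Nat.card G)) (S : Finset X) (hSV : ∀ s ∈ S, s ∈ V) (hrep : ∀ v ∈ V, ∃! s, s ∈ S ∧ ∃ g ∈ G, g * v * g⁻¹ = s) : Nat.card (ConjClasses X) = ∑ s ∈ S, Nat.card (ConjClasses ↥(G ⊓ Subgroup.centralizer ({s} : Set X))) := by
    classical
    haveI : Fintype V := Fintype.ofFinite _
    haveI : Fintype G := Fintype.ofFinite _
    have hN : V.Normal := inferInstance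
    have h0 := H23.card_conjClasses_semi V G hab hGV hcop
    rw [finsum_eq_sum_of_fintype] at h0
    let κ : X → ℕ := fun s => Nat.card (ConjClasses ↥(G ⊓ Subgroup.centralizer ({s} : Set X)))
    have claim1 : ∀ v : V, κ v * Nat.card ↥(G ⊓ Subgroup.centralizer ({(v : X)} : Set X)) =
        ∑ s ∈ S, ∑ g : G, if (g : X) * v * (g : X)⁻¹ = s then κ s else 0 := by
      intro v
      obtain ⟨s₀, ⟨hs₀, g₀, hg₀, hgs⟩, huniq⟩ := hrep v v.2
      have h1 : ∀ s ∈ S, s ≠ s₀ → ∑ g : G, (if (g : X) * v * (g : X)⁻¹ = s then κ s else 0) = 0 := by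
        intro s hs hne
        apply Finset.sum_eq_zero
        intro g _
        rw [if_neg]
        intro h
        exact hne (huniq s ⟨hs, g, g.2, h⟩)
      rw [Finset.sum_eq_single_of_mem s₀ hs₀ h1]
      have h2 : ∑ g : G, (if (g : X) * v * (g : X)⁻¹ = s₀ then κ s₀ else 0) =
          Nat.card {g : G // (g : X) * v * (g : X)⁻¹ = s₀} * κ s₀ := by
        rw [H23.natCard_subtype_eq_sum (fun g : G => (g : X) * v * (g : X)⁻¹ = s₀), Finset.sum_mul]
        refine Finset.sum_congr rfl fun g _ => ?_
        split_ifs <;> simp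
      rw [h2, ← hgs, H23.card_transporter G hg₀ (v : X), mul_comm]
      congr 1
      exact H23.card_conjClasses_congr (H23.stabEquiv G hg₀ (v : X))
    have claim2 : ∀ s ∈ S, ∑ v : V, ∑ g : G, (if (g : X) * v * (g : X)⁻¹ = s then κ s else 0) =
        Nat.card G * κ s := by
      intro s hs
      rw [Finset.sum_comm]
      have h1 : ∀ g : G, ∑ v : V, (if (g : X) * v * (g : X)⁻¹ = s then κ s else 0) = κ s := by
        intro g
        have hm : (g : X)⁻¹ * s * (g : X)⁻¹⁻¹ ∈ V := hN.conj_mem _ (hSV s hs) _
        rw [Finset.sum_eq_single (⟨_, hm⟩ : V)]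
        · rw [if_pos]
          show (g : X) * ((g : X)⁻¹ * s * (g : X)⁻¹⁻¹) * (g : X)⁻¹ = s
          group
        · intro v _ hne
          rw [if_neg]
          intro h
          apply hne
          apply Subtype.ext
          show (v : X) = (g : X)⁻¹ * s * (g : X)⁻¹⁻¹
          rw [← h]
          group
        · intro h
          exact absurd (Finset.mem_univ _) h
      simp only [h1]
      simp [Nat.card_eq_fintype_card]
    have h3 : ∑ v : V, κ v * Nat.card ↥(G ⊓ Subgroup.centralizer ({(v : X)} : Set X)) =
        Nat.card G * ∑ s ∈ S, κ s := by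
      simp only [claim1]
      rw [Finset.sum_comm, Finset.mul_sum]
      exact Finset.sum_congr rfl claim2
    have h4 : Nat.card (ConjClasses X) * Nat.card G = Nat.card G * ∑ s ∈ S, κ s := by
      rw [h0]; exact h3
    have hGpos : 0 < Nat.card G := Nat.card_pos
    rw [mul_comm] at h4
    exact Nat.eq_of_mul_eq_mul_left hGpos h4

end Cfsg.Agent.S4956
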