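import Cfsg.Statements.S4958
import Cfsg.Agent.Lib.H23.Knorr5

set_option autoImplicit false
open Cfsg

namespace Cfsg.Agent.S4958

open Cfsg.Agent

/-- Let X be a finite group and V a normal subgroup of X in which every element has order dividing the prime p, whose index in X is prime to p and which is its own centralizer in X; so V is an elementary abelian normal Sylow p-subgroup, and any complement G to V in X is a group of order prime to p acting faithfully on the vector space V by conjugation (the coprime linear setting of the k(GV) problem). Let G be a complement to V in X and suppose that for some v in V the centralizer of v in G is abelian. Then the number of conjugacy classes of X is at most the order of V (the abelian-stabilizer criterion for the k(GV) problem). -/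
theorem result {X : Type*} [Group X] [Finite X] (p : ℕ) [Fact p.Prime] (V : Subgroup X) [V.Normal] (hVexp : ∀ v ∈ V, v ^ p = 1) (hidx : ¬ p ∣ V.index) (hself : Subgroup.centralizer (V : Set X) = V) (G : Subgroup X) (hGV : Subgroup.IsComplement' V G) (v : X) (hv : v ∈ V) (hab : ∀ a ∈ G ⊓ Subgroup.centralizer ({v} : Set X), ∀ b ∈ G ⊓ Subgroup.centralizer ({v} : Set X), a * b = b * a) : Nat.card (ConjClasses X) ≤ Nat.card V := by
    refine H23.knorr_bound p V hVexp hidx hself G hGV v hv (G ⊓ Subgroup.centralizer ({v} : Set X))
      inf_le_left ?_ ?_ hab
    · intro c hc
      exact Subgroup.mem_centralizer_singleton_iff.1 (Subgroup.mem_inf.1 hc).2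
    · intro c hc hcv
      exact Subgroup.mem_inf.2 ⟨hc, Subgroup.mem_centralizer_singleton_iff.2 hcv⟩

end Cfsg.Agent.S4958
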