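import Cfsg.Statements.S4964
import Cfsg.Agent.Lib.H23.Infl

set_option autoImplicit false
open Cfsg

namespace Cfsg.Agent.S4964

open Cfsg.Agent Cfsg

/-- Let D be a normal p-subgroup of the finite group G, let D′ be its commutator subgroup (normal in G), and fix a maximal ideal M of the algebraic integers containing p. Then (i) two irreducible characters of G ⧸ D′ lie in the same p-block if and only if their inflations to G do, and (ii) every p-block of G contains the inflation of some irreducible character of G ⧸ D′; so inflation induces a bijection between the p-blocks of G ⧸ D′ and the p-blocks of G. -/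
theorem result {G : Type*} [Group G] [Finite G] (p : ℕ) [Fact p.Prime] (M : Ideal Cfsg.AlgInt) (hM : Cfsg.IsPModular p M) (D : Subgroup G) [D.Normal] (hD : IsPGroup p D) : (∀ χ ψ : Cfsg.IrrCharacter (G ⧸ ⁅D, D⁆), Cfsg.SameBlock M (χ : G ⧸ ⁅D, D⁆ → ℂ) (ψ : G ⧸ ⁅D, D⁆ → ℂ) ↔ Cfsg.SameBlock M ((χ : G ⧸ ⁅D, D⁆ → ℂ) ∘ QuotientGroup.mk) ((ψ : G ⧸ ⁅D, D⁆ → ℂ) ∘ QuotientGroup.mk)) ∧ ∀ B : Set (Cfsg.IrrCharacter G), Cfsg.IsPBlock M B → ∃ χ : Cfsg.IrrCharacter (G ⧸ ⁅D, D⁆), ∃ θ ∈ B, (θ : G → ℂ) = (χ : G ⧸ ⁅D, D⁆ → ℂ) ∘ QuotientGroup.mk := by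
    classical
    haveI : M.IsPrime := hM.2.1.isPrime
    constructor
    · intro χ ψ
      refine ⟨fun h => H21.sameBlock_inflate _ h, fun h => ?_⟩
      have hP : IsPGroup p (D.map (QuotientGroup.mk' ⁅D, D⁆)) := hD.map _
      refine H23.sameBlock_of_regular_central hM (D.map (QuotientGroup.mk' ⁅D, D⁆)) hP χ ψ ?_
      intro y hy hc
      obtain ⟨x, rfl, hx, hxc⟩ := H23.exists_lift_regular D hD y hy hc
      have h1 : MemLocalIdeal M (centralChar (χ.1 ∘ QuotientGroup.mk' ⁅D, D⁆) x -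
          centralChar (ψ.1 ∘ QuotientGroup.mk' ⁅D, D⁆) x) := h x
      rw [H21.centralChar_inflate, H21.centralChar_inflate, H23.fibCount_eq_one_comm D hD hx hxc,
        Nat.cast_one, one_mul, one_mul] at h1
      exact h1
    · intro B hB
      have hN : IsPGroup p (⁅D, D⁆ : Subgroup G) :=
        IsPGroup.to_le hD (Subgroup.commutator_le_left D D)
      obtain ⟨θ, hθB, hθ⟩ := H23.exists_block_ker hM ⁅D, D⁆ hN B hB
      obtain ⟨χ', hχ', hχ''⟩ := H21.exists_descend ⁅D, D⁆ θ.2 hθ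
      exact ⟨⟨χ', hχ'⟩, θ, hθB, hχ''.symm⟩

end Cfsg.Agent.S4964
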