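import Cfsg.Statements.S4965
import Mathlib.Tactic.Group
import Mathlib.GroupTheory.GroupAction.CardCommute

set_option autoImplicit false
set_option linter.style.haveILetI false
open Cfsg

namespace Cfsg.Agent.S4965

/-- Let X be a finite group with an abelian normal subgroup V (any two elements of V commute), and let φ be the action of X ⧸ V on V induced by conjugation (well defined because V is abelian; the hypothesis hφ says that the class of x acts as conjugation by x). Then X has at most as many conjugacy classes as the semidirect product of V by X ⧸ V formed with this action: the split extension has the largest class number among extensions with the given action. -/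
theorem result {X : Type*} [Group X] [Finite X] (V : Subgroup X) [V.Normal] (hab : ∀ a ∈ V, ∀ b ∈ V, a * b = b * a) (φ : X ⧸ V →* MulAut ↥V) (hφ : ∀ (x : X) (v : ↥V), ((φ (QuotientGroup.mk x) v : ↥V) : X) = x * v * x⁻¹) : Nat.card (ConjClasses X) ≤ Nat.card (ConjClasses (SemidirectProduct ↥V (X ⧸ V) φ)) := by
    classical
    have hV : ∀ a b : V, a * b = b * a := fun a b => Subtype.ext (hab a a.2 b b.2)
    let Q := X ⧸ V
    let S := SemidirectProduct V Q φ
    haveI : Finite Q := inferInstance
    haveI hSfin : Finite S := Finite.of_equiv (V × Q) SemidirectProduct.equivProd.symm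
    let CX := {p : X × X // Commute p.1 p.2}
    let CS := {p : S × S // Commute p.1 p.2}
    -- base points
    let base : Q × Q → X × X := fun r =>
      if h : ∃ z : X × X, Commute z.1 z.2 ∧ (z.1 : Q) = r.1 ∧ (z.2 : Q) = r.2 then h.choose else (1, 1)
    have hbase : ∀ z : X × X, Commute z.1 z.2 →
        Commute (base ((z.1 : Q), (z.2 : Q))).1 (base ((z.1 : Q), (z.2 : Q))).2 ∧
        (((base ((z.1 : Q), (z.2 : Q))).1 : X) : Q) = (z.1 : Q) ∧
        (((base ((z.1 : Q), (z.2 : Q))).2 : X) : Q) = (z.2 : Q) := by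
      intro z hz
      have h : ∃ z' : X × X, Commute z'.1 z'.2 ∧ (z'.1 : Q) = ((z.1 : Q), (z.2 : Q)).1 ∧
          (z'.2 : Q) = ((z.1 : Q), (z.2 : Q)).2 := ⟨z, hz, rfl, rfl⟩
      simp only [base, dif_pos h]
      exact h.choose_spec
    have hN : V.Normal := inferInstance
    have hmemV : ∀ (x x₀ : X), (x₀ : Q) = (x : Q) → x * x₀⁻¹ ∈ V := by
      intro x x₀ h
      have h1 : x₀⁻¹ * x ∈ V := QuotientGroup.eq.mp h
      have h2 := hN.conj_mem _ h1 x₀
      have h3 : x₀ * (x₀⁻¹ * x) * x₀⁻¹ = x * x₀⁻¹ := by group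
      rwa [h3] at h2
    have hconj : ∀ (x x₀ w : X), x * x₀⁻¹ ∈ V → w ∈ V → x * w * x⁻¹ = x₀ * w * x₀⁻¹ := by
      intro x x₀ w hv hw
      have ht : x₀ * w * x₀⁻¹ ∈ V := hN.conj_mem _ hw x₀
      have h1 := hab _ hv _ ht
      have h2 : x * w * x⁻¹ = (x * x₀⁻¹) * (x₀ * w * x₀⁻¹) * (x * x₀⁻¹)⁻¹ := by group
      rw [h2, h1]
      group
    let F : CX → CS := fun z =>
      let x := z.1.1
      let y := z.1.2
      let b := base ((x : Q), (y : Q))
      let hb := hbase z.1 z.2
      ⟨(⟨⟨x * b.1⁻¹, hmemV x b.1 hb.2.1⟩, (x : Q)⟩, ⟨⟨y * b.2⁻¹, hmemV y b.2 hb.2.2⟩, (y : Q)⟩), by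
        have hxy : x * y = y * x := z.2
        have hb0 : b.1 * b.2 = b.2 * b.1 := hb.1
        show _ = _
        apply SemidirectProduct.ext
        · apply Subtype.ext
          have hv' := hmemV x b.1 hb.2.1
          have hw' := hmemV y b.2 hb.2.2
          change ((⟨x * b.1⁻¹, hv'⟩ * φ (x : Q) ⟨y * b.2⁻¹, hw'⟩ : V) : X)
            = ((⟨y * b.2⁻¹, hw'⟩ * φ (y : Q) ⟨x * b.1⁻¹, hv'⟩ : V) : X)
          rw [Subgroup.coe_mul, Subgroup.coe_mul, hφ, hφ]
          change x * b.1⁻¹ * (x * (y * b.2⁻¹) * x⁻¹) = y * b.2⁻¹ * (y * (x * b.1⁻¹) * y⁻¹)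
          rw [hconj x b.1 _ (hmemV x b.1 hb.2.1) (hmemV y b.2 hb.2.2),
            hconj y b.2 _ (hmemV y b.2 hb.2.2) (hmemV x b.1 hb.2.1)]
          apply mul_right_cancel (b := b.1 * b.2)
          have e1 : x * b.1⁻¹ * (b.1 * (y * b.2⁻¹) * b.1⁻¹) * (b.1 * b.2) = x * y := by group
          have e2 : y * b.2⁻¹ * (b.2 * (x * b.1⁻¹) * b.2⁻¹) * (b.1 * b.2) = y * x := by
            rw [hb0]; group
          rw [e1, e2, hxy]
        · simp only [SemidirectProduct.mul_right]
          show ((x * y : X) : Q) = ((y * x : X) : Q)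
          rw [hxy]⟩
    have hinj : Function.Injective F := by
      rintro ⟨⟨x, y⟩, hz⟩ ⟨⟨x', y'⟩, hz'⟩ h
      have h0 := congrArg Subtype.val h
      have h1 := congrArg Prod.fst h0
      have h2 := congrArg Prod.snd h0
      have r1 : (x : Q) = (x' : Q) := congrArg SemidirectProduct.right h1
      have r2 : (y : Q) = (y' : Q) := congrArg SemidirectProduct.right h2
      have l1 : x * (base ((x : Q), (y : Q))).1⁻¹ = x' * (base ((x' : Q), (y' : Q))).1⁻¹ :=
        congrArg (fun t => ((SemidirectProduct.left t : V) : X)) h1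
      have l2 : y * (base ((x : Q), (y : Q))).2⁻¹ = y' * (base ((x' : Q), (y' : Q))).2⁻¹ :=
        congrArg (fun t => ((SemidirectProduct.left t : V) : X)) h2
      rw [r1, r2] at l1 l2
      have e1 := mul_right_cancel l1
      have e2 := mul_right_cancel l2
      subst e1 e2
      rfl
    have hle : Nat.card CX ≤ Nat.card CS := Nat.card_le_card_of_injective F hinj
    have h1 : Nat.card CX = Nat.card (ConjClasses X) * Nat.card X :=
      card_comm_eq_card_conjClasses_mul_card X
    have h2 : Nat.card CS = Nat.card (ConjClasses S) * Nat.card S :=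
      card_comm_eq_card_conjClasses_mul_card S
    have h3 : Nat.card S = Nat.card X := by
      have e1 : Nat.card S = Nat.card V * Nat.card Q :=
        (Nat.card_congr SemidirectProduct.equivProd).trans (Nat.card_prod _ _)
      have e2 : Nat.card X = Nat.card Q * Nat.card V :=
        Subgroup.card_eq_card_quotient_mul_card_subgroup V
      rw [e1, e2, mul_comm]
    rw [h1, h2, h3] at hle
    exact Nat.le_of_mul_le_mul_right hle Nat.card_pos

end Cfsg.Agent.S4965
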