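import Cfsg.Statements.S5005
import Cfsg.Agent.Lib.H13.FrobM22
import Cfsg.Agent.Lib.H13.MOutOct

set_option autoImplicit false
open Cfsg

namespace Cfsg.Agent.S5005

/-- All irreducible complex characters of the Mathieu group `M₂₂` lie in a single 2-block: any two of them lie in the same block relative to every maximal ideal of the algebraic integers containing 2. -/
theorem result (M : Ideal Cfsg.AlgInt) (hM : Cfsg.IsPModular 2 M)
    (χ ψ : Cfsg.IrrCharacter ↥Cfsg.Spor.M22) : Cfsg.SameBlock M (χ : ↥Cfsg.Spor.M22 → ℂ) (ψ : ↥Cfsg.Spor.M22 → ℂ) := by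
  have key : ∀ (H : Subgroup (Equiv.Perm Cfsg.GolayPt)),
      H = Cfsg.Agent.H27.Golay.fixG [0, 23] → ∀ χ ψ : Cfsg.IrrCharacter ↥H,
        Cfsg.SameBlock M (χ : ↥H → ℂ) (ψ : ↥H → ℂ) := by
    rintro _ rfl χ ψ
    exact Cfsg.Agent.H13.Frob.M22D.sameBlock22 M hM χ ψ
  exact key _ Cfsg.Agent.H13.MOut.M22_eq χ ψ

end Cfsg.Agent.S5005
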