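import Cfsg.Statements.S5015
import Cfsg.Agent.Lib.H23.RankOneGroup

set_option autoImplicit false
open Cfsg

namespace Cfsg.Agent.S5015

/-- Let a group Y act doubly transitively on a set Ω with at least three points, and suppose that the stabilizer of a point α contains a nilpotent subgroup A, normalized by that stabilizer, which acts regularly on the points other than α. Then for any y in Y moving α, the subgroups A and y A y⁻¹ are the unipotent subgroups of a rank one group, and the normal closure of A in Y (the subgroup generated by all conjugates of A) is generated by A and y A y⁻¹ alone. -/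
theorem result {Y Ω : Type*} [Group Y] [MulAction Y Ω]
    (h2 : MulAction.IsMultiplyPretransitive Y Ω 2) (hΩ : 3 ≤ ENat.card Ω) (α : Ω) (A : Subgroup Y)
    (hA : A ≤ MulAction.stabilizer Y α) (hAn : ∀ y ∈ MulAction.stabilizer Y α, Cfsg.conjBy A y = A)
    (hnil : Group.IsNilpotent A) (hreg : ∀ β γ : Ω, β ≠ α → γ ≠ α → ∃! a : Y, a ∈ A ∧ a • β = γ)
    (y : Y) (hy : y ∉ MulAction.stabilizer Y α) :
    Cfsg.IsRankOnePair A (Cfsg.conjBy A y) ∧ Subgroup.normalClosure (A : Set Y) = A ⊔ Cfsg.conjBy A y := by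
  open Cfsg.Agent.H23 in
  classical
  set β := y • α with hβ
  have hβα : β ≠ α := by
    intro he
    exact hy (MulAction.mem_stabilizer_iff.2 he)
  set B := conjBy A y with hB
  -- a third point
  have h3 : ∃ δ : Ω, δ ≠ α ∧ δ ≠ β := by
    by_contra hcon
    push Not at hcon
    have hsub : (Set.univ : Set Ω) ⊆ {α, β} := by
      intro δ _
      by_cases hδ : δ = α
      · exact Or.inl hδ
      · exact Or.inr (hcon δ hδ)
    have hle := Set.encard_le_encard hsub
    rw [Set.encard_univ] at hle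
    rw [Set.encard_pair hβα.symm] at hle
    have := le_trans hΩ hle
    exact absurd this (by norm_num)
  obtain ⟨δ₀, hδ₀α, hδ₀β⟩ := h3
  -- conjugates depend only on the image of `α`
  have hconj : ∀ g h : Y, g • α = h • α → conjBy A g = conjBy A h := by
    intro g h hgh
    have hst : h⁻¹ * g ∈ MulAction.stabilizer Y α := by
      rw [MulAction.mem_stabilizer_iff, mul_smul, hgh, inv_smul_smul]
    have e := hAn _ hst
    have e2 : g = h * (h⁻¹ * g) := by group
    rw [e2, conjBy_mul, e]
  -- elements of `A` fix `α`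
  have hfix : ∀ a ∈ A, a • α = α := fun a ha => MulAction.mem_stabilizer_iff.1 (hA ha)
  -- nonidentity elements of `A` have no other fixed point
  have hfree : ∀ a ∈ A, a ≠ 1 → ∀ γ, γ ≠ α → a • γ ≠ γ := by
    intro a ha ha1 γ hγ he
    obtain ⟨u, -, hu⟩ := hreg γ γ hγ hγ
    exact ha1 ((hu a ⟨ha, he⟩).trans (hu 1 ⟨A.one_mem, one_smul _ _⟩).symm)
  -- the same for `B`
  have hBfix : ∀ b ∈ B, b • β = β := by
    intro b hb
    have hb' : y⁻¹ * b * y ∈ A := mem_conjBy.1 hb
    have := hfix _ hb'
    have e : b • β = y • ((y⁻¹ * b * y) • α) := by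
      simp only [hβ, mul_smul, smul_inv_smul]
    rw [e, this]
  have hBreg : ∀ γ δ : Ω, γ ≠ β → δ ≠ β → ∃ b ∈ B, b • γ = δ := by
    intro γ δ hγ hδ
    have h1 : y⁻¹ • γ ≠ α := by
      intro he
      exact hγ (inv_smul_eq_iff.1 he)
    have h2 : y⁻¹ • δ ≠ α := by
      intro he
      exact hδ (inv_smul_eq_iff.1 he)
    obtain ⟨a, ⟨ha, hac⟩, -⟩ := hreg _ _ h1 h2
    refine ⟨y * a * y⁻¹, conj_mem_conjBy ha y, ?_⟩
    simp only [mul_smul, hac, smul_inv_smul]
  have hBfree : ∀ b ∈ B, b ≠ 1 → ∀ γ, γ ≠ β → b • γ ≠ γ := by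
    intro b hb hb1 γ hγ he
    have hb' : y⁻¹ * b * y ∈ A := mem_conjBy.1 hb
    have hb1' : y⁻¹ * b * y ≠ 1 := by
      intro h1
      apply hb1
      have e : b = y * (y⁻¹ * b * y) * y⁻¹ := by group
      rw [e, h1]; simp
    have h1 : y⁻¹ • γ ≠ α := by
      intro he2
      exact hγ (inv_smul_eq_iff.1 he2)
    apply hfree _ hb' hb1' _ h1
    simp only [mul_smul, smul_inv_smul, he]
  refine ⟨⟨?_, hnil, ?_, ?_, ?_⟩, ?_⟩
  · -- `A ≠ B`
    intro he
    obtain ⟨a, ⟨ha, hac⟩, -⟩ := hreg β δ₀ hβα hδ₀α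
    have haB : a ∈ B := by rw [← he]; exact ha
    have := hBfix a haB
    rw [hac] at this
    exact hδ₀β this
  · have := hnil
    exact Group.nilpotent_of_mulEquiv (A.equivMapOfInjective _ (MulAut.conj y).injective)
  · -- the left condition
    intro a ha ha1
    have hai : a⁻¹ ∈ A := A.inv_mem ha
    have hai1 : a⁻¹ ≠ 1 := by simpa using ha1
    have h1 : a⁻¹ • β ≠ β := hfree _ hai hai1 β hβα
    have h2 : a⁻¹ • β ≠ α := by
      intro he
      apply hβα
      have := congrArg (fun z => a • z) he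
      simp only [smul_inv_smul] at this
      rw [this, hfix a ha]
    obtain ⟨c, hc, hcα⟩ := hBreg α (a⁻¹ • β) hβα.symm h1
    refine ⟨c⁻¹, B.inv_mem hc, ?_, ?_⟩
    · intro hc1
      have : c = 1 := by simpa using hc1
      rw [this, one_smul] at hcα
      exact h2 hcα.symm
    · rw [inv_inv, hB, conjBy_conjBy]
      apply hconj
      rw [hcα, mul_smul]
  · -- the right condition
    intro b hb hb1
    have hbi : b⁻¹ ∈ B := B.inv_mem hb
    have hbi1 : b⁻¹ ≠ 1 := by simpa using hb1
    have h1 : b⁻¹ • α ≠ α := hBfree _ hbi hbi1 α hβα.symm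
    have h2 : b⁻¹ • α ≠ β := by
      intro he
      apply hβα
      have := congrArg (fun z => b • z) he
      simp only [smul_inv_smul] at this
      rw [hBfix b hb] at this
      exact this.symm
    obtain ⟨c, ⟨hc, hcβ⟩, -⟩ := hreg β (b⁻¹ • α) hβα h1
    refine ⟨c⁻¹, A.inv_mem hc, ?_, ?_⟩
    · intro hc1
      have : c = 1 := by simpa using hc1
      rw [this, one_smul] at hcβ
      exact h2 hcβ.symm
    · rw [inv_inv, hB, conjBy_conjBy]
      apply hconj
      rw [mul_smul, ← hβ, hcβ]
  · -- normal closure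
    apply le_antisymm
    · -- every conjugate of `A` lies in `⟨A, B⟩`
      have hall : ∀ g : Y, conjBy A g ≤ A ⊔ B := by
        intro g
        by_cases hg : g • α = α
        · rw [hconj g 1 (by simpa using hg)]
          simp
        · obtain ⟨b, hb, hbα⟩ := hBreg α δ₀ hβα.symm hδ₀β
          obtain ⟨a, ⟨ha, hac⟩, -⟩ := hreg δ₀ (g • α) hδ₀α hg
          rw [hconj g (a * b) (by rw [mul_smul, hbα, hac])]
          exact conjBy_le_of_mem le_sup_left
            ((A ⊔ B).mul_mem ((le_sup_left : A ≤ A ⊔ B) ha) ((le_sup_right : B ≤ A ⊔ B) hb))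
      rw [Subgroup.normalClosure, Subgroup.closure_le]
      intro x hx
      obtain ⟨a, ha, hax⟩ := Group.mem_conjugatesOfSet_iff.1 hx
      obtain ⟨c, rfl⟩ := isConj_iff.1 hax
      exact hall c (conj_mem_conjBy ha c)
    · refine sup_le (Subgroup.le_normalClosure) ?_
      intro x hx
      have hx' : y⁻¹ * x * y ∈ A := mem_conjBy.1 hx
      have hN : (Subgroup.normalClosure (A : Set Y)).Normal := inferInstance
      have := hN.conj_mem _ (Subgroup.le_normalClosure hx') y
      have e : y * (y⁻¹ * x * y) * y⁻¹ = x := by group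
      rwa [e] at this

end Cfsg.Agent.S5015
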