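import Cfsg.Statements.S5023
import Cfsg.Agent.Lib.H23.Quadratic2

set_option autoImplicit false
open Cfsg

namespace Cfsg.Agent.S5023

/-- Let X be a rank one group with unipotent subgroups A and B that acts faithfully on an abelian group V (written additively) with A acting quadratically: a' • (a • v − v) = a • v − v for all a, a' in A and v in V. Then A is either torsion-free or an elementary abelian p-group for some prime p. -/
theorem result {X : Type*} [Group X] {A B : Subgroup X} (h : Cfsg.IsRankOneGroup X A B)
    {V : Type*} [AddCommGroup V] [DistribMulAction X V] (hf : ∀ x : X, (∀ v : V, x • v = v) → x = 1)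
    (hq : ∀ a ∈ A, ∀ a' ∈ A, ∀ v : V, a' • (a • v - v) = a • v - v) :
    (∀ a ∈ A, a ≠ 1 → ¬ IsOfFinOrder a) ∨ ∃ p : ℕ, p.Prime ∧ Cfsg.IsElementaryAbelian p A := by
  have key : ∀ x y : X, ∀ n : V,
      (Cfsg.Agent.H23.tau (DistribMulAction.toAddMonoidEnd X V) y *
        Cfsg.Agent.H23.tau (DistribMulAction.toAddMonoidEnd X V) x) n = y • (x • n - n) - (x • n - n) := by
    intro x y n
    rfl
  refine Cfsg.Agent.H23.elem_abelian_of_quad (ρ := DistribMulAction.toAddMonoidEnd X V) h ?_ ?_
  · intro a' ha' a ha
    ext n
    rw [key]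
    exact sub_eq_zero.2 (hq a ha a' ha' n)
  · intro x hx
    apply hf
    intro v
    have := congrArg (fun f : AddMonoid.End V => f v) hx
    exact this

end Cfsg.Agent.S5023
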