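import Cfsg.Statements.S5058
import Cfsg.Agent.Lib.H29.RootSL
-- import your own Cfsg.Agent.* helpers here

set_option autoImplicit false
open Matrix
open Cfsg

namespace Cfsg.Agent.S5058

open Matrix Cfsg.Agent.H29.RootSL

variable {F : Type*} [Field F] {ι : Type} [Fintype ι] [DecidableEq ι]

/-- Cayley-Hamilton in characteristic 2 for `SL₂`. -/
theorem ch2 [CharP F 2] (M : Matrix.SpecialLinearGroup (Fin 2) F) :
    (M : Matrix (Fin 2) (Fin 2) F) * M = (M : Matrix (Fin 2) (Fin 2) F).trace • (M : Matrix (Fin 2) (Fin 2) F) + 1 := by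
  have hdet := M.2
  rw [Matrix.det_fin_two] at hdet
  have h2 : ∀ x : F, x + x = 0 := fun x => CharTwo.add_self_eq_zero x
  have hbc : (M : Matrix (Fin 2) (Fin 2) F) 0 1 * (M : Matrix (Fin 2) (Fin 2) F) 1 0
      = (M : Matrix (Fin 2) (Fin 2) F) 0 0 * (M : Matrix (Fin 2) (Fin 2) F) 1 1 + 1 := by
    have h3 := h2 ((M : Matrix (Fin 2) (Fin 2) F) 0 1 * (M : Matrix (Fin 2) (Fin 2) F) 1 0)
    have h4 := h2 1
    linear_combination -hdet - h4
  ext i j
  fin_cases i <;> fin_cases j <;>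
    simp [Matrix.mul_apply, Fin.sum_univ_two, Matrix.trace_fin_two, Matrix.one_apply]
  · linear_combination hbc
  · ring
  · ring
  · linear_combination hbc

theorem odd_order_SL2 [Fintype F] [CharP F 2] (M : Matrix.SpecialLinearGroup (Fin 2) F)
    (ht : (M : Matrix (Fin 2) (Fin 2) F).trace ≠ 0) : Odd (orderOf M) := by
  classical
  by_contra hodd
  rw [Nat.not_odd_iff_even] at hodd
  obtain ⟨m, hm⟩ := hodd
  have hpos : 0 < orderOf M := orderOf_pos M
  have hmlt : m < orderOf M := by omega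
  have hmpos : 0 < m := by omega
  have hz1 : M ^ m ≠ 1 := pow_ne_one_of_lt_orderOf (by omega) hmlt
  have hz2 : (M ^ m) * (M ^ m) = 1 := by
    rw [← pow_add, ← hm, pow_orderOf_eq_one]
  set t := (M : Matrix (Fin 2) (Fin 2) F).trace with htdef
  have hch := ch2 M
  rw [← htdef] at hch
  -- powers are in the span of 1 and M
  have hpow : ∀ k : ℕ, ∃ u v : F, ((M ^ k : Matrix.SpecialLinearGroup (Fin 2) F) : Matrix (Fin 2) (Fin 2) F)
      = u • 1 + v • (M : Matrix (Fin 2) (Fin 2) F) := by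
    intro k
    induction k with
    | zero => exact ⟨1, 0, by simp⟩
    | succ k ih =>
      obtain ⟨u, v, h⟩ := ih
      refine ⟨v, u + v * t, ?_⟩
      rw [pow_succ, Matrix.SpecialLinearGroup.coe_mul, h, add_mul, smul_mul_assoc, smul_mul_assoc, one_mul, hch]
      module
  obtain ⟨u, v, huv⟩ := hpow m
  have h2 : ∀ x : F, x + x = 0 := fun x => CharTwo.add_self_eq_zero x
  have hsq : (u * u + v * v + 1) • (1 : Matrix (Fin 2) (Fin 2) F)
      + (v * v * t) • (M : Matrix (Fin 2) (Fin 2) F) = 0 := by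
    have h3 : ((M ^ m * M ^ m : Matrix.SpecialLinearGroup (Fin 2) F) : Matrix (Fin 2) (Fin 2) F) = 1 := by
      rw [hz2]; rfl
    rw [Matrix.SpecialLinearGroup.coe_mul, huv] at h3
    have h4 : (u • (1 : Matrix (Fin 2) (Fin 2) F) + v • (M : Matrix (Fin 2) (Fin 2) F)) *
        (u • (1 : Matrix (Fin 2) (Fin 2) F) + v • (M : Matrix (Fin 2) (Fin 2) F))
        = (u * u + v * v) • 1 + (v * v * t) • (M : Matrix (Fin 2) (Fin 2) F) + ((u * v) + (u * v)) • (M : Matrix (Fin 2) (Fin 2) F) := by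
      simp only [add_mul, mul_add, smul_mul_assoc, mul_smul_comm, one_mul, mul_one, hch, smul_add, smul_smul]
      module
    rw [h4, h2, zero_smul, add_zero] at h3
    have h5 : ((1 : F) + 1) • (1 : Matrix (Fin 2) (Fin 2) F) = 0 := by
      rw [h2, zero_smul]
    calc (u * u + v * v + 1) • (1 : Matrix (Fin 2) (Fin 2) F) + (v * v * t) • (M : Matrix (Fin 2) (Fin 2) F)
        = ((u * u + v * v) • 1 + (v * v * t) • (M : Matrix (Fin 2) (Fin 2) F)) + (1:F) • (1 : Matrix (Fin 2) (Fin 2) F) := by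
          module
      _ = (1 : Matrix (Fin 2) (Fin 2) F) + (1 : F) • (1 : Matrix (Fin 2) (Fin 2) F) := by rw [h3]
      _ = ((1 : F) + 1) • (1 : Matrix (Fin 2) (Fin 2) F) := by module
      _ = 0 := h5
  by_cases hv : v = 0
  · subst hv
    have h6 : (u * u + 1) • (1 : Matrix (Fin 2) (Fin 2) F) = 0 := by
      simpa using hsq
    have h7 := congrFun (congrFun h6 0) 0
    simp only [Matrix.smul_apply, Matrix.one_apply_eq, smul_eq_mul, mul_one, Matrix.zero_apply] at h7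
    have h8 : (u + 1) * (u + 1) = 0 := by
      have := h2 u
      linear_combination h7 + this
    have h9 : u + 1 = 0 := by
      rcases mul_eq_zero.1 h8 with h | h <;> exact h
    have h10 : u = 1 := by
      have := h2 1
      linear_combination h9 - this
    apply hz1
    apply Subtype.ext
    rw [huv, h10]
    simp
  · -- M is scalar
    have hvt : v * v * t ≠ 0 := mul_ne_zero (mul_ne_zero hv hv) ht
    set c := (u * u + v * v + 1) with hc
    have hM : (M : Matrix (Fin 2) (Fin 2) F) = (c * (v * v * t)⁻¹) • 1 := by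
      have h11 : (v * v * t) • (M : Matrix (Fin 2) (Fin 2) F) = c • 1 := by
        have h12 := eq_neg_of_add_eq_zero_right hsq
        rw [h12, ← neg_smul]
        congr 1
        have := h2 c
        linear_combination -this
      calc (M : Matrix (Fin 2) (Fin 2) F) = (v * v * t)⁻¹ • ((v * v * t) • (M : Matrix (Fin 2) (Fin 2) F)) := by
            rw [smul_smul, inv_mul_cancel₀ hvt, one_smul]
        _ = _ := by rw [h11, smul_smul, mul_comm]
    apply ht
    rw [htdef, hM, Matrix.trace_smul, Matrix.trace_one]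
    simp only [Fintype.card_fin, smul_eq_mul]
    have : ((2 : ℕ) : F) = 0 := CharP.cast_eq_zero F 2
    rw [this, mul_zero]

theorem tv_scale {p f : ι → F} (h : f ⬝ᵥ p = 0) (c : F) :
    ∃ h' : f ⬝ᵥ (c • p) = 0, tv p f h c = tv (c • p) f h' 1 := by
  have h' : f ⬝ᵥ (c • p) = 0 := by rw [dotProduct_smul, h, smul_zero]
  refine ⟨h', Subtype.ext ?_⟩
  show tm p f c = tm (c • p) f 1
  unfold tm
  rw [smul_vecMulVec, one_smul]

theorem smul_ne {p : ι → F} {c : F} (hc : c ≠ 0) (hp : p ≠ 0) : c • p ≠ 0 := smul_ne_zero hc hp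

/-- The set of root elements. -/
def DD (ι : Type) [Fintype ι] [DecidableEq ι] (F : Type*) [Field F] (i₀ i₁ : ι) :
    Set (Matrix.SpecialLinearGroup ι F) :=
  {t | ∃ c : F, c ≠ 0 ∧ ∃ g : Matrix.SpecialLinearGroup ι F,
    ((g⁻¹ * t * g : Matrix.SpecialLinearGroup ι F) : Matrix ι ι F) = Matrix.transvection i₀ i₁ c}

theorem mulVec_ne {g : Matrix.SpecialLinearGroup ι F} {p : ι → F} (hp : p ≠ 0) :
    (g : Matrix ι ι F) *ᵥ p ≠ 0 := by
  intro h0
  apply hp
  have h1 := congrArg (fun v => ((g⁻¹ : Matrix.SpecialLinearGroup ι F) : Matrix ι ι F) *ᵥ v) h0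
  simp only [mulVec_mulVec, mulVec_zero] at h1
  have h2 : ((g⁻¹ : Matrix.SpecialLinearGroup ι F) : Matrix ι ι F) * (g : Matrix ι ι F) = 1 := by
    rw [← Matrix.SpecialLinearGroup.coe_mul, inv_mul_cancel, Matrix.SpecialLinearGroup.coe_one]
  rwa [h2, one_mulVec] at h1

theorem vecMul_ne {g : Matrix.SpecialLinearGroup ι F} {f : ι → F} (hf : f ≠ 0) :
    f ᵥ* ((g⁻¹ : Matrix.SpecialLinearGroup ι F) : Matrix ι ι F) ≠ 0 := by
  intro h0
  apply hf
  have h1 := congrArg (fun v => v ᵥ* (g : Matrix ι ι F)) h0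
  simp only [vecMul_vecMul, zero_vecMul] at h1
  have h2 : ((g⁻¹ : Matrix.SpecialLinearGroup ι F) : Matrix ι ι F) * (g : Matrix ι ι F) = 1 := by
    rw [← Matrix.SpecialLinearGroup.coe_mul, inv_mul_cancel, Matrix.SpecialLinearGroup.coe_one]
  rwa [h2, vecMul_one] at h1

theorem coe_transvection {i₀ i₁ : ι} (c : F) :
    (Matrix.transvection i₀ i₁ c : Matrix ι ι F) = tm (Pi.single i₀ 1) (Pi.single i₁ 1) c := by
  unfold tm Matrix.transvection
  rw [single_eq_vv]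

theorem exists_conj_T1 {i₀ i₁ i₂ : ι} (h01 : i₀ ≠ i₁) (h02 : i₀ ≠ i₂) (h12 : i₁ ≠ i₂)
    {p f : ι → F} (hp : p ≠ 0) (hf : f ≠ 0) (h : f ⬝ᵥ p = 0) :
    ∃ g : Matrix.SpecialLinearGroup ι F, tv p f h 1 = g * tv (Pi.single i₀ 1) (Pi.single i₁ 1) (single_dot h01) 1 * g⁻¹ := by
  obtain ⟨g, hg⟩ := exists_flag_conj h01 h02 h12 hp hf h
  refine ⟨g, Subtype.ext ?_⟩
  have hginv : (g : Matrix ι ι F) * ((g⁻¹ : Matrix.SpecialLinearGroup ι F) : Matrix ι ι F) = 1 := by
    rw [← Matrix.SpecialLinearGroup.coe_mul, mul_inv_cancel, Matrix.SpecialLinearGroup.coe_one]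
  show tm p f 1 = (g : Matrix ι ι F) * tm _ _ 1 * ((g⁻¹ : Matrix.SpecialLinearGroup ι F) : Matrix ι ι F)
  unfold tm
  rw [mul_add, add_mul, mul_one, hginv, mul_smul_comm, smul_mul_assoc, hg]

theorem mem_DD_iff {i₀ i₁ i₂ : ι} (h01 : i₀ ≠ i₁) (h02 : i₀ ≠ i₂) (h12 : i₁ ≠ i₂)
    {t : Matrix.SpecialLinearGroup ι F} :
    t ∈ DD ι F i₀ i₁ ↔ ∃ p f : ι → F, p ≠ 0 ∧ f ≠ 0 ∧ ∃ h : f ⬝ᵥ p = 0, t = tv p f h 1 := by
  have he0 : (Pi.single i₀ 1 : ι → F) ≠ 0 := Pi.single_ne_zero_iff.2 one_ne_zero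
  have he1 : (Pi.single i₁ 1 : ι → F) ≠ 0 := Pi.single_ne_zero_iff.2 one_ne_zero
  have hd := single_dot (k := F) h01
  constructor
  · rintro ⟨c, hc, g, hg⟩
    have h1 : g⁻¹ * t * g = tv (Pi.single i₀ 1) (Pi.single i₁ 1) hd c := by
      apply Subtype.ext
      rw [hg, coe_transvection]
      rfl
    have h2 : t = g * tv (Pi.single i₀ 1) (Pi.single i₁ 1) hd c * g⁻¹ := by
      rw [← h1]; group
    rw [conj_tv] at h2
    obtain ⟨h', h3⟩ := tv_scale (conj_dot hd g) c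
    rw [h3] at h2
    exact ⟨_, _, smul_ne hc (mulVec_ne he0), vecMul_ne he1, h', h2⟩
  · rintro ⟨p, f, hp, hf, h, rfl⟩
    obtain ⟨g, hg⟩ := exists_conj_T1 h01 h02 h12 hp hf h
    refine ⟨1, one_ne_zero, g, ?_⟩
    rw [hg, coe_transvection]
    have : g⁻¹ * (g * tv (Pi.single i₀ 1) (Pi.single i₁ 1) (single_dot h01) 1 * g⁻¹) * g
        = tv (Pi.single i₀ 1) (Pi.single i₁ 1) (single_dot h01) 1 := by group
    rw [this]
    rfl

variable [CharP F 2]

theorem tv_sq {p f : ι → F} (h : f ⬝ᵥ p = 0) (c : F) : tv p f h c * tv p f h c = 1 := by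
  rw [tv_mul, CharTwo.add_self_eq_zero, tv_zero]

theorem tv_inv_char2 {p f : ι → F} (h : f ⬝ᵥ p = 0) (c : F) : (tv p f h c)⁻¹ = tv p f h c := by
  rw [tv_inv, CharTwo.neg_eq]

theorem pair_rank_one [Fintype F] {p f q g : ι → F} (hfp : f ⬝ᵥ p = 0) (hgq : g ⬝ᵥ q = 0)
    (hfq : f ⬝ᵥ q ≠ 0) (hgp : g ⬝ᵥ p ≠ 0) :
    Odd (orderOf (tv p f hfp 1 * tv q g hgq 1)) ∧
      (Fintype.card F = 2 → (tv p f hfp 1 * tv q g hgq 1) ^ 3 = 1) := by
  obtain ⟨-, h2, h3, h4⟩ := RR_normalize hfp hgq hfq hgp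
  set α := f ⬝ᵥ q with hα
  set β := g ⬝ᵥ p with hβ
  set t := α * β with ht
  have ht0 : t ≠ 0 := mul_ne_zero hfq hgp
  let U : Matrix.SpecialLinearGroup (Fin 2) F := ⟨!![1, 1; 0, 1], by simp [Matrix.det_fin_two]⟩
  let L : Matrix.SpecialLinearGroup (Fin 2) F := ⟨!![1, 0; t, 1], by simp [Matrix.det_fin_two]⟩
  let φ := phi (p := p) (f := f) (q := α⁻¹ • q) (g := β⁻¹ • g) h2 h3 hfp h4
  have hφU : φ U = tv p f hfp 1 := by
    apply Subtype.ext
    show phiM p f (α⁻¹ • q) (β⁻¹ • g) (U : Matrix (Fin 2) (Fin 2) F) = tm p f 1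
    rw [phiM_upper (by simp [U]) (by simp [U]) (by simp [U])]
    simp [U]
  have hφL : φ L = tv q g hgq 1 := by
    apply Subtype.ext
    show phiM p f (α⁻¹ • q) (β⁻¹ • g) (L : Matrix (Fin 2) (Fin 2) F) = tm q g 1
    rw [phiM_lower (by simp [L]) (by simp [L]) (by simp [L])]
    have h5 : (L : Matrix (Fin 2) (Fin 2) F) 1 0 = t := by simp [L]
    rw [h5]
    unfold tm
    rw [smul_vecMulVec, vecMulVec_smul, smul_smul, smul_smul]
    congr 2
    rw [ht]
    field_simp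
  have hprod : tv p f hfp 1 * tv q g hgq 1 = φ (U * L) := by
    rw [map_mul, hφU, hφL]
  have htr : ((U * L : Matrix.SpecialLinearGroup (Fin 2) F) : Matrix (Fin 2) (Fin 2) F).trace = t := by
    have h2' : (1 : F) + 1 = 0 := CharTwo.add_self_eq_zero 1
    rw [Matrix.SpecialLinearGroup.coe_mul]
    show (!![1, 1; 0, 1] * !![1, 0; t, 1] : Matrix (Fin 2) (Fin 2) F).trace = t
    simp [Matrix.trace_fin_two, Matrix.mul_apply, Fin.sum_univ_two]
    linear_combination h2'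
  rw [hprod, orderOf_injective φ (phi_injective h2 h3 hfp h4)]
  refine ⟨odd_order_SL2 _ (by rw [htr]; exact ht0), fun hc => ?_⟩
  have ht1 : t = 1 := by
    have := FiniteField.pow_card_sub_one_eq_one t ht0
    rw [hc] at this
    simpa using this
  rw [← map_pow]
  have hM : (U * L) ^ 3 = 1 := by
    apply Subtype.ext
    have hch := ch2 (U * L)
    rw [htr, ht1, one_smul] at hch
    have h2' : ∀ x : Matrix (Fin 2) (Fin 2) F, x + x = 0 := fun x => by
      ext i j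
      exact CharTwo.add_self_eq_zero _
    show (((U * L) ^ 3 : Matrix.SpecialLinearGroup (Fin 2) F) : Matrix (Fin 2) (Fin 2) F) = 1
    rw [pow_succ, pow_two, Matrix.SpecialLinearGroup.coe_mul, Matrix.SpecialLinearGroup.coe_mul, hch, add_mul,
      one_mul, hch]
    have h5 := h2' ((U * L : Matrix.SpecialLinearGroup (Fin 2) F) : Matrix (Fin 2) (Fin 2) F)
    calc _ = (1 : Matrix (Fin 2) (Fin 2) F) + (((U * L : Matrix.SpecialLinearGroup (Fin 2) F) : Matrix (Fin 2) (Fin 2) F) + ((U * L : Matrix.SpecialLinearGroup (Fin 2) F) : Matrix (Fin 2) (Fin 2) F)) := by abel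
      _ = 1 := by rw [h5, add_zero]
  rw [hM, map_one]

theorem sq_case [Fintype F] {i₀ i₁ i₂ : ι} (h01 : i₀ ≠ i₁) (h02 : i₀ ≠ i₂) (h12 : i₁ ≠ i₂)
    {x : Matrix.SpecialLinearGroup ι F} {r h' : ι → F} (hd : h' ⬝ᵥ r = 0) {c : F} (hc : c ≠ 0)
    (hr : r ≠ 0) (hh : h' ≠ 0) (hx : x ^ 2 = tv r h' hd c) :
    orderOf x = 4 ∧ x ^ 2 ∈ DD ι F i₀ i₁ := by
  haveI : Fact (Nat.Prime 2) := ⟨Nat.prime_two⟩
  constructor
  · have h1 : ¬ x ^ 2 ^ 1 = 1 := by
      rw [pow_one, hx]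
      exact tv_inj_of_ne hd hc hr hh
    have h2 : x ^ 2 ^ (1 + 1) = 1 := by
      have : x ^ 2 ^ (1 + 1) = x ^ 2 * x ^ 2 := by
        rw [← pow_add]
        norm_num
      rw [this, hx, tv_sq]
    have h3 := orderOf_eq_prime_pow h1 h2
    rw [h3]
    norm_num
  · rw [hx]
    obtain ⟨h4, h5⟩ := tv_scale hd c
    rw [h5]
    exact (mem_DD_iff h01 h02 h12).2 ⟨_, _, smul_ne hc hr, hh, h4, rfl⟩

theorem pair_main [Fintype F] {i₀ i₁ i₂ : ι} (h01 : i₀ ≠ i₁) (h02 : i₀ ≠ i₂) (h12 : i₁ ≠ i₂)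
    {a b : Matrix.SpecialLinearGroup ι F} (ha : a ∈ DD ι F i₀ i₁) (hb : b ∈ DD ι F i₀ i₁) :
    a * b = b * a ∨ (Odd (orderOf (a * b)) ∧ (Fintype.card F = 2 → (a * b) ^ 3 = 1)) ∨
      (orderOf (a * b) = 4 ∧ (a * b) ^ 2 ∈ DD ι F i₀ i₁) := by
  obtain ⟨p, f, hp, hf, hfp, rfl⟩ := (mem_DD_iff h01 h02 h12).1 ha
  obtain ⟨q, g, hq, hg, hgq, rfl⟩ := (mem_DD_iff h01 h02 h12).1 hb
  have hsq : (tv p f hfp 1 * tv q g hgq 1) ^ 2 =
      tv p f hfp 1 * tv q g hgq 1 * (tv p f hfp 1)⁻¹ * (tv q g hgq 1)⁻¹ := by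
    rw [tv_inv_char2, tv_inv_char2, pow_two]
    group
  by_cases h1 : f ⬝ᵥ q = 0 <;> by_cases h2 : g ⬝ᵥ p = 0
  · left
    exact commute_of_zero hfp hgq h1 h2 1 1
  · right; right
    rw [comm_eq_of_left_zero hfp hgq h1] at hsq
    exact sq_case h01 h02 h12 h1 (neg_ne_zero.2 (by simpa using h2)) hq hf hsq
  · right; right
    rw [comm_eq_of_right_zero hfp hgq h2] at hsq
    exact sq_case h01 h02 h12 h2 (by simpa using h1) hp hg hsq
  · right; left
    exact pair_rank_one hfp hgq h1 h2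

theorem root_set [Fintype F] [Nontrivial ι] {i₀ i₁ i₂ : ι} (h01 : i₀ ≠ i₁) (h02 : i₀ ≠ i₂) (h12 : i₁ ≠ i₂) :
    Cfsg.IsRootInvolutionSet (DD ι F i₀ i₁) where
  orderOf_eq := by
    intro d hd
    obtain ⟨p, f, hp, hf, hfp, rfl⟩ := (mem_DD_iff h01 h02 h12).1 hd
    haveI : Fact (Nat.Prime 2) := ⟨Nat.prime_two⟩
    apply orderOf_eq_prime
    · rw [pow_two, tv_sq]
    · exact tv_inj_of_ne hfp one_ne_zero hp hf
  generates := by
    refine eq_top_iff.2 fun A _ => ?_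
    refine Cfsg.Agent.Lead.transvection_induction' (ι := ι) (F := F) (· ∈ Subgroup.closure (DD ι F i₀ i₁)) ?_
      (fun _ _ => mul_mem) A
    intro i j hij c
    by_cases hc : c = 0
    · subst hc
      have : Matrix.SpecialLinearGroup.transvection hij (0 : F) = 1 := by
        apply Subtype.ext
        simp [Matrix.transvection]
      rw [this]
      exact one_mem _
    · apply Subgroup.subset_closure
      have hd := single_dot (k := F) hij
      obtain ⟨h4, h5⟩ := tv_scale hd c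
      have h6 : Matrix.SpecialLinearGroup.transvection hij c = tv (Pi.single i 1) (Pi.single j 1) hd c := by
        apply Subtype.ext
        exact coe_transvection c
      rw [h6, h5]
      exact (mem_DD_iff h01 h02 h12).2 ⟨_, _, smul_ne hc (Pi.single_ne_zero_iff.2 one_ne_zero),
        Pi.single_ne_zero_iff.2 one_ne_zero, h4, rfl⟩
  conj_mem := by
    rintro d ⟨c, hc, g, hg⟩ h
    refine ⟨c, hc, h * g, ?_⟩
    have h3 : (h * g)⁻¹ * (h * d * h⁻¹) * (h * g) = g⁻¹ * d * g := by group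
    rw [h3]
    exact hg
  pair := by
    intro a ha b hb
    rcases pair_main h01 h02 h12 ha hb with h | h | h
    · exact Or.inl h
    · exact Or.inr (Or.inl h.1)
    · exact Or.inr (Or.inr h)

theorem class_set {i₀ i₁ i₂ : ι} (h01 : i₀ ≠ i₁) (h02 : i₀ ≠ i₂) (h12 : i₁ ≠ i₂) :
    (DD ι F i₀ i₁).Nonempty ∧ ∀ a ∈ DD ι F i₀ i₁, ∀ b ∈ DD ι F i₀ i₁,
      ∃ g : Matrix.SpecialLinearGroup ι F, b = g * a * g⁻¹ := by
  constructor
  · exact ⟨_, (mem_DD_iff h01 h02 h12).2 ⟨_, _, Pi.single_ne_zero_iff.2 one_ne_zero,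
      Pi.single_ne_zero_iff.2 one_ne_zero, single_dot h01, rfl⟩⟩
  · intro a ha b hb
    obtain ⟨p, f, hp, hf, hfp, rfl⟩ := (mem_DD_iff h01 h02 h12).1 ha
    obtain ⟨q, g, hq, hg, hgq, rfl⟩ := (mem_DD_iff h01 h02 h12).1 hb
    obtain ⟨g₁, h1⟩ := exists_conj_T1 h01 h02 h12 hp hf hfp
    obtain ⟨g₂, h2⟩ := exists_conj_T1 h01 h02 h12 hq hg hgq
    refine ⟨g₂ * g₁⁻¹, ?_⟩
    rw [h1, h2]
    group

theorem three_four [Fintype F] [Nontrivial ι] {i₀ i₁ i₂ : ι} (h01 : i₀ ≠ i₁) (h02 : i₀ ≠ i₂) (h12 : i₁ ≠ i₂)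
    (hc : Fintype.card F = 2) : Cfsg.IsThreeFourPlusTranspositionSet (DD ι F i₀ i₁) := by
  refine ⟨root_set h01 h02 h12, ?_⟩
  intro a ha b hb hodd
  rcases pair_main h01 h02 h12 ha hb with h | h | h
  · left
    have ho := (root_set (F := F) h01 h02 h12).orderOf_eq
    have ha2 : a ^ 2 = 1 := by
      have := pow_orderOf_eq_one a
      rwa [ho a ha] at this
    have hb2 : b ^ 2 = 1 := by
      have := pow_orderOf_eq_one b
      rwa [ho b hb] at this
    have h1 : (a * b) ^ 2 = 1 := by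
      have hcomm : Commute a b := h
      rw [hcomm.mul_pow, ha2, hb2, one_mul]
    have h4 := orderOf_dvd_of_pow_eq_one h1
    rcases (Nat.dvd_prime Nat.prime_two).1 h4 with h5 | h5
    · exact h5
    · rw [h5] at hodd
      exact absurd hodd (by decide)
  · have h3 := h.2 hc
    have h4 := orderOf_dvd_of_pow_eq_one h3
    rcases (Nat.dvd_prime Nat.prime_three).1 h4 with h5 | h5
    · exact Or.inl h5
    · exact Or.inr h5
  · rw [h.1] at hodd
    exact absurd hodd (by decide)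


/-- Let F be a finite field of characteristic 2 and n a natural number. Then the transvections of SL_{n+3}(F) (so in every dimension at least 3) (the conjugates of the elementary matrices 1 + c E₁₂, c ≠ 0) form a class of root involutions of SL_{n+3}(F); when F has two elements they form a class of {3,4}⁺-transpositions (every product of odd order has order 1 or 3). -/
theorem result (F : Type*) [Field F] [Fintype F] [CharP F 2] (n : ℕ) :
    Cfsg.IsRootInvolutionClass {t : Matrix.SpecialLinearGroup (Fin (n + 3)) F | ∃ c : F, c ≠ 0 ∧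
        ∃ g : Matrix.SpecialLinearGroup (Fin (n + 3)) F, ((g⁻¹ * t * g : Matrix.SpecialLinearGroup (Fin (n + 3)) F) :
          Matrix (Fin (n + 3)) (Fin (n + 3)) F) = Matrix.transvection 0 1 c} ∧
    (Fintype.card F = 2 → Cfsg.IsThreeFourPlusTranspositionSet {t : Matrix.SpecialLinearGroup (Fin (n + 3)) F | ∃ c : F, c ≠ 0 ∧
        ∃ g : Matrix.SpecialLinearGroup (Fin (n + 3)) F, ((g⁻¹ * t * g : Matrix.SpecialLinearGroup (Fin (n + 3)) F) :
          Matrix (Fin (n + 3)) (Fin (n + 3)) F) = Matrix.transvection 0 1 c}) := by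
  classical
have h2val : ((2 : Fin (n + 3)) : ℕ) = 2 := Nat.mod_eq_of_lt (show 2 < n + 3 by omega)
have h1val : ((1 : Fin (n + 3)) : ℕ) = 1 := Nat.mod_eq_of_lt (show 1 < n + 3 by omega)
have h0val : ((0 : Fin (n + 3)) : ℕ) = 0 := rfl
have h01 : (0 : Fin (n + 3)) ≠ 1 := Fin.ne_of_val_ne (by rw [h0val, h1val]; omega)
have h02 : (0 : Fin (n + 3)) ≠ 2 := Fin.ne_of_val_ne (by rw [h0val, h2val]; omega)
have h12 : (1 : Fin (n + 3)) ≠ 2 := Fin.ne_of_val_ne (by rw [h1val, h2val]; omega)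
haveI : Nontrivial (Fin (n + 3)) := ⟨⟨0, 1, h01⟩⟩
obtain ⟨hne, hcl⟩ := class_set (F := F) h01 h02 h12
exact ⟨⟨root_set h01 h02 h12, hne, hcl⟩, three_four h01 h02 h12⟩

end Cfsg.Agent.S5058
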