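import Cfsg.Statements.S5067
import Cfsg.Agent.Lib.H24.NilpClass

set_option autoImplicit false
open Cfsg

namespace Cfsg.Agent.S5067

/-- Let P be a non-abelian nilpotent p-group (every element of p-power order; P possibly infinite) generated by two abelian subgroups E and F. Then the normal closure of E in P, and likewise that of F, has nilpotency class strictly smaller than that of P. -/
theorem result {P : Type*} [Group P] {p : ℕ} [Fact p.Prime] (hP : IsPGroup p P) [Group.IsNilpotent P]
    (hna : ¬ IsMulCommutative P) {E F : Subgroup P} (hE : IsMulCommutative ↥E) (hF : IsMulCommutative ↥F) (hgen : E ⊔ F = ⊤) :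
    Group.nilpotencyClass ↥(Subgroup.normalClosure (E : Set P)) < Group.nilpotencyClass P ∧
    Group.nilpotencyClass ↥(Subgroup.normalClosure (F : Set P)) < Group.nilpotencyClass P := by
  exact ⟨Cfsg.Agent.H24.class_normalClosure_lt hna hE, Cfsg.Agent.H24.class_normalClosure_lt hna hF⟩

end Cfsg.Agent.S5067
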