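import Cfsg.Statements.S5070
import Cfsg.Agent.Lib.H29.RootSL
import Cfsg.Agent.Lib.H03.SpGenF
-- import your own Cfsg.Agent.* helpers here

set_option autoImplicit false
open Matrix
open Cfsg

namespace Cfsg.Agent.S5070

open Matrix Cfsg.Agent.Lead

variable {F : Type*} [Field F] {l : Type} [Fintype l] [DecidableEq l]

/-- The group of transvections with centre `p`. -/
def TT (p : l ⊕ l → F) : Subgroup ↥(Matrix.symplecticGroup l F) :=
  Subgroup.closure {g : ↥(Matrix.symplecticGroup l F) | ∃ c : F, ∀ v : l ⊕ l → F,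
    (g : Matrix (l ⊕ l) (l ⊕ l) F) *ᵥ v = v + (c * (v ⬝ᵥ (Matrix.J l F *ᵥ p))) • p}

/-- The family of these groups. -/
def SS (l : Type) [Fintype l] [DecidableEq l] (F : Type*) [Field F] :
    Set (Subgroup ↥(Matrix.symplecticGroup l F)) :=
  {A | ∃ p : l ⊕ l → F, p ≠ 0 ∧ A = TT p}

theorem mem_TT {p : l ⊕ l → F} {x : ↥(Matrix.symplecticGroup l F)} :
    x ∈ TT p ↔ ∃ c : F, x = sympT p c := by
  constructor
  · intro hx
    induction hx using Subgroup.closure_induction with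
    | mem x hx =>
      obtain ⟨c, hc⟩ := hx
      refine ⟨c, Subtype.ext (mat_ext_mulVec fun v => ?_)⟩
      rw [hc, sympT_coe, sympTmat_mulVec]
      rfl
    | one => exact ⟨0, (sympT_zero p).symm⟩
    | mul x y _ _ hx hy =>
      obtain ⟨c, rfl⟩ := hx
      obtain ⟨d, rfl⟩ := hy
      exact ⟨c + d, sympT_mul_same p c d⟩
    | inv x _ hx =>
      obtain ⟨c, rfl⟩ := hx
      exact ⟨-c, sympT_inv p c⟩
  · rintro ⟨c, rfl⟩
    refine Subgroup.subset_closure ⟨c, fun v => ?_⟩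
    rw [sympT_coe, sympTmat_mulVec]
    rfl

theorem sympT_mem_TT (p : l ⊕ l → F) (c : F) : sympT p c ∈ TT p := mem_TT.2 ⟨c, rfl⟩

theorem sympT_ne_one {p : l ⊕ l → F} (hp : p ≠ 0) {c : F} (hc : c ≠ 0) : sympT p c ≠ 1 := by
  intro h
  obtain ⟨z, hz⟩ := sympForm_nondeg hp
  have h1 := congrArg (fun g : ↥(Matrix.symplecticGroup l F) => (g : Matrix (l ⊕ l) (l ⊕ l) F) *ᵥ z) h
  simp only [sympT_coe, sympTmat_mulVec] at h1
  have h2 : (1 : ↥(Matrix.symplecticGroup l F)).1 *ᵥ z = z := Matrix.one_mulVec z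
  rw [h2] at h1
  have h3 : (c * Cfsg.Agent.Lead.sympForm z p) • p = 0 := by simpa using h1
  rw [smul_eq_zero] at h3
  rcases h3 with h3 | h3
  · rw [sympForm_swap] at h3
    exact (mul_ne_zero hc (neg_ne_zero.2 hz)) h3
  · exact hp h3

theorem sympT_apply (u : l ⊕ l → F) (a : F) (x : l ⊕ l → F) :
    ((sympT u a : ↥(Matrix.symplecticGroup l F)) : Matrix (l ⊕ l) (l ⊕ l) F) *ᵥ x = x + (a * Cfsg.Agent.Lead.sympForm x u) • u :=
  sympTmat_mulVec u a x

theorem sp_mul_apply (g h : ↥(Matrix.symplecticGroup l F)) (v : l ⊕ l → F) :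
    ((g * h : ↥(Matrix.symplecticGroup l F)) : Matrix (l ⊕ l) (l ⊕ l) F) *ᵥ v =
      (g : Matrix (l ⊕ l) (l ⊕ l) F) *ᵥ ((h : Matrix (l ⊕ l) (l ⊕ l) F) *ᵥ v) := by
  rw [Matrix.mulVec_mulVec]
  rfl

theorem sp_ne_zero (g : ↥(Matrix.symplecticGroup l F)) {p : l ⊕ l → F} (hp : p ≠ 0) :
    (g : Matrix (l ⊕ l) (l ⊕ l) F) *ᵥ p ≠ 0 := by
  intro h
  apply hp
  have := sp_inv_mulVec' g p
  rw [h] at this
  rw [← this]
  exact Matrix.mulVec_zero _

theorem conjBy_TT (p : l ⊕ l → F) (g : ↥(Matrix.symplecticGroup l F)) :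
    Cfsg.conjBy (TT p) g = TT ((g : Matrix (l ⊕ l) (l ⊕ l) F) *ᵥ p) := by
  ext x
  constructor
  · rintro ⟨y, hy, rfl⟩
    obtain ⟨c, rfl⟩ := mem_TT.1 hy
    exact mem_TT.2 ⟨c, conj_sympT g p c⟩
  · intro hx
    obtain ⟨c, rfl⟩ := mem_TT.1 hx
    exact ⟨sympT p c, sympT_mem_TT p c, conj_sympT g p c⟩

theorem TT_smul {p : l ⊕ l → F} {a : F} (ha : a ≠ 0) : TT (a • p) = TT p := by
  ext x
  rw [mem_TT, mem_TT]
  constructor
  · rintro ⟨c, rfl⟩
    exact ⟨c * a ^ 2, sympT_smul a c p⟩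
  · rintro ⟨c, rfl⟩
    refine ⟨c * (a ^ 2)⁻¹, ?_⟩
    rw [sympT_smul, inv_mul_cancel_right₀ (pow_ne_zero 2 ha)]

theorem sympT_comm_of_zero {p q : l ⊕ l → F} (h : Cfsg.Agent.Lead.sympForm q p = 0) (c d : F) :
    sympT p c * sympT q d = sympT q d * sympT p c := by
  have h1 := conj_sympT (sympT p c) q d
  rw [sympT_apply, h, mul_zero, zero_smul, add_zero] at h1
  calc sympT p c * sympT q d = (sympT p c * sympT q d * (sympT p c)⁻¹) * sympT p c := by group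
    _ = sympT q d * sympT p c := by rw [h1]

theorem TT_comm {p : l ⊕ l → F} {a b : ↥(Matrix.symplecticGroup l F)} (ha : a ∈ TT p) (hb : b ∈ TT p) :
    a * b = b * a := by
  obtain ⟨x, rfl⟩ := mem_TT.1 ha
  obtain ⟨y, rfl⟩ := mem_TT.1 hb
  rw [sympT_mul_same, sympT_mul_same, add_comm]

theorem nilpotent_TT (p : l ⊕ l → F) : Group.IsNilpotent (TT p) :=
  Cfsg.Agent.H29.RootSL.nilpotent_of_comm fun a b => Subtype.ext (TT_comm a.2 b.2)

theorem rank_cond {p q : l ⊕ l → F} (hp : p ≠ 0) (hq : q ≠ 0) (h : Cfsg.Agent.Lead.sympForm p q ≠ 0) :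
    Cfsg.RankOneCondition (TT p) (TT q) := by
  intro a ha ha1
  obtain ⟨c, rfl⟩ := mem_TT.1 ha
  have hc : c ≠ 0 := by
    rintro rfl
    exact ha1 (sympT_zero p)
  set α := Cfsg.Agent.Lead.sympForm p q with hα
  have hd : (c * α ^ 2)⁻¹ ≠ 0 := inv_ne_zero (mul_ne_zero hc (pow_ne_zero 2 h))
  refine ⟨sympT q (-(c * α ^ 2)⁻¹), sympT_mem_TT _ _, sympT_ne_one hq (neg_ne_zero.2 hd), ?_⟩
  rw [conjBy_TT, conjBy_TT, sympT_inv, sympT_inv, sympT_apply, sympT_apply, neg_neg, ← hα, sympForm_swap q p, ← hα]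
  have e1 : p + ((c * α ^ 2)⁻¹ * α) • q = (c * α)⁻¹ • (q + (-c * -α) • p) := by
    have h3 : (c * α ^ 2)⁻¹ * α = (c * α)⁻¹ := by field_simp
    have h4 : (c * α)⁻¹ * (-c * -α) = 1 := by field_simp
    rw [h3, smul_add, smul_smul, h4, one_smul, add_comm]
  rw [e1]
  exact TT_smul (inv_ne_zero (mul_ne_zero hc h))

theorem TT_ne {p q : l ⊕ l → F} (hp : p ≠ 0) (h : Cfsg.Agent.Lead.sympForm p q ≠ 0) : TT p ≠ TT q := by
  intro he
  have h1 : sympT p 1 ∈ TT q := he ▸ sympT_mem_TT p 1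
  obtain ⟨c, hc⟩ := mem_TT.1 h1
  have h2 := congrArg (fun g : ↥(Matrix.symplecticGroup l F) => (g : Matrix (l ⊕ l) (l ⊕ l) F) *ᵥ q) hc
  simp only [sympT_apply, sympForm_self, mul_zero, zero_smul, add_zero, one_mul] at h2
  have h3 : Cfsg.Agent.Lead.sympForm q p • p = 0 := by simpa using h2
  rw [smul_eq_zero, sympForm_swap] at h3
  rcases h3 with h3 | h3
  · exact h (neg_eq_zero.1 h3)
  · exact hp h3

theorem rankOne_TT {p q : l ⊕ l → F} (hp : p ≠ 0) (hq : q ≠ 0) (h : Cfsg.Agent.Lead.sympForm p q ≠ 0) :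
    Cfsg.IsRankOnePair (TT p) (TT q) := by
  have h' : Cfsg.Agent.Lead.sympForm q p ≠ 0 := by
    rw [sympForm_swap]
    exact neg_ne_zero.2 h
  exact ⟨TT_ne hp h, nilpotent_TT p, nilpotent_TT q, rank_cond hp hq h, rank_cond hq hp h'⟩

theorem dot_eq_form (x y : l ⊕ l → F) : (Matrix.J l F *ᵥ y) ⬝ᵥ x = Cfsg.Agent.Lead.sympForm x y := by
  rw [dotProduct_comm]
  rfl

section PSL2

open Cfsg.Agent.H29.RootSL

variable {p q : l ⊕ l → F} (hα : Cfsg.Agent.Lead.sympForm p q ≠ 0)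

/-- first functional -/
noncomputable def ff (p q : l ⊕ l → F) : l ⊕ l → F := (-(Cfsg.Agent.Lead.sympForm p q))⁻¹ • (Matrix.J l F *ᵥ p)
/-- second functional -/
noncomputable def gg (p q : l ⊕ l → F) : l ⊕ l → F := (Cfsg.Agent.Lead.sympForm p q)⁻¹ • (Matrix.J l F *ᵥ q)

include hα

theorem gg_p : gg p q ⬝ᵥ p = 1 := by
  rw [gg, smul_dotProduct, dot_eq_form, smul_eq_mul, inv_mul_cancel₀ hα]

theorem gg_q : gg p q ⬝ᵥ q = 0 := by
  rw [gg, smul_dotProduct, dot_eq_form, sympForm_self, smul_zero]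

theorem ff_p : ff p q ⬝ᵥ p = 0 := by
  rw [ff, smul_dotProduct, dot_eq_form, sympForm_self, smul_zero]

theorem ff_q : ff p q ⬝ᵥ q = 1 := by
  rw [ff, smul_dotProduct, dot_eq_form, smul_eq_mul, sympForm_swap q p, inv_mul_cancel₀ (neg_ne_zero.2 hα)]

omit hα in
theorem tm_ff (c : F) : tm p (ff p q) c = sympTmat p (c * (-(Cfsg.Agent.Lead.sympForm p q))⁻¹) := by
  unfold tm sympTmat ff
  rw [vecMulVec_smul, smul_smul]

omit hα in
theorem tm_gg (c : F) : tm q (gg p q) c = sympTmat q (c * (Cfsg.Agent.Lead.sympForm p q)⁻¹) := by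
  unfold tm sympTmat gg
  rw [vecMulVec_smul, smul_smul]

theorem phiM_sp (M : Matrix.SpecialLinearGroup (Fin 2) F) :
    phiM p (ff p q) q (gg p q) (M : Matrix (Fin 2) (Fin 2) F) ∈ Matrix.symplecticGroup l F := by
  refine Cfsg.Agent.Lead.transvection_induction' (ι := Fin 2) (F := F)
    (fun M => phiM p (ff p q) q (gg p q) (M : Matrix (Fin 2) (Fin 2) F) ∈ Matrix.symplecticGroup l F) ?_ ?_ M
  · intro i j hij c
    have hcoe : ∀ a b : Fin 2, ((Matrix.SpecialLinearGroup.transvection hij c : Matrix.SpecialLinearGroup (Fin 2) F) : Matrix (Fin 2) (Fin 2) F) a b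
        = (1 + Matrix.single i j c : Matrix (Fin 2) (Fin 2) F) a b := fun _ _ => rfl
    fin_cases i <;> fin_cases j
    · exact absurd rfl hij
    · rw [phiM_upper (by rw [hcoe]; simp [Matrix.single_apply]) (by rw [hcoe]; simp [Matrix.single_apply])
        (by rw [hcoe]; simp [Matrix.single_apply]), tm_ff]
      exact sympTmat_mem _ _
    · rw [phiM_lower (by rw [hcoe]; simp [Matrix.single_apply]) (by rw [hcoe]; simp [Matrix.single_apply])
        (by rw [hcoe]; simp [Matrix.single_apply]), tm_gg]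
      exact sympTmat_mem _ _
    · exact absurd rfl hij
  · intro A B hA hB
    rw [Matrix.SpecialLinearGroup.coe_mul, phiM_mul (gg_p hα) (gg_q hα) (ff_p hα) (ff_q hα)]
    exact Submonoid.mul_mem _ hA hB

/-- The homomorphism into `Sp`. -/
noncomputable def phiSp : Matrix.SpecialLinearGroup (Fin 2) F →* ↥(Matrix.symplecticGroup l F) :=
  MonoidHom.mk' (fun M => ⟨phiM p (ff p q) q (gg p q) (M : Matrix (Fin 2) (Fin 2) F), phiM_sp hα M⟩)
    (fun M N => Subtype.ext (by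
      show phiM p (ff p q) q (gg p q) ((M * N : Matrix.SpecialLinearGroup (Fin 2) F) : Matrix (Fin 2) (Fin 2) F) = _
      rw [Matrix.SpecialLinearGroup.coe_mul, phiM_mul (gg_p hα) (gg_q hα) (ff_p hα) (ff_q hα)]
      rfl))

theorem coe_phiSp (M : Matrix.SpecialLinearGroup (Fin 2) F) :
    ((phiSp hα M : ↥(Matrix.symplecticGroup l F)) : Matrix (l ⊕ l) (l ⊕ l) F) =
      phiM p (ff p q) q (gg p q) (M : Matrix (Fin 2) (Fin 2) F) := rfl

theorem phiSp_inj : Function.Injective (phiSp (l := l) hα) := by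
  intro M N h
  apply phi_injective (ι := l ⊕ l) (gg_p hα) (gg_q hα) (ff_p hα) (ff_q hα)
  apply Subtype.ext
  have := congrArg Subtype.val h
  exact this

theorem map_upper_Sp : (Cfsg.upperUnipotentSL2 F).map (phiSp hα) = TT p := by
  unfold Cfsg.upperUnipotentSL2
  rw [MonoidHom.map_closure]
  apply le_antisymm
  · rw [Subgroup.closure_le]
    rintro _ ⟨M, ⟨h1, h2, h3⟩, rfl⟩
    apply mem_TT.2
    refine ⟨M.1 0 1 * (-(Cfsg.Agent.Lead.sympForm p q))⁻¹, Subtype.ext ?_⟩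
    rw [coe_phiSp, phiM_upper h1 h2 h3, tm_ff]
    rfl
  · intro x hx
    obtain ⟨c, rfl⟩ := mem_TT.1 hx
    apply Subgroup.subset_closure
    let M : Matrix.SpecialLinearGroup (Fin 2) F := ⟨!![1, c * (-(Cfsg.Agent.Lead.sympForm p q)); 0, 1], by simp [Matrix.det_fin_two]⟩
    refine ⟨M, ⟨by simp [M], by simp [M], by simp [M]⟩, Subtype.ext ?_⟩
    rw [coe_phiSp, phiM_upper (by simp [M]) (by simp [M]) (by simp [M]), tm_ff]
    have : (M : Matrix (Fin 2) (Fin 2) F) 0 1 = c * (-(Cfsg.Agent.Lead.sympForm p q)) := by simp [M]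
    rw [this, mul_inv_cancel_right₀ (neg_ne_zero.2 hα)]
    rfl

theorem map_lower_Sp : (Cfsg.lowerUnipotentSL2 F).map (phiSp hα) = TT q := by
  unfold Cfsg.lowerUnipotentSL2
  rw [MonoidHom.map_closure]
  apply le_antisymm
  · rw [Subgroup.closure_le]
    rintro _ ⟨M, ⟨h1, h2, h3⟩, rfl⟩
    apply mem_TT.2
    refine ⟨M.1 1 0 * (Cfsg.Agent.Lead.sympForm p q)⁻¹, Subtype.ext ?_⟩
    rw [coe_phiSp, phiM_lower h1 h2 h3, tm_gg]
    rfl
  · intro x hx
    obtain ⟨c, rfl⟩ := mem_TT.1 hx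
    apply Subgroup.subset_closure
    let M : Matrix.SpecialLinearGroup (Fin 2) F := ⟨!![1, 0; c * (Cfsg.Agent.Lead.sympForm p q), 1], by simp [Matrix.det_fin_two]⟩
    refine ⟨M, ⟨by simp [M], by simp [M], by simp [M]⟩, Subtype.ext ?_⟩
    rw [coe_phiSp, phiM_lower (by simp [M]) (by simp [M]) (by simp [M]), tm_gg]
    have : (M : Matrix (Fin 2) (Fin 2) F) 1 0 = c * (Cfsg.Agent.Lead.sympForm p q) := by simp [M]
    rw [this, mul_inv_cancel_right₀ hα]
    rfl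

theorem psl2_TT : Cfsg.IsPSL2PairOver F (TT p) (TT q) := by
  refine ⟨phiSp hα, ?_, ?_, map_upper_Sp hα, map_lower_Sp hα⟩
  · rw [← map_upper_Sp hα, ← map_lower_Sp hα, ← Subgroup.map_sup, upper_sup_lower,
      MonoidHom.range_eq_map]
  · rw [(MonoidHom.ker_eq_bot_iff _).2 (phiSp_inj hα)]
    exact bot_le

end PSL2

theorem commute_form_zero {r p : l ⊕ l → F} (hr : r ≠ 0) {d e : F} (hd : d ≠ 0) (he : e ≠ 0)
    (h : sympT r d * sympT p e = sympT p e * sympT r d) : Cfsg.Agent.Lead.sympForm r p = 0 := by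
  have h1 := congrArg (fun g : ↥(Matrix.symplecticGroup l F) => (g : Matrix (l ⊕ l) (l ⊕ l) F) *ᵥ r) h
  simp only [Submonoid.coe_mul, ← Matrix.mulVec_mulVec, sympT_apply, sympForm_self, mul_zero, zero_smul,
    add_zero, sympForm_add_left, sympForm_smul_left] at h1
  have h2 : (d * (e * Cfsg.Agent.Lead.sympForm r p * Cfsg.Agent.Lead.sympForm p r)) • r = 0 := by
    have h3 := h1
    simp only [add_assoc] at h3
    have h4 := add_left_cancel h3
    simpa [add_comm] using h4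
  rw [smul_eq_zero] at h2
  rcases h2 with h2 | h2
  · have h3 : Cfsg.Agent.Lead.sympForm r p * Cfsg.Agent.Lead.sympForm p r = 0 := by
      have h4 := mul_eq_zero.1 h2
      rcases h4 with h4 | h4
      · exact absurd h4 hd
      · rw [mul_assoc] at h4
        rcases mul_eq_zero.1 h4 with h5 | h5
        · exact absurd h5 he
        · exact h5
    rw [sympForm_swap p r] at h3
    rcases mul_eq_zero.1 h3 with h4 | h4
    · exact h4
    · exact neg_eq_zero.1 h4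
  · exact absurd h2 hr

theorem not_comm_case {p q : l ⊕ l → F} (hp : p ≠ 0) (hq : q ≠ 0) (S : Set (Subgroup ↥(Matrix.symplecticGroup l F)))
    (hS : S ⊆ SS l F) : ¬ Cfsg.RootCommutatorCase S (TT p) (TT q) := by
  rintro ⟨h1, h2, -, -⟩
  by_cases hα : Cfsg.Agent.Lead.sympForm p q = 0
  · obtain ⟨r, hr, hrT⟩ := hS h1
    have hbot : ⁅TT p, TT q⁆ = ⊥ := by
      rw [Subgroup.commutator_eq_bot_iff_le_centralizer]
      intro a ha
      obtain ⟨x, rfl⟩ := mem_TT.1 ha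
      rw [Subgroup.mem_centralizer_iff]
      intro b hb
      obtain ⟨y, rfl⟩ := mem_TT.1 hb
      exact sympT_comm_of_zero hα y x
    rw [hbot] at hrT
    have h3 : sympT r 1 ∈ TT r := sympT_mem_TT r 1
    rw [← hrT, Subgroup.mem_bot] at h3
    exact sympT_ne_one hr one_ne_zero h3
  · obtain ⟨r, hr, hrT⟩ := hS h1
    set a := sympT p (1 : F) with ha
    set b := sympT q (1 : F) with hb
    have hcm : a * b * a⁻¹ * b⁻¹ ∈ ⁅TT p, TT q⁆ :=
      Subgroup.commutator_mem_commutator (sympT_mem_TT p 1) (sympT_mem_TT q 1)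
    rw [hrT] at hcm
    obtain ⟨d, hd⟩ := mem_TT.1 hcm
    have hcen : ∀ x ∈ TT p ⊔ TT q, a * b * a⁻¹ * b⁻¹ * x = x * (a * b * a⁻¹ * b⁻¹) := by
      intro x hx
      refine h2 _ ?_ x hx
      rw [hrT]
      exact mem_TT.2 ⟨d, hd⟩
    have hfix : ∀ u : l ⊕ l → F, u ≠ 0 → u ∈ ({p, q} : Set (l ⊕ l → F)) →
        ((a * b * a⁻¹ * b⁻¹ : ↥(Matrix.symplecticGroup l F)) : Matrix (l ⊕ l) (l ⊕ l) F) *ᵥ u = u := by
      intro u hu hmem
      rw [hd]
      by_cases hd0 : d = 0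
      · rw [sympT_apply, hd0]
        simp
      · have hmemx : sympT u (1 : F) ∈ TT p ⊔ TT q := by
          rcases hmem with rfl | hmem
          · exact Subgroup.mem_sup_left (sympT_mem_TT _ _)
          · rw [Set.mem_singleton_iff] at hmem
            subst hmem
            exact Subgroup.mem_sup_right (sympT_mem_TT _ _)
        have h3 := hcen _ hmemx
        rw [hd] at h3
        have h4 := commute_form_zero hr hd0 one_ne_zero h3
        rw [sympT_apply, sympForm_swap, h4]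
        simp
    have hkey : a * b = (a * b * a⁻¹ * b⁻¹) * (b * a) := by group
    have h5 : ((a * b : ↥(Matrix.symplecticGroup l F)) : Matrix (l ⊕ l) (l ⊕ l) F) *ᵥ p =
        ((a * b * a⁻¹ * b⁻¹ : ↥(Matrix.symplecticGroup l F)) : Matrix (l ⊕ l) (l ⊕ l) F) *ᵥ
          ((b : Matrix (l ⊕ l) (l ⊕ l) F) *ᵥ ((a : Matrix (l ⊕ l) (l ⊕ l) F) *ᵥ p)) := by
      rw [← sp_mul_apply b a, ← sp_mul_apply, ← hkey]
    rw [sp_mul_apply a b] at h5
    have ha1 : (a : Matrix (l ⊕ l) (l ⊕ l) F) *ᵥ p = p := by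
      rw [ha, sympT_apply, sympForm_self]
      simp
    have hb1 : (b : Matrix (l ⊕ l) (l ⊕ l) F) *ᵥ p = p + Cfsg.Agent.Lead.sympForm p q • q := by
      rw [hb, sympT_apply, one_mul]
    have hfixp := hfix p hp (Set.mem_insert _ _)
    have hfixq := hfix q hq (Set.mem_insert_of_mem _ rfl)
    rw [ha1, hb1, Matrix.mulVec_add, Matrix.mulVec_smul, Matrix.mulVec_add, Matrix.mulVec_smul, hfixp, hfixq, ha1,
      ha, sympT_apply, one_mul] at h5
    have h6 : (Cfsg.Agent.Lead.sympForm p q * Cfsg.Agent.Lead.sympForm q p) • p = 0 := by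
      have h7 : p + Cfsg.Agent.Lead.sympForm p q • q + (Cfsg.Agent.Lead.sympForm p q * Cfsg.Agent.Lead.sympForm q p) • p
          = p + Cfsg.Agent.Lead.sympForm p q • q := by
        refine Eq.trans ?_ h5
        module
      simpa using h7
    rw [smul_eq_zero] at h6
    rcases h6 with h6 | h6
    · rw [sympForm_swap q p] at h6
      exact (mul_ne_zero hα (neg_ne_zero.2 hα)) h6
    · exact hp h6

theorem exists_both_ne {p q : l ⊕ l → F} (hp : p ≠ 0) (hq : q ≠ 0) :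
    ∃ z : l ⊕ l → F, Cfsg.Agent.Lead.sympForm p z ≠ 0 ∧ Cfsg.Agent.Lead.sympForm q z ≠ 0 := by
  obtain ⟨z₁, h₁⟩ := sympForm_nondeg hp
  obtain ⟨z₂, h₂⟩ := sympForm_nondeg hq
  by_cases h3 : Cfsg.Agent.Lead.sympForm q z₁ = 0
  · by_cases h4 : Cfsg.Agent.Lead.sympForm p z₂ = 0
    · refine ⟨z₁ + z₂, ?_, ?_⟩
      · rwa [sympForm_add_right, h4, add_zero]
      · rwa [sympForm_add_right, h3, zero_add]
    · exact ⟨z₂, h4, h₂⟩
  · exact ⟨z₁, h₁, h3⟩

theorem connected_SS : Cfsg.IsConnectedFamily (Cfsg.FAdj (SS l F)) (SS l F) := by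
  rintro A ⟨p, hp, rfl⟩ B ⟨q, hq, rfl⟩
  obtain ⟨z, hz1, hz2⟩ := exists_both_ne hp hq
  have hz0 : z ≠ 0 := by
    rintro rfl
    apply hz1
    have := sympForm_smul_right (0 : F) p (0 : l ⊕ l → F)
    simpa using this
  have hmem : ∀ u : l ⊕ l → F, u ≠ 0 → TT u ∈ SS l F := fun u hu => ⟨u, hu, rfl⟩
  have hz2' : Cfsg.Agent.Lead.sympForm z q ≠ 0 := by
    rw [sympForm_swap]
    exact neg_ne_zero.2 hz2
  exact Relation.ReflTransGen.tail (Relation.ReflTransGen.single (b := TT z)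
    ⟨hmem p hp, hmem z hz0, rankOne_TT hp hz0 hz1⟩) ⟨hmem z hz0, hmem q hq, rankOne_TT hz0 hq hz2'⟩

theorem pair_SS {p q : l ⊕ l → F} (hp : p ≠ 0) (hq : q ≠ 0) :
    ⁅TT p, TT q⁆ = ⊥ ∨ Cfsg.IsRankOnePair (TT p) (TT q) := by
  by_cases hα : Cfsg.Agent.Lead.sympForm p q = 0
  · left
    rw [Subgroup.commutator_eq_bot_iff_le_centralizer]
    intro a ha
    obtain ⟨x, rfl⟩ := mem_TT.1 ha
    rw [Subgroup.mem_centralizer_iff]
    intro b hb
    obtain ⟨y, rfl⟩ := mem_TT.1 hb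
    exact sympT_comm_of_zero hα y x
  · right
    exact rankOne_TT hp hq hα

theorem root_SS (m : ℕ) : Cfsg.IsRootSubgroupSet (SS (Fin m) F) where
  commutative := by
    rintro A ⟨p, hp, rfl⟩
    exact ⟨⟨fun a b => Subtype.ext (TT_comm a.2 b.2)⟩⟩
  ne_bot := by
    rintro A ⟨p, hp, rfl⟩ hbot
    have h1 : sympT p 1 ∈ TT p := sympT_mem_TT p 1
    rw [hbot, Subgroup.mem_bot] at h1
    exact sympT_ne_one hp one_ne_zero h1
  generates := by
    rw [eq_top_iff, ← Cfsg.Agent.H03.SpF.spTransGroup_eq_topF m, spTransGroup, Subgroup.closure_le]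
    rintro _ ⟨⟨u, a⟩, rfl⟩
    by_cases hu : u = 0
    · subst hu
      show sympT (0 : Fin m ⊕ Fin m → F) a ∈ _
      rw [sympT_zero_vec]
      exact one_mem _
    · have hF : TT u ∈ SS (Fin m) F := ⟨u, hu, rfl⟩
      exact (le_iSup₂_of_le (f := fun (A : Subgroup ↥(Matrix.symplecticGroup (Fin m) F)) (_ : A ∈ SS (Fin m) F) => A) _ hF le_rfl) (sympT_mem_TT u a)
  conj_mem := by
    rintro A ⟨p, hp, rfl⟩ g
    rw [conjBy_TT]
    exact ⟨_, sp_ne_zero g hp, rfl⟩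
  pair := by
    rintro A ⟨p, hp, rfl⟩ B ⟨q, hq, rfl⟩
    rcases pair_SS hp hq with h | h
    · exact Or.inl h
    · exact Or.inr (Or.inl h)

theorem class_SS (m : ℕ) : Cfsg.IsConjClassOfSubgroups (SS (Fin (m + 1)) F) := by
  constructor
  · refine ⟨_, Pi.single (Sum.inl 0) 1, Pi.single_ne_zero_iff.2 one_ne_zero, rfl⟩
  · rintro A ⟨p, hp, rfl⟩ B ⟨q, hq, rfl⟩
    obtain ⟨g, hg⟩ := sp_transitive hp hq
    refine ⟨g, ?_⟩
    rw [conjBy_TT, hg]

theorem not_rank_of_zero {p q : l ⊕ l → F} (hp : p ≠ 0) (hα : Cfsg.Agent.Lead.sympForm p q = 0) :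
    ¬ Cfsg.IsRankOnePair (TT p) (TT q) := by
  intro h
  obtain ⟨b, hb, -, hb2⟩ := h.cond_left (sympT p 1) (sympT_mem_TT _ _) (sympT_ne_one hp one_ne_zero)
  obtain ⟨y, rfl⟩ := mem_TT.1 hb
  rw [conjBy_TT, conjBy_TT, sympT_inv, sympT_inv, sympT_apply, sympT_apply, hα, sympForm_swap q p, hα] at hb2
  simp only [mul_zero, neg_zero, zero_smul, add_zero] at hb2
  exact h.ne hb2

theorem kroot_SS (m : ℕ) : Cfsg.IsKRootSubgroupSet F (SS (Fin m) F) := by
  refine ⟨root_SS m, ?_⟩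
  rintro A ⟨p, hp, rfl⟩ B ⟨q, hq, rfl⟩ h
  by_cases hα : Cfsg.Agent.Lead.sympForm p q = 0
  · exact absurd h (not_rank_of_zero hp hα)
  · exact psl2_TT hα


/-- Let F be a field, m a natural number and V = F^{2(m+1)} with the standard non-degenerate alternating form f(u, v) = uᵀ J v. For a non-zero vector p let T(p) be the group of symplectic transvections v ↦ v + c f(v, p) p, c ∈ F. Then the subgroups T(p), p ≠ 0, generate the symplectic group Sp_{2(m+1)}(F) and form a degenerate class of abstract F-root subgroups of it (any two of them either commute elementwise or are the unipotent subgroups of a rank one group that is an image of SL₂(F) with central kernel, never the commutator case), and their graph of rank one pairs is connected. -/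
theorem result (F : Type*) [Field F] (m : ℕ) :
    Cfsg.IsRootSubgroupClass {A : Subgroup ↥(Matrix.symplecticGroup (Fin (m + 1)) F) | ∃ p : Fin (m + 1) ⊕ Fin (m + 1) → F, p ≠ 0 ∧
        A = Subgroup.closure {g : ↥(Matrix.symplecticGroup (Fin (m + 1)) F) | ∃ c : F, ∀ v : Fin (m + 1) ⊕ Fin (m + 1) → F,
          (g : Matrix (Fin (m + 1) ⊕ Fin (m + 1)) (Fin (m + 1) ⊕ Fin (m + 1)) F) *ᵥ v =
            v + (c * (v ⬝ᵥ (Matrix.J (Fin (m + 1)) F *ᵥ p))) • p}} ∧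
    Cfsg.IsDegenerateRootSet {A : Subgroup ↥(Matrix.symplecticGroup (Fin (m + 1)) F) | ∃ p : Fin (m + 1) ⊕ Fin (m + 1) → F, p ≠ 0 ∧
        A = Subgroup.closure {g : ↥(Matrix.symplecticGroup (Fin (m + 1)) F) | ∃ c : F, ∀ v : Fin (m + 1) ⊕ Fin (m + 1) → F,
          (g : Matrix (Fin (m + 1) ⊕ Fin (m + 1)) (Fin (m + 1) ⊕ Fin (m + 1)) F) *ᵥ v =
            v + (c * (v ⬝ᵥ (Matrix.J (Fin (m + 1)) F *ᵥ p))) • p}} ∧
    Cfsg.IsKRootSubgroupSet F {A : Subgroup ↥(Matrix.symplecticGroup (Fin (m + 1)) F) | ∃ p : Fin (m + 1) ⊕ Fin (m + 1) → F, p ≠ 0 ∧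
        A = Subgroup.closure {g : ↥(Matrix.symplecticGroup (Fin (m + 1)) F) | ∃ c : F, ∀ v : Fin (m + 1) ⊕ Fin (m + 1) → F,
          (g : Matrix (Fin (m + 1) ⊕ Fin (m + 1)) (Fin (m + 1) ⊕ Fin (m + 1)) F) *ᵥ v =
            v + (c * (v ⬝ᵥ (Matrix.J (Fin (m + 1)) F *ᵥ p))) • p}} ∧
    Cfsg.IsConnectedFamily (Cfsg.FAdj {A : Subgroup ↥(Matrix.symplecticGroup (Fin (m + 1)) F) | ∃ p : Fin (m + 1) ⊕ Fin (m + 1) → F, p ≠ 0 ∧
        A = Subgroup.closure {g : ↥(Matrix.symplecticGroup (Fin (m + 1)) F) | ∃ c : F, ∀ v : Fin (m + 1) ⊕ Fin (m + 1) → F,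
          (g : Matrix (Fin (m + 1) ⊕ Fin (m + 1)) (Fin (m + 1) ⊕ Fin (m + 1)) F) *ᵥ v =
            v + (c * (v ⬝ᵥ (Matrix.J (Fin (m + 1)) F *ᵥ p))) • p}})
      {A : Subgroup ↥(Matrix.symplecticGroup (Fin (m + 1)) F) | ∃ p : Fin (m + 1) ⊕ Fin (m + 1) → F, p ≠ 0 ∧
        A = Subgroup.closure {g : ↥(Matrix.symplecticGroup (Fin (m + 1)) F) | ∃ c : F, ∀ v : Fin (m + 1) ⊕ Fin (m + 1) → F,
          (g : Matrix (Fin (m + 1) ⊕ Fin (m + 1)) (Fin (m + 1) ⊕ Fin (m + 1)) F) *ᵥ v =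
            v + (c * (v ⬝ᵥ (Matrix.J (Fin (m + 1)) F *ᵥ p))) • p}} := by
  exact ⟨⟨root_SS (m + 1), class_SS m⟩, fun A hA B hB => by
    obtain ⟨p, hp, rfl⟩ := hA
    obtain ⟨q, hq, rfl⟩ := hB
    exact not_comm_case hp hq _ (fun _ h => h), kroot_SS (m + 1), connected_SS⟩

end Cfsg.Agent.S5070
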