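import Cfsg.Statements.S5094
import Cfsg.Agent.Lib.H15.ZStarGen

set_option autoImplicit false
set_option linter.style.haveILetI false
open Cfsg

namespace Cfsg.Agent.S5094

open Cfsg.Agent.H15

/-- Glauberman's Z*-Theorem in fusion language: for a finite group G with Sylow 2-subgroup S, the centre of the fusion system of G on S is the set of elements of S whose image in G/O(G) is central, O(G) being the largest normal subgroup of odd order. -/
theorem result {G : Type*} [Group G] [Finite G] (S : Sylow 2 G) : (Cfsg.groupFusionSystem (S : Subgroup G)).center = (S : Subgroup G) ⊓ (Subgroup.center (G ⧸ Cfsg.oddCore G)).comap (QuotientGroup.mk' (Cfsg.oddCore G)) := by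
  classical
  haveI hp2 : Fact (Nat.Prime 2) := ⟨Nat.prime_two⟩
  set O := oddCore G with hO
  set π : G →* G ⧸ O := QuotientGroup.mk' O with hπ
  set Z : Subgroup G := (S : Subgroup G) ⊓ (Subgroup.center (G ⧸ O)).comap π with hZ
  have hZmem : ∀ x ∈ Z, ∀ g : G, g * x * g⁻¹ * x⁻¹ ∈ O := by
    intro x hx g
    have h1 : π x ∈ Subgroup.center (G ⧸ O) := hx.2
    have h2 := (Subgroup.mem_center_iff.mp h1) (π g)
    have h3 : π (g * x * g⁻¹ * x⁻¹) = 1 := by
      rw [map_mul, map_mul, map_mul, map_inv, map_inv, h2]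
      group
    exact (QuotientGroup.eq_one_iff _).mp h3
  apply le_antisymm
  · refine sSup_le fun Q hQ => ?_
    obtain ⟨hQS, hext⟩ := hQ
    have hWC : ∀ q ∈ Q, ∀ g : G, g * q * g⁻¹ ∈ (S : Subgroup G) → g * q * g⁻¹ = q := by
      intro q hq g hg
      have hPS : Subgroup.zpowers q ≤ (S : Subgroup G) := Subgroup.zpowers_le.mpr (hQS hq)
      have hφ : conjHom (Subgroup.zpowers q) g ∈ (groupFusionSystem (S : Subgroup G)).Hom (Subgroup.zpowers q) := by
        refine ⟨hPS, ?_, g, fun x => rfl⟩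
        rintro ⟨_, n, rfl⟩
        show g * q ^ n * g⁻¹ ∈ (S : Subgroup G)
        rw [← conj_zpow]
        exact Subgroup.zpow_mem _ hg n
      obtain ⟨ψ, -, h1, h2⟩ := hext _ _ hφ
      have h3 := h1 ⟨q, Subgroup.mem_zpowers q⟩
      have h4 := h2 ⟨q, hq⟩
      have h5 : Subgroup.inclusion (le_sup_left : Subgroup.zpowers q ≤ Subgroup.zpowers q ⊔ Q)
          ⟨q, Subgroup.mem_zpowers q⟩ = Subgroup.inclusion (le_sup_right : Q ≤ Subgroup.zpowers q ⊔ Q) ⟨q, hq⟩ :=
        Subtype.ext rfl
      rw [h5, h4] at h3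
      exact h3.symm
    have h1 := wc_mod_odd S Q hQS hWC
    intro q hq
    refine ⟨hQS hq, ?_⟩
    show π q ∈ Subgroup.center (G ⧸ O)
    rw [Subgroup.mem_center_iff]
    intro b
    obtain ⟨g, rfl⟩ := QuotientGroup.mk'_surjective O b
    have h2 := h1 q hq g
    have h3 : π (q * g * q⁻¹ * g⁻¹) = 1 := (QuotientGroup.eq_one_iff _).mpr h2
    have h4 : π q * π g = π g * π q := by
      rw [map_mul, map_mul, map_mul, map_inv, map_inv] at h3
      calc π q * π g = (π q * π g * (π q)⁻¹ * (π g)⁻¹) * (π g * π q) := by group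
        _ = π g * π q := by rw [h3, one_mul]
    exact h4.symm
  · refine le_sSup ⟨inf_le_left, ?_⟩
    rintro P φ ⟨hPS, hφS, g, hg⟩
    have hPZ : P ⊔ Z ≤ (S : Subgroup G) := sup_le hPS inf_le_left
    set D : Subgroup G := (P ⊔ Z).map (MulAut.conj g).toMonoidHom with hD
    have hDp : IsPGroup 2 D := (S.isPGroup'.to_le hPZ).map _
    have hDle : D ≤ (S : Subgroup G) ⊔ O := by
      rw [hD, Subgroup.map_le_iff_le_comap]
      apply sup_le
      · intro x hx
        have h1 := hφS ⟨x, hx⟩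
        rw [hg] at h1
        exact Subgroup.mem_sup_left h1
      · intro x hx
        have h1 := hZmem x hx g
        show g * x * g⁻¹ ∈ (S : Subgroup G) ⊔ O
        have h2 : g * x * g⁻¹ = (g * x * g⁻¹ * x⁻¹) * x := by group
        rw [h2]
        exact Subgroup.mul_mem _ (Subgroup.mem_sup_right h1) (Subgroup.mem_sup_left hx.1)
    obtain ⟨c, hc, hcd⟩ := exists_conj_le_sylow_of_le ((S : Subgroup G) ⊔ O) D S le_sup_left hDle hDp
    obtain ⟨s, hs, o, ho, rfl⟩ := Subgroup.mem_sup_of_normal_right.mp hc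
    have hod : ∀ d ∈ D, o * d * o⁻¹ ∈ (S : Subgroup G) := by
      intro d hd
      have h5 := Subgroup.mul_mem _ (Subgroup.mul_mem _ (Subgroup.inv_mem _ hs) (hcd d hd)) hs
      convert h5 using 1
      group
    have hSO : ∀ {t : G}, t ∈ (S : Subgroup G) → t ∈ O → t = 1 := fun ht ht' =>
      sylow_inf_oddCore S.isPGroup' ht ht'
    refine ⟨conjHom (P ⊔ Z) (o * g), ⟨hPZ, ?_, o * g, fun x => rfl⟩, ?_, ?_⟩
    · rintro ⟨x, hx⟩
      show (o * g) * x * (o * g)⁻¹ ∈ (S : Subgroup G)
      have := hod (g * x * g⁻¹) ⟨x, hx, rfl⟩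
      convert this using 1
      group
    · intro x
      show (o * g) * (x : G) * (o * g)⁻¹ = φ x
      have h1 := hg x
      set r := g * (x : G) * g⁻¹ with hr
      have hrS : r ∈ (S : Subgroup G) := by rw [← h1]; exact hφS x
      have h2 : o * r * o⁻¹ ∈ (S : Subgroup G) :=
        hod r ⟨x, Subgroup.mem_sup_left x.2, rfl⟩
      have h3 : o * r * o⁻¹ * r⁻¹ ∈ O := by
        have h4 : r * o⁻¹ * r⁻¹ ∈ O := (inferInstance : O.Normal).conj_mem _ (O.inv_mem ho) r
        have h5 := O.mul_mem ho h4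
        convert h5 using 1
        group
      have h6 := hSO (Subgroup.mul_mem _ h2 (Subgroup.inv_mem _ hrS)) h3
      have h7 : o * r * o⁻¹ = r := mul_inv_eq_one.mp h6
      rw [h1]
      calc (o * g) * (x : G) * (o * g)⁻¹ = o * r * o⁻¹ := by rw [hr]; group
        _ = r := h7
    · intro x
      show (o * g) * (x : G) * (o * g)⁻¹ = x
      have hxS : (x : G) ∈ (S : Subgroup G) := x.2.1
      have h2 : (o * g) * (x : G) * (o * g)⁻¹ ∈ (S : Subgroup G) := by
        have := hod (g * x * g⁻¹) ⟨x, Subgroup.mem_sup_right x.2, rfl⟩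
        convert this using 1
        group
      have h3 := hZmem x x.2 (o * g)
      have h6 := hSO (Subgroup.mul_mem _ h2 (Subgroup.inv_mem _ hxS)) h3
      exact mul_inv_eq_one.mp h6

end Cfsg.Agent.S5094
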