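import Cfsg.Statements.S5345
import Cfsg.Agent.Lib.H25.ThreeT

set_option autoImplicit false
open Cfsg

namespace Cfsg.Agent.S5345

open H25

theorem result {G : Type*} [Group G] [Finite G] {D : Set G} (hD : Cfsg.IsThreeTranspositionGroup D) (T : Sylow 2 G) : IsMulCommutative (Subgroup.closure {d : G | d ∈ D ∧ d ∈ T}) ∧ {d : G | d ∈ D ∧ d ∈ T}.ncard = Cfsg.commutingWidth D := by
  classical
  have : Fact (Nat.Prime 2) := ⟨Nat.prime_two⟩
  obtain ⟨⟨hord, hprod⟩, hconj, hgen⟩ := hD
  have hcomm : ∀ x ∈ {d : G | d ∈ D ∧ d ∈ T}, ∀ y ∈ {d : G | d ∈ D ∧ d ∈ T}, x * y = y * x := by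
    rintro a ⟨haD, haT⟩ b ⟨hbD, hbT⟩
    refine commute_of_three_of_two (mul_self_of_order_two (hord a haD))
      (mul_self_of_order_two (hord b hbD)) (hprod a haD b hbD) ?_
    have hT2 := T.isPGroup'
    obtain ⟨k, hk⟩ := hT2 ⟨a * b, T.mul_mem haT hbT⟩
    refine ⟨k, ?_⟩
    have := congrArg Subtype.val hk
    simpa only [Subgroup.coe_pow, Subgroup.coe_one] using this
  refine ⟨closure_isMulCommutative hcomm, ?_⟩
  -- width
  have hgreatest : IsGreatest {n : ℕ | ∃ E : Set G, E ⊆ D ∧ E.Finite ∧ (∀ a ∈ E, ∀ b ∈ E, Commute a b) ∧ E.ncard = n} ({d : G | d ∈ D ∧ d ∈ T}.ncard) := by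
    constructor
    · exact ⟨{d : G | d ∈ D ∧ d ∈ T}, fun x hx => hx.1, Set.toFinite _, fun a ha b hb => hcomm a ha b hb, rfl⟩
    · rintro n ⟨E, hED, hEfin, hEcomm, rfl⟩
      -- the closure of E is a 2-group
      let H := Subgroup.closure E
      have hHcomm := closure_isMulCommutative (k := E) (fun x hx y hy => hEcomm x hx y hy)
      have hH2 : ∀ x ∈ H, x ^ 2 = 1 := by
        intro x hx
        induction hx using Subgroup.closure_induction with
        | mem x hx =>
          rw [pow_two]; exact mul_self_of_order_two (hord x (hED hx))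
        | one => simp
        | mul x y hx hy ihx ihy =>
          have hxy : (⟨x, hx⟩ : H) * ⟨y, hy⟩ = ⟨y, hy⟩ * ⟨x, hx⟩ := hHcomm.is_comm.comm _ _
          have hxy' : x * y = y * x := congrArg Subtype.val hxy
          have hc : Commute x y := hxy'
          rw [hc.mul_pow, ihx, ihy, one_mul]
        | inv x hx ih => simp [ih]
      have hHp : IsPGroup 2 H := by
        intro x
        refine ⟨1, ?_⟩
        apply Subtype.ext
        simpa using hH2 x x.2
      obtain ⟨T', hT'⟩ := hHp.exists_le_sylow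
      obtain ⟨g, hg⟩ := MulAction.exists_smul_eq G T' T
      -- conjugation by g sends E into D ∩ T
      have hinj : Function.Injective (fun x : G => g * x * g⁻¹) := by
        intro x y hxy
        have : g * x * g⁻¹ = g * y * g⁻¹ := hxy
        simpa using this
      have hsub : (fun x : G => g * x * g⁻¹) '' E ⊆ {d : G | d ∈ D ∧ d ∈ T} := by
        rintro _ ⟨e, he, rfl⟩
        refine ⟨hconj g e (hED he), ?_⟩
        have h1 : e ∈ T' := hT' (Subgroup.subset_closure he)
        have h2 : g * e * g⁻¹ ∈ ((g • T' : Sylow 2 G) : Subgroup G) := by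
          rw [Sylow.coe_subgroup_smul]
          exact Subgroup.smul_mem_pointwise_smul e (MulAut.conj g) (T' : Subgroup G) h1
        rw [hg] at h2
        exact h2
      calc E.ncard = ((fun x : G => g * x * g⁻¹) '' E).ncard := (Set.ncard_image_of_injective E hinj).symm
        _ ≤ _ := Set.ncard_le_ncard hsub (Set.toFinite _)
  exact (hgreatest.csSup_eq).symm

end Cfsg.Agent.S5345
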