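import Cfsg.Statements.S5346
import Cfsg.Agent.Lib.H25.TTHall

set_option autoImplicit false
open Cfsg

namespace Cfsg.Agent.S5346

open Cfsg.Agent.H25

/-- Let D be a conjugation-invariant generating set of 3-transpositions of a finite group G and d a member of D. Then D has width 1 (no two different members of D commute) if and only if G is the product of the subgroup generated by d with the largest normal 3-subgroup of G. -/
theorem result {G : Type*} [Group G] [Finite G] {D : Set G} (hD : Cfsg.IsThreeTranspositionGroup D) {d : G} (hd : d ∈ D) : Cfsg.commutingWidth D = 1 ↔ Subgroup.zpowers d ⊔ Cfsg.pCore 3 G = ⊤ := by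
  have hT := TTS.of_group hD
  constructor
  · intro h
    have hw := no_comm_of_width_one h
    obtain ⟨T, hTn, hTp, -, hsup⟩ := hall_core hT hD.2.2 hd hw
    rw [eq_top_iff, ← hsup]
    exact sup_le_sup_left (H01.le_pCore hTn hTp) _
  · intro h
    haveI hp3 : Fact (Nat.Prime 3) := ⟨Nat.prime_three⟩
    haveI hn : (pCore 3 G).Normal := H01.pCore_normal 3
    refine width_one_of_no_comm hd fun a ha b hb hab => ?_
    have h1 := mem_coset_of_sup hT hd h ha
    have h2 := mem_coset_of_sup hT hd h hb
    have h3 : a * b ∈ pCore 3 G := by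
      have e : a * b = (d * a)⁻¹ * (d * b) := by
        rw [mul_inv_rev, hT.inv_eq ha, hT.inv_eq hd]
        have hdd := hT.sq d hd
        calc a * b = a * (d * d) * b := by rw [hdd, mul_one]
          _ = a * d * (d * b) := by group
      rw [e]
      exact Subgroup.mul_mem _ (Subgroup.inv_mem _ h1) h2
    have h4 : (a * b) ^ 2 = 1 := by
      rw [pow_two]
      nth_rewrite 1 [hab.eq]
      have e : b * a * (a * b) = b * (a * a) * b := by group
      rw [e, hT.sq a ha, mul_one, hT.sq b hb]
    have h5 := eq_one_of_sq_of_three (H01.pCore_isPGroup (G := G) 3) h3 h4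
    have e : a = b⁻¹ := eq_inv_of_mul_eq_one_left h5
    rw [e, hT.inv_eq hb]

end Cfsg.Agent.S5346
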