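import Cfsg.Statements.S5348

set_option autoImplicit false
open Cfsg

namespace Cfsg.Agent.S5348

theorem result {G : Type*} [Group G] [Finite G] {D : Set G} (hD : Cfsg.IsThreeTranspositionGroup D) {d : G} (hd : d ∈ D) : {v : G | v ∈ D ∧ ∀ e ∈ D, Commute v e ↔ Commute d e} = {d} ∨ {w : G | w ∈ D ∧ {y : G | y ∈ D ∧ y ≠ d ∧ Commute d y} = {y : G | y ∈ D ∧ y ≠ w ∧ Commute w y}} = {d} := by
  by_cases hV : ∀ v : G, v ∈ D → (∀ e ∈ D, Commute v e ↔ Commute d e) → v = d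
  · left
    apply Set.eq_singleton_iff_unique_mem.mpr
    exact ⟨⟨hd, fun e _ => Iff.rfl⟩, fun v hv => hV v hv.1 hv.2⟩
  · right
    simp only [not_forall] at hV
    obtain ⟨v, hvD, hv, hvd⟩ := hV
    apply Set.eq_singleton_iff_unique_mem.mpr
    refine ⟨⟨hd, rfl⟩, ?_⟩
    rintro w ⟨hwD, hw⟩
    by_contra hwd
    have hcomm : Commute v d := (hv d hd).mpr (Commute.refl d)
    have hvmem : v ∈ {y : G | y ∈ D ∧ y ≠ d ∧ Commute d y} := ⟨hvD, hvd, hcomm.symm⟩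
    rw [hw] at hvmem
    have hwv : Commute w v := hvmem.2.2
    have hdw : Commute d w := (hv w hwD).mp hwv.symm
    have hwmem : w ∈ {y : G | y ∈ D ∧ y ≠ d ∧ Commute d y} := ⟨hwD, hwd, hdw⟩
    rw [hw] at hwmem
    exact hwmem.2.1 rfl

end Cfsg.Agent.S5348
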