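import Cfsg.Statements.S5349
import Cfsg.Agent.Lib.H25.TT

set_option autoImplicit false
open Cfsg

namespace Cfsg.Agent.S5349

open Cfsg.Agent.H25

theorem noncommuting_partner {G : Type*} [Group G] [Finite G] {D : Set G} (hD : Cfsg.IsThreeTranspositionClass D)
    (hD2 : ∃ a ∈ D, ∃ b ∈ D, a ≠ b) {d : G} (hd : d ∈ D) : ∃ c ∈ D, ¬ Commute d c := by
  by_contra hcon
  push Not at hcon
  obtain ⟨a, ha, b, hb, hab⟩ := hD2
  have hcen : ∀ g : G, Commute d g := by
    intro g
    have hg : g ∈ Subgroup.closure D := by rw [hD.2.2]; trivial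
    induction hg using Subgroup.closure_induction with
    | mem x hx => exact hcon x hx
    | one => exact Commute.one_right d
    | mul x y _ _ hx hy => exact hx.mul_right hy
    | inv x _ hx => exact hx.inv_right
  have hall : ∀ x ∈ D, x = d := by
    intro x hx
    obtain ⟨g, hg⟩ := TTS.class_isConj hD hd hx
    rw [← hg, (hcen g).symm.eq]
    group
  exact hab ((hall a ha).trans (hall b hb).symm)

/-- Let D be a conjugacy class of 3-transpositions generating the finite group G, with at least two members, and d a member of D. Then the set of members of D commuting with exactly the same members of D as d coincides with the set of members of D lying in the coset of d modulo the largest normal 2-subgroup of G, and also with the orbit of d under conjugation by that normal 2-subgroup. -/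
theorem result {G : Type*} [Group G] [Finite G] {D : Set G} (hD : Cfsg.IsThreeTranspositionClass D) (hD2 : ∃ a ∈ D, ∃ b ∈ D, a ≠ b) {d : G} (hd : d ∈ D) : {v : G | v ∈ D ∧ ∀ e ∈ D, Commute v e ↔ Commute d e} = {v : G | v ∈ D ∧ d⁻¹ * v ∈ Cfsg.pCore 2 G} ∧ {v : G | v ∈ D ∧ ∀ e ∈ D, Commute v e ↔ Commute d e} = {v : G | ∃ g ∈ Cfsg.pCore 2 G, v = g * d * g⁻¹} := by
  classical
  have hT : TTS D := TTS.of_class hD
  have hdd : d⁻¹ = d := hT.inv_eq hd
  have hA : {v : G | v ∈ D ∧ ∀ e ∈ D, Commute v e ↔ Commute d e} = {v : G | v ∈ D ∧ d⁻¹ * v ∈ Cfsg.pCore 2 G} := by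
    ext v
    simp only [Set.mem_ofPred_eq]
    constructor
    · rintro ⟨hv, h⟩
      refine ⟨hv, ?_⟩
      rw [hdd]
      exact mul_mem_pCore_of_eqv hT hd hv (fun e he => (h e he).symm)
    · rintro ⟨hv, h⟩
      refine ⟨hv, ?_⟩
      rw [hdd] at h
      exact fun e he => ((eqv_of_mul_mem_pCore hT hd hv h) e he).symm
  refine ⟨hA, ?_⟩
  rw [hA]
  ext v
  simp only [Set.mem_ofPred_eq]
  constructor
  · rintro ⟨hv, h⟩
    rw [hdd] at h
    by_cases hvd : v = d
    · exact ⟨1, Subgroup.one_mem _, by rw [hvd]; group⟩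
    obtain ⟨c, hc, hcn⟩ := noncommuting_partner hD hD2 hd
    have hE : Eqv D d v := eqv_of_mul_mem_pCore hT hd hv h
    have hcv : ¬ Commute v c := fun h' => hcn ((hE c hc).mpr h')
    have hdv : Commute d v := Eqv.commute hT hd hv hE
    have hcc := hT.inv_eq hc
    have h1 : c * (d * v) * c⁻¹ ∈ Cfsg.pCore 2 G := (inferInstance : (Cfsg.pCore 2 G).Normal).conj_mem _ h c
    refine ⟨c * (d * v) * c⁻¹, h1, ?_⟩
    have hbd : d * c * d = c * d * c := hT.braid hd hc hcn
    have hbv : v * c * v = c * v * c := hT.braid hv hc hcv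
    rw [hcc]
    have hi : (c * (d * v) * c)⁻¹ = c * (d * v) * c := by
      rw [mul_inv_rev, mul_inv_rev, mul_inv_rev, hcc, hdd, hT.inv_eq hv, hdv.eq]
      simp only [mul_assoc]
    rw [hi]
    have hdsq := hT.sq d hd
    have hvsq := hT.sq v hv
    have hcsq := hT.sq c hc
    symm
    calc c * (d * v) * c * d * (c * (d * v) * c)
        = c * d * v * (c * d * c) * d * v * c := by group
      _ = c * d * v * (d * c * d) * d * v * c := by rw [hbd]
      _ = c * (d * v * d) * c * (d * d) * v * c := by group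
      _ = c * (v * d * d) * c * (d * d) * v * c := by rw [hdv.eq]
      _ = (c * v * c) * v * c := by
          simp only [mul_assoc, hdsq, mul_one]
      _ = (v * c * v) * v * c := by rw [hbv]
      _ = v * c * (v * v) * c := by group
      _ = v := by rw [hvsq, mul_one, mul_assoc, hcsq, mul_one]
  · rintro ⟨g, hg, rfl⟩
    refine ⟨hT.conj g d hd, ?_⟩
    have h1 : d⁻¹ * (g * d * g⁻¹) = (d⁻¹ * g * d) * g⁻¹ := by group
    rw [h1]
    have h2 : d⁻¹ * g * d ∈ Cfsg.pCore 2 G := by
      have := (inferInstance : (Cfsg.pCore 2 G).Normal).conj_mem g hg d⁻¹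
      rwa [inv_inv] at this
    exact mul_mem h2 (inv_mem hg)

end Cfsg.Agent.S5349
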