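import Cfsg.Statements.S5350
import Cfsg.Agent.Lib.H25.TTCore

set_option autoImplicit false
open Cfsg

namespace Cfsg.Agent.S5350

open Cfsg.Agent.H25

/-- Let D be a conjugacy class of 3-transpositions generating the finite group G, with at least two members, and d a member of D. Then the set of members w of D whose commuting partners in D (other than w) are exactly those of d (other than d) coincides with the set of members of D lying in the coset of d modulo the largest normal 3-subgroup of G, and also with the orbit of d under conjugation by that normal 3-subgroup. -/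
theorem result {G : Type*} [Group G] [Finite G] {D : Set G} (hD : Cfsg.IsThreeTranspositionClass D) (hD2 : ∃ a ∈ D, ∃ b ∈ D, a ≠ b) {d : G} (hd : d ∈ D) : {w : G | w ∈ D ∧ {y : G | y ∈ D ∧ y ≠ d ∧ Commute d y} = {y : G | y ∈ D ∧ y ≠ w ∧ Commute w y}} = {w : G | w ∈ D ∧ d⁻¹ * w ∈ Cfsg.pCore 3 G} ∧ {w : G | w ∈ D ∧ {y : G | y ∈ D ∧ y ≠ d ∧ Commute d y} = {y : G | y ∈ D ∧ y ≠ w ∧ Commute w y}} = {w : G | ∃ g ∈ Cfsg.pCore 3 G, w = g * d * g⁻¹} := by
  have hT := TTS.of_class hD
  haveI hp3 : Fact (Nat.Prime 3) := ⟨Nat.prime_three⟩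
  haveI hn : (pCore 3 G).Normal := H01.pCore_normal 3
  have hdinv := hT.inv_eq hd
  have hdd := hT.sq d hd
  have h1 : {w : G | w ∈ D ∧ {y : G | y ∈ D ∧ y ≠ d ∧ Commute d y} = {y : G | y ∈ D ∧ y ≠ w ∧ Commute w y}} = {w : G | w ∈ D ∧ d⁻¹ * w ∈ Cfsg.pCore 3 G} := by
    ext w
    constructor
    · rintro ⟨hw, hN⟩
      refine ⟨hw, ?_⟩
      rw [hdinv]
      exact (eqNb_iff_core hT hd hw).mp hN
    · rintro ⟨hw, hN⟩
      rw [hdinv] at hN
      exact ⟨hw, (eqNb_iff_core hT hd hw).mpr hN⟩
  refine ⟨h1, ?_⟩
  rw [h1]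
  ext w
  constructor
  · rintro ⟨hw, hN⟩
    rw [hdinv] at hN
    refine ⟨d * w, hN, ?_⟩
    have hww := hT.sq w hw
    by_cases hcomm : Commute d w
    · -- commuting and in the same coset: equal
      have h2 : (d * w) ^ 2 = 1 := by
        rw [pow_two]
        calc d * w * (d * w) = d * (w * d) * w := by group
          _ = d * (d * w) * w := by rw [hcomm.eq]
          _ = (d * d) * (w * w) := by group
          _ = 1 := by rw [hdd, hww, one_mul]
      have h3 := eq_one_of_sq_of_three (H01.pCore_isPGroup (G := G) 3) hN h2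
      have h4 : d = w⁻¹ := eq_inv_of_mul_eq_one_left h3
      rw [hT.inv_eq hw] at h4
      subst h4
      rw [hdd]
      simp
    · have hb := hT.braid hd hw hcomm
      rw [mul_inv_rev, hdinv, hT.inv_eq hw]
      calc w = w * (d * d) * (w * w) := by rw [hdd, hww]; simp
        _ = w * d * (d * w * w) := by group
        _ = d * w * d * (w * d) := by
          have e1 : d * w * d * (w * d) = (d * w * d) * w * d := by group
          rw [e1, hb]
          have e2 : w * d * w * w * d = w * d * (w * w) * d := by group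
          rw [e2, hww, mul_one]
          have e3 : w * d * (d * w * w) = w * (d * d) * (w * w) := by group
          rw [e3, hdd, hww]
          have e4 : w * d * d = w * (d * d) := by group
          rw [e4, hdd, mul_one, mul_one]
  · rintro ⟨g, hg, rfl⟩
    refine ⟨hT.conj g d hd, ?_⟩
    have e : d⁻¹ * (g * d * g⁻¹) = (d * g * d) * g⁻¹ := by
      rw [hdinv]
      group
    rw [e]
    refine Subgroup.mul_mem _ ?_ (Subgroup.inv_mem _ hg)
    have := hn.conj_mem g hg d
    rwa [hdinv] at this

end Cfsg.Agent.S5350
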