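import Cfsg.Statements.S5354
import Cfsg.Agent.Lib.H08.Fis.Prim
-- import your own Cfsg.Agent.* helpers here

set_option autoImplicit false
open Cfsg

namespace Cfsg.Agent.S5354

open Cfsg.Agent.H25 Cfsg.Agent.H08.Fis


/-- Let D be a conjugation-invariant generating set of 3-transpositions of the finite group G on which G acts primitively by conjugation, and suppose two different members of D commute (width at least 2). Then G has a quasisimple normal subgroup L of index at most 2 with the generalized Fitting subgroup of G equal to L times the centre, the commuting graph of D is connected, and for d in D the subgroup generated by the members of D commuting with d is a maximal D-subgroup: it is proper, and every subgroup generated by members of D that contains it is either it or G. -/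
theorem result {G : Type*} [Group G] [Finite G] {D : Set G} (hD : Cfsg.IsThreeTranspositionGroup D) (hprim : Cfsg.IsPrimitiveUnderConj D) (hw : ∃ a ∈ D, ∃ b ∈ D, a ≠ b ∧ Commute a b) : (∃ L : Subgroup G, L.Normal ∧ Cfsg.IsQuasisimple L ∧ L.index ≤ 2 ∧ Cfsg.generalizedFittingSubgroup G = L ⊔ Subgroup.center G) ∧ (Cfsg.commutingGraph D).Connected ∧ ∀ d ∈ D, Subgroup.closure {y : G | y ∈ D ∧ Commute d y} ≠ ⊤ ∧ ∀ H : Subgroup G, Cfsg.IsDSubgroup D H → Subgroup.closure {y : G | y ∈ D ∧ Commute d y} ≤ H → H = Subgroup.closure {y : G | y ∈ D ∧ Commute d y} ∨ H = ⊤ := by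
  have hD' := class_of_prim hD hprim
  have hT := TTS.of_class hD'
  have hc := prim_connected hD' hprim hw
  haveI : Fact (Nat.Prime 3) := ⟨Nat.prime_three⟩
  have h2 : Cfsg.pCore 2 G ≤ Subgroup.center G := prim_core_central hD' hprim hw (Or.inl rfl)
  have h3 : Cfsg.pCore 3 G ≤ Subgroup.center G := prim_core_central hD' hprim hw (Or.inr rfl)
  have hD2 := hprim.2.1
  have hblocks : ∀ B : Set G, B ⊆ D → IsBlock B → B.Subsingleton ∨ B = D := hprim.2.2
  refine ⟨?_, hc, ?_⟩
  · obtain ⟨L, hN, hL, hF⟩ := exists_unique_comp hD' hD2 h2 h3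
    exact ⟨L, hN, hL.2, index_le_of_connected hD' hL.2 hc, hF⟩
  · intro d hd
    have hdC : ∀ g ∈ Subgroup.closure {y : G | y ∈ D ∧ Commute d y}, Commute d g := by
      have hle : Subgroup.closure {y : G | y ∈ D ∧ Commute d y} ≤ Subgroup.centralizer {d} := by
        rw [Subgroup.closure_le]
        rintro y ⟨_, hy⟩
        rw [SetLike.mem_coe, Subgroup.mem_centralizer_iff]
        rintro _ rfl
        exact hy
      intro g hg
      exact Subgroup.mem_centralizer_iff.mp (hle hg) d rfl
    refine ⟨?_, ?_⟩
    · intro htop
      obtain ⟨a, ha, b, hb, hne⟩ := hD2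
      have hb2 : ∃ e ∈ D, e ≠ d := by
        by_cases h : a = d
        · exact ⟨b, hb, fun h' => hne (h.trans h'.symm)⟩
        · exact ⟨a, ha, h⟩
      obtain ⟨e, he, hne'⟩ := hb2
      obtain ⟨f, hf, hnf⟩ := exists_not_commute hD' hd he hne'.symm
      apply hnf
      apply hdC
      rw [htop]
      exact Subgroup.mem_top f
    · intro H hH hle
      by_cases hall : ∀ c ∈ D, c ∈ H → Commute d c
      · left
        apply le_antisymm _ hle
        rw [← hH]
        apply Subgroup.closure_mono
        rintro y ⟨hy, hyH⟩
        exact ⟨hy, hall y hy hyH⟩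
      · right
        push Not at hall
        obtain ⟨c, hcD, hcH, hnc⟩ := hall
        have hinsert : Subgroup.closure (insert d (Nb D d)) ≤ H := by
          refine le_trans ?_ hle
          apply Subgroup.closure_mono
          rintro y (rfl | hy)
          · exact ⟨hd, Commute.refl _⟩
          · exact ⟨hy.1, hy.2.2⟩
        rw [eq_top_iff, ← hD.2.2, Subgroup.closure_le]
        intro e he
        by_cases hce : Commute d e
        · exact hle (Subgroup.subset_closure ⟨he, hce⟩)
        · obtain ⟨g, hg, rfl⟩ := rank_three_of_blocks hD' hw hblocks hc hd (y₀ := c) (y₁ := e) ⟨hcD, hnc⟩ ⟨he, hce⟩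
          exact H.mul_mem (H.mul_mem (hinsert hg) hcH) (H.inv_mem (hinsert hg))

end Cfsg.Agent.S5354
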