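import Cfsg.Statements.S5355
import Cfsg.Agent.Lib.H25.TT
import Cfsg.Agent.S5344

set_option autoImplicit false
open Cfsg

namespace Cfsg.Agent.S5355

open Cfsg.Agent.H25

theorem noncomm_partner {G : Type*} [Group G] {D : Set G} (hD : Cfsg.IsThreeTranspositionClass D)
    (hD2 : ∃ a ∈ D, ∃ b ∈ D, a ≠ b) {d : G} (hd : d ∈ D) : ∃ c ∈ D, ¬ Commute d c := by
  by_contra hcon
  push Not at hcon
  obtain ⟨a, ha, b, hb, hab⟩ := hD2
  have hcen : ∀ g : G, Commute d g := by
    intro g
    have hg : g ∈ Subgroup.closure D := by rw [hD.2.2]; trivial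
    induction hg using Subgroup.closure_induction with
    | mem x hx => exact hcon x hx
    | one => exact Commute.one_right d
    | mul x y _ _ hx hy => exact hx.mul_right hy
    | inv x _ hx => exact hx.inv_right
  have hall : ∀ x ∈ D, x = d := by
    intro x hx
    obtain ⟨g, hg⟩ := TTS.class_isConj hD hd hx
    rw [← hg, (hcen g).symm.eq]
    group
  exact hab ((hall a ha).trans (hall b hb).symm)

theorem no_fix {G : Type*} [Group G] {D : Set G} (hT : TTS D) {a b e : G} (ha : a ∈ D) (hb : b ∈ D) (he : e ∈ D)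
    (hab : a ≠ b) (hae : ¬ Commute a e) (hbe : ¬ Commute b e) (hc : Commute a b) :
    (a * b) * e * (a * b) ≠ e := by
  intro h
  have h1 := hT.braid ha he hae
  have h2 := hT.braid hb he hbe
  have haa := hT.sq a ha
  have h0 : a * b * a = b := by rw [hc.eq, mul_assoc, haa, mul_one]
  have h3 : b * e * b = a * e * a := by
    calc b * e * b = (a * a) * b * e * (a * b * a) := by rw [haa, one_mul, h0]
      _ = a * ((a * b) * e * (a * b)) * a := by group
      _ = a * e * a := by rw [h]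
  have h4 : e * b * e = e * a * e := by rw [← h1, ← h2, h3]
  apply hab
  exact (mul_left_cancel (mul_right_cancel h4)).symm

/-- Let D be a conjugacy class of 3-transpositions generating the finite group G, with at least two members, and d a member of D. Suppose that every member of D commuting with d commutes with exactly the same members of D as d does, and that exactly one member of D other than d commutes with d. Then G is isomorphic to the symmetric group of degree 4. -/
theorem result {G : Type*} [Group G] [Finite G] {D : Set G} (hD : Cfsg.IsThreeTranspositionClass D) (hD2 : ∃ a ∈ D, ∃ b ∈ D, a ≠ b) {d : G} (hd : d ∈ D) (hV : {y : G | y ∈ D ∧ Commute d y} = {v : G | v ∈ D ∧ ∀ e ∈ D, Commute v e ↔ Commute d e}) (hm : {y : G | y ∈ D ∧ Commute d y}.ncard = 2) : Nonempty (G ≃* Equiv.Perm (Fin 4)) := by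
  classical
  have hT : TTS D := TTS.of_class hD
  -- partners
  have hcomm_eqv : ∀ a ∈ D, ∀ x ∈ D, Commute a x → Eqv D a x := by
    intro a ha x hx hax
    obtain ⟨g, hg⟩ := TTS.class_isConj hD ha hd
    have hx' : g * x * g⁻¹ ∈ D := hT.conj g x hx
    have h1 : Commute d (g * x * g⁻¹) := by
      rw [← hg]
      exact (commute_conj_iff g).mpr hax
    have h2 : g * x * g⁻¹ ∈ {y : G | y ∈ D ∧ Commute d y} := ⟨hx', h1⟩
    rw [hV] at h2
    have h3 : Eqv D (g * x * g⁻¹) (g * a * g⁻¹) := by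
      rw [hg]
      exact h2.2
    have h4 := Eqv.conj hT h3 g⁻¹
    have e1 : g⁻¹ * (g * x * g⁻¹) * g⁻¹⁻¹ = x := by group
    have e2 : g⁻¹ * (g * a * g⁻¹) * g⁻¹⁻¹ = a := by group
    rw [e1, e2] at h4
    exact h4.symm
  have hpart : ∀ a ∈ D, ∃ a', a' ∈ D ∧ a' ≠ a ∧ ∀ x ∈ D, Commute a x ↔ x = a ∨ x = a' := by
    obtain ⟨y, z, hyz, hS⟩ := Set.ncard_eq_two.mp hm
    have hdS : d ∈ ({y, z} : Set G) := by
      rw [← hS]
      exact ⟨hd, Commute.refl d⟩
    obtain ⟨v, hv, hvd, hCd⟩ : ∃ v, v ∈ D ∧ v ≠ d ∧ ∀ x ∈ D, Commute d x ↔ x = d ∨ x = v := by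
      have hmem : ∀ x ∈ D, Commute d x ↔ x = y ∨ x = z := by
        intro x hx
        have : x ∈ {y : G | y ∈ D ∧ Commute d y} ↔ x ∈ ({y, z} : Set G) := by rw [hS]
        simpa [hx] using this
      rcases hdS with rfl | hdz
      · refine ⟨z, ?_, hyz.symm, hmem⟩
        have : z ∈ ({d, z} : Set G) := by simp
        rw [← hS] at this
        exact this.1
      · have hdz' : d = z := hdz
        subst hdz'
        refine ⟨y, ?_, hyz, fun x hx => ?_⟩
        · have : y ∈ ({y, d} : Set G) := by simp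
          rw [← hS] at this
          exact this.1
        · rw [hmem x hx, or_comm]
    intro a ha
    obtain ⟨g, hg⟩ := TTS.class_isConj hD hd ha
    refine ⟨g * v * g⁻¹, hT.conj g v hv, ?_, ?_⟩
    · rw [← hg]
      intro h
      apply hvd
      exact mul_left_cancel (mul_right_cancel h)
    · intro x hx
      have hx' : g⁻¹ * x * g⁻¹⁻¹ ∈ D := hT.conj g⁻¹ x hx
      rw [← hg]
      have e1 : g * (g⁻¹ * x * g⁻¹⁻¹) * g⁻¹ = x := by group
      have h1 := commute_conj_iff (a := d) (b := g⁻¹ * x * g⁻¹⁻¹) g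
      rw [e1] at h1
      rw [h1, hCd _ hx']
      constructor
      · rintro (h | h)
        · left
          rw [← h]; group
        · right
          rw [← h]; group
      · rintro (h | h)
        · left
          rw [h]; group
        · right
          rw [h]; group
  obtain ⟨v, hv, hvd, hCd⟩ := hpart d hd
  obtain ⟨c, hc, hcn⟩ := noncomm_partner hD hD2 hd
  have hdv : Commute d v := (hCd v hv).mpr (Or.inr rfl)
  have hEdv : Eqv D d v := hcomm_eqv d hd v hv hdv
  have hcv : ¬ Commute c v := fun h => hcn ((hEdv c hc).mpr h.symm)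
  obtain ⟨φ, hφ, h0, h1, h2⟩ := S5344.result hD.1 hd hc hv hvd.symm hdv hcn hcv
  have hconjD : ∀ σ : Equiv.Perm (Fin 4), φ (σ * Equiv.swap 0 1 * σ⁻¹) ∈ D := by
    intro σ
    rw [map_mul, map_mul, h0, map_inv]
    exact hT.conj _ d hd
  have hmemD : ∀ σ τ : Equiv.Perm (Fin 4), τ = σ * Equiv.swap 0 1 * σ⁻¹ → φ τ ∈ D := by
    rintro σ τ rfl
    exact hconjD σ
  have hrange : ∀ e ∈ D, e ∈ φ.range := by
    intro e he
    by_contra hne
    obtain ⟨e', he', hee', hCe⟩ := hpart e he
    have Q : ∀ τ τ' : Equiv.Perm (Fin 4), φ τ ∈ D → φ τ' ∈ D → τ ≠ τ' → τ * τ' = τ' * τ →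
        φ (τ * τ') * e * φ (τ * τ') = e' ∧ φ (τ * τ') * e * φ (τ * τ') ≠ e := by
      intro τ τ' ha hb hne' hcomm
      have hab : φ τ ≠ φ τ' := fun h => hne' (hφ h)
      have hc' : Commute (φ τ) (φ τ') := by
        show φ τ * φ τ' = φ τ' * φ τ
        rw [← map_mul, ← map_mul, hcomm]
      have hnc : ∀ {x y : G}, x ∈ D → y ∈ D → x ∈ φ.range → y ∈ φ.range → x ≠ y → Commute x y → ¬ Commute x e := by
        intro x y hx hy hxr hyr hxy hcxy hce
        obtain ⟨x', hx', hxx', hCx⟩ := hpart x hx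
        have hy' : y = x ∨ y = x' := (hCx y hy).mp hcxy
        have hy'' : y = x' := hy'.resolve_left (Ne.symm hxy)
        rcases (hCx e he).mp hce with h | h
        · exact hne (h ▸ hxr)
        · exact hne (by rw [h, ← hy'']; exact hyr)
      have hae : ¬ Commute (φ τ) e := hnc ha hb ⟨τ, rfl⟩ ⟨τ', rfl⟩ hab hc'
      have hbe : ¬ Commute (φ τ') e := hnc hb ha ⟨τ', rfl⟩ ⟨τ, rfl⟩ hab.symm hc'.symm
      have h3 := no_fix hT ha hb he hab hae hbe hc'
      have h4 := eqv_conj_mul hT ha hb he (hcomm_eqv _ ha _ hb hc')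
      have h5 : Commute e ((φ τ * φ τ') * e * (φ τ * φ τ')) := ((h4 e he).mpr (Commute.refl e)).symm
      have h6 : (φ τ * φ τ')⁻¹ = φ τ * φ τ' := by
        rw [mul_inv_rev, hT.inv_eq ha, hT.inv_eq hb, hc'.eq]
      have h7 : (φ τ * φ τ') * e * (φ τ * φ τ') ∈ D := by
        have := hT.conj (φ τ * φ τ') e he
        rwa [h6] at this
      rw [map_mul]
      refine ⟨?_, h3⟩
      rcases (hCe _ h7).mp h5 with h | h
      · exact absurd h h3
      · exact h
    have m1 : φ (Equiv.swap 0 1) ∈ D := hmemD 1 _ (by decide)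
    have m2 : φ (Equiv.swap 2 3) ∈ D := hmemD (Equiv.swap 0 2 * Equiv.swap 1 3) _ (by decide)
    have m3 : φ (Equiv.swap 0 2) ∈ D := hmemD (Equiv.swap 1 2) _ (by decide)
    have m4 : φ (Equiv.swap 1 3) ∈ D := hmemD (Equiv.swap 0 3) _ (by decide)
    have m5 : φ (Equiv.swap 0 3) ∈ D := hmemD (Equiv.swap 1 3) _ (by decide)
    have m6 : φ (Equiv.swap 1 2) ∈ D := hmemD (Equiv.swap 0 2) _ (by decide)
    have Q1 := (Q _ _ m1 m2 (by decide) (by decide)).1
    have Q2 := (Q _ _ m3 m4 (by decide) (by decide)).1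
    have Q3 := (Q _ _ m5 m6 (by decide) (by decide)).2
    apply Q3
    have e1 : (Equiv.swap 0 3 * Equiv.swap 1 2 : Equiv.Perm (Fin 4)) =
        (Equiv.swap 0 1 * Equiv.swap 2 3) * (Equiv.swap 0 2 * Equiv.swap 1 3) := by decide
    have e2 : (Equiv.swap 0 3 * Equiv.swap 1 2 : Equiv.Perm (Fin 4)) =
        (Equiv.swap 0 2 * Equiv.swap 1 3) * (Equiv.swap 0 1 * Equiv.swap 2 3) := by decide
    have e3 : (Equiv.swap 0 1 * Equiv.swap 2 3 : Equiv.Perm (Fin 4)) * (Equiv.swap 0 1 * Equiv.swap 2 3) = 1 := by decide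
    set z1 := φ (Equiv.swap 0 1 * Equiv.swap 2 3) with hz1
    set z2 := φ (Equiv.swap 0 2 * Equiv.swap 1 3) with hz2
    have hz11 : z1 * z1 = 1 := by
      rw [hz1, ← map_mul, e3, map_one]
    calc φ (Equiv.swap 0 3 * Equiv.swap 1 2) * e * φ (Equiv.swap 0 3 * Equiv.swap 1 2)
        = (z1 * z2) * e * (z2 * z1) := by
          rw [← map_mul, ← map_mul, ← e1, ← e2]
      _ = z1 * (z2 * e * z2) * z1 := by group
      _ = z1 * e' * z1 := by rw [Q2]
      _ = z1 * (z1 * e * z1) * z1 := by rw [Q1]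
      _ = (z1 * z1) * e * (z1 * z1) := by group
      _ = e := by rw [hz11, one_mul, mul_one]
  have hsurj : Function.Surjective φ := by
    rw [← MonoidHom.range_eq_top, eq_top_iff, ← hD.2.2, Subgroup.closure_le]
    exact hrange
  exact ⟨(MulEquiv.ofBijective φ ⟨hφ, hsurj⟩).symm⟩

end Cfsg.Agent.S5355
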