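import Cfsg.Statements.S5356
import Cfsg.Agent.Lib.H08.Fis.Width1
-- import your own Cfsg.Agent.* helpers here

set_option autoImplicit false
open Cfsg

namespace Cfsg.Agent.S5356


open Cfsg.Agent Cfsg.Agent.H25 Cfsg.Agent.H08.Fis

open scoped commutatorElement

/-- The derived subgroup lies in `P O₂(G)`. -/
theorem comm_le_width_one {G : Type*} [Group G] [Finite G] {D : Set G}
    (hD : IsThreeTranspositionClass D)
    (hV' : ∀ a ∈ D, ∀ b ∈ D, Commute a b → a * b ∈ pCore 2 G) (P : Sylow 3 G) :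
    commutator G ≤ (P : Subgroup G) ⊔ pCore 2 G := by
  have hT := TTS.of_class hD
  haveI hQn : (pCore 2 G).Normal := H01.pCore_normal 2
  obtain ⟨d, hd, hDc⟩ := hD.2.1
  by_cases hdQ : d ∈ pCore 2 G
  · have h1 : pCore 2 G = ⊤ := by
      rw [eq_top_iff, ← hD.2.2, Subgroup.closure_le]
      intro e he
      obtain ⟨g, hg⟩ := TTS.class_isConj hD hd he
      rw [← hg]
      exact hQn.conj_mem d hdQ g
    rw [h1, sup_top_eq]
    exact le_top
  · let π : G →* G ⧸ pCore 2 G := QuotientGroup.mk' _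
    have hπ : Function.Surjective π := QuotientGroup.mk'_surjective _
    have hker : ∀ x, π x = 1 ↔ x ∈ pCore 2 G := fun x => QuotientGroup.eq_one_iff x
    have hne : ∀ e ∈ D, π e ≠ 1 := by
      intro e he h1
      obtain ⟨g, hg⟩ := TTS.class_isConj hD he hd
      apply hdQ
      rw [← hg]
      exact hQn.conj_mem e ((hker e).1 h1) g
    have hsqb : ∀ x ∈ π '' D, x * x = 1 := by
      rintro _ ⟨a, ha, rfl⟩
      rw [← map_mul, hT.sq a ha, map_one]
    have hinv : ∀ x ∈ π '' D, orderOf x = 2 := by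
      rintro _ ⟨a, ha, rfl⟩
      apply orderOf_eq_prime
      · rw [pow_two]
        exact hsqb _ ⟨a, ha, rfl⟩
      · exact hne a ha
    have hconjcl : ∀ g : G ⧸ pCore 2 G, ∀ a ∈ π '' D, g * a * g⁻¹ ∈ π '' D := by
      rintro g _ ⟨a, ha, rfl⟩
      obtain ⟨g₀, rfl⟩ := hπ g
      exact ⟨g₀ * a * g₀⁻¹, hT.conj g₀ a ha, by simp⟩
    have hcl : ∀ a ∈ π '' D, ∀ b ∈ π '' D, ∃ g : G ⧸ pCore 2 G, g * a * g⁻¹ = b := by
      rintro _ ⟨a, ha, rfl⟩ _ ⟨b, hb, rfl⟩
      obtain ⟨g, hg⟩ := TTS.class_isConj hD ha hb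
      exact ⟨π g, by rw [← hg]; simp⟩
    have hconj' : ∃ x ∈ π '' D, π '' D = conjugatesOf x := by
      refine ⟨π d, ⟨d, hd, rfl⟩, ?_⟩
      ext y
      constructor
      · intro hy
        obtain ⟨g, hg⟩ := hcl _ ⟨d, hd, rfl⟩ y hy
        show IsConj (π d) y
        rw [isConj_iff]
        exact ⟨g, hg⟩
      · intro hy
        have hy' : IsConj (π d) y := hy
        rw [isConj_iff] at hy'
        obtain ⟨g, rfl⟩ := hy'
        exact hconjcl g _ ⟨d, hd, rfl⟩
    have hgen : Subgroup.closure (π '' D) = ⊤ := by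
      rw [← MonoidHom.map_closure, hD.2.2, ← MonoidHom.range_eq_map]
      exact MonoidHom.range_eq_top.2 hπ
    have hcube : ∀ x ∈ π '' D, ∀ y ∈ π '' D, (x * y) ^ 3 = 1 := by
      rintro _ ⟨a, ha, rfl⟩ _ ⟨b, hb, rfl⟩
      by_cases hab : Commute a b
      · have h1 : π (a * b) = 1 := (hker _).2 (hV' a ha b hb hab)
        rw [← map_mul, h1, one_pow]
      · rw [← map_mul, ← map_pow, cube_of_nb hT ha hb hab, map_one]
    have hprod : ∀ x ∈ π '' D, ∀ y ∈ π '' D, x ≠ y → ∃ k : ℕ, orderOf (x * y) = 3 ^ k := by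
      intro x hx y hy hxy
      refine ⟨1, ?_⟩
      rw [pow_one]
      haveI : Fact (Nat.Prime 3) := ⟨Nat.prime_three⟩
      apply orderOf_eq_prime (hcube x hx y hy)
      intro h1
      apply hxy
      have h2 := eq_inv_of_mul_eq_one_left h1
      rwa [inv_eq_of_mul_eq_one_left (hsqb y hy)] at h2
    have hnil := Cfsg.Agent.S1618.result 3 Nat.prime_three (by norm_num) hinv hconj' hgen hprod
    have hP3 := isPGroup_commutator_of_nilpotent hgen hconjcl hsqb hcl hcube hnil
    let Pq : Sylow 3 (G ⧸ pCore 2 G) := P.mapSurjective hπ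
    have hle : commutator (G ⧸ pCore 2 G) ≤ Pq := hP3.le_sylow_of_normal Pq
    rw [commutator_def, Subgroup.commutator_le]
    intro g _ h _
    have h1 : π ⁅g, h⁆ ∈ commutator (G ⧸ pCore 2 G) := by
      rw [map_commutatorElement, commutator_def]
      exact Subgroup.commutator_mem_commutator (Subgroup.mem_top _) (Subgroup.mem_top _)
    obtain ⟨p, hp, hpe⟩ := hle h1
    have h2 : p⁻¹ * ⁅g, h⁆ ∈ pCore 2 G := by
      rw [← hker, map_mul, map_inv]
      rw [show π p = π ⁅g, h⁆ from hpe, inv_mul_cancel]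
    have h3 : ⁅g, h⁆ = p * (p⁻¹ * ⁅g, h⁆) := by group
    rw [h3]
    exact Subgroup.mul_mem_sup hp h2



/-- Let D be a conjugacy class of 3-transpositions generating the finite group G, with at least two members, and d a member of D such that every member of D commuting with d commutes with exactly the same members of D as d. Then there is a Sylow 3-subgroup P of G normalized by d such that G is generated by d, P and the largest normal 2-subgroup of G. -/
theorem result {G : Type*} [Group G] [Finite G] {D : Set G} (hD : Cfsg.IsThreeTranspositionClass D) (hD2 : ∃ a ∈ D, ∃ b ∈ D, a ≠ b) {d : G} (hd : d ∈ D) (hV : {y : G | y ∈ D ∧ Commute d y} = {v : G | v ∈ D ∧ ∀ e ∈ D, Commute v e ↔ Commute d e}) : ∃ P : Sylow 3 G, d ∈ Subgroup.normalizer (P : Set G) ∧ Subgroup.zpowers d ⊔ (P : Subgroup G) ⊔ Cfsg.pCore 2 G = ⊤ := by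
  classical
  have hT := TTS.of_class hD
  haveI hQn : (pCore 2 G).Normal := H01.pCore_normal 2
  have hQ2 : IsPGroup 2 (pCore 2 G) := H01.pCore_isPGroup 2
  have hW : WT D := ⟨hT.sq, fun a ha b hb hn => cube_of_nb hT ha hb hn, hT.conj⟩
  have hdi : d⁻¹ = d := inv_eq_of_mul_eq_one_left (hT.sq d hd)
  have hV' : ∀ a ∈ D, ∀ b ∈ D, Commute a b → a * b ∈ pCore 2 G := by
    intro a ha b hb hab
    obtain ⟨g, hg⟩ := TTS.class_isConj hD hd ha
    have hb' : g⁻¹ * b * g⁻¹⁻¹ ∈ D := hT.conj g⁻¹ b hb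
    have hcomm : Commute d (g⁻¹ * b * g⁻¹⁻¹) := by
      have h1 := (commute_conj_iff (a := d) (b := g⁻¹ * b * g⁻¹⁻¹) g).1
      apply h1
      have e : g * (g⁻¹ * b * g⁻¹⁻¹) * g⁻¹ = b := by group
      rw [e, hg]
      exact hab
    have hmem : (g⁻¹ * b * g⁻¹⁻¹) ∈ {v : G | v ∈ D ∧ ∀ e ∈ D, Commute v e ↔ Commute d e} :=
      hV ▸ (⟨hb', hcomm⟩ : (g⁻¹ * b * g⁻¹⁻¹) ∈ {y : G | y ∈ D ∧ Commute d y})
    have heqv : Eqv D (g⁻¹ * b * g⁻¹⁻¹) d := hmem.2
    have h := heqv.conj hT g
    have e : g * (g⁻¹ * b * g⁻¹⁻¹) * g⁻¹ = b := by group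
    rw [e, hg] at h
    exact mul_mem_pCore_of_eqv hT ha hb h.symm
  obtain ⟨P₀⟩ : Nonempty (Sylow 3 G) := inferInstance
  have key : ∃ P : Sylow 3 G, ∀ x ∈ (P : Subgroup G), d * x * d⁻¹ ∈ (P : Subgroup G) := by
    by_cases hf : ∃ f ∈ D, ¬ Commute d f
    · obtain ⟨f, hf, hdf⟩ := hf
      have hx : ∀ x ∈ (P₀ : Subgroup G), d * x * d⁻¹ ∈ (P₀ : Subgroup G) ⊔ pCore 2 G := by
        intro x hx
        have h1 : d * x * d⁻¹ = ⁅d, x⁆ * x := by
          rw [commutatorElement_def]; group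
        rw [h1]
        have h2 : ⁅d, x⁆ ∈ commutator G := by
          rw [commutator_def]
          exact Subgroup.commutator_mem_commutator (Subgroup.mem_top _) (Subgroup.mem_top _)
        exact Subgroup.mul_mem _ (comm_le_width_one hD hV' P₀ h2)
          ((le_sup_left : (P₀ : Subgroup G) ≤ _) hx)
      obtain ⟨t, htD, htx⟩ := wt_chain hW P₀ _ (pCore 2 G) rfl hQn hQ2 d hd f hf hdf hx
      obtain ⟨g, hg⟩ := TTS.class_isConj hD htD hd
      have hmem : ∀ x, x ∈ ((g • P₀ : Sylow 3 G) : Subgroup G) ↔ g⁻¹ * x * g ∈ (P₀ : Subgroup G) := by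
        intro x
        rw [Sylow.coe_subgroup_smul, Subgroup.mem_pointwise_smul_iff_inv_smul_mem]
        simp [MulAut.smul_def, MulAut.conj_apply]
      refine ⟨g • P₀, fun x hx => ?_⟩
      rw [hmem] at hx ⊢
      have h1 := htx _ hx
      have h2 : g⁻¹ * (d * x * d⁻¹) * g = t * (g⁻¹ * x * g) * t⁻¹ := by
        rw [← hg]; group
      rw [h2]
      exact h1
    · push_neg at hf
      refine ⟨P₀, fun x hx => ?_⟩
      have h1 : Subgroup.closure D ≤ Subgroup.centralizer {d} := by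
        rw [Subgroup.closure_le]
        intro e he
        rw [SetLike.mem_coe, Subgroup.mem_centralizer_iff]
        intro h hh
        rw [Set.mem_singleton_iff.1 hh]
        exact hf e he
      rw [hD.2.2] at h1
      have h2 := Subgroup.mem_centralizer_iff.1 (h1 (Subgroup.mem_top x)) d rfl
      have h3 : d * x * d⁻¹ = x := by
        rw [h2]; group
      rw [h3]
      exact hx
  obtain ⟨P, hP⟩ := key
  refine ⟨P, ?_, ?_⟩
  · rw [Subgroup.mem_set_normalizer_iff]
    intro h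
    constructor
    · exact hP h
    · intro hh
      have h1 := hP _ hh
      have h2 : d * (d * h * d⁻¹) * d⁻¹ = (d * d) * h * (d * d)⁻¹ := by group
      rw [h2, hT.sq d hd] at h1
      have h3 : 1 * h * (1 : G)⁻¹ = h := by group
      rw [h3] at h1
      exact h1
  · rw [eq_top_iff, ← hD.2.2, Subgroup.closure_le]
    intro e he
    obtain ⟨g, hg⟩ := TTS.class_isConj hD hd he
    have h1 : e = ⁅g, d⁆ * d := by
      rw [commutatorElement_def, hdi, ← hg]
      have := hT.sq d hd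
      calc g * d * g⁻¹ = g * d * g⁻¹ * (d * d) := by rw [this, mul_one]
        _ = _ := by group
    rw [h1]
    have h2 : ⁅g, d⁆ ∈ commutator G := by
      rw [commutator_def]
      exact Subgroup.commutator_mem_commutator (Subgroup.mem_top _) (Subgroup.mem_top _)
    have h3 := comm_le_width_one hD hV' P h2
    have h4 : (P : Subgroup G) ⊔ pCore 2 G ≤ Subgroup.zpowers d ⊔ (P : Subgroup G) ⊔ pCore 2 G :=
      sup_le_sup_right le_sup_right _
    refine Subgroup.mul_mem _ (h4 h3) ?_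
    exact (le_sup_left : Subgroup.zpowers d ≤ _ ).trans le_sup_left (Subgroup.mem_zpowers d)

end Cfsg.Agent.S5356
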