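import Cfsg.Statements.S5358

set_option autoImplicit false
open scoped MatrixGroups
open Cfsg

namespace Cfsg.Agent.S5358

theorem polarVec_dot {n : ℕ} (Q : QuadraticForm (ZMod 3) (Fin n → ZMod 3)) (u x : Fin n → ZMod 3) :
    Cfsg.polarVec (⇑Q) u ⬝ᵥ x = QuadraticMap.polar (⇑Q) u x := by
  have h := LinearMap.pi_apply_eq_sum_univ (QuadraticMap.polarBilin Q u) x
  have h2 : (QuadraticMap.polarBilin Q u) x = QuadraticMap.polar (⇑Q) u x := rfl
  rw [← h2, h]
  unfold Cfsg.polarVec dotProduct
  refine Finset.sum_congr rfl fun j _ => ?_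
  have e : (fun k => if j = k then (1 : ZMod 3) else 0) = Pi.single j 1 := by
    ext k
    simp [Pi.single_apply, eq_comm]
  rw [e, mul_comm]
  rfl

theorem polar_self {n : ℕ} (Q : QuadraticForm (ZMod 3) (Fin n → ZMod 3)) (u : Fin n → ZMod 3) :
    QuadraticMap.polar (⇑Q) u u = 2 * Q u := by
  rw [QuadraticMap.polar_self]
  simp

theorem two_ne : (2 : ZMod 3) ≠ 0 := by decide

theorem eq_or_of_smul {n : ℕ} {u v : Fin n → ZMod 3} {c : ZMod 3} (h : v = c • u) (h0 : v ≠ 0) : v = u ∨ v = -u := by
  have : c = 0 ∨ c = 1 ∨ c = 2 := by clear h; revert c; decide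
  rcases this with rfl | rfl | rfl
  · simp at h; exact absurd h h0
  · left; simpa using h
  · right
    have e : (2 : ZMod 3) = -1 := by decide
    rw [h, e]
    simp

/-- Let Q be a non-degenerate quadratic form on the n-dimensional coordinate space over the field with three elements and u, v vectors of the same non-zero norm Q(u) = Q(v) spanning different lines (v ≠ u and v ≠ −u). Then the reflection matrices of u and v commute if and only if u and v are orthogonal for the polar form of Q. -/
theorem result (n : ℕ) (Q : QuadraticForm (ZMod 3) (Fin n → ZMod 3)) (hQ : (QuadraticMap.polarBilin Q).Nondegenerate) (u v : Fin n → ZMod 3) (hu : Q u ≠ 0) (huv : Q u = Q v) (h1 : v ≠ u) (h2 : v ≠ -u) : Commute (Cfsg.reflectionMatrix (⇑Q) u) (Cfsg.reflectionMatrix (⇑Q) v) ↔ QuadraticMap.polar (⇑Q) u v = 0 := by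
  have hpolar : QuadraticMap.polar (⇑Q) v u = QuadraticMap.polar (⇑Q) u v := QuadraticMap.polar_comm _ _ _
  set c := (Q u)⁻¹ with hc
  have hc0 : c ≠ 0 := inv_ne_zero hu
  set a := Cfsg.polarVec (⇑Q) u with ha
  set b := Cfsg.polarVec (⇑Q) v with hb
  have hmat : ∀ f : ZMod 3, f = QuadraticMap.polar (⇑Q) u v →
      (Cfsg.reflectionMatrix (⇑Q) u * Cfsg.reflectionMatrix (⇑Q) v -
        Cfsg.reflectionMatrix (⇑Q) v * Cfsg.reflectionMatrix (⇑Q) u) =
      (c * c * f) • (Matrix.vecMulVec u b - Matrix.vecMulVec v a) := by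
    rintro f rfl
    unfold Cfsg.reflectionMatrix
    rw [← huv, ← hc, ← ha, ← hb]
    have e1 : Matrix.vecMulVec u a * Matrix.vecMulVec v b = (QuadraticMap.polar (⇑Q) u v) • Matrix.vecMulVec u b := by
      rw [Matrix.vecMulVec_mul_vecMulVec, ha, polarVec_dot]
      ext i j
      simp [Matrix.vecMulVec_apply]
      ring
    have e2 : Matrix.vecMulVec v b * Matrix.vecMulVec u a = (QuadraticMap.polar (⇑Q) u v) • Matrix.vecMulVec v a := by
      rw [Matrix.vecMulVec_mul_vecMulVec, hb, polarVec_dot, hpolar]
      ext i j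
      simp [Matrix.vecMulVec_apply]
      ring
    simp only [sub_mul, mul_sub, one_mul, mul_one, smul_mul_assoc, mul_smul_comm, e1, e2]
    ext i j
    simp [Matrix.sub_apply, Matrix.smul_apply]
    ring
  constructor
  · intro hcomm
    by_contra hf
    have h3 := hmat _ rfl
    rw [hcomm.eq, sub_self] at h3
    have h4 : Matrix.vecMulVec u b - Matrix.vecMulVec v a = 0 := by
      have h5 : c * c * QuadraticMap.polar (⇑Q) u v ≠ 0 := mul_ne_zero (mul_ne_zero hc0 hc0) hf
      exact (smul_eq_zero.mp h3.symm).resolve_left h5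
    have h5 : ∀ i j, u i * b j = v i * a j := by
      intro i j
      have := congrFun (congrFun h4 i) j
      simpa [Matrix.vecMulVec_apply, sub_eq_zero] using this
    -- `a ≠ 0`
    have ha0 : a ≠ 0 := by
      intro h0
      have := polarVec_dot Q u u
      rw [← ha, h0, polar_self] at this
      simp at this
      rcases this with h6 | h6
      · exact two_ne h6
      · exact hu h6
    obtain ⟨j, hj⟩ : ∃ j, a j ≠ 0 := by
      by_contra hcon
      push Not at hcon
      exact ha0 (funext hcon)
    have hv0 : v ≠ 0 := by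
      rintro rfl
      rw [map_zero] at huv
      exact hu huv
    have h6 : v = (b j * (a j)⁻¹) • u := by
      ext i
      have := h5 i j
      simp only [Pi.smul_apply, smul_eq_mul]
      field_simp
      rw [← this]
      ring
    rcases eq_or_of_smul h6 hv0 with h7 | h7
    · exact h1 h7
    · exact h2 h7
  · intro hf
    have h3 := hmat 0 hf.symm
    rw [mul_zero, zero_smul, sub_eq_zero] at h3
    exact h3

end Cfsg.Agent.S5358
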