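import Cfsg.Statements.S5361
import Cfsg.Agent.Lib.H25.TTPrim3

set_option autoImplicit false
open Cfsg

namespace Cfsg.Agent.S5361

open Cfsg.Agent.H25

/-- Let D be a conjugacy class of 3-transpositions generating the finite group G, and suppose the centre of G is trivial and some two different members of D commute. Then the following are equivalent: (1) the commutator subgroup of G is simple (possibly of prime order); (2) G acts primitively on D by conjugation; (3) the largest normal 2-subgroup and the largest normal 3-subgroup of G are trivial and the commuting graph of D is connected. -/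
theorem result {G : Type*} [Group G] [Finite G] {D : Set G} (hD : Cfsg.IsThreeTranspositionClass D) (hZ : Subgroup.center G = ⊥) (hw : ∃ a ∈ D, ∃ b ∈ D, a ≠ b ∧ Commute a b) : (IsSimpleGroup (commutator G) ↔ Cfsg.IsPrimitiveUnderConj D) ∧ (Cfsg.IsPrimitiveUnderConj D ↔ (Cfsg.pCore 2 G = ⊥ ∧ Cfsg.pCore 3 G = ⊥ ∧ (Cfsg.commutingGraph D).Connected)) := by
  have hc2 : ∀ {p : ℕ} [Fact p.Prime], p = 2 ∨ p = 3 → IsSimpleGroup (commutator G) → Cfsg.pCore p G ≤ Subgroup.center G := by
    intro p _ hp hs
    rw [cores_of_simple hD hZ hs hw hp]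
    exact bot_le
  refine ⟨⟨fun hs => ?_, fun hp => simple_of_prim hD hZ hp hw⟩, ⟨fun hp => ⟨?_, ?_, prim_connected hD hp hw⟩, ?_⟩⟩
  · exact prim_of_cores_connected hD hw (hc2 (Or.inl rfl) hs) (hc2 (Or.inr rfl) hs) (connected_of_simple hD hs hw)
  · rw [eq_bot_iff, ← hZ]
    exact prim_core_central hD hp hw (Or.inl rfl)
  · rw [eq_bot_iff, ← hZ]
    exact prim_core_central hD hp hw (Or.inr rfl)
  · rintro ⟨h2, h3, hc⟩
    refine prim_of_cores_connected hD hw ?_ ?_ hc
    · rw [h2]; exact bot_le
    · rw [h3]; exact bot_le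

end Cfsg.Agent.S5361
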