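import Cfsg.Statements.S5363
import Cfsg.Agent.Lib.H25.Dihedral

set_option autoImplicit false
open Cfsg

namespace Cfsg.Agent.S5363

open Cfsg.Agent.H25

theorem sq_one {G : Type*} [Group G] {d : G} (h : orderOf d = 2) : d * d = 1 := by
  rw [← pow_two, ← h, pow_orderOf_eq_one]

theorem eq_of_sq_eq {G : Type*} [Group G] {u v : G} (hu : Odd (orderOf u)) (hv : Odd (orderOf v))
    (h : u ^ 2 = v ^ 2) : u = v := by
  obtain ⟨k, hk⟩ := (hu.mul hv).add_one |> even_iff_two_dvd.mp
  have h1 : u ^ (orderOf u * orderOf v) = 1 := by rw [pow_mul, pow_orderOf_eq_one, one_pow]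
  have h2 : v ^ (orderOf u * orderOf v) = 1 := by rw [mul_comm, pow_mul, pow_orderOf_eq_one, one_pow]
  have h3 : u ^ (2 * k) = u := by rw [← hk, pow_succ, h1, one_mul]
  have h4 : v ^ (2 * k) = v := by rw [← hk, pow_succ, h2, one_mul]
  rw [← h3, ← h4, pow_mul, pow_mul, h]

/-- Let D be a conjugation-invariant set of involutions of a finite group G. Then every product of two members of D has odd order or order 2 if and only if, for every a in D and every b in D different from a and commuting with a, the members of D commuting with a b are exactly those commuting with both a and b. -/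
theorem result {G : Type*} [Group G] [Finite G] {D : Set G} (hinv : ∀ d ∈ D, orderOf d = 2) (hconj : ∀ g : G, ∀ d ∈ D, g * d * g⁻¹ ∈ D) : (∀ a ∈ D, ∀ b ∈ D, Odd (orderOf (a * b)) ∨ orderOf (a * b) = 2) ↔ ∀ a ∈ D, ∀ b ∈ D, b ≠ a → Commute a b → {y : G | y ∈ D ∧ Commute (a * b) y} = {y : G | y ∈ D ∧ Commute a y} ∩ {y : G | y ∈ D ∧ Commute b y} := by
  constructor
  · intro h a ha b hb hne hcomm
    ext y
    constructor
    · rintro ⟨hy, hay⟩
      have ha2 := sq_one (hinv a ha)
      have hb2 := sq_one (hinv b hb)
      have hy2 := sq_one (hinv y hy)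
      have ha' := inv_of_sq_one ha2
      have hb' := inv_of_sq_one hb2
      have hy' := inv_of_sq_one hy2
      have huv : (a * y) ^ 2 = (b * y) ^ 2 := by
        have h1 : y * (a * b) = (a * b) * y := hay.symm.eq
        have h2 : a * y * a = b * y * b := by
          calc a * y * a = a * (y * (a * b)) * b := by simp only [mul_assoc, hb2, mul_one]
            _ = a * ((a * b) * y) * b := by rw [h1]
            _ = b * y * b := by simp only [← mul_assoc, ha2, one_mul]
        simp only [pow_two]
        calc a * y * (a * y) = (a * y * a) * y := by group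
          _ = (b * y * b) * y := by rw [h2]
          _ = b * y * (b * y) := by group
      have comm_of : ∀ c : G, c * c = 1 → (c * y) ^ 2 = 1 → Commute c y := by
        intro c hc hc1
        have hc' := inv_of_sq_one hc
        rw [pow_two] at hc1
        have : c * y = (c * y)⁻¹ := (inv_eq_of_mul_eq_one_left hc1).symm
        rw [mul_inv_rev, hc', hy'] at this
        exact this
      rcases h a ha y hy with h1 | h1
      · rcases h b hb y hy with h2 | h2
        · exact absurd (mul_right_cancel (eq_of_sq_eq h1 h2 huv)).symm hne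
        · have h3 : (b * y) ^ 2 = 1 := by rw [← h2, pow_orderOf_eq_one]
          exact ⟨⟨hy, comm_of a ha2 (huv.trans h3)⟩, ⟨hy, comm_of b hb2 h3⟩⟩
      · have h3 : (a * y) ^ 2 = 1 := by rw [← h1, pow_orderOf_eq_one]
        exact ⟨⟨hy, comm_of a ha2 h3⟩, ⟨hy, comm_of b hb2 (huv.symm.trans h3)⟩⟩
    · rintro ⟨⟨hy, h1⟩, ⟨-, h2⟩⟩
      exact ⟨hy, h1.mul_left h2⟩
  · intro h a ha b hb
    by_contra hcon
    push Not at hcon
    obtain ⟨hn1, hn2⟩ := hcon
    have ha2 := sq_one (hinv a ha)
    have hb2 := sq_one (hinv b hb)
    have hev : Even (orderOf (a * b)) := Nat.not_odd_iff_even.mp hn1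
    obtain ⟨k, hk⟩ := even_iff_two_dvd.mp hev
    have hpos : 0 < orderOf (a * b) := orderOf_pos _
    have hk0 : k ≠ 0 := by rintro rfl; rw [mul_zero] at hk; omega
    obtain ⟨k', rfl⟩ := Nat.exists_eq_succ_of_ne_zero hk0
    set z := (a * b) ^ (k' + 1) with hz
    have hz2 : z * z = 1 := by
      rw [hz, ← pow_add, ← two_mul, ← hk, pow_orderOf_eq_one]
    have hz1 : z ≠ 1 := by
      intro h1
      have := orderOf_dvd_of_pow_eq_one h1
      have h3 := Nat.le_of_dvd (by omega) this
      omega
    have hza : Commute a z := by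
      have h1 := conj_pow_eq ha2 hb2 (k' + 1)
      rw [← hz, inv_of_sq_one hz2, inv_of_sq_one ha2] at h1
      show a * z = z * a
      calc a * z = a * z * (a * a) := by rw [ha2, mul_one]
        _ = (a * z * a) * a := by group
        _ = z * a := by rw [h1]
    have hmem : a * z ∈ D := by
      rw [hz, mul_alt_word ha2]
      exact (alt_word_mem hconj ha2 hb2 ha hb k').1
    have hne : a * z ≠ a := by
      intro h1
      apply hz1
      exact mul_left_cancel (a := a) (by rw [h1, mul_one])
    have hset := h a ha (a * z) hmem hne (hza.mul_right (Commute.refl a) |> fun _ => (Commute.refl a).mul_right hza)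
    have e : a * (a * z) = z := by rw [← mul_assoc, ha2, one_mul]
    rw [e] at hset
    have hzb : Commute z b := by
      have h1 : Commute z (a * b) := by
        rw [hz]
        exact (Commute.refl _).pow_left _
      have h2 : b = a * (a * b) := by rw [← mul_assoc, ha2, one_mul]
      rw [h2]
      exact hza.symm.mul_right h1
    have hmb : b ∈ {y : G | y ∈ D ∧ Commute z y} := ⟨hb, hzb⟩
    rw [hset] at hmb
    have hab : Commute a b := hmb.1.2
    have h3 : (a * b) ^ 2 = 1 := by
      rw [pow_two]
      calc a * b * (a * b) = a * (b * a) * b := by group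
        _ = a * (a * b) * b := by rw [hab.eq]
        _ = (a * a) * (b * b) := by group
        _ = 1 := by rw [ha2, hb2, one_mul]
    have h4 := orderOf_dvd_of_pow_eq_one h3
    have h5 : orderOf (a * b) ≤ 2 := Nat.le_of_dvd (by norm_num) h4
    omega

end Cfsg.Agent.S5363
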