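import Cfsg.Statements.S5364
import Cfsg.Agent.Lib.H25.Dihedral

set_option autoImplicit false
open Cfsg

namespace Cfsg.Agent.S5364

open Cfsg.Agent.H25

theorem sq_one {G : Type*} [Group G] {d : G} (h : orderOf d = 2) : d * d = 1 := by
  rw [← pow_two, ← h, pow_orderOf_eq_one]

/-- Let D be a conjugation-invariant set of involutions of a finite group G and t an involution in the centre of G such that d t does not lie in D for any d in D. If the images of the members of D in G modulo the subgroup generated by t satisfy the 3-transposition order conditions (each has order 2 and any two have product of order at most 3), then so do the members of D. -/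
theorem result {G : Type*} [Group G] [Finite G] {D : Set G} (hinv : ∀ d ∈ D, orderOf d = 2) (hconj : ∀ g : G, ∀ d ∈ D, g * d * g⁻¹ ∈ D) (t : G) (ht : orderOf t = 2) (htZ : t ∈ Subgroup.center G) (hDt : ∀ d ∈ D, d * t ∉ D) [(Subgroup.zpowers t).Normal] (himg : Cfsg.IsThreeTranspositionSet ((QuotientGroup.mk : G → G ⧸ Subgroup.zpowers t) '' D)) : Cfsg.IsThreeTranspositionSet D := by
  refine ⟨hinv, fun a ha b hb => ?_⟩
  have ha2 := sq_one (hinv a ha)
  have hb2 := sq_one (hinv b hb)
  have ht2 := sq_one ht
  -- elements of `⟨t⟩`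
  have hmem : ∀ x : G, x ∈ Subgroup.zpowers t → x = 1 ∨ x = t := by
    intro x hx
    obtain ⟨n, rfl⟩ := Subgroup.mem_zpowers_iff.mp hx
    rcases Int.even_or_odd' n with ⟨m, rfl | rfl⟩
    · left
      rw [zpow_mul, zpow_ofNat, pow_two, ht2, one_zpow]
    · right
      rw [zpow_add, zpow_mul, zpow_ofNat, pow_two, ht2, one_zpow, one_mul, zpow_one]
  have hbad : ∀ j : ℕ, (a * b) ^ (j + 1) ≠ t := by
    intro j hj
    have h1 := (alt_word_mem hconj ha2 hb2 ha hb j).1
    rw [← mul_alt_word ha2, hj] at h1
    exact hDt a ha h1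
  have key : ∀ j : ℕ, ((QuotientGroup.mk a : G ⧸ Subgroup.zpowers t) * QuotientGroup.mk b) ^ (j + 1) = 1 →
      (a * b) ^ (j + 1) = 1 := by
    intro j hj
    have h1 : ((a * b) ^ (j + 1) : G) ∈ Subgroup.zpowers t := by
      rw [← QuotientGroup.eq_one_iff]
      rw [QuotientGroup.mk_pow, QuotientGroup.mk_mul]
      exact hj
    rcases hmem _ h1 with h2 | h2
    · exact h2
    · exact absurd h2 (hbad j)
  rcases himg.2 _ ⟨a, ha, rfl⟩ _ ⟨b, hb, rfl⟩ with h | h
  · exact Or.inl (key 1 h)
  · exact Or.inr (key 2 h)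

end Cfsg.Agent.S5364
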