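import Cfsg.Statements.S5365
import Cfsg.Agent.Lib.H25.TTK33

set_option autoImplicit false
open Cfsg

namespace Cfsg.Agent.S5365

open Cfsg.Agent.H25

/-- Let D be a non-empty conjugation-invariant set of involutions of a finite group G satisfying the 3-transposition order conditions, and suppose that for every d in D the members of D other than d commuting with d generate a subgroup isomorphic to the symmetric group of degree 3, and the largest normal 3-subgroup of the centralizer of d has order 3. Then the subgroup generated by D is isomorphic to the symmetric group of degree 5 or to the direct product of two symmetric groups of degree 3. -/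
theorem result {G : Type*} [Group G] [Finite G] {D : Set G} (hD : Cfsg.IsThreeTranspositionSet D) (hconj : ∀ g : G, ∀ d ∈ D, g * d * g⁻¹ ∈ D) (hne : D.Nonempty) (hloc : ∀ d ∈ D, Nonempty (↥(Subgroup.closure {y : G | y ∈ D ∧ y ≠ d ∧ Commute d y}) ≃* Equiv.Perm (Fin 3)) ∧ Nat.card (Cfsg.pCore 3 ↥(Subgroup.centralizer ({d} : Set G))) = 3) : Nonempty (↥(Subgroup.closure D) ≃* Equiv.Perm (Fin 5)) ∨ Nonempty (↥(Subgroup.closure D) ≃* Equiv.Perm (Fin 3) × Equiv.Perm (Fin 3)) := by
  have hT : TTS D := TTS.of_set hD hconj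
  have hloc1 : ∀ s ∈ D, Nonempty (↥(Subgroup.closure (Nb D s)) ≃* Equiv.Perm (Fin 3)) := fun s hs => (hloc s hs).1
  have hL : LS D := ls_of_local hT hloc1
  have hO : ∀ x ∈ D, Nat.card (pCore 3 ↥(Subgroup.centralizer ({x} : Set G))) = 3 := fun s hs => (hloc s hs).2
  by_cases hnoK : ∀ p ∈ D, ∀ u ∈ Nb D p, ∀ v ∈ Nb D p, u ≠ v → Nb D u ≠ Nb D v
  · exact Or.inl (caseII hD hT hL hne hnoK)
  · push Not at hnoK
    obtain ⟨p, hp, u, hu, v, hv, huv, hN⟩ := hnoK
    exact Or.inr (caseI hD hT hL hO hp hu hv huv hN hloc1)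

end Cfsg.Agent.S5365
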