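import Cfsg.Statements.S5366
import Cfsg.Agent.Lib.H25.TTPlane

set_option autoImplicit false
open Cfsg

namespace Cfsg.Agent.S5366

open Cfsg.Agent.H25

variable {X : Type*} {L : Set (Set X)}

open Cfsg.LineSystem

theorem plane_of (hL : Cfsg.IsFischerSpace L) {l m : Set X} (hl : l ∈ L) (hm : m ∈ L) (hlm : l ≠ m) {p : X}
    (hpl : p ∈ l) (hpm : p ∈ m) :
    GoodPlane L (span L (l ∪ m)) ∧ l ⊆ span L (l ∪ m) ∧ m ⊆ span L (l ∪ m) :=
  ⟨goodPlane_span hL hl hm hlm ⟨p, hpl, hpm⟩,
    fun _ h => subset_span L _ (Or.inl h), fun _ h => subset_span L _ (Or.inr h)⟩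

theorem comm_aux (hL : Cfsg.IsFischerSpace L) {x y : X} (hxy : x ≠ y) (hn : ¬ LineSystem.Collinear L x y) (w : X) :
    lineMap L x (lineMap L y w) = lineMap L y (lineMap L x w) := by
  by_cases c1 : LineSystem.Collinear L x w <;> by_cases c2 : LineSystem.Collinear L y w
  · obtain ⟨_, m1, hm1, hx1, hw1⟩ := c1
    obtain ⟨_, m2, hm2, hy2, hw2⟩ := c2
    have hne : m1 ≠ m2 := by
      rintro rfl
      exact hn ⟨hxy, m1, hm1, hx1, hy2⟩
    obtain ⟨P, h1, h2⟩ := plane_of hL hm1 hm2 hne hw1 hw2
    exact P.comm x (h1 hx1) y (h2 hy2) hxy hn w (h1 hw1)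
  · rw [lineMap_of_not c2]
    obtain ⟨z, hzx, hzw, hline, h1, h2⟩ := exists_third hL c1
    rw [h1]
    by_cases c3 : LineSystem.Collinear L y z
    · obtain ⟨_, m2, hm2, hy2, hz2⟩ := c3
      have hne : ({x, w, z} : Set X) ≠ m2 := by
        intro e
        exact hn ⟨hxy, m2, hm2, by rw [← e]; simp, hy2⟩
      obtain ⟨P, h3, h4⟩ := plane_of hL hline hm2 hne (by simp) hz2
      have := P.comm x (h3 (by simp)) y (h4 hy2) hxy hn w (h3 (by simp))
      rw [lineMap_of_not c2, h1] at this
      exact this
    · rw [lineMap_of_not c3]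
  · rw [lineMap_of_not c1]
    obtain ⟨z, hzy, hzw, hline, h1, h2⟩ := exists_third hL c2
    rw [h1]
    by_cases c3 : LineSystem.Collinear L x z
    · obtain ⟨_, m1, hm1, hx1, hz1⟩ := c3
      have hne : ({y, w, z} : Set X) ≠ m1 := by
        intro e
        exact hn ⟨hxy, m1, hm1, hx1, by rw [← e]; simp⟩
      obtain ⟨P, h3, h4⟩ := plane_of hL hline hm1 hne (by simp) hz1
      have := P.comm x (h4 hx1) y (h3 (by simp)) hxy hn w (h3 (by simp))
      rw [lineMap_of_not c1, h1] at this
      exact this
    · rw [lineMap_of_not c3]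
  · rw [lineMap_of_not c1, lineMap_of_not c2, lineMap_of_not c1]

theorem order3_aux (hL : Cfsg.IsFischerSpace L) {x y : X} (hxy : LineSystem.Collinear L x y) (w : X) :
    lineMap L x (lineMap L y (lineMap L x (lineMap L y (lineMap L x (lineMap L y w))))) = w := by
  obtain ⟨z, hzx, hzy, hline, h1, h2⟩ := exists_third hL hxy
  have hne := hxy.1
  have hline' : ({y, x, z} : Set X) ∈ L := by
    have e : ({y, x, z} : Set X) = {x, y, z} := by
      ext w; simp only [Set.mem_insert_iff, Set.mem_singleton_iff]; tauto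
    rwa [e]
  have h3 : lineMap L y x = z := lineMap_eq hL hline' hzy hzx hne.symm
  have h4 : lineMap L y z = x := by
    rw [← h3, lineMap_invol hL]
  have hxx : lineMap L x x = x := lineMap_of_not (fun h => h.1 rfl)
  have hyy : lineMap L y y = y := lineMap_of_not (fun h => h.1 rfl)
  by_cases hwl : w ∈ ({x, y, z} : Set X)
  · simp only [Set.mem_insert_iff, Set.mem_singleton_iff] at hwl
    rcases hwl with rfl | rfl | rfl
    · rw [h3, h2, hyy, h1, h4, hxx]
    · rw [hyy, h1, h4, hxx, h3, h2]
    · rw [h4, hxx, h3, h2, hyy, h1]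
  · by_cases c1 : LineSystem.Collinear L x w
    · obtain ⟨_, m, hm, hxm, hwm⟩ := c1
      have hne' : ({x, y, z} : Set X) ≠ m := fun e => hwl (by rw [e]; exact hwm)
      obtain ⟨P, h5, h6⟩ := plane_of hL hline hm hne' (by simp) hxm
      exact P.order3 x (h6 hxm) y (h5 (by simp)) hxy w (h6 hwm)
    · by_cases c2 : LineSystem.Collinear L y w
      · obtain ⟨_, m, hm, hym, hwm⟩ := c2
        have hne' : ({x, y, z} : Set X) ≠ m := fun e => hwl (by rw [e]; exact hwm)
        obtain ⟨P, h5, h6⟩ := plane_of hL hline hm hne' (by simp) hym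
        exact P.order3 x (h5 (by simp)) y (h6 hym) hxy w (h6 hwm)
      · simp only [lineMap_of_not c1, lineMap_of_not c2]

theorem image_mem (hL : Cfsg.IsFischerSpace L) (x : X) {l : Set X} (hl : l ∈ L) : lineMap L x '' l ∈ L := by
  by_cases hx : x ∈ l
  · obtain ⟨a, b, c, hab, hac, hbc, rfl⟩ := Set.ncard_eq_three.mp (hL.2.1 l hl)
    have key : ∀ {y z : X}, ({x, y, z} : Set X) ∈ L → y ≠ x → z ≠ x → y ≠ z → lineMap L x '' {x, y, z} ∈ L := by
      intro y z h hy hz hyz
      have h1 : lineMap L x y = z := lineMap_eq hL h hz (Ne.symm hyz) (Ne.symm hy)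
      have h2 : lineMap L x z = y := by rw [← h1, lineMap_invol hL]
      have h3 : lineMap L x x = x := lineMap_of_not (fun h => h.1 rfl)
      simp only [Set.image_insert_eq, Set.image_singleton, h1, h2, h3]
      have e : ({x, z, y} : Set X) = {x, y, z} := by
        ext w; simp only [Set.mem_insert_iff, Set.mem_singleton_iff]; tauto
      rwa [e]
    simp only [Set.mem_insert_iff, Set.mem_singleton_iff] at hx
    rcases hx with rfl | rfl | rfl
    · exact key hl (Ne.symm hab) (Ne.symm hac) hbc
    · have e : ({a, x, c} : Set X) = {x, a, c} := by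
        ext w; simp only [Set.mem_insert_iff, Set.mem_singleton_iff]; tauto
      rw [e] at hl ⊢
      exact key hl hab (Ne.symm hbc) hac
    · have e : ({a, b, x} : Set X) = {x, a, b} := by
        ext w; simp only [Set.mem_insert_iff, Set.mem_singleton_iff]; tauto
      rw [e] at hl ⊢
      exact key hl hac hbc hab
  · by_cases h : ∃ y ∈ l, LineSystem.Collinear L x y
    · obtain ⟨y, hyl, _, m, hm, hxm, hym⟩ := h
      have hne : l ≠ m := fun e => hx (by rw [e]; exact hxm)
      obtain ⟨P, h1, h2⟩ := plane_of hL hl hm hne hyl hym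
      exact P.line x (h2 hxm) l hl h1
    · push Not at h
      have : lineMap L x '' l = l := by
        ext w
        constructor
        · rintro ⟨v, hv, rfl⟩
          rw [lineMap_of_not (h v hv)]
          exact hv
        · intro hw
          exact ⟨w, hw, lineMap_of_not (h w hw)⟩
      rwa [this]

/-- Let L be a nondegenerate Fischer space on the point type X (every point on a line). Then for every point x the map t(x) — sending a point collinear with x to the third point of their common line and fixing every other point — is a permutation of X of order 2 and an automorphism of the line system; and the set of all t(x) satisfies the 3-transposition order conditions in the permutation group of X (any two have product of order at most 3). -/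
theorem result {X : Type*} (L : Set (Set X)) (hL : Cfsg.IsFischerSpace L) (hnd : Cfsg.LineSystem.IsNondegenerate L) : (∀ x : X, ∃ σ : Equiv.Perm X, ⇑σ = Cfsg.LineSystem.lineMap L x ∧ orderOf σ = 2 ∧ Cfsg.LineSystem.IsIso L L σ) ∧ Cfsg.IsThreeTranspositionSet {σ : Equiv.Perm X | ∃ x : X, ⇑σ = Cfsg.LineSystem.lineMap L x} := by
  classical
  have hinv : ∀ x : X, Function.Involutive (lineMap L x) := fun x y => lineMap_invol hL x y
  let sg : X → Equiv.Perm X := fun x => (hinv x).toPerm
  have hsg : ∀ x y, sg x y = lineMap L x y := fun _ _ => rfl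
  have hsq : ∀ x, sg x * sg x = 1 := by
    intro x
    ext y
    exact hinv x y
  have hord : ∀ x, orderOf (sg x) = 2 := by
    intro x
    haveI : Fact (Nat.Prime 2) := ⟨Nat.prime_two⟩
    apply orderOf_eq_prime
    · rw [pow_two, hsq]
    · intro h
      obtain ⟨l, hl, hx⟩ := hnd x
      obtain ⟨a, b, c, hab, hac, hbc, rfl⟩ := Set.ncard_eq_three.mp (hL.2.1 l hl)
      have : ∃ y, y ≠ x ∧ y ∈ ({a, b, c} : Set X) := by
        by_cases h1 : a = x
        · exact ⟨b, fun e => hab (h1.trans e.symm), by simp⟩
        · exact ⟨a, h1, by simp⟩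
      obtain ⟨y, hyx, hy⟩ := this
      have hc : LineSystem.Collinear L x y := ⟨Ne.symm hyx, _, hl, hx, hy⟩
      obtain ⟨z, -, hzy, -, h1, -⟩ := exists_third hL hc
      apply hzy
      rw [← h1, ← hsg, h]
      rfl
  have hset : ∀ σ : Equiv.Perm X, (∃ x : X, ⇑σ = lineMap L x) → ∃ x, σ = sg x := by
    rintro σ ⟨x, hx⟩
    exact ⟨x, Equiv.ext fun y => by rw [hx]; rfl⟩
  refine ⟨fun x => ⟨sg x, rfl, hord x, ?_⟩, ?_, ?_⟩
  · intro l
    constructor
    · exact image_mem hL x
    · intro h
      have := image_mem hL x h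
      have e : lineMap L x '' (⇑(sg x) '' l) = l := by
        ext w
        constructor
        · rintro ⟨_, ⟨v, hv, rfl⟩, rfl⟩
          rw [hsg, lineMap_invol hL]
          exact hv
        · intro hw
          exact ⟨_, ⟨w, hw, rfl⟩, by rw [hsg, lineMap_invol hL]⟩
      rwa [e] at this
  · intro σ hσ
    obtain ⟨x, rfl⟩ := hset σ hσ
    exact hord x
  · intro σ hσ τ hτ
    obtain ⟨x, rfl⟩ := hset σ hσ
    obtain ⟨y, rfl⟩ := hset τ hτ
    by_cases hxy : x = y
    · left
      subst hxy
      rw [hsq, one_pow]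
    by_cases hc : LineSystem.Collinear L x y
    · right
      ext w
      have := order3_aux hL hc w
      simpa [pow_succ, Equiv.Perm.mul_apply, hsg] using this
    · left
      have hcomm : sg x * sg y = sg y * sg x := by
        ext w
        exact comm_aux hL hxy hc w
      rw [pow_two]
      calc sg x * sg y * (sg x * sg y) = sg x * sg y * (sg y * sg x) := by rw [hcomm]
        _ = sg x * (sg y * sg y) * sg x := by group
        _ = 1 := by rw [hsq, mul_one, hsq]

end Cfsg.Agent.S5366
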