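import Cfsg.Statements.S5367
import Cfsg.Agent.Lib.H25.TTDual
import Cfsg.Agent.S5344

set_option autoImplicit false
open Cfsg

namespace Cfsg.Agent.S5367

open Cfsg.Agent.H25

variable {G : Type*} [Group G] {D : Set G}

open Cfsg.LineSystem

theorem plane_dual (hD : Cfsg.IsThreeTranspositionGroup D) (hT : TTS D) {x y u : D}
    (hxy : ¬ Commute (x : G) (y : G)) (hxu : ¬ Commute (x : G) (u : G)) (hyu : Commute (y : G) (u : G))
    (hne : y ≠ u) :
    Isomorphic (restrict (Cfsg.threeTranspositionLines D)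
      (span (Cfsg.threeTranspositionLines D) (lineOf D x y ∪ lineOf D x u))) Cfsg.dualAffinePlaneTwo := by
  obtain ⟨φ, hφ, h0, h1, h2⟩ := S5344.result hD.1 y.2 x.2 u.2 (fun e => hne (Subtype.ext e)) hyu
    (fun h => hxy h.symm) hxu
  have hmem : ∀ a, φ (trT a) ∈ D := by
    intro a
    rw [trT_conj a, map_mul, map_mul, h0, map_inv]
    exact hT.conj _ _ y.2
  let f : Fin 6 → D := fun a => ⟨φ (trT a), hmem a⟩
  have hf : ∀ a, (f a : G) = φ (trT a) := fun _ => rfl
  have hc : ∀ a b, collT a b → Ln (f a : G) (f b : G) (f (thirdT a b) : G) := by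
    intro a b hab
    refine ⟨?_, ?_⟩
    · intro h
      apply hab
      apply hφ
      rw [map_mul, map_mul]
      exact h.eq
    · rw [hf, hf, hf, trT_third a b hab, map_mul, map_mul]
  have hn : ∀ a b, a ≠ b → ¬ collT a b → Commute (f a : G) (f b : G) ∧ f a ≠ f b := by
    intro a b hab hcab
    have h3 : trT a * trT b = trT b * trT a := by
      by_contra h
      exact hcab h
    refine ⟨?_, ?_⟩
    · show φ (trT a) * φ (trT b) = φ (trT b) * φ (trT a)
      rw [← map_mul, ← map_mul, h3]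
    · intro e
      exact hab (trT_inj (hφ (congrArg Subtype.val e)))
  have hL1 : Ln (x : G) (y : G) ((y : G) * x * y) := ⟨hxy, rfl⟩
  have hL2 : Ln (x : G) (u : G) ((u : G) * x * u) := ⟨hxu, rfl⟩
  have f5 : (f 5 : G) = x := h1
  have f0 : (f 0 : G) = y := h0
  have f1 : (f 1 : G) = u := h2
  have f2 : (f 2 : G) = (y : G) * x * y := by
    rw [← h0, ← h1, ← map_mul, ← map_mul]
    exact congrArg φ (by decide)
  have f3 : (f 3 : G) = (u : G) * x * u := by
    rw [← h2, ← h1, ← map_mul, ← map_mul]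
    exact congrArg φ (by decide)
  have hZ : lineOf D x y ∪ lineOf D x u ⊆ Set.range f := by
    rw [lineOf_eq_of_ln hT hL1, lineOf_eq_of_ln hT hL2]
    rintro z ((hz | hz | hz) | (hz | hz | hz))
    · exact ⟨5, Subtype.ext (f5.trans hz.symm)⟩
    · exact ⟨0, Subtype.ext (f0.trans hz.symm)⟩
    · exact ⟨2, Subtype.ext (f2.trans hz.symm)⟩
    · exact ⟨5, Subtype.ext (f5.trans hz.symm)⟩
    · exact ⟨1, Subtype.ext (f1.trans hz.symm)⟩
    · exact ⟨3, Subtype.ext (f3.trans hz.symm)⟩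
  refine iso_of_model hT f collT thirdT gD Cfsg.dualAffinePlaneTwo hc hn gD_M1 gD_M2 _ hZ ?_
  intro T hseed hcl
  have m5 : (5 : Fin 6) ∈ T := hseed 5 (Or.inl (by
    rw [lineOf_eq_of_ln hT hL1]; exact Or.inl f5))
  have m0 : (0 : Fin 6) ∈ T := hseed 0 (Or.inl (by
    rw [lineOf_eq_of_ln hT hL1]; exact Or.inr (Or.inl f0)))
  have m2 : (2 : Fin 6) ∈ T := hseed 2 (Or.inl (by
    rw [lineOf_eq_of_ln hT hL1]; exact Or.inr (Or.inr f2)))
  have m1 : (1 : Fin 6) ∈ T := hseed 1 (Or.inr (by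
    rw [lineOf_eq_of_ln hT hL2]; exact Or.inr (Or.inl f1)))
  have m3 : (3 : Fin 6) ∈ T := hseed 3 (Or.inr (by
    rw [lineOf_eq_of_ln hT hL2]; exact Or.inr (Or.inr f3)))
  have m4 : (4 : Fin 6) ∈ T := hcl 2 1 m2 m1 (by decide)
  ext a
  simp only [Set.mem_univ, iff_true]
  fin_cases a
  · exact m0
  · exact m1
  · exact m2
  · exact m3
  · exact m4
  · exact m5

theorem Ln.conj' {p q r g : G} (hT : TTS D) (h : Ln p q r) (hq : q ∈ D) (hg : g ∈ D) :
    Ln (g * p * g) (g * q * g) (g * r * g) := by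
  have := h.conj hT hq g
  rwa [hT.inv_eq hg] at this

theorem aff_lines (hT : TTS D) {x y u yp up q22 q21 q12 q11 : G} (hx : x ∈ D) (hy : y ∈ D) (hu : u ∈ D)
    (hxy : ¬ Commute x y) (hxu : ¬ Commute x u) (hyp : yp = y * x * y) (hup : up = u * x * u)
    (N3 : ¬ Commute y u) (N4 : ¬ Commute y up) (N5 : ¬ Commute yp u) (N6 : ¬ Commute yp up)
    (e22 : q22 = u * y * u) (e21 : q21 = up * y * up) (e12 : q12 = u * yp * u) (e11 : q11 = up * yp * up) :
    Ln x y yp ∧ Ln x u up ∧ Ln y u q22 ∧ Ln y up q21 ∧ Ln yp u q12 ∧ Ln yp up q11 ∧ Ln x q22 q11 ∧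
      Ln x q21 q12 ∧ Ln y q11 q12 ∧ Ln yp q22 q21 ∧ Ln u q11 q21 ∧ Ln up q22 q12 := by
  have L1 : Ln x y yp := ⟨hxy, hyp⟩
  have L2 : Ln x u up := ⟨hxu, hup⟩
  have hypD : yp ∈ D := L1.mem_third hT hx hy
  have hupD : up ∈ D := L2.mem_third hT hx hu
  have L3 : Ln y u q22 := ⟨N3, e22⟩
  have L4 : Ln y up q21 := ⟨N4, e21⟩
  have L5 : Ln yp u q12 := ⟨N5, e12⟩
  have L6 : Ln yp up q11 := ⟨N6, e11⟩
  have hq22 : q22 ∈ D := L3.mem_third hT hy hu
  have hq21 : q21 ∈ D := L4.mem_third hT hy hupD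
  have hq12 : q12 ∈ D := L5.mem_third hT hypD hu
  have hq11 : q11 ∈ D := L6.mem_third hT hypD hupD
  obtain ⟨-, a2, a3, a4, a5, a6⟩ := L1.perm hT hx hy hypD
  obtain ⟨-, b2, b3, b4, b5, b6⟩ := L2.perm hT hx hu hupD
  have hxx := hT.sq x hx
  -- `x` conjugation facts
  have cxy : x * y * x = yp := by rw [hyp]; exact hT.braid hx hy hxy
  have cxu : x * u * x = up := by rw [hup]; exact hT.braid hx hu hxu
  have cxup : x * up * x = u := by
    rw [← cxu]
    calc x * (x * u * x) * x = (x * x) * u * (x * x) := by group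
      _ = u := by rw [hxx, one_mul, mul_one]
  have L7 : Ln x q22 q11 := by
    have hn : ¬ Commute x q22 := by
      intro h
      apply N4
      have h1 : Commute (u * x * u⁻¹) (u * q22 * u⁻¹) := (commute_conj_iff u).mpr h
      rw [hT.inv_eq hu, ← hup] at h1
      have h2 : u * q22 * u = y := by
        rw [e22]
        calc u * (u * y * u) * u = (u * u) * y * (u * u) := by group
          _ = y := by rw [hT.sq u hu, one_mul, mul_one]
      rw [h2] at h1
      exact h1.symm
    refine ⟨hn, ?_⟩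
    rw [← hT.braid hx hq22 hn, e11, e22, ← cxy, ← cxu]
    calc (x * u * x) * (x * y * x) * (x * u * x) = x * u * (x * x) * y * (x * x) * u * x := by group
      _ = x * (u * y * u) * x := by rw [hxx, mul_one, mul_one]; group
  have L8 : Ln x q21 q12 := by
    have hupx : up * x * up = u := by
      exact b6.2.symm
    have hn : ¬ Commute x q21 := by
      intro h
      apply N3
      have h1 : Commute (up * x * up⁻¹) (up * q21 * up⁻¹) := (commute_conj_iff up).mpr h
      rw [hT.inv_eq hupD, hupx] at h1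
      have h2 : up * q21 * up = y := by
        rw [e21]
        calc up * (up * y * up) * up = (up * up) * y * (up * up) := by group
          _ = y := by rw [hT.sq up hupD, one_mul, mul_one]
      rw [h2] at h1
      exact h1.symm
    refine ⟨hn, ?_⟩
    rw [← hT.braid hx hq21 hn, e12, e21, ← cxy]
    calc u * (x * y * x) * u = (x * up * x) * (x * y * x) * (x * up * x) := by rw [cxup]
      _ = x * up * (x * x) * y * (x * x) * up * x := by group
      _ = x * (up * y * up) * x := by rw [hxx, mul_one, mul_one]; group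
  have L9 : Ln y q11 q12 := by
    have h1 := Ln.conj' hT b5 hx hypD
    -- `b5 : Ln up x u`, hmm: conjugate of the line through `up, u, x`
    have h2 : Ln up u x := b4
    have h3 := Ln.conj' hT h2 hu hypD
    have e1 : yp * up * yp = q11 := by rw [e11]; exact hT.braid hypD hupD N6
    have e2 : yp * u * yp = q12 := by rw [e12]; exact hT.braid hypD hu N5
    have e3 : yp * x * yp = y := a6.2.symm
    rw [e1, e2, e3] at h3
    exact (h3.perm hT hq11 hq12 hy).2.2.2.2.1
  have L10 : Ln yp q22 q21 := by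
    have h2 : Ln u up x := b3
    have h3 := Ln.conj' hT h2 hupD hy
    have e1 : y * u * y = q22 := by rw [e22]; exact hT.braid hy hu N3
    have e2 : y * up * y = q21 := by rw [e21]; exact hT.braid hy hupD N4
    have e3 : y * x * y = yp := hyp.symm
    rw [e1, e2, e3] at h3
    exact (h3.perm hT hq22 hq21 hypD).2.2.2.2.1
  have L11 : Ln u q11 q21 := by
    have h2 : Ln yp y x := a4
    have h3 := Ln.conj' hT h2 hy hupD
    have e1 : up * yp * up = q11 := e11.symm
    have e2 : up * y * up = q21 := e21.symm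
    have e3 : up * x * up = u := b6.2.symm
    rw [e1, e2, e3] at h3
    exact (h3.perm hT hq11 hq21 hu).2.2.2.2.1
  have L12 : Ln up q22 q12 := by
    have h2 : Ln y yp x := a3
    have h3 := Ln.conj' hT h2 hypD hu
    have e1 : u * y * u = q22 := e22.symm
    have e2 : u * yp * u = q12 := e12.symm
    have e3 : u * x * u = up := hup.symm
    rw [e1, e2, e3] at h3
    exact (h3.perm hT hq22 hq12 hupD).2.2.2.2.1
  exact ⟨L1, L2, L3, L4, L5, L6, L7, L8, L9, L10, L11, L12⟩

theorem plane_aff (hT : TTS D) {x y u : D}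
    (hxy : ¬ Commute (x : G) (y : G)) (hxu : ¬ Commute (x : G) (u : G))
    (N3 : ¬ Commute (y : G) (u : G)) (N4 : ¬ Commute (y : G) ((u : G) * x * u))
    (N5 : ¬ Commute ((y : G) * x * y) (u : G)) (N6 : ¬ Commute ((y : G) * x * y) ((u : G) * x * u)) :
    Isomorphic (restrict (Cfsg.threeTranspositionLines D)
      (span (Cfsg.threeTranspositionLines D) (lineOf D x y ∪ lineOf D x u))) Cfsg.affinePlaneThree := by
  have hypD : (y : G) * x * y ∈ D := hT.conj' x.2 y.2
  have hupD : (u : G) * x * u ∈ D := hT.conj' x.2 u.2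
  let yp : D := ⟨_, hypD⟩
  let up : D := ⟨_, hupD⟩
  let q22 : D := ⟨(u : G) * y * u, hT.conj' y.2 u.2⟩
  let q21 : D := ⟨(up : G) * y * up, hT.conj' y.2 up.2⟩
  let q12 : D := ⟨(u : G) * yp * u, hT.conj' yp.2 u.2⟩
  let q11 : D := ⟨(up : G) * yp * up, hT.conj' yp.2 up.2⟩
  obtain ⟨L1, L2, L3, L4, L5, L6, L7, L8, L9, L10, L11, L12⟩ :=
    aff_lines hT (yp := (yp : G)) (up := (up : G)) (q22 := (q22 : G)) (q21 := (q21 : G)) (q12 := (q12 : G))
      (q11 := (q11 : G)) x.2 y.2 u.2 hxy hxu rfl rfl N3 N4 N5 N6 rfl rfl rfl rfl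
  let tbl : Fin 3 → Fin 3 → D := ![![x, u, up], ![y, q11, q12], ![yp, q21, q22]]
  let F : X9 → D := fun a => tbl a.1 a.2
  have hL : ∀ t ∈ lst9, Ln (F t.1 : G) (F t.2.1 : G) (F t.2.2 : G) := by
    intro t ht
    simp only [lst9, List.mem_cons, List.not_mem_nil, or_false] at ht
    rcases ht with rfl | rfl | rfl | rfl | rfl | rfl | rfl | rfl | rfl | rfl | rfl | rfl
    · exact L1
    · exact L2
    · exact L3
    · exact L4
    · exact L5
    · exact L6
    · exact L7
    · exact L8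
    · exact L9
    · exact L10
    · exact L11
    · exact L12
  have hc : ∀ a b : X9, a ≠ b → Ln (F a : G) (F b : G) (F (-a - b) : G) := by
    intro a b hab
    obtain ⟨t, ht, h⟩ := cover9 a b hab
    have hl := hL t ht
    rcases h with rfl | rfl | rfl | rfl | rfl | rfl
    · exact hl
    · exact hl.swap hT (F _).2 (F _).2
    · exact (hl.perm hT (F _).2 (F _).2 (F _).2).2.2.2.2.1
    · exact (hl.perm hT (F _).2 (F _).2 (F _).2).2.2.2.1
    · exact (hl.perm hT (F _).2 (F _).2 (F _).2).2.2.1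
    · exact (hl.perm hT (F _).2 (F _).2 (F _).2).2.2.2.2.2
  have hn : ∀ a b : X9, a ≠ b → ¬ (a ≠ b) → Commute (F a : G) (F b : G) ∧ F a ≠ F b :=
    fun _ _ h h' => absurd h h'
  have l1 : lineOf D x y = {z : D | (z : G) = x ∨ (z : G) = y ∨ (z : G) = yp} := lineOf_eq_of_ln hT L1
  have l2 : lineOf D x u = {z : D | (z : G) = x ∨ (z : G) = u ∨ (z : G) = up} := lineOf_eq_of_ln hT L2
  have hZ : lineOf D x y ∪ lineOf D x u ⊆ Set.range F := by
    rw [l1, l2]
    rintro z ((hz | hz | hz) | (hz | hz | hz))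
    · exact ⟨(0, 0), (Subtype.ext hz).symm⟩
    · exact ⟨(1, 0), (Subtype.ext hz).symm⟩
    · exact ⟨(2, 0), (Subtype.ext hz).symm⟩
    · exact ⟨(0, 0), (Subtype.ext hz).symm⟩
    · exact ⟨(0, 1), (Subtype.ext hz).symm⟩
    · exact ⟨(0, 2), (Subtype.ext hz).symm⟩
  refine iso_of_model hT F (fun a b => a ≠ b) (fun a b => -a - b) g9 Cfsg.affinePlaneThree hc hn g9_M1 g9_M2 _ hZ ?_
  intro T hseed hcl
  have s1 : ∀ a : X9, (F a : G) = x → a ∈ T := by
    intro a h
    exact hseed a (Or.inl (by rw [l1]; exact Or.inl h))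
  have s2 : ∀ a : X9, (F a : G) = y → a ∈ T := by
    intro a h
    exact hseed a (Or.inl (by rw [l1]; exact Or.inr (Or.inl h)))
  have s3 : ∀ a : X9, (F a : G) = yp → a ∈ T := by
    intro a h
    exact hseed a (Or.inl (by rw [l1]; exact Or.inr (Or.inr h)))
  have s4 : ∀ a : X9, (F a : G) = u → a ∈ T := by
    intro a h
    exact hseed a (Or.inr (by rw [l2]; exact Or.inr (Or.inl h)))
  have s5 : ∀ a : X9, (F a : G) = up → a ∈ T := by
    intro a h
    exact hseed a (Or.inr (by rw [l2]; exact Or.inr (Or.inr h)))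
  have m00 : ((0, 0) : X9) ∈ T := s1 _ rfl
  have m10 : ((1, 0) : X9) ∈ T := s2 _ rfl
  have m20 : ((2, 0) : X9) ∈ T := s3 _ rfl
  have m01 : ((0, 1) : X9) ∈ T := s4 _ rfl
  have m02 : ((0, 2) : X9) ∈ T := s5 _ rfl
  have m22 : ((2, 2) : X9) ∈ T := by
    have := hcl _ _ m10 m01 (by decide)
    exact (by decide : (-(1, 0) - (0, 1) : X9) = (2, 2)) ▸ this
  have m21 : ((2, 1) : X9) ∈ T := by
    have := hcl _ _ m10 m02 (by decide)
    exact (by decide : (-(1, 0) - (0, 2) : X9) = (2, 1)) ▸ this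
  have m12 : ((1, 2) : X9) ∈ T := by
    have := hcl _ _ m20 m01 (by decide)
    exact (by decide : (-(2, 0) - (0, 1) : X9) = (1, 2)) ▸ this
  have m11 : ((1, 1) : X9) ∈ T := by
    have := hcl _ _ m20 m02 (by decide)
    exact (by decide : (-(2, 0) - (0, 2) : X9) = (1, 1)) ▸ this
  have hall : ∀ a : X9, a = (0, 0) ∨ a = (1, 0) ∨ a = (2, 0) ∨ a = (0, 1) ∨ a = (0, 2) ∨ a = (2, 2) ∨
      a = (2, 1) ∨ a = (1, 2) ∨ a = (1, 1) := by decide
  ext a
  simp only [Set.mem_univ, iff_true]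
  rcases hall a with rfl | rfl | rfl | rfl | rfl | rfl | rfl | rfl | rfl <;> assumption

/-- Let D be a conjugation-invariant generating set of 3-transpositions of a finite group G. Then the line system on D whose lines are the triples {x, y, y x y⁻¹} for non-commuting members x, y of D is a Fischer space: two points lie on at most one line, lines have three points, and two different meeting lines generate a subspace isomorphic to the dual affine plane of order two or to the affine plane of order three. -/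
theorem result {G : Type*} [Group G] [Finite G] {D : Set G} (hD : Cfsg.IsThreeTranspositionGroup D) : Cfsg.IsFischerSpace (Cfsg.threeTranspositionLines D) := by
  have hT : TTS D := TTS.of_group hD
  refine ⟨lines_partialLinear hT, fun l hl => lines_ncard hT hl, ?_⟩
  intro l hl m hm hlm hne
  obtain ⟨x, hxl, hxm⟩ := hne
  -- a second point on each line
  have other : ∀ {k : Set D}, k ∈ Cfsg.threeTranspositionLines D → x ∈ k →
      ∃ y : D, y ∈ k ∧ y ≠ x ∧ ¬ Commute (x : G) (y : G) ∧ k = lineOf D x y := by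
    intro k hk hxk
    obtain ⟨p, q, hpq, rfl⟩ := mem_lines.mp hk
    have hp : p ∈ lineOf D p q := Or.inl rfl
    have hq : q ∈ lineOf D p q := Or.inr (Or.inl rfl)
    have hpq' : p ≠ q := fun e => hpq (by rw [e])
    by_cases hpx : p = x
    · refine ⟨q, hq, fun e => hpq' (hpx.trans e.symm), ?_⟩
      obtain ⟨h1, h2⟩ := lineOf_eq_of_mem hT hpq hxk hq (fun e => hpq' (hpx.trans e))
      exact ⟨h1, h2⟩
    · refine ⟨p, hp, hpx, ?_⟩
      obtain ⟨h1, h2⟩ := lineOf_eq_of_mem hT hpq hxk hp (fun e => hpx e.symm)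
      exact ⟨h1, h2⟩
  by_cases hcase : ∃ y ∈ l, y ≠ x ∧ ∃ u ∈ m, u ≠ x ∧ Commute (y : G) (u : G)
  · obtain ⟨y, hyl, hyx, u, hum, hux, hyu⟩ := hcase
    have hxy : ¬ Commute (x : G) (y : G) := by
      obtain ⟨p, q, hpq, hk⟩ := mem_lines.mp hl
      rw [hk] at hxl hyl
      exact (lineOf_eq_of_mem hT hpq hxl hyl (Ne.symm hyx)).1
    have hxu : ¬ Commute (x : G) (u : G) := by
      obtain ⟨p, q, hpq, hk⟩ := mem_lines.mp hm
      rw [hk] at hxm hum
      exact (lineOf_eq_of_mem hT hpq hxm hum (Ne.symm hux)).1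
    have hl' : l = lineOf D x y := by
      obtain ⟨p, q, hpq, hk⟩ := mem_lines.mp hl
      rw [hk] at hxl hyl ⊢
      exact (lineOf_eq_of_mem hT hpq hxl hyl (Ne.symm hyx)).2
    have hm' : m = lineOf D x u := by
      obtain ⟨p, q, hpq, hk⟩ := mem_lines.mp hm
      rw [hk] at hxm hum ⊢
      exact (lineOf_eq_of_mem hT hpq hxm hum (Ne.symm hux)).2
    have hne : y ≠ u := by
      intro e
      apply hlm
      rw [hl', hm', e]
    left
    rw [hl', hm']
    exact plane_dual hD hT hxy hxu hyu hne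
  · push Not at hcase
    obtain ⟨y, hyl, hyx, hxy, hl'⟩ := other hl hxl
    obtain ⟨u, hum, hux, hxu, hm'⟩ := other hm hxm
    right
    have hLy : Ln (x : G) (y : G) ((y : G) * x * y) := ⟨hxy, rfl⟩
    have hLu : Ln (x : G) (u : G) ((u : G) * x * u) := ⟨hxu, rfl⟩
    have hypD : (y : G) * x * y ∈ D := hT.conj' x.2 y.2
    have hupD : (u : G) * x * u ∈ D := hT.conj' x.2 u.2
    have hyp : (⟨_, hypD⟩ : D) ∈ l := by
      rw [hl', lineOf_eq_of_ln hT hLy]
      exact Or.inr (Or.inr rfl)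
    have hup : (⟨_, hupD⟩ : D) ∈ m := by
      rw [hm', lineOf_eq_of_ln hT hLu]
      exact Or.inr (Or.inr rfl)
    obtain ⟨-, -, -, -, -, a6⟩ := hLy.perm hT x.2 y.2 hypD
    obtain ⟨-, -, -, -, -, b6⟩ := hLu.perm hT x.2 u.2 hupD
    have hypx : (⟨_, hypD⟩ : D) ≠ x := fun e =>
      a6.ne_left hT x.2 hypD (congrArg Subtype.val e).symm
    have hupx : (⟨_, hupD⟩ : D) ≠ x := fun e =>
      b6.ne_left hT x.2 hupD (congrArg Subtype.val e).symm
    rw [hl', hm']
    exact plane_aff hT hxy hxu (hcase y hyl hyx u hum hux) (hcase y hyl hyx _ hup hupx)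
      (hcase _ hyp hypx u hum hux) (hcase _ hyp hypx _ hup hupx)

end Cfsg.Agent.S5367
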