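import Cfsg.Statements.S5393
import Cfsg.Agent.Lib.H27.GolayD

set_option autoImplicit false
set_option maxRecDepth 100000
open scoped Pointwise
open Cfsg

namespace Cfsg.Agent.S5393

open Cfsg.Agent.H27.Golay

theorem one_mem_code : (fun _ : GolayPt => (1 : ZMod 2)) ∈ golayCode :=
  Submodule.subset_span (Or.inr rfl)

/-- Words with equal supports are equal. -/
theorem word_eq_of_support {v w : GolayPt → ZMod 2} (h : support₂ v = support₂ w) : v = w := by
  rw [← wd_support v, ← wd_support w, h]

theorem support_wd_fs {m : ℕ} : support₂ (wd m) = fs m := support_wd m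

variable {W : Submodule (ZMod 2) (GolayPt → ZMod 2)}

theorem pw_mem (hinv : ∀ σ ∈ M24, ∀ w ∈ W, (fun p => w (σ.symm p)) ∈ W) {σ : Equiv.Perm GolayPt}
    (hσ : σ ∈ M24) {w : GolayPt → ZMod 2} (hw : w ∈ W) : pw σ w ∈ W :=
  hinv σ hσ w hw

/-- An octad word in `W` gives everything. -/
theorem eq_of_octad (hWle : W ≤ golayCode)
    (hinv : ∀ σ ∈ M24, ∀ w ∈ W, (fun p => w (σ.symm p)) ∈ W) {w₀ : GolayPt → ZMod 2} (hw₀ : w₀ ∈ W)
    (ho : support₂ w₀ ∈ octads) : W = golayCode := by
  obtain ⟨g₀, hg₀, e₀⟩ := exists_smul_O0 ho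
  have hb : ∀ b ∈ basisL, wd b ∈ W := by
    intro b hb
    have hboct : fs b ∈ octads := by
      apply mem_octads_fs
      · revert b; decide +kernel
      · revert b; decide +kernel
      · revert b; decide +kernel
    obtain ⟨g, hg, e⟩ := exists_smul_O0 hboct
    have h1 := pw_mem hinv (M24.mul_mem hg (M24.inv_mem hg₀)) hw₀
    have h2 : pw (g * g₀⁻¹) w₀ = wd b := by
      apply word_eq_of_support
      rw [support_pw, ← e₀, mul_smul, inv_smul_smul, e, support_wd_fs]
    rwa [h2] at h1
  apply le_antisymm hWle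
  intro w hw
  obtain ⟨c, -, rfl⟩ := exists_cwF_of_mem hw
  exact wd_cwAux_mem W basisL hb c

theorem eq_of_dodecad (hWle : W ≤ golayCode)
    (hinv : ∀ σ ∈ M24, ∀ w ∈ W, (fun p => w (σ.symm p)) ∈ W) {w₀ : GolayPt → ZMod 2} (hw₀ : w₀ ∈ W)
    (ho : support₂ w₀ ∈ dodecads) : W = golayCode := by
  obtain ⟨g₀, hg₀, e₀⟩ := exists_smul_D0 ho
  have hd : ∀ b, b ∈ dodecadL → wd b ∈ W := by
    intro b hb
    obtain ⟨g, hg, e⟩ := exists_smul_D0 (fs_mem_dodecads hb)
    have h1 := pw_mem hinv (M24.mul_mem hg (M24.inv_mem hg₀)) hw₀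
    have h2 : pw (g * g₀⁻¹) w₀ = wd b := by
      apply word_eq_of_support
      rw [support_pw, ← e₀, mul_smul, inv_smul_smul, e, support_wd_fs]
    rwa [h2] at h1
  have h1 : wd 8916911 ∈ W := hd _ (by decide +kernel)
  have h2 : wd 10260655 ∈ W := hd _ (by decide +kernel)
  have h3 := W.add_mem h1 h2
  rw [← wd_xor] at h3
  apply eq_of_octad hWle hinv h3
  rw [support_wd_fs]
  exact mem_octads_fs (by decide +kernel) (by decide +kernel) (by decide +kernel)

theorem card_support_add_one (w : GolayPt → ZMod 2) :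
    (support₂ (w + 1)).card + (support₂ w).card = 24 := by
  have h0 : support₂ (w + 1) = (support₂ w)ᶜ := by
    ext p
    simp only [support₂, Finset.mem_filter, Finset.mem_univ, true_and, Finset.mem_compl, Pi.add_apply,
      Pi.one_apply]
    have : ∀ a : ZMod 2, a + 1 ≠ 0 ↔ ¬ a ≠ 0 := by decide
    exact this _
  rw [h0, Finset.card_compl_add_card]
  simp [Fintype.card_option, ZMod.card]

/-- The code word support classification. -/
theorem word_cases {w : GolayPt → ZMod 2} (hw : w ∈ golayCode) :
    w = 0 ∨ w = 1 ∨ (support₂ w).card = 8 ∨ (support₂ w).card = 12 ∨ (support₂ (w + 1)).card = 8 := by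
  have hs : support₂ w ∈ supports (golayCode : Set (GolayPt → ZMod 2)) := ⟨w, hw, rfl⟩
  have h1' : (1 : GolayPt → ZMod 2) ∈ golayCode := one_mem_code
  have hs1 : support₂ (w + 1) ∈ supports (golayCode : Set (GolayPt → ZMod 2)) :=
    ⟨w + 1, golayCode.add_mem hw h1', rfl⟩
  have hc := card_support_add_one w
  rcases supports_weights hs with h0 | ⟨h8, h4⟩
  · left
    apply word_eq_of_support
    rw [h0]
    ext p
    simp [support₂]
  · rcases supports_weights hs1 with h0' | ⟨h8', h4'⟩
    · right; left
      have : w + 1 = 0 := by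
        apply word_eq_of_support
        rw [h0']
        ext p
        simp [support₂]
      funext p
      have h5 := congrFun this p
      have h6 : ∀ a : ZMod 2, a + 1 = 0 → a = 1 := by decide
      exact h6 _ h5
    · right; right
      obtain ⟨a, ha⟩ := h4
      obtain ⟨b, hb⟩ := h4'
      rw [ha, hb] at hc
      have hab : a + b = 6 := by omega
      have h2 : a = 2 ∨ a = 3 ∨ a = 4 := by
        rw [ha] at h8
        rw [hb] at h8'
        omega
      rcases h2 with rfl | rfl | rfl
      · exact Or.inl ha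
      · exact Or.inr (Or.inl ha)
      · right; right
        have : b = 2 := by omega
        rw [hb, this]

/-- The length-24 code built from the squares modulo 23 contains the all-ones word, and the code modulo the all-ones word is an irreducible module over the field with two elements for the code's automorphism group: a subspace of the code that contains the all-ones word and is invariant under every coordinate permutation preserving the code is either the span of the all-ones word or the whole code. -/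
theorem result : (fun _ : Cfsg.GolayPt => (1 : ZMod 2)) ∈ Cfsg.golayCode ∧ ∀ W : Submodule (ZMod 2) (Cfsg.GolayPt → ZMod 2), (fun _ => (1 : ZMod 2)) ∈ W → W ≤ Cfsg.golayCode → (∀ σ ∈ Cfsg.M24, ∀ w ∈ W, (fun p => w (σ.symm p)) ∈ W) → W = Submodule.span (ZMod 2) {fun _ => (1 : ZMod 2)} ∨ W = Cfsg.golayCode := by
  refine ⟨one_mem_code, ?_⟩
  intro W h1 hle hinv
  by_cases hsp : W ≤ Submodule.span (ZMod 2) {fun _ => (1 : ZMod 2)}
  · left
    exact le_antisymm hsp ((Submodule.span_singleton_le_iff_mem _ _).2 h1)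
  · right
    obtain ⟨w, hw, hwn⟩ := SetLike.not_le_iff_exists.1 hsp
    have hwc := hle hw
    have hone : (1 : GolayPt → ZMod 2) ∈ W := h1
    rcases word_cases hwc with h0 | h0 | h8 | h12 | h8'
    · exact absurd (h0 ▸ Submodule.zero_mem _) hwn
    · refine absurd ?_ hwn
      rw [h0]
      exact Submodule.mem_span_singleton_self _
    · exact eq_of_octad hle hinv hw ⟨⟨w, hwc, rfl⟩, h8⟩
    · exact eq_of_dodecad hle hinv hw ⟨⟨w, hwc, rfl⟩, h12⟩
    · exact eq_of_octad hle hinv (W.add_mem hw hone) ⟨⟨w + 1, golayCode.add_mem hwc one_mem_code, rfl⟩, h8'⟩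

end Cfsg.Agent.S5393
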