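import Cfsg.Statements.S5395

set_option autoImplicit false
open Cfsg

namespace Cfsg.Agent.S5395

variable {E : Type*} [Group E]

/-- For a group whose commutator subgroup is its centre: an automorphism trivial modulo the centre, with
cyclic-by-character separating centre, is inner. -/
theorem inner_of_center_eq [Finite E] (hcomm : commutator E = Subgroup.center E)
    (ι : Subgroup.center E →* ℂˣ) (hι : Function.Injective ι)
    (χ : E →* Subgroup.center E) : ∃ g : E, ∀ x : E, χ x = ⟨g * x * g⁻¹ * x⁻¹, by
      rw [← hcomm]; exact Subgroup.commutator_mem_commutator (Subgroup.mem_top g) (Subgroup.mem_top x)⟩ := by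
  classical
  have hmem : ∀ g x : E, g * x * g⁻¹ * x⁻¹ ∈ Subgroup.center E := fun g x => by
    rw [← hcomm]; exact Subgroup.commutator_mem_commutator (Subgroup.mem_top g) (Subgroup.mem_top x)
  let c : E → E → Subgroup.center E := fun g x => ⟨g * x * g⁻¹ * x⁻¹, hmem g x⟩
  have cz : ∀ (g x : E) (y : E), (g * x * g⁻¹ * x⁻¹) * y = y * (g * x * g⁻¹ * x⁻¹) := fun g x y =>
    ((Subgroup.mem_center_iff.mp (hmem g x)) y).symm
  have c_mul_right : ∀ g x y : E, c g (x * y) = c g x * c g y := by
    intro g x y
    apply Subtype.ext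
    show g * (x * y) * g⁻¹ * (x * y)⁻¹ = (g * x * g⁻¹ * x⁻¹) * (g * y * g⁻¹ * y⁻¹)
    have h1 := cz g y x⁻¹
    calc g * (x * y) * g⁻¹ * (x * y)⁻¹ = g * x * g⁻¹ * x⁻¹ * (x * ((g * y * g⁻¹ * y⁻¹) * x⁻¹)) := by group
      _ = g * x * g⁻¹ * x⁻¹ * (x * (x⁻¹ * (g * y * g⁻¹ * y⁻¹))) := by rw [h1]
      _ = _ := by group
  have c_mul_left : ∀ g h x : E, c (g * h) x = c g x * c h x := by
    intro g h x
    apply Subtype.ext
    show g * h * x * (g * h)⁻¹ * x⁻¹ = (g * x * g⁻¹ * x⁻¹) * (h * x * h⁻¹ * x⁻¹)
    have h1 := cz h x (g⁻¹ * x⁻¹)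
    have h2 := cz h x g
    calc g * h * x * (g * h)⁻¹ * x⁻¹ = g * ((h * x * h⁻¹ * x⁻¹) * x) * g⁻¹ * x⁻¹ := by group
      _ = (g * (h * x * h⁻¹ * x⁻¹)) * x * g⁻¹ * x⁻¹ := by group
      _ = ((h * x * h⁻¹ * x⁻¹) * g) * x * g⁻¹ * x⁻¹ := by rw [h2]
      _ = (h * x * h⁻¹ * x⁻¹) * (g * x * g⁻¹ * x⁻¹) := by group
      _ = (g * x * g⁻¹ * x⁻¹) * (h * x * h⁻¹ * x⁻¹) := (cz h x _)
  let A := Abelianization E
  let T₀ : E → (E →* ℂˣ) := fun g =>
    { toFun := fun x => ι (c g x)
      map_one' := by
        have : c g 1 = 1 := Subtype.ext (by show g * 1 * g⁻¹ * 1⁻¹ = 1; group)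
        rw [this, map_one]
      map_mul' := fun x y => by rw [c_mul_right, map_mul] }
  let T : E →* (A →* ℂˣ) :=
    { toFun := fun g => Abelianization.lift (T₀ g)
      map_one' := by
        apply Abelianization.hom_ext
        ext x
        show ((Abelianization.lift (T₀ 1)) (Abelianization.of x) : ℂ) = 1
        rw [Abelianization.lift_apply_of]
        have : c 1 x = 1 := Subtype.ext (by show 1 * x * 1⁻¹ * x⁻¹ = 1; group)
        show ((ι (c 1 x) : ℂˣ) : ℂ) = 1
        rw [this, map_one]
        rfl
      map_mul' := fun g h => by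
        apply Abelianization.hom_ext
        ext x
        show ((Abelianization.lift (T₀ (g * h))) (Abelianization.of x) : ℂ) =
          ((Abelianization.lift (T₀ g)) (Abelianization.of x) : ℂ) * ((Abelianization.lift (T₀ h)) (Abelianization.of x) : ℂ)
        rw [Abelianization.lift_apply_of, Abelianization.lift_apply_of, Abelianization.lift_apply_of]
        show ((ι (c (g * h) x) : ℂˣ) : ℂ) = ((ι (c g x) : ℂˣ) : ℂ) * ((ι (c h x) : ℂˣ) : ℂ)
        rw [c_mul_left, map_mul]
        rfl }
  let Tb : A →* (A →* ℂˣ) := Abelianization.lift T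
  have hTb : Function.Injective Tb := by
    rw [injective_iff_map_eq_one]
    intro a
    induction a using QuotientGroup.induction_on with
    | H g =>
      intro h
      have h1 : ∀ x : E, c g x = 1 := by
        intro x
        have h2 : Tb (Abelianization.of g) (Abelianization.of x) = 1 := by rw [show Tb (Abelianization.of g) = 1 from h]; rfl
        rw [Abelianization.lift_apply_of] at h2
        have h3 : T g (Abelianization.of x) = 1 := h2
        have h4 : Abelianization.lift (T₀ g) (Abelianization.of x) = 1 := h3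
        rw [Abelianization.lift_apply_of] at h4
        apply hι
        rw [map_one]
        exact h4
      have h2 : g ∈ Subgroup.center E := by
        rw [Subgroup.mem_center_iff]
        intro x
        have h3 := congrArg Subtype.val (h1 x)
        have h4 : g * x * g⁻¹ * x⁻¹ = 1 := h3
        have h5 : g * x * g⁻¹ = x := by rwa [mul_inv_eq_one] at h4
        have h6 : g * x = x * g := by rwa [mul_inv_eq_iff_eq_mul] at h5
        exact h6.symm
      rw [← hcomm] at h2
      exact (QuotientGroup.eq_one_iff g).mpr h2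
  have hne : NeZero ((Monoid.exponent A : ℕ) : ℂ) := ⟨by
    rw [Nat.cast_ne_zero]
    exact Monoid.exponent_ne_zero_of_finite⟩
  have hcard : Nat.card (A →* ℂˣ) = Nat.card A := CommGroup.card_monoidHom_of_hasEnoughRootsOfUnity A ℂ
  have hfin : Finite (A →* ℂˣ) := Nat.finite_of_card_ne_zero (by rw [hcard]; exact Nat.card_pos.ne')
  have hbij : Function.Bijective Tb := (Nat.bijective_iff_injective_and_card Tb).mpr ⟨hTb, hcard.symm⟩
  obtain ⟨a, ha⟩ := hbij.2 (Abelianization.lift (ι.comp χ))
  induction a using QuotientGroup.induction_on with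
  | H g =>
    refine ⟨g, fun x => ?_⟩
    apply hι
    have h2 : Tb (Abelianization.of g) (Abelianization.of x) = (Abelianization.lift (ι.comp χ)) (Abelianization.of x) := by
      rw [show Tb (Abelianization.of g) = _ from ha]
    rw [Abelianization.lift_apply_of, Abelianization.lift_apply_of] at h2
    have h3 : T g (Abelianization.of x) = Abelianization.lift (T₀ g) (Abelianization.of x) := rfl
    rw [h3, Abelianization.lift_apply_of] at h2
    exact h2.symm

/-- For a finite extraspecial 2-group E, an automorphism of E that induces the identity on E modulo its centre is inner (so these automorphisms form exactly the inner automorphism group, an elementary abelian 2-group of order |E|/2). -/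
theorem result {E : Type*} [Group E] [Finite E] (hE : Cfsg.IsExtraspecial 2 E) (φ : E ≃* E) (hφ : ∀ x : E, φ x * x⁻¹ ∈ Subgroup.center E) : ∃ g : E, ∀ x : E, φ x = g * x * g⁻¹ := by
  classical
  have hcomm : commutator E = Subgroup.center E := hE.1.2.2
  have hZ : Nat.card (Subgroup.center E) = 2 := hE.2
  haveI : Fact (Nat.Prime 2) := ⟨Nat.prime_two⟩
  -- an injective character of the centre
  haveI : Nontrivial (Subgroup.center E) := by
    apply (Finite.one_lt_card_iff_nontrivial).mp
    rw [hZ]; norm_num
  obtain ⟨z, hz⟩ := exists_ne (1 : Subgroup.center E)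
  letI : CommGroup (Subgroup.center E) :=
    { (inferInstance : Group (Subgroup.center E)) with mul_comm := fun a b => mul_comm' a b }
  have hne : NeZero ((Monoid.exponent (Subgroup.center E) : ℕ) : ℂ) := ⟨by
    rw [Nat.cast_ne_zero]
    exact Monoid.exponent_ne_zero_of_finite⟩
  obtain ⟨ι, hι⟩ := CommGroup.exists_apply_ne_one_of_hasEnoughRootsOfUnity (Subgroup.center E) ℂ hz
  have hι' : Function.Injective ι := by
    rw [injective_iff_map_eq_one]
    intro a ha
    by_contra hne
    apply hι
    -- the centre has exactly two elements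
    have h1 : a = z := by
      obtain ⟨x, y, hxy, h⟩ := Nat.card_eq_two_iff.mp hZ
      have all : ∀ u : Subgroup.center E, u = x ∨ u = y := fun u => by
        have := Set.mem_univ u
        rw [← h] at this
        simpa using this
      rcases all a with h1 | h1 <;> rcases all z with h2 | h2 <;> rcases all 1 with h3 | h3 <;> grind
    rw [← h1]; exact ha
  let χ : E →* Subgroup.center E :=
    { toFun := fun x => ⟨φ x * x⁻¹, hφ x⟩
      map_one' := Subtype.ext (by simp)
      map_mul' := fun x y => by
        apply Subtype.ext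
        show φ (x * y) * (x * y)⁻¹ = φ x * x⁻¹ * (φ y * y⁻¹)
        have h1 := Subgroup.mem_center_iff.mp (hφ y) (x⁻¹)
        rw [map_mul, mul_inv_rev]
        calc φ x * φ y * (y⁻¹ * x⁻¹) = φ x * ((φ y * y⁻¹) * x⁻¹) := by group
          _ = φ x * (x⁻¹ * (φ y * y⁻¹)) := by rw [← h1]
          _ = _ := by group }
  obtain ⟨g, hg⟩ := inner_of_center_eq hcomm ι hι' χ
  refine ⟨g, fun x => ?_⟩
  have h2 := congrArg Subtype.val (hg x)
  have h3 : φ x * x⁻¹ = g * x * g⁻¹ * x⁻¹ := h2
  exact mul_right_cancel h3

end Cfsg.Agent.S5395
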