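import Cfsg.Statements.S5396
import Cfsg.Agent.Lib.H29.ExtraSp2
-- import your own Cfsg.Agent.* helpers here

set_option autoImplicit false
open Cfsg

namespace Cfsg.Agent.S5396

open Cfsg.Agent.H29.XS

/-- The pointwise bilinear form. -/
def bp (e : ZMod 2) (p r : ZMod 2 × ZMod 2) : ZMod 2 := p.2 * r.1 + e * (p.1 * r.1 + p.2 * r.2)

lemma bp_add_left (e : ZMod 2) (p q r : ZMod 2 × ZMod 2) : bp e (p + q) r = bp e p r + bp e q r := by
  simp only [bp, Prod.fst_add, Prod.snd_add]
  ring

lemma bp_add_right (e : ZMod 2) (p q r : ZMod 2 × ZMod 2) : bp e r (p + q) = bp e r p + bp e r q := by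
  simp only [bp, Prod.fst_add, Prod.snd_add]
  ring

lemma bp_zero_left (e : ZMod 2) (r : ZMod 2 × ZMod 2) : bp e 0 r = 0 := by
  simp [bp]

lemma bp_zero_right (e : ZMod 2) (r : ZMod 2 × ZMod 2) : bp e r 0 = 0 := by
  simp [bp]

variable {n : ℕ}

/-- The bilinear form. -/
def bt (η : Fin n → ZMod 2) (v w : Fin n → ZMod 2 × ZMod 2) : ZMod 2 := ∑ i, bp (η i) (v i) (w i)

lemma bt_add_left (η : Fin n → ZMod 2) (u v w : Fin n → ZMod 2 × ZMod 2) :
    bt η (u + v) w = bt η u w + bt η v w := by
  simp only [bt, Pi.add_apply, bp_add_left, Finset.sum_add_distrib]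

lemma bt_add_right (η : Fin n → ZMod 2) (u v w : Fin n → ZMod 2 × ZMod 2) :
    bt η w (u + v) = bt η w u + bt η w v := by
  simp only [bt, Pi.add_apply, bp_add_right, Finset.sum_add_distrib]

lemma bt_zero_left (η : Fin n → ZMod 2) (w : Fin n → ZMod 2 × ZMod 2) : bt η 0 w = 0 := by
  simp [bt, bp_zero_left]

lemma bt_zero_right (η : Fin n → ZMod 2) (w : Fin n → ZMod 2 × ZMod 2) : bt η w 0 = 0 := by
  simp [bt, bp_zero_right]

lemma bt_single_right (η : Fin n → ZMod 2) (v : Fin n → ZMod 2 × ZMod 2) (i : Fin n) (p : ZMod 2 × ZMod 2) :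
    bt η v (Pi.single i p) = bp (η i) (v i) p := by
  rw [bt, Finset.sum_eq_single i]
  · simp
  · intro j _ hj
    simp [Pi.single_eq_of_ne hj, bp_zero_right]
  · simp

lemma bt_single_left (η : Fin n → ZMod 2) (v : Fin n → ZMod 2 × ZMod 2) (i : Fin n) (p : ZMod 2 × ZMod 2) :
    bt η (Pi.single i p) v = bp (η i) p (v i) := by
  rw [bt, Finset.sum_eq_single i]
  · simp
  · intro j _ hj
    simp [Pi.single_eq_of_ne hj, bp_zero_left]
  · simp

/-- The group attached to the form. -/
@[ext] structure GG (η : Fin n → ZMod 2) : Type where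
  v : Fin n → ZMod 2 × ZMod 2
  s : ZMod 2

instance (η : Fin n → ZMod 2) : Group (GG η) where
  mul x y := ⟨x.v + y.v, x.s + y.s + bt η x.v y.v⟩
  one := ⟨0, 0⟩
  inv x := ⟨-x.v, -x.s - bt η (-x.v) x.v⟩
  mul_assoc x y w := by
    apply GG.ext
    · exact add_assoc _ _ _
    · show x.s + y.s + bt η x.v y.v + w.s + bt η (x.v + y.v) w.v =
        x.s + (y.s + w.s + bt η y.v w.v) + bt η x.v (y.v + w.v)
      rw [bt_add_left, bt_add_right]
      ring
  one_mul x := by
    apply GG.ext
    · exact zero_add _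
    · show 0 + x.s + bt η 0 x.v = x.s
      rw [bt_zero_left]
      ring
  mul_one x := by
    apply GG.ext
    · exact add_zero _
    · show x.s + 0 + bt η x.v 0 = x.s
      rw [bt_zero_right]
      ring
  inv_mul_cancel x := by
    apply GG.ext
    · exact neg_add_cancel _
    · show -x.s - bt η (-x.v) x.v + x.s + bt η (-x.v) x.v = 0
      ring

lemma GG.mul_v {η : Fin n → ZMod 2} (x y : GG η) : (x * y).v = x.v + y.v := rfl
lemma GG.mul_s {η : Fin n → ZMod 2} (x y : GG η) : (x * y).s = x.s + y.s + bt η x.v y.v := rfl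
lemma GG.one_v {η : Fin n → ZMod 2} : (1 : GG η).v = 0 := rfl
lemma GG.one_s {η : Fin n → ZMod 2} : (1 : GG η).s = 0 := rfl

/-- The coordinates. -/
def GG.equiv (η : Fin n → ZMod 2) : GG η ≃ (Fin n → ZMod 2 × ZMod 2) × ZMod 2 where
  toFun x := (x.v, x.s)
  invFun p := ⟨p.1, p.2⟩
  left_inv _ := rfl
  right_inv _ := rfl

instance (η : Fin n → ZMod 2) : Finite (GG η) := Finite.of_equiv _ (GG.equiv η).symm

lemma GG.card (η : Fin n → ZMod 2) : Nat.card (GG η) = 2 ^ (2 * n + 1) := by
  rw [Nat.card_congr (GG.equiv η), Nat.card_prod, Nat.card_eq_fintype_card, Nat.card_eq_fintype_card]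
  simp only [Fintype.card_pi, Fintype.card_prod, ZMod.card, Finset.prod_const, Finset.card_univ,
    Fintype.card_fin]
  rw [pow_succ, pow_mul]
  norm_num

lemma add2 (x : ZMod 2) : x + x = 0 := by revert x; decide

lemma z01 (x : ZMod 2) : x = 0 ∨ x = 1 := by revert x; decide

lemma v_add_self (v : Fin n → ZMod 2 × ZMod 2) : v + v = 0 := by
  funext i
  apply Prod.ext
  · exact add2 _
  · exact add2 _

theorem GG.xs (η : Fin n → ZMod 2) : XS (GG η) (⟨0, 1⟩ : GG η) := by
  refine ⟨?_, ?_, ?_, ?_, ?_, ?_⟩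
  · intro h
    have : (1 : ZMod 2) = 0 := congrArg GG.s h
    exact one_ne_zero this
  · apply GG.ext
    · exact add_zero _
    · show (1 : ZMod 2) + 1 + bt η 0 0 = 0
      rw [bt_zero_left]
      decide
  · intro x
    apply GG.ext
    · show x.v + 0 = 0 + x.v
      simp
    · show x.s + 1 + bt η x.v 0 = 1 + x.s + bt η 0 x.v
      rw [bt_zero_left, bt_zero_right]
      ring
  · intro x
    rcases z01 (bt η x.v x.v) with h | h
    · left
      apply GG.ext
      · exact v_add_self _
      · show x.s + x.s + bt η x.v x.v = 0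
        rw [h, add2, add_zero]
    · right
      apply GG.ext
      · exact v_add_self _
      · show x.s + x.s + bt η x.v x.v = 1
        rw [h, add2, zero_add]
  · intro a b
    rcases z01 (bt η a.v b.v) with h | h <;> rcases z01 (bt η b.v a.v) with h' | h'
    · left
      apply GG.ext
      · exact add_comm _ _
      · show a.s + b.s + bt η a.v b.v = b.s + a.s + bt η b.v a.v
        rw [h, h']
        ring
    · right
      apply GG.ext
      · show a.v + b.v = 0 + (b.v + a.v)
        rw [zero_add, add_comm]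
      · show a.s + b.s + bt η a.v b.v = 1 + (b.s + a.s + bt η b.v a.v) + bt η 0 (b.v + a.v)
        rw [h, h', bt_zero_left]
        generalize a.s = s1
        generalize b.s = s2
        revert s1 s2
        decide
    · right
      apply GG.ext
      · show a.v + b.v = 0 + (b.v + a.v)
        rw [zero_add, add_comm]
      · show a.s + b.s + bt η a.v b.v = 1 + (b.s + a.s + bt η b.v a.v) + bt η 0 (b.v + a.v)
        rw [h, h', bt_zero_left]
        generalize a.s = s1
        generalize b.s = s2
        revert s1 s2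
        decide
    · left
      apply GG.ext
      · exact add_comm _ _
      · show a.s + b.s + bt η a.v b.v = b.s + a.s + bt η b.v a.v
        rw [h, h']
        ring
  · intro c hc
    have hv : c.v = 0 := by
      funext i
      have h1 := congrArg GG.s (hc ⟨Pi.single i (1, 0), 0⟩)
      have h2 := congrArg GG.s (hc ⟨Pi.single i (0, 1), 0⟩)
      simp only [GG.mul_s, bt_single_left, bt_single_right] at h1 h2
      apply Prod.ext
      · show (c.v i).1 = 0
        simp only [bp] at h2
        clear h1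
        generalize (c.v i).1 = x at *
        generalize (c.v i).2 = y at *
        generalize η i = e at *
        generalize c.s = t at *
        revert x y e t
        decide
      · show (c.v i).2 = 0
        simp only [bp] at h1
        clear h2
        generalize (c.v i).1 = x at *
        generalize (c.v i).2 = y at *
        generalize η i = e at *
        generalize c.s = t at *
        revert x y e t
        decide
    rcases z01 c.s with h | h
    · left
      exact GG.ext hv h
    · right
      exact GG.ext hv h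

theorem GG.nonab (η : Fin n → ZMod 2) (hn : 1 ≤ n) : ¬ ∀ c g : GG η, c * g = g * c := by
  intro hall
  let i₀ : Fin n := ⟨0, by omega⟩
  let c : GG η := ⟨Pi.single i₀ (1, 0), 0⟩
  rcases (GG.xs η).cen c (hall c) with h | h
  · have h1 : (Pi.single i₀ (1, 0) : Fin n → ZMod 2 × ZMod 2) i₀ = (0 : Fin n → ZMod 2 × ZMod 2) i₀ :=
      congrFun (congrArg GG.v h) i₀
    simp at h1
  · have h1 : (Pi.single i₀ (1, 0) : Fin n → ZMod 2 × ZMod 2) i₀ = (0 : Fin n → ZMod 2 × ZMod 2) i₀ :=
      congrFun (congrArg GG.v h) i₀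
    simp at h1

/-! ### The count of involutions -/

def chi (x : ZMod 2) : ℤ := if x = 0 then 1 else -1

lemma chi_add (x y : ZMod 2) : chi (x + y) = chi x * chi y := by
  revert x y; decide

lemma chi_sum {ι : Type*} (s : Finset ι) (f : ι → ZMod 2) : chi (∑ i ∈ s, f i) = ∏ i ∈ s, chi (f i) := by
  classical
  induction s using Finset.induction_on with
  | empty => simp [chi]
  | insert a s ha ih => rw [Finset.sum_insert ha, Finset.prod_insert ha, chi_add, ih]

lemma sum_local (e : ZMod 2) : ∑ p : ZMod 2 × ZMod 2, chi (bp e p p) = if e = 0 then 2 else -2 := by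
  revert e
  decide

lemma sum_S (η : Fin n → ZMod 2) :
    ∑ v : Fin n → ZMod 2 × ZMod 2, chi (bt η v v) = ∏ i, (if η i = 0 then (2 : ℤ) else -2) := by
  simp only [bt, chi_sum]
  have := Finset.prod_univ_sum (fun _ : Fin n => (Finset.univ : Finset (ZMod 2 × ZMod 2)))
    (fun i p => chi (bp (η i) p p))
  simp only [Fintype.piFinset_univ, sum_local] at this
  exact this.symm

lemma sq1_GG (η : Fin n → ZMod 2) :
    (sq1 (GG η) : ℤ) = 4 ^ n + ∏ i, (if η i = 0 then (2 : ℤ) else -2) := by
  classical
  rw [← sum_S]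
  have h1 : sq1 (GG η) = Nat.card {p : (Fin n → ZMod 2 × ZMod 2) × ZMod 2 // bt η p.1 p.1 = 0} := by
    apply Nat.card_congr
    apply (GG.equiv η).subtypeEquiv
    intro x
    constructor
    · intro h
      have h2 := congrArg GG.s h
      simp only [GG.mul_s, add2, zero_add, GG.one_s] at h2
      exact h2
    · intro h
      have h' : bt η x.v x.v = 0 := h
      apply GG.ext
      · exact v_add_self _
      · show x.s + x.s + bt η x.v x.v = 0
        rw [h', add2, add_zero]
  rw [h1, Nat.card_eq_fintype_card, Fintype.card_subtype, Finset.card_filter]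
  push_cast
  rw [Fintype.sum_prod_type]
  have h2 : ∀ v : Fin n → ZMod 2 × ZMod 2,
      (∑ _y : ZMod 2, (if bt η v v = 0 then (1 : ℤ) else 0)) = 1 + chi (bt η v v) := by
    intro v
    rw [Finset.sum_const, Finset.card_univ, ZMod.card]
    rcases z01 (bt η v v) with h | h
    · rw [h]
      simp [chi]
    · rw [h]
      simp [chi]
  simp only [h2, Finset.sum_add_distrib]
  congr 1
  simp only [Finset.sum_const, Finset.card_univ, Fintype.card_pi, Fintype.card_prod, ZMod.card,
    Finset.prod_const, Fintype.card_fin]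
  simp

theorem final_of (η : Fin n → ZMod 2) (hn : 1 ≤ n) (r : ℕ) (ε : Bool) (hr : r = n + cond ε 1 0)
    (hs : (sq1 (GG η) : ℤ) = 4 ^ n + cond ε (2 ^ n) (-(2 ^ n))) :
    Cfsg.IsExtraspecial 2 (GG η) ∧ Nat.card (GG η) = 2 ^ (2 * n + 1) ∧
      sSup {k : ℕ | ∃ A : Subgroup (GG η), Cfsg.IsElementaryAbelian 2 A ∧ Nat.card A = 2 ^ k} = r := by
  refine ⟨extraspecial_of_xs (GG.xs η) (GG.nonab η hn), GG.card η, ?_⟩
  obtain ⟨m, ε', ht⟩ := ty_exists _ (GG η) _ (GG.xs η) rfl
  have hm : m = n := by
    have h1 := ht.card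
    rw [GG.card] at h1
    have := Nat.pow_right_injective (le_refl 2) h1
    omega
  subst hm
  have hεε : ε' = ε := by
    have h1 := ht.nn
    have h3 : (0 : ℤ) < 2 ^ m := by positivity
    have h4 : (2 : ℕ) ^ (2 * m) = 4 ^ m := by
      rw [pow_mul]
      norm_num
    rw [h4] at h1
    have h5 : ((sq1 (GG η) : ℕ) : ℤ) + ((cond ε' 0 (2 ^ m) : ℕ) : ℤ) = (4 : ℤ) ^ m + ((cond ε' (2 ^ m) 0 : ℕ) : ℤ) := by
      exact_mod_cast h1
    rw [hs] at h5
    cases ε <;> cases ε'
    · rfl
    · simp only [cond_true, cond_false] at h5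
      push_cast at h5
      linarith
    · simp only [cond_true, cond_false] at h5
      push_cast at h5
      linarith
    · rfl
  subst hεε
  have hgreat : IsGreatest {k : ℕ | ∃ A : Subgroup (GG η), Cfsg.IsElementaryAbelian 2 A ∧ Nat.card A = 2 ^ k} r := by
    constructor
    · obtain ⟨A, hA, hAc⟩ := ht.ex
      refine ⟨A, ⟨⟨⟨fun a b => Subtype.ext (comm_of_exp2 hA a.2 b.2)⟩⟩, fun a ha => by
        rw [pow_two]; exact hA a ha⟩, ?_⟩
      rw [hAc, hr]
    · rintro k ⟨A, ⟨-, hA⟩, hAc⟩
      have h1 := ht.ub A (fun a ha => by rw [← pow_two]; exact hA a ha)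
      rw [hAc] at h1
      rw [hr]
      exact (Nat.pow_le_pow_iff_right (by norm_num)).1 h1
  exact hgreat.csSup_eq


/-- For every n ≥ 1 there exist finite extraspecial 2-groups of order 2^(2n+1) whose 2-rank (the largest rank of an elementary abelian subgroup) is n, and ones whose 2-rank is n + 1 (so for each such order there are two non-isomorphic extraspecial 2-groups, told apart by their 2-rank). -/
theorem result (n : ℕ) (hn : 1 ≤ n) : ∀ r ∈ ({n, n + 1} : Set ℕ), ∃ (E : Type) (_ : Group E) (_ : Finite E), Cfsg.IsExtraspecial 2 E ∧ Nat.card E = 2 ^ (2 * n + 1) ∧ sSup {k : ℕ | ∃ A : Subgroup E, Cfsg.IsElementaryAbelian 2 A ∧ Nat.card A = 2 ^ k} = r := by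
  intro r hr
  simp only [Set.mem_insert_iff, Set.mem_singleton_iff] at hr
  rcases hr with hr | hr
  · -- the elliptic form
    let i₀ : Fin n := ⟨0, by omega⟩
    let η : Fin n → ZMod 2 := Pi.single i₀ 1
    refine ⟨GG η, inferInstance, inferInstance, ?_⟩
    apply final_of η hn r false (by simp [hr])
    rw [sq1_GG]
    have h1 : ∀ i, (if η i = 0 then (2 : ℤ) else -2) = 2 * (if i = i₀ then -1 else 1) := by
      intro i
      by_cases hi : i = i₀
      · subst hi
        simp [η]
      · simp [η, hi, Pi.single_eq_of_ne hi]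
    simp only [h1, Finset.prod_mul_distrib, Finset.prod_const, Finset.card_univ, Fintype.card_fin]
    simp
  · -- the hyperbolic form
    refine ⟨GG (0 : Fin n → ZMod 2), inferInstance, inferInstance, ?_⟩
    apply final_of _ hn r true (by simp [hr])
    rw [sq1_GG]
    simp

end Cfsg.Agent.S5396
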