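import Cfsg.Statements.S5420
import Cfsg.Agent.Lib.H25.Basic

set_option autoImplicit false
open Cfsg

namespace Cfsg.Agent.S5420

theorem result {G : Type*} [Group G] [Finite G] (Q : Subgroup G) (hL1 : Cfsg.IsExtraspecial 2 ↥Q) (hL2 : Subgroup.centralizer (Q : Set G) = ((Subgroup.center ↥Q).map Q.subtype)) (hL3 : Subgroup.centralizer (((Subgroup.center ↥Q).map Q.subtype) : Set G) ≤ Subgroup.normalizer (Q : Set G)) (hZ : ((Subgroup.center ↥Q).map Q.subtype) ≤ Cfsg.pCore 2 G) : Cfsg.IsLargeExtraspecial Q := by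
  refine ⟨hL1, hL2, hL3, ?_⟩
  intro K hK hQK
  set Z := (Subgroup.center ↥Q).map Q.subtype with hZdef
  have hQ2 : IsPGroup 2 Q := hL1.1.1
  have hZQ : Z ≤ Q := by
    rintro _ ⟨x, -, rfl⟩
    exact x.2
  -- z centralizes K
  have hKC : K ≤ Subgroup.centralizer (Z : Set G) := by
    intro k hk z hz
    have hzO : z ∈ pCore 2 G := hZ hz
    haveI := H25.pCore_normal 2 G
    have h1 : z * k * z⁻¹ ∈ K :=
      (Subgroup.mem_normalizer_iff.mp (hQK (hZQ hz)) k).mp hk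
    have hc : z * k * z⁻¹ * k⁻¹ ∈ K ⊓ pCore 2 G := by
      refine ⟨K.mul_mem h1 (K.inv_mem hk), ?_⟩
      have h2 : k * z⁻¹ * k⁻¹ ∈ pCore 2 G :=
        Subgroup.Normal.conj_mem ‹_› _ ((pCore 2 G).inv_mem hzO) k
      have h3 : z * k * z⁻¹ * k⁻¹ = z * (k * z⁻¹ * k⁻¹) := by group
      rw [h3]
      exact (pCore 2 G).mul_mem hzO h2
    have hbot := H25.inf_eq_bot_of_odd_of_two hK (H25.isPGroup_pCore 2 G)
    rw [hbot, Subgroup.mem_bot] at hc
    have h4 : z * k * z⁻¹ * k⁻¹ = 1 := hc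
    have h5 : z * k * z⁻¹ = k := by
      calc z * k * z⁻¹ = (z * k * z⁻¹ * k⁻¹) * k := by group
        _ = k := by rw [h4, one_mul]
    calc z * k = (z * k * z⁻¹) * z := by group
      _ = k * z := by rw [h5]
  -- K normalizes Q, Q normalizes K: [K,Q] ≤ K ∩ Q = 1
  have hKQ : K ≤ Subgroup.centralizer (Q : Set G) := by
    intro k hk q hq
    have h1 : q * k * q⁻¹ ∈ K := (Subgroup.mem_normalizer_iff.mp (hQK hq) k).mp hk
    have h2 : k * q * k⁻¹ ∈ Q := (Subgroup.mem_normalizer_iff.mp (hL3 (hKC hk)) q).mp hq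
    have hc : q * k * q⁻¹ * k⁻¹ ∈ K ⊓ Q := by
      refine ⟨K.mul_mem h1 (K.inv_mem hk), ?_⟩
      have h3 : q * k * q⁻¹ * k⁻¹ = q * (k * q⁻¹ * k⁻¹) := by group
      rw [h3]
      have h4 : k * q⁻¹ * k⁻¹ = (k * q * k⁻¹)⁻¹ := by group
      rw [h4]
      exact Q.mul_mem hq (Q.inv_mem h2)
    rw [H25.inf_eq_bot_of_odd_of_two hK hQ2, Subgroup.mem_bot] at hc
    have h4 : q * k * q⁻¹ * k⁻¹ = 1 := hc
    have h5 : q * k * q⁻¹ = k := by
      calc q * k * q⁻¹ = (q * k * q⁻¹ * k⁻¹) * k := by group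
        _ = k := by rw [h4, one_mul]
    calc q * k = (q * k * q⁻¹) * q := by group
      _ = k * q := by rw [h5]
  rw [hL2] at hKQ
  have hKZQ : K ≤ Q := hKQ.trans hZQ
  rw [eq_bot_iff]
  intro x hx
  have := H25.inf_eq_bot_of_odd_of_two hK hQ2
  have hx2 : x ∈ K ⊓ Q := ⟨hx, hKZQ hx⟩
  rw [this] at hx2
  exact hx2

end Cfsg.Agent.S5420
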