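import Cfsg.Statements.S5421
import Cfsg.Agent.Lib.H25.Basic
import Cfsg.Agent.Lib.H25.Fpf

set_option autoImplicit false
open Cfsg

namespace Cfsg.Agent.S5421

open Cfsg.Agent.H25

/-- Let Q be an extraspecial 2-subgroup of the finite group G whose centralizer in G is its centre Z and which is normal in the centralizer of Z. If some involution b of Q outside Z has Z inside the largest normal 2-subgroup of the centralizer of b, then Q is a large extraspecial 2-subgroup of G. -/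
theorem result {G : Type*} [Group G] [Finite G] (Q : Subgroup G) (hL1 : Cfsg.IsExtraspecial 2 ↥Q) (hL2 : Subgroup.centralizer (Q : Set G) = ((Subgroup.center ↥Q).map Q.subtype)) (hL3 : Subgroup.centralizer (((Subgroup.center ↥Q).map Q.subtype) : Set G) ≤ Subgroup.normalizer (Q : Set G)) (b : G) (hbQ : b ∈ Q) (hbZ : b ∉ ((Subgroup.center ↥Q).map Q.subtype)) (hb : orderOf b = 2) (hZ : ((Subgroup.center ↥Q).map Q.subtype) ≤ (Cfsg.pCore 2 ↥(Subgroup.centralizer ({b} : Set G))).map (Subgroup.centralizer ({b} : Set G)).subtype) : Cfsg.IsLargeExtraspecial Q := by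
  classical
  refine ⟨hL1, hL2, hL3, ?_⟩
  intro K hK hQK
  set Z := (Subgroup.center ↥Q).map Q.subtype with hZdef
  have hQ2 : IsPGroup 2 Q := hL1.1.1
  have hZQ : Z ≤ Q := by
    rintro _ ⟨x, -, rfl⟩
    exact x.2
  have hKQbot := inf_eq_bot_of_odd_of_two hK hQ2
  have hcomm : commutator ↥Q = Subgroup.center ↥Q := hL1.1.2.2
  have hcard : Nat.card (Subgroup.center ↥Q) = 2 := hL1.2
  -- the noncommuting element
  obtain ⟨q, hq⟩ : ∃ q : Q, q * (⟨b, hbQ⟩ : Q) ≠ ⟨b, hbQ⟩ * q := by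
    by_contra hcon
    push Not at hcon
    apply hbZ
    refine ⟨⟨b, hbQ⟩, ?_, rfl⟩
    rw [SetLike.mem_coe, Subgroup.mem_center_iff]
    exact hcon
  set z : G := (q : G) * b * (q : G)⁻¹ * b⁻¹ with hz
  have hzmem : (⟨z, Q.mul_mem (Q.mul_mem (Q.mul_mem q.2 hbQ) (Q.inv_mem q.2)) (Q.inv_mem hbQ)⟩ : Q) ∈ Subgroup.center ↥Q := by
    rw [← hcomm]
    exact Subgroup.commutator_mem_commutator (g₁ := q) (g₂ := ⟨b, hbQ⟩) (Subgroup.mem_top _) (Subgroup.mem_top _)
  have hzZ : z ∈ Z := ⟨_, hzmem, rfl⟩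
  have hz1 : z ≠ 1 := by
    intro h
    apply hq
    apply Subtype.ext
    show (q : G) * b = b * q
    have h2 : (q : G) * b * (q : G)⁻¹ = b := by rwa [hz, mul_inv_eq_one] at h
    rwa [mul_inv_eq_iff_eq_mul] at h2
  have htwo : ∀ u ∈ Z, u = 1 ∨ u = z := by
    rintro _ ⟨u, hu, rfl⟩
    obtain ⟨x, y, hxy, h⟩ := Nat.card_eq_two_iff.mp hcard
    have all : ∀ u : Subgroup.center ↥Q, u = x ∨ u = y := fun u => by
      have := Set.mem_univ u
      rw [← h] at this
      simpa using this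
    by_cases hu1 : u = 1
    · left; rw [hu1]; rfl
    · right
      have hu' : (⟨u, hu⟩ : Subgroup.center ↥Q) ≠ 1 := fun h => hu1 (congrArg Subtype.val h)
      have hz' : (⟨_, hzmem⟩ : Subgroup.center ↥Q) ≠ 1 := fun h => hz1 (congrArg (fun t : Subgroup.center ↥Q => ((t : Q) : G)) h)
      have : (⟨u, hu⟩ : Subgroup.center ↥Q) = ⟨_, hzmem⟩ := by
        rcases all ⟨u, hu⟩ with h1 | h1 <;> rcases all ⟨_, hzmem⟩ with h2 | h2 <;> rcases all 1 with h3 | h3 <;> grind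
      exact congrArg (fun t : Subgroup.center ↥Q => ((t : Q) : G)) this
  have hzz : z * z = 1 := by
    have h1 : z * z ∈ Z := Z.mul_mem hzZ hzZ
    rcases htwo _ h1 with h2 | h2
    · exact h2
    · exact absurd (mul_left_cancel (a := z) (by rw [h2, mul_one])) hz1
  have hbb : b * b = 1 := by rw [← pow_two, ← hb, pow_orderOf_eq_one]
  have hNQ : ∀ x ∈ Q, ∀ k ∈ K, x * k * x⁻¹ ∈ K := fun x hx k hk =>
    (Subgroup.mem_normalizer_iff.mp (hQK hx) k).mp hk
  -- (a)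
  have fix_z : ∀ k ∈ K, z * k * z⁻¹ = k → k = 1 := by
    intro k hk h
    have hkz : z * k = k * z := by rwa [mul_inv_eq_iff_eq_mul] at h
    have hkC : k ∈ Subgroup.centralizer (Z : Set G) := by
      intro u hu
      rcases htwo u hu with rfl | rfl
      · simp
      · exact hkz
    have hkN := hL3 hkC
    have hkQ : k ∈ Subgroup.centralizer (Q : Set G) := by
      intro x hx
      have h1 := hNQ x hx k hk
      have h2 : k * x⁻¹ * k⁻¹ ∈ Q := (Subgroup.mem_normalizer_iff.mp hkN x⁻¹).mp (Q.inv_mem hx)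
      have hc : x * k * x⁻¹ * k⁻¹ ∈ K ⊓ Q := by
        refine ⟨K.mul_mem h1 (K.inv_mem hk), ?_⟩
        have h3 : x * k * x⁻¹ * k⁻¹ = x * (k * x⁻¹ * k⁻¹) := by group
        rw [h3]
        exact Q.mul_mem hx h2
      rw [hKQbot, Subgroup.mem_bot] at hc
      have h5 : x * k * x⁻¹ = k := by rwa [mul_inv_eq_one] at hc
      rwa [mul_inv_eq_iff_eq_mul] at h5
    rw [hL2] at hkQ
    have : k ∈ K ⊓ Q := ⟨hk, hZQ hkQ⟩
    rwa [hKQbot, Subgroup.mem_bot] at this
  -- (b)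
  have fix_b : ∀ k ∈ K, b * k * b⁻¹ = k → k = 1 := by
    intro k hk h
    have hkb : k ∈ Subgroup.centralizer ({b} : Set G) := by
      rw [Subgroup.mem_centralizer_singleton_iff]
      rw [mul_inv_eq_iff_eq_mul] at h
      exact h.symm
    obtain ⟨w, hw, hwz⟩ := hZ hzZ
    have hN := pCore_normal 2 ↥(Subgroup.centralizer ({b} : Set G))
    have hO : IsPGroup 2 ((Cfsg.pCore 2 ↥(Subgroup.centralizer ({b} : Set G))).map (Subgroup.centralizer ({b} : Set G)).subtype) :=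
      (isPGroup_pCore 2 _).map _
    have h1 : ((⟨k, hkb⟩ : Subgroup.centralizer ({b} : Set G)) * w⁻¹ * (⟨k, hkb⟩ : Subgroup.centralizer ({b} : Set G))⁻¹) ∈ Cfsg.pCore 2 ↥(Subgroup.centralizer ({b} : Set G)) :=
      hN.conj_mem _ ((Cfsg.pCore 2 _).inv_mem hw) _
    have hc : z * k * z⁻¹ * k⁻¹ ∈ K ⊓ ((Cfsg.pCore 2 ↥(Subgroup.centralizer ({b} : Set G))).map (Subgroup.centralizer ({b} : Set G)).subtype) := by
      refine ⟨K.mul_mem (hNQ z (hZQ hzZ) k hk) (K.inv_mem hk), ?_⟩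
      refine ⟨w * ((⟨k, hkb⟩ : Subgroup.centralizer ({b} : Set G)) * w⁻¹ * (⟨k, hkb⟩ : Subgroup.centralizer ({b} : Set G))⁻¹), (Cfsg.pCore 2 _).mul_mem hw h1, ?_⟩
      have hwz' : (w : G) = z := hwz
      show (w : G) * ((k : G) * (w : G)⁻¹ * (k : G)⁻¹) = _
      rw [hwz']
      group
    rw [inf_eq_bot_of_odd_of_two hK hO, Subgroup.mem_bot] at hc
    exact fix_z k hk (by rwa [mul_inv_eq_one] at hc)
  have hKfin : Finite K := inferInstance
  have inv_z := fun k (hk : k ∈ K) => inverts_of_fpf hzz (hNQ z (hZQ hzZ)) fix_z hk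
  have inv_b := fun k (hk : k ∈ K) => inverts_of_fpf hbb (hNQ b hbQ) fix_b hk
  rw [eq_bot_iff]
  intro k hk
  rw [Subgroup.mem_bot]
  -- `k' = q⁻¹ k q` is fixed by `b`
  have hk' : (q : G)⁻¹ * k * q ∈ K := by
    have := hNQ _ (Q.inv_mem q.2) k hk
    simpa using this
  have h1 : b * ((q : G)⁻¹ * k * q) * b⁻¹ = (q : G)⁻¹ * k * q := by
    have hzb : (q : G) * b * (q : G)⁻¹ = z * b := by rw [hz]; group
    have h2 : (z * b) * k * (z * b)⁻¹ = k := by
      have h3 := inv_b k hk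
      have h4 := inv_z _ (K.inv_mem hk)
      calc (z * b) * k * (z * b)⁻¹ = z * (b * k * b⁻¹) * z⁻¹ := by group
        _ = z * k⁻¹ * z⁻¹ := by rw [h3]
        _ = k := by rw [h4, inv_inv]
    rw [← hzb] at h2
    calc b * ((q : G)⁻¹ * k * q) * b⁻¹ = (q : G)⁻¹ * (((q : G) * b * (q : G)⁻¹) * k * ((q : G) * b * (q : G)⁻¹)⁻¹) * q := by group
      _ = (q : G)⁻¹ * k * q := by rw [h2]
  have h2 := fix_b _ hk' h1
  calc k = (q : G) * ((q : G)⁻¹ * k * q) * (q : G)⁻¹ := by group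
    _ = 1 := by rw [h2]; group

end Cfsg.Agent.S5421
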