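import Cfsg.Statements.S5422
import Cfsg.Agent.Lib.H25.LE5

set_option autoImplicit false
open Cfsg

namespace Cfsg.Agent.S5422

open Cfsg.Agent.H25

/-- Let Q be an extraspecial 2-subgroup of the finite group G whose centralizer in G is its centre Z and which is normal in the centralizer of Z; suppose Q has width at least 2 (order 2^(2w+1) with w ≥ 2) and g is an element of G not normalizing Z with g Z g⁻¹ inside Q. Then Z lies inside g Q g⁻¹; writing V for the subgroup generated by Z and g Z g⁻¹ (a four-group), the normalizer of V induces on V its full automorphism group, that is, the centralizer of V has index 6 in the normalizer of V; and Q is a large extraspecial 2-subgroup of G. -/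
theorem result {G : Type*} [Group G] [Finite G] (Q : Subgroup G) (hL1 : Cfsg.IsExtraspecial 2 ↥Q) (hL2 : Subgroup.centralizer (Q : Set G) = ((Subgroup.center ↥Q).map Q.subtype)) (hL3 : Subgroup.centralizer (((Subgroup.center ↥Q).map Q.subtype) : Set G) ≤ Subgroup.normalizer (Q : Set G)) (w : ℕ) (hw : 2 ≤ w) (hcard : Nat.card ↥Q = 2 ^ (2 * w + 1)) (g : G) (hg : g ∉ Subgroup.normalizer (((Subgroup.center ↥Q).map Q.subtype) : Set G)) (hZg : (((Subgroup.center ↥Q).map Q.subtype)).map (MulAut.conj g).toMonoidHom ≤ Q) : ((Subgroup.center ↥Q).map Q.subtype) ≤ (Q).map (MulAut.conj g).toMonoidHom ∧ (Subgroup.centralizer ((((Subgroup.center ↥Q).map Q.subtype) ⊔ (((Subgroup.center ↥Q).map Q.subtype)).map (MulAut.conj g).toMonoidHom : Subgroup G) : Set G)).relIndex (Subgroup.normalizer ((((Subgroup.center ↥Q).map Q.subtype) ⊔ (((Subgroup.center ↥Q).map Q.subtype)).map (MulAut.conj g).toMonoidHom : Subgroup G) : Set G)) = 6 ∧ Cfsg.IsLargeExtraspecial Q := by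
  obtain ⟨z, hQ, hZ⟩ := LE.of_hyps Q hL1 hL2 hL3
  set Z := (Subgroup.center ↥Q).map Q.subtype with hZdef
  have hzZ : z ∈ Z := (hZ z).2 (Or.inr rfl)
  have hne : g * z * g⁻¹ ≠ z := by
    intro e
    apply hg
    rw [Subgroup.mem_normalizer_iff]
    have hgi : g⁻¹ * z * g = z := by
      have : g⁻¹ * (g * z * g⁻¹) * g = z := by group
      rw [e] at this
      exact this
    intro a
    constructor
    · intro ha
      change a ∈ Z at ha
      change g * a * g⁻¹ ∈ Z
      rcases (hZ a).1 ha with rfl | rfl
      · rw [mul_one, mul_inv_cancel]; exact Z.one_mem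
      · rw [e]; exact hzZ
    · intro ha
      change g * a * g⁻¹ ∈ Z at ha
      change a ∈ Z
      rcases (hZ _).1 ha with h | h
      · have : a = 1 := by
          have e2 : a = g⁻¹ * (g * a * g⁻¹) * g := by group
          rw [e2, h]
          group
        rw [this]; exact Z.one_mem
      · have : a = z := by
          have e2 : a = g⁻¹ * (g * a * g⁻¹) * g := by group
          rw [e2, h, hgi]
        rw [this]; exact hzZ
  have hgQ : g * z * g⁻¹ ∈ Q := hZg ⟨z, hzZ, rfl⟩
  have hc : 8 < Nat.card Q := by
    rw [hcard]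
    calc 8 < 2 ^ 5 := by norm_num
      _ ≤ 2 ^ (2 * w + 1) := Nat.pow_le_pow_right (by norm_num) (by omega)
  obtain ⟨p, htr, htr'⟩ := hQ.pair g hgQ hne hc
  have hVm : ∀ x, x ∈ Z ⊔ Z.map (MulAut.conj g).toMonoidHom ↔ VV z (g * z * g⁻¹) x := by
    intro x
    constructor
    · intro hx
      have hle : Z ⊔ Z.map (MulAut.conj g).toMonoidHom ≤ p.VVs := by
        refine sup_le ?_ ?_
        · intro a ha
          rcases (hZ a).1 ha with rfl | rfl
          · exact p.VVs.one_mem
          · exact Or.inr (Or.inl rfl)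
        · rintro _ ⟨a, ha, rfl⟩
          rcases (hZ a).1 ha with rfl | rfl
          · simp only [map_one]
            exact p.VVs.one_mem
          · exact Or.inr (Or.inr (Or.inl rfl))
      exact hle hx
    · have h1 : z ∈ Z ⊔ Z.map (MulAut.conj g).toMonoidHom := Subgroup.mem_sup_left hzZ
      have h2 : g * z * g⁻¹ ∈ Z ⊔ Z.map (MulAut.conj g).toMonoidHom :=
        Subgroup.mem_sup_right ⟨z, hzZ, rfl⟩
      rintro (rfl | rfl | rfl | rfl)
      · exact Subgroup.one_mem _
      · exact h1
      · exact h2
      · exact Subgroup.mul_mem _ h1 h2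
  refine ⟨?_, p.relIndex_eq hVm, hL1, hL2, hL3, ?_⟩
  · intro a ha
    rcases (hZ a).1 ha with rfl | rfl
    · exact Subgroup.one_mem _
    · exact p.mem'
  · intro K hK hQK
    exact p.large K hK hQK

end Cfsg.Agent.S5422
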