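import Cfsg.Statements.S5423
import Mathlib
import Cfsg.Agent.Lib.H01.Fitting
import Cfsg.Agent.Lib.H18.Special

set_option autoImplicit false
open Cfsg

namespace Cfsg.Agent.S5423


set_option linter.unusedSectionVars false
set_option linter.style.haveILetI false

abbrev V0 (n : ℕ) := Fin n → ZMod 2
abbrev FF (n : ℕ) := V0 n × ZMod 2

def e0 (n : ℕ) : FF n := (0, 1)

lemma z2 : ∀ t : ZMod 2, t = 0 ∨ t = 1 := by decide

lemma z2_add_self : ∀ t : ZMod 2, t + t = 0 := by decide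

lemma exists_model {n : ℕ} {A : Type*} [AddCommGroup A] [Finite A] (h2 : ∀ x : A, (2 : ℕ) • x = 0)
    (hc : Nat.card A = 2 ^ (n + 1)) (z : A) (hz : z ≠ 0) :
    ∃ e : A ≃+ FF n, e z = e0 n := by
  classical
  letI : Module (ZMod 2) A := AddCommGroup.zmodModule h2
  haveI : Fact (Nat.Prime 2) := ⟨Nat.prime_two⟩
  haveI : Module.Finite (ZMod 2) A := Module.Finite.of_finite
  have hfr : Module.finrank (ZMod 2) A = n + 1 := by
    have := Module.natCard_eq_pow_finrank (K := ZMod 2) (V := A)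
    rw [Nat.card_zmod, hc] at this
    exact (Nat.pow_right_injective le_rfl this).symm
  obtain ⟨ψ, hψ⟩ : ∃ ψ : Module.Dual (ZMod 2) A, ψ z ≠ 0 := by
    by_contra hall
    push Not at hall
    exact hz ((Module.forall_dual_apply_eq_zero_iff (ZMod 2) z).1 hall)
  have hψ1 : ψ z = 1 := (z2 _).resolve_left hψ
  have hsurj : Function.Surjective ψ := fun t => ⟨t • z, by simp [hψ1]⟩
  have hW : Module.finrank (ZMod 2) (LinearMap.ker ψ) = n := by
    have h := LinearMap.finrank_range_add_finrank_ker ψ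
    rw [LinearMap.range_eq_top.2 hsurj, finrank_top, Module.finrank_self, hfr] at h
    omega
  let e₁ : LinearMap.ker ψ ≃ₗ[ZMod 2] V0 n :=
    LinearEquiv.ofFinrankEq _ _ (by rw [hW]; simp)
  have hmem : ∀ v : A, v - ψ v • z ∈ LinearMap.ker ψ := by
    intro v
    simp [hψ1]
  refine ⟨{ toFun := fun v => (e₁ ⟨v - ψ v • z, hmem v⟩, ψ v)
            invFun := fun p => ((e₁.symm p.1 : LinearMap.ker ψ) : A) + p.2 • z
            left_inv := ?_
            right_inv := ?_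
            map_add' := ?_ }, ?_⟩
  · intro v
    simp
  · rintro ⟨x, t⟩
    have h0 : ψ ((e₁.symm x : LinearMap.ker ψ) : A) = 0 := (e₁.symm x).2
    have h1 : ψ (((e₁.symm x : LinearMap.ker ψ) : A) + t • z) = t := by
      simp [h0, hψ1]
    ext1
    · simp only [h1]
      have : (⟨((e₁.symm x : LinearMap.ker ψ) : A) + t • z - t • z, by simpa [h1] using hmem (((e₁.symm x : LinearMap.ker ψ) : A) + t • z)⟩ :
          LinearMap.ker ψ) = e₁.symm x := Subtype.ext (by simp)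
      simp only [this, LinearEquiv.apply_symm_apply]
    · exact h1
  · intro v w
    ext1
    · simp only [Prod.fst_add]
      rw [← map_add]
      congr 1
      apply Subtype.ext
      simp only [map_add, add_smul, Submodule.coe_add]
      abel
    · simp
  · have h1 : (⟨z - ψ z • z, hmem z⟩ : LinearMap.ker ψ) = 0 :=
      Subtype.ext (by simp [hψ1])
    show (e₁ ⟨z - ψ z • z, hmem z⟩, ψ z) = e0 n
    rw [h1, map_zero, hψ1]
    rfl

abbrev AutF (n : ℕ) := FF n ≃ₗ[ZMod 2] FF n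

/-- The structure of the holomorph in coordinates. -/
structure Pack (G : Type*) [Group G] (n : ℕ) where
  u : FF n → G
  u_add : ∀ v w, u (v + w) = u v * u w
  u_inj : Function.Injective u
  act : G →* AutF n
  mu : AutF n →* G
  conj : ∀ g v, g * u v * g⁻¹ = u (act g v)
  act_mu : ∀ α, act (mu α) = α
  ker : ∀ g, act g = 1 → ∃ v, g = u v

def toAut {n : ℕ} (f g : FF n →+ FF n) (h1 : ∀ x, f (g x) = x) (h2 : ∀ x, g (f x) = x) : AutF n :=
  LinearEquiv.ofLinearMap (f.toZModLinearMap 2) (g.toZModLinearMap 2) (LinearMap.ext h1) (LinearMap.ext h2)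

@[simp] lemma toAut_apply {n : ℕ} (f g : FF n →+ FF n) (h1 : ∀ x, f (g x) = x) (h2 : ∀ x, g (f x) = x)
    (x : FF n) : toAut f g h1 h2 x = f x := rfl

lemma pack_exists {G : Type*} [Group G] [Finite G] {n : ℕ} (U M : Subgroup G) [hUn : U.Normal]
    (hU : Cfsg.IsElementaryAbelian 2 U) (hUcard : Nat.card ↥U = 2 ^ (n + 1)) (hUM' : U ⊔ M = ⊤)
    (hfaith : ∀ m ∈ M, (∀ u ∈ U, m * u * m⁻¹ = u) → m = 1)
    (hfull : ∀ φ : ↥U ≃* ↥U, ∃ m ∈ M, ∀ u : ↥U, ((φ u : ↥U) : G) = m * u * m⁻¹)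
    (z : G) (hzU : z ∈ U) (hz1 : z ≠ 1) :
    ∃ P : Pack G n, (∀ v, P.u v ∈ U) ∧ (∀ a ∈ U, ∃ v, a = P.u v) ∧ P.u (e0 n) = z := by
  classical
  letI : CommGroup ↥U := { (inferInstance : Group ↥U) with mul_comm := hU.1.is_comm.comm }
  have h2 : ∀ x : Additive ↥U, (2 : ℕ) • x = 0 := by
    intro x
    show Additive.ofMul ((Additive.toMul x) ^ 2) = 0
    have : (Additive.toMul x) ^ 2 = 1 := Subtype.ext (hU.2 _ (Additive.toMul x).2)
    rw [this]
    rfl
  have hc : Nat.card (Additive ↥U) = 2 ^ (n + 1) := hUcard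
  obtain ⟨e, he⟩ := exists_model (n := n) h2 hc (Additive.ofMul ⟨z, hzU⟩) (by
    intro h
    apply hz1
    have := congrArg Additive.toMul h
    exact congrArg Subtype.val this)
  let u : FF n → G := fun v => ((Additive.toMul (e.symm v) : ↥U) : G)
  have hu_mem : ∀ v, u v ∈ U := fun v => (Additive.toMul (e.symm v) : ↥U).2
  have hu_add : ∀ v w, u (v + w) = u v * u w := by
    intro v w
    show ((Additive.toMul (e.symm (v + w)) : ↥U) : G) = _
    rw [map_add, toMul_add]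
    rfl
  have hu_e : ∀ a (ha : a ∈ U), u (e (Additive.ofMul ⟨a, ha⟩)) = a := by
    intro a ha
    show ((Additive.toMul (e.symm (e (Additive.ofMul ⟨a, ha⟩))) : ↥U) : G) = a
    simp
  have hu_inj : Function.Injective u := by
    intro v w h
    have h1 : Additive.toMul (e.symm v) = Additive.toMul (e.symm w) := Subtype.ext h
    exact e.symm.injective (Additive.toMul.injective h1)
  have hconj_mem : ∀ (g : G) v, g * u v * g⁻¹ ∈ U := fun g v => hUn.conj_mem _ (hu_mem v) g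
  let af : G → (FF n →+ FF n) := fun g =>
    { toFun := fun v => e (Additive.ofMul ⟨g * u v * g⁻¹, hconj_mem g v⟩)
      map_zero' := by
        have h0 : u 0 = 1 := by
          have := hu_add 0 0
          rw [add_zero] at this
          exact (mul_eq_left.1 this.symm)
        have : (⟨g * u 0 * g⁻¹, hconj_mem g 0⟩ : ↥U) = 1 := Subtype.ext (by simp [h0])
        rw [this]
        exact map_zero e
      map_add' := by
        intro v w
        have : (⟨g * u (v + w) * g⁻¹, hconj_mem g (v + w)⟩ : ↥U) =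
            ⟨g * u v * g⁻¹, hconj_mem g v⟩ * ⟨g * u w * g⁻¹, hconj_mem g w⟩ :=
          Subtype.ext (by
            show g * u (v + w) * g⁻¹ = (g * u v * g⁻¹) * (g * u w * g⁻¹)
            rw [hu_add]
            group)
        rw [this, ofMul_mul, map_add] }
  have haf : ∀ g v, u (af g v) = g * u v * g⁻¹ := fun g v => hu_e _ _
  have haf_inv : ∀ g x, af g (af g⁻¹ x) = x := by
    intro g x
    apply hu_inj
    rw [haf, haf]
    group
  have haf_inv' : ∀ g x, af g⁻¹ (af g x) = x := by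
    intro g x
    apply hu_inj
    rw [haf, haf]
    group
  let act : G →* AutF n := MonoidHom.mk' (fun g => toAut (af g) (af g⁻¹) (haf_inv g) (haf_inv' g)) (by
    intro a b
    ext1 v
    apply hu_inj
    show u (af (a * b) v) = u (af a (af b v))
    rw [haf, haf, haf]
    group)
  have hact : ∀ g v, g * u v * g⁻¹ = u (act g v) := fun g v => (haf g v).symm
  have hact_mem : ∀ a ∈ U, act a = 1 := by
    intro a ha
    ext1 v
    apply hu_inj
    rw [← hact]
    show a * u v * a⁻¹ = u v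
    have : Commute (⟨a, ha⟩ : ↥U) ⟨u v, hu_mem v⟩ := hU.1.is_comm.comm _ _
    have h3 : a * u v = u v * a := congrArg Subtype.val this
    rw [h3]
    group
  have hfaith' : ∀ m ∈ M, act m = 1 → m = 1 := by
    intro m hm h
    refine hfaith m hm fun a ha => ?_
    have h3 := hu_e a ha
    rw [← h3, hact, h]
    rfl
  have hex : ∀ α : AutF n, ∃ m ∈ M, act m = α := by
    intro α
    let φ : ↥U ≃* ↥U :=
      { toFun := fun a => Additive.toMul (e.symm (α (e (Additive.ofMul a))))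
        invFun := fun a => Additive.toMul (e.symm (α.symm (e (Additive.ofMul a))))
        left_inv := fun a => by simp
        right_inv := fun a => by simp
        map_mul' := fun a b => by
          rw [ofMul_mul, map_add, map_add, map_add, toMul_add] }
    obtain ⟨m, hm, hφ⟩ := hfull φ
    refine ⟨m, hm, ?_⟩
    ext1 v
    apply hu_inj
    rw [← hact]
    have h3 := hφ (Additive.toMul (e.symm v))
    have h4 : φ (Additive.toMul (e.symm v)) = Additive.toMul (e.symm (α v)) := by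
      show Additive.toMul (e.symm (α (e (Additive.ofMul (Additive.toMul (e.symm v)))))) = _
      simp
    rw [h4] at h3
    exact h3.symm
  choose μ₀ hμ₀ hμ₁ using hex
  let mu : AutF n →* G := MonoidHom.mk' μ₀ (by
    intro a b
    have h5 : μ₀ (a * b) * (μ₀ a * μ₀ b)⁻¹ = 1 := by
      apply hfaith' _ (mul_mem (hμ₀ _) (inv_mem (mul_mem (hμ₀ _) (hμ₀ _))))
      rw [map_mul, map_inv, map_mul, hμ₁, hμ₁, hμ₁]
      group
    exact mul_inv_eq_one.1 h5)
  have hker : ∀ g, act g = 1 → ∃ v, g = u v := by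
    intro g hg
    have hmem : g ∈ ((U ⊔ M : Subgroup G) : Set G) := by
      rw [hUM']
      trivial
    rw [Subgroup.normal_mul] at hmem
    obtain ⟨a, ha, m, hm, rfl⟩ := hmem
    have h6 : act m = 1 := by
      rw [map_mul, hact_mem a ha, one_mul] at hg
      exact hg
    have h7 : (m : G) = 1 := hfaith' m hm h6
    refine ⟨e (Additive.ofMul ⟨a, ha⟩), ?_⟩
    rw [hu_e]
    show a * m = a
    rw [h7, mul_one]
  refine ⟨⟨u, hu_add, hu_inj, act, mu, hact, hμ₁, hker⟩, hu_mem, ?_, ?_⟩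
  · intro a ha
    exact ⟨e (Additive.ofMul ⟨a, ha⟩), (hu_e a ha).symm⟩
  · show u (e0 n) = z
    rw [← he]
    exact hu_e z hzU


lemma ff_add_self {n : ℕ} (v : FF n) : v + v = 0 := by
  ext1
  · funext i
    exact z2_add_self _
  · exact z2_add_self _

lemma v0_add_self {n : ℕ} (v : V0 n) : v + v = 0 := by
  funext i
  exact z2_add_self _

def pr {n : ℕ} (i : Fin n) : Module.Dual (ZMod 2) (V0 n) := LinearMap.proj i

lemma pr_apply {n : ℕ} (i : Fin n) (x : V0 n) : pr i x = x i := rfl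

lemma exists_trans {n : ℕ} (x y : V0 n) (hx : x ≠ 0) (hy : y ≠ 0) :
    ∃ ℓ : V0 n ≃ₗ[ZMod 2] V0 n, ℓ x = y := by
  classical
  by_cases hxy : x = y
  · exact ⟨LinearEquiv.refl _ _, hxy⟩
  obtain ⟨φ, h1, h2⟩ : ∃ φ : Module.Dual (ZMod 2) (V0 n), φ x = 1 ∧ φ y = 1 := by
    obtain ⟨i, hi⟩ := Function.ne_iff.1 hx
    have hi' : x i = 1 := (z2 _).resolve_left hi
    obtain ⟨j, hj⟩ := Function.ne_iff.1 hy
    have hj' : y j = 1 := (z2 _).resolve_left hj
    rcases z2 (y i) with h | h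
    · rcases z2 (x j) with h' | h'
      · refine ⟨pr i + pr j, ?_, ?_⟩
        · simp [pr, hi', h']
        · simp [pr, h, hj']
      · exact ⟨pr j, h', hj'⟩
    · exact ⟨pr i, hi', h⟩
  have hw : φ (x + y) = 0 := by
    rw [map_add, h1, h2]
    decide
  let f : V0 n →ₗ[ZMod 2] V0 n := LinearMap.id + φ.smulRight (x + y)
  have hf : ∀ v, f v = v + φ v • (x + y) := fun v => rfl
  have hinv : Function.Involutive f := by
    intro v
    rw [hf, hf, map_add, map_smul, hw, smul_zero, add_zero, add_assoc, ← add_smul, z2_add_self,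
      zero_smul, add_zero]
  refine ⟨LinearEquiv.ofInvolutive f hinv, ?_⟩
  show f x = y
  rw [hf, h1, one_smul, ← add_assoc, v0_add_self, zero_add]

lemma o2_trivial {n : ℕ} (hn : 1 ≤ n) (S : Subgroup (V0 n ≃ₗ[ZMod 2] V0 n)) (hS : S.Normal)
    (hp : IsPGroup 2 S) : S = ⊥ := by
  classical
  haveI : Fact (Nat.Prime 2) := ⟨Nat.prime_two⟩
  have hcard : 2 ∣ Nat.card (V0 n) := by
    have : Nat.card (V0 n) = 2 ^ n := by
      simp [Nat.card_eq_fintype_card, ZMod.card]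
    rw [this]
    exact dvd_pow_self 2 (by omega)
  have h0 : (0 : V0 n) ∈ MulAction.fixedPoints ↥S (V0 n) := fun s => map_zero s.1
  obtain ⟨x₀, hx₀, hne⟩ := hp.exists_fixed_point_of_prime_dvd_card_of_fixed_point (V0 n) hcard h0
  rw [eq_bot_iff]
  intro s hs
  rw [Subgroup.mem_bot]
  ext1 y
  by_cases hy : y = 0
  · rw [hy, map_zero, map_zero]
  obtain ⟨ℓ, hℓ⟩ := exists_trans x₀ y (Ne.symm hne) hy
  have hc : ℓ⁻¹ * s * ℓ⁻¹⁻¹ ∈ S := hS.conj_mem s hs ℓ⁻¹
  have h1 := hx₀ ⟨_, hc⟩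
  have h2 : (ℓ⁻¹ * s * ℓ) x₀ = x₀ := by simpa using h1
  have h3 : ℓ⁻¹ (s (ℓ x₀)) = x₀ := h2
  have h4 : s (ℓ x₀) = ℓ x₀ := by
    have := congrArg ℓ h3
    rwa [show ℓ (ℓ⁻¹ (s (ℓ x₀))) = s (ℓ x₀) from ℓ.apply_symm_apply _] at this
  rw [hℓ] at h4
  exact h4

/-- central transvections. -/
def TT (n : ℕ) : Subgroup (AutF n) where
  carrier := {β | β (e0 n) = e0 n ∧ ∀ v, ∃ s : ZMod 2, β v = v + (0, s)}
  mul_mem' := by
    rintro a b ⟨ha, ha'⟩ ⟨hb, hb'⟩
    refine ⟨?_, fun v => ?_⟩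
    · show a (b (e0 n)) = e0 n
      rw [hb, ha]
    · obtain ⟨s, hs⟩ := hb' v
      obtain ⟨s', hs'⟩ := ha' (v + (0, s))
      obtain ⟨s'', hs''⟩ := ha' v
      have hfix : a ((0, s) : FF n) = (0, s) := by
        rcases z2 s with rfl | rfl
        · exact map_zero a
        · exact ha
      refine ⟨s'' + s, ?_⟩
      show a (b v) = _
      rw [hs, map_add, hfix, hs'']
      ext1 <;> simp [add_assoc]
  one_mem' := ⟨rfl, fun v => ⟨0, by
    ext1 <;> simp⟩⟩
  inv_mem' := by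
    rintro a ⟨ha, ha'⟩
    have h1 : a⁻¹ (e0 n) = e0 n := by
      have : a⁻¹ (a (e0 n)) = e0 n := a.symm_apply_apply _
      rwa [ha] at this
    refine ⟨h1, fun v => ?_⟩
    obtain ⟨s, hs⟩ := ha' (a⁻¹ v)
    refine ⟨s, ?_⟩
    have h2 : a (a⁻¹ v) = v := a.apply_symm_apply v
    rw [h2] at hs
    have h4 : ((0, s) : FF n) + (0, s) = 0 := ff_add_self _
    calc a⁻¹ v = a⁻¹ v + (((0, s) : FF n) + (0, s)) := by rw [h4, add_zero]
      _ = (a⁻¹ v + (0, s)) + (0, s) := (add_assoc _ _ _).symm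
      _ = v + (0, s) := by rw [← hs]

def tauAdd {n : ℕ} (ℓ : Module.Dual (ZMod 2) (V0 n)) : FF n →+ FF n where
  toFun v := (v.1, v.2 + ℓ v.1)
  map_zero' := by simp
  map_add' v w := by
    ext1
    · rfl
    · simp only [Prod.snd_add, Prod.fst_add, map_add]
      abel

def tau {n : ℕ} (ℓ : Module.Dual (ZMod 2) (V0 n)) : AutF n :=
  toAut (tauAdd ℓ) (tauAdd ℓ)
    (fun x => by
      show (x.1, x.2 + ℓ x.1 + ℓ x.1) = x
      rw [add_assoc, z2_add_self, add_zero])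
    (fun x => by
      show (x.1, x.2 + ℓ x.1 + ℓ x.1) = x
      rw [add_assoc, z2_add_self, add_zero])

lemma tau_apply {n : ℕ} (ℓ : Module.Dual (ZMod 2) (V0 n)) (v : FF n) :
    tau ℓ v = (v.1, v.2 + ℓ v.1) := rfl

lemma tau_mem {n : ℕ} (ℓ : Module.Dual (ZMod 2) (V0 n)) : tau ℓ ∈ TT n := by
  refine ⟨?_, fun v => ⟨ℓ v.1, ?_⟩⟩
  · rw [tau_apply]
    simp [e0]
  · rw [tau_apply]
    ext1 <;> simp

lemma tau_sq {n : ℕ} (ℓ : Module.Dual (ZMod 2) (V0 n)) : tau ℓ * tau ℓ = 1 := by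
  ext1 x
  show tau ℓ (tau ℓ x) = x
  rw [tau_apply, tau_apply]
  show (x.1, x.2 + ℓ x.1 + ℓ x.1) = x
  rw [add_assoc, z2_add_self, add_zero]

lemma tau_inj {n : ℕ} {ℓ ℓ' : Module.Dual (ZMod 2) (V0 n)} (h : tau ℓ = tau ℓ') : ℓ = ℓ' := by
  refine LinearMap.ext fun x => ?_
  have := congrArg (fun β : AutF n => (β (x, 0)).2) h
  simpa [tau_apply] using this

lemma tau_surj {n : ℕ} {β : AutF n} (hβ : β ∈ TT n) : ∃ ℓ, β = tau ℓ := by
  obtain ⟨h0, h1⟩ := hβ
  have hfst : ∀ v, (β v).1 = v.1 := by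
    intro v
    obtain ⟨s, hs⟩ := h1 v
    rw [hs]
    simp
  let f : V0 n →+ ZMod 2 :=
    { toFun := fun x => (β (x, 0)).2
      map_zero' := by
        have : ((0 : V0 n), (0 : ZMod 2)) = (0 : FF n) := rfl
        rw [this, map_zero]
        rfl
      map_add' := fun x y => by
        have : ((x + y, 0) : FF n) = (x, 0) + (y, 0) := by simp
        rw [this, map_add]
        rfl }
  refine ⟨f.toZModLinearMap 2, ?_⟩
  ext1 v
  obtain ⟨x, t⟩ := v
  have hv : ((x, t) : FF n) = (x, 0) + (0, t) := by simp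
  have hfix : β ((0, t) : FF n) = (0, t) := by
    rcases z2 t with rfl | rfl
    · exact map_zero β
    · exact h0
  have h2 : β (x, t) = β (x, 0) + (0, t) := by
    calc β (x, t) = β ((x, 0) + (0, t)) := by rw [← hv]
      _ = β (x, 0) + β (0, t) := map_add _ _ _
      _ = _ := by rw [hfix]
  rw [h2, tau_apply]
  ext1
  · simp [hfst]
  · show (β (x, 0)).2 + t = t + (β (x, 0)).2
    exact add_comm _ _

lemma card_dual (n : ℕ) : Nat.card (Module.Dual (ZMod 2) (V0 n)) = 2 ^ n := by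
  haveI : Fact (Nat.Prime 2) := ⟨Nat.prime_two⟩
  rw [Module.natCard_eq_pow_finrank (K := ZMod 2), Nat.card_zmod, Subspace.dual_finrank_eq]
  simp

lemma card_ff (n : ℕ) : Nat.card (FF n) = 2 ^ (n + 1) := by
  simp [Nat.card_eq_fintype_card, ZMod.card, pow_succ]

/-- stabilizer of `e0`. -/
def Stab (n : ℕ) : Subgroup (AutF n) where
  carrier := {β | β (e0 n) = e0 n}
  mul_mem' := by
    intro a b ha hb
    show a (b (e0 n)) = e0 n
    rw [show b (e0 n) = e0 n from hb, show a (e0 n) = e0 n from ha]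
  one_mem' := rfl
  inv_mem' := by
    intro a ha
    have : a⁻¹ (a (e0 n)) = e0 n := a.symm_apply_apply _
    rwa [show a (e0 n) = e0 n from ha] at this

lemma stab_fix {n : ℕ} {α : AutF n} (h : α ∈ Stab n) (t : ZMod 2) : α ((0, t) : FF n) = (0, t) := by
  rcases z2 t with rfl | rfl
  · exact map_zero α
  · exact h

lemma stab_apply {n : ℕ} {α : AutF n} (h : α ∈ Stab n) (x : V0 n) (t : ZMod 2) :
    α (x, t) = α (x, 0) + (0, t) := by
  have hv : ((x, t) : FF n) = (x, 0) + (0, t) := by simp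
  rw [hv, map_add, stab_fix h]

def barAdd {n : ℕ} (α : AutF n) : V0 n →+ V0 n where
  toFun x := (α (x, 0)).1
  map_zero' := by
    have : ((0 : V0 n), (0 : ZMod 2)) = (0 : FF n) := rfl
    rw [this, map_zero]
    rfl
  map_add' x y := by
    have : ((x + y, 0) : FF n) = (x, 0) + (y, 0) := by simp
    rw [this, map_add]
    rfl

lemma bar_mul {n : ℕ} {α : AutF n} (h : α ∈ Stab n) (β : AutF n) (x : V0 n) :
    barAdd (α * β) x = barAdd α (barAdd β x) := by
  show (α (β (x, 0))).1 = (α ((β (x, 0)).1, 0)).1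
  have : β (x, 0) = ((β (x, 0)).1, (β (x, 0)).2) := rfl
  rw [this, stab_apply h]
  simp

lemma bar_one {n : ℕ} (x : V0 n) : barAdd (1 : AutF n) x = x := rfl

def barHom (n : ℕ) : Stab n →* (V0 n ≃ₗ[ZMod 2] V0 n) :=
  MonoidHom.mk'
    (fun α => LinearEquiv.ofLinearMap ((barAdd α.1).toZModLinearMap 2)
      ((barAdd (α.1)⁻¹).toZModLinearMap 2)
      (LinearMap.ext fun x => by
        show barAdd α.1 (barAdd (α.1)⁻¹ x) = x
        rw [← bar_mul α.2, mul_inv_cancel, bar_one])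
      (LinearMap.ext fun x => by
        show barAdd (α.1)⁻¹ (barAdd α.1 x) = x
        rw [← bar_mul (inv_mem α.2), inv_mul_cancel, bar_one]))
    (fun a b => by
      ext1 x
      exact bar_mul a.2 b.1 x)

lemma barHom_apply {n : ℕ} (α : Stab n) (x : V0 n) : barHom n α x = (α.1 (x, 0)).1 := rfl

lemma barHom_eq_one {n : ℕ} (α : Stab n) : barHom n α = 1 ↔ α.1 ∈ TT n := by
  constructor
  · intro h
    refine ⟨α.2, fun v => ?_⟩
    obtain ⟨x, t⟩ := v
    have h1 : (α.1 (x, 0)).1 = x := by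
      have := congrArg (fun L : V0 n ≃ₗ[ZMod 2] V0 n => L x) h
      simpa [barHom_apply] using this
    refine ⟨(α.1 (x, 0)).2, ?_⟩
    rw [stab_apply α.2]
    ext1
    · simp [h1]
    · simp [add_comm]
  · rintro ⟨-, h⟩
    ext1 x
    obtain ⟨s, hs⟩ := h (x, 0)
    rw [barHom_apply, hs]
    simp

/-- the linear complement. -/
def beta (n : ℕ) : (V0 n ≃ₗ[ZMod 2] V0 n) →* AutF n :=
  MonoidHom.mk' (fun L => L.prodCongr (LinearEquiv.refl _ _)) (fun a b => by
    ext1 v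
    rfl)

lemma beta_apply {n : ℕ} (L : V0 n ≃ₗ[ZMod 2] V0 n) (v : FF n) : beta n L v = (L v.1, v.2) := rfl

lemma beta_mem {n : ℕ} (L : V0 n ≃ₗ[ZMod 2] V0 n) : beta n L ∈ Stab n := by
  show beta n L (e0 n) = e0 n
  rw [beta_apply]
  simp [e0]

lemma bar_beta {n : ℕ} (L : V0 n ≃ₗ[ZMod 2] V0 n) : barHom n ⟨beta n L, beta_mem L⟩ = L := by
  ext1 x
  rfl


namespace Pack
variable {G : Type*} [Group G] {n : ℕ} (P : Pack G n)

lemma u_zero : P.u 0 = 1 := by
  have := P.u_add 0 0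
  rw [add_zero] at this
  exact mul_eq_left.1 this.symm

lemma u_comm (v w : FF n) : P.u v * P.u w = P.u w * P.u v := by
  rw [← P.u_add, ← P.u_add, add_comm]

lemma act_u (v : FF n) : P.act (P.u v) = 1 := by
  ext1 w
  apply P.u_inj
  rw [← P.conj, P.u_comm]
  simp

lemma u_sq (v : FF n) : P.u v * P.u v = 1 := by
  rw [← P.u_add, ff_add_self, P.u_zero]

/-- the centralizer of `e0`, in terms of the action. -/
lemma act_eq_one_of_comm {g : G} (h : ∀ v, g * P.u v = P.u v * g) : P.act g = 1 := by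
  ext1 w
  apply P.u_inj
  rw [← P.conj, h]
  simp

def Q0 : Subgroup G := (TT n).comap P.act

lemma mem_Q0 {g : G} : g ∈ P.Q0 ↔ P.act g ∈ TT n := Iff.rfl

lemma u_mem_Q0 (v : FF n) : P.u v ∈ P.Q0 := by
  rw [mem_Q0, P.act_u]
  exact one_mem _

lemma mu_tau_mem (ℓ : Module.Dual (ZMod 2) (V0 n)) : P.mu (tau ℓ) ∈ P.Q0 := by
  rw [mem_Q0, P.act_mu]
  exact tau_mem ℓ

lemma decomp {g : G} (h : g ∈ P.Q0) : ∃ x ℓ, g = P.u x * P.mu (tau ℓ) := by
  obtain ⟨ℓ, hℓ⟩ := tau_surj h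
  have h1 : P.act (g * (P.mu (tau ℓ))⁻¹) = 1 := by
    rw [map_mul, map_inv, P.act_mu, hℓ, mul_inv_cancel]
  obtain ⟨x, hx⟩ := P.ker _ h1
  exact ⟨x, ℓ, by rw [← hx]; group⟩

lemma card_Q0 [Finite G] : Nat.card P.Q0 = 2 ^ (2 * n + 1) := by
  classical
  let Φ : FF n × Module.Dual (ZMod 2) (V0 n) → P.Q0 := fun p =>
    ⟨P.u p.1 * P.mu (tau p.2), mul_mem (P.u_mem_Q0 _) (P.mu_tau_mem _)⟩
  have hΦ : Function.Bijective Φ := by
    constructor
    · rintro ⟨x, ℓ⟩ ⟨y, ℓ'⟩ h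
      have h1 : P.u x * P.mu (tau ℓ) = P.u y * P.mu (tau ℓ') := congrArg Subtype.val h
      have h2 := congrArg P.act h1
      simp only [map_mul, P.act_u, P.act_mu, one_mul] at h2
      have h3 := tau_inj h2
      subst h3
      have h4 := mul_right_cancel h1
      have h5 := P.u_inj h4
      rw [h5]
    · rintro ⟨g, hg⟩
      obtain ⟨x, ℓ, rfl⟩ := P.decomp hg
      exact ⟨(x, ℓ), rfl⟩
  rw [← Nat.card_congr (Equiv.ofBijective Φ hΦ), Nat.card_prod, card_ff, card_dual]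
  ring

lemma mu_conj_u (ℓ : Module.Dual (ZMod 2) (V0 n)) (x : FF n) :
    P.mu (tau ℓ) * P.u x * (P.mu (tau ℓ))⁻¹ = P.u (tau ℓ x) := by
  rw [P.conj, P.act_mu]

lemma sq_mem {g : G} (h : g ∈ P.Q0) : ∃ s, g ^ 2 = P.u (0, s) := by
  obtain ⟨x, ℓ, rfl⟩ := P.decomp h
  refine ⟨ℓ x.1, ?_⟩
  have h1 : P.mu (tau ℓ) * P.mu (tau ℓ) = 1 := by
    rw [← map_mul, tau_sq, map_one]
  have h2 : (P.u x * P.mu (tau ℓ)) ^ 2 =
      P.u x * (P.mu (tau ℓ) * P.u x * (P.mu (tau ℓ))⁻¹) * (P.mu (tau ℓ) * P.mu (tau ℓ)) := by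
    rw [sq]
    group
  rw [h2, P.mu_conj_u, h1, mul_one, ← P.u_add, tau_apply]
  congr 1
  ext1
  · exact v0_add_self _
  · show x.2 + (x.2 + ℓ x.1) = ℓ x.1
    rw [← add_assoc, z2_add_self, zero_add]

lemma comm_all {g : G} (h1 : ∀ v, g * P.u v = P.u v * g)
    (h2 : ∀ ℓ, g * P.mu (tau ℓ) = P.mu (tau ℓ) * g) : ∃ s, g = P.u (0, s) := by
  obtain ⟨x, rfl⟩ := P.ker g (P.act_eq_one_of_comm h1)
  have h3 : x.1 = 0 := by
    funext i
    have h4 := h2 (pr i)
    have h5 : P.mu (tau (pr i)) * P.u x * (P.mu (tau (pr i)))⁻¹ = P.u x := by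
      rw [← h4]
      group
    rw [P.mu_conj_u] at h5
    have h6 := P.u_inj h5
    rw [tau_apply] at h6
    have h7 : x.2 + pr i x.1 = x.2 := congrArg Prod.snd h6
    have h8 : pr i x.1 = 0 := by simpa using h7
    exact h8
  refine ⟨x.2, ?_⟩
  congr 1
  ext1
  · exact h3
  · rfl

lemma conj_mem_Q0 {g q : G} (hg : P.act g ∈ Stab n) (hq : q ∈ P.Q0) : g * q * g⁻¹ ∈ P.Q0 := by
  rw [mem_Q0, map_mul, map_mul, map_inv]
  obtain ⟨h0, h1⟩ := hq
  set α := P.act g with hα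
  set β := P.act q with hβ
  refine ⟨?_, fun v => ?_⟩
  · show α (β (α⁻¹ (e0 n))) = e0 n
    have h2 : α⁻¹ (e0 n) = e0 n := inv_mem hg
    rw [h2, h0, hg]
  · obtain ⟨s, hs⟩ := h1 (α⁻¹ v)
    refine ⟨s, ?_⟩
    show α (β (α⁻¹ v)) = _
    rw [hs, map_add, stab_fix hg]
    congr 1
    exact α.apply_symm_apply v

end Pack


lemma comm_of_sq {X : Type*} [Group X] (h : ∀ x : X, x ^ 2 ∈ Subgroup.center X) (x y : X) :
    x * y * x⁻¹ * y⁻¹ ∈ Subgroup.center X := by
  have e : x * y * x⁻¹ * y⁻¹ = (x * y) ^ 2 * (x ^ 2)⁻¹ * (y ^ 2)⁻¹ := by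
    have hc : y * (x ^ 2)⁻¹ = (x ^ 2)⁻¹ * y :=
      (Subgroup.mem_center_iff.1 (inv_mem (h x)) y)
    calc x * y * x⁻¹ * y⁻¹ = x * y * x * ((x ^ 2)⁻¹ * y) * (y ^ 2)⁻¹ := by
          simp only [sq, mul_inv_rev]
          group
      _ = x * y * x * (y * (x ^ 2)⁻¹) * (y ^ 2)⁻¹ := by rw [hc]
      _ = _ := by
          simp only [sq, mul_inv_rev]
          group
  rw [e]
  exact mul_mem (mul_mem (h _) (inv_mem (h _))) (inv_mem (h _))

lemma pcore_eq {G : Type*} [Group G] [Finite G] {n : ℕ} (P : Pack G n) (hn : 1 ≤ n) (C : Subgroup G)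
    (hC : ∀ g, g ∈ C ↔ P.act g ∈ Stab n) : (Cfsg.pCore 2 ↥C).map C.subtype = P.Q0 := by
  classical
  haveI : Fact (Nat.Prime 2) := ⟨Nat.prime_two⟩
  have hQC : P.Q0 ≤ C := fun q hq => (hC q).2 hq.1
  have hQp : IsPGroup 2 P.Q0 := IsPGroup.of_card P.card_Q0
  apply le_antisymm
  · let ab : ↥C →* (V0 n ≃ₗ[ZMod 2] V0 n) :=
      (barHom n).comp ((P.act.comp C.subtype).codRestrict (Stab n) (fun x => (hC _).1 x.2))
    have hsurj : Function.Surjective ab := by
      intro L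
      refine ⟨⟨P.mu (beta n L), (hC _).2 (by rw [P.act_mu]; exact beta_mem L)⟩, ?_⟩
      have h1 : ((P.act.comp C.subtype).codRestrict (Stab n) (fun x => (hC _).1 x.2))
          ⟨P.mu (beta n L), (hC _).2 (by rw [P.act_mu]; exact beta_mem L)⟩ = ⟨beta n L, beta_mem L⟩ :=
        Subtype.ext (P.act_mu _)
      show barHom n _ = L
      rw [h1, bar_beta]
    have hS : ((Cfsg.pCore 2 ↥C).map ab).Normal :=
      Subgroup.Normal.map (H01.pCore_normal 2) ab hsurj
    have hSp : IsPGroup 2 ((Cfsg.pCore 2 ↥C).map ab) := (H01.pCore_isPGroup 2).map ab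
    have hb := o2_trivial hn _ hS hSp
    rintro _ ⟨p, hp, rfl⟩
    have h1 : ab p = 1 := by
      have : ab p ∈ (Cfsg.pCore 2 ↥C).map ab := ⟨p, hp, rfl⟩
      rw [hb] at this
      exact this
    exact (barHom_eq_one _).1 h1
  · intro q hq
    refine ⟨⟨q, hQC hq⟩, ?_, rfl⟩
    have hnorm : (P.Q0.subgroupOf C).Normal := by
      constructor
      intro x hx g
      rw [Subgroup.mem_subgroupOf] at hx ⊢
      exact P.conj_mem_Q0 ((hC _).1 g.2) hx
    have hpg : IsPGroup 2 (P.Q0.subgroupOf C) := by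
      rintro ⟨x, hx⟩
      obtain ⟨k, hk⟩ := hQp ⟨x.1, hx⟩
      exact ⟨k, Subtype.ext (Subtype.ext (by simpa using congrArg Subtype.val hk))⟩
    exact H01.le_pCore hnorm hpg hq


/-- Let G be a finite group that is the split extension of an elementary abelian normal subgroup U of order 2^(n+1), n ≥ 1, by its full automorphism group: U has a complement M in G whose conjugation action on U is faithful and realizes every automorphism of U. Let Z be a subgroup of U of order 2 and Q the largest normal 2-subgroup of the centralizer C of Z. Then Q is extraspecial of order 2^(2n+1) with an elementary abelian subgroup of order 2^(n+1) (plus type), Q is a large extraspecial 2-subgroup of G, and C is the split extension of Q by the general linear group of degree n over the field with two elements. -/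
theorem result {G : Type*} [Group G] [Finite G] (n : ℕ) (hn : 1 ≤ n) (U M : Subgroup G) [U.Normal] (hU : Cfsg.IsElementaryAbelian 2 U) (hUcard : Nat.card ↥U = 2 ^ (n + 1)) (hUM : U ⊓ M = ⊥) (hUM' : U ⊔ M = ⊤) (hfaith : ∀ m ∈ M, (∀ u ∈ U, m * u * m⁻¹ = u) → m = 1) (hfull : ∀ φ : ↥U ≃* ↥U, ∃ m ∈ M, ∀ u : ↥U, ((φ u : ↥U) : G) = m * u * m⁻¹) (Z : Subgroup G) (hZU : Z ≤ U) (hZ : Nat.card ↥Z = 2) (Q : Subgroup G) (hQ : Q = (Cfsg.pCore 2 ↥(Subgroup.centralizer (Z : Set G))).map (Subgroup.centralizer (Z : Set G)).subtype) : Cfsg.IsExtraspecial 2 ↥Q ∧ Nat.card ↥Q = 2 ^ (2 * n + 1) ∧ (∃ E : Subgroup G, E ≤ Q ∧ Cfsg.IsElementaryAbelian 2 E ∧ Nat.card ↥E = 2 ^ (n + 1)) ∧ Cfsg.IsLargeExtraspecial Q ∧ ∃ K : Subgroup G, K ≤ Subgroup.centralizer (Z : Set G) ∧ Q ⊓ K = ⊥ ∧ Q ⊔ K = Subgroup.centralizer (Z : Set G) ∧ Nonempty (↥K ≃* Matrix.GeneralLinearGroup (Fin n) (ZMod 2)) := by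
  classical
haveI : Fact (Nat.Prime 2) := ⟨Nat.prime_two⟩
obtain ⟨z, hzZ, hz1, hZmem⟩ : ∃ z ∈ Z, z ≠ 1 ∧ ∀ g, g ∈ Z ↔ g = 1 ∨ g = z := by
  obtain ⟨x, y, hxy, hset⟩ := Nat.card_eq_two_iff.1 hZ
  have hall : ∀ w : ↥Z, w = x ∨ w = y := by
    intro w
    have : w ∈ ({x, y} : Set ↥Z) := by rw [hset]; trivial
    simpa using this
  have key : ∀ a b : ↥Z, a ≠ b → (a = 1) → (∀ w : ↥Z, w = a ∨ w = b) →
      ∃ z ∈ Z, z ≠ 1 ∧ ∀ g, g ∈ Z ↔ g = 1 ∨ g = z := by
    intro a b hab ha hw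
    refine ⟨b, b.2, ?_, fun g => ⟨fun hg => ?_, ?_⟩⟩
    · intro hb
      apply hab
      rw [ha]
      exact (Subtype.ext hb).symm
    · rcases hw ⟨g, hg⟩ with h | h
      · left
        rw [ha] at h
        exact congrArg Subtype.val h
      · right
        exact congrArg Subtype.val h
    · rintro (rfl | rfl)
      · exact one_mem _
      · exact b.2
  rcases hall 1 with h | h
  · exact key x y hxy h.symm hall
  · exact key y x hxy.symm h.symm (fun w => (hall w).symm)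
obtain ⟨P, hPU, hUP, hPz⟩ := pack_exists (n := n) U M hU hUcard hUM' hfaith hfull z (hZU hzZ) hz1
have hZ' : ∀ g, g ∈ Z ↔ ∃ s, g = P.u (0, s) := by
  intro g
  rw [hZmem]
  constructor
  · rintro (rfl | rfl)
    · exact ⟨0, P.u_zero.symm⟩
    · exact ⟨1, hPz.symm⟩
  · rintro ⟨s, rfl⟩
    rcases z2 s with rfl | rfl
    · exact Or.inl P.u_zero
    · exact Or.inr hPz
have hZcomm : ∀ g, P.act g ∈ Stab n → ∀ s, g * P.u (0, s) = P.u (0, s) * g := by
  intro g hg s
  have h1 := P.conj g (0, s)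
  rw [stab_fix hg, mul_inv_eq_iff_eq_mul] at h1
  exact h1
have hcent : ∀ g, g ∈ Subgroup.centralizer (Z : Set G) ↔ P.act g ∈ Stab n := by
  intro g
  constructor
  · intro hg
    have h1 : z * g = g * z := Subgroup.mem_centralizer_iff.1 hg z hzZ
    show P.act g (e0 n) = e0 n
    apply P.u_inj
    rw [← P.conj, hPz, ← h1]
    group
  · intro hg
    rw [Subgroup.mem_centralizer_iff]
    intro h hh
    obtain ⟨s, rfl⟩ := (hZ' h).1 hh
    exact (hZcomm g hg s).symm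
have hQ0 : Q = P.Q0 := by
  rw [hQ]
  exact pcore_eq P hn _ hcent
clear hQ
subst hQ0
have hQS : ∀ q ∈ P.Q0, P.act q ∈ Stab n := fun q hq => hq.1
have hZQ : Z ≤ P.Q0 := by
  intro a ha
  obtain ⟨s, rfl⟩ := (hZ' a).1 ha
  exact P.u_mem_Q0 _
have hcen : Subgroup.center ↥P.Q0 = Z.subgroupOf P.Q0 := by
  ext x
  rw [Subgroup.mem_center_iff, Subgroup.mem_subgroupOf]
  constructor
  · intro h
    have h1 : ∀ v, (x : G) * P.u v = P.u v * x := fun v =>
      (congrArg Subtype.val (h ⟨P.u v, P.u_mem_Q0 v⟩)).symm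
    have h2 : ∀ ℓ, (x : G) * P.mu (tau ℓ) = P.mu (tau ℓ) * x := fun ℓ =>
      (congrArg Subtype.val (h ⟨P.mu (tau ℓ), P.mu_tau_mem ℓ⟩)).symm
    obtain ⟨s, hs⟩ := P.comm_all h1 h2
    exact (hZ' _).2 ⟨s, hs⟩
  · intro hx g
    obtain ⟨s, hs⟩ := (hZ' _).1 hx
    apply Subtype.ext
    show (g : G) * x = x * g
    rw [hs]
    exact hZcomm _ (hQS _ g.2) s
have hcardQ := P.card_Q0
have hpow : ∀ x : ↥P.Q0, x ^ 2 ∈ Subgroup.center ↥P.Q0 := by
  intro x
  rw [hcen, Subgroup.mem_subgroupOf]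
  obtain ⟨s, hs⟩ := P.sq_mem x.2
  exact (hZ' _).2 ⟨s, by simpa using hs⟩
have hc : Nat.card (Subgroup.center ↥P.Q0) = 2 := by
  rw [hcen, Nat.card_congr (Subgroup.subgroupOfEquivOfLe hZQ).toEquiv]
  exact hZ
have hext : Cfsg.IsExtraspecial 2 ↥P.Q0 := by
  apply H18.isExtraspecial_of (IsPGroup.of_card hcardQ) hc hpow (comm_of_sq hpow)
  by_contra hall
  push Not at hall
  have htop : Subgroup.center ↥P.Q0 = ⊤ := by
    rw [eq_top_iff]
    intro x _
    rw [Subgroup.mem_center_iff]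
    intro g
    have := hall g x
    rw [mul_inv_eq_one, mul_inv_eq_iff_eq_mul] at this
    exact this
  rw [htop, Subgroup.card_top, hcardQ] at hc
  have h4 : 2 ^ 2 ≤ 2 ^ (2 * n + 1) := Nat.pow_le_pow_right (by norm_num) (by omega)
  omega
have hmapcen : (Subgroup.center ↥P.Q0).map P.Q0.subtype = Z := by
  rw [hcen]
  exact Subgroup.map_subgroupOf_eq_of_le hZQ
have hU_le : U ≤ P.Q0 := by
  intro a ha
  obtain ⟨v, rfl⟩ := hUP a ha
  exact P.u_mem_Q0 v
let sec : (V0 n ≃ₗ[ZMod 2] V0 n) →* G := P.mu.comp (beta n)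
have hact_sec : ∀ L, P.act (sec L) = beta n L := fun L => P.act_mu _
have hinj : Function.Injective sec := by
  intro L L' h
  have h1 := congrArg P.act h
  rw [hact_sec, hact_sec] at h1
  ext1 x
  have h2 := congrArg (fun β : AutF n => (β (x, 0)).1) h1
  exact h2
have hsecC : ∀ L, sec L ∈ Subgroup.centralizer (Z : Set G) := fun L =>
  (hcent _).2 (by rw [hact_sec]; exact beta_mem L)
refine ⟨hext, hcardQ, ⟨U, hU_le, hU, hUcard⟩, ⟨hext, ?_, ?_, ?_⟩, sec.range, ?_, ?_, ?_, ?_⟩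
· rw [hmapcen]
  apply le_antisymm
  · intro g hg
    have h1 : ∀ v, g * P.u v = P.u v * g := fun v =>
      (Subgroup.mem_centralizer_iff.1 hg _ (P.u_mem_Q0 v)).symm
    have h2 : ∀ ℓ, g * P.mu (tau ℓ) = P.mu (tau ℓ) * g := fun ℓ =>
      (Subgroup.mem_centralizer_iff.1 hg _ (P.mu_tau_mem ℓ)).symm
    obtain ⟨s, hs⟩ := P.comm_all h1 h2
    exact (hZ' _).2 ⟨s, hs⟩
  · intro a ha
    obtain ⟨s, rfl⟩ := (hZ' a).1 ha
    rw [Subgroup.mem_centralizer_iff]
    intro h hh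
    exact hZcomm _ (hQS h hh) s
· rw [hmapcen]
  intro g hg
  rw [Subgroup.mem_normalizer_iff]
  have hgS := (hcent g).1 hg
  intro h
  constructor
  · exact P.conj_mem_Q0 hgS
  · intro hh
    have := P.conj_mem_Q0 (g := g⁻¹) (by rw [map_inv]; exact inv_mem hgS) hh
    have e : g⁻¹ * (g * h * g⁻¹) * g⁻¹⁻¹ = h := by group
    rwa [e] at this
· intro K₁ hodd hnorm
  rw [eq_bot_iff]
  have hsqone : ∀ c ∈ K₁, c * c = 1 → c = 1 := by
    intro c hc' hcc
    have h1 : orderOf (⟨c, hc'⟩ : K₁) ∣ Nat.card K₁ := orderOf_dvd_natCard _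
    have h2 : orderOf (⟨c, hc'⟩ : K₁) ∣ 2 := by
      apply orderOf_dvd_of_pow_eq_one
      apply Subtype.ext
      show c ^ 2 = 1
      rw [sq, hcc]
    have h3 : orderOf (⟨c, hc'⟩ : K₁) = 1 := by
      have h4 : (orderOf (⟨c, hc'⟩ : K₁)).Coprime 2 :=
        Nat.Coprime.coprime_dvd_left h1 (Nat.coprime_two_right.2 hodd)
      exact Nat.eq_one_of_dvd_coprimes h4 (dvd_refl _) h2
    have h5 := orderOf_eq_one_iff.1 h3
    exact congrArg Subtype.val h5
  intro x hx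
  rw [Subgroup.mem_bot]
  have hcomm : ∀ v, x * P.u v = P.u v * x := by
    intro v
    have h1 : P.u v * x⁻¹ * (P.u v)⁻¹ ∈ K₁ :=
      (Subgroup.mem_normalizer_iff.1 (hnorm (P.u_mem_Q0 v)) x⁻¹).1 (inv_mem hx)
    have h2 : x * (P.u v * x⁻¹ * (P.u v)⁻¹) ∈ K₁ := mul_mem hx h1
    have h3 : x * (P.u v * x⁻¹ * (P.u v)⁻¹) = P.u (P.act x v + v) := by
      rw [P.u_add, ← P.conj]
      have : (P.u v)⁻¹ = P.u v := inv_eq_of_mul_eq_one_right (P.u_sq v)
      rw [this]
      group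
    rw [h3] at h2
    have h5 := hsqone _ h2 (P.u_sq _)
    rw [← h3] at h5
    have h6 : x * P.u v * x⁻¹ * (P.u v)⁻¹ = 1 := by
      rw [← h5]
      group
    rw [mul_inv_eq_one, mul_inv_eq_iff_eq_mul] at h6
    exact h6
  obtain ⟨w, rfl⟩ := P.ker x (P.act_eq_one_of_comm hcomm)
  exact hsqone _ hx (P.u_sq w)
· rintro _ ⟨L, rfl⟩
  exact hsecC L
· rw [eq_bot_iff]
  rintro _ ⟨hq, ⟨L, rfl⟩⟩
  rw [Subgroup.mem_bot]
  have h1 : beta n L ∈ TT n := by
    rw [← hact_sec]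
    exact hq
  have h2 := (barHom_eq_one ⟨beta n L, beta_mem L⟩).2 h1
  rw [bar_beta] at h2
  rw [h2, map_one]
· apply le_antisymm
  · apply sup_le
    · exact fun q hq => (hcent q).2 (hQS q hq)
    · rintro _ ⟨L, rfl⟩
      exact hsecC L
  · intro g hg
    have hgS := (hcent g).1 hg
    set L := barHom n ⟨P.act g, hgS⟩ with hL
    have h1 : g * (sec L)⁻¹ ∈ P.Q0 := by
      rw [Pack.mem_Q0, map_mul, map_inv, hact_sec]
      have h2 : (⟨P.act g, hgS⟩ * (⟨beta n L, beta_mem L⟩ : Stab n)⁻¹ : Stab n) ∈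
          (barHom n).ker := by
        rw [MonoidHom.mem_ker, map_mul, map_inv, bar_beta, ← hL, mul_inv_cancel]
      exact (barHom_eq_one _).1 h2
    have e : g = (g * (sec L)⁻¹) * sec L := by group
    rw [e]
    exact Subgroup.mul_mem_sup h1 ⟨L, rfl⟩
· exact ⟨(MonoidHom.ofInjective hinj).symm.trans
    ((Matrix.GeneralLinearGroup.toLin.trans
      (LinearMap.GeneralLinearGroup.generalLinearEquiv _ _)).symm)⟩

end Cfsg.Agent.S5423
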