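import Cfsg.Statements.S5424
import Mathlib
import Cfsg.Agent.Lib.H01.Fitting
import Cfsg.Agent.Lib.H18.Special
import Cfsg.Agent.S5423

set_option autoImplicit false
open Cfsg

namespace Cfsg.Agent.S5424


set_option linter.unusedSectionVars false
set_option linter.style.haveILetI false

open Cfsg.Agent.S5423 (z2 z2_add_self v0_add_self o2_trivial comm_of_sq V0)

abbrev GG (n : ℕ) := Matrix.SpecialLinearGroup (Fin (n + 2)) (ZMod 2)
abbrev SLn (n : ℕ) := Matrix.SpecialLinearGroup (Fin n) (ZMod 2)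
abbrev MM (n : ℕ) := Matrix (Fin n) (Fin n) (ZMod 2)

def ss {n : ℕ} (k : Fin n) : Fin (n + 2) := k.succ.succ

lemma fin3 {n : ℕ} (i : Fin (n + 2)) : i = 0 ∨ i = 1 ∨ ∃ k, i = ss k := by
  refine Fin.cases (Or.inl rfl) (fun i' => ?_) i
  refine Fin.cases (Or.inr (Or.inl rfl)) (fun k => Or.inr (Or.inr ⟨k, rfl⟩)) i'

lemma sum3 {n : ℕ} {R : Type*} [AddCommMonoid R] (f : Fin (n + 2) → R) :
    ∑ i, f i = f 0 + f 1 + ∑ k, f (ss k) := by
  rw [Fin.sum_univ_succ, Fin.sum_univ_succ]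
  exact (add_assoc _ _ _).symm

def Bm {n : ℕ} (a : Fin n → ZMod 2) (A : MM n) (b : Fin n → ZMod 2) (c : ZMod 2) : MM (n + 2) :=
  fun i j => Fin.cases (Fin.cases 1 (Fin.cases c a) j)
    (fun i' => Fin.cases (Fin.cases 0 (Fin.cases 1 (fun _ => 0)) j)
      (fun k => Fin.cases 0 (Fin.cases (b k) (fun l => A k l)) j) i') i

section entries
variable {n : ℕ} (a : Fin n → ZMod 2) (A : MM n) (b : Fin n → ZMod 2) (c : ZMod 2) (k l : Fin n)
@[simp] lemma Bm_00 : Bm a A b c 0 0 = 1 := rfl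
@[simp] lemma Bm_01 : Bm a A b c 0 1 = c := rfl
@[simp] lemma Bm_0s : Bm a A b c 0 (ss l) = a l := rfl
@[simp] lemma Bm_10 : Bm a A b c 1 0 = 0 := rfl
@[simp] lemma Bm_11 : Bm a A b c 1 1 = 1 := rfl
@[simp] lemma Bm_1s : Bm a A b c 1 (ss l) = 0 := rfl
@[simp] lemma Bm_s0 : Bm a A b c (ss k) 0 = 0 := rfl
@[simp] lemma Bm_s1 : Bm a A b c (ss k) 1 = b k := rfl
@[simp] lemma Bm_ss : Bm a A b c (ss k) (ss l) = A k l := rfl
end entries

lemma one_ss {n : ℕ} (k l : Fin n) : (1 : MM (n + 2)) (ss k) (ss l) = (1 : MM n) k l := by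
  simp [Matrix.one_apply, ss]

@[simp] lemma ss_ne_zero {n : ℕ} (k : Fin n) : (ss k : Fin (n + 2)) ≠ 0 := Fin.succ_ne_zero _

@[simp] lemma ss_ne_one {n : ℕ} (k : Fin n) : (ss k : Fin (n + 2)) ≠ 1 := by
  intro h
  have : (k.succ.succ : Fin (n + 2)) = Fin.succ 0 := h
  exact Fin.succ_ne_zero _ (Fin.succ_injective _ this)

@[simp] lemma zero_ne_ss {n : ℕ} (k : Fin n) : (0 : Fin (n + 2)) ≠ ss k := (ss_ne_zero k).symm
@[simp] lemma one_ne_ss {n : ℕ} (k : Fin n) : (1 : Fin (n + 2)) ≠ ss k := (ss_ne_one k).symm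

lemma ss_inj {n : ℕ} : Function.Injective (ss : Fin n → Fin (n + 2)) :=
  fun _ _ h => Fin.succ_injective _ (Fin.succ_injective _ h)

lemma Bm_one {n : ℕ} : Bm 0 (1 : MM n) 0 0 = 1 := by
  ext i j
  rcases fin3 i with rfl | rfl | ⟨k, rfl⟩ <;> rcases fin3 j with rfl | rfl | ⟨l, rfl⟩ <;>
    simp [Matrix.one_apply, ss_inj.eq_iff]

lemma Bm_mul {n : ℕ} (a a' : Fin n → ZMod 2) (A A' : MM n) (b b' : Fin n → ZMod 2) (c c' : ZMod 2) :
    Bm a A b c * Bm a' A' b' c' =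
      Bm (a' + Matrix.vecMul a A') (A * A') (b + Matrix.mulVec A b') (c + c' + a ⬝ᵥ b') := by
  ext i j
  rw [Matrix.mul_apply, sum3]
  rcases fin3 i with rfl | rfl | ⟨k, rfl⟩ <;> rcases fin3 j with rfl | rfl | ⟨l, rfl⟩ <;>
    simp [Matrix.mul_apply, Matrix.mulVec, Matrix.vecMul, dotProduct] <;> try ring

lemma Bm_det {n : ℕ} (a : Fin n → ZMod 2) (A A' : MM n) (b : Fin n → ZMod 2) (c : ZMod 2)
    (h1 : A * A' = 1) : (Bm a A b c).det = 1 := by
  have h := Bm_mul a (Matrix.vecMul a A') A A' b (Matrix.mulVec A' b) c (c + a ⬝ᵥ (Matrix.mulVec A' b))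
  have e1 : Matrix.vecMul a A' + Matrix.vecMul a A' = 0 := v0_add_self _
  have e2 : b + Matrix.mulVec A (Matrix.mulVec A' b) = 0 := by
    rw [Matrix.mulVec_mulVec, h1, Matrix.one_mulVec]
    exact v0_add_self _
  have e3 : c + (c + a ⬝ᵥ (Matrix.mulVec A' b)) + a ⬝ᵥ (Matrix.mulVec A' b) = 0 := by
    rw [add_assoc, add_assoc, z2_add_self, add_zero, z2_add_self]
  rw [e1, h1, e2, e3, Bm_one] at h
  have h2 := congrArg Matrix.det h
  rw [Matrix.det_mul, Matrix.det_one] at h2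
  have h3 : (Bm a A b c).det ≠ 0 := by
    intro h0
    rw [h0, zero_mul] at h2
    exact zero_ne_one h2
  exact (z2 _).resolve_left h3

def sG {n : ℕ} (α : SLn n) (a : Fin n → ZMod 2) (b : Fin n → ZMod 2) (c : ZMod 2) : GG n :=
  ⟨Bm a α.1 b c, Bm_det a α.1 (α⁻¹).1 b c (congrArg Subtype.val (mul_inv_cancel α))⟩

lemma sG_mul {n : ℕ} (α α' : SLn n) (a a' b b' : Fin n → ZMod 2) (c c' : ZMod 2) :
    sG α a b c * sG α' a' b' c' =
      sG (α * α') (a' + Matrix.vecMul a α'.1) (b + Matrix.mulVec α.1 b') (c + c' + a ⬝ᵥ b') :=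
  Subtype.ext (Bm_mul _ _ _ _ _ _ _ _)

lemma sG_one (n : ℕ) : sG (1 : SLn n) 0 0 0 = 1 := Subtype.ext Bm_one

lemma sG_one_mul {n : ℕ} (a a' b b' : Fin n → ZMod 2) (c c' : ZMod 2) :
    sG 1 a b c * sG 1 a' b' c' = sG 1 (a' + a) (b + b') (c + c' + a ⬝ᵥ b') := by
  have h3 : (1 : SLn n).1 = (1 : MM n) := rfl
  rw [sG_mul, mul_one, h3, Matrix.vecMul_one, Matrix.one_mulVec]

lemma sG_inj {n : ℕ} {α α' : SLn n} {a a' b b' : Fin n → ZMod 2} {c c' : ZMod 2}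
    (h : sG α a b c = sG α' a' b' c') : α = α' ∧ a = a' ∧ b = b' ∧ c = c' := by
  have h' : Bm a α.1 b c = Bm a' α'.1 b' c' := congrArg Subtype.val h
  refine ⟨Subtype.ext (Matrix.ext fun k l => congrFun (congrFun h' (ss k)) (ss l)),
    funext fun l => congrFun (congrFun h' 0) (ss l),
    funext fun k => congrFun (congrFun h' (ss k)) 1, congrFun (congrFun h' 0) 1⟩

/-- `1 + E₀₁`. -/
def zz (n : ℕ) : GG n := sG 1 0 0 1

lemma zz_eq {n : ℕ} : Bm 0 (1 : MM n) 0 1 = Matrix.transvection 0 1 1 := by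
  ext i j
  rcases fin3 i with rfl | rfl | ⟨k, rfl⟩ <;> rcases fin3 j with rfl | rfl | ⟨l, rfl⟩ <;>
    simp [Matrix.transvection, Matrix.one_apply, ss_inj.eq_iff, Matrix.single_apply]

/-- the centralizer of `zz`. -/
def C0 (n : ℕ) : Subgroup (GG n) where
  carrier := {g | ∃ α a b c, g = sG α a b c}
  mul_mem' := by
    rintro _ _ ⟨α, a, b, c, rfl⟩ ⟨α', a', b', c', rfl⟩
    exact ⟨_, _, _, _, sG_mul _ _ _ _ _ _ _ _⟩
  one_mem' := ⟨1, 0, 0, 0, (sG_one n).symm⟩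
  inv_mem' := by
    rintro _ ⟨α, a, b, c, rfl⟩
    refine ⟨α⁻¹, Matrix.vecMul a (α⁻¹).1, Matrix.mulVec (α⁻¹).1 b,
      c + a ⬝ᵥ (Matrix.mulVec (α⁻¹).1 b), ?_⟩
    apply inv_eq_of_mul_eq_one_right
    rw [sG_mul, ← sG_one n, mul_inv_cancel]
    have e1 : Matrix.vecMul a (α⁻¹).1 + Matrix.vecMul a (α⁻¹).1 = 0 := v0_add_self _
    have h1 : α.1 * (α⁻¹).1 = 1 := congrArg Subtype.val (mul_inv_cancel α)
    have e2 : b + Matrix.mulVec α.1 (Matrix.mulVec (α⁻¹).1 b) = 0 := by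
      rw [Matrix.mulVec_mulVec, h1, Matrix.one_mulVec]
      exact v0_add_self _
    have e3 : c + (c + a ⬝ᵥ (Matrix.mulVec (α⁻¹).1 b)) + a ⬝ᵥ (Matrix.mulVec (α⁻¹).1 b) = 0 := by
      rw [add_assoc, add_assoc, z2_add_self, add_zero, z2_add_self]
    rw [e1, e2, e3]

/-- the extraspecial group. -/
def Q0 (n : ℕ) : Subgroup (GG n) where
  carrier := {g | ∃ a b c, g = sG 1 a b c}
  mul_mem' := by
    rintro _ _ ⟨a, b, c, rfl⟩ ⟨a', b', c', rfl⟩
    refine ⟨a' + a, b + b', c + c' + a ⬝ᵥ b', ?_⟩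
    rw [sG_mul]
    simp
  one_mem' := ⟨0, 0, 0, (sG_one n).symm⟩
  inv_mem' := by
    rintro _ ⟨a, b, c, rfl⟩
    refine ⟨a, b, c + a ⬝ᵥ b, ?_⟩
    apply inv_eq_of_mul_eq_one_right
    rw [sG_mul, ← sG_one n]
    have e1 : a + a = 0 := v0_add_self _
    have e2 : b + b = 0 := v0_add_self _
    have e3 : c + (c + a ⬝ᵥ b) + a ⬝ᵥ b = 0 := by
      rw [add_assoc, add_assoc, z2_add_self, add_zero, z2_add_self]
    simp [e1, e2, e3]

lemma Q0_le_C0 (n : ℕ) : Q0 n ≤ C0 n := by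
  rintro _ ⟨a, b, c, rfl⟩
  exact ⟨1, a, b, c, rfl⟩

lemma zz_comm_C0 {n : ℕ} {g : GG n} (hg : g ∈ C0 n) : g * zz n = zz n * g := by
  obtain ⟨α, a, b, c, rfl⟩ := hg
  unfold zz
  rw [sG_mul, sG_mul]
  simp [add_comm]

def blkM {n : ℕ} (g : GG n) : MM n := fun k l => g.1 (ss k) (ss l)

lemma mem_C0_of_comm {n : ℕ} {g : GG n} (h : g * zz n = zz n * g) : g ∈ C0 n := by
  classical
  have key : ∀ g : GG n, g * zz n = zz n * g →
      g.1 1 0 = 0 ∧ (∀ k, g.1 (ss k) 0 = 0) ∧ (∀ l, g.1 1 (ss l) = 0) ∧ g.1 0 0 = g.1 1 1 := by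
    intro g h
    have h' : g.1 * Bm 0 (1 : MM n) 0 1 = Bm 0 (1 : MM n) 0 1 * g.1 := congrArg Subtype.val h
    have hent : ∀ i j, (g.1 * Bm 0 (1 : MM n) 0 1) i j = (Bm 0 (1 : MM n) 0 1 * g.1) i j :=
      fun i j => congrFun (congrFun h' i) j
    refine ⟨?_, fun k => ?_, fun l => ?_, ?_⟩
    · have := hent 1 1
      rw [Matrix.mul_apply, Matrix.mul_apply, sum3, sum3] at this
      simpa using this
    · have := hent (ss k) 1
      rw [Matrix.mul_apply, Matrix.mul_apply, sum3, sum3] at this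
      simpa [Matrix.one_apply, ss_inj.eq_iff] using this
    · have := hent 0 (ss l)
      rw [Matrix.mul_apply, Matrix.mul_apply, sum3, sum3] at this
      simpa [Matrix.one_apply, ss_inj.eq_iff] using this
    · have := hent 0 1
      rw [Matrix.mul_apply, Matrix.mul_apply, sum3, sum3] at this
      simp at this
      linear_combination this
  have hinv : g⁻¹ * zz n = zz n * g⁻¹ := by
    calc g⁻¹ * zz n = g⁻¹ * (zz n * g) * g⁻¹ := by group
      _ = g⁻¹ * (g * zz n) * g⁻¹ := by rw [h]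
      _ = _ := by group
  obtain ⟨h10, hs0, h1s, h00⟩ := key g h
  obtain ⟨h10', hs0', h1s', h00'⟩ := key g⁻¹ hinv
  have hone : ∀ g g' : GG n, g' * g = 1 → g.1 1 0 = 0 → (∀ k, g.1 (ss k) 0 = 0) → g.1 0 0 = 1 := by
    intro g g' hgg h1 h2
    have h3 : (g'.1 * g.1) 0 0 = (1 : MM (n + 2)) 0 0 :=
      congrFun (congrFun (congrArg Subtype.val hgg) 0) 0
    rw [Matrix.mul_apply, sum3] at h3
    have h4 : g'.1 0 0 * g.1 0 0 = 1 := by
      simpa [h1, h2] using h3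
    have h5 : g.1 0 0 ≠ 0 := by
      intro h0
      rw [h0, mul_zero] at h4
      exact zero_ne_one h4
    exact (z2 _).resolve_left h5
  have hg00 : g.1 0 0 = 1 := hone g g⁻¹ (inv_mul_cancel g) h10 hs0
  have hg00' : (g⁻¹).1 0 0 = 1 := hone g⁻¹ g (mul_inv_cancel g) h10' hs0'
  have hform : ∀ g : GG n, g.1 1 0 = 0 → (∀ k, g.1 (ss k) 0 = 0) → (∀ l, g.1 1 (ss l) = 0) →
      g.1 0 0 = g.1 1 1 → g.1 0 0 = 1 →
      g.1 = Bm (fun l => g.1 0 (ss l)) (fun k l => g.1 (ss k) (ss l)) (fun k => g.1 (ss k) 1)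
        (g.1 0 1) := by
    intro g h1 h2 h3 h4 h5
    ext i j
    rcases fin3 i with rfl | rfl | ⟨k, rfl⟩ <;> rcases fin3 j with rfl | rfl | ⟨l, rfl⟩
    · exact h5
    · rfl
    · rfl
    · exact h1
    · show g.1 1 1 = 1
      rw [← h4, h5]
    · exact h3 l
    · exact h2 k
    · rfl
    · rfl
  have hf := hform g h10 hs0 h1s h00 hg00
  have hf' := hform g⁻¹ h10' hs0' h1s' h00' hg00'
  have hAA : blkM g * blkM g⁻¹ = 1 := by
    have h1 : g.1 * (g⁻¹).1 = 1 := congrArg Subtype.val (mul_inv_cancel g)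
    rw [hf, hf'] at h1
    have h1' := (Bm_mul _ _ _ _ _ _ _ _).symm.trans h1
    ext k l
    have h2 := congrFun (congrFun h1' (ss k)) (ss l)
    rw [Bm_ss, one_ss] at h2
    exact h2
  have hdet : Matrix.det (blkM g) = 1 := by
    have h2 := congrArg Matrix.det hAA
    rw [Matrix.det_mul, Matrix.det_one] at h2
    have h3 : Matrix.det (blkM g) ≠ 0 := by
      intro h0
      rw [h0, zero_mul] at h2
      exact zero_ne_one h2
    exact (z2 _).resolve_left h3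
  exact ⟨⟨_, hdet⟩, _, _, _, Subtype.ext hf⟩

lemma centralizer_zz (n : ℕ) : Subgroup.centralizer ({zz n} : Set (GG n)) = C0 n := by
  ext g
  rw [Subgroup.mem_centralizer_singleton_iff]
  exact ⟨fun h => mem_C0_of_comm h, fun h => zz_comm_C0 h⟩

def blk {n : ℕ} (g : C0 n) : SLn n :=
  ⟨fun k l => g.1.1 (ss k) (ss l), by
    obtain ⟨_, α, a, b, c, rfl⟩ := g
    exact α.2⟩

lemma blk_sG {n : ℕ} (α : SLn n) (a b : Fin n → ZMod 2) (c : ZMod 2) (h : sG α a b c ∈ C0 n) :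
    blk ⟨sG α a b c, h⟩ = α := Subtype.ext rfl

def blkHom (n : ℕ) : C0 n →* SLn n :=
  MonoidHom.mk' blk (by
    rintro ⟨_, α, a, b, c, rfl⟩ ⟨_, α', a', b', c', rfl⟩
    apply Subtype.ext
    ext k l
    show (sG α a b c * sG α' a' b' c').1 (ss k) (ss l) = _
    rw [sG_mul]
    rfl)

lemma blkHom_sG {n : ℕ} (α : SLn n) (a b : Fin n → ZMod 2) (c : ZMod 2) (h : sG α a b c ∈ C0 n) :
    blkHom n ⟨sG α a b c, h⟩ = α := Subtype.ext rfl

lemma mem_Q0_iff {n : ℕ} (g : C0 n) : g.1 ∈ Q0 n ↔ blkHom n g = 1 := by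
  constructor
  · rintro ⟨a, b, c, hg⟩
    have : g = ⟨sG 1 a b c, hg ▸ g.2⟩ := Subtype.ext hg
    rw [this]
    exact blkHom_sG _ _ _ _ _
  · intro h
    obtain ⟨_, α, a, b, c, rfl⟩ := g
    have h2 : α = 1 := (blkHom_sG α a b c ⟨α, a, b, c, rfl⟩).symm.trans h
    subst h2
    exact ⟨a, b, c, rfl⟩

lemma Q0_conj {n : ℕ} {g q : GG n} (hg : g ∈ C0 n) (hq : q ∈ Q0 n) : g * q * g⁻¹ ∈ Q0 n := by
  have hqC := Q0_le_C0 n hq
  have h := (mem_Q0_iff ⟨q, hqC⟩).1 hq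
  have hm : g * q * g⁻¹ ∈ C0 n := mul_mem (mul_mem hg hqC) (inv_mem hg)
  have h2 : (⟨g * q * g⁻¹, hm⟩ : C0 n) = ⟨g, hg⟩ * ⟨q, hqC⟩ * ⟨g, hg⟩⁻¹ := rfl
  show (⟨g * q * g⁻¹, hm⟩ : C0 n).1 ∈ Q0 n
  rw [mem_Q0_iff, h2, map_mul, map_mul, h, mul_one, map_inv, mul_inv_cancel]

lemma card_Q0 (n : ℕ) : Nat.card (Q0 n) = 2 ^ (2 * n + 1) := by
  classical
  let Φ : V0 n × V0 n × ZMod 2 → Q0 n := fun p => ⟨sG 1 p.1 p.2.1 p.2.2, p.1, p.2.1, p.2.2, rfl⟩
  have hΦ : Function.Bijective Φ := by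
    constructor
    · rintro ⟨a, b, c⟩ ⟨a', b', c'⟩ h
      obtain ⟨-, h1, h2, h3⟩ := sG_inj (congrArg Subtype.val h)
      simp only at h1 h2 h3
      rw [h1, h2, h3]
    · rintro ⟨_, a, b, c, rfl⟩
      exact ⟨(a, b, c), rfl⟩
  rw [← Nat.card_congr (Equiv.ofBijective Φ hΦ)]
  simp [Nat.card_eq_fintype_card, ZMod.card]
  ring

/-- the centre of the extraspecial group. -/
def Zs (n : ℕ) : Subgroup (GG n) where
  carrier := {g | ∃ s, g = sG 1 0 0 s}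
  mul_mem' := by
    rintro _ _ ⟨s, rfl⟩ ⟨s', rfl⟩
    refine ⟨s + s', ?_⟩
    rw [sG_mul]
    simp
  one_mem' := ⟨0, (sG_one n).symm⟩
  inv_mem' := by
    rintro _ ⟨s, rfl⟩
    refine ⟨s, ?_⟩
    apply inv_eq_of_mul_eq_one_right
    rw [sG_mul, ← sG_one n]
    simp [z2_add_self]

lemma Zs_le_Q0 (n : ℕ) : Zs n ≤ Q0 n := by
  rintro _ ⟨s, rfl⟩
  exact ⟨0, 0, s, rfl⟩

lemma card_Zs (n : ℕ) : Nat.card (Zs n) = 2 := by
  classical
  let Φ : ZMod 2 → Zs n := fun s => ⟨sG 1 0 0 s, s, rfl⟩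
  have hΦ : Function.Bijective Φ := by
    constructor
    · intro s s' h
      exact (sG_inj (congrArg Subtype.val h)).2.2.2
    · rintro ⟨_, s, rfl⟩
      exact ⟨s, rfl⟩
  rw [← Nat.card_congr (Equiv.ofBijective Φ hΦ)]
  simp

lemma sq_mem {n : ℕ} {x : GG n} (hx : x ∈ Q0 n) : x ^ 2 ∈ Zs n := by
  obtain ⟨a, b, c, rfl⟩ := hx
  refine ⟨a ⬝ᵥ b, ?_⟩
  rw [sq, sG_mul]
  have e1 : a + a = 0 := v0_add_self _
  have e2 : b + b = 0 := v0_add_self _
  simp [e1, e2, z2_add_self]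

lemma comm_Q0 {n : ℕ} (a b a' b' : V0 n) (c c' : ZMod 2)
    (h : sG 1 a b c * sG 1 a' b' c' = sG 1 a' b' c' * sG 1 a b c) : a ⬝ᵥ b' = a' ⬝ᵥ b := by
  rw [sG_mul, sG_mul] at h
  have h3 := (sG_inj h).2.2.2
  have e : c + c' = c' + c := add_comm _ _
  rw [e] at h3
  exact add_left_cancel h3

lemma eq_zero_of_dot {n : ℕ} {a : V0 n} (h : ∀ x : V0 n, a ⬝ᵥ x = 0) : a = 0 := by
  classical
  funext k
  have := h (Pi.single k 1)
  simpa using this

lemma comm_all_Q0 {n : ℕ} {g : GG n} (h : ∀ q ∈ Q0 n, q * g = g * q) : g ∈ Zs n := by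
  classical
  have hg : g ∈ C0 n := mem_C0_of_comm (h _ ⟨0, 0, 1, rfl⟩).symm
  obtain ⟨α, a, b, c, rfl⟩ := hg
  have hα : α = 1 := by
    apply Subtype.ext
    ext k l
    have h1 := h (sG 1 (Pi.single k 1) 0 0) ⟨_, _, _, rfl⟩
    rw [sG_mul, sG_mul] at h1
    have h2 := (sG_inj h1).2.1
    have h3 : (1 : SLn n).1 = (1 : MM n) := rfl
    rw [h3, Matrix.vecMul_one, add_comm (Pi.single k 1) a] at h2
    have h4 := add_left_cancel h2
    have h5 := congrFun h4 l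
    rw [Matrix.single_one_vecMul] at h5
    show α.1 k l = (1 : MM n) k l
    rw [show α.1 k l = α.1.row k l from rfl, h5, Matrix.one_apply, Pi.single_apply]
    by_cases hkl : k = l
    · simp [hkl]
    · simp [hkl, Ne.symm hkl]
  subst hα
  have ha : a = 0 := by
    apply eq_zero_of_dot
    intro x
    have h1 := comm_Q0 0 x a b 0 c (h _ ⟨_, _, _, rfl⟩)
    rw [zero_dotProduct] at h1
    exact h1.symm
  have hb : b = 0 := by
    apply eq_zero_of_dot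
    intro x
    have h1 := comm_Q0 x 0 a b 0 c (h _ ⟨_, _, _, rfl⟩)
    rw [dotProduct_zero, ← dotProduct_comm] at h1
    exact h1
  subst ha hb
  exact ⟨c, rfl⟩

lemma Zs_comm {n : ℕ} {g q : GG n} (hg : g ∈ Zs n) (hq : q ∈ Q0 n) : q * g = g * q := by
  obtain ⟨s, rfl⟩ := hg
  obtain ⟨a, b, c, rfl⟩ := hq
  rw [sG_mul, sG_mul]
  simp [add_comm]

lemma center_Q0 (n : ℕ) : Subgroup.center (Q0 n) = (Zs n).subgroupOf (Q0 n) := by
  ext x
  rw [Subgroup.mem_center_iff, Subgroup.mem_subgroupOf]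
  constructor
  · intro h
    exact comm_all_Q0 fun q hq => congrArg Subtype.val (h ⟨q, hq⟩)
  · intro hx g
    exact Subtype.ext (Zs_comm hx g.2)

lemma pcore_eq {n : ℕ} (hn : 1 ≤ n) : (Cfsg.pCore 2 ↥(C0 n)).map (C0 n).subtype = Q0 n := by
  classical
  haveI : Fact (Nat.Prime 2) := ⟨Nat.prime_two⟩
  have hQp : IsPGroup 2 (Q0 n) := IsPGroup.of_card (card_Q0 n)
  apply le_antisymm
  · have hsurj : Function.Surjective (blkHom n) := fun α => ⟨⟨sG α 0 0 0, α, 0, 0, 0, rfl⟩, rfl⟩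
    have hS : ((Cfsg.pCore 2 ↥(C0 n)).map (blkHom n)).Normal :=
      Subgroup.Normal.map (H01.pCore_normal 2) _ hsurj
    have hSp : IsPGroup 2 ((Cfsg.pCore 2 ↥(C0 n)).map (blkHom n)) :=
      (H01.pCore_isPGroup 2).map _
    let tl : SLn n →* (V0 n ≃ₗ[ZMod 2] V0 n) := Matrix.SpecialLinearGroup.toLin'
    have htl_surj : Function.Surjective tl := by
      intro ℓ
      have hdet : (LinearMap.toMatrix' (ℓ : V0 n →ₗ[ZMod 2] V0 n)).det = 1 := by
        rw [LinearMap.det_toMatrix']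
        exact (z2 _).resolve_left (ℓ.isUnit_det').ne_zero
      refine ⟨⟨_, hdet⟩, ?_⟩
      ext1 v
      show Matrix.toLin' (LinearMap.toMatrix' (ℓ : V0 n →ₗ[ZMod 2] V0 n)) v = ℓ v
      rw [Matrix.toLin'_toMatrix']
      rfl
    have htl_inj : Function.Injective tl := by
      intro α β h
      apply Subtype.ext
      have h1 : Matrix.toLin' α.1 = Matrix.toLin' β.1 :=
        LinearMap.ext fun v => congrArg (fun L : V0 n ≃ₗ[ZMod 2] V0 n => L v) h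
      exact Matrix.toLin'.injective h1
    have h1 : (((Cfsg.pCore 2 ↥(C0 n)).map (blkHom n)).map tl).Normal :=
      Subgroup.Normal.map hS _ htl_surj
    have h2 := o2_trivial hn _ h1 (hSp.map tl)
    rintro _ ⟨p, hp, rfl⟩
    have h3 : tl (blkHom n p) = 1 := by
      have : tl (blkHom n p) ∈ ((Cfsg.pCore 2 ↥(C0 n)).map (blkHom n)).map tl :=
        ⟨_, ⟨p, hp, rfl⟩, rfl⟩
      rw [h2] at this
      exact this
    have h4 : blkHom n p = 1 := htl_inj (by rw [h3, map_one])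
    exact (mem_Q0_iff p).2 h4
  · intro q hq
    refine ⟨⟨q, Q0_le_C0 n hq⟩, ?_, rfl⟩
    have hnorm : ((Q0 n).subgroupOf (C0 n)).Normal := by
      constructor
      intro x hx g
      rw [Subgroup.mem_subgroupOf] at hx ⊢
      exact Q0_conj g.2 hx
    have hpg : IsPGroup 2 ((Q0 n).subgroupOf (C0 n)) := by
      rintro ⟨x, hx⟩
      obtain ⟨k, hk⟩ := hQp ⟨x.1, hx⟩
      exact ⟨k, Subtype.ext (Subtype.ext (by simpa using congrArg Subtype.val hk))⟩
    exact H01.le_pCore hnorm hpg hq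

section odd
variable {G : Type*} [Group G] [Finite G]

lemma odd_eq_one {X : Subgroup G} (hX : Odd (Nat.card X)) {x : G} (hx : x ∈ X) {k : ℕ}
    (h : x ^ (2 ^ k) = 1) : x = 1 := by
  have h1 : orderOf (⟨x, hx⟩ : X) ∣ Nat.card X := orderOf_dvd_natCard _
  have h2 : orderOf (⟨x, hx⟩ : X) ∣ 2 ^ k := by
    apply orderOf_dvd_of_pow_eq_one
    exact Subtype.ext h
  have h3 : (orderOf (⟨x, hx⟩ : X)).Coprime (2 ^ k) :=
    Nat.Coprime.coprime_dvd_left h1 (Nat.Coprime.pow_right _ (Nat.coprime_two_right.2 hX))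
  have h4 : orderOf (⟨x, hx⟩ : X) = 1 := Nat.eq_one_of_dvd_coprimes h3 (dvd_refl _) h2
  exact congrArg Subtype.val (orderOf_eq_one_iff.1 h4)

lemma fpf_inverts {X : Subgroup G} {z : G} (hz : z * z = 1) (hn : ∀ x ∈ X, z * x * z⁻¹ ∈ X)
    (hf : ∀ x ∈ X, x * z = z * x → x = 1) : ∀ x ∈ X, z * x * z⁻¹ = x⁻¹ := by
  classical
  have hzi : z⁻¹ = z := inv_eq_of_mul_eq_one_left hz
  let f : X → X := fun y => ⟨y.1⁻¹ * (z * y.1 * z⁻¹), mul_mem (inv_mem y.2) (hn _ y.2)⟩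
  have hinj : Function.Injective f := by
    intro y y' h
    have h1 : y.1⁻¹ * (z * y.1 * z⁻¹) = y'.1⁻¹ * (z * y'.1 * z⁻¹) := congrArg Subtype.val h
    have h2 : (y'.1 * y.1⁻¹) * z = z * (y'.1 * y.1⁻¹) := by
      have h3 : y.1⁻¹ * (z * y.1) = y'.1⁻¹ * (z * y'.1) := by
        have := congrArg (· * z) h1
        simpa [mul_assoc] using this
      calc (y'.1 * y.1⁻¹) * z = y'.1 * (y.1⁻¹ * (z * y.1)) * y.1⁻¹ := by group
        _ = y'.1 * (y'.1⁻¹ * (z * y'.1)) * y.1⁻¹ := by rw [h3]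
        _ = _ := by group
    have h4 := hf _ (mul_mem y'.2 (inv_mem y.2)) h2
    apply Subtype.ext
    rw [mul_inv_eq_one] at h4
    exact h4.symm
  have hsurj := Finite.surjective_of_injective hinj
  intro x hx
  obtain ⟨y, hy⟩ := hsurj ⟨x, hx⟩
  have h1 : y.1⁻¹ * (z * y.1 * z⁻¹) = x := congrArg Subtype.val hy
  rw [← h1, hzi]
  have h3 : (y.1⁻¹ * (z * y.1 * z))⁻¹ = z⁻¹ * y.1⁻¹ * z⁻¹ * y.1 := by group
  rw [h3, hzi]
  calc z * (y.1⁻¹ * (z * y.1 * z)) * z = z * y.1⁻¹ * z * y.1 * (z * z) := by group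
    _ = _ := by rw [hz, mul_one]

lemma comm_of_inverts {X : Subgroup G} {z : G} (h : ∀ x ∈ X, z * x * z⁻¹ = x⁻¹) :
    ∀ x ∈ X, ∀ y ∈ X, x * y = y * x := by
  intro x hx y hy
  have h1 := h _ (mul_mem hx hy)
  have h2 : z * (x * y) * z⁻¹ = (z * x * z⁻¹) * (z * y * z⁻¹) := by group
  rw [h2, h x hx, h y hy, mul_inv_rev] at h1
  have h3 : (x⁻¹ * y⁻¹)⁻¹ = (y⁻¹ * x⁻¹)⁻¹ := by rw [h1]
  simpa using h3.symm

lemma odd_four {X F : Subgroup G} (hX : Odd (Nat.card X)) {z b : G} (hb : b * b = 1)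
    (hzb : z * b = b * z)
    (hinv : ∀ x ∈ X, z * x * z⁻¹ = x⁻¹) (hbn : ∀ x ∈ X, b * x * b⁻¹ ∈ X)
    (hF1 : ∀ y ∈ X, y * b = b * y → y ∈ F) (hF2 : ∀ y ∈ X, y * (z * b) = (z * b) * y → y ∈ F) :
    X ≤ F := by
  classical
  have hcomm := comm_of_inverts hinv
  have hbi : b⁻¹ = b := inv_eq_of_mul_eq_one_left hb
  intro x hx
  set y := b * x * b⁻¹ with hy
  have hyX : y ∈ X := hbn x hx
  have hby : b * y * b⁻¹ = x := by
    rw [hy, hbi]
    calc b * (b * x * b) * b = (b * b) * x * (b * b) := by group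
      _ = x := by rw [hb]; group
  have hw1 : x * y ∈ F := by
    apply hF1 _ (mul_mem hx hyX)
    have e : b * (x * y) * b⁻¹ = (b * x * b⁻¹) * (b * y * b⁻¹) := by group
    have e2 : b * (x * y) * b⁻¹ = y * x := by rw [e, hby]
    have e3 : b * (x * y) * b⁻¹ = x * y := by rw [e2, hcomm y hyX x hx]
    rw [mul_inv_eq_iff_eq_mul] at e3
    exact e3.symm
  have hw2 : x * y⁻¹ ∈ F := by
    apply hF2 _ (mul_mem hx (inv_mem hyX))
    have e : (z * b) * (x * y⁻¹) * (z * b)⁻¹ = z * ((b * x * b⁻¹) * (b * y * b⁻¹)⁻¹) * z⁻¹ := by group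
    have e2 : z * (y * x⁻¹) * z⁻¹ = y⁻¹ * x := by
      have h5 := hinv _ (mul_mem hyX (inv_mem hx))
      rw [h5, mul_inv_rev, inv_inv]
      exact hcomm x hx _ (inv_mem hyX)
    have e3 : (z * b) * (x * y⁻¹) * (z * b)⁻¹ = x * y⁻¹ := by
      rw [e, hby, ← hy, e2, hcomm _ (inv_mem hyX) x hx]
    rw [mul_inv_eq_iff_eq_mul] at e3
    exact e3.symm
  have hsq : x ^ 2 ∈ F := by
    have e : x ^ 2 = (x * y) * (x * y⁻¹) := by
      calc x ^ 2 = x * x := sq x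
        _ = x * (y * y⁻¹) * x := by group
        _ = x * y * (y⁻¹ * x) := by group
        _ = x * y * (x * y⁻¹) := by rw [hcomm _ (inv_mem hyX) x hx]
    rw [e]
    exact mul_mem hw1 hw2
  have hodd : Odd (orderOf x) := by
    have h1 : orderOf (⟨x, hx⟩ : X) ∣ Nat.card X := orderOf_dvd_natCard _
    have h2 : orderOf (⟨x, hx⟩ : X) = orderOf x := Subgroup.orderOf_mk x hx
    rw [h2] at h1
    exact Odd.of_dvd_nat hX h1
  obtain ⟨j, hj⟩ := hodd
  have e : x = (x ^ 2) ^ (j + 1) := by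
    rw [← pow_mul]
    have : 2 * (j + 1) = orderOf x + 1 := by omega
    rw [this, pow_succ, pow_orderOf_eq_one, one_mul]
  rw [e]
  exact pow_mem hsq _

end odd

/-- first column is `e₀`. -/
def Fx (n : ℕ) : Subgroup (GG n) where
  carrier := {g | g.1 1 0 = 0 ∧ ∀ k, g.1 (ss k) 0 = 0}
  mul_mem' := by
    rintro a b ⟨ha, ha'⟩ ⟨hb, hb'⟩
    constructor
    · show (a.1 * b.1) 1 0 = 0
      rw [Matrix.mul_apply, sum3]
      simp [ha, hb, hb']
    · intro k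
      show (a.1 * b.1) (ss k) 0 = 0
      rw [Matrix.mul_apply, sum3]
      simp [ha', hb, hb']
  one_mem' := ⟨by simp [Matrix.one_apply], fun k => by
    show (1 : MM (n + 2)) (ss k) 0 = 0
    simp [Matrix.one_apply]⟩
  inv_mem' := by
    rintro a ⟨ha, ha'⟩
    have h00 : a.1 0 0 = 1 := by
      have h3 : ((a⁻¹).1 * a.1) 0 0 = (1 : MM (n + 2)) 0 0 :=
        congrFun (congrFun (congrArg Subtype.val (inv_mul_cancel a)) 0) 0
      rw [Matrix.mul_apply, sum3] at h3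
      have h4 : (a⁻¹).1 0 0 * a.1 0 0 = 1 := by
        simpa [ha, ha'] using h3
      have h5 : a.1 0 0 ≠ 0 := by
        intro h0
        rw [h0, mul_zero] at h4
        exact zero_ne_one h4
      exact (z2 _).resolve_left h5
    have key : ∀ i, i ≠ 0 → (a⁻¹).1 i 0 = 0 := by
      intro i hi
      have h3 : ((a⁻¹).1 * a.1) i 0 = (1 : MM (n + 2)) i 0 :=
        congrFun (congrFun (congrArg Subtype.val (inv_mul_cancel a)) i) 0
      rw [Matrix.mul_apply, sum3] at h3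
      simpa [ha, ha', h00, Matrix.one_apply, hi] using h3
    exact ⟨key 1 (by simp), fun k => key _ (ss_ne_zero k)⟩

/-- second row is `e₁`. -/
def Fy (n : ℕ) : Subgroup (GG n) where
  carrier := {g | g.1 1 0 = 0 ∧ ∀ k, g.1 1 (ss k) = 0}
  mul_mem' := by
    rintro a b ⟨ha, ha'⟩ ⟨hb, hb'⟩
    constructor
    · show (a.1 * b.1) 1 0 = 0
      rw [Matrix.mul_apply, sum3]
      simp [ha, ha', hb]
    · intro k
      show (a.1 * b.1) 1 (ss k) = 0
      rw [Matrix.mul_apply, sum3]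
      simp [ha, ha', hb']
  one_mem' := ⟨by simp [Matrix.one_apply], fun k => by
    show (1 : MM (n + 2)) 1 (ss k) = 0
    simp [Matrix.one_apply]⟩
  inv_mem' := by
    rintro a ⟨ha, ha'⟩
    have h11 : a.1 1 1 = 1 := by
      have h3 : (a.1 * (a⁻¹).1) 1 1 = (1 : MM (n + 2)) 1 1 :=
        congrFun (congrFun (congrArg Subtype.val (mul_inv_cancel a)) 1) 1
      rw [Matrix.mul_apply, sum3] at h3
      have h4 : a.1 1 1 * (a⁻¹).1 1 1 = 1 := by
        simpa [ha, ha'] using h3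
      have h5 : a.1 1 1 ≠ 0 := by
        intro h0
        rw [h0, zero_mul] at h4
        exact zero_ne_one h4
      exact (z2 _).resolve_left h5
    have key : ∀ j, j ≠ 1 → (a⁻¹).1 1 j = 0 := by
      intro j hj
      have h3 : (a.1 * (a⁻¹).1) 1 j = (1 : MM (n + 2)) 1 j :=
        congrFun (congrFun (congrArg Subtype.val (mul_inv_cancel a)) 1) j
      rw [Matrix.mul_apply, sum3] at h3
      simpa [ha, ha', h11, Matrix.one_apply, Ne.symm hj] using h3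
    exact ⟨key 0 (by simp), fun k => key _ (ss_ne_one k)⟩

lemma comm_of_Fx_Fy {n : ℕ} {g : GG n} (h1 : g ∈ Fx n) (h2 : g ∈ Fy n) : g * zz n = zz n * g := by
  apply Subtype.ext
  show g.1 * Bm 0 (1 : MM n) 0 1 = Bm 0 (1 : MM n) 0 1 * g.1
  obtain ⟨h10, hs0⟩ := h1
  obtain ⟨-, h1s⟩ := h2
  have h00 : g.1 0 0 = g.1 1 1 := by
    have h3 : g ∈ Fy n := ⟨h10, h1s⟩
    have ha : ((g⁻¹).1 * g.1) 0 0 = (1 : MM (n + 2)) 0 0 :=
      congrFun (congrFun (congrArg Subtype.val (inv_mul_cancel g)) 0) 0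
    rw [Matrix.mul_apply, sum3] at ha
    have hb : (g.1 * (g⁻¹).1) 1 1 = (1 : MM (n + 2)) 1 1 :=
      congrFun (congrFun (congrArg Subtype.val (mul_inv_cancel g)) 1) 1
    rw [Matrix.mul_apply, sum3] at hb
    have h4 : (g⁻¹).1 0 0 * g.1 0 0 = 1 := by simpa [h10, hs0] using ha
    have h5 : g.1 1 1 * (g⁻¹).1 1 1 = 1 := by simpa [h10, h1s] using hb
    have h6 : g.1 0 0 ≠ 0 := by
      intro h0
      rw [h0, mul_zero] at h4
      exact zero_ne_one h4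
    have h7 : g.1 1 1 ≠ 0 := by
      intro h0
      rw [h0, zero_mul] at h5
      exact zero_ne_one h5
    rw [(z2 _).resolve_left h6, (z2 _).resolve_left h7]
  ext i j
  rw [Matrix.mul_apply, Matrix.mul_apply, sum3, sum3]
  rcases fin3 i with rfl | rfl | ⟨k, rfl⟩ <;> rcases fin3 j with rfl | rfl | ⟨l, rfl⟩ <;>
    simp [Matrix.one_apply, ss_inj.eq_iff, h10, hs0, h1s, h00, add_comm]

/-- `T = sG 1 a 0 c` with `a ≠ 0`: its centralizer fixes `e₀`. -/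
lemma comm_Fx {n : ℕ} {g : GG n} {a : V0 n} {c : ZMod 2} {l : Fin n} (hl : a l = 1)
    (h : g * sG 1 a 0 c = sG 1 a 0 c * g) : g ∈ Fx n := by
  classical
  have h' : g.1 * Bm a (1 : MM n) 0 c = Bm a (1 : MM n) 0 c * g.1 := congrArg Subtype.val h
  have hent : ∀ i j, (g.1 * Bm a (1 : MM n) 0 c) i j = (Bm a (1 : MM n) 0 c * g.1) i j :=
    fun i j => congrFun (congrFun h' i) j
  constructor
  · have := hent 1 (ss l)
    rw [Matrix.mul_apply, Matrix.mul_apply, sum3, sum3] at this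
    simpa [Matrix.one_apply, ss_inj.eq_iff, hl] using this
  · intro k
    have := hent (ss k) (ss l)
    rw [Matrix.mul_apply, Matrix.mul_apply, sum3, sum3] at this
    simpa [Matrix.one_apply, ss_inj.eq_iff, hl] using this

lemma comm_Fy {n : ℕ} {g : GG n} {b : V0 n} {c : ZMod 2} {k : Fin n} (hk : b k = 1)
    (h : g * sG 1 0 b c = sG 1 0 b c * g) : g ∈ Fy n := by
  classical
  have h' : g.1 * Bm 0 (1 : MM n) b c = Bm 0 (1 : MM n) b c * g.1 := congrArg Subtype.val h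
  have hent : ∀ i j, (g.1 * Bm 0 (1 : MM n) b c) i j = (Bm 0 (1 : MM n) b c * g.1) i j :=
    fun i j => congrFun (congrFun h' i) j
  constructor
  · have := hent (ss k) 0
    rw [Matrix.mul_apply, Matrix.mul_apply, sum3, sum3] at this
    simpa [Matrix.one_apply, ss_inj.eq_iff, hk] using this
  · intro l
    have := hent (ss k) (ss l)
    rw [Matrix.mul_apply, Matrix.mul_apply, sum3, sum3] at this
    simpa [Matrix.one_apply, ss_inj.eq_iff, hk] using this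

lemma odd_trivial {n : ℕ} (hn : 1 ≤ n) (X : Subgroup (GG n)) (hX : Odd (Nat.card X))
    (hnorm : Q0 n ≤ Subgroup.normalizer (X : Set (GG n))) : X = ⊥ := by
  classical
  have hQn : ∀ q ∈ Q0 n, ∀ x ∈ X, q * x * q⁻¹ ∈ X := fun q hq x hx =>
    (Subgroup.mem_normalizer_iff.1 (hnorm hq) x).1 hx
  have hzQ : zz n ∈ Q0 n := ⟨0, 0, 1, rfl⟩
  have hzz : zz n * zz n = 1 := by
    unfold zz
    rw [sG_mul, ← sG_one n]
    simp [z2_add_self]
  have hf : ∀ x ∈ X, x * zz n = zz n * x → x = 1 := by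
    intro x hx hc
    have hxC : x ∈ C0 n := mem_C0_of_comm hc
    have hcomm : ∀ q ∈ Q0 n, q * x = x * q := by
      intro q hq
      have h1 : x * (q * x⁻¹ * q⁻¹) ∈ X := mul_mem hx (hQn q hq _ (inv_mem hx))
      have h2 : (x * q * x⁻¹) * q⁻¹ ∈ Q0 n := mul_mem (Q0_conj hxC hq) (inv_mem hq)
      have h3 : x * (q * x⁻¹ * q⁻¹) = (x * q * x⁻¹) * q⁻¹ := by group
      rw [← h3] at h2
      have h4 : (x * (q * x⁻¹ * q⁻¹)) ^ 2 ∈ Zs n := sq_mem h2
      obtain ⟨s, hs⟩ := h4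
      have h5 : (x * (q * x⁻¹ * q⁻¹)) ^ (2 ^ 2) = 1 := by
        rw [show 2 ^ 2 = 2 * 2 from rfl, pow_mul, hs, sq, sG_mul, ← sG_one n]
        simp [z2_add_self]
      have h6 := odd_eq_one hX h1 h5
      have h7 : x * q = q * x := by
        have h8 : x * q * x⁻¹ * q⁻¹ = 1 := by rw [← h6]; group
        rw [mul_inv_eq_one, mul_inv_eq_iff_eq_mul] at h8
        exact h8
      exact h7.symm
    obtain ⟨s, hs⟩ := comm_all_Q0 hcomm
    have h9 : x ^ (2 ^ 1) = 1 := by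
      rw [pow_one, hs, sq, sG_mul, ← sG_one n]
      simp [z2_add_self]
    exact odd_eq_one hX hx h9
  have hzn : ∀ x ∈ X, zz n * x * (zz n)⁻¹ ∈ X := hQn _ hzQ
  have hinv := fpf_inverts hzz hzn hf
  let i₀ : Fin n := ⟨0, hn⟩
  -- X fixes e₀
  have hXFx : X ≤ Fx n := by
    have hb : sG 1 (Pi.single i₀ 1) 0 0 * sG 1 (Pi.single i₀ 1) 0 0 = (1 : GG n) := by
      rw [sG_mul, ← sG_one n]
      have e1 : (Pi.single i₀ 1 : V0 n) + Pi.single i₀ 1 = 0 := v0_add_self _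
      simp [e1]
    have hzb : zz n * sG 1 (Pi.single i₀ 1) 0 0 = sG 1 (Pi.single i₀ 1) 0 0 * zz n :=
      (zz_comm_C0 ⟨_, _, _, _, rfl⟩).symm
    have hprod : zz n * sG 1 (Pi.single i₀ 1) 0 0 = sG 1 (Pi.single i₀ 1) 0 1 := by
      unfold zz
      rw [sG_mul]
      simp
    refine odd_four hX hb hzb hinv (hQn _ ⟨_, _, _, rfl⟩) ?_ ?_
    · intro y _ hy
      exact comm_Fx (l := i₀) (by simp) hy
    · intro y _ hy
      rw [hprod] at hy
      exact comm_Fx (l := i₀) (by simp) hy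
  have hXFy : X ≤ Fy n := by
    have hb : sG 1 0 (Pi.single i₀ 1) 0 * sG 1 0 (Pi.single i₀ 1) 0 = (1 : GG n) := by
      rw [sG_one_mul, ← sG_one n]
      have e1 : (Pi.single i₀ 1 : V0 n) + Pi.single i₀ 1 = 0 := v0_add_self _
      simp [e1]
    have hzb : zz n * sG 1 0 (Pi.single i₀ 1) 0 = sG 1 0 (Pi.single i₀ 1) 0 * zz n :=
      (zz_comm_C0 ⟨_, _, _, _, rfl⟩).symm
    have hprod : zz n * sG 1 0 (Pi.single i₀ 1) 0 = sG 1 0 (Pi.single i₀ 1) 1 := by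
      unfold zz
      rw [sG_one_mul]
      simp
    refine odd_four hX hb hzb hinv (hQn _ ⟨_, _, _, rfl⟩) ?_ ?_
    · intro y _ hy
      exact comm_Fy (k := i₀) (by simp) hy
    · intro y _ hy
      rw [hprod] at hy
      exact comm_Fy (k := i₀) (by simp) hy
  rw [eq_bot_iff]
  intro x hx
  rw [Subgroup.mem_bot]
  exact hf x hx (comm_of_Fx_Fy (hXFx hx) (hXFy hx))

/-- an elementary abelian subgroup of order `2^(n+1)`. -/
def Es (n : ℕ) : Subgroup (GG n) where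
  carrier := {g | ∃ b c, g = sG 1 0 b c}
  mul_mem' := by
    rintro _ _ ⟨b, c, rfl⟩ ⟨b', c', rfl⟩
    refine ⟨b + b', c + c', ?_⟩
    rw [sG_mul]
    simp
  one_mem' := ⟨0, 0, (sG_one n).symm⟩
  inv_mem' := by
    rintro _ ⟨b, c, rfl⟩
    refine ⟨b, c, ?_⟩
    apply inv_eq_of_mul_eq_one_right
    rw [sG_mul, ← sG_one n]
    have e1 : b + b = 0 := v0_add_self _
    simp [e1, z2_add_self]

lemma Es_elem (n : ℕ) : Cfsg.IsElementaryAbelian 2 (Es n) := by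
  constructor
  · constructor
    constructor
    rintro ⟨_, b, c, rfl⟩ ⟨_, b', c', rfl⟩
    apply Subtype.ext
    show sG 1 0 b c * sG 1 0 b' c' = sG 1 0 b' c' * sG 1 0 b c
    rw [sG_mul, sG_mul]
    simp [add_comm]
  · rintro _ ⟨b, c, rfl⟩
    rw [sq, sG_mul, ← sG_one n]
    have e1 : b + b = 0 := v0_add_self _
    simp [e1, z2_add_self]

lemma card_Es (n : ℕ) : Nat.card (Es n) = 2 ^ (n + 1) := by
  classical
  let Φ : V0 n × ZMod 2 → Es n := fun p => ⟨sG 1 0 p.1 p.2, p.1, p.2, rfl⟩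
  have hΦ : Function.Bijective Φ := by
    constructor
    · rintro ⟨b, c⟩ ⟨b', c'⟩ h
      obtain ⟨-, -, h2, h3⟩ := sG_inj (congrArg Subtype.val h)
      simp only at h2 h3
      rw [h2, h3]
    · rintro ⟨_, b, c, rfl⟩
      exact ⟨(b, c), rfl⟩
  rw [← Nat.card_congr (Equiv.ofBijective Φ hΦ)]
  simp [Nat.card_eq_fintype_card, ZMod.card, pow_succ]

def secHom (n : ℕ) : SLn n →* GG n :=
  MonoidHom.mk' (fun α => sG α 0 0 0) (fun a b => by
    rw [sG_mul]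
    simp)

lemma secHom_inj (n : ℕ) : Function.Injective (secHom n) := fun _ _ h => (sG_inj h).1


/-- Let G be the special linear group of degree n + 2 over the field with two elements, n ≥ 2, let z be a transvection, and let Q be the largest normal 2-subgroup of the centralizer C of z. Then Q is extraspecial of order 2^(2n+1) with an elementary abelian subgroup of order 2^(n+1) (plus type), Q is a large extraspecial 2-subgroup of G, and C is the split extension of Q by the special linear group of degree n over the field with two elements. -/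
theorem result (n : ℕ) (hn : 2 ≤ n) (z : Matrix.SpecialLinearGroup (Fin (n + 2)) (ZMod 2)) (hz : (z : Matrix (Fin (n + 2)) (Fin (n + 2)) (ZMod 2)) = Matrix.transvection 0 1 1) (Q : Subgroup (Matrix.SpecialLinearGroup (Fin (n + 2)) (ZMod 2))) (hQ : Q = (Cfsg.pCore 2 ↥(Subgroup.centralizer ({z} : Set (Matrix.SpecialLinearGroup (Fin (n + 2)) (ZMod 2))))).map (Subgroup.centralizer ({z} : Set (Matrix.SpecialLinearGroup (Fin (n + 2)) (ZMod 2)))).subtype) : Cfsg.IsExtraspecial 2 ↥Q ∧ Nat.card ↥Q = 2 ^ (2 * n + 1) ∧ (∃ E : Subgroup (Matrix.SpecialLinearGroup (Fin (n + 2)) (ZMod 2)), E ≤ Q ∧ Cfsg.IsElementaryAbelian 2 E ∧ Nat.card ↥E = 2 ^ (n + 1)) ∧ Cfsg.IsLargeExtraspecial Q ∧ ∃ K : Subgroup (Matrix.SpecialLinearGroup (Fin (n + 2)) (ZMod 2)), K ≤ Subgroup.centralizer ({z} : Set (Matrix.SpecialLinearGroup (Fin (n + 2)) (ZMod 2))) ∧ Q ⊓ K = ⊥ ∧ Q ⊔ K = Subgroup.centralizer ({z} : Set (Matrix.SpecialLinearGroup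 (Fin (n + 2)) (ZMod 2))) ∧ Nonempty (↥K ≃* Matrix.SpecialLinearGroup (Fin n) (ZMod 2)) := by
  classical
haveI : Fact (Nat.Prime 2) := ⟨Nat.prime_two⟩
have hn1 : 1 ≤ n := by omega
have hzz : z = zz n := Subtype.ext (hz.trans zz_eq.symm)
subst hzz
rw [centralizer_zz] at hQ ⊢
have hQ0 : Q = Q0 n := by
  rw [hQ]
  exact pcore_eq hn1
clear hQ
subst hQ0
have hcardQ := card_Q0 n
have hcen := center_Q0 n
have hpow : ∀ x : ↥(Q0 n), x ^ 2 ∈ Subgroup.center ↥(Q0 n) := by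
  intro x
  rw [hcen, Subgroup.mem_subgroupOf]
  exact sq_mem x.2
have hc : Nat.card (Subgroup.center ↥(Q0 n)) = 2 := by
  rw [hcen, Nat.card_congr (Subgroup.subgroupOfEquivOfLe (Zs_le_Q0 n)).toEquiv]
  exact card_Zs n
have hext : Cfsg.IsExtraspecial 2 ↥(Q0 n) := by
  apply H18.isExtraspecial_of (IsPGroup.of_card hcardQ) hc hpow (comm_of_sq hpow)
  by_contra hall
  push Not at hall
  have htop : Subgroup.center ↥(Q0 n) = ⊤ := by
    rw [eq_top_iff]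
    intro x _
    rw [Subgroup.mem_center_iff]
    intro g
    have := hall g x
    rw [mul_inv_eq_one, mul_inv_eq_iff_eq_mul] at this
    exact this
  rw [htop, Subgroup.card_top, hcardQ] at hc
  have h4 : 2 ^ 2 ≤ 2 ^ (2 * n + 1) := Nat.pow_le_pow_right (by norm_num) (by omega)
  omega
have hmapcen : (Subgroup.center ↥(Q0 n)).map (Q0 n).subtype = Zs n := by
  rw [hcen]
  exact Subgroup.map_subgroupOf_eq_of_le (Zs_le_Q0 n)
refine ⟨hext, hcardQ, ⟨Es n, ?_, Es_elem n, card_Es n⟩, ⟨hext, ?_, ?_, ?_⟩, (secHom n).range,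
  ?_, ?_, ?_, ⟨(MonoidHom.ofInjective (secHom_inj n)).symm⟩⟩
· rintro _ ⟨b, c, rfl⟩
  exact ⟨0, b, c, rfl⟩
· rw [hmapcen]
  apply le_antisymm
  · intro g hg
    exact comm_all_Q0 fun q hq => Subgroup.mem_centralizer_iff.1 hg q hq
  · intro a ha
    rw [Subgroup.mem_centralizer_iff]
    intro h hh
    exact Zs_comm ha hh
· rw [hmapcen]
  intro g hg
  have hgc : g ∈ C0 n := by
    apply mem_C0_of_comm
    exact (Subgroup.mem_centralizer_iff.1 hg _ ⟨1, rfl⟩).symm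
  rw [Subgroup.mem_normalizer_iff]
  intro h
  constructor
  · exact Q0_conj hgc
  · intro hh
    have := Q0_conj (inv_mem hgc) hh
    have e : g⁻¹ * (g * h * g⁻¹) * g⁻¹⁻¹ = h := by group
    rwa [e] at this
· intro K hodd hnorm
  exact odd_trivial hn1 K hodd hnorm
· rintro _ ⟨α, rfl⟩
  exact ⟨α, 0, 0, 0, rfl⟩
· rw [eq_bot_iff]
  rintro _ ⟨⟨a, b, c, h⟩, ⟨α, rfl⟩⟩
  obtain ⟨h1, -⟩ := sG_inj h
  rw [Subgroup.mem_bot]
  subst h1
  exact sG_one n
· apply le_antisymm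
  · apply sup_le (Q0_le_C0 n)
    rintro _ ⟨α, rfl⟩
    exact ⟨α, 0, 0, 0, rfl⟩
  · rintro g hg
    have h1 : (⟨g, hg⟩ : C0 n) * ⟨secHom n (blkHom n ⟨g, hg⟩), ⟨_, 0, 0, 0, rfl⟩⟩⁻¹ ∈ (blkHom n).ker := by
      rw [MonoidHom.mem_ker, map_mul, map_inv]
      have h2 : blkHom n ⟨secHom n (blkHom n ⟨g, hg⟩), ⟨_, 0, 0, 0, rfl⟩⟩ = blkHom n ⟨g, hg⟩ :=
        blkHom_sG _ _ _ _ _
      rw [h2, mul_inv_cancel]
    have h3 : g * (secHom n (blkHom n ⟨g, hg⟩))⁻¹ ∈ Q0 n := (mem_Q0_iff _).2 h1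
    have e : g = (g * (secHom n (blkHom n ⟨g, hg⟩))⁻¹) * secHom n (blkHom n ⟨g, hg⟩) := by group
    rw [e]
    exact Subgroup.mul_mem_sup h3 ⟨_, rfl⟩

end Cfsg.Agent.S5424
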