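import Cfsg.Statements.S5425
import Mathlib
import Cfsg.Agent.S5424
import Cfsg.Agent.S5423
import Cfsg.Agent.Lib.H13.Quadratic
import Cfsg.Agent.Lib.H18.M24Oct

set_option autoImplicit false
open Cfsg

namespace Cfsg.Agent.S5425


set_option linter.unusedSectionVars false
set_option linter.style.haveILetI false
set_option maxRecDepth 100000

open Cfsg.Agent.H27.Golay Cfsg.Agent.H18.M24Oct Equiv
open scoped Pointwise

lemma card_aut_le (V : Type*) [Group V] [Finite V] (h2 : ∀ x : V, x * x = 1)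
    (hc : Nat.card V = 16) : Nat.card (V ≃* V) ≤ 20160 := by
  classical
  have hcomm : ∀ a b : V, a * b = b * a := by
    have hinv : ∀ x : V, x⁻¹ = x := fun x => inv_eq_of_mul_eq_one_left (h2 x)
    intro a b
    rw [← hinv (a * b), mul_inv_rev, hinv, hinv]
  letI : CommGroup V := { (inferInstance : Group V) with mul_comm := hcomm }
  let A := Additive V
  have hA : ∀ x : A, (2 : ℕ) • x = 0 := by
    intro x
    rw [two_nsmul]
    exact h2 (Additive.toMul x)
  letI : Module (ZMod 2) A := AddCommGroup.zmodModule hA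
  haveI : Fact (Nat.Prime 2) := ⟨Nat.prime_two⟩
  haveI : Finite A := inferInstanceAs (Finite V)
  haveI : Module.Finite (ZMod 2) A := Module.Finite.of_finite
  have hfr : Module.finrank (ZMod 2) A = 4 := by
    have := Module.natCard_eq_pow_finrank (K := ZMod 2) (V := A)
    have hc' : Nat.card A = 16 := hc
    rw [Nat.card_zmod, hc'] at this
    have h16 : (16 : ℕ) = 2 ^ 4 := by norm_num
    rw [h16] at this
    exact (Nat.pow_right_injective le_rfl this).symm
  let e : A ≃ₗ[ZMod 2] (Fin 4 → ZMod 2) := LinearEquiv.ofFinrankEq _ _ (by rw [hfr]; simp)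
  let Φ : (V ≃* V) → ((Fin 4 → ZMod 2) ≃ₗ[ZMod 2] (Fin 4 → ZMod 2)) := fun φ =>
    e.symm.trans ((LinearEquiv.ofBijective
      (((MulEquiv.toAdditive φ : A ≃+ A).toAddMonoidHom).toZModLinearMap 2)
      (MulEquiv.toAdditive φ : A ≃+ A).bijective).trans e)
  have hΦ : Function.Injective Φ := by
    intro φ ψ h
    ext x
    have h1 := congrArg (fun f => e.symm (f (e (Additive.ofMul x)))) h
    simp only [Φ, LinearEquiv.trans_apply, LinearEquiv.symm_apply_apply, LinearEquiv.ofBijective_apply] at h1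
    exact h1
  haveI : Finite ((Fin 4 → ZMod 2) ≃ₗ[ZMod 2] (Fin 4 → ZMod 2)) :=
    Finite.of_injective (fun f => (f : (Fin 4 → ZMod 2) → (Fin 4 → ZMod 2))) DFunLike.coe_injective
  calc Nat.card (V ≃* V) ≤ Nat.card ((Fin 4 → ZMod 2) ≃ₗ[ZMod 2] (Fin 4 → ZMod 2)) :=
        Nat.card_le_card_of_injective Φ hΦ
    _ = Nat.card (Matrix.GeneralLinearGroup (Fin 4) (ZMod 2)) :=
        Nat.card_congr ((Matrix.GeneralLinearGroup.toLin).trans
          (LinearMap.GeneralLinearGroup.generalLinearEquiv _ _)).toEquiv.symm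
    _ = 20160 := by
        rw [Matrix.card_GL_field, ZMod.card]
        simp [Fin.prod_univ_succ]

section octad
variable (o : Finset GolayPt)

abbrev HH : Subgroup ↥M24 := MulAction.stabilizer ↥M24 o

abbrev pp {o : Finset GolayPt} (h : ↥(HH o)) : Perm GolayPt := ((h : ↥M24) : Perm GolayPt)

lemma mem_HH {g : ↥M24} : g ∈ HH o ↔ ∀ x, (g : Perm GolayPt) x ∈ o ↔ x ∈ o := by
  rw [MulAction.mem_stabilizer_iff]
  exact Cfsg.Agent.H07.Orb.stab_iff

lemma pp_mem (h : ↥(HH o)) (x : GolayPt) : pp h x ∈ o ↔ x ∈ o := (mem_HH o).1 h.2 x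

lemma pp_mul {o : Finset GolayPt} (a b : ↥(HH o)) (x : GolayPt) : pp (a * b) x = pp a (pp b x) := rfl

lemma pp_inj {o : Finset GolayPt} {a b : ↥(HH o)} (h : pp a = pp b) : a = b :=
  Subtype.ext (Subtype.ext h)

lemma pp_one {o : Finset GolayPt} : pp (1 : ↥(HH o)) = 1 := rfl

lemma pp_inv {o : Finset GolayPt} (a : ↥(HH o)) : pp a⁻¹ = (pp a)⁻¹ := rfl

def UU : Subgroup ↥(HH o) where
  carrier := {h | ∀ p ∈ o, pp h p = p}
  mul_mem' := by
    intro a b ha hb p hp
    rw [pp_mul, hb p hp, ha p hp]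
  one_mem' := fun p _ => rfl
  inv_mem' := by
    intro a ha p hp
    rw [pp_inv, Perm.inv_eq_iff_eq]
    exact (ha p hp).symm

lemma mem_UU {h : ↥(HH o)} : h ∈ UU o ↔ ∀ p ∈ o, pp h p = p := Iff.rfl

instance UU_normal : (UU o).Normal := ⟨by
  intro n hn g p hp
  rw [pp_mul, pp_mul, pp_inv]
  have h1 : (pp g)⁻¹ p ∈ o := by
    rw [← pp_mem o g]
    simpa using hp
  rw [hn _ h1]
  simp⟩

variable {o}

lemma UU_sq (ho : o ∈ octads) {u : ↥(HH o)} (hu : u ∈ UU o) : u * u = 1 := by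
  have h := (H02.Gol.octad_fix_card_invol o ho).2 (pp u)
    ⟨u.1.2, (mem_fixingSubgroup_iff _).2 (fun x hx => hu x hx)⟩
  exact pp_inj h

lemma UU_card (ho : o ∈ octads) : Nat.card (UU o) = 16 := by
  rw [← (H02.Gol.octad_fix_card_invol o ho).1]
  refine Nat.card_congr ⟨fun u => ⟨pp u.1, u.1.1.2, (mem_fixingSubgroup_iff _).2 (fun x hx => u.2 x hx)⟩,
    fun g => ⟨⟨⟨g.1, g.2.1⟩, ?_⟩, ?_⟩, ?_, ?_⟩
  · rw [mem_HH]
    intro x
    have h1 : ∀ y ∈ o, g.1 y = y := fun y hy => (mem_fixingSubgroup_iff _).1 g.2.2 y hy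
    constructor
    · intro hx
      have h2 := h1 _ hx
      have h3 : x = g.1 x := g.1.injective h2.symm
      rw [h3]
      exact hx
    · intro hx
      rw [h1 x hx]
      exact hx
  · intro y hy
    exact (mem_fixingSubgroup_iff _).1 g.2.2 y hy
  · intro u
    rfl
  · intro g
    rfl

lemma UU_el (ho : o ∈ octads) : Cfsg.IsElementaryAbelian 2 (UU o) := by
  have hinv : ∀ x ∈ UU o, x⁻¹ = x := fun x hx => inv_eq_of_mul_eq_one_left (UU_sq ho hx)
  refine ⟨⟨⟨fun a b => Subtype.ext ?_⟩⟩, fun a ha => ?_⟩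
  · have h := hinv _ (mul_mem a.2 b.2)
    have h2 : (a : ↥(HH o)) * b = b * a := by
      rw [← h, mul_inv_rev, hinv _ a.2, hinv _ b.2]
    exact h2
  · rw [sq]
    exact UU_sq ho ha

lemma card_compl (ho : o ∈ octads) : Nat.card {q // q ∉ o} = 16 := by
  rw [Nat.card_eq_fintype_card, Fintype.card_subtype_compl, Fintype.card_coe, ho.2]
  decide +kernel

lemma exists_p0 (ho : o ∈ octads) : ∃ p, p ∉ o := by
  have h := card_compl ho
  have : Nonempty {q // q ∉ o} := by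
    apply (Nat.card_pos_iff.1 ?_).1
    omega
  obtain ⟨⟨p, hp⟩⟩ := this
  exact ⟨p, hp⟩

lemma reg (ho : o ∈ octads) {p0 : GolayPt} (hp0 : p0 ∉ o) {q : GolayPt} (hq : q ∉ o) :
    ∃ u ∈ UU o, pp u p0 = q := by
  let f : ↥(UU o) → {q // q ∉ o} := fun u => ⟨pp u.1 p0, fun h => hp0 ((pp_mem o u.1 p0).1 h)⟩
  have hf : Function.Injective f := by
    intro u v huv
    have h1 : pp u.1 p0 = pp v.1 p0 := congrArg Subtype.val huv
    by_contra hne
    have hw : (v.1⁻¹ * u.1) ∈ UU o := mul_mem (inv_mem v.2) u.2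
    have hw1 : pp (v.1⁻¹ * u.1) ≠ 1 := by
      intro h2
      apply hne
      have h3 : v.1⁻¹ * u.1 = 1 := pp_inj h2
      exact Subtype.ext (by rw [inv_mul_eq_one] at h3; exact h3.symm)
    refine free_octad ho (v.1⁻¹ * u.1).1.2 hw hw1 hp0 ?_
    rw [pp_mul, h1, ← pp_mul]
    simp
    rfl
  have hb : Function.Bijective f := (Nat.bijective_iff_injective_and_card f).2
    ⟨hf, by rw [UU_card ho, card_compl ho]⟩
  obtain ⟨u, hu⟩ := hb.2 ⟨q, hq⟩
  exact ⟨u.1, u.2, congrArg Subtype.val hu⟩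

variable (o)

def MM (p0 : GolayPt) : Subgroup ↥(HH o) where
  carrier := {h | pp h p0 = p0}
  mul_mem' := by
    intro a b ha hb
    change pp (a * b) p0 = p0
    rw [pp_mul]
    change pp b p0 = p0 at hb
    change pp a p0 = p0 at ha
    rw [hb, ha]
  one_mem' := rfl
  inv_mem' := by
    intro a ha
    change pp a p0 = p0 at ha
    change pp a⁻¹ p0 = p0
    rw [pp_inv, Perm.inv_eq_iff_eq]
    exact ha.symm

variable {o}

lemma mem_MM {p0 : GolayPt} {h : ↥(HH o)} : h ∈ MM o p0 ↔ pp h p0 = p0 := Iff.rfl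

lemma UU_inf_MM (ho : o ∈ octads) {p0 : GolayPt} (hp0 : p0 ∉ o) : UU o ⊓ MM o p0 = ⊥ := by
  rw [Subgroup.eq_bot_iff_forall]
  intro x hx
  by_contra hne
  have hne' : pp x ≠ 1 := fun h => hne (pp_inj h)
  exact free_octad ho x.1.2 hx.1 hne' hp0 hx.2

lemma UU_sup_MM (ho : o ∈ octads) {p0 : GolayPt} (hp0 : p0 ∉ o) : UU o ⊔ MM o p0 = ⊤ := by
  rw [eq_top_iff]
  intro h _
  obtain ⟨u, hu, hup⟩ := reg ho hp0 (q := pp h p0) (fun h1 => hp0 ((pp_mem o h p0).1 h1))
  have h1 : u⁻¹ * h ∈ MM o p0 := by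
    rw [mem_MM, pp_mul, ← hup, ← pp_mul]
    simp
    rfl
  have h2 : h = u * (u⁻¹ * h) := by group
  rw [h2]
  exact mul_mem (Subgroup.mem_sup_left hu) (Subgroup.mem_sup_right h1)

lemma MM_card (ho : o ∈ octads) {p0 : GolayPt} (hp0 : p0 ∉ o) : Nat.card (MM o p0) = 20160 := by
  have hc : Subgroup.IsComplement' (UU o) (MM o p0) := by
    refine Subgroup.isComplement'_of_disjoint_and_mul_eq_univ (disjoint_iff.2 (UU_inf_MM ho hp0)) ?_
    have h1 : ((UU o ⊔ MM o p0 : Subgroup ↥(HH o)) : Set ↥(HH o)) = Set.univ := by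
      rw [UU_sup_MM ho hp0]
      rfl
    rw [← h1, Subgroup.normal_mul]
  have h1 := hc.card_mul_card
  rw [UU_card ho, card_stab_octad ho] at h1
  omega

lemma faith (ho : o ∈ octads) {p0 : GolayPt} (hp0 : p0 ∉ o) {m : ↥(HH o)} (hm : m ∈ MM o p0)
    (h : ∀ u ∈ UU o, m * u * m⁻¹ = u) : m = 1 := by
  have hq : ∀ q, q ∉ o → pp m q = q := by
    intro q hq
    obtain ⟨u, hu, rfl⟩ := reg ho hp0 hq
    have h1 : m * u = u * m := by
      have := h u hu
      rwa [mul_inv_eq_iff_eq_mul] at this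
    have h2 : pp (m * u) p0 = pp (u * m) p0 := by rw [h1]
    rw [pp_mul, pp_mul] at h2
    rw [h2, hm]
  exact pp_inj (eq_one_of_fix_compl ho m.1.2 hq)

lemma full (ho : o ∈ octads) {p0 : GolayPt} (hp0 : p0 ∉ o) (φ : ↥(UU o) ≃* ↥(UU o)) :
    ∃ m ∈ MM o p0, ∀ u : ↥(UU o), ((φ u : ↥(UU o)) : ↥(HH o)) = m * u * m⁻¹ := by
  let c : ↥(MM o p0) → (↥(UU o) ≃* ↥(UU o)) := fun m => MulAut.conjNormal (m : ↥(HH o))
  have hcc : ∀ (m : ↥(MM o p0)) (u : ↥(UU o)), ((c m u : ↥(UU o)) : ↥(HH o)) = m.1 * u * m.1⁻¹ :=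
    fun m u => rfl
  have hc : Function.Injective c := by
    intro a b hab
    have h1 : ∀ u ∈ UU o, (a.1⁻¹ * b.1) * u * (a.1⁻¹ * b.1)⁻¹ = u := by
      intro u hu
      have h2 := congrArg (fun f => ((f ⟨u, hu⟩ : ↥(UU o)) : ↥(HH o))) hab
      simp only [hcc] at h2
      have h3 : (a.1⁻¹ * b.1) * u * (a.1⁻¹ * b.1)⁻¹ = a.1⁻¹ * (b.1 * u * b.1⁻¹) * a.1 := by group
      rw [h3, ← h2]
      group
    have h2 := faith ho hp0 (mul_mem (inv_mem a.2) b.2) h1
    apply Subtype.ext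
    rw [inv_mul_eq_one] at h2
    exact h2
  have hV := card_aut_le (↥(UU o)) (fun x => Subtype.ext (UU_sq ho x.2)) (UU_card ho)
  have hb : Function.Bijective c := (Nat.bijective_iff_injective_and_card c).2
    ⟨hc, le_antisymm (Nat.card_le_card_of_injective c hc) (by rw [MM_card ho hp0]; exact hV)⟩
  obtain ⟨m, hm⟩ := hb.2 φ
  refine ⟨m.1, m.2, fun u => ?_⟩
  rw [← hm]
  exact hcc m u

end octad

lemma extra_equiv {X Y : Type*} [Group X] [Group Y] [Finite X] (e : X ≃* Y)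
    (h : Cfsg.IsExtraspecial 2 X) : Cfsg.IsExtraspecial 2 Y := by
  haveI : Fact (Nat.Prime 2) := ⟨Nat.prime_two⟩
  refine H18.isExtraspecial_of_equiv e h.1.1 h.2 ?_ ?_ ?_
  · intro x
    rw [← h.1.2.1]
    exact H01.pow_mem_frattini_of_isPGroup h.1.1 x
  · intro x y
    rw [← h.1.2.2, commutator_def]
    exact Subgroup.commutator_mem_commutator (Subgroup.mem_top x) (Subgroup.mem_top y)
  · by_contra hall
    push Not at hall
    have h1 : commutator X = ⊥ := by
      rw [commutator_def, eq_bot_iff, Subgroup.commutator_le]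
      intro x _ y _
      exact hall x y
    have h2 := h.2
    rw [← h.1.2.2, h1] at h2
    simp at h2

lemma el_map {G₁ G₂ : Type*} [Group G₁] [Group G₂] (f : G₁ →* G₂) {p : ℕ} {A : Subgroup G₁}
    (h : Cfsg.IsElementaryAbelian p A) : Cfsg.IsElementaryAbelian p (A.map f) := by
  refine ⟨⟨⟨?_⟩⟩, ?_⟩
  · rintro ⟨_, a, ha, rfl⟩ ⟨_, b, hb, rfl⟩
    apply Subtype.ext
    have h1 := h.1.is_comm.comm ⟨a, ha⟩ ⟨b, hb⟩
    have h2 : a * b = b * a := congrArg Subtype.val h1
    show f a * f b = f b * f a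
    rw [← map_mul, ← map_mul, h2]
  · rintro _ ⟨a, ha, rfl⟩
    rw [← map_pow, h.2 a ha, map_one]

noncomputable def gl_sl : Matrix.GeneralLinearGroup (Fin 3) (ZMod 2) ≃*
    Matrix.SpecialLinearGroup (Fin 3) (ZMod 2) :=
  (MulEquiv.ofBijective (Matrix.SpecialLinearGroup.toGL)
    ⟨Matrix.SpecialLinearGroup.toGL_injective, by
      intro g
      have hdet : (g.val).det = 1 := by
        have h1 : IsUnit (g.val).det := (Matrix.GeneralLinearGroup.det g).isUnit
        exact (S5423.z2 _).resolve_left h1.ne_zero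
      exact ⟨⟨g.val, hdet⟩, Units.ext rfl⟩⟩).symm

theorem core (z : ↥M24) (hz : orderOf z = 2) (o : Finset GolayPt) (ho : o ∈ octads)
    (hzo : ∀ p, p ∈ o ↔ (z : Perm GolayPt) p = p) (Q : Subgroup ↥M24)
    (hQ : Q = (Cfsg.pCore 2 ↥(Subgroup.centralizer ({z} : Set ↥M24))).map
      (Subgroup.centralizer ({z} : Set ↥M24)).subtype) :
    Cfsg.IsExtraspecial 2 ↥Q ∧ Nat.card ↥Q = 2 ^ 7 ∧
      (∃ E : Subgroup ↥M24, E ≤ Q ∧ Cfsg.IsElementaryAbelian 2 E ∧ Nat.card ↥E = 2 ^ 4) ∧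
      Cfsg.IsLargeExtraspecial Q ∧
      ∃ K : Subgroup ↥M24, K ≤ Subgroup.centralizer ({z} : Set ↥M24) ∧ Q ⊓ K = ⊥ ∧
        Q ⊔ K = Subgroup.centralizer ({z} : Set ↥M24) ∧
        Nonempty (↥K ≃* Matrix.SpecialLinearGroup (Fin 3) (ZMod 2)) := by
  classical
  haveI : Fact (Nat.Prime 2) := ⟨Nat.prime_two⟩
  have hzz : z * z = 1 := by
    rw [← sq, ← hz]
    exact pow_orderOf_eq_one z
  have hcommH : ∀ u : ↥(HH o), u ∈ UU o → u ≠ 1 → ∀ y : ↥M24,
      y * (u : ↥M24) = (u : ↥M24) * y → y ∈ HH o := by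
    intro u hu hu1 y hy
    have hfix : ∀ p, p ∈ o ↔ pp u p = p := fun p =>
      ⟨hu p, fun h => by
        by_contra hp
        exact free_octad ho u.1.2 hu (fun h1 => hu1 (pp_inj h1)) hp h⟩
    have hy2 : ∀ x, (y : Perm GolayPt) (pp u x) = pp u ((y : Perm GolayPt) x) := by
      intro x
      have h1 : ((y * (u : ↥M24) : ↥M24) : Perm GolayPt) x = (((u : ↥M24) * y : ↥M24) : Perm GolayPt) x := by
        rw [hy]
      exact h1
    rw [mem_HH]
    intro x
    rw [hfix, hfix, ← hy2]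
    exact ⟨fun h => (y : Perm GolayPt).injective h, fun h => by rw [h]⟩
  have hzH : z ∈ HH o := by
    rw [mem_HH]
    intro x
    rw [hzo, hzo]
    exact ⟨fun h => (z : Perm GolayPt).injective h, fun h => by rw [h, h]⟩
  obtain ⟨z', hz'⟩ : ∃ z' : ↥(HH o), z' = ⟨z, hzH⟩ := ⟨_, rfl⟩
  have hz'v : (z' : ↥M24) = z := by rw [hz']
  have hz'U : z' ∈ UU o := fun p hp => by
    rw [hz']
    exact (hzo p).1 hp
  have hzne : z ≠ 1 := by
    intro h
    rw [h, orderOf_one] at hz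
    omega
  have hz'ne : z' ≠ 1 := by
    intro h
    apply hzne
    rw [← hz'v, h]
    rfl
  have hmemC : ∀ x : ↥M24, x ∈ Subgroup.centralizer ({z} : Set ↥M24) ↔ z * x = x * z := by
    intro x
    rw [Subgroup.mem_centralizer_iff]
    simp
  have hCH : ∀ x ∈ Subgroup.centralizer ({z} : Set ↥M24), x ∈ HH o := by
    intro x hx
    refine hcommH z' hz'U hz'ne x ?_
    rw [hz'v]
    exact ((hmemC x).1 hx).symm
  obtain ⟨Z, hZdef⟩ : ∃ Z : Subgroup ↥(HH o), Z = Subgroup.zpowers z' := ⟨_, rfl⟩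
  have hZ : Nat.card ↥Z = 2 := by
    rw [hZdef, Nat.card_zpowers, hz', Subgroup.orderOf_mk, hz]
  have hZU : Z ≤ UU o := by
    rw [hZdef, Subgroup.zpowers_le]
    exact hz'U
  have hmemCH : ∀ h : ↥(HH o), h ∈ Subgroup.centralizer (Z : Set ↥(HH o)) ↔
      (h : ↥M24) ∈ Subgroup.centralizer ({z} : Set ↥M24) := by
    intro h
    rw [hmemC, Subgroup.mem_centralizer_iff]
    constructor
    · intro h1
      have h2 := h1 z' (by rw [hZdef]; exact Subgroup.mem_zpowers z')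
      have h3 := congrArg Subtype.val h2
      rw [Subgroup.coe_mul, Subgroup.coe_mul, hz'v] at h3
      exact h3
    · intro h1 g hg
      rw [hZdef] at hg
      obtain ⟨k, rfl⟩ := hg
      have h2 : Commute z' h := by
        apply Subtype.ext
        rw [Subgroup.coe_mul, Subgroup.coe_mul, hz'v]
        exact h1
      exact (h2.zpow_left k).eq
  obtain ⟨p0, hp0⟩ := exists_p0 ho
  obtain ⟨QH, hQH⟩ : ∃ QH : Subgroup ↥(HH o), QH = (Cfsg.pCore 2 ↥(Subgroup.centralizer (Z : Set ↥(HH o)))).map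
      (Subgroup.centralizer (Z : Set ↥(HH o))).subtype := ⟨_, rfl⟩
  obtain ⟨hQE, hQc, ⟨EH, hEQ, hEel, hEc⟩, hL, KH, hK1, hK2, hK3, ⟨hKiso⟩⟩ :=
    S5423.result (G := ↥(HH o)) 3 (by norm_num) (UU o) (MM o p0) (UU_el ho)
      (by rw [UU_card ho]; norm_num) (UU_inf_MM ho hp0) (UU_sup_MM ho hp0)
      (fun m hm h => faith ho hp0 hm h) (fun φ => full ho hp0 φ) Z hZU hZ QH hQH
  have hfinj : Function.Injective (HH o).subtype := Subtype.val_injective
  let e : ↥(Subgroup.centralizer (Z : Set ↥(HH o))) ≃* ↥(Subgroup.centralizer ({z} : Set ↥M24)) :=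
    { toFun := fun x => ⟨(x.1 : ↥M24), (hmemCH x.1).1 x.2⟩
      invFun := fun y => ⟨⟨y.1, hCH y.1 y.2⟩, (hmemCH _).2 y.2⟩
      left_inv := fun _ => rfl
      right_inv := fun _ => rfl
      map_mul' := fun _ _ => rfl }
  have hQQ : Q = QH.map (HH o).subtype := by
    rw [hQ, hQH, ← H13.map_pCore_mulEquiv (p := 2) e, Subgroup.map_map, Subgroup.map_map]
    rfl
  have hQC : ∀ y ∈ Q, y ∈ Subgroup.centralizer ({z} : Set ↥M24) := by
    intro y hy
    rw [hQ] at hy
    obtain ⟨w, _, rfl⟩ := hy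
    exact w.2
  have hfQ : ∀ y : ↥(HH o), y ∈ QH → (y : ↥M24) ∈ Q := by
    intro y hy
    rw [hQQ]
    exact ⟨y, hy, rfl⟩
  have hQN : ∀ c ∈ Subgroup.centralizer ({z} : Set ↥M24), ∀ y ∈ Q, c * y * c⁻¹ ∈ Q := by
    intro c hc y hy
    rw [hQ] at hy ⊢
    obtain ⟨w, hw, rfl⟩ := hy
    haveI := H01.pCore_normal (G := ↥(Subgroup.centralizer ({z} : Set ↥M24))) 2
    exact ⟨⟨c, hc⟩ * w * ⟨c, hc⟩⁻¹, Subgroup.Normal.conj_mem inferInstance w hw _, rfl⟩
  have hUinv : ∀ u ∈ UU o, u⁻¹ = u := fun u hu => inv_eq_of_mul_eq_one_left (UU_sq ho hu)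
  have hUcomm : ∀ a ∈ UU o, ∀ b ∈ UU o, a * b = b * a := by
    intro a ha b hb
    have h := hUinv _ (mul_mem ha hb)
    rw [← h, mul_inv_rev, hUinv _ ha, hUinv _ hb]
  have hUQ : ∀ u ∈ UU o, (u : ↥M24) ∈ Q := by
    intro u hu
    have hC : (u : ↥M24) ∈ Subgroup.centralizer ({z} : Set ↥M24) := by
      rw [hmemC, ← hz'v]
      exact congrArg Subtype.val (hUcomm z' hz'U u hu)
    let N : Subgroup ↥(Subgroup.centralizer ({z} : Set ↥M24)) :=
      ((UU o).map (HH o).subtype).subgroupOf (Subgroup.centralizer ({z} : Set ↥M24))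
    have hNn : N.Normal := by
      constructor
      intro x hx c
      obtain ⟨v, hv, hvx⟩ := hx
      refine ⟨(⟨c.1, hCH c.1 c.2⟩ : ↥(HH o)) * v * (⟨c.1, hCH c.1 c.2⟩ : ↥(HH o))⁻¹,
        Subgroup.Normal.conj_mem inferInstance v hv _, ?_⟩
      change c.1 * (v : ↥M24) * c.1⁻¹ = c.1 * x.1 * c.1⁻¹
      have hvx' : (v : ↥M24) = x.1 := hvx
      rw [hvx']
    have hNp : IsPGroup 2 ↥N := by
      rintro ⟨x, hx⟩
      obtain ⟨v, hv, hvx⟩ := hx
      refine ⟨1, ?_⟩
      apply Subtype.ext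
      apply Subtype.ext
      have h1 := congrArg Subtype.val (UU_sq ho hv)
      have hvx' : (v : ↥M24) = x.1 := hvx
      show (x.1) ^ (2 ^ 1) = 1
      rw [← hvx', pow_one, sq]
      exact h1
    have h1 := H01.le_pCore hNn hNp
    have h2 : (⟨u.1, hC⟩ : ↥(Subgroup.centralizer ({z} : Set ↥M24))) ∈ N := ⟨u, hu, rfl⟩
    rw [hQ]
    exact ⟨_, h1 h2, rfl⟩
  have hzQ : z ∈ Q := by
    rw [← hz'v]
    exact hUQ z' hz'U
  have E1 : Cfsg.IsExtraspecial 2 ↥Q := by
    rw [hQQ]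
    exact extra_equiv (QH.equivMapOfInjective _ hfinj) hQE
  have h_ii : Subgroup.centralizer (Q : Set ↥M24) = (Subgroup.center Q).map Q.subtype := by
    apply le_antisymm
    · intro x hx
      have hx1 := Subgroup.mem_centralizer_iff.1 hx
      have hxz : z * x = x * z := hx1 z hzQ
      have hxH : x ∈ HH o := hCH x ((hmemC x).2 hxz)
      have hx' : (⟨x, hxH⟩ : ↥(HH o)) ∈ Subgroup.centralizer (QH : Set ↥(HH o)) := by
        rw [Subgroup.mem_centralizer_iff]
        intro y hy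
        apply Subtype.ext
        exact hx1 _ (hfQ y hy)
      rw [hL.2.1] at hx'
      obtain ⟨w, _, hw⟩ := hx'
      have hxQ : x ∈ Q := by
        have h1 : (⟨x, hxH⟩ : ↥(HH o)) ∈ QH := by
          rw [← hw]
          exact w.2
        exact hfQ _ h1
      refine ⟨⟨x, hxQ⟩, ?_, rfl⟩
      rw [SetLike.mem_coe, Subgroup.mem_center_iff]
      intro g
      apply Subtype.ext
      exact hx1 g.1 g.2
    · rintro _ ⟨w, hw, rfl⟩
      rw [Subgroup.mem_centralizer_iff]
      intro y hy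
      have := (Subgroup.mem_center_iff.1 hw) ⟨y, hy⟩
      exact congrArg Subtype.val this
  have h_iii : Subgroup.centralizer (((Subgroup.center Q).map Q.subtype : Subgroup ↥M24) : Set ↥M24) ≤
      Subgroup.normalizer (Q : Set ↥M24) := by
    intro x hx
    have hzc : z ∈ (Subgroup.center Q).map Q.subtype := by
      refine ⟨⟨z, hzQ⟩, ?_, rfl⟩
      rw [SetLike.mem_coe, Subgroup.mem_center_iff]
      intro g
      apply Subtype.ext
      exact ((hmemC g.1).1 (hQC g.1 g.2)).symm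
    have hxz : z * x = x * z := Subgroup.mem_centralizer_iff.1 hx z hzc
    have hxC := (hmemC x).2 hxz
    rw [Subgroup.mem_normalizer_iff]
    intro y
    constructor
    · intro hy
      exact hQN x hxC y hy
    · intro hy
      have := hQN x⁻¹ (inv_mem hxC) _ hy
      simpa [mul_assoc] using this
  have hsub : ∀ X : Subgroup ↥M24, X ≤ HH o → Odd (Nat.card X) →
      Q ≤ Subgroup.normalizer (X : Set ↥M24) → X = ⊥ := by
    intro X hXH hXodd hXN
    have h1 := hL.2.2.2 (X.subgroupOf (HH o))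
      (by rw [Nat.card_congr (Subgroup.subgroupOfEquivOfLe hXH).toEquiv]; exact hXodd) (by
        intro y hy
        rw [Subgroup.mem_normalizer_iff]
        intro x
        exact Subgroup.mem_normalizer_iff.1 (hXN (hfQ y hy)) (x : ↥M24))
    rw [Subgroup.eq_bot_iff_forall]
    intro x hx
    have h2 : (⟨x, hXH hx⟩ : ↥(HH o)) ∈ X.subgroupOf (HH o) := hx
    rw [h1] at h2
    exact congrArg Subtype.val ((Subgroup.mem_bot).1 h2)
  have h_iv : ∀ K : Subgroup ↥M24, Odd (Nat.card K) → Q ≤ Subgroup.normalizer (K : Set ↥M24) → K = ⊥ := by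
    intro K hKodd hKN
    have hQn : ∀ y ∈ Q, ∀ x ∈ K, y * x * y⁻¹ ∈ K :=
      fun y hy x hx => (Subgroup.mem_normalizer_iff.1 (hKN hy) x).1 hx
    have hKC : K ⊓ Subgroup.centralizer ({z} : Set ↥M24) = ⊥ := by
      apply hsub
      · intro x hx
        exact hCH x hx.2
      · exact Odd.of_dvd_nat hKodd (Subgroup.card_dvd_of_le inf_le_left)
      · intro y hy
        rw [Subgroup.mem_normalizer_iff]
        intro x
        have h1 := Subgroup.mem_normalizer_iff.1 (hKN hy) x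
        have h2 := Subgroup.mem_normalizer_iff.1
          (Subgroup.le_normalizer (H := Subgroup.centralizer ({z} : Set ↥M24)) (hQC y hy)) x
        rw [Subgroup.mem_inf, Subgroup.mem_inf, ← h1, ← h2]
    have hf : ∀ x ∈ K, x * z = z * x → x = 1 := by
      intro x hx hc
      have h1 : x ∈ K ⊓ Subgroup.centralizer ({z} : Set ↥M24) := ⟨hx, (hmemC x).2 hc.symm⟩
      rw [hKC] at h1
      exact (Subgroup.mem_bot).1 h1
    have hinv := S5424.fpf_inverts hzz (hQn z hzQ) hf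
    obtain ⟨b, hbU, hb1, hbz⟩ : ∃ b ∈ UU o, b ≠ 1 ∧ b ≠ z' := by
      by_contra hall
      push Not at hall
      have hle : UU o ≤ Z := by
        intro u hu
        by_cases h1 : u = 1
        · rw [h1]
          exact one_mem _
        · rw [hall u hu h1, hZdef]
          exact Subgroup.mem_zpowers z'
      have := Subgroup.card_le_of_le hle
      rw [UU_card ho, hZ] at this
      omega
    have hzb : z' * b ∈ UU o := mul_mem hz'U hbU
    have hzb1 : z' * b ≠ 1 := by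
      intro h
      apply hbz
      have h2 : z' * z' = 1 := UU_sq ho hz'U
      calc b = z' * z' * b := by rw [h2, one_mul]
        _ = z' * (z' * b) := mul_assoc _ _ _
        _ = z' := by rw [h, mul_one]
    have hzbc : z * (b : ↥M24) = (b : ↥M24) * z := by
      rw [← hz'v]
      exact congrArg Subtype.val (hUcomm z' hz'U b hbU)
    have hKH : K ≤ HH o := S5424.odd_four hKodd (b := (b : ↥M24))
      (congrArg Subtype.val (UU_sq ho hbU)) hzbc hinv (hQn _ (hUQ b hbU))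
      (fun y _ hy => hcommH b hbU hb1 y hy)
      (fun y _ hy => hcommH (z' * b) hzb hzb1 y (by
        have h3 : ((z' * b : ↥(HH o)) : ↥M24) = z * (b : ↥M24) := by
          rw [Subgroup.coe_mul, hz'v]
        rw [h3]
        exact hy))
    exact hsub K hKH hKodd hKN
  refine ⟨E1, ?_, ⟨EH.map (HH o).subtype, ?_, el_map _ hEel, ?_⟩, ⟨E1, h_ii, h_iii, h_iv⟩,
    KH.map (HH o).subtype, ?_, ?_, ?_, ⟨?_⟩⟩
  · rw [hQQ, Nat.card_congr (QH.equivMapOfInjective _ hfinj).toEquiv.symm, hQc]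
  · rw [hQQ]
    exact Subgroup.map_mono hEQ
  · rw [Nat.card_congr (EH.equivMapOfInjective _ hfinj).toEquiv.symm, hEc]
  · rintro _ ⟨k, hk, rfl⟩
    exact (hmemCH k).1 (hK1 hk)
  · rw [hQQ, ← Subgroup.map_inf _ _ _ hfinj, hK2, Subgroup.map_bot]
  · rw [hQQ, ← Subgroup.map_sup, hK3]
    ext x
    constructor
    · rintro ⟨h, hh, rfl⟩
      exact (hmemCH h).1 hh
    · intro hx
      exact ⟨⟨x, hCH x hx⟩, (hmemCH _).2 hx, rfl⟩
  · exact (KH.equivMapOfInjective _ hfinj).symm.trans (hKiso.trans gl_sl)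


/-- In the Mathieu group of degree 24 (the automorphism group of the length-24 binary Golay code, acting on the 24 coordinates), let z be an involution whose fixed points form an octad (the support of a code word of weight 8), and let Q be the largest normal 2-subgroup of the centralizer C of z. Then Q is extraspecial of order 2^7 with an elementary abelian subgroup of order 16 (plus type), Q is a large extraspecial 2-subgroup, and C is the split extension of Q by the special linear group of degree 3 over the field with two elements. -/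
theorem result (z : ↥Cfsg.M24) (hz : orderOf z = 2) (hfix : (Finset.univ.filter fun p : Cfsg.GolayPt => (z : Equiv.Perm Cfsg.GolayPt) p = p) ∈ Cfsg.octads) (Q : Subgroup ↥Cfsg.M24) (hQ : Q = (Cfsg.pCore 2 ↥(Subgroup.centralizer ({z} : Set ↥Cfsg.M24))).map (Subgroup.centralizer ({z} : Set ↥Cfsg.M24)).subtype) : Cfsg.IsExtraspecial 2 ↥Q ∧ Nat.card ↥Q = 2 ^ 7 ∧ (∃ E : Subgroup ↥Cfsg.M24, E ≤ Q ∧ Cfsg.IsElementaryAbelian 2 E ∧ Nat.card ↥E = 2 ^ 4) ∧ Cfsg.IsLargeExtraspecial Q ∧ ∃ K : Subgroup ↥Cfsg.M24, K ≤ Subgroup.centralizer ({z} : Set ↥Cfsg.M24) ∧ Q ⊓ K = ⊥ ∧ Q ⊔ K = Subgroup.centralizer ({z} : Set ↥Cfsg.M24) ∧ Nonempty (↥K ≃* Matrix.SpecialLinearGroup (Fin 3) (ZMod 2)) := by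
  classical
exact core z hz _ hfix (fun p => by simp) Q hQ

end Cfsg.Agent.S5425
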