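import Cfsg.Statements.S5433
import Cfsg.Agent.Lib.H25.Basic

set_option autoImplicit false
open Cfsg

namespace Cfsg.Agent.S5433

theorem result {G : Type*} [Group G] [Finite G] (Q : Subgroup G) (hQ : Cfsg.IsLargeExtraspecial Q) (L : Subgroup G) [L.Normal] (hQL : Q ≤ L) : L ⊔ Subgroup.normalizer (Q : Set G) = ⊤ := by
  obtain ⟨hE, hC, hN, -⟩ := hQ
  have : Fact (Nat.Prime 2) := ⟨Nat.prime_two⟩
  set Z := (Subgroup.center ↥Q).map Q.subtype with hZdef
  have hZcard : Nat.card Z = 2 := by
    rw [hZdef, Subgroup.card_map_of_injective Q.subtype_injective]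
    exact hE.2
  -- a Sylow 2-subgroup of L containing Q
  have hQ2L : IsPGroup 2 (Q.subgroupOf L) := by
    have : IsPGroup 2 Q := hE.1.1
    exact this.of_equiv (Subgroup.subgroupOfEquivOfLe hQL).symm
  obtain ⟨T', hT'⟩ := hQ2L.exists_le_sylow
  let T : Subgroup G := (T' : Subgroup L).map L.subtype
  have hQT : Q ≤ T := by
    intro q hq
    refine ⟨⟨q, hQL hq⟩, ?_, rfl⟩
    exact hT' (Subgroup.mem_subgroupOf.mpr hq)
  have hT2 : IsPGroup 2 T := (T'.isPGroup').map L.subtype
  -- the centre of T as a subgroup of G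
  let CT : Subgroup G := T ⊓ Subgroup.centralizer (T : Set G)
  have hCTZ : CT ≤ Z := by
    intro x hx
    rw [← hC]
    intro q hq
    exact hx.2 q (hQT hq)
  have hCTne : CT ≠ ⊥ := by
    intro hbot
    -- T nontrivial since Z ≤ Q ≤ T has order 2
    have hTnt : Nontrivial T := by
      have h2 : Nontrivial Z := by
        apply Finite.one_lt_card_iff_nontrivial.mp
        rw [hZcard]; norm_num
      obtain ⟨⟨a, ha⟩, ha1⟩ := exists_ne (1 : Z)
      have ha' : a ≠ 1 := fun h => ha1 (Subtype.ext h)
      have haQ : a ∈ Q := by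
        rw [hZdef] at ha
        obtain ⟨x, -, rfl⟩ := ha
        exact x.2
      refine ⟨⟨⟨a, hQT haQ⟩, 1, ?_⟩⟩
      intro h
      exact ha' (congrArg Subtype.val h)
    have := hTnt
    have := hT2.center_nontrivial
    obtain ⟨⟨a, ha⟩, ha1⟩ := exists_ne (1 : Subgroup.center T)
    have ha' : (a : G) ≠ 1 := fun h => ha1 (Subtype.ext (Subtype.ext h))
    apply ha'
    have hmem : (a : G) ∈ CT := by
      refine ⟨a.2, ?_⟩
      intro y hy
      have := Subgroup.mem_center_iff.mp ha ⟨y, hy⟩
      exact (congrArg Subtype.val this)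
    rw [hbot] at hmem
    exact hmem
  have hCTeq : CT = Z := by
    have hZp : Nat.Prime (Nat.card Z) := by rw [hZcard]; exact Nat.prime_two
    by_contra hne
    have hlt : CT < Z := lt_of_le_of_ne hCTZ hne
    have hd : Nat.card CT ∣ Nat.card Z := Subgroup.card_dvd_of_le hCTZ
    rcases (Nat.dvd_prime hZp).mp hd with h | h
    · exact hCTne (Subgroup.card_eq_one.mp h)
    · exact hne (Subgroup.eq_of_le_of_card_ge hCTZ h.ge)
  -- normalizer of T lies in normalizer of Q
  have hZtwo : ∀ a b : G, a ∈ Z → b ∈ Z → a ≠ 1 → b ≠ 1 → a = b := by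
    intro a b ha hb ha1 hb1
    obtain ⟨x, y, hxy, hall⟩ := Nat.card_eq_two_iff.mp hZcard
    have hmem : ∀ w : Z, w = x ∨ w = y := by
      intro w
      have : w ∈ ({x, y} : Set Z) := by rw [hall]; trivial
      simpa using this
    have h1 : (1 : Z) = x ∨ (1 : Z) = y := hmem 1
    rcases h1 with h1 | h1
    · have ea := (hmem ⟨a, ha⟩).resolve_left (fun h => ha1 (by
        have := congrArg Subtype.val (h.trans h1.symm); simpa using this))
      have eb := (hmem ⟨b, hb⟩).resolve_left (fun h => hb1 (by
        have := congrArg Subtype.val (h.trans h1.symm); simpa using this))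
      have := ea.trans eb.symm
      exact congrArg Subtype.val this
    · have ea := (hmem ⟨a, ha⟩).resolve_right (fun h => ha1 (by
        have := congrArg Subtype.val (h.trans h1.symm); simpa using this))
      have eb := (hmem ⟨b, hb⟩).resolve_right (fun h => hb1 (by
        have := congrArg Subtype.val (h.trans h1.symm); simpa using this))
      have := ea.trans eb.symm
      exact congrArg Subtype.val this
  have hNT : Subgroup.normalizer (T : Set G) ≤ Subgroup.normalizer (Q : Set G) := by
    intro g hg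
    apply hN
    -- g centralizes Z
    intro z hz
    by_cases hz1 : z = 1
    · subst hz1; simp
    have hzCT : z ∈ CT := by rw [hCTeq]; exact hz
    have hzz : g * z * g⁻¹ ∈ Z := by
      rw [← hCTeq]
      refine ⟨(Subgroup.mem_normalizer_iff.mp hg z).mp hzCT.1, ?_⟩
      intro t ht
      have ht' : g⁻¹ * t * g ∈ T := by
        have := (Subgroup.mem_normalizer_iff.mp (Subgroup.inv_mem _ hg) t).mp ht
        simpa using this
      have h3 := hzCT.2 _ ht'
      calc t * (g * z * g⁻¹) = g * ((g⁻¹ * t * g) * z) * g⁻¹ := by group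
        _ = g * (z * (g⁻¹ * t * g)) * g⁻¹ := by rw [h3]
        _ = (g * z * g⁻¹) * t := by group
    have hne : g * z * g⁻¹ ≠ 1 := by
      intro h
      apply hz1
      have : z = g⁻¹ * (g * z * g⁻¹) * g := by group
      rw [this, h]; group
    have heq := hZtwo _ _ hzz hz hne hz1
    show z * g = g * z
    calc z * g = (g * z * g⁻¹) * g := by rw [heq]
      _ = g * z := by group
  have hfr := Sylow.normalizer_sup_eq_top T'
  rw [eq_top_iff, ← hfr, sup_comm]
  exact sup_le_sup le_rfl hNT

end Cfsg.Agent.S5433
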