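import Cfsg.Statements.S5434
import Cfsg.Agent.Lib.H13.Extra
import Cfsg.Agent.Lib.H18.Special
import Cfsg.Agent.Lib.H01.Coprime
-- import your own Cfsg.Agent.* helpers here

set_option autoImplicit false
open Cfsg

namespace Cfsg.Agent.S5434

open Cfsg
open scoped commutatorElement

lemma extra_factor {G : Type*} [Group G] [Finite G] (Q S T : Subgroup G) (hQ : IsExtraspecial 2 Q)
    (hST : S ⊔ T = Q) (hc : ∀ x ∈ S, ∀ y ∈ T, x * y = y * x)
    (hS : ¬ S ≤ (Subgroup.center Q).map Q.subtype) : IsExtraspecial 2 S := by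
  classical
  obtain ⟨z, hz1, hz2, hzc, hsq, hcm, hcen⟩ := H13.extraspecial_two_setup hQ
  have hSQ : S ≤ Q := hST ▸ le_sup_left
  have hTQ : T ≤ Q := hST ▸ le_sup_right
  haveI : Fact (Nat.Prime 2) := ⟨Nat.prime_two⟩
  have hcentral : ∀ s ∈ S, (∀ s' ∈ S, s * s' = s' * s) → ∀ q ∈ Q, s * q = q * s := by
    intro s hs h q hq
    have h1 : S ⊔ T ≤ Subgroup.centralizer {s} := by
      apply sup_le
      · intro s' hs'
        rw [Subgroup.mem_centralizer_singleton_iff]
        exact (h s' hs').symm
      · intro t ht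
        rw [Subgroup.mem_centralizer_singleton_iff]
        exact (hc s hs t ht).symm
    rw [hST] at h1
    have h2 := h1 hq
    rw [Subgroup.mem_centralizer_singleton_iff] at h2
    exact h2.symm
  have hmem : ∀ s (hs : s ∈ S), (∀ s' ∈ S, s * s' = s' * s) → (⟨s, hSQ hs⟩ : Q) ∈ Subgroup.center Q := by
    intro s hs h
    rw [Subgroup.mem_center_iff]
    intro q
    apply Subtype.ext
    exact (hcentral s hs h q q.2).symm
  have hcen' : ∀ s ∈ S, (∀ s' ∈ S, s * s' = s' * s) → s = 1 ∨ s = z := by
    intro s hs h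
    rcases (hcen ⟨s, hSQ hs⟩).1 (hmem s hs h) with h1 | h1
    · exact Or.inl (congrArg Subtype.val h1)
    · exact Or.inr (congrArg Subtype.val h1)
  obtain ⟨s, hs, hsnot⟩ := SetLike.not_le_iff_exists.1 hS
  obtain ⟨s', hs', hne⟩ : ∃ s' ∈ S, s * s' ≠ s' * s := by
    by_contra hcon
    push Not at hcon
    exact hsnot ⟨⟨s, hSQ hs⟩, hmem s hs hcon, rfl⟩
  have hzS : (z : G) ∈ S := by
    rcases hcm ⟨s, hSQ hs⟩ ⟨s', hSQ hs'⟩ with h | h
    · exact absurd (congrArg Subtype.val h) hne
    · have h1 : s * s' = (z : G) * (s' * s) := congrArg Subtype.val h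
      have h2 : (z : G) = s * s' * (s' * s)⁻¹ := by rw [h1]; group
      rw [h2]
      exact S.mul_mem (S.mul_mem hs hs') (S.inv_mem (S.mul_mem hs' hs))
  have hzG : (z : G) ≠ 1 := fun h => hz1 (Subtype.ext h)
  have hzmem : (⟨z, hzS⟩ : S) ∈ Subgroup.center S := by
    rw [Subgroup.mem_center_iff]
    intro x
    apply Subtype.ext
    have := hzc ⟨x, hSQ x.2⟩
    have h2 : ((x : G)) * z = z * (x : G) := congrArg Subtype.val this
    exact h2
  have hcenS : ∀ c : S, c ∈ Subgroup.center S → c = 1 ∨ c = ⟨z, hzS⟩ := by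
    intro c hc'
    have := hcen' c c.2 (fun s' hs' => by
      have := (Subgroup.mem_center_iff.1 hc') ⟨s', hs'⟩
      exact (congrArg Subtype.val this).symm)
    rcases this with h | h
    · exact Or.inl (Subtype.ext h)
    · exact Or.inr (Subtype.ext h)
  apply H18.isExtraspecial_of (p := 2)
  · intro x
    obtain ⟨k, hk⟩ := hQ.1.1 ⟨x, hSQ x.2⟩
    refine ⟨k, Subtype.ext ?_⟩
    simpa using congrArg Subtype.val hk
  · rw [Nat.card_eq_two_iff' (1 : Subgroup.center S)]
    refine ⟨⟨⟨z, hzS⟩, hzmem⟩, ?_, ?_⟩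
    · intro h
      apply hzG
      exact congrArg (fun y : Subgroup.center S => ((y : S) : G)) h
    · rintro ⟨y, hy⟩ hy1
      rcases hcenS y hy with h | h
      · exact absurd (Subtype.ext h) hy1
      · exact Subtype.ext h
  · intro x
    have := hsq ⟨x, hSQ x.2⟩
    have h1 : x ^ 2 = 1 ∨ x ^ 2 = ⟨z, hzS⟩ := by
      rcases this with h | h
      · left; apply Subtype.ext; simpa using congrArg Subtype.val h
      · right; apply Subtype.ext; simpa using congrArg Subtype.val h
    rcases h1 with h | h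
    · rw [h]; exact Subgroup.one_mem _
    · rw [h]; exact hzmem
  · intro x y
    have h1 : x * y * x⁻¹ * y⁻¹ = 1 ∨ x * y * x⁻¹ * y⁻¹ = ⟨z, hzS⟩ := by
      rcases hcm ⟨x, hSQ x.2⟩ ⟨y, hSQ y.2⟩ with h | h
      · left
        have h2 : x * y = y * x := Subtype.ext (show (x : G) * y = y * x from congrArg Subtype.val h)
        rw [h2]; group
      · right
        have h2 : x * y = ⟨z, hzS⟩ * (y * x) := Subtype.ext (show (x : G) * y = z * (y * x) from congrArg Subtype.val h)
        rw [h2]; group
    rcases h1 with h | h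
    · rw [h]; exact Subgroup.one_mem _
    · rw [h]; exact hzmem
  · refine ⟨⟨s, hs⟩, ⟨s', hs'⟩, ?_⟩
    intro h
    apply hne
    have h1 : (⟨s, hs⟩ : S) * ⟨s', hs'⟩ = ⟨s', hs'⟩ * ⟨s, hs⟩ := by
      have h3 := h
      rw [mul_inv_eq_one, mul_inv_eq_iff_eq_mul] at h3
      exact h3
    exact congrArg Subtype.val h1


/-- Let Q be a large extraspecial 2-subgroup of the finite group G (extraspecial; centralizer equal to its centre; normal in the centralizer of its centre; normalizing no non-trivial subgroup of odd order), and A a non-trivial subgroup of odd order of the normalizer of Q. Then Q is the central product of the centralizer of A in Q and the commutator subgroup [Q, A] (they generate Q and commute elementwise), [Q, A] is extraspecial, and the centralizer of A in Q is either the centre of Q or extraspecial. -/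
theorem result {G : Type*} [Group G] [Finite G] (Q : Subgroup G) (hQ : Cfsg.IsLargeExtraspecial Q) (A : Subgroup G) (hA : A ≤ Subgroup.normalizer (Q : Set G)) (hAodd : Odd (Nat.card ↥A)) (hA1 : A ≠ ⊥) : (Q ⊓ Subgroup.centralizer (A : Set G)) ⊔ ⁅Q, A⁆ = Q ∧ (∀ x ∈ Q ⊓ Subgroup.centralizer (A : Set G), ∀ y ∈ ⁅Q, A⁆, x * y = y * x) ∧ Cfsg.IsExtraspecial 2 ↥⁅Q, A⁆ ∧ (Q ⊓ Subgroup.centralizer (A : Set G) = ((Subgroup.center ↥Q).map Q.subtype) ∨ Cfsg.IsExtraspecial 2 ↥(Q ⊓ Subgroup.centralizer (A : Set G))) := by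
  classical
  obtain ⟨hE, hcen, -, -⟩ := hQ
  obtain ⟨z, hz1, hz2, hzc, hsq, hcm, hcenz⟩ := H13.extraspecial_two_setup hE
  haveI : Fact (Nat.Prime 2) := ⟨Nat.prime_two⟩
  have hQ2 : IsPGroup 2 Q := hE.1.1
  have hzG : (z : G) ≠ 1 := fun h => hz1 (Subtype.ext h)
  have hnorm : ∀ a ∈ A, ∀ q ∈ Q, a * q * a⁻¹ ∈ Q := fun a ha q hq =>
    H01.conj_mem_of_mem_normalizer (hA ha) hq
  have hnorm' : ∀ a ∈ A, ∀ q ∈ Q, a⁻¹ * q * a ∈ Q := fun a ha q hq => by
    simpa using hnorm a⁻¹ (A.inv_mem ha) q hq
  -- `A` centralizes `z`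
  have haz : ∀ a ∈ A, a * (z : G) * a⁻¹ = z := by
    intro a ha
    have hm := hnorm a ha z z.2
    have hc : (⟨a * (z : G) * a⁻¹, hm⟩ : Q) ∈ Subgroup.center Q := by
      rw [Subgroup.mem_center_iff]
      intro q
      apply Subtype.ext
      have h1 := hzc ⟨a⁻¹ * q * a, hnorm' a ha q q.2⟩
      have h2 : a⁻¹ * (q : G) * a * z = z * (a⁻¹ * q * a) := congrArg Subtype.val h1
      show (q : G) * (a * z * a⁻¹) = a * z * a⁻¹ * q
      calc (q : G) * (a * z * a⁻¹) = a * (a⁻¹ * q * a * z) * a⁻¹ := by group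
        _ = a * (z * (a⁻¹ * q * a)) * a⁻¹ := by rw [h2]
        _ = _ := by group
    rcases (hcenz _).1 hc with h | h
    · exfalso
      have h3 : a * (z : G) * a⁻¹ = 1 := congrArg Subtype.val h
      apply hzG
      have h4 : (z : G) = a⁻¹ * (a * z * a⁻¹) * a := by group
      rw [h4, h3]; group
    · exact congrArg Subtype.val h
  -- the coprime decomposition
  have hcop : (Nat.card A).Coprime (Nat.card Q) := by
    obtain ⟨k, hk⟩ := IsPGroup.iff_card.1 hQ2
    rw [hk]
    exact Nat.Coprime.pow_right _ (Nat.coprime_two_right.2 hAodd)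
  have hsolv : Group.IsSolvable A ∨ Group.IsSolvable Q := by
    right
    haveI := hQ2.isNilpotent
    infer_instance
  have hdec := H01.commutator_sup_centralizer hA hcop hsolv
  have hRQ : ⁅Q, A⁆ ≤ Q := le_trans le_sup_left hdec.le
  -- commuting
  have hcomm : ∀ x ∈ Q ⊓ Subgroup.centralizer (A : Set G), ∀ y ∈ ⁅Q, A⁆, x * y = y * x := by
    intro x hx y hy
    have h1 : ⁅⁅A, Q ⊓ Subgroup.centralizer (A : Set G)⁆, Q⁆ = ⊥ := by
      have h2 : ⁅A, Q ⊓ Subgroup.centralizer (A : Set G)⁆ = ⊥ := by
        rw [Subgroup.commutator_eq_bot_iff_le_centralizer]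
        intro a ha
        rw [Subgroup.mem_centralizer_iff]
        intro u hu
        exact (Subgroup.mem_centralizer_iff.1 hu.2 a ha).symm
      rw [h2, Subgroup.commutator_bot_left]
    have h2 : ⁅⁅Q ⊓ Subgroup.centralizer (A : Set G), Q⁆, A⁆ = ⊥ := by
      rw [Subgroup.commutator_eq_bot_iff_le_centralizer]
      have h3 : ⁅Q ⊓ Subgroup.centralizer (A : Set G), Q⁆ ≤ Subgroup.centralizer (A : Set G) := by
        rw [Subgroup.commutator_le]
        intro u hu v hv
        rcases hcm ⟨u, hu.1⟩ ⟨v, hv⟩ with h | h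
        · have h4 : u * v = v * u := congrArg Subtype.val h
          have h5 : ⁅u, v⁆ = 1 := by
            rw [commutatorElement_def, h4]; group
          rw [h5]; exact Subgroup.one_mem _
        · have h4 : u * v = z * (v * u) := congrArg Subtype.val h
          have h5 : ⁅u, v⁆ = z := by
            rw [commutatorElement_def, h4]; group
          rw [h5, Subgroup.mem_centralizer_iff]
          intro a ha
          have := haz a ha
          rw [mul_inv_eq_iff_eq_mul] at this
          exact this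
      intro u hu
      exact h3 hu
    have h3 := Subgroup.commutator_commutator_eq_bot_of_rotate h1 h2
    have h4 : y ∈ Subgroup.centralizer ((Q ⊓ Subgroup.centralizer (A : Set G) : Subgroup G) : Set G) := by
      have := (Subgroup.commutator_eq_bot_iff_le_centralizer.1 h3)
      exact this hy
    exact ((Subgroup.mem_centralizer_iff.1 h4) x hx)
  have hdec' : (Q ⊓ Subgroup.centralizer (A : Set G)) ⊔ ⁅Q, A⁆ = Q := by rw [sup_comm]; exact hdec
  have hcomm' : ∀ x ∈ ⁅Q, A⁆, ∀ y ∈ Q ⊓ Subgroup.centralizer (A : Set G), x * y = y * x :=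
    fun x hx y hy => (hcomm y hy x hx).symm
  refine ⟨hdec', hcomm, ?_, ?_⟩
  · apply extra_factor Q _ _ hE hdec hcomm'
    intro hle
    -- then `A` centralizes `Q`
    have h1 : ∀ a ∈ A, ∀ q ∈ Q, a * q * a⁻¹ = q := by
      intro a ha q hq
      -- the commutator is central
      have hm : ⁅q, a⁆ ∈ ⁅Q, A⁆ := Subgroup.commutator_mem_commutator hq ha
      obtain ⟨c, hc, hc2⟩ := hle hm
      have hc3 : ⁅q, a⁆ = 1 ∨ ⁅q, a⁆ = z := by
        rcases (hcenz c).1 hc with h | h
        · left; rw [← hc2, h]; rfl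
        · right; rw [← hc2, h]; rfl
      rcases hc3 with h | h
      · rw [commutatorElement_eq_one_iff_mul_comm] at h
        rw [← h]; group
      · -- contradiction by oddness
        exfalso
        have hq' : q * (a * q⁻¹ * a⁻¹) = z := by
          rw [← h, commutatorElement_def]; group
        have hk : ∀ k : ℕ, a ^ k * q⁻¹ * (a ^ k)⁻¹ = q⁻¹ * (z : G) ^ k := by
          intro k
          induction k with
          | zero => simp
          | succ k ih =>
            have h2 : a * q⁻¹ * a⁻¹ = q⁻¹ * z := by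
              rw [← hq']; group
            have h3 : a ^ (k + 1) * q⁻¹ * (a ^ (k + 1))⁻¹ = a * (a ^ k * q⁻¹ * (a ^ k)⁻¹) * a⁻¹ := by
              rw [pow_succ']; group
            rw [h3, ih]
            have h4 : a * (q⁻¹ * (z : G) ^ k) * a⁻¹ = (a * q⁻¹ * a⁻¹) * (a * (z : G) ^ k * a⁻¹) := by
              group
            have h5 : a * (z : G) ^ k * a⁻¹ = (z : G) ^ k := by
              have : (a * (z : G) * a⁻¹) ^ k = a * (z : G) ^ k * a⁻¹ := by
                exact conj_pow
              rw [← this, haz a ha]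
            rw [h4, h2, h5, pow_succ']
            group
        have hodd : Odd (orderOf a) := by
          have h6 : orderOf (⟨a, ha⟩ : A) ∣ Nat.card A := orderOf_dvd_natCard _
          have h7 : orderOf (⟨a, ha⟩ : A) = orderOf a := Subgroup.orderOf_mk a ha
          rw [h7] at h6
          exact Odd.of_dvd_nat hAodd h6
        have h8 := hk (orderOf a)
        rw [pow_orderOf_eq_one] at h8
        obtain ⟨m, hm⟩ := hodd
        have hz2' : (z : G) ^ 2 = 1 := by simpa using congrArg Subtype.val hz2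
        have h9 : (z : G) ^ (orderOf a) = z := by
          rw [hm, pow_succ, pow_mul, hz2', one_pow, one_mul]
        rw [h9] at h8
        apply hzG
        have h10 : q⁻¹ = q⁻¹ * (z : G) := by simpa using h8
        exact (mul_eq_left.1 h10.symm)
    have h2 : A ≤ Subgroup.centralizer (Q : Set G) := by
      intro a ha
      rw [Subgroup.mem_centralizer_iff]
      intro q hq
      have := h1 a ha q hq
      rw [mul_inv_eq_iff_eq_mul] at this
      exact this.symm
    rw [hcen] at h2
    -- `A` is a 2-group of odd order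
    apply hA1
    rw [eq_bot_iff]
    intro a ha
    obtain ⟨c, hc, hc2⟩ := h2 ha
    have hz3 : a = 1 ∨ a = z := by
      rcases (hcenz c).1 hc with h | h
      · left; rw [← hc2, h]; rfl
      · right; rw [← hc2, h]; rfl
    rcases hz3 with h | h
    · rw [h]; exact Subgroup.one_mem _
    · exfalso
      have hzA : (z : G) ∈ A := h ▸ ha
      have h6 : orderOf (⟨z, hzA⟩ : A) ∣ Nat.card A := orderOf_dvd_natCard _
      have h7 : orderOf (⟨z, hzA⟩ : A) = orderOf (z : G) := Subgroup.orderOf_mk _ hzA
      have h8 : orderOf (z : G) = 2 := by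
        apply orderOf_eq_prime
        · simpa using congrArg Subtype.val hz2
        · exact hzG
      rw [h7, h8] at h6
      obtain ⟨m, hm⟩ := hAodd
      omega
  · by_cases hle : Q ⊓ Subgroup.centralizer (A : Set G) ≤ (Subgroup.center Q).map Q.subtype
    · left
      apply le_antisymm hle
      rintro _ ⟨c, hc, rfl⟩
      refine ⟨c.2, ?_⟩
      show (c : G) ∈ Subgroup.centralizer (A : Set G)
      rw [Subgroup.mem_centralizer_iff]
      intro a ha
      rcases (hcenz c).1 hc with h | h
      · rw [h]; simp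
      · rw [h]
        have := haz a ha
        rw [mul_inv_eq_iff_eq_mul] at this
        exact this
    · right
      exact extra_factor Q _ _ hE hdec' hcomm hle

end Cfsg.Agent.S5434
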