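import Cfsg.Statements.S5435
import Mathlib
import Cfsg.Agent.Lib.H01.Basic
import Cfsg.Agent.Lib.H05.Transfer

set_option autoImplicit false
set_option linter.unusedSimpArgs false
set_option linter.unusedVariables false
set_option linter.style.haveILetI false
open Cfsg

namespace Cfsg.Agent.S5435

variable {L : Type*} [Group L]

/-- centralizer of an element -/
abbrev Cen (t : L) : Subgroup L := Subgroup.centralizer ({t} : Set L)

theorem mem_Cen {t x : L} : x ∈ Cen t ↔ x * t = t * x := by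
  rw [Subgroup.mem_centralizer_singleton_iff]

theorem conj_mem_Cen {t x : L} (g : L) (hx : x ∈ Cen t) : g * x * g⁻¹ ∈ Cen (g * t * g⁻¹) := by
  rw [mem_Cen] at hx ⊢
  calc g * x * g⁻¹ * (g * t * g⁻¹) = g * (x * t) * g⁻¹ := by group
    _ = g * (t * x) * g⁻¹ := by rw [hx]
    _ = _ := by group

theorem mem_Cen_comm {t x : L} : x ∈ Cen t ↔ t ∈ Cen x := by
  rw [mem_Cen, mem_Cen]; exact eq_comm

/-- The hypotheses, stable under conjugation. -/
structure Hyp (z : L) : Prop where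
  inv : z * z = 1
  ne : z ≠ 1
  sylow : ∃ S : Sylow 2 L, (S : Subgroup L) = Cen z
  sq : ∀ x, x ∈ Cen z → x * x = 1 ∨ x * x = z
  cm : ∀ x y, x ∈ Cen z → y ∈ Cen z → x * y * x⁻¹ * y⁻¹ = 1 ∨ x * y * x⁻¹ * y⁻¹ = z
  nrm : ∀ g, (∀ y ∈ Cen z, g * y * g⁻¹ ∈ Cen z) → g ∈ Cen z

theorem conj_inv_mem {z : L} (g x : L) (hx : x ∈ Cen (g * z * g⁻¹)) : g⁻¹ * x * g ∈ Cen z := by
  have := conj_mem_Cen g⁻¹ hx
  have h2 : g⁻¹ * (g * z * g⁻¹) * g⁻¹⁻¹ = z := by group
  rw [h2] at this
  simpa using this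

theorem Hyp.conj {z : L} (h : Hyp z) (g : L) : Hyp (g * z * g⁻¹) := by
  refine ⟨?_, ?_, ?_, ?_, ?_, ?_⟩
  · calc g * z * g⁻¹ * (g * z * g⁻¹) = g * (z * z) * g⁻¹ := by group
      _ = 1 := by rw [h.inv]; group
  · intro h1
    rw [conj_eq_one_iff] at h1
    exact h.ne h1
  · obtain ⟨S, hS⟩ := h.sylow
    refine ⟨g • S, ?_⟩
    ext x
    have e0 : (MulAut.conj g)⁻¹ • x = g⁻¹ * x * g := by
      simp [MulAut.smul_def, MulAut.conj_inv_apply]
    rw [Sylow.coe_subgroup_smul, Subgroup.mem_pointwise_smul_iff_inv_smul_mem, hS, e0]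
    constructor
    · intro hx
      have := conj_mem_Cen g hx
      have e : g * (g⁻¹ * x * g) * g⁻¹ = x := by group
      rwa [e] at this
    · intro hx
      exact conj_inv_mem g x hx
  · intro x hx
    have h1 := conj_inv_mem g x hx
    rcases h.sq _ h1 with h2 | h2
    · left
      have : g⁻¹ * (x * x) * g = 1 := by
        calc g⁻¹ * (x * x) * g = (g⁻¹ * x * g) * (g⁻¹ * x * g) := by group
          _ = 1 := h2
      have h3 := congrArg (fun w => g * w * g⁻¹) this
      simpa [mul_assoc] using h3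
    · right
      have : g⁻¹ * (x * x) * g = z := by
        calc g⁻¹ * (x * x) * g = (g⁻¹ * x * g) * (g⁻¹ * x * g) := by group
          _ = z := h2
      rw [← this]; group
  · intro x y hx hy
    have h1 := conj_inv_mem g x hx
    have h1' := conj_inv_mem g y hy
    have key : (g⁻¹ * x * g) * (g⁻¹ * y * g) * (g⁻¹ * x * g)⁻¹ * (g⁻¹ * y * g)⁻¹
        = g⁻¹ * (x * y * x⁻¹ * y⁻¹) * g := by group
    rcases h.cm _ _ h1 h1' with h2 | h2
    · left
      rw [key] at h2
      have h3 := congrArg (fun w => g * w * g⁻¹) h2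
      simpa [mul_assoc] using h3
    · right
      rw [key] at h2
      rw [← h2]; group
  · intro a ha
    have h1 : g⁻¹ * a * g ∈ Cen z := by
      apply h.nrm
      intro y hy
      have h2 := conj_mem_Cen g hy
      have h3 := ha _ h2
      have h4 := conj_inv_mem g _ h3
      have e : g⁻¹ * (a * (g * y * g⁻¹) * a⁻¹) * g = g⁻¹ * a * g * y * (g⁻¹ * a * g)⁻¹ := by group
      rw [e] at h4
      exact h4
    have h2 := conj_mem_Cen g h1
    have e : g * (g⁻¹ * a * g) * g⁻¹ = a := by group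
    rw [e] at h2
    exact h2

theorem Hyp.of_isConj {z t : L} (h : Hyp z) (ht : IsConj z t) : Hyp t := by
  obtain ⟨g, rfl⟩ := isConj_iff.1 ht
  exact h.conj g

theorem Hyp.isP {z : L} (h : Hyp z) : IsPGroup 2 ↥(Cen z) := by
  obtain ⟨S, hS⟩ := h.sylow
  rw [← hS]
  exact S.isPGroup'

section sylow

variable [Finite L]

/-- Maximality. -/
theorem Hyp.eq_of_le {z t : L} (h : Hyp z) (ht : Hyp t) (hle : Cen z ≤ Cen t) : Cen t = Cen z := by
  obtain ⟨S, hS⟩ := h.sylow
  have := S.is_maximal' (Q := Cen t) ht.isP (by rw [hS]; exact hle)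
  rw [this, hS]

/-- Uniqueness of the involution. -/
theorem Hyp.eq_of_Cen_le {z t : L} (h : Hyp z) (ht : IsConj z t) (hle : Cen z ≤ Cen t) : t = z := by
  have htH := h.of_isConj ht
  have heq := h.eq_of_le htH hle
  obtain ⟨g, rfl⟩ := isConj_iff.1 ht
  have hg : g ∈ Cen z := by
    apply h.nrm
    intro y hy
    have := conj_mem_Cen g hy
    rw [heq] at this
    exact this
  rw [mem_Cen] at hg
  rw [hg]
  group

/-- Sylow covering. -/
theorem Hyp.exists_le {z : L} (h : Hyp z) (Q : Subgroup L) (hQ : IsPGroup 2 Q) :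
    ∃ a : L, Q ≤ Cen (a * z * a⁻¹) := by
  obtain ⟨S, hS⟩ := h.sylow
  obtain ⟨T, hT⟩ := hQ.exists_le_sylow
  obtain ⟨a, ha⟩ := MulAction.exists_smul_eq L S T
  refine ⟨a, fun x hx => ?_⟩
  have h1 : x ∈ (T : Subgroup L) := hT hx
  have e0 : (MulAut.conj a)⁻¹ • x = a⁻¹ * x * a := by
    simp [MulAut.smul_def, MulAut.conj_inv_apply]
  rw [← ha, Sylow.coe_subgroup_smul, Subgroup.mem_pointwise_smul_iff_inv_smul_mem, hS, e0] at h1
  have h2 := conj_mem_Cen a h1
  have e : a * (a⁻¹ * x * a) * a⁻¹ = x := by group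
  rwa [e] at h2

omit [Finite L] in
/-- Conjugation inside a subgroup, for an arbitrary Sylow of the subgroup. -/
theorem exists_conj_into [Finite L] (K : Subgroup L) (S' : Sylow 2 K) (Q : Subgroup L)
    (hQ : IsPGroup 2 Q) (hQK : Q ≤ K) :
    ∃ k : K, ∀ x (hx : x ∈ K), x ∈ Q → k⁻¹ * (⟨x, hx⟩ : K) * k ∈ (S' : Subgroup K) := by
  have hQ' : IsPGroup 2 ↥(Q.subgroupOf K) := hQ.comap_of_injective K.subtype K.subtype_injective
  obtain ⟨T, hT⟩ := hQ'.exists_le_sylow
  obtain ⟨k, hk⟩ := MulAction.exists_smul_eq K T S'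
  refine ⟨k⁻¹, fun x hx hxQ => ?_⟩
  have h1 : (⟨x, hx⟩ : K) ∈ (T : Subgroup K) := hT hxQ
  have e0 : (MulAut.conj k)⁻¹ • (k⁻¹⁻¹ * (⟨x, hx⟩ : K) * k⁻¹) = (⟨x, hx⟩ : K) := by
    simp [MulAut.smul_def, MulAut.conj_inv_apply, mul_assoc]
  rw [← hk, Sylow.coe_subgroup_smul, Subgroup.mem_pointwise_smul_iff_inv_smul_mem, e0]
  exact h1

/-- L11 -/
theorem Hyp.exists_conj_cover {t₀ : L} (h : Hyp t₀) (K : Subgroup L) (h₀ : Cen t₀ ≤ K)
    (Q : Subgroup L) (hQ : IsPGroup 2 Q) (hQK : Q ≤ K) :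
    ∃ k ∈ K, Q ≤ Cen (k * t₀ * k⁻¹) := by
  obtain ⟨S, hS⟩ := h.sylow
  have hS' : (S : Subgroup L) ≤ K := by rw [hS]; exact h₀
  obtain ⟨k, hk⟩ := exists_conj_into K (S.subtype hS') Q hQ hQK
  refine ⟨k, k.2, fun x hx => ?_⟩
  have h1 := hk x (hQK hx) hx
  rw [Sylow.coe_subtype, Subgroup.mem_subgroupOf, hS] at h1
  have h2 := conj_mem_Cen (k : L) h1
  have e : (k : L) * ((k⁻¹ * ⟨x, hQK hx⟩ * k : K) : L) * (k : L)⁻¹ = x := by
    simp [mul_assoc]
  rw [e] at h2
  exact h2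

end sylow

theorem mem_Cen_of_conj {t g : L} (h : g * t * g⁻¹ = t) : g ∈ Cen t := by
  rw [mem_Cen]
  exact mul_inv_eq_iff_eq_mul.1 h

theorem conj_of_mem_Cen {t g : L} (h : g ∈ Cen t) : g * t * g⁻¹ = t := by
  rw [mem_Cen] at h
  rw [h]; group

theorem Hyp.transv {t₁ t₂ r : L} (h : Hyp t₁) (ht₂ : t₂ ∈ Cen t₁) (hr : r ∈ Cen t₁) :
    r * t₂ * r⁻¹ = t₂ ∨ r * t₂ * r⁻¹ = t₁ * t₂ := by
  rcases h.cm r t₂ hr ht₂ with h1 | h1
  · left;  exact mul_inv_eq_one.1 h1
  · right; exact mul_inv_eq_iff_eq_mul.1 h1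

theorem Hyp.transv' {t₁ t₂ r : L} (h : Hyp t₁) (ht₂ : t₂ ∈ Cen t₁) (hr : r ∈ Cen t₁)
    (hr2 : r ∉ Cen t₂) : r * t₂ * r⁻¹ = t₁ * t₂ := by
  rcases h.transv ht₂ hr with h1 | h1
  · exact absurd (mem_Cen_of_conj h1) hr2
  · exact h1

theorem exp2 {t₁ t₂ x : L} (h₁ : Hyp t₁) (h₂ : Hyp t₂) (hne : t₁ ≠ t₂) (hx₁ : x ∈ Cen t₁)
    (hx₂ : x ∈ Cen t₂) : x * x = 1 := by
  rcases h₁.sq x hx₁ with h | h
  · exact h
  rcases h₂.sq x hx₂ with h' | h'
  · exact h'
  · exact absurd (h.symm.trans h') hne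

theorem abel {t₁ t₂ x y : L} (h₁ : Hyp t₁) (h₂ : Hyp t₂) (hne : t₁ ≠ t₂) (hx₁ : x ∈ Cen t₁)
    (hx₂ : x ∈ Cen t₂) (hy₁ : y ∈ Cen t₁) (hy₂ : y ∈ Cen t₂) : x * y = y * x := by
  have h0 : x * y * x⁻¹ * y⁻¹ = 1 := by
    rcases h₁.cm x y hx₁ hy₁ with h | h
    · exact h
    rcases h₂.cm x y hx₂ hy₂ with h' | h'
    · exact h'
    · exact absurd (h.symm.trans h') hne
  have h2 : x * y * x⁻¹ = y := mul_inv_eq_one.1 h0
  exact mul_inv_eq_iff_eq_mul.1 h2

/-- L24 -/
theorem coset {t₁ t₂ r s : L} (h₁ : Hyp t₁) (ht₂ : t₂ ∈ Cen t₁) (hr : r ∈ Cen t₁)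
    (hr2 : r ∉ Cen t₂) (hs : s ∈ Cen t₁) : s ∈ Cen t₂ ∨ r⁻¹ * s ∈ Cen t₂ := by
  rcases h₁.transv ht₂ hs with h | h
  · left; exact mem_Cen_of_conj h
  · right
    apply mem_Cen_of_conj
    have h3 := h₁.transv' ht₂ hr hr2
    calc r⁻¹ * s * t₂ * (r⁻¹ * s)⁻¹ = r⁻¹ * (s * t₂ * s⁻¹) * r := by group
      _ = r⁻¹ * (r * t₂ * r⁻¹) * r := by rw [h, h3]
      _ = t₂ := by group

/-- L25 -/
theorem central_ext {t₁ t₂ r x s : L} (h₁ : Hyp t₁) (h₂ : Hyp t₂) (hne : t₁ ≠ t₂)
    (ht₂ : t₂ ∈ Cen t₁) (hr : r ∈ Cen t₁) (hr2 : r ∉ Cen t₂) (hx₁ : x ∈ Cen t₁) (hx₂ : x ∈ Cen t₂)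
    (hxr : x * r = r * x) (hs : s ∈ Cen t₁) : s * x = x * s := by
  rcases coset h₁ ht₂ hr hr2 hs with h | h
  · exact abel h₁ h₂ hne hs h hx₁ hx₂
  · have hm : r⁻¹ * s ∈ Cen t₁ := (Cen t₁).mul_mem ((Cen t₁).inv_mem hr) hs
    have h3 := abel h₁ h₂ hne hm h hx₁ hx₂
    calc s * x = r * (r⁻¹ * s * x) := by group
      _ = r * (x * (r⁻¹ * s)) := by rw [h3]
      _ = (r * x) * (r⁻¹ * s) := by group
      _ = (x * r) * (r⁻¹ * s) := by rw [hxr]
      _ = x * s := by group

section fin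

variable [Finite L]

/-- L20 -/
theorem Hyp.exists_not_mem {z t : L} (h : Hyp z) (ht : IsConj z t) (hne : t ≠ z) :
    ∃ r, r ∈ Cen z ∧ r ∉ Cen t := by
  by_contra hcon
  push_neg at hcon
  exact hne (h.eq_of_Cen_le ht hcon)

/-- L26 -/
theorem not_mem_of {z t t' r : L} (h : Hyp z) (ht : IsConj z t) (ht' : IsConj z t')
    (htz : t ∈ Cen z) (ht'z : t' ∈ Cen z) (ht't : t' ∈ Cen t) (hne : t ≠ z) (hne' : t' ≠ z)
    (hr : r ∈ Cen z) (hr2 : r ∉ Cen t) : r ∉ Cen t' := by
  intro hr'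
  apply hne'
  apply h.eq_of_Cen_le ht'
  intro y hy
  have ht₁ := h.of_isConj ht
  rw [mem_Cen] at hr'
  rw [mem_Cen]
  rcases coset h htz hr hr2 hy with h1 | h1
  · exact abel h ht₁ hne.symm hy h1 ht'z ht't
  · have hm : r⁻¹ * y ∈ Cen z := (Cen z).mul_mem ((Cen z).inv_mem hr) hy
    have h3 := abel h ht₁ hne.symm hm h1 ht'z ht't
    calc y * t' = r * (r⁻¹ * y * t') := by group
      _ = r * (t' * (r⁻¹ * y)) := by rw [h3]
      _ = (r * t') * (r⁻¹ * y) := by group
      _ = (t' * r) * (r⁻¹ * y) := by rw [hr']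
      _ = t' * y := by group

/-- L27 -/
theorem triple {z t₁ t₂ : L} (h : Hyp z) (ht₁ : IsConj z t₁) (ht₂ : IsConj z t₂)
    (ht₁z : t₁ ∈ Cen z) (ht₂z : t₂ ∈ Cen z) (h₁₂ : t₂ ∈ Cen t₁) (hne₁ : t₁ ≠ z) (hne₂ : t₂ ≠ z)
    (hne : t₁ ≠ t₂) : t₁ * t₂ = z := by
  by_contra hcon
  have hH₁ := h.of_isConj ht₁
  obtain ⟨r, hr, hr2⟩ := h.exists_not_mem ht₁ hne₁
  obtain ⟨s, hs, hs2⟩ := hH₁.exists_not_mem (ht₁.symm.trans ht₂) (Ne.symm hne)
  have h3 := hH₁.transv' h₁₂ hs hs2
  have hconj : IsConj z (t₁ * t₂) := by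
    refine ht₂.trans ?_
    rw [isConj_iff]
    exact ⟨s, h3⟩
  have ht₃z : t₁ * t₂ ∈ Cen z := (Cen z).mul_mem ht₁z ht₂z
  have ht₃₁ : t₁ * t₂ ∈ Cen t₁ := by
    exact (Cen t₁).mul_mem (mem_Cen.2 rfl) h₁₂
  have hr₃ := not_mem_of h ht₁ hconj ht₁z ht₃z ht₃₁ hne₁ hcon hr hr2
  have hr₂ := not_mem_of h ht₁ ht₂ ht₁z ht₂z h₁₂ hne₁ hne₂ hr hr2
  apply hr₃
  apply mem_Cen_of_conj
  have e1 := h.transv' ht₁z hr hr2
  have e2 := h.transv' ht₂z hr hr₂
  have hc : t₁ * z = z * t₁ := mem_Cen.1 ht₁z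
  calc r * (t₁ * t₂) * r⁻¹ = (r * t₁ * r⁻¹) * (r * t₂ * r⁻¹) := by group
    _ = (z * t₁) * (z * t₂) := by rw [e1, e2]
    _ = (t₁ * z) * (z * t₂) := by rw [hc]
    _ = t₁ * (z * z) * t₂ := by group
    _ = t₁ * t₂ := by rw [h.inv]; group

/-- central in `C(z)` -/
def Zc (z u : L) : Prop := ∀ s ∈ Cen z, s * u = u * s

/-- L28 -/
theorem Hyp.burnside {z u a : L} (h : Hyp z) (hu : Zc z u) (hy : Zc z (a * u * a⁻¹)) :
    a * u * a⁻¹ = u := by
  set y := a * u * a⁻¹ with hyd
  have h₀ : Cen (a * z * a⁻¹) ≤ Cen y := by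
    intro s hs
    have h1 := conj_inv_mem a s hs
    have h2 := hu _ h1
    rw [mem_Cen, hyd]
    calc s * (a * u * a⁻¹) = a * ((a⁻¹ * s * a) * u) * a⁻¹ := by group
      _ = a * (u * (a⁻¹ * s * a)) * a⁻¹ := by rw [h2]
      _ = _ := by group
  have hQ : Cen z ≤ Cen y := fun s hs => mem_Cen.2 (hy s hs)
  obtain ⟨k, hk, hle⟩ := (h.conj a).exists_conj_cover (Cen y) h₀ (Cen z) h.isP hQ
  have hIC : IsConj z (k * (a * z * a⁻¹) * k⁻¹) := by
    refine IsConj.trans ?_ (isConj_iff.2 ⟨k, rfl⟩)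
    exact isConj_iff.2 ⟨a, rfl⟩
  have he := h.eq_of_Cen_le hIC hle
  have hb : k * a ∈ Cen z := by
    apply mem_Cen_of_conj
    calc k * a * z * (k * a)⁻¹ = k * (a * z * a⁻¹) * k⁻¹ := by group
      _ = z := he
  have h3 := hu _ hb
  have h4 : k * y * k⁻¹ = y := conj_of_mem_Cen hk
  calc y = k * y * k⁻¹ := h4.symm
    _ = (k * a) * u * (k * a)⁻¹ := by rw [hyd]; group
    _ = u := by
      rw [h3]; group

/-- L29 -/
theorem Hyp.fus {z u h : L} (hz : Hyp z) (huz : u ∈ Cen z) (hu : Zc z u)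
    (hy : h * u * h⁻¹ ∈ Cen z) :
    h * u * h⁻¹ = u ∨ ∃ t₁, IsConj z t₁ ∧ t₁ ∈ Cen z ∧ h * u * h⁻¹ = t₁ * z * u := by
  set y := h * u * h⁻¹ with hyd
  have h₀ : Cen (h * z * h⁻¹) ≤ Cen y := by
    intro s hs
    have h1 := conj_inv_mem h s hs
    have h2 := hu _ h1
    rw [mem_Cen, hyd]
    calc s * (h * u * h⁻¹) = h * ((h⁻¹ * s * h) * u) * h⁻¹ := by group
      _ = h * (u * (h⁻¹ * s * h)) * h⁻¹ := by rw [h2]
      _ = _ := by group
  have hQ : IsPGroup 2 ↥(Cen z ⊓ Cen y) := hz.isP.to_le inf_le_left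
  obtain ⟨k, hk, hle⟩ := (hz.conj h).exists_conj_cover (Cen y) h₀ _ hQ inf_le_right
  set a := k * h with ha
  have e₁ : k * (h * z * h⁻¹) * k⁻¹ = a * z * a⁻¹ := by rw [ha]; group
  rw [e₁] at hle
  set t₁ := a * z * a⁻¹ with ht₁
  have hay : a * u * a⁻¹ = y := by
    have h4 : k * y * k⁻¹ = y := conj_of_mem_Cen hk
    calc a * u * a⁻¹ = k * (h * u * h⁻¹) * k⁻¹ := by rw [ha]; group
      _ = y := h4
  have hzQ : z ∈ Cen z ⊓ Cen y := ⟨mem_Cen.2 rfl, mem_Cen_comm.1 hy⟩
  have hz₁ : z ∈ Cen t₁ := hle hzQ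
  have ht₁z : t₁ ∈ Cen z := mem_Cen_comm.1 hz₁
  have hIC : IsConj z t₁ := isConj_iff.2 ⟨a, rfl⟩
  by_cases ht₁e : t₁ = z
  · left
    have haz : a ∈ Cen z := mem_Cen_of_conj ht₁e
    rw [← hay, hu _ haz]; group
  have hH₁ : Hyp t₁ := hz.conj a
  obtain ⟨r', hr', hr'2⟩ := hH₁.exists_not_mem hIC.symm (Ne.symm ht₁e)
  have hut₁ : u ∈ Cen t₁ := mem_Cen_comm.1 (show t₁ ∈ Cen u from mem_Cen.2 (hu _ ht₁z))
  have hne : t₁ ≠ z := ht₁e
  -- conjugating central elements of `C(t₁)` back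
  have hback : ∀ x, (∀ s ∈ Cen t₁, s * x = x * s) → Zc z x → a * x * a⁻¹ = x := by
    intro x hx hxz
    have hb : a⁻¹ * x * a⁻¹⁻¹ = x := by
      apply hz.burnside hxz
      intro s hs
      have h5 := hx _ (conj_mem_Cen a hs)
      calc s * (a⁻¹ * x * a⁻¹⁻¹) = a⁻¹ * ((a * s * a⁻¹) * x) * a := by group
        _ = a⁻¹ * (x * (a * s * a⁻¹)) * a := by rw [h5]
        _ = _ := by group
    calc a * x * a⁻¹ = a * (a⁻¹ * x * a⁻¹⁻¹) * a⁻¹ := by rw [hb]
      _ = x := by group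
  rcases hH₁.cm r' u hr' hut₁ with hc | hc
  · left
    have hc' : r' * u * r'⁻¹ = u := mul_inv_eq_one.1 hc
    have hc2 : u * r' = r' * u := (mul_inv_eq_iff_eq_mul.1 hc').symm
    have hcentral : ∀ s ∈ Cen t₁, s * u = u * s := fun s hs =>
      central_ext hH₁ hz hne hz₁ hr' hr'2 hut₁ huz hc2 hs
    rw [← hay]
    exact hback u hcentral hu
  · right
    refine ⟨t₁, hIC, ht₁z, ?_⟩
    have hc' : r' * u * r'⁻¹ = t₁ * u := mul_inv_eq_iff_eq_mul.1 hc
    have hzr := hH₁.transv' hz₁ hr' hr'2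
    have hx₁ : z * u ∈ Cen t₁ := (Cen t₁).mul_mem hz₁ hut₁
    have hx₂ : z * u ∈ Cen z := (Cen z).mul_mem (mem_Cen.2 rfl) huz
    have ht₁z' : t₁ * z = z * t₁ := mem_Cen.1 ht₁z
    have hxr : r' * (z * u) * r'⁻¹ = z * u := by
      calc r' * (z * u) * r'⁻¹ = (r' * z * r'⁻¹) * (r' * u * r'⁻¹) := by group
        _ = (t₁ * z) * (t₁ * u) := by rw [hzr, hc']
        _ = (z * t₁) * (t₁ * u) := by rw [ht₁z']
        _ = z * (t₁ * t₁) * u := by group
        _ = z * u := by rw [hH₁.inv]; group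
    have hc2 : (z * u) * r' = r' * (z * u) := (mul_inv_eq_iff_eq_mul.1 hxr).symm
    have hcentral : ∀ s ∈ Cen t₁, s * (z * u) = (z * u) * s := fun s hs =>
      central_ext hH₁ hz hne hz₁ hr' hr'2 hx₁ hx₂ hc2 hs
    have hxz : Zc z (z * u) := by
      intro s hs
      have h6 : s * z = z * s := mem_Cen.1 hs
      calc s * (z * u) = (s * z) * u := by group
        _ = z * (s * u) := by rw [h6]; group
        _ = z * (u * s) := by rw [hu s hs]
        _ = _ := by group
    have h7 := hback _ hcentral hxz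
    have h8 : t₁ * y = z * u := by
      rw [← h7, ← hay, ht₁]; group
    calc y = t₁⁻¹ * (t₁ * y) := by group
      _ = t₁⁻¹ * (z * u) := by rw [h8]
      _ = t₁ * (z * u) := by
        rw [inv_eq_of_mul_eq_one_left hH₁.inv]
      _ = _ := by group

/-- a nontrivial hom to an abelian group is impossible -/
theorem no_hom [IsSimpleGroup L] (hL : ¬ IsMulCommutative L) {A : Type*} [CommGroup A] (f : L →* A)
    (x : L) (hx : f x ≠ 1) : False := by
  rcases IsSimpleGroup.eq_bot_or_eq_top_of_normal f.ker inferInstance with h | h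
  · have hinj := (MonoidHom.ker_eq_bot_iff f).1 h
    apply hL
    refine ⟨⟨fun a b => ?_⟩⟩
    apply hinj
    rw [map_mul, map_mul, mul_comm]
  · apply hx
    have : x ∈ f.ker := by rw [h]; trivial
    exact this

theorem Hyp.index_odd {z : L} (h : Hyp z) : Odd (Cen z).index := by
  haveI : Fact (Nat.Prime 2) := ⟨Nat.prime_two⟩
  obtain ⟨S, hS⟩ := h.sylow
  have := S.not_dvd_index
  rw [hS] at this
  exact Nat.odd_iff.2 (by omega)

/-- The general transfer contradiction. -/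
theorem transfer_contra [IsSimpleGroup L] (hL : ¬ IsMulCommutative L) (H : Subgroup L)
    [H.FiniteIndex] (N : Subgroup H) [N.Normal]
    (hc : ∀ a b : H, a * b * a⁻¹ * b⁻¹ ∈ N) (u : H) (huN : u ∉ N) (hu2 : u * u ∈ N)
    (hodd : Odd H.index)
    (key : ∀ (k : ℕ) (g₀ : L) (hk : g₀⁻¹ * (u : L) ^ k * g₀ ∈ H), (⟨_, hk⟩ : H) * (u ^ k)⁻¹ ∈ N) :
    False := by
  letI inst : CommGroup (H ⧸ N) :=
    { (QuotientGroup.Quotient.group N : Group (H ⧸ N)) with
      mul_comm := by
        intro a b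
        induction a using QuotientGroup.induction_on with
        | H a =>
        induction b using QuotientGroup.induction_on with
        | H b =>
        rw [← QuotientGroup.mk_mul, ← QuotientGroup.mk_mul, QuotientGroup.eq]
        have e2 : (a * b)⁻¹ * (b * a) = b⁻¹ * a⁻¹ * b⁻¹⁻¹ * a⁻¹⁻¹ := by group
        rw [e2]
        exact hc b⁻¹ a⁻¹ }
  let ϕ : H →* H ⧸ N := QuotientGroup.mk' N
  have hϕ : ∀ x : H, ϕ x = 1 ↔ x ∈ N := fun x => QuotientGroup.eq_one_iff x
  have key' : ∀ (k : ℕ) (g₀ : L) (hk : g₀⁻¹ * (u : L) ^ k * g₀ ∈ H), ϕ ⟨_, hk⟩ = ϕ u ^ k := by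
    intro k g₀ hk
    have h1 := (hϕ _).2 (key k g₀ hk)
    rw [map_mul, map_inv, map_pow, mul_inv_eq_one] at h1
    exact h1
  have hV := Cfsg.Agent.H05.transfer_apply_eq_pow ϕ u key'
  have h2 : ϕ u * ϕ u = 1 := by
    rw [← map_mul]; exact (hϕ _).2 hu2
  apply no_hom hL (MonoidHom.transfer ϕ) (u : L)
  rw [hV]
  obtain ⟨m, hm⟩ := hodd
  rw [hm, pow_succ, pow_mul, pow_two, h2, one_pow, one_mul]
  intro h3
  exact huN ((hϕ _).1 h3)

/-- L30 -/
theorem Hyp.mem_W [IsSimpleGroup L] (hL : ¬ IsMulCommutative L) {z : L} (hz : Hyp z)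
    (W : Subgroup L) (hzW : z ∈ W) (hΩ : ∀ t, IsConj z t → t ∈ Cen z → t ∈ W)
    (u : L) (huz : u ∈ Cen z) (hu : Zc z u) : u ∈ W := by
  classical
  by_contra huW
  set WR : Subgroup ↥(Cen z) := W.subgroupOf (Cen z) with hWR
  have hcW : ∀ a b : ↥(Cen z), a * b * a⁻¹ * b⁻¹ ∈ WR := by
    intro a b
    rw [hWR, Subgroup.mem_subgroupOf]
    have e : ((a * b * a⁻¹ * b⁻¹ : ↥(Cen z)) : L) = (a : L) * b * (a : L)⁻¹ * (b : L)⁻¹ := by simp
    rw [e]
    rcases hz.cm a b a.2 b.2 with h1 | h1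
    · rw [h1]; exact W.one_mem
    · rw [h1]; exact hzW
  have hnorm : WR.Normal := by
    refine ⟨fun x hx g => ?_⟩
    have e : g * x * g⁻¹ = (g * x * g⁻¹ * x⁻¹) * x := by group
    rw [e]
    exact WR.mul_mem (hcW g x) hx
  haveI := hnorm
  haveI : (Cen z).FiniteIndex := Subgroup.finiteIndex_of_finite
  have hpow : ∀ k : ℕ, (u ^ k ∈ Cen z) ∧ Zc z (u ^ k) := by
    intro k
    refine ⟨(Cen z).pow_mem huz k, fun s hs => ?_⟩
    exact (Commute.pow_right (hu s hs) k)
  refine transfer_contra hL (Cen z) WR hcW ⟨u, huz⟩ ?_ ?_ hz.index_odd ?_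
  · intro h
    exact huW (Subgroup.mem_subgroupOf.1 h)
  · rw [hWR, Subgroup.mem_subgroupOf]
    show u * u ∈ W
    rcases hz.sq u huz with h1 | h1
    · rw [h1]; exact W.one_mem
    · rw [h1]; exact hzW
  · intro k g₀ hk
    rw [hWR, Subgroup.mem_subgroupOf]
    have hk' : g₀⁻¹ * u ^ k * g₀ ∈ Cen z := hk
    have e : ((⟨_, hk⟩ * ((⟨u, huz⟩ : ↥(Cen z)) ^ k)⁻¹ : ↥(Cen z)) : L) =
        (g₀⁻¹ * u ^ k * g₀) * (u ^ k)⁻¹ := by
      simp
    rw [e]
    have hk'' : g₀⁻¹ * u ^ k * g₀⁻¹⁻¹ ∈ Cen z := by simpa using hk'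
    rcases hz.fus (hpow k).1 (hpow k).2 hk'' with h1 | ⟨t₁, hIC, ht₁, h1⟩
    · have : g₀⁻¹ * u ^ k * g₀ = u ^ k := by simpa using h1
      rw [this, mul_inv_cancel]; exact W.one_mem
    · have : g₀⁻¹ * u ^ k * g₀ = t₁ * z * u ^ k := by simpa using h1
      rw [this, mul_inv_cancel_right]
      exact W.mul_mem (hΩ _ hIC ht₁) hzW

/-- Element-level fusion control in the isolated case. -/
theorem Hyp.fusion {z : L} (hz : Hyp z) (hiso : ∀ t, IsConj z t → t ∈ Cen z → t = z)
    (x : L) (hx : x ∈ Cen z) :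
    ∃ y ∈ Cen z, ∀ w ∈ Cen z, IsConj x w → ∃ r ∈ Cen z, r * w * r⁻¹ = y := by
  classical
  haveI : Nonempty {y : L // y ∈ Cen z ∧ IsConj x y} := ⟨⟨x, hx, IsConj.refl x⟩⟩
  obtain ⟨⟨y, hyz, hxy⟩, hmax⟩ := Finite.exists_max
    (fun y : {y : L // y ∈ Cen z ∧ IsConj x y} => Nat.card ↥(Cen z ⊓ Cen (y : L)))
  refine ⟨y, hyz, fun w hw hxw => ?_⟩
  set K := Cen y with hK
  set Q := Cen z ⊓ Cen y with hQd
  have hQ : IsPGroup 2 ↥Q := hz.isP.to_le inf_le_left
  have hQ' : IsPGroup 2 ↥(Q.subgroupOf K) := hQ.comap_of_injective K.subtype K.subtype_injective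
  obtain ⟨S', hS'⟩ := hQ'.exists_le_sylow
  set S₀ : Subgroup L := (S' : Subgroup K).map K.subtype with hS₀
  have hS₀p : IsPGroup 2 ↥S₀ := S'.isPGroup'.map K.subtype
  have hQS₀ : Q ≤ S₀ := by
    intro s hs
    exact ⟨⟨s, hs.2⟩, hS' hs, rfl⟩
  have hS₀K : S₀ ≤ K := Subgroup.map_subtype_le _
  obtain ⟨a, ha⟩ := hz.exists_le S₀ hS₀p
  have hyy : y ∈ Cen y := mem_Cen.2 rfl
  have hyS₀ : y ∈ S₀ := hQS₀ ⟨hyz, hyy⟩
  have hy' : a⁻¹ * y * a ∈ Cen z := conj_inv_mem a y (ha hyS₀)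
  have hxy' : IsConj x (a⁻¹ * y * a) := by
    refine hxy.trans (isConj_iff.2 ⟨a⁻¹, ?_⟩)
    group
  have hcard : Nat.card ↥S₀ ≤ Nat.card ↥Q := by
    have h1 := hmax ⟨a⁻¹ * y * a, hy', hxy'⟩
    refine le_trans ?_ h1
    refine Nat.card_le_card_of_injective
      (fun s : ↥S₀ => (⟨a⁻¹ * (s : L) * a, conj_inv_mem a _ (ha s.2), ?_⟩ :
        ↥(Cen z ⊓ Cen (a⁻¹ * y * a)))) ?_
    · have h2 := conj_mem_Cen a⁻¹ (hS₀K s.2)
      simpa using h2
    · intro s₁ s₂ hs
      have h3 : a⁻¹ * (s₁ : L) * a = a⁻¹ * (s₂ : L) * a := congrArg Subtype.val hs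
      apply Subtype.ext
      have h4 := congrArg (fun w => a * w * a⁻¹) h3
      simpa [mul_assoc] using h4
  have hQeq : Q = S₀ := Subgroup.eq_of_le_of_card_ge hQS₀ hcard
  obtain ⟨g, hg⟩ : ∃ g, g * w * g⁻¹ = y := isConj_iff.1 (hxw.symm.trans hxy)
  have hz' : g * z * g⁻¹ ∈ K := by
    have h1 := conj_mem_Cen g (mem_Cen_comm.1 hw)
    rw [hg] at h1
    exact h1
  have hHz' : Hyp (g * z * g⁻¹) := hz.conj g
  have hQ₂p : IsPGroup 2 ↥(Subgroup.zpowers (g * z * g⁻¹)) := by
    refine hHz'.isP.to_le ?_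
    rw [Subgroup.zpowers_le]
    exact mem_Cen.2 rfl
  have hQ₂K : Subgroup.zpowers (g * z * g⁻¹) ≤ K := by
    rw [Subgroup.zpowers_le]
    exact hz'
  obtain ⟨k, hk⟩ := exists_conj_into K S' _ hQ₂p hQ₂K
  have h1 := hk _ hz' (Subgroup.mem_zpowers _)
  have h2 : (k : L)⁻¹ * (g * z * g⁻¹) * (k : L) ∈ S₀ := ⟨_, h1, by simp⟩
  rw [← hQeq] at h2
  have hIC : IsConj z ((k : L)⁻¹ * (g * z * g⁻¹) * (k : L)) := by
    refine isConj_iff.2 ⟨(k : L)⁻¹ * g, ?_⟩
    group
  have h3 := hiso _ hIC h2.1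
  have hr : (k : L)⁻¹ * g ∈ Cen z := by
    apply mem_Cen_of_conj
    calc (k : L)⁻¹ * g * z * ((k : L)⁻¹ * g)⁻¹ = (k : L)⁻¹ * (g * z * g⁻¹) * (k : L) := by group
      _ = z := h3
  refine ⟨_, hr, ?_⟩
  have h4 : (k : L)⁻¹ * y * (k : L)⁻¹⁻¹ = y := conj_of_mem_Cen ((Cen y).inv_mem k.2)
  calc (k : L)⁻¹ * g * w * ((k : L)⁻¹ * g)⁻¹ = (k : L)⁻¹ * (g * w * g⁻¹) * (k : L)⁻¹⁻¹ := by group
    _ = y := by rw [hg, h4]

/-- The isolated case is impossible. -/
theorem Hyp.not_isolated [IsSimpleGroup L] (hL : ¬ IsMulCommutative L) {z : L} (hz : Hyp z)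
    (hiso : ∀ t, IsConj z t → t ∈ Cen z → t = z) : False := by
  classical
  haveI : Fact (Nat.Prime 2) := ⟨Nat.prime_two⟩
  haveI : (Cen z).FiniteIndex := Subgroup.finiteIndex_of_finite
  -- pick an element outside the derived subgroup
  haveI : Nontrivial ↥(Cen z) :=
    ⟨⟨⟨z, mem_Cen.2 rfl⟩, 1, fun h => hz.ne (congrArg Subtype.val h)⟩⟩
  haveI : Group.IsNilpotent ↥(Cen z) := hz.isP.isNilpotent
  have hlt := Group.IsSolvable.commutator_lt_top_of_nontrivial ↥(Cen z)
  obtain ⟨x, -, hx⟩ := SetLike.exists_of_lt hlt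
  let ϕ : ↥(Cen z) →* Abelianization ↥(Cen z) := Abelianization.of
  have hϕ : ϕ x ≠ 1 := by
    intro h
    apply hx
    have : x ∈ ϕ.ker := h
    rwa [Abelianization.ker_of] at this
  have hconj : ∀ (v : ↥(Cen z)) (w : ↥(Cen z)), IsConj (v : L) (w : L) → ϕ w = ϕ v := by
    intro v w hvw
    obtain ⟨y, hy, hw⟩ := hz.fusion hiso v v.2
    obtain ⟨r₁, hr₁, e₁⟩ := hw w w.2 hvw
    obtain ⟨r₂, hr₂, e₂⟩ := hw v v.2 (IsConj.refl _)
    have h1 : (⟨r₁, hr₁⟩ : ↥(Cen z)) * w * (⟨r₁, hr₁⟩ : ↥(Cen z))⁻¹ =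
        (⟨r₂, hr₂⟩ : ↥(Cen z)) * v * (⟨r₂, hr₂⟩ : ↥(Cen z))⁻¹ := by
      apply Subtype.ext
      simp [e₁, e₂]
    have h2 := congrArg ϕ h1
    simp only [map_mul, map_inv] at h2
    simpa [mul_comm] using h2
  have key' : ∀ (k : ℕ) (g₀ : L) (hk : g₀⁻¹ * (x : L) ^ k * g₀ ∈ Cen z), ϕ ⟨_, hk⟩ = ϕ x ^ k := by
    intro k g₀ hk
    rw [← map_pow]
    apply hconj
    refine isConj_iff.2 ⟨g₀⁻¹, ?_⟩
    simp
  have hV := Cfsg.Agent.H05.transfer_apply_eq_pow ϕ x key'
  apply no_hom hL (MonoidHom.transfer ϕ) (x : L)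
  rw [hV]
  intro h3
  -- odd power of a 2-element
  have hd1 : orderOf (ϕ x) ∣ (Cen z).index := orderOf_dvd_of_pow_eq_one h3
  obtain ⟨n, hn⟩ := (IsPGroup.iff_orderOf.1 hz.isP) x
  have hd2 : orderOf (ϕ x) ∣ 2 ^ n := by
    apply orderOf_dvd_of_pow_eq_one
    rw [← map_pow, ← hn, pow_orderOf_eq_one, map_one]
  have hcop : Nat.Coprime (2 ^ n) (Cen z).index :=
    Nat.Coprime.pow_left n (Nat.coprime_two_left.2 hz.index_odd)
  have h4 : orderOf (ϕ x) = 1 := Nat.eq_one_of_dvd_coprimes hcop hd2 hd1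
  exact hϕ (orderOf_eq_one_iff.1 h4)

omit [Finite L] in
theorem closure_eight {z t s : L} (hzz : z * z = 1) (htt : t * t = 1) (hss : s * s = 1)
    (htz : t * z = z * t) (hsz : s * z = z * s) (hst : s * t = z * (t * s)) :
    ∀ x ∈ Subgroup.closure ({z, t, s} : Set L), x = 1 ∨ x = z ∨ x = t ∨ x = z * t ∨ x = s ∨
      x = z * s ∨ x = t * s ∨ x = z * (t * s) := by
  have hzz' : ∀ x, z * (z * x) = x := fun x => by rw [← mul_assoc, hzz, one_mul]
  have htt' : ∀ x, t * (t * x) = x := fun x => by rw [← mul_assoc, htt, one_mul]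
  have hss' : ∀ x, s * (s * x) = x := fun x => by rw [← mul_assoc, hss, one_mul]
  have htz' : ∀ x, t * (z * x) = z * (t * x) := fun x => by
    rw [← mul_assoc, htz, mul_assoc]
  have hsz' : ∀ x, s * (z * x) = z * (s * x) := fun x => by
    rw [← mul_assoc, hsz, mul_assoc]
  have hst' : ∀ x, s * (t * x) = z * (t * (s * x)) := fun x => by
    rw [← mul_assoc, hst]; simp only [mul_assoc]
  have hzinv : z⁻¹ = z := inv_eq_of_mul_eq_one_left hzz
  have htinv : t⁻¹ = t := inv_eq_of_mul_eq_one_left htt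
  have hsinv : s⁻¹ = s := inv_eq_of_mul_eq_one_left hss
  intro x hx
  induction hx using Subgroup.closure_induction_left with
  | one => exact Or.inl rfl
  | mul_left a ha y hy ih =>
    rcases ha with h | h | h <;>
    rcases ih with h' | h' | h' | h' | h' | h' | h' | h' <;>
    rw [h, h'] <;>
    simp only [mul_assoc, mul_one, one_mul, hzz, htt, hss, htz, hsz, hst, hzz', htt', hss', htz',
      hsz', hst', true_or, or_true]
  | inv_mul_cancel a ha y hy ih =>
    rcases ha with h | h | h <;>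
    rcases ih with h' | h' | h' | h' | h' | h' | h' | h' <;>
    rw [h, h'] <;>
    simp only [hzinv, htinv, hsinv, mul_assoc, mul_one, one_mul, hzz, htt, hss, htz, hsz, hst, hzz',
      htt', hss', htz', hsz', hst', true_or, or_true]

omit [Finite L] in
theorem closure_four {z t : L} (hzz : z * z = 1) (htt : t * t = 1)
    (htz : t * z = z * t) :
    ∀ x ∈ Subgroup.closure ({z, t} : Set L), x = 1 ∨ x = z ∨ x = t ∨ x = z * t := by
  have hzz' : ∀ x, z * (z * x) = x := fun x => by rw [← mul_assoc, hzz, one_mul]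
  have htt' : ∀ x, t * (t * x) = x := fun x => by rw [← mul_assoc, htt, one_mul]
  have htz' : ∀ x, t * (z * x) = z * (t * x) := fun x => by
    rw [← mul_assoc, htz, mul_assoc]
  have hzinv : z⁻¹ = z := inv_eq_of_mul_eq_one_left hzz
  have htinv : t⁻¹ = t := inv_eq_of_mul_eq_one_left htt
  intro x hx
  induction hx using Subgroup.closure_induction_left with
  | one => exact Or.inl rfl
  | mul_left a ha y hy ih =>
    rcases ha with h | h <;>
    rcases ih with h' | h' | h' | h' <;>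
    rw [h, h'] <;>
    simp only [mul_assoc, mul_one, one_mul, hzz, htt, htz, hzz', htt', htz', true_or, or_true]
  | inv_mul_cancel a ha y hy ih =>
    rcases ha with h | h <;>
    rcases ih with h' | h' | h' | h' <;>
    rw [h, h'] <;>
    simp only [hzinv, htinv, mul_assoc, mul_one, one_mul, hzz, htt, htz, hzz', htt', htz', true_or,
      or_true]

/-- Centre of `C(z)` is `⟨z⟩`. -/
theorem Hyp.center_small [IsSimpleGroup L] (hL : ¬ IsMulCommutative L) {z t : L} (hz : Hyp z)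
    (ht : IsConj z t) (htz : t ∈ Cen z) (hne : t ≠ z) (u : L) (huz : u ∈ Cen z) (hu : Zc z u) :
    u = 1 ∨ u = z := by
  classical
  have hHt := hz.of_isConj ht
  have htz' : t * z = z * t := mem_Cen.1 htz
  have htt : t * t = 1 := hHt.inv
  have hzz : z * z = 1 := hz.inv
  have htinv : t⁻¹ = t := inv_eq_of_mul_eq_one_left htt
  have hzinv : z⁻¹ = z := inv_eq_of_mul_eq_one_left hzz
  obtain ⟨r, hr, hr2⟩ := hz.exists_not_mem ht hne
  by_cases hcase : ∀ t', IsConj z t' → t' ∈ Cen z → t' ∈ Cen t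
  · -- case (i)
    have hmem : u ∈ Subgroup.closure ({z, t} : Set L) := by
      apply hz.mem_W hL _ (Subgroup.subset_closure (by simp)) _ u huz hu
      intro t' ht' ht'z
      by_cases h1 : t' = z
      · rw [h1]; exact Subgroup.subset_closure (by simp)
      by_cases h2 : t' = t
      · rw [h2]; exact Subgroup.subset_closure (by simp)
      have h3 := triple hz ht ht' htz ht'z (hcase t' ht' ht'z) hne h1 (Ne.symm h2)
      have h4 : t' = t * z := by
        calc t' = t⁻¹ * (t * t') := by group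
          _ = t * z := by rw [h3, htinv]
      rw [h4]
      exact Subgroup.mul_mem _ (Subgroup.subset_closure (by simp))
        (Subgroup.subset_closure (by simp))
    rcases closure_four hzz htt htz' u hmem with h | h | h | h
    · exact Or.inl h
    · exact Or.inr h
    · exfalso
      apply hr2
      rw [mem_Cen]
      have := hu r hr
      rwa [h] at this
    · exfalso
      apply hr2
      rw [mem_Cen]
      have h5 := hu r hr
      rw [h] at h5
      have hrz : r * z = z * r := mem_Cen.1 hr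
      have h6 : z * (r * t) = z * (t * r) := by
        calc z * (r * t) = (z * r) * t := by group
          _ = (r * z) * t := by rw [hrz]
          _ = r * (z * t) := by group
          _ = z * t * r := h5
          _ = z * (t * r) := by group
      exact mul_left_cancel h6
  · -- case (ii)
    push_neg at hcase
    obtain ⟨s, hs, hsz, hst⟩ := hcase
    have hss : s * s = 1 := (hz.of_isConj hs).inv
    have hsz' : s * z = z * s := mem_Cen.1 hsz
    have hsinv : s⁻¹ = s := inv_eq_of_mul_eq_one_left hss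
    have hst' : s * t = z * (t * s) := by
      have h1 := hz.transv' htz hsz hst
      rw [mul_inv_eq_iff_eq_mul] at h1
      rw [h1, mul_assoc]
    have hstne : s * t ≠ t * s := fun h => hst (mem_Cen.2 h)
    have hmem : u ∈ Subgroup.closure ({z, t, s} : Set L) := by
      apply hz.mem_W hL _ (Subgroup.subset_closure (by simp)) _ u huz hu
      intro t' ht' ht'z
      by_cases h1 : t' = z
      · rw [h1]; exact Subgroup.subset_closure (by simp)
      by_cases h2 : t' = t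
      · rw [h2]; exact Subgroup.subset_closure (by simp)
      by_cases h2' : t' = s
      · rw [h2']; exact Subgroup.subset_closure (by simp)
      have hsne : s ≠ z := by
        rintro rfl
        exact hst (mem_Cen_comm.1 htz)
      by_cases h3 : t' ∈ Cen t
      · have h4 := triple hz ht ht' htz ht'z h3 hne h1 (Ne.symm h2)
        have h5 : t' = t * z := by
          calc t' = t⁻¹ * (t * t') := by group
            _ = t * z := by rw [h4, htinv]
        rw [h5]
        exact Subgroup.mul_mem _ (Subgroup.subset_closure (by simp))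
          (Subgroup.subset_closure (by simp))
      by_cases h3' : t' ∈ Cen s
      · have h4 := triple hz hs ht' hsz ht'z h3' hsne h1 (Ne.symm h2')
        have h5 : t' = s * z := by
          calc t' = s⁻¹ * (s * t') := by group
            _ = s * z := by rw [h4, hsinv]
        rw [h5]
        exact Subgroup.mul_mem _ (Subgroup.subset_closure (by simp))
          (Subgroup.subset_closure (by simp))
      exfalso
      -- neither: `t * s` commutes with `t'`
      have e1 := hz.transv' ht'z htz (mem_Cen_comm.not.1 h3)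
      have e2 := hz.transv' ht'z hsz (mem_Cen_comm.not.1 h3')
      have ht'z' : t' * z = z * t' := mem_Cen.1 ht'z
      have hts : t * s ∈ Cen t' := by
        apply mem_Cen_of_conj
        calc t * s * t' * (t * s)⁻¹ = t * (s * t' * s⁻¹) * t⁻¹ := by group
          _ = t * z * t' * t⁻¹ := by rw [e2]; group
          _ = z * (t * t' * t⁻¹) := by rw [htz']; group
          _ = z * (z * t') := by rw [e1]
          _ = (z * z) * t' := by group
          _ = t' := by rw [hzz]; group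
      have hex := exp2 hz (hz.of_isConj ht') (Ne.symm h1) ((Cen z).mul_mem htz hsz) hts
      apply hstne
      calc s * t = t⁻¹ * ((t * s) * (t * s)) * s⁻¹ := by group
        _ = t⁻¹ * s⁻¹ := by rw [hex]; group
        _ = t * s := by rw [htinv, hsinv]
    have hs1 := hu s hsz
    have ht1 := hu t htz
    rcases closure_eight hzz htt hss htz' hsz' hst' u hmem with
      h | h | h | h | h | h | h | h
    · exact Or.inl h
    · exact Or.inr h
    · exfalso
      rw [h] at hs1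
      exact hstne hs1
    · exfalso
      rw [h] at hs1
      apply hstne
      apply mul_left_cancel (a := z)
      calc z * (s * t) = (z * s) * t := by group
        _ = (s * z) * t := by rw [hsz']
        _ = s * (z * t) := by group
        _ = z * t * s := hs1
        _ = z * (t * s) := by group
    · exfalso
      rw [h] at ht1
      exact hstne ht1.symm
    · exfalso
      rw [h] at ht1
      apply hstne
      apply mul_left_cancel (a := z)
      calc z * (s * t) = z * s * t := by group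
        _ = t * (z * s) := ht1.symm
        _ = (t * z) * s := by group
        _ = z * (t * s) := by rw [htz']; group
    · exfalso
      rw [h] at ht1
      apply hstne
      have h2 : s = t * s * t := by
        calc s = (t * t) * s := by rw [htt]; group
          _ = t * (t * s) := by group
          _ = t * s * t := ht1
      calc s * t = (t * s * t) * t := by rw [← h2]
        _ = t * s * (t * t) := by group
        _ = t * s := by rw [htt]; group
    · exfalso
      rw [h] at ht1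
      apply hstne
      have h2 : z * s = z * (t * s * t) := by
        calc z * s = z * ((t * t) * s) := by rw [htt]; group
          _ = (t * z) * (t * s) := by rw [htz']; group
          _ = t * (z * (t * s)) := by group
          _ = z * (t * s) * t := ht1
          _ = z * (t * s * t) := by group
      have h3 : s = t * s * t := mul_left_cancel h2
      calc s * t = (t * s * t) * t := by rw [← h3]
        _ = t * s * (t * t) := by group
        _ = t * s := by rw [htt]; group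

/-- Everything in `C(z) ∩ C(t)` -/
theorem Hyp.inter_small [IsSimpleGroup L] (hL : ¬ IsMulCommutative L) {z t : L} (hz : Hyp z)
    (ht : IsConj z t) (htz : t ∈ Cen z) (hne : t ≠ z) (a : L) (ha : a ∈ Cen z) (hat : a ∈ Cen t) :
    a = 1 ∨ a = z ∨ a = t ∨ a = z * t := by
  have hHt := hz.of_isConj ht
  have htt : t * t = 1 := hHt.inv
  have hzz : z * z = 1 := hz.inv
  have htinv : t⁻¹ = t := inv_eq_of_mul_eq_one_left htt
  have htz' : t * z = z * t := mem_Cen.1 htz
  have hne' : z ≠ t := Ne.symm hne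
  obtain ⟨r, hr, hr2⟩ := hz.exists_not_mem ht hne
  have hzt : z ∈ Cen t := mem_Cen_comm.1 htz
  have httt : t ∈ Cen t := mem_Cen.2 rfl
  have hcentral : ∀ x, x ∈ Cen z → x ∈ Cen t → r * x * r⁻¹ = x → x = 1 ∨ x = z := by
    intro x hx hxt hc
    apply hz.center_small hL ht htz hne x hx
    intro s hs
    exact central_ext hz hHt hne' htz hr hr2 hx hxt (mul_inv_eq_iff_eq_mul.1 hc).symm hs
  rcases hz.cm r a hr ha with h1 | h1
  · have h2 : r * a * r⁻¹ = a := mul_inv_eq_one.1 h1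
    rcases hcentral a ha hat h2 with h3 | h3
    · exact Or.inl h3
    · exact Or.inr (Or.inl h3)
  · have h2 : r * a * r⁻¹ = z * a := mul_inv_eq_iff_eq_mul.1 h1
    have h3 := hz.transv' htz hr hr2
    have haz : a * z = z * a := mem_Cen.1 ha
    have h4 : r * (a * t) * r⁻¹ = a * t := by
      calc r * (a * t) * r⁻¹ = (r * a * r⁻¹) * (r * t * r⁻¹) := by group
        _ = (z * a) * (z * t) := by rw [h2, h3]
        _ = (a * z) * (z * t) := by rw [haz]
        _ = a * (z * z) * t := by group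
        _ = a * t := by rw [hzz]; group
    rcases hcentral (a * t) ((Cen z).mul_mem ha htz) ((Cen t).mul_mem hat httt) h4 with h5 | h5
    · right; right; left
      calc a = (a * t) * t⁻¹ := by group
        _ = t := by rw [h5, htinv]; group
    · right; right; right
      calc a = (a * t) * t⁻¹ := by group
        _ = z * t := by rw [h5, htinv]

/-- The final isomorphism. -/
theorem Hyp.dihedral [IsSimpleGroup L] (hL : ¬ IsMulCommutative L) {z : L} (hz : Hyp z) :
    Nonempty (↥(Cen z) ≃* DihedralGroup 4) := by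
  classical
  obtain ⟨t, ht, htz, hne⟩ : ∃ t, IsConj z t ∧ t ∈ Cen z ∧ t ≠ z := by
    by_contra hcon
    push_neg at hcon
    exact hz.not_isolated hL hcon
  have hHt := hz.of_isConj ht
  have htt : t * t = 1 := hHt.inv
  have hzz : z * z = 1 := hz.inv
  have htinv : t⁻¹ = t := inv_eq_of_mul_eq_one_left htt
  have hzinv : z⁻¹ = z := inv_eq_of_mul_eq_one_left hzz
  have htz' : t * z = z * t := mem_Cen.1 htz
  obtain ⟨r, hr, hr2⟩ := hz.exists_not_mem ht hne
  obtain ⟨ρ, hρ, hρ2, hρρ⟩ : ∃ ρ, ρ ∈ Cen z ∧ ρ ∉ Cen t ∧ ρ * ρ = z := by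
    rcases hz.sq r hr with h1 | h1
    · refine ⟨r * t, (Cen z).mul_mem hr htz, ?_, ?_⟩
      · intro h2
        apply hr2
        have h3 := (Cen t).mul_mem h2 ((Cen t).inv_mem (mem_Cen.2 rfl : t ∈ Cen t))
        simpa using h3
      · have h2 := hz.transv' htz hr hr2
        have hrinv : r⁻¹ = r := inv_eq_of_mul_eq_one_left h1
        rw [hrinv] at h2
        calc r * t * (r * t) = (r * t * r) * t := by group
          _ = z * t * t := by rw [h2]
          _ = z * (t * t) := by group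
          _ = z := by rw [htt]; group
    · exact ⟨r, hr, hr2, h1⟩
  have hρt := hz.transv' htz hρ hρ2
  have hρz : ρ * z = z * ρ := mem_Cen.1 hρ
  have hρ4 : ρ ^ 4 = 1 := by
    calc ρ ^ 4 = (ρ * ρ) * (ρ * ρ) := by simp only [pow_succ, pow_zero, one_mul, mul_assoc]
      _ = 1 := by rw [hρρ, hzz]
  have hρinv : ρ⁻¹ = z * ρ := by
    apply inv_eq_of_mul_eq_one_left
    calc z * ρ * ρ = z * (ρ * ρ) := by group
      _ = 1 := by rw [hρρ, hzz]
  have htρt : t * ρ * t⁻¹ = ρ⁻¹ := by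
    rw [mul_inv_eq_iff_eq_mul] at hρt
    rw [htinv, hρinv]
    calc t * ρ * t = t * (ρ * t) := by group
      _ = t * (z * t * ρ) := by rw [hρt]
      _ = (t * z) * t * ρ := by group
      _ = z * (t * t) * ρ := by rw [htz']; group
      _ = z * ρ := by rw [htt]; group
  have htpow : ∀ n : ℕ, t * ρ ^ n * t⁻¹ = (ρ ^ n)⁻¹ := by
    intro n
    rw [← conj_pow, htρt, inv_pow]
  let pw : ZMod 4 → L := fun i => ρ ^ i.val
  have hadd : ∀ i j, pw (i + j) = pw i * pw j := by
    intro i j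
    show ρ ^ (i + j).val = ρ ^ i.val * ρ ^ j.val
    rw [ZMod.val_add, ← pow_add]
    exact (pow_eq_pow_mod _ hρ4).symm
  have hsub : ∀ i j, pw (j - i) = (pw i)⁻¹ * pw j := by
    intro i j
    have h1 := hadd i (j - i)
    have h2 : i + (j - i) = j := by ring
    rw [h2] at h1
    rw [h1]; group
  have htpw : ∀ i, t * pw i * t = (pw i)⁻¹ := by
    intro i
    have := htpow i.val
    rwa [htinv] at this
  let f₀ : DihedralGroup 4 → L := fun x => match x with
    | DihedralGroup.r i => pw i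
    | DihedralGroup.sr i => t * pw i
  have hmul : ∀ a b, f₀ (a * b) = f₀ a * f₀ b := by
    intro a b
    cases a with
    | r i =>
      cases b with
      | r j =>
        show pw (i + j) = pw i * pw j
        exact hadd i j
      | sr j =>
        show t * pw (j - i) = pw i * (t * pw j)
        rw [hsub]
        have h1 : t * (pw i)⁻¹ = pw i * t := by
          rw [← htpw i]
          calc t * (t * pw i * t) = (t * t) * pw i * t := by simp only [mul_assoc]
            _ = pw i * t := by rw [htt, one_mul]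
        calc t * ((pw i)⁻¹ * pw j) = (t * (pw i)⁻¹) * pw j := by simp only [mul_assoc]
          _ = (pw i * t) * pw j := by rw [h1]
          _ = pw i * (t * pw j) := by simp only [mul_assoc]
    | sr i =>
      cases b with
      | r j =>
        show t * pw (i + j) = t * pw i * pw j
        rw [hadd, mul_assoc]
      | sr j =>
        show pw (j - i) = t * pw i * (t * pw j)
        rw [hsub, ← htpw i]
        simp only [mul_assoc]
  let f₁ : DihedralGroup 4 →* L := MonoidHom.mk' f₀ hmul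
  have hf₁ : ∀ a, f₁ a ∈ Cen z := by
    intro a
    have hpw : ∀ i, pw i ∈ Cen z := fun i => (Cen z).pow_mem hρ _
    cases a with
    | r i => exact hpw i
    | sr i => exact (Cen z).mul_mem htz (hpw i)
  let f : DihedralGroup 4 →* ↥(Cen z) := f₁.codRestrict (Cen z) hf₁
  have hρ1 : ρ ≠ 1 := by
    intro h
    apply hz.ne
    rw [← hρρ, h, one_mul]
  have hinj : Function.Injective f := by
    rw [injective_iff_map_eq_one]
    intro a ha
    have ha' : f₁ a = 1 := congrArg Subtype.val ha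
    cases a with
    | r i =>
      have hi : ρ ^ i.val = 1 := ha'
      have hlt := ZMod.val_lt i
      have hv : i.val = 0 := by
        by_contra hv
        have h3 : i.val = 1 ∨ i.val = 2 ∨ i.val = 3 := by omega
        rcases h3 with e | e | e <;> rw [e] at hi
        · exact hρ1 (by simpa using hi)
        · apply hz.ne
          rw [← hρρ, ← pow_two, hi]
        · apply hρ1
          calc ρ = ρ ^ 4 * (ρ ^ 3)⁻¹ := by group
            _ = 1 := by rw [hρ4, hi]; group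
      have h0 : i = 0 := (ZMod.val_eq_zero i).1 hv
      rw [h0]
      rfl
    | sr i =>
      exfalso
      have hi : t * ρ ^ i.val = 1 := ha'
      have hlt := ZMod.val_lt i
      have hρt' : ρ ≠ t := fun h => hρ2 (by rw [h]; exact mem_Cen.2 rfl)
      have h3 : i.val = 0 ∨ i.val = 1 ∨ i.val = 2 ∨ i.val = 3 := by omega
      rcases h3 with e | e | e | e <;> rw [e] at hi
      · apply hHt.ne
        simpa using hi
      · apply hρt'
        have : t * ρ = 1 := by simpa using hi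
        calc ρ = t⁻¹ * (t * ρ) := by group
          _ = t := by rw [this, htinv]; group
      · apply hne
        have h5 : t * z = 1 := by
          rw [← hρρ, ← pow_two]; exact hi
        calc t = t * z * z⁻¹ := by group
          _ = z := by rw [h5, hzinv]; group
      · apply hρt'
        have h5 : ρ ^ 3 = t := by
          calc ρ ^ 3 = t⁻¹ * (t * ρ ^ 3) := by group
            _ = t := by rw [hi, htinv]; group
        have h6 : t * ρ = 1 := by
          rw [← h5, ← pow_succ]; exact hρ4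
        calc ρ = t⁻¹ * (t * ρ) := by group
          _ = t := by rw [h6, htinv]; group
  have hsurj : Function.Surjective f := by
    rintro ⟨x, hx⟩
    have hhit : ∃ a, f₁ a = x := by
      have e0 : (0 : ZMod 4).val = 0 := rfl
      have e1 : (1 : ZMod 4).val = 1 := rfl
      have e2 : (2 : ZMod 4).val = 2 := rfl
      have e3 : (3 : ZMod 4).val = 3 := rfl
      have v0 : ∀ i : ZMod 4, f₁ (DihedralGroup.r i) = ρ ^ i.val := fun _ => rfl
      have v1 : ∀ i : ZMod 4, f₁ (DihedralGroup.sr i) = t * ρ ^ i.val := fun _ => rfl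
      have hz2 : ρ ^ 2 = z := by rw [pow_two]; exact hρρ
      have hρ3 : ρ ^ 3 = ρ * z := by
        rw [← hρρ]; simp only [pow_succ, pow_zero, one_mul, mul_assoc]
      rcases coset hz htz hρ hρ2 hx with h | h
      · rcases hz.inter_small hL ht htz hne x hx h with e | e | e | e
        · exact ⟨DihedralGroup.r 0, by rw [v0, e0, e, pow_zero]⟩
        · exact ⟨DihedralGroup.r 2, by rw [v0, e2, e, hz2]⟩
        · exact ⟨DihedralGroup.sr 0, by rw [v1, e0, e, pow_zero, mul_one]⟩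
        · exact ⟨DihedralGroup.sr 2, by rw [v1, e2, e, hz2, htz']⟩
      · have hm : ρ⁻¹ * x ∈ Cen z := (Cen z).mul_mem ((Cen z).inv_mem hρ) hx
        have hxe : x = ρ * (ρ⁻¹ * x) := by group
        have hρt2 : ρ * t = t * ρ⁻¹ := by
          have := htρt
          rw [htinv] at this
          calc ρ * t = (t * t) * ρ * t := by rw [htt, one_mul]
            _ = t * (t * ρ * t) := by simp only [mul_assoc]
            _ = t * ρ⁻¹ := by rw [this]
        rcases hz.inter_small hL ht htz hne _ hm h with e | e | e | e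
        · refine ⟨DihedralGroup.r 1, ?_⟩
          rw [v0, e1, pow_one, hxe, e, mul_one]
        · refine ⟨DihedralGroup.r 3, ?_⟩
          rw [v0, e3, hρ3, hxe, e]
        · refine ⟨DihedralGroup.sr 3, ?_⟩
          rw [v1, e3]
          calc t * ρ ^ 3 = t * (z * ρ) := by rw [hρ3, hρz]
            _ = t * ρ⁻¹ := by rw [hρinv]
            _ = ρ * t := hρt2.symm
            _ = ρ * (ρ⁻¹ * x) := by rw [e]
            _ = x := hxe.symm
        · refine ⟨DihedralGroup.sr 1, ?_⟩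
          rw [v1, e1, pow_one]
          calc t * ρ = (t * ρ * t⁻¹) * t := by group
            _ = ρ⁻¹ * t := by rw [htρt]
            _ = z * ρ * t := by rw [hρinv]
            _ = ρ * z * t := by rw [hρz]
            _ = ρ * (z * t) := by simp only [mul_assoc]
            _ = ρ * (ρ⁻¹ * x) := by rw [e]
            _ = x := hxe.symm
    obtain ⟨a, ha⟩ := hhit
    exact ⟨a, Subtype.ext ha⟩
  exact ⟨(MulEquiv.ofBijective f ⟨hinj, hsurj⟩).symm⟩

end fin

theorem hyp_of_stmt [Finite L] (z : L) (hz : orderOf z = 2) (R : Sylow 2 L)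
    (hR : (R : Subgroup L) = Subgroup.centralizer ({z} : Set L))
    (hΦ : (frattini ↥(R : Subgroup L)).map (R : Subgroup L).subtype = Subgroup.zpowers z) :
    Hyp z := by
  have hzz : z * z = 1 := by
    rw [← pow_two, ← hz]; exact pow_orderOf_eq_one z
  have hz1 : z ≠ 1 := by
    rintro rfl
    simp at hz
  haveI : Fact (Nat.Prime 2) := ⟨Nat.prime_two⟩
  have hRC : ∀ x, x ∈ Cen z ↔ x ∈ (R : Subgroup L) := fun x => by rw [hR]
  have hcases : ∀ x, x ∈ Subgroup.zpowers z → x = 1 ∨ x = z := by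
    intro x hx
    obtain ⟨k, rfl⟩ := Subgroup.mem_zpowers_iff.1 hx
    have hzsq : z ^ (2 : ℤ) = 1 := by
      rw [zpow_two]; exact hzz
    rcases Int.even_or_odd' k with ⟨m, rfl | rfl⟩
    · left; rw [zpow_mul, hzsq, one_zpow]
    · right; rw [zpow_add, zpow_mul, hzsq, one_zpow, one_mul, zpow_one]
  have hP : IsPGroup 2 ↥(R : Subgroup L) := R.isPGroup'
  have hFr : ∀ x : ↥(R : Subgroup L), x ∈ frattini ↥(R : Subgroup L) → (x : L) = 1 ∨ (x : L) = z := by
    intro x hx
    apply hcases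
    rw [← hΦ]
    exact ⟨x, hx, rfl⟩
  have hzF : ∀ x : ↥(R : Subgroup L), (x : L) = z → x ∈ frattini ↥(R : Subgroup L) := by
    intro x hx
    have h1 : z ∈ (frattini ↥(R : Subgroup L)).map (R : Subgroup L).subtype := by
      rw [hΦ]; exact Subgroup.mem_zpowers z
    obtain ⟨y, hy, hyz⟩ := h1
    have : x = y := Subtype.ext (hx.trans hyz.symm)
    rw [this]; exact hy
  refine ⟨hzz, hz1, ⟨R, hR⟩, ?_, ?_, ?_⟩
  · intro x hx
    have hxR := (hRC x).1 hx
    have h1 := Cfsg.Agent.H01.pow_mem_frattini_of_isPGroup hP (⟨x, hxR⟩ : ↥(R : Subgroup L))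
    have h2 := hFr _ h1
    simpa [pow_two] using h2
  · intro x y hx hy
    have hxR := (hRC x).1 hx
    have hyR := (hRC y).1 hy
    have h1 : (⟨x, hxR⟩ : ↥(R : Subgroup L)) * ⟨y, hyR⟩ * (⟨x, hxR⟩ : ↥(R : Subgroup L))⁻¹ *
        (⟨y, hyR⟩ : ↥(R : Subgroup L))⁻¹ ∈ frattini ↥(R : Subgroup L) := by
      apply Cfsg.Agent.H01.commutator_le_frattini_of_isPGroup hP
      rw [← commutatorElement_def]
      exact Subgroup.commutator_mem_commutator trivial trivial
    have h2 := hFr _ h1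
    simpa using h2
  · intro g hg
    -- the conjugation automorphism of `R`
    have hgR : ∀ y ∈ (R : Subgroup L), g * y * g⁻¹ ∈ (R : Subgroup L) := by
      intro y hy
      exact (hRC _).1 (hg y ((hRC _).2 hy))
    let f₀ : ↥(R : Subgroup L) →* ↥(R : Subgroup L) :=
      { toFun := fun y => ⟨g * y * g⁻¹, hgR y y.2⟩
        map_one' := by
          apply Subtype.ext
          simp
        map_mul' := by
          intro a b
          apply Subtype.ext
          simp only [Subgroup.coe_mul]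
          group }
    have hf₀inj : Function.Injective f₀ := by
      intro a b hab
      have h1 : g * (a : L) * g⁻¹ = g * (b : L) * g⁻¹ := congrArg Subtype.val hab
      apply Subtype.ext
      have h2 := congrArg (fun w => g⁻¹ * w * g) h1
      simpa [mul_assoc] using h2
    have hf₀bij : Function.Bijective f₀ := ⟨hf₀inj, Finite.injective_iff_surjective.1 hf₀inj⟩
    let φ : ↥(R : Subgroup L) ≃* ↥(R : Subgroup L) := MulEquiv.ofBijective f₀ hf₀bij
    have hzC : z ∈ (R : Subgroup L) := (hRC z).1 (mem_Cen.2 rfl)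
    have h1 : (⟨z, hzC⟩ : ↥(R : Subgroup L)) ∈ frattini ↥(R : Subgroup L) := hzF _ rfl
    have hchar := (frattini_characteristic (G := ↥(R : Subgroup L))).fixed φ
    have h2 : φ ⟨z, hzC⟩ ∈ frattini ↥(R : Subgroup L) := by
      have : (⟨z, hzC⟩ : ↥(R : Subgroup L)) ∈ (frattini ↥(R : Subgroup L)).comap φ.toMonoidHom := by
        rw [hchar]; exact h1
      exact this
    have h3 := hFr _ h2
    have h4 : ((φ ⟨z, hzC⟩ : ↥(R : Subgroup L)) : L) = g * z * g⁻¹ := rfl
    rw [h4] at h3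
    rcases h3 with h3 | h3
    · rw [conj_eq_one_iff] at h3
      exact absurd h3 hz1
    · exact mem_Cen_of_conj h3

theorem result {L : Type*} [Group L] [Finite L] [IsSimpleGroup L] (hL : ¬ IsMulCommutative L) (z : L) (hz : orderOf z = 2) (R : Sylow 2 L) (hR : (R : Subgroup L) = Subgroup.centralizer ({z} : Set L)) (hΦ : (frattini ↥(R : Subgroup L)).map (R : Subgroup L).subtype = Subgroup.zpowers z) : Nonempty (↥(R : Subgroup L) ≃* DihedralGroup 4) := by
  have h := hyp_of_stmt z hz R hR hΦ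
  have := h.dihedral hL
  rw [hR]
  exact this

end Cfsg.Agent.S5435
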