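import Cfsg.Statements.S5436
import Mathlib

set_option autoImplicit false
set_option linter.unusedSimpArgs false
open Cfsg

namespace Cfsg.Agent.S5436

open Subgroup in
theorem centralizer_le {H : Type*} [Group H] (Q : Subgroup H) [Q.Normal]
    (hF : generalizedFittingSubgroup H = Q) (hsimp : IsSimpleGroup (H ⧸ Q))
    (hna : ¬ IsMulCommutative (H ⧸ Q)) :
    Subgroup.centralizer (Q : Set H) ≤ Q := by
  classical
  set π := QuotientGroup.mk' Q with hπ
  have hπs : Function.Surjective π := QuotientGroup.mk'_surjective Q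
  have hkerπ : ∀ x, π x = 1 ↔ x ∈ Q := fun x => QuotientGroup.eq_one_iff x
  set C := Subgroup.centralizer (Q : Set H) with hC
  have hCn : C.Normal := Subgroup.normal_centralizer
  have himg : ∀ (A : Subgroup H), A.Normal → A.map π = ⊥ ∨ A.map π = ⊤ := fun A hA =>
     IsSimpleGroup.eq_bot_or_eq_top_of_normal _ (hA.map π hπs)
  rcases himg C hCn with h | h
  · intro x hx
    have : π x ∈ C.map π := ⟨x, hx, rfl⟩
    rw [h, mem_bot] at this
    exact (hkerπ x).1 this
  exfalso
  -- commutators of surjecting subgroups surject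
  have hcommtop : ⁅(⊤ : Subgroup (H ⧸ Q)), (⊤ : Subgroup (H ⧸ Q))⁆ = ⊤ := by
    rcases IsSimpleGroup.eq_bot_or_eq_top_of_normal
      ⁅(⊤ : Subgroup (H ⧸ Q)), (⊤ : Subgroup (H ⧸ Q))⁆ inferInstance with h0 | h0
    · exfalso
      apply hna
      refine ⟨⟨fun a b => ?_⟩⟩
      have := Subgroup.commutator_eq_bot_iff_le_centralizer.1 h0
      have h1 : a ∈ Subgroup.centralizer ((⊤ : Subgroup (H ⧸ Q)) : Set (H ⧸ Q)) := this trivial
      exact (Subgroup.mem_centralizer_iff.1 h1 b (by simp)).symm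
    · exact h0
  have hcomm : ∀ A : Subgroup H, A.map π = ⊤ → (⁅A, A⁆).map π = ⊤ := by
    intro A hA
    rw [map_commutator, hA, hcommtop]
  set D : Subgroup H := ⁅C, C⁆ with hD
  have hDn : D.Normal := inferInstance
  have hDC : D ≤ C := Subgroup.commutator_le_right C C
  have hDtop : D.map π = ⊤ := hcomm C h
  set E : Subgroup H := ⁅D, D⁆ with hE
  have hEtop : E.map π = ⊤ := hcomm D hDtop
  have hED : E ≤ D := Subgroup.commutator_le_right D D
  -- elements of Q commute with C
  have hQC : ∀ q ∈ Q, ∀ c ∈ C, q * c = c * q := by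
    intro q hq c hc
    exact ((Subgroup.mem_centralizer_iff.1 hc) q hq)
  have hdecomp : ∀ a ∈ C, ∃ e ∈ E, ∃ q ∈ Q, q ∈ C ∧ a = e * q := by
    intro a ha
    have : π a ∈ E.map π := by rw [hEtop]; trivial
    obtain ⟨e, he, hea⟩ := this
    refine ⟨e, he, e⁻¹ * a, ?_, C.mul_mem (C.inv_mem (hDC (hED he))) ha, by group⟩
    rw [← hkerπ, map_mul, map_inv, hea, inv_mul_cancel]
  have hDE : D ≤ E := by
    rw [hD, Subgroup.commutator_le]
    intro a ha b hb
    obtain ⟨e₁, he₁, q₁, hq₁, hq₁C, rfl⟩ := hdecomp a ha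
    obtain ⟨e₂, he₂, q₂, hq₂, hq₂C, rfl⟩ := hdecomp b hb
    have hc₁ : e₁ ∈ C := hDC (hED he₁)
    have hc₂ : e₂ ∈ C := hDC (hED he₂)
    have key : e₁ * q₁ * (e₂ * q₂) * (e₁ * q₁)⁻¹ * (e₂ * q₂)⁻¹ = e₁ * e₂ * e₁⁻¹ * e₂⁻¹ := by
      have h1 : q₁ * e₂ = e₂ * q₁ := hQC q₁ hq₁ e₂ hc₂
      have h2 : q₁ * q₂ = q₂ * q₁ := hQC q₁ hq₁ q₂ hq₂C
      have h3 : q₂ * e₁ = e₁ * q₂ := hQC q₂ hq₂ e₁ hc₁
      have h4 : q₁ * e₁ = e₁ * q₁ := hQC q₁ hq₁ e₁ hc₁
      have h5 : q₂ * e₂ = e₂ * q₂ := hQC q₂ hq₂ e₂ hc₂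
      calc e₁ * q₁ * (e₂ * q₂) * (e₁ * q₁)⁻¹ * (e₂ * q₂)⁻¹
          = e₁ * (q₁ * e₂) * q₂ * q₁⁻¹ * e₁⁻¹ * q₂⁻¹ * e₂⁻¹ := by group
        _ = e₁ * e₂ * (q₁ * q₂) * q₁⁻¹ * e₁⁻¹ * q₂⁻¹ * e₂⁻¹ := by rw [h1]; group
        _ = e₁ * e₂ * q₂ * e₁⁻¹ * q₂⁻¹ * e₂⁻¹ := by rw [h2]; group
        _ = e₁ * e₂ * e₁⁻¹ * e₂⁻¹ := by
            have h3' : q₂ * e₁⁻¹ = e₁⁻¹ * q₂ := by
              have := hQC q₂ hq₂ e₁⁻¹ (C.inv_mem hc₁)
              exact this
            calc e₁ * e₂ * q₂ * e₁⁻¹ * q₂⁻¹ * e₂⁻¹ = e₁ * e₂ * (q₂ * e₁⁻¹) * q₂⁻¹ * e₂⁻¹ := by group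
              _ = _ := by rw [h3']; group
    rw [commutatorElement_def, key]
    exact E.mul_mem (E.mul_mem (E.mul_mem he₁ he₂) (E.inv_mem he₁)) (E.inv_mem he₂)
  have hDperf : Group.IsPerfect ↥D := by
    refine ⟨?_⟩
    apply Subgroup.map_injective D.subtype_injective
    rw [Subgroup.map_subtype_commutator]
    have : (⊤ : Subgroup ↥D).map D.subtype = D := by
      rw [← MonoidHom.range_eq_map]; exact D.range_subtype
    rw [this]
    exact le_antisymm hED hDE
  -- simple quotient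
  set f : ↥D →* H ⧸ Q := π.comp D.subtype with hf
  have hfs : Function.Surjective f := by
    intro y
    have : y ∈ D.map π := by rw [hDtop]; trivial
    obtain ⟨d, hd, hdy⟩ := this
    exact ⟨⟨d, hd⟩, hdy⟩
  have hker : f.ker = Subgroup.center ↥D := by
    apply le_antisymm
    · intro x hx
      have hxQ : (x : H) ∈ Q := (hkerπ _).1 hx
      rw [Subgroup.mem_center_iff]
      intro y
      apply Subtype.ext
      exact ((hQC _ hxQ _ (hDC y.2))).symm
    · have hn : ((Subgroup.center ↥D).map f).Normal :=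
        (inferInstance : (Subgroup.center ↥D).Normal).map f hfs
      rcases IsSimpleGroup.eq_bot_or_eq_top_of_normal _ hn with h0 | h0
      · intro x hx
        have : f x ∈ (Subgroup.center ↥D).map f := ⟨x, hx, rfl⟩
        rw [h0, mem_bot] at this
        exact this
      · exfalso
        apply hna
        refine ⟨⟨fun a b => ?_⟩⟩
        have ha : (a : H ⧸ Q) ∈ (Subgroup.center ↥D).map f := by rw [h0]; trivial
        have hb : (b : H ⧸ Q) ∈ (Subgroup.center ↥D).map f := by rw [h0]; trivial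
        obtain ⟨a', ha', hae⟩ := ha
        obtain ⟨b', hb', hbe⟩ := hb
        rw [← hae, ← hbe, ← map_mul, ← map_mul, (Subgroup.mem_center_iff.1 ha' b')]
  have hDsimp : IsSimpleGroup (↥D ⧸ Subgroup.center ↥D) := by
    exact ((QuotientGroup.quotientMulEquivOfEq hker).symm.trans
      (QuotientGroup.quotientKerEquivOfSurjective f hfs)).isSimpleGroup
  have hcomp : IsComponent D := ⟨hDn.isSubnormal, hDperf, hDsimp⟩
  have hDQ : D ≤ Q := by
    rw [← hF]
    exact le_trans (le_sSup hcomp) le_sup_left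
  have : (⊤ : Subgroup (H ⧸ Q)) = ⊥ := by
    rw [← hDtop, eq_bot_iff]
    rintro _ ⟨d, hd, rfl⟩
    exact (mem_bot).2 ((hkerπ d).2 (hDQ hd))
  exact bot_ne_top this.symm

/-- Fixed-point-free involutory conjugation inverts a finite normal subgroup. -/
theorem inverts_of_fpf {G : Type*} [Group G] [Finite G] (z : G) (hz2 : z * z = 1)
    (N : Subgroup G) [N.Normal] (hfpf : ∀ n ∈ N, z * n * z⁻¹ = n → n = 1) :
    ∀ n ∈ N, z * n * z⁻¹ = n⁻¹ := by
  classical
  have hzinv : z⁻¹ = z := by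
    rw [inv_eq_iff_mul_eq_one]; exact hz2
  have hcn : ∀ n ∈ N, z * n * z⁻¹ ∈ N := fun n hn => ‹N.Normal›.conj_mem n hn z
  let φ : ↥N → ↥N := fun n => ⟨(n : G)⁻¹ * (z * n * z⁻¹), N.mul_mem (N.inv_mem n.2) (hcn _ n.2)⟩
  have hinj : Function.Injective φ := by
    intro a b hab
    have h1 : (a : G)⁻¹ * (z * a * z⁻¹) = (b : G)⁻¹ * (z * b * z⁻¹) := congrArg Subtype.val hab
    have h2 : (b : G) * (a : G)⁻¹ ∈ N := N.mul_mem b.2 (N.inv_mem a.2)
    have h3 : z * ((b : G) * (a : G)⁻¹) * z⁻¹ = (b : G) * (a : G)⁻¹ := by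
      have : z * b * z⁻¹ = (b : G) * ((a : G)⁻¹ * (z * a * z⁻¹)) := by rw [h1]; group
      calc z * ((b : G) * (a : G)⁻¹) * z⁻¹ = (z * b * z⁻¹) * (z * a * z⁻¹)⁻¹ := by group
        _ = _ := by rw [this]; group
    have h4 := hfpf _ h2 h3
    apply Subtype.ext
    have : (b : G) = a := by
      rw [mul_inv_eq_one] at h4; exact h4
    exact this.symm
  have hsurj : Function.Surjective φ := Finite.injective_iff_surjective.1 hinj
  intro n hn
  obtain ⟨a, ha⟩ := hsurj ⟨n, hn⟩
  have h1 : (a : G)⁻¹ * (z * a * z⁻¹) = n := congrArg Subtype.val ha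
  rw [← h1]
  calc z * ((a : G)⁻¹ * (z * a * z⁻¹)) * z⁻¹
      = z * (a : G)⁻¹ * (z * a) * z⁻¹ * z⁻¹ := by group
    _ = z * (a : G)⁻¹ * z * a * (z * z)⁻¹ := by group
    _ = z * (a : G)⁻¹ * z * a := by rw [hz2]; simp
    _ = z * (a : G)⁻¹ * z⁻¹ * a := by rw [hzinv]
    _ = ((a : G)⁻¹ * (z * a * z⁻¹))⁻¹ := by group

theorem mem_zpowers_cases {G : Type*} [Group G] (z : G) (hz2 : z * z = 1) (x : G)
    (hx : x ∈ Subgroup.zpowers z) : x = 1 ∨ x = z := by
  obtain ⟨k, rfl⟩ := Subgroup.mem_zpowers_iff.1 hx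
  have hzsq : z ^ (2 : ℤ) = 1 := by
    rw [zpow_two]; exact hz2
  rcases Int.even_or_odd' k with ⟨m, rfl | rfl⟩
  · left; rw [zpow_mul, hzsq, one_zpow]
  · right; rw [zpow_add, zpow_mul, hzsq, one_zpow, one_mul, zpow_one]


theorem core {G : Type*} [Group G] [Finite G] (z : G) (hz : orderOf z = 2) (H : Subgroup G)
    (hmemH : ∀ x : G, x ∈ H ↔ z * x = x * z) (Q : Subgroup H) [Q.Normal]
    (hF : Cfsg.generalizedFittingSubgroup ↥H = Q) (hQ : Cfsg.IsExtraspecial 2 ↥Q)
    (g : G) (hsH : g * z * g⁻¹ ∈ H) (hsQ : (⟨g * z * g⁻¹, hsH⟩ : H) ∈ Q) (hsz : g * z * g⁻¹ ≠ z)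
    (hsimp : IsSimpleGroup (↥H ⧸ Q)) (hna : ¬ IsMulCommutative (↥H ⧸ Q))
    (hirr : ∀ W : Subgroup H, W.Normal → W ≤ Q → (W = Q ∨ ∀ x ∈ W, (x : G) ∈ Subgroup.zpowers z))
    (hwcl : Subgroup.closure {x : H | IsConj z (x : G)} ≠ Q) : IsSimpleGroup G := by
  classical
  have hz2 : z * z = 1 := by
    rw [← pow_two, ← hz]; exact pow_orderOf_eq_one z
  have hz1 : z ≠ 1 := by
    rintro rfl
    simp at hz
  have hzH : z ∈ H := (hmemH z).2 rfl
  set zH : H := ⟨z, hzH⟩ with hzHdef
  have hzc : zH ∈ Subgroup.center H := by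
    rw [Subgroup.mem_center_iff]
    intro y
    apply Subtype.ext
    exact ((hmemH y).1 y.2).symm
  have hzQ : zH ∈ Q := by
    rw [← hF]
    refine Subgroup.mem_sup_right ?_
    refine (le_sSup ⟨inferInstance, ?_⟩ : Subgroup.center H ≤ Cfsg.fittingSubgroup H) hzc
    exact ⟨1, Subgroup.upperCentralSeries_one_eq_top_iff.mpr inferInstance⟩
  have hC : Subgroup.centralizer (Q : Set H) ≤ Q := centralizer_le Q hF hsimp hna
  set s : G := g * z * g⁻¹ with hs
  have hs1 : s ≠ 1 := by
    intro h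
    rw [hs, conj_eq_one_iff] at h
    exact hz1 h
  set sH : H := ⟨s, hsH⟩ with hsHdef
  -- Elements of Z(Q) are 1, z
  have hZQ : ∀ c : H, c ∈ Q → (∀ q ∈ Q, q * c = c * q) → (c : G) = 1 ∨ (c : G) = z := by
    intro c hc hcc
    have hcard := hQ.2
    have hz' : (⟨⟨zH, hzQ⟩, by
        rw [Subgroup.mem_center_iff]; intro y; apply Subtype.ext; apply Subtype.ext
        exact ((hmemH y.1).1 y.1.2).symm⟩ : Subgroup.center ↥Q) ≠ 1 := by
      intro h
      have := congrArg (fun x : Subgroup.center ↥Q => ((x : ↥Q) : H)) h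
      exact hz1 (congrArg Subtype.val this)
    have hc' : (⟨⟨c, hc⟩, by
        rw [Subgroup.mem_center_iff]; intro y; apply Subtype.ext
        exact hcc y.1 y.2⟩ : Subgroup.center ↥Q) = 1 ∨ (⟨⟨c, hc⟩, by
        rw [Subgroup.mem_center_iff]; intro y; apply Subtype.ext
        exact hcc y.1 y.2⟩ : Subgroup.center ↥Q) = ⟨⟨zH, hzQ⟩, by
        rw [Subgroup.mem_center_iff]; intro y; apply Subtype.ext; apply Subtype.ext
        exact ((hmemH y.1).1 y.1.2).symm⟩ := by
      obtain ⟨y, _, hy⟩ := (Nat.card_eq_two_iff' (1 : Subgroup.center ↥Q)).1 hcard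
      by_cases h1 : (⟨⟨c, hc⟩, by
        rw [Subgroup.mem_center_iff]; intro y; apply Subtype.ext
        exact hcc y.1 y.2⟩ : Subgroup.center ↥Q) = 1
      · exact Or.inl h1
      · right
        rw [hy _ h1, hy _ hz']
    rcases hc' with h | h
    · left
      exact congrArg (fun x : Subgroup.center ↥Q => (((x : ↥Q) : H) : G)) h
    · right
      exact congrArg (fun x : Subgroup.center ↥Q => (((x : ↥Q) : H) : G)) h
  -- Q is a 2-group
  have hQ2 : IsPGroup 2 ↥Q := hQ.1.1
  haveI : Fact (Nat.Prime 2) := ⟨Nat.prime_two⟩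
  -- Sylow subgroup with normalizer inside H
  have hSyl : ∃ P : Sylow 2 G, Subgroup.normalizer ((P : Subgroup G) : Set G) ≤ H ∧ (P : Subgroup G) ≤ H := by
    obtain ⟨P₀⟩ : Nonempty (Sylow 2 H) := inferInstance
    have hQP : Q ≤ (P₀ : Subgroup H) := by
      have h1 : IsPGroup 2 ↥(Q ⊔ (P₀ : Subgroup H)) := hQ2.to_sup_of_normal_left P₀.isPGroup'
      have h2 := P₀.is_maximal' h1 le_sup_right
      rw [← h2]; exact le_sup_left
    have hzP : zH ∈ (P₀ : Subgroup H) := hQP hzQ
    set P₁ : Subgroup G := (P₀ : Subgroup H).map H.subtype with hP₁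
    have hP₁H : P₁ ≤ H := Subgroup.map_subtype_le _
    have hP₁p : IsPGroup 2 ↥P₁ := P₀.isPGroup'.map H.subtype
    have hnorm : ∀ x : G, x ∈ Subgroup.normalizer (P₁ : Set G) → x ∈ H := by
      intro x hx
      have hzP1 : z ∈ P₁ := ⟨zH, hzP, rfl⟩
      have hcP : x * z * x⁻¹ ∈ P₁ := (Subgroup.mem_normalizer_iff.1 hx z).1 hzP1
      have hcH : x * z * x⁻¹ ∈ H := hP₁H hcP
      have hcent : ∀ y ∈ P₁, y * (x * z * x⁻¹) = (x * z * x⁻¹) * y := by
        intro y hy
        have hy' : x⁻¹ * y * x ∈ P₁ := by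
          have := (Subgroup.mem_normalizer_iff.1 (Subgroup.inv_mem _ hx) y).1 hy
          simpa using this
        have h3 : z * (x⁻¹ * y * x) = (x⁻¹ * y * x) * z := (hmemH _).1 (hP₁H hy')
        calc y * (x * z * x⁻¹) = x * ((x⁻¹ * y * x) * z) * x⁻¹ := by group
           _ = x * (z * (x⁻¹ * y * x)) * x⁻¹ := by rw [h3]
           _ = _ := by group
      have hcQ : (⟨_, hcH⟩ : H) ∈ Q := hC (by
         rw [Subgroup.mem_centralizer_iff]
         intro q hq
         apply Subtype.ext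
         exact hcent q (⟨q, hQP hq, rfl⟩))
      rcases hZQ ⟨_, hcH⟩ hcQ (fun q hq => Subtype.ext (hcent q ⟨q, hQP hq, rfl⟩)) with h | h
      · exfalso
        have h' : x * z * x⁻¹ = 1 := h
        rw [conj_eq_one_iff] at h'
        exact hz1 h'
      · have h' : x * z * x⁻¹ = z := h
        rw [hmemH]
        calc z * x = (x * z * x⁻¹) * x := by rw [h']
          _ = x * z := by group
    obtain ⟨T, hT⟩ := hP₁p.exists_le_sylow
    have hEq : (T : Subgroup G) = P₁ := by
      by_contra hne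
      have hTnil : Group.IsNilpotent ↥(T : Subgroup G) := T.isPGroup'.isNilpotent
      have hlt : P₁.subgroupOf (T : Subgroup G) < ⊤ := by
        refine lt_top_iff_ne_top.2 ?_
        intro htop
        apply hne
        apply le_antisymm _ hT
        exact Subgroup.subgroupOf_eq_top.1 htop
      have hcond := Group.normalizerCondition_of_isNilpotent (G := ↥(T : Subgroup G)) _ hlt
      obtain ⟨t, ht, htn⟩ := SetLike.exists_of_lt hcond
      have htG : (t : G) ∈ Subgroup.normalizer (P₁ : Set G) := by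
        rw [Subgroup.mem_normalizer_iff]
        intro y
        constructor
        · intro hy
          have hyT : y ∈ (T : Subgroup G) := hT hy
          have h2 := (Subgroup.mem_normalizer_iff.1 ht ⟨y, hyT⟩).1 (by
            show y ∈ P₁
            exact hy)
          exact h2
        · intro hy
          have hyT : (t : G) * y * (t : G)⁻¹ ∈ (T : Subgroup G) := hT hy
          have hyT' : y ∈ (T : Subgroup G) := by
            have : y = (t : G)⁻¹ * ((t : G) * y * (t : G)⁻¹) * (t : G) := by group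
            rw [this]
            exact (T : Subgroup G).mul_mem ((T : Subgroup G).mul_mem
              ((T : Subgroup G).inv_mem t.2) hyT) t.2
          exact (Subgroup.mem_normalizer_iff.1 ht ⟨y, hyT'⟩).2 hy
      have htH : (t : G) ∈ H := hnorm _ htG
      have hS : IsPGroup 2 ↥((T : Subgroup G).comap H.subtype) :=
        T.isPGroup'.comap_of_injective H.subtype H.subtype_injective
      have hPS : (P₀ : Subgroup H) ≤ (T : Subgroup G).comap H.subtype := by
        intro a ha
        exact hT ⟨a, ha, rfl⟩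
      have hS2 := P₀.is_maximal' hS hPS
      have htS : (⟨t, htH⟩ : H) ∈ (T : Subgroup G).comap H.subtype := t.2
      rw [hS2] at htS
      apply htn
      show (t : G) ∈ P₁
      exact ⟨_, htS, rfl⟩
    refine ⟨T, ?_, ?_⟩
    · rw [hEq]
      exact hnorm
    · rw [hEq]; exact hP₁H
  obtain ⟨P, hPn, hPH⟩ := hSyl
  have hsnot : ∀ W : Subgroup H, (∀ x ∈ W, (x : G) ∈ Subgroup.zpowers z) → sH ∉ W := by
    intro W hW hsW
    rcases mem_zpowers_cases z hz2 _ (hW _ hsW) with h | h
    · exact hs1 h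
    · exact hsz h
  haveI : Nontrivial G := ⟨⟨z, 1, hz1⟩⟩
  refine { eq_bot_or_eq_top_of_normal := ?_ }
  intro N hN
  haveI := hN
  by_cases hzN : z ∈ N
  · right
    have hsN : s ∈ N := hN.conj_mem z hzN g
    set NH : Subgroup H := N.subgroupOf H with hNH
    have hNHn : NH.Normal := inferInstance
    have hQN : Q ≤ NH := by
      rcases hirr (NH ⊓ Q) (Subgroup.normal_inf_normal _ _) inf_le_right with h | h
      · rw [← h]; exact inf_le_left
      · exact absurd ⟨(show sH ∈ NH from hsN), hsQ⟩ (hsnot _ h)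
    rcases IsSimpleGroup.eq_bot_or_eq_top_of_normal (NH.map (QuotientGroup.mk' Q))
      (hNHn.map _ (QuotientGroup.mk'_surjective Q)) with h | h
    · exfalso
      have hNHQ : NH ≤ Q := by
        intro x hx
        have : (QuotientGroup.mk' Q) x ∈ NH.map (QuotientGroup.mk' Q) := ⟨x, hx, rfl⟩
        rw [h, Subgroup.mem_bot] at this
        exact (QuotientGroup.eq_one_iff x).1 this
      set W₃ := Subgroup.closure {x : H | IsConj z (x : G)} with hW₃
      have hW₃N : W₃ ≤ NH := by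
        rw [hW₃, Subgroup.closure_le]
        intro x hx
        obtain ⟨c, hc⟩ := isConj_iff.1 hx
        show (x : G) ∈ N
        rw [← hc]
        exact hN.conj_mem z hzN c
      have hW₃n : W₃.Normal := by
        refine ⟨fun n hn h => ?_⟩
        rw [hW₃] at hn ⊢
        induction hn using Subgroup.closure_induction with
        | mem x hx =>
          apply Subgroup.subset_closure
          show IsConj z ((h * x * h⁻¹ : H) : G)
          have hx' : IsConj z (x : G) := hx
          refine hx'.trans ?_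
          rw [isConj_iff]
          exact ⟨h, rfl⟩
        | one => simp
        | mul x y _ _ hx hy =>
          have : h * (x * y) * h⁻¹ = (h * x * h⁻¹) * (h * y * h⁻¹) := by group
          rw [this]
          exact Subgroup.mul_mem _ hx hy
        | inv x _ hx =>
          have : h * x⁻¹ * h⁻¹ = (h * x * h⁻¹)⁻¹ := by group
          rw [this]
          exact Subgroup.inv_mem _ hx
      rcases hirr W₃ hW₃n (le_trans hW₃N hNHQ) with h3 | h3
      · exact hwcl h3
      · refine hsnot _ h3 (Subgroup.subset_closure ?_)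
        show IsConj z s
        rw [isConj_iff]
        exact ⟨g, rfl⟩
    · have hNHtop : NH = ⊤ := by
        rw [eq_top_iff]
        intro x _
        have : (QuotientGroup.mk' Q) x ∈ NH.map (QuotientGroup.mk' Q) := by rw [h]; trivial
        obtain ⟨y, hy, hyx⟩ := this
        have h5 : y⁻¹ * x ∈ Q := by
          exact QuotientGroup.eq.1 hyx
        have : x = y * (y⁻¹ * x) := by group
        rw [this]
        exact NH.mul_mem hy (hQN h5)
      have hHN : H ≤ N := by
        intro x hx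
        have : (⟨x, hx⟩ : H) ∈ NH := by rw [hNHtop]; trivial
        exact this
      have hfr := Sylow.normalizer_sup_eq_top' P (le_trans hPH hHN)
      rw [eq_top_iff, ← hfr]
      exact sup_le (le_trans hPn hHN) le_rfl
  · left
    set NH : Subgroup H := N.subgroupOf H with hNH
    have hNHn : NH.Normal := inferInstance
    have h1 : ∀ x ∈ NH ⊓ Q, x = 1 := by
      rcases hirr (NH ⊓ Q) (Subgroup.normal_inf_normal _ _) inf_le_right with h | h
      · exfalso
        have : zH ∈ NH ⊓ Q := by rw [h]; exact hzQ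
        exact hzN this.1
      · intro x hx
        rcases mem_zpowers_cases z hz2 _ (h x hx) with h' | h'
        · exact Subtype.ext h'
        · exfalso
          apply hzN
          rw [← h']
          exact hx.1
    have h2 : NH ≤ Subgroup.centralizer (Q : Set H) := by
      intro n hn
      rw [Subgroup.mem_centralizer_iff]
      intro q hq
      have hc1 : n * q * n⁻¹ * q⁻¹ ∈ NH := by
        have : n * q * n⁻¹ * q⁻¹ = n * (q * n⁻¹ * q⁻¹) := by group
        rw [this]
        exact NH.mul_mem hn (hNHn.conj_mem _ (NH.inv_mem hn) q)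
      have hc2 : n * q * n⁻¹ * q⁻¹ ∈ Q := by
        exact Q.mul_mem (‹Q.Normal›.conj_mem q hq n) (Q.inv_mem hq)
      have h3 := h1 _ ⟨hc1, hc2⟩
      have h4 : n * q * n⁻¹ = q := by
        rw [mul_inv_eq_one] at h3; exact h3
      have h5 : n * q = q * n := by
        rw [mul_inv_eq_iff_eq_mul] at h4; exact h4
      exact h5.symm
    have hfpf : ∀ n ∈ N, z * n * z⁻¹ = n → n = 1 := by
      intro n hn hzn
      have hnH : n ∈ H := by
        rw [hmemH]
        rw [mul_inv_eq_iff_eq_mul] at hzn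
        exact hzn
      have hnNH : (⟨n, hnH⟩ : H) ∈ NH := hn
      have := h1 _ ⟨hnNH, hC (h2 hnNH)⟩
      exact congrArg Subtype.val this
    have hinv := inverts_of_fpf z hz2 N hfpf
    have hinvs : ∀ n ∈ N, s * n * s⁻¹ = n⁻¹ := by
      intro n hn
      have hn' : g⁻¹ * n * g ∈ N := by
        have := hN.conj_mem n hn g⁻¹
        simpa using this
      have h3 := hinv _ hn'
      calc s * n * s⁻¹ = g * (z * (g⁻¹ * n * g) * z⁻¹) * g⁻¹ := by rw [hs]; group
        _ = g * (g⁻¹ * n * g)⁻¹ * g⁻¹ := by rw [h3]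
        _ = n⁻¹ := by group
    have hCn : (Subgroup.centralizer (N : Set G)).Normal := Subgroup.normal_centralizer
    have hW₂n : ((Subgroup.centralizer (N : Set G)).subgroupOf H ⊓ Q).Normal :=
      Subgroup.normal_inf_normal _ _
    have hzs : zH * sH ∈ ((Subgroup.centralizer (N : Set G)).subgroupOf H ⊓ Q) := by
      refine ⟨?_, Q.mul_mem hzQ hsQ⟩
      show z * s ∈ Subgroup.centralizer (N : Set G)
      rw [Subgroup.mem_centralizer_iff]
      intro n hn
      have h3 : (z * s) * n * (z * s)⁻¹ = n := by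
        calc (z * s) * n * (z * s)⁻¹ = z * (s * n * s⁻¹) * z⁻¹ := by group
          _ = z * n⁻¹ * z⁻¹ := by rw [hinvs n hn]
          _ = (z * n * z⁻¹)⁻¹ := by group
          _ = n := by rw [hinv n hn, inv_inv]
      rw [mul_inv_eq_iff_eq_mul] at h3
      exact h3.symm
    rcases hirr _ hW₂n inf_le_right with h | h
    · have hzC : zH ∈ ((Subgroup.centralizer (N : Set G)).subgroupOf H ⊓ Q) := by
        rw [h]; exact hzQ
      have hzC' : z ∈ Subgroup.centralizer (N : Set G) := hzC.1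
      rw [eq_bot_iff]
      intro n hn
      rw [Subgroup.mem_bot]
      apply hfpf n hn
      have := (Subgroup.mem_centralizer_iff.1 hzC') n hn
      rw [mul_inv_eq_iff_eq_mul]
      exact this.symm
    · exfalso
      rcases mem_zpowers_cases z hz2 _ (h _ hzs) with h' | h'
      · -- z s = 1
        have h'' : z * s = 1 := h'
        apply hsz
        have : s = z⁻¹ := (inv_eq_of_mul_eq_one_right h'').symm
        rw [this, inv_eq_of_mul_eq_one_left hz2]
      · have h'' : z * s = z := h'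
        apply hs1
        exact mul_eq_left.1 h''

theorem result {G : Type*} [Group G] [Finite G] (z : G) (hz : orderOf z = 2) (Q : Subgroup (Subgroup.centralizer ({z} : Set G))) [Q.Normal] (hF : Cfsg.generalizedFittingSubgroup ↥(Subgroup.centralizer ({z} : Set G)) = Q) (hQ : Cfsg.IsExtraspecial 2 ↥Q) (w : ℕ) (hw : 2 ≤ w) (hcard : Nat.card ↥Q = 2 ^ (2 * w + 1)) (hnwc : ∃ g : G, (∃ hq : g * z * g⁻¹ ∈ Subgroup.centralizer ({z} : Set G), (⟨g * z * g⁻¹, hq⟩ : Subgroup.centralizer ({z} : Set G)) ∈ Q) ∧ g * z * g⁻¹ ≠ z) (hsimp : IsSimpleGroup (↥(Subgroup.centralizer ({z} : Set G)) ⧸ Q)) (hna : ¬ IsMulCommutative (↥(Subgroup.centralizer ({z} : Set G)) ⧸ Q)) (hirr : ∀ W : Subgroup (Subgroup.centralizer ({z} : Set G)), W.Normal → W ≤ Q → (W = Q ∨ ∀ x ∈ W, (x : G) ∈ Subgroup.zpowers z)) (hwcl : Subgroup.closure {x : Subgroup.centralizer ({z} : Set G) | IsConj z (x : G)} ≠ Q) : IsSimpleGroup G := by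
  obtain ⟨g, ⟨hsH, hsQ⟩, hsz⟩ := hnwc
  exact core z hz _ (fun x => by
    rw [Subgroup.mem_centralizer_singleton_iff]
    exact ⟨fun h => h.symm, fun h => h.symm⟩) Q hF hQ g hsH hsQ hsz hsimp hna hirr hwcl

end Cfsg.Agent.S5436
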