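import Cfsg.Statements.S5437
import Mathlib

set_option autoImplicit false
open Cfsg

namespace Cfsg.Agent.S5437

/-- Let I be a set of involutions of the finite group G closed under conjugation, and H a subgroup of G. The following are equivalent: (1) for every member x of I lying in H, the conjugates of x lying in H form a single H-class and the centralizer of x lies in H; (2) for every g outside H, no member of I lies in both H and g H g⁻¹; (3) every member of I lying in H fixes exactly one coset in the action of G on the cosets of H. -/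
theorem result {G : Type*} [Group G] [Finite G] (I : Set G) (hI : ∀ x ∈ I, orderOf x = 2) (hIc : ∀ g : G, ∀ x ∈ I, g * x * g⁻¹ ∈ I) (H : Subgroup G) : ((∀ x ∈ I, x ∈ H → (∀ g : G, g * x * g⁻¹ ∈ H → ∃ h ∈ H, h * x * h⁻¹ = g * x * g⁻¹) ∧ Subgroup.centralizer ({x} : Set G) ≤ H) ↔ (∀ g : G, g ∉ H → ∀ x ∈ I, ¬ (x ∈ H ∧ x ∈ (H : Subgroup G).map (MulAut.conj g).toMonoidHom))) ∧ ((∀ g : G, g ∉ H → ∀ x ∈ I, ¬ (x ∈ H ∧ x ∈ (H : Subgroup G).map (MulAut.conj g).toMonoidHom)) ↔ ∀ x ∈ I, x ∈ H → ∃! c : G ⧸ H, x • c = c) := by
  have hmem : ∀ (g x : G), x ∈ (H : Subgroup G).map (MulAut.conj g).toMonoidHom ↔ g⁻¹ * x * g ∈ H := by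
    intro g x
    constructor
    · rintro ⟨y, hy, rfl⟩
      have : g⁻¹ * ((MulAut.conj g).toMonoidHom y) * g = y := by
        simp [MulAut.conj_apply]; group
      rw [this]; exact hy
    · intro h
      refine ⟨g⁻¹ * x * g, h, ?_⟩
      simp [MulAut.conj_apply]; group
  have hfixc : ∀ (g x : G), x • ((g : G) : G ⧸ H) = (g : G ⧸ H) ↔ g⁻¹ * x * g ∈ H := by
    intro g x
    rw [MulAction.Quotient.smul_mk, QuotientGroup.eq]
    constructor
    · intro h
      have h2 := H.inv_mem h
      simpa [mul_assoc] using h2
    · intro h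
      have h2 := H.inv_mem h
      simpa [mul_assoc] using h2
  constructor
  · constructor
    · intro h1 g hg x hx ⟨hxH, hxg⟩
      rw [hmem] at hxg
      obtain ⟨⟨h2, h3⟩⟩ := And.intro (h1 x hx hxH) trivial
      obtain ⟨k, hk, hkx⟩ := h2 g⁻¹ (by simpa using hxg)
      have : g * k ∈ Subgroup.centralizer ({x} : Set G) := by
        rw [Subgroup.mem_centralizer_singleton_iff]
        have : k * x = g⁻¹ * x * g⁻¹⁻¹ * k := by rw [← hkx]; group
        calc g * k * x = g * (k * x) := by group
          _ = g * (g⁻¹ * x * g⁻¹⁻¹ * k) := by rw [this]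
          _ = x * (g * k) := by group
      have h4 := h3 this
      apply hg
      have : g = (g * k) * k⁻¹ := by group
      rw [this]
      exact H.mul_mem h4 (H.inv_mem hk)
    · intro h2 x hx hxH
      constructor
      · intro g hg
        refine ⟨g, ?_, rfl⟩
        by_contra hgH
        refine h2 g hgH (g * x * g⁻¹) (hIc g x hx) ⟨hg, ?_⟩
        rw [hmem]
        have : g⁻¹ * (g * x * g⁻¹) * g = x := by group
        rw [this]; exact hxH
      · intro g hg
        rw [Subgroup.mem_centralizer_singleton_iff] at hg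
        by_contra hgH
        refine h2 g hgH x hx ⟨hxH, ?_⟩
        rw [hmem]
        have : g⁻¹ * x * g = x := by
          calc g⁻¹ * x * g = g⁻¹ * (x * g) := by group
            _ = g⁻¹ * (g * x) := by rw [hg]
            _ = x := by group
        rw [this]; exact hxH
  · constructor
    · intro h2 x hx hxH
      refine ⟨((1 : G) : G ⧸ H), ?_, ?_⟩
      · show x • ((1 : G) : G ⧸ H) = ((1 : G) : G ⧸ H)
        rw [hfixc]; simpa using hxH
      · intro c hc
        induction c using QuotientGroup.induction_on with
        | H g =>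
          by_contra hne
          have hgH : g ∉ H := by
            intro hg
            apply hne
            rw [QuotientGroup.eq]
            simpa using hg
          refine h2 g hgH x hx ⟨hxH, ?_⟩
          rw [hmem]
          exact (hfixc g x).1 hc
    · intro h3 g hg x hx ⟨hxH, hxg⟩
      rw [hmem] at hxg
      obtain ⟨c, _, hc⟩ := h3 x hx hxH
      have e1 : ((1 : G) : G ⧸ H) = c := hc _ ((hfixc 1 x).2 (by simpa using hxH))
      have e2 : ((g : G) : G ⧸ H) = c := hc _ ((hfixc g x).2 hxg)
      have e3 : ((1 : G) : G ⧸ H) = ((g : G) : G ⧸ H) := e1.trans e2.symm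
      rw [QuotientGroup.eq] at e3
      apply hg
      simpa using e3

end Cfsg.Agent.S5437
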