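import Cfsg.Statements.S5438
import Mathlib

set_option autoImplicit false
set_option linter.unusedSimpArgs false
open Cfsg

namespace Cfsg.Agent.S5438

private lemma zpowers_isPGroup {G : Type*} [Group G] [Finite G] {x : G} {k : ℕ} (h : orderOf x = 2 ^ k) :
    IsPGroup 2 (Subgroup.zpowers x) := by
  apply IsPGroup.of_card (n := k)
  rw [Nat.card_zpowers, h]

/-- Elements of 2-power order can be conjugated into a Sylow subgroup (within a group `K`). -/
private lemma exists_conj_mem {K : Type*} [Group K] [Finite K] (Q : Sylow 2 K) (x : K) {k : ℕ}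
    (h : orderOf x = 2 ^ k) : ∃ c : K, c * x * c⁻¹ ∈ (Q : Subgroup K) := by
  have : Fact (Nat.Prime 2) := ⟨Nat.prime_two⟩
  obtain ⟨R, hR⟩ := (zpowers_isPGroup h).exists_le_sylow
  obtain ⟨c, hc⟩ := MulAction.exists_smul_eq K R Q
  refine ⟨c, ?_⟩
  rw [← hc, Sylow.coe_subgroup_smul]
  have hx : x ∈ (R : Subgroup K) := hR (Subgroup.mem_zpowers x)
  exact ⟨x, hx, rfl⟩

/-- Let z be a 2-central involution of the finite group G (an involution central in some Sylow 2-subgroup) and H a subgroup containing z such that the coset H is the only coset of H fixed by z (in the action of G on the cosets of H). Then H has odd index in G, and for every 2-element x of H the conjugates of x lying in H form a single H-class. -/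
theorem result {G : Type*} [Group G] [Finite G] (z : G) (hz : Cfsg.IsTwoCentralInvolution z) (H : Subgroup G) (hzH : z ∈ H) (hfix : ∀ g : G, g⁻¹ * z * g ∈ H → g ∈ H) : Odd H.index ∧ ∀ x ∈ H, (∃ k : ℕ, orderOf x = 2 ^ k) → ∀ g : G, g * x * g⁻¹ ∈ H → ∃ h ∈ H, h * x * h⁻¹ = g * x * g⁻¹ := by
  classical
  have : Fact (Nat.Prime 2) := ⟨Nat.prime_two⟩
  obtain ⟨hz2, P, hzP, hPc⟩ := hz
  -- a 2-subgroup containing z lies in H: it fixes a coset (odd index), and z fixes only H.
  have hCz : Subgroup.centralizer ({z} : Set G) ≤ H := by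
    intro g hg
    rw [Subgroup.mem_centralizer_singleton_iff] at hg
    apply hfix
    have : g⁻¹ * z * g = z := by
      calc g⁻¹ * z * g = g⁻¹ * (z * g) := by group
        _ = g⁻¹ * (g * z) := by rw [hg]
        _ = z := by group
    rw [this]; exact hzH
  have hPH : (P : Subgroup G) ≤ H := by
    intro y hy
    apply hCz
    rw [Subgroup.mem_centralizer_singleton_iff]
    exact hPc y hy
  have hindex : Odd H.index := by
    -- index of H divides index of P, which is odd
    have h1 : ¬ 2 ∣ (P : Subgroup G).index := P.not_dvd_index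
    have h2 : H.index ∣ (P : Subgroup G).index := Subgroup.index_dvd_of_le hPH
    rw [← Nat.not_even_iff_odd, even_iff_two_dvd]
    exact fun h => h1 (h.trans h2)
  -- any 2-subgroup containing z is contained in H
  have h2grp : ∀ U : Subgroup G, IsPGroup 2 U → z ∈ U → U ≤ H := by
    intro U hU hzU
    have hcard : ¬ 2 ∣ Nat.card (G ⧸ H) := by
      rw [← Subgroup.index, ← even_iff_two_dvd, Nat.not_even_iff_odd]
      exact hindex
    obtain ⟨c, hc⟩ := hU.nonempty_fixed_point_of_prime_not_dvd_card (G ⧸ H) hcard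
    induction c using QuotientGroup.induction_on with
    | H g =>
      have hmem : g ∈ H := by
        apply hfix
        have h1 := hc ⟨z, hzU⟩
        have h2 : z • ((g : G) : G ⧸ H) = (g : G ⧸ H) := h1
        rw [MulAction.Quotient.smul_mk, QuotientGroup.eq] at h2
        have h3 := H.inv_mem h2
        simpa [mul_assoc] using h3
      intro u hu
      have h1 := hc ⟨u, hu⟩
      have h2 : u • ((g : G) : G ⧸ H) = (g : G ⧸ H) := h1
      rw [MulAction.Quotient.smul_mk, QuotientGroup.eq] at h2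
      have h3 := H.inv_mem h2
      have h4 : g⁻¹ * u * g ∈ H := by simpa [mul_assoc] using h3
      have : u = g * (g⁻¹ * u * g) * g⁻¹ := by group
      rw [this]
      exact H.mul_mem (H.mul_mem hmem h4) (H.inv_mem hmem)
  refine ⟨hindex, ?_⟩
  -- conjugating 2-elements of H into P inside H
  have hconjP : ∀ x ∈ H, (∃ k : ℕ, orderOf x = 2 ^ k) → ∃ h ∈ H, h * x * h⁻¹ ∈ (P : Subgroup G) := by
    intro x hxH ⟨k, hk⟩
    let P' : Sylow 2 H := P.subtype hPH
    have hx' : orderOf (⟨x, hxH⟩ : H) = 2 ^ k := by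
      rw [← hk]; exact Subgroup.orderOf_mk x hxH
    obtain ⟨c, hc⟩ := exists_conj_mem P' ⟨x, hxH⟩ hx'
    refine ⟨(c : G), c.2, ?_⟩
    have : ((c * ⟨x, hxH⟩ * c⁻¹ : H) : G) ∈ (P : Subgroup G) := by
      have h := hc
      rw [Sylow.coe_subtype] at h
      exact Subgroup.mem_subgroupOf.1 h
    simpa using this
  intro x hxH hxk g hgxH
  obtain ⟨k, hk⟩ := hxk
  have hy2 : ∃ k : ℕ, orderOf (g * x * g⁻¹) = 2 ^ k := by
    refine ⟨k, ?_⟩
    rw [← hk]
    exact (SemiconjBy.orderOf_eq g (show g * x = (g * x * g⁻¹) * g by group)).symm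
  obtain ⟨h₁, hh₁, hx'⟩ := hconjP x hxH ⟨k, hk⟩
  obtain ⟨h₂, hh₂, hy'⟩ := hconjP _ hgxH hy2
  set x' := h₁ * x * h₁⁻¹ with hx'def
  set y' := h₂ * (g * x * g⁻¹) * h₂⁻¹ with hy'def
  set g' := h₂ * g * h₁⁻¹ with hg'
  have hgy : g' * x' * g'⁻¹ = y' := by
    rw [hg', hx'def, hy'def]; group
  -- the centralizer of y'
  set C := Subgroup.centralizer ({y'} : Set G) with hC
  have hzC : z ∈ C := by
    rw [hC, Subgroup.mem_centralizer_singleton_iff]
    exact (hPc y' hy').symm
  set z₁ := g' * z * g'⁻¹ with hz₁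
  have hz₁C : z₁ ∈ C := by
    rw [hC, Subgroup.mem_centralizer_singleton_iff]
    have h1 : x' * z = z * x' := hPc x' hx'
    calc z₁ * y' = g' * (z * x') * g'⁻¹ := by rw [← hgy, hz₁]; group
      _ = g' * (x' * z) * g'⁻¹ := by rw [h1]
      _ = y' * z₁ := by rw [← hgy, hz₁]; group
  have hordz : orderOf (⟨z, hzC⟩ : C) = 2 ^ 1 := by
    rw [Subgroup.orderOf_mk]; simpa using hz2
  have hordz₁ : orderOf (⟨z₁, hz₁C⟩ : C) = 2 ^ 1 := by
    rw [Subgroup.orderOf_mk, hz₁]
    rw [← pow_one 2] at hz2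
    rw [← hz2]
    exact (SemiconjBy.orderOf_eq g' (show g' * z = (g' * z * g'⁻¹) * g' by group)).symm
  obtain ⟨U, hU⟩ := (zpowers_isPGroup hordz).exists_le_sylow
  have hzU : (⟨z, hzC⟩ : C) ∈ (U : Subgroup C) := hU (Subgroup.mem_zpowers _)
  obtain ⟨c, hc⟩ := exists_conj_mem U ⟨z₁, hz₁C⟩ hordz₁
  have hU' : (U : Subgroup C).map C.subtype ≤ H := by
    apply h2grp
    · exact U.2.map _
    · exact ⟨⟨z, hzC⟩, hzU, rfl⟩
  have hc1 : (c : G) * z₁ * (c : G)⁻¹ ∈ H := by
    apply hU'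
    exact ⟨c * ⟨z₁, hz₁C⟩ * c⁻¹, hc, by simp⟩
  have hcg : (c : G) * g' ∈ H := by
    have : ((c : G) * g')⁻¹ ∈ H := by
      apply hfix
      have : ((c : G) * g')⁻¹⁻¹ * z * ((c : G) * g')⁻¹ = (c : G) * z₁ * (c : G)⁻¹ := by
        rw [hz₁]; group
      rw [this]; exact hc1
    simpa using H.inv_mem this
  have hcy : (c : G) * y' = y' * (c : G) := by
    have := c.2
    rwa [Subgroup.mem_centralizer_singleton_iff] at this
  refine ⟨h₂⁻¹ * ((c : G) * g') * h₁, H.mul_mem (H.mul_mem (H.inv_mem hh₂) hcg) hh₁, ?_⟩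
  have h1 : (c : G) * g' * x' * ((c : G) * g')⁻¹ = y' := by
    calc (c : G) * g' * x' * ((c : G) * g')⁻¹ = (c : G) * (g' * x' * g'⁻¹) * (c : G)⁻¹ := by group
      _ = (c : G) * y' * (c : G)⁻¹ := by rw [hgy]
      _ = y' * (c : G) * (c : G)⁻¹ := by rw [hcy]
      _ = y' := by group
  calc h₂⁻¹ * ((c : G) * g') * h₁ * x * (h₂⁻¹ * ((c : G) * g') * h₁)⁻¹
      = h₂⁻¹ * ((c : G) * g' * x' * ((c : G) * g')⁻¹) * h₂ := by rw [hx'def]; group
    _ = h₂⁻¹ * y' * h₂ := by rw [h1]
    _ = g * x * g⁻¹ := by rw [hy'def]; group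

end Cfsg.Agent.S5438
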