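import Cfsg.Statements.S5439
import Mathlib

set_option autoImplicit false
set_option linter.unusedSimpArgs false
open Cfsg

namespace Cfsg.Agent.S5439

private lemma inv_of_order_two {G : Type*} [Group G] {x : G} (hx : orderOf x = 2) : x⁻¹ = x := by
  have : x ^ 2 = 1 := by rw [← hx]; exact pow_orderOf_eq_one x
  rw [inv_eq_iff_mul_eq_one]
  rwa [pow_two] at this

private lemma order_of_conj {G : Type*} [Group G] {a b : G} (h : IsConj a b) : orderOf a = orderOf b := by
  obtain ⟨c, hc⟩ := h
  exact SemiconjBy.orderOf_eq (c : G) hc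

/-- Two involutions whose product has odd order are conjugate. -/
private lemma conj_of_odd {G : Type*} [Group G] {a b : G} (ia : a⁻¹ = a) (ib : b⁻¹ = b)
    (h : Odd (orderOf (a * b))) : IsConj a b := by
  obtain ⟨k, hk⟩ := h
  set ρ := a * b with hρ
  have hρm : ρ ^ (orderOf ρ) = 1 := pow_orderOf_eq_one ρ
  have aa : a * a = 1 := by
    have := mul_inv_cancel a; rwa [ia] at this
  have bb : b * b = 1 := by
    have := mul_inv_cancel b; rwa [ib] at this
  -- conjugator: ρ ^ (k+1)
  have haρ : a * ρ * a⁻¹ = ρ⁻¹ := by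
    rw [hρ, ia, mul_inv_rev, ia, ib]
    simp only [← mul_assoc, aa, one_mul]
  have haρn : ∀ n : ℕ, a * ρ ^ n * a⁻¹ = (ρ⁻¹) ^ n := by
    intro n
    rw [← conj_pow, haρ]
  -- let s = ρ^(k+1): then s * s = ρ and a * s * a⁻¹ = s⁻¹
  set s := ρ ^ (k + 1) with hs
  have hss : s * s = ρ := by
    rw [hs, ← pow_add, show k + 1 + (k + 1) = (2 * k + 1) + 1 by ring, ← hk, pow_succ, hρm, one_mul]
  have has : a * s * a⁻¹ = s⁻¹ := by
    rw [hs, haρn, inv_pow]
  -- b = a * ρ = a * s * s = s⁻¹ * a * s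
  have : b = s⁻¹ * a * s := by
    have h1 : s⁻¹ = a * s * a⁻¹ := has.symm
    calc b = a * (a * b) := by rw [← mul_assoc, aa, one_mul]
      _ = a * ρ := rfl
      _ = a * (s * s) := by rw [hss]
      _ = (a * s * a⁻¹) * a * s := by group
      _ = s⁻¹ * a * s := by rw [← h1]
  refine isConj_iff.2 ⟨s⁻¹, ?_⟩
  rw [inv_inv, ← this]

/-- Let I and J be two different conjugacy classes of involutions of the finite group G and H a subgroup such that every member of I ∪ J fixes exactly one coset in the action on the cosets of H, and such that for every a in I ∩ H and every b in (I ∪ J) ∩ H different from a and commuting with it, the centralizer of a b lies in H. Then H = G. -/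
theorem result {G : Type*} [Group G] [Finite G] (I J : Set G) (a₀ b₀ : G) (ha₀ : orderOf a₀ = 2) (hb₀ : orderOf b₀ = 2) (hI : I = {x | IsConj a₀ x}) (hJ : J = {x | IsConj b₀ x}) (hIJ : I ≠ J) (H : Subgroup G) (hfix : ∀ x ∈ I ∪ J, ∃! c : G ⧸ H, x • c = c) (hcent : ∀ a ∈ I, a ∈ H → ∀ b ∈ I ∪ J, b ∈ H → a ≠ b → a * b = b * a → Subgroup.centralizer ({a * b} : Set G) ≤ H) : H = ⊤ := by
  classical
  -- fixed point map
  have hIconj : ∀ g : G, ∀ x ∈ I, g * x * g⁻¹ ∈ I := by
    intro g x hx
    rw [hI] at hx ⊢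
    exact IsConj.trans hx (isConj_iff.2 ⟨g, rfl⟩)
  have hJconj : ∀ g : G, ∀ x ∈ J, g * x * g⁻¹ ∈ J := by
    intro g x hx
    rw [hJ] at hx ⊢
    exact IsConj.trans hx (isConj_iff.2 ⟨g, rfl⟩)
  have hIord : ∀ x ∈ I, orderOf x = 2 := by
    intro x hx
    rw [hI] at hx
    rw [← ha₀]; exact (order_of_conj hx).symm
  have hJord : ∀ x ∈ J, orderOf x = 2 := by
    intro x hx
    rw [hJ] at hx
    rw [← hb₀]; exact (order_of_conj hx).symm
  have hIJconj : ∀ a ∈ I, ∀ b ∈ J, ¬ IsConj a b := by
    intro a ha b hb hab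
    apply hIJ
    rw [hI] at ha ⊢
    rw [hJ] at hb ⊢
    ext x
    show IsConj a₀ x ↔ IsConj b₀ x
    have h : IsConj a₀ b₀ := (ha.trans hab).trans hb.symm
    exact ⟨fun hx => h.symm.trans hx, fun hx => h.trans hx⟩
  have hfixc : ∀ (g x : G), x • ((g : G) : G ⧸ H) = (g : G ⧸ H) ↔ g⁻¹ * x * g ∈ H := by
    intro g x
    rw [MulAction.Quotient.smul_mk, QuotientGroup.eq]
    constructor
    · intro h
      have h2 := H.inv_mem h
      simpa [mul_assoc] using h2
    · intro h
      have h2 := H.inv_mem h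
      simpa [mul_assoc] using h2
  -- commuting lemma: if a ∈ I, b ∈ I ∪ J commute and a ≠ b and c is the coset fixed by a,
  -- then the centralizer of ab fixes c.
  have key : ∀ a ∈ I, ∀ b ∈ I ∪ J, a ≠ b → a * b = b * a → ∀ (g : G) , g⁻¹ * a * g ∈ H →
      Subgroup.centralizer ({a * b} : Set G) ≤ H.map (MulAut.conj g).toMonoidHom := by
    intro a ha b hb hne hab g hg
    -- b fixes the coset of a since they commute
    have hagc : a • ((g : G) : G ⧸ H) = (g : G ⧸ H) := (hfixc g a).2 hg
    obtain ⟨c, hc, huniq⟩ := hfix a (Or.inl ha)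
    have hbc : b • ((g : G) : G ⧸ H) = (g : G ⧸ H) := by
      have h1 : a • (b • ((g : G) : G ⧸ H)) = b • ((g : G) : G ⧸ H) := by
        rw [← mul_smul, hab, mul_smul, hagc]
      have h2 := huniq _ h1
      have h3 := huniq _ hagc
      rw [h2, ← h3]
    have hbg : g⁻¹ * b * g ∈ H := (hfixc g b).1 hbc
    have ha' : g⁻¹ * a * g ∈ I := by
      have := hIconj g⁻¹ a ha
      simpa using this
    have hb' : g⁻¹ * b * g ∈ I ∪ J := by
      rcases hb with hb | hb
      · left
        have := hIconj g⁻¹ b hb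
        simpa using this
      · right
        have := hJconj g⁻¹ b hb
        simpa using this
    have hne' : g⁻¹ * a * g ≠ g⁻¹ * b * g := by
      intro h
      apply hne
      simpa using h
    have hcomm' : (g⁻¹ * a * g) * (g⁻¹ * b * g) = (g⁻¹ * b * g) * (g⁻¹ * a * g) := by
      calc (g⁻¹ * a * g) * (g⁻¹ * b * g) = g⁻¹ * (a * b) * g := by group
        _ = g⁻¹ * (b * a) * g := by rw [hab]
        _ = (g⁻¹ * b * g) * (g⁻¹ * a * g) := by group
    have hC := hcent _ ha' hg _ hb' hbg hne' hcomm'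
    intro y hy
    rw [Subgroup.mem_centralizer_singleton_iff] at hy
    refine ⟨g⁻¹ * y * g, hC ?_, ?_⟩
    · rw [Subgroup.mem_centralizer_singleton_iff]
      calc g⁻¹ * y * g * ((g⁻¹ * a * g) * (g⁻¹ * b * g)) = g⁻¹ * (y * (a * b)) * g := by group
        _ = g⁻¹ * ((a * b) * y) * g := by rw [hy]
        _ = (g⁻¹ * a * g) * (g⁻¹ * b * g) * (g⁻¹ * y * g) := by group
    · simp [MulAut.conj_apply]; group
  -- Main claim: for a ∈ I, b ∈ J, a fixed coset of a is fixed by b.
  have main : ∀ a ∈ I, ∀ b ∈ J, ∀ g : G, g⁻¹ * a * g ∈ H → g⁻¹ * b * g ∈ H := by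
    intro a ha b hb g hg
    have ia : a⁻¹ = a := inv_of_order_two (hIord a ha)
    have ib : b⁻¹ = b := inv_of_order_two (hJord b hb)
    have aa : a * a = 1 := by
      have := mul_inv_cancel a; rwa [ia] at this
    have bb : b * b = 1 := by
      have := mul_inv_cancel b; rwa [ib] at this
    have hnodd : ¬ Odd (orderOf (a * b)) := fun h => hIJconj a ha b hb (conj_of_odd ia ib h)
    have heven : Even (orderOf (a * b)) := Nat.not_odd_iff_even.1 hnodd
    obtain ⟨m, hm⟩ := heven
    have hm0 : m ≠ 0 := by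
      intro h0
      have : orderOf (a * b) = 0 := by rw [hm, h0]
      exact (orderOf_pos (a * b)).ne' this
    set ρ := a * b with hρ
    set w := ρ ^ m with hw
    have hwne : w ≠ 1 := by
      intro h
      have := orderOf_dvd_of_pow_eq_one h
      rw [hm] at this
      have hpos : 0 < m := Nat.pos_of_ne_zero hm0
      have := Nat.le_of_dvd hpos this
      omega
    have hww : w * w = 1 := by
      rw [hw, ← pow_add, ← hm, pow_orderOf_eq_one]
    have iw : w⁻¹ = w := by
      rw [inv_eq_iff_mul_eq_one]; exact hww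
    -- a inverts ρ, b inverts ρ
    have haρ : a * ρ * a⁻¹ = ρ⁻¹ := by
      rw [hρ, ia, mul_inv_rev, ia, ib]
      simp only [← mul_assoc, aa, one_mul]
    have hbρ : b * ρ * b⁻¹ = ρ⁻¹ := by
      rw [hρ, ib, mul_inv_rev, ia, ib]
      simp only [mul_assoc, bb, mul_one]
    have haw : a * w * a⁻¹ = w := by
      rw [hw, ← conj_pow, haρ, inv_pow, ← hw, iw]
    have hbw : b * w * b⁻¹ = w := by
      rw [hw, ← conj_pow, hbρ, inv_pow, ← hw, iw]
    have hacw : a * w = w * a := by
      calc a * w = (a * w * a⁻¹) * a := by group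
        _ = w * a := by rw [haw]
    have hbcw : b * w = w * b := by
      calc b * w = (b * w * b⁻¹) * b := by group
        _ = w * b := by rw [hbw]
    -- a' = a * w commutes with a and is conjugate to a or b according to the parity of m
    have hcent_w : ∀ x : G, x * w = w * x → x ∈ Subgroup.centralizer ({a * (a * w)} : Set G) := by
      intro x hx
      have haw' : a * (a * w) = w := by rw [← mul_assoc, aa, one_mul]
      rw [Subgroup.mem_centralizer_singleton_iff, haw']
      exact hx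
    have ha'in : a * w ∈ I ∪ J := by
      rcases Nat.even_or_odd m with hpar | hpar
      · -- m even: a * w is conjugate to a
        left
        obtain ⟨n, hn⟩ := hpar
        have hwr : w = ρ ^ n * ρ ^ n := by rw [hw, hn, pow_add]
        set r := ρ ^ n with hr
        have har : a * r * a⁻¹ = r⁻¹ := by
          rw [hr, ← conj_pow, haρ, inv_pow]
        have : a * w = r⁻¹ * a * r := by
          have h1 : r⁻¹ = a * r * a⁻¹ := har.symm
          rw [hwr]
          calc a * (r * r) = (a * r * a⁻¹) * a * r := by group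
            _ = r⁻¹ * a * r := by rw [← h1]
        rw [this]
        have := hIconj r⁻¹ a ha
        simpa using this
      · -- m odd: a * w is conjugate to b
        right
        obtain ⟨n, hn⟩ := hpar
        have hwr : a * w = a * ρ * (ρ ^ n * ρ ^ n) := by
          rw [hw, hn, pow_succ', two_mul, pow_add, mul_assoc]
          rw [hρ]; simp only [mul_assoc]
        have hab' : a * ρ = b := by
          rw [hρ, ← mul_assoc, aa, one_mul]
        rw [hab'] at hwr
        set r := ρ ^ n with hr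
        have hbr : b * r * b⁻¹ = r⁻¹ := by
          rw [hr, ← conj_pow, hbρ, inv_pow]
        have : a * w = r⁻¹ * b * r := by
          have h1 : r⁻¹ = b * r * b⁻¹ := hbr.symm
          rw [hwr]
          calc b * (r * r) = (b * r * b⁻¹) * b * r := by group
            _ = r⁻¹ * b * r := by rw [← h1]
        rw [this]
        have := hJconj r⁻¹ b hb
        simpa using this
    have hne : a ≠ a * w := by
      intro h
      apply hwne
      have : a * w = a * 1 := by rw [← h, mul_one]
      exact mul_left_cancel this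
    have hcomm : a * (a * w) = (a * w) * a := by
      rw [mul_assoc, ← hacw]
    have hK := key a ha (a * w) ha'in hne hcomm g hg
    have hbK : b ∈ H.map (MulAut.conj g).toMonoidHom := hK (hcent_w b hbcw)
    obtain ⟨y, hy, hyb⟩ := hbK
    have : g⁻¹ * b * g = y := by
      rw [← hyb]; simp [MulAut.conj_apply]; group
    rw [this]; exact hy
  -- a fixed point for a₀
  have ha₀I : a₀ ∈ I := by rw [hI]; exact IsConj.refl a₀
  have hb₀J : b₀ ∈ J := by rw [hJ]; exact IsConj.refl b₀
  obtain ⟨c₀, hc₀, hu₀⟩ := hfix a₀ (Or.inl ha₀I)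
  induction c₀ using QuotientGroup.induction_on with
  | H g₀ =>
    have hg₀ : g₀⁻¹ * a₀ * g₀ ∈ H := (hfixc g₀ a₀).1 hc₀
    -- Every element of G fixes the coset g₀H.
    have hb1 : g₀⁻¹ * b₀ * g₀ ∈ H := main a₀ ha₀I b₀ hb₀J g₀ hg₀
    obtain ⟨c₁, hc₁, hu₁⟩ := hfix b₀ (Or.inr hb₀J)
    -- for any x, the coset x g₀ H is fixed by b₀ too:
    have hall : ∀ x : G, (x * g₀ : G) = (x * g₀ : G) ∧ ((x * g₀ : G) : G ⧸ H) = (g₀ : G ⧸ H) := by
      intro x
      refine ⟨rfl, ?_⟩
      -- x g₀ H is fixed by x a₀ x⁻¹, hence (main) by b₀.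
      have h1 : (x * g₀)⁻¹ * (x * a₀ * x⁻¹) * (x * g₀) ∈ H := by
        have : (x * g₀)⁻¹ * (x * a₀ * x⁻¹) * (x * g₀) = g₀⁻¹ * a₀ * g₀ := by group
        rw [this]; exact hg₀
      have h2 := main (x * a₀ * x⁻¹) (hIconj x a₀ ha₀I) b₀ hb₀J (x * g₀) h1
      have h3 : b₀ • ((x * g₀ : G) : G ⧸ H) = ((x * g₀ : G) : G ⧸ H) := (hfixc _ _).2 h2
      have h4 : b₀ • ((g₀ : G) : G ⧸ H) = ((g₀ : G) : G ⧸ H) := (hfixc _ _).2 hb1
      rw [hu₁ _ h3, hu₁ _ h4]
    rw [eq_top_iff]
    intro x _
    have h := (hall (g₀ * x⁻¹ * g₀⁻¹)).2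
    rw [QuotientGroup.eq] at h
    have h2 : (g₀ * x⁻¹ * g₀⁻¹ * g₀)⁻¹ * g₀ = x := by group
    rwa [h2] at h

end Cfsg.Agent.S5439
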