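import Cfsg.Statements.S5459
import Mathlib

set_option autoImplicit false
set_option linter.unusedSimpArgs false
set_option linter.unusedVariables false
open Cfsg

namespace Cfsg.Agent.S5459

private lemma comm_central {K : Type*} [Group K] (z₁ z₂ u v : K) (h₁ : ∀ y, z₁ * y = y * z₁)
    (h₂ : ∀ y, z₂ * y = y * z₂) :
    z₁ * u * (z₂ * v) * (z₁ * u)⁻¹ * (z₂ * v)⁻¹ = u * v * u⁻¹ * v⁻¹ := by
  have a1 : z₁ * u * (z₂ * v) = z₁ * z₂ * (u * v) := by
    calc z₁ * u * (z₂ * v) = z₁ * (u * z₂) * v := by group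
      _ = z₁ * (z₂ * u) * v := by rw [h₂ u]
      _ = z₁ * z₂ * (u * v) := by group
  have a3 : z₂ * v * (z₁ * u) = z₁ * z₂ * (v * u) := by
    calc z₂ * v * (z₁ * u) = z₂ * (v * z₁) * u := by group
      _ = z₂ * (z₁ * v) * u := by rw [h₁ v]
      _ = (z₂ * z₁) * (v * u) := by group
      _ = (z₁ * z₂) * (v * u) := by rw [h₁ z₂]
  have hc : ∀ y, (z₁ * z₂) * y = y * (z₁ * z₂) := by
    intro y
    calc (z₁ * z₂) * y = z₁ * (z₂ * y) := by group
      _ = z₁ * (y * z₂) := by rw [h₂ y]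
      _ = (z₁ * y) * z₂ := by group
      _ = (y * z₁) * z₂ := by rw [h₁ y]
      _ = y * (z₁ * z₂) := by group
  calc z₁ * u * (z₂ * v) * (z₁ * u)⁻¹ * (z₂ * v)⁻¹
      = (z₁ * u * (z₂ * v)) * (z₂ * v * (z₁ * u))⁻¹ := by group
    _ = (z₁ * z₂ * (u * v)) * (z₁ * z₂ * (v * u))⁻¹ := by rw [a1, a3]
    _ = (z₁ * z₂) * ((u * v) * (v * u)⁻¹) * (z₁ * z₂)⁻¹ := by group
    _ = ((u * v) * (v * u)⁻¹) * (z₁ * z₂) * (z₁ * z₂)⁻¹ := by rw [hc]
    _ = u * v * u⁻¹ * v⁻¹ := by group

/-- Let G be a finite group with a quasisimple normal subgroup L and an involution d such that G is generated by L and d, the centre of L has odd order, and d inverts every element of the centre of L. If the commuting graph on the conjugacy class of the image of d in G modulo the centre of L is connected, then the commuting graph on the conjugacy class of d is connected. -/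
theorem result {G : Type*} [Group G] [Finite G] (L : Subgroup G) [L.Normal] (hL : Cfsg.IsQuasisimple ↥L) (d : G) (hd : orderOf d = 2) (hgen : L ⊔ Subgroup.zpowers d = ⊤) (hodd : Odd (Nat.card ↥(Subgroup.center ↥L))) (hinv : ∀ c ∈ (Subgroup.center ↥L).map L.subtype, d * c * d⁻¹ = c⁻¹) [hn : ((Subgroup.center ↥L).map L.subtype).Normal] (hconn : (Cfsg.commutingGraph (conjugatesOf (QuotientGroup.mk d : G ⧸ (Subgroup.center ↥L).map L.subtype))).Connected) : (Cfsg.commutingGraph (conjugatesOf d)).Connected := by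
  classical
  set Z : Subgroup G := (Subgroup.center ↥L).map L.subtype with hZdef
  -- odd order and roots
  have hcardZ : Nat.card Z = Nat.card ↥(Subgroup.center ↥L) := by
    rw [hZdef]
    exact Nat.card_congr (Subgroup.equivMapOfInjective _ _ L.subtype_injective).symm.toEquiv
  have hoddZ : Odd (Nat.card Z) := by rwa [hcardZ]
  have hroot : ∀ (n : ℕ), (Nat.Coprime (Nat.card Z) n) → ∀ c ∈ Z, ∃ w ∈ Z, w ^ n = c := by
    intro n hcop c hc
    obtain ⟨w, hw⟩ := (powCoprime hcop).surjective (⟨c, hc⟩ : Z)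
    refine ⟨w, w.2, ?_⟩
    have := congrArg Subtype.val hw
    simpa [powCoprime] using this
  have hcop2 : Nat.Coprime (Nat.card Z) 2 := Nat.coprime_two_right.2 hoddZ
  have hcop4 : Nat.Coprime (Nat.card Z) 4 := by
    have : (4 : ℕ) = 2 ^ 2 := by norm_num
    rw [this]
    exact Nat.Coprime.pow_right 2 hcop2
  -- members of D invert Z
  have hDinv : ∀ a : G, a ∈ conjugatesOf d → ∀ c ∈ Z, a * c * a⁻¹ = c⁻¹ := by
    intro a ha c hc
    obtain ⟨g, rfl⟩ := isConj_iff.1 ha
    have hc' : g⁻¹ * c * g ∈ Z := by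
      have := hn.conj_mem c hc g⁻¹
      simpa using this
    have h1 := hinv _ hc'
    calc g * d * g⁻¹ * c * (g * d * g⁻¹)⁻¹ = g * (d * (g⁻¹ * c * g) * d⁻¹) * g⁻¹ := by group
      _ = g * (g⁻¹ * c * g)⁻¹ * g⁻¹ := by rw [h1]
      _ = c⁻¹ := by group
  -- conjugation as a graph automorphism
  have hconjmem : ∀ (g x : G), x ∈ conjugatesOf d → g * x * g⁻¹ ∈ conjugatesOf d := by
    intro g x hx
    exact IsConj.trans hx (isConj_iff.2 ⟨g, rfl⟩)
  let Γ := Cfsg.commutingGraph (conjugatesOf d)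
  let conjD : G → (conjugatesOf d) → (conjugatesOf d) := fun g x => ⟨g * x * g⁻¹, hconjmem g x x.2⟩
  have hadj : ∀ (x y : conjugatesOf d), Γ.Adj x y ↔ x ≠ y ∧ Commute (x : G) (y : G) := by
    intro x y
    show (SimpleGraph.fromRel _).Adj x y ↔ _
    rw [SimpleGraph.fromRel_adj]
    constructor
    · rintro ⟨h1, h2 | h2⟩
      · exact ⟨h1, h2⟩
      · exact ⟨h1, h2.symm⟩
    · rintro ⟨h1, h2⟩
      exact ⟨h1, Or.inl h2⟩
  let conjHom : G → (Γ →g Γ) := fun g =>
    { toFun := conjD g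
      map_rel' := by
        intro x y hxy
        rw [hadj] at hxy ⊢
        refine ⟨?_, ?_⟩
        · intro h
          apply hxy.1
          apply Subtype.ext
          have : g * (x : G) * g⁻¹ = g * (y : G) * g⁻¹ := congrArg Subtype.val h
          simpa using this
        · show g * (x : G) * g⁻¹ * (g * (y : G) * g⁻¹) = g * (y : G) * g⁻¹ * (g * (x : G) * g⁻¹)
          have h2 : (x : G) * y = y * x := hxy.2
          calc g * (x : G) * g⁻¹ * (g * (y : G) * g⁻¹) = g * ((x : G) * y) * g⁻¹ := by group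
            _ = g * ((y : G) * x) * g⁻¹ := by rw [h2]
            _ = _ := by group }
  have hreach_conj : ∀ (g : G) {x y : conjugatesOf d}, Γ.Reachable x y → Γ.Reachable (conjD g x) (conjD g y) :=
    fun g x y h => h.map (conjHom g)
  let dD : conjugatesOf d := ⟨d, mem_conjugatesOf_self⟩
  -- quotient map on classes
  let π : G → G ⧸ Z := fun x => (x : G ⧸ Z)
  have hπconj : ∀ x : conjugatesOf d, π x ∈ conjugatesOf (QuotientGroup.mk d : G ⧸ Z) := by
    rintro ⟨x, hx⟩
    obtain ⟨g, rfl⟩ := isConj_iff.1 hx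
    refine isConj_iff.2 ⟨(g : G ⧸ Z), ?_⟩
    simp [π]
  let φ : conjugatesOf d → conjugatesOf (QuotientGroup.mk d : G ⧸ Z) := fun x => ⟨π x, hπconj x⟩
  let Γ' := Cfsg.commutingGraph (conjugatesOf (QuotientGroup.mk d : G ⧸ Z))
  have hadj' : ∀ (x y : conjugatesOf (QuotientGroup.mk d : G ⧸ Z)), Γ'.Adj x y ↔ x ≠ y ∧ Commute (x : G ⧸ Z) (y : G ⧸ Z) := by
    intro x y
    show (SimpleGraph.fromRel _).Adj x y ↔ _
    rw [SimpleGraph.fromRel_adj]
    constructor
    · rintro ⟨h1, h2 | h2⟩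
      · exact ⟨h1, h2⟩
      · exact ⟨h1, h2.symm⟩
    · rintro ⟨h1, h2⟩
      exact ⟨h1, Or.inl h2⟩
  -- lifting an edge
  have hφsurj : ∀ v : conjugatesOf (QuotientGroup.mk d : G ⧸ Z), ∃ b : conjugatesOf d, φ b = v := by
    rintro ⟨v, hv⟩
    obtain ⟨g, rfl⟩ := isConj_iff.1 hv
    induction g using QuotientGroup.induction_on with
    | H g =>
      refine ⟨⟨g * d * g⁻¹, hconjmem g d mem_conjugatesOf_self⟩, ?_⟩
      apply Subtype.ext
      simp [φ, π]
  have hlift_edge : ∀ (a : conjugatesOf d) (v : conjugatesOf (QuotientGroup.mk d : G ⧸ Z)),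
      Γ'.Adj (φ a) v → ∃ b : conjugatesOf d, φ b = v ∧ Γ.Adj a b := by
    intro a v hv
    rw [hadj'] at hv
    obtain ⟨hne, hcomm⟩ := hv
    obtain ⟨b, rfl⟩ := hφsurj v
    -- the commutator is in Z
    set ζ : G := (a : G) * b * (a : G)⁻¹ * (b : G)⁻¹ with hζ
    have hζZ : ζ ∈ Z := by
      rw [← QuotientGroup.eq_one_iff]
      have h : (QuotientGroup.mk (a : G) : G ⧸ Z) * (QuotientGroup.mk (b : G)) = (QuotientGroup.mk (b : G)) * (QuotientGroup.mk (a : G)) := hcomm
      rw [hζ]
      simp only [QuotientGroup.mk_mul, QuotientGroup.mk_inv]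
      rw [h]
      group
    obtain ⟨w, hwZ, hw⟩ := hroot 4 hcop4 ζ hζZ
    have hwinvZ : w⁻¹ ∈ Z := Z.inv_mem hwZ
    let b' : conjugatesOf d := conjD w b
    refine ⟨b', ?_, ?_⟩
    · apply Subtype.ext
      show π (w * b * w⁻¹) = π b
      simp only [π, QuotientGroup.mk_mul, QuotientGroup.mk_inv]
      have : (QuotientGroup.mk w : G ⧸ Z) = 1 := (QuotientGroup.eq_one_iff w).2 hwZ
      rw [this]; simp
    · rw [hadj]
      refine ⟨?_, ?_⟩
      · intro h
        apply hne
        have : φ a = φ b' := congrArg φ h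
        rw [this]
        apply Subtype.ext
        show π (w * b * w⁻¹) = π b
        simp only [π, QuotientGroup.mk_mul, QuotientGroup.mk_inv]
        have : (QuotientGroup.mk w : G ⧸ Z) = 1 := (QuotientGroup.eq_one_iff w).2 hwZ
        rw [this]; simp
      · show (a : G) * (w * b * w⁻¹) = (w * b * w⁻¹) * a
        have h1 : (a : G) * w * (a : G)⁻¹ = w⁻¹ := hDinv a a.2 w hwZ
        have h2 : (b : G) * w * (b : G)⁻¹ = w⁻¹ := hDinv b b.2 w hwZ
        have h3 : (a : G) * w = w⁻¹ * a := by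
          calc (a : G) * w = ((a : G) * w * (a : G)⁻¹) * a := by group
            _ = w⁻¹ * a := by rw [h1]
        have h3' : (a : G) * w⁻¹ = w * a := by
          have := hDinv a a.2 w⁻¹ hwinvZ
          calc (a : G) * w⁻¹ = ((a : G) * w⁻¹ * (a : G)⁻¹) * a := by group
            _ = w⁻¹⁻¹ * a := by rw [this]
            _ = w * a := by rw [inv_inv]
        have h4 : (b : G) * w⁻¹ = w * b := by
          have := hDinv b b.2 w⁻¹ hwinvZ
          calc (b : G) * w⁻¹ = ((b : G) * w⁻¹ * (b : G)⁻¹) * b := by group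
            _ = w⁻¹⁻¹ * b := by rw [this]
            _ = w * b := by rw [inv_inv]
        have h5 : (a : G) * b = ζ * b * a := by rw [hζ]; group
        rw [← hw] at h5
        calc (a : G) * (w * b * w⁻¹) = ((a : G) * w) * b * w⁻¹ := by group
          _ = w⁻¹ * ((a : G) * b) * w⁻¹ := by rw [h3]; group
          _ = w⁻¹ * (w ^ 4 * b * a) * w⁻¹ := by rw [h5]
          _ = w ^ 3 * b * ((a : G) * w⁻¹) := by group
          _ = w ^ 3 * b * (w * a) := by rw [h3']
          _ = w ^ 3 * ((b : G) * w) * a := by group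
          _ = w ^ 3 * (w⁻¹ * b) * a := by
            have : (b : G) * w = w⁻¹ * b := by
              calc (b : G) * w = ((b : G) * w * (b : G)⁻¹) * b := by group
                _ = w⁻¹ * b := by rw [h2]
            rw [this]
          _ = w ^ 2 * b * a := by group
          _ = w * (w * b) * a := by rw [pow_two]; simp only [mul_assoc]
          _ = w * ((b : G) * w⁻¹) * a := by rw [h4]
          _ = (w * b * w⁻¹) * a := by group
  -- lifting a walk
  have hlift_walk : ∀ {u v : conjugatesOf (QuotientGroup.mk d : G ⧸ Z)} (p : Γ'.Walk u v) (a : conjugatesOf d),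
      φ a = u → ∃ b : conjugatesOf d, φ b = v ∧ Γ.Reachable a b := by
    intro u v p
    induction p with
    | nil =>
      intro a ha
      exact ⟨a, ha, SimpleGraph.Reachable.refl _⟩
    | cons h p ih =>
      intro a ha
      subst ha
      obtain ⟨c, hc, hac⟩ := hlift_edge a _ h
      obtain ⟨b, hb, hcb⟩ := ih c hc
      exact ⟨b, hb, (SimpleGraph.Adj.reachable hac).trans hcb⟩
  -- the subgroup T
  let T : Subgroup G :=
    { carrier := {g | Γ.Reachable dD (conjD g dD)}
      one_mem' := by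
        show Γ.Reachable dD (conjD 1 dD)
        have : conjD 1 dD = dD := by
          apply Subtype.ext
          show 1 * d * 1⁻¹ = d
          simp
        rw [this]
      mul_mem' := by
        intro g h hg hh
        have hg' : Γ.Reachable dD (conjD g dD) := hg
        have hh' : Γ.Reachable dD (conjD h dD) := hh
        show Γ.Reachable dD (conjD (g * h) dD)
        have h1 := hreach_conj g hh'
        have : conjD g (conjD h dD) = conjD (g * h) dD := by
          apply Subtype.ext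
          show g * (h * d * h⁻¹) * g⁻¹ = (g * h) * d * (g * h)⁻¹
          group
        rw [this] at h1
        exact hg'.trans h1
      inv_mem' := by
        intro g hg
        have hg' : Γ.Reachable dD (conjD g dD) := hg
        show Γ.Reachable dD (conjD g⁻¹ dD)
        have h1 := hreach_conj g⁻¹ hg'
        have : conjD g⁻¹ (conjD g dD) = dD := by
          apply Subtype.ext
          show g⁻¹ * (g * d * g⁻¹) * g⁻¹⁻¹ = d
          group
        rw [this] at h1
        exact h1.symm }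
  have hT : ∀ g, g ∈ T ↔ Γ.Reachable dD (conjD g dD) := fun g => Iff.rfl
  -- G = Z T
  have hZT : ∀ g : G, ∃ w ∈ Z, w * g ∈ T := by
    intro g
    obtain ⟨p⟩ := hconn.preconnected (φ dD) (φ (conjD g dD))
    obtain ⟨b, hb, hrb⟩ := hlift_walk p dD rfl
    -- same fibre
    have hfib : π b = π (g * d * g⁻¹) := congrArg Subtype.val hb
    have hζZ : (b : G) * (g * d * g⁻¹)⁻¹ ∈ Z := by
      rw [← QuotientGroup.eq_one_iff]
      simp only [QuotientGroup.mk_mul, QuotientGroup.mk_inv] at hfib ⊢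
      simp only [π, QuotientGroup.mk_mul, QuotientGroup.mk_inv] at hfib
      rw [hfib]; group
    obtain ⟨w, hwZ, hw⟩ := hroot 2 hcop2 _ hζZ
    refine ⟨w, hwZ, ?_⟩
    rw [hT]
    have : conjD (w * g) dD = b := by
      apply Subtype.ext
      show (w * g) * d * (w * g)⁻¹ = b
      have hbinv : (g * d * g⁻¹) * w⁻¹ * (g * d * g⁻¹)⁻¹ = w := by
        have := hDinv (g * d * g⁻¹) (hconjmem g d mem_conjugatesOf_self) w⁻¹ (Z.inv_mem hwZ)
        rw [this, inv_inv]
      have hbb : (b : G) = w ^ 2 * (g * d * g⁻¹) := by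
        rw [hw]; group
      rw [hbb, pow_two]
      calc (w * g) * d * (w * g)⁻¹ = w * ((g * d * g⁻¹) * w⁻¹ * (g * d * g⁻¹)⁻¹) * (g * d * g⁻¹) := by group
        _ = w * w * (g * d * g⁻¹) := by rw [hbinv]
    rw [this]; exact hrb
  -- L ≤ T
  have hLT : L ≤ T := by
    have hperf : commutator ↥L = ⊤ := hL.1.commutator_eq_top
    have hcomm_le : commutator ↥L ≤ T.subgroupOf L := by
      rw [commutator_def, Subgroup.commutator_le]
      intro u _ v _
      rw [Subgroup.mem_subgroupOf]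
      obtain ⟨w₁, hw₁, hu⟩ := hZT (u : G)
      obtain ⟨w₂, hw₂, hv⟩ := hZT (v : G)
      obtain ⟨z₁, hz₁, hz₁e⟩ := hw₁
      obtain ⟨z₂, hz₂, hz₂e⟩ := hw₂
      have hc₁ : ∀ y : ↥L, z₁ * y = y * z₁ := fun y => (Subgroup.mem_center_iff.1 hz₁ y).symm
      have hc₂ : ∀ y : ↥L, z₂ * y = y * z₂ := fun y => (Subgroup.mem_center_iff.1 hz₂ y).symm
      have h0 := comm_central z₁ z₂ u v hc₁ hc₂
      have hz₁e' : (z₁ : G) = w₁ := hz₁e
      have hz₂e' : (z₂ : G) = w₂ := hz₂e
      have e : (((u * v * u⁻¹ * v⁻¹ : ↥L)) : G) = (w₁ * (u : G)) * (w₂ * (v : G)) * (w₁ * (u : G))⁻¹ * (w₂ * (v : G))⁻¹ := by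
        rw [← h0, ← hz₁e', ← hz₂e']
        simp only [Subgroup.coe_mul, Subgroup.coe_inv]
      rw [commutatorElement_def, e]
      exact T.mul_mem (T.mul_mem (T.mul_mem hu hv) (T.inv_mem hu)) (T.inv_mem hv)
    intro x hx
    have : (⟨x, hx⟩ : ↥L) ∈ commutator ↥L := by rw [hperf]; trivial
    exact Subgroup.mem_subgroupOf.1 (hcomm_le this)
  -- Z ≤ T and hence T = ⊤
  have hZL : Z ≤ L := by
    rintro _ ⟨z, _, rfl⟩
    exact z.2
  have hTtop : ∀ g, g ∈ T := by
    intro g
    obtain ⟨w, hw, hwg⟩ := hZT g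
    have : g = w⁻¹ * (w * g) := by group
    rw [this]
    exact T.mul_mem (T.inv_mem (hLT (hZL hw))) hwg
  have hall : ∀ b : conjugatesOf d, Γ.Reachable dD b := by
    rintro ⟨b, hb⟩
    obtain ⟨g, rfl⟩ := isConj_iff.1 hb
    exact (hT g).1 (hTtop g)
  exact { preconnected := fun u v => (hall u).symm.trans (hall v), nonempty := ⟨dD⟩ }

end Cfsg.Agent.S5459
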