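import Cfsg.Statements.S5541
import Mathlib

set_option autoImplicit false
set_option linter.unusedSimpArgs false
open Cfsg

namespace Cfsg.Agent.S5541

variable {H : Type*} [Group H] {U : Type*} [AddCommGroup U] [Module ℝ U] [FiniteDimensional ℝ U]

/-- the form is nondegenerate by irreducibility -/
private lemma nondeg (ρ : Representation ℝ H U)
    (hirr : ∀ W : Submodule ℝ U, (∀ g : H, W.map (ρ g) ≤ W) → W = ⊥ ∨ W = ⊤)
    (B : LinearMap.BilinForm ℝ U) (hB0 : B ≠ 0)
    (hBi : ∀ (g : H) (u v : U), B (ρ g u) (ρ g v) = B u v) :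
    ∀ u : U, (∀ v, B u v = 0) → u = 0 := by
  -- the left radical
  let W : Submodule ℝ U := LinearMap.ker B
  have hW : ∀ g : H, W.map (ρ g) ≤ W := by
    rintro g _ ⟨u, hu, rfl⟩
    have hu' : B u = 0 := hu
    show B (ρ g u) = 0
    ext v
    have h := hBi g u (ρ g⁻¹ v)
    have h2 : ρ g (ρ g⁻¹ v) = v := by
      rw [← Module.End.mul_apply, ← map_mul]
      simp
    rw [h2] at h
    rw [h, hu']
    simp
  rcases hirr W hW with h | h
  · intro u hu
    have : u ∈ W := by
      show B u = 0
      ext v; exact hu v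
    rw [h] at this
    simpa using this
  · exfalso
    apply hB0
    ext u v
    have : u ∈ W := by rw [h]; trivial
    have hu : B u = 0 := this
    rw [hu]; simp

/-- bilinear products correspond to trilinear forms, via the nondegenerate form -/
private lemma exists_product (B : LinearMap.BilinForm ℝ U)
    (hnd : ∀ u : U, (∀ v, B u v = 0) → u = 0)
    (t : U →ₗ[ℝ] U →ₗ[ℝ] U →ₗ[ℝ] ℝ) :
    ∃ m : U →ₗ[ℝ] U →ₗ[ℝ] U, ∀ u v w, B (m u v) w = t u v w := by
  have hinj : Function.Injective B := by
    rw [injective_iff_map_eq_zero]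
    intro u hu
    apply hnd
    intro v
    rw [hu]; simp
  have hsurj : Function.Surjective B := by
    have hfd : Module.finrank ℝ U = Module.finrank ℝ (U →ₗ[ℝ] ℝ) := by
      simp [Module.finrank_linearMap]
    exact (LinearMap.injective_iff_surjective_of_finrank_eq_finrank hfd).1 hinj
  let e : U ≃ₗ[ℝ] (U →ₗ[ℝ] ℝ) := LinearEquiv.ofBijective B ⟨hinj, hsurj⟩
  let m : U →ₗ[ℝ] U →ₗ[ℝ] U :=
    LinearMap.mk₂ ℝ (fun u v => e.symm (t u v))
      (by intro a b c; simp)
      (by intro c a b; simp)
      (by intro a b c; simp)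
      (by intro c a b; simp)
  refine ⟨m, fun u v w => ?_⟩
  have : B (m u v) = t u v := by
    show e (e.symm (t u v)) = t u v
    simp
  rw [this]

private lemma ext_of_form (B : LinearMap.BilinForm ℝ U)
    (hnd : ∀ u : U, (∀ v, B u v = 0) → u = 0) {a b : U} (h : ∀ w, B a w = B b w) : a = b := by
  have : a - b = 0 := by
    apply hnd
    intro v
    rw [map_sub, LinearMap.sub_apply, h, sub_self]
  exact sub_eq_zero.1 this

/-- the trilinear form of a product -/
private noncomputable def triOf (B : LinearMap.BilinForm ℝ U) (m : U →ₗ[ℝ] U →ₗ[ℝ] U) :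
    U →ₗ[ℝ] U →ₗ[ℝ] U →ₗ[ℝ] ℝ :=
  (LinearMap.compr₂ m B)

@[simp] private lemma triOf_apply (B : LinearMap.BilinForm ℝ U) (m : U →ₗ[ℝ] U →ₗ[ℝ] U) (u v w : U) :
    triOf B m u v w = B (m u v) w := rfl

/-- Let ρ be a representation of a group H on a finite-dimensional real vector space U whose only ρ-invariant subspaces are the zero subspace and U, and suppose U carries a non-zero ρ-invariant symmetric bilinear form. Then the following are equivalent: (1) there is a non-zero ρ-equivariant commutative bilinear product on U of which every ρ-equivariant bilinear product is a scalar multiple; (2) there is a non-zero ρ-invariant trilinear form on U that is symmetric under all permutations of its arguments and of which every ρ-invariant trilinear form is a scalar multiple. -/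
theorem result {H : Type*} [Group H] {U : Type*} [AddCommGroup U] [Module ℝ U] [FiniteDimensional ℝ U] (ρ : Representation ℝ H U) (hirr : ∀ W : Submodule ℝ U, (∀ g : H, W.map (ρ g) ≤ W) → W = ⊥ ∨ W = ⊤) (B : LinearMap.BilinForm ℝ U) (hB0 : B ≠ 0) (hBs : ∀ u v, B u v = B v u) (hBi : ∀ (g : H) (u v : U), B (ρ g u) (ρ g v) = B u v) : (∃ m : U →ₗ[ℝ] U →ₗ[ℝ] U, m ≠ 0 ∧ (∀ u v, m u v = m v u) ∧ (∀ (g : H) (u v : U), m (ρ g u) (ρ g v) = ρ g (m u v)) ∧ ∀ m' : U →ₗ[ℝ] U →ₗ[ℝ] U, (∀ (g : H) (u v : U), m' (ρ g u) (ρ g v) = ρ g (m' u v)) → ∃ c : ℝ, m' = c • m) ↔ (∃ t : U →ₗ[ℝ] U →ₗ[ℝ] U →ₗ[ℝ] ℝ, t ≠ 0 ∧ (∀ u v w, t u v w = t v u w ∧ t u v w = t u w v) ∧ (∀ (g : H) (u v w : U), t (ρ g u) (ρ g v) (ρ g w) = t u v w) ∧ ∀ t' : U →ₗ[ℝ] U →ₗ[ℝ] U →ₗ[ℝ] ℝ, (∀ (g : H) (u v w : U), t' (ρ g u) (ρ g v) (ρ g w) = t' u v w) → ∃ c : ℝ, t' = c • t) := by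
  have hnd := nondeg ρ hirr B hB0 hBi
  have hρρ : ∀ (g : H) (v : U), ρ g (ρ g⁻¹ v) = v := by
    intro g v
    rw [← Module.End.mul_apply, ← map_mul]
    simp
  -- equivariance from invariance
  have equiv_of_inv : ∀ (m' : U →ₗ[ℝ] U →ₗ[ℝ] U),
      (∀ (g : H) (u v w : U), B (m' (ρ g u) (ρ g v)) (ρ g w) = B (m' u v) w) →
      ∀ (g : H) (u v : U), m' (ρ g u) (ρ g v) = ρ g (m' u v) := by
    intro m' h g u v
    apply ext_of_form B hnd
    intro w
    have h1 := h g u v (ρ g⁻¹ w)
    rw [hρρ] at h1
    rw [h1]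
    have h2 := hBi g (m' u v) (ρ g⁻¹ w)
    rw [hρρ] at h2
    exact h2.symm
  constructor
  · rintro ⟨m, hm0, hmc, hme, hmu⟩
    -- the trilinear form of m
    set t := triOf B m with ht
    have htinv : ∀ (g : H) (u v w : U), t (ρ g u) (ρ g v) (ρ g w) = t u v w := by
      intro g u v w
      rw [ht, triOf_apply, triOf_apply, hme, hBi]
    have ht0 : t ≠ 0 := by
      intro h0
      apply hm0
      ext u v
      apply ext_of_form B hnd
      intro w
      have : t u v w = 0 := by rw [h0]; simp
      rw [ht, triOf_apply] at this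
      simpa using this
    -- uniqueness for trilinear forms
    have htu : ∀ t' : U →ₗ[ℝ] U →ₗ[ℝ] U →ₗ[ℝ] ℝ, (∀ (g : H) (u v w : U), t' (ρ g u) (ρ g v) (ρ g w) = t' u v w) → ∃ c : ℝ, t' = c • t := by
      intro t' ht'
      obtain ⟨m', hm'⟩ := exists_product B hnd t'
      have he : ∀ (g : H) (u v : U), m' (ρ g u) (ρ g v) = ρ g (m' u v) := by
        apply equiv_of_inv
        intro g u v w
        rw [hm', hm', ht']
      obtain ⟨c, hc⟩ := hmu m' he
      refine ⟨c, ?_⟩
      ext u v w
      rw [← hm', hc]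
      simp [ht]
    -- symmetry in the last two arguments
    have h12 : ∀ u v w, t u v w = t v u w := by
      intro u v w
      rw [ht, triOf_apply, triOf_apply, hmc]
    -- swap of the last two arguments is a multiple of t
    let s : U →ₗ[ℝ] U →ₗ[ℝ] U →ₗ[ℝ] ℝ :=
      LinearMap.mk₂ ℝ (fun u w => (t u).flip w)
        (by intro a b c; ext v; simp)
        (by intro c a b; ext v; simp)
        (by intro a b c; ext v; simp)
        (by intro c a b; ext v; simp)
    have hs : ∀ u v w, s u v w = t u w v := fun u v w => rfl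
    obtain ⟨c, hc⟩ := htu s (by
      intro g u v w
      rw [hs, hs, htinv])
    have hcs : ∀ u v w, t u w v = c * t u v w := by
      intro u v w
      rw [← hs, hc]; simp
    have hcc : c * c = 1 := by
      by_contra hne
      apply ht0
      ext u v w
      have h1 := hcs u v w
      have h2 := hcs u w v
      rw [h1] at h2
      have : (1 - c * c) * t u v w = 0 := by
        have : t u v w = c * (c * t u v w) := h2
        linear_combination this
      have hne' : 1 - c * c ≠ 0 := by
        intro h; apply hne; linarith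
      simpa using (mul_eq_zero.1 this).resolve_left hne'
    have hc1 : c = 1 := by
      have h : c = 1 ∨ c = -1 := by
        have : (c - 1) * (c + 1) = 0 := by linear_combination hcc
        rcases mul_eq_zero.1 this with h | h
        · left; linarith
        · right; linarith
      rcases h with h | h
      · exact h
      · exfalso
        apply ht0
        ext u v w
        have hanti : ∀ x y z, t x z y = - t x y z := by
          intro x y z
          rw [hcs, h]; ring
        -- symmetric in (1,2), antisymmetric in (2,3) ⟹ zero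
        have : t u v w = - t u v w := by
          calc t u v w = t v u w := h12 u v w
            _ = - t v w u := hanti v w u
            _ = - t w v u := by rw [h12 v w u]
            _ = t w u v := by rw [hanti w u v]; ring
            _ = t u w v := h12 w u v
            _ = - t u v w := hanti u v w
        simp; linarith
    refine ⟨t, ht0, ?_, htinv, htu⟩
    intro u v w
    refine ⟨h12 u v w, ?_⟩
    rw [hcs, hc1, one_mul]
  · rintro ⟨t, ht0, hts, hti, htu⟩
    obtain ⟨m, hm⟩ := exists_product B hnd t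
    have hm0 : m ≠ 0 := by
      intro h0
      apply ht0
      ext u v w
      rw [← hm, h0]; simp
    have hmc : ∀ u v, m u v = m v u := by
      intro u v
      apply ext_of_form B hnd
      intro w
      rw [hm, hm]
      exact (hts u v w).1
    have hme : ∀ (g : H) (u v : U), m (ρ g u) (ρ g v) = ρ g (m u v) := by
      apply equiv_of_inv
      intro g u v w
      rw [hm, hm, hti]
    refine ⟨m, hm0, hmc, hme, ?_⟩
    intro m' hm'
    let t' : U →ₗ[ℝ] U →ₗ[ℝ] U →ₗ[ℝ] ℝ := triOf B m'
    have ht'inv : ∀ (g : H) (u v w : U), t' (ρ g u) (ρ g v) (ρ g w) = t' u v w := by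
      intro g u v w
      show B _ _ = B _ _
      rw [hm', hBi]
    obtain ⟨c, hc⟩ := htu t' ht'inv
    refine ⟨c, ?_⟩
    ext u v
    apply ext_of_form B hnd
    intro w
    have h1 : B (m' u v) w = t' u v w := rfl
    rw [h1, hc]
    simp [← hm]

end Cfsg.Agent.S5541
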