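import Cfsg.Statements.S5543
import Cfsg.Agent.Lib.H26.Majorana
import Mathlib

set_option autoImplicit false
set_option linter.unusedSimpArgs false
open Cfsg

namespace Cfsg.Agent.S5543

open Cfsg.Agent.H26.Maj

/-- Let V be a finite-dimensional real vector space with a commutative bilinear product and a positive-definite symmetric bilinear form that associates with the product and satisfies the Norton inequality (the Majorana setting of the definitions). Let X be a group of linear automorphisms of V in which every element squares to the identity, and suppose every non-identity element x of X is a Majorana involution with an axial vector a(x) of squared length 1, such that for any two distinct non-identity x, y the product a(x) ∘ a(y) equals (1/8)(a(x) + a(y) − a(xy)) (the dihedral subalgebra of type 2A whose third axis belongs to the involution xy). Then X has order at most 4. -/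
theorem result {V : Type*} [AddCommGroup V] [Module ℝ V] [FiniteDimensional ℝ V] (mul : V →ₗ[ℝ] V →ₗ[ℝ] V) (B : LinearMap.BilinForm ℝ V) (hV : Cfsg.Axial.IsMajoranaAmbient mul B) (X : Subgroup (V ≃ₗ[ℝ] V)) (hX : ∀ x ∈ X, x * x = 1) (ax : (V ≃ₗ[ℝ] V) → V) (hax : ∀ x ∈ X, x ≠ 1 → Cfsg.Axial.IsMajoranaPair mul B x (ax x)) (h1 : ∀ x ∈ X, x ≠ 1 → B (ax x) (ax x) = 1) (h2A : ∀ x ∈ X, ∀ y ∈ X, x ≠ 1 → y ≠ 1 → x ≠ y → mul (ax x) (ax y) = (1 / 8 : ℝ) • (ax x + ax y - ax (x * y))) : Nat.card ↥X ≤ 4 := by
  classical
  by_contra hcard
  push Not at hcard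
  have hfin : Finite X := by
    apply Nat.finite_of_card_ne_zero
    omega
  have hex : ∀ S : Finset (V ≃ₗ[ℝ] V), S.card ≤ 4 → ∃ z ∈ X, z ∉ S := by
    intro S hS
    by_contra hno
    push Not at hno
    have h0 : Nat.card X ≤ Nat.card S := Nat.card_le_card_of_injective (fun z : X => (⟨z.1, hno z.1 z.2⟩ : S)) (by
      intro u v huv
      apply Subtype.ext
      have := congrArg Subtype.val huv
      exact this)
    have h00 : Nat.card S = S.card := by simp
    rw [h00] at h0
    omega
  obtain ⟨x, hxX, hx⟩ := hex {1} (by simp)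
  obtain ⟨y, hyX, hy⟩ := hex {1, x} (Finset.card_le_two.trans (by norm_num))
  obtain ⟨z, hzX, hz⟩ := hex {1, x, y, x * y} (Finset.card_le_four)
  simp only [Finset.mem_singleton, Finset.mem_insert, not_or] at hx hy hz
  obtain ⟨hy1, hyx⟩ := hy
  obtain ⟨hz1, hzx, hzy, hzxy⟩ := hz
  -- commutation
  have hcomm : ∀ u ∈ X, ∀ v ∈ X, u * v = v * u := by
    intro u hu v hv
    have h := hX (u * v) (X.mul_mem hu hv)
    have hu' : u * u = 1 := hX u hu
    have hv' : v * v = 1 := hX v hv
    calc u * v = u * v * 1 := by rw [mul_one]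
      _ = u * v * (v * u * (v * u)) := by rw [hX (v * u) (X.mul_mem hv hu)]
      _ = (u * (v * v) * u) * (v * u) := by group
      _ = v * u := by rw [hv', mul_one, hu', one_mul]
  have hxx := hX x hxX
  have hyy := hX y hyX
  have hzz := hX z hzX
  have hxy : x * y = y * x := hcomm x hxX y hyX
  have hxz : x * z = z * x := hcomm x hxX z hzX
  have hyz : y * z = z * y := hcomm y hyX z hzX
  -- cancellation helpers
  have canc : ∀ {u v w : V ≃ₗ[ℝ] V}, u * v = u * w → v = w := fun h => mul_left_cancel h
  have canc' : ∀ {u v w : V ≃ₗ[ℝ] V}, v * u = w * u → v = w := fun h => mul_right_cancel h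
  set a := ax x with ha
  set b := ax y with hb
  set c := ax (x * y) with hc
  set d := ax z with hd
  set e := ax (x * z) with he
  set f := ax (y * z) with hf
  set g := ax (x * (y * z)) with hg
  have hxyX := X.mul_mem hxX hyX
  have hxzX := X.mul_mem hxX hzX
  have hyzX := X.mul_mem hyX hzX
  have hxyzX := X.mul_mem hxX hyzX
  -- non-identity facts
  have n_xy : x * y ≠ 1 := by
    intro h
    apply hyx
    have : x * y = x * x := by rw [h, hxx]
    exact canc this
  have n_xz : x * z ≠ 1 := by
    intro h
    apply hzx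
    have : x * z = x * x := by rw [h, hxx]
    exact canc this
  have n_yz : y * z ≠ 1 := by
    intro h
    apply hzy
    have : y * z = y * y := by rw [h, hyy]
    exact canc this
  have n_xyz : x * (y * z) ≠ 1 := by
    intro h
    apply hzxy
    have : (x * y) * z = (x * y) * (x * y) := by
      rw [hX _ hxyX, mul_assoc, h]
    exact canc this
  -- relations: a ∘ b etc.
  have rab : mul a b = (1/8 : ℝ) • (a + b - c) := h2A x hxX y hyX hx hy1 (Ne.symm hyx)
  have rac : mul a c = (1/8 : ℝ) • (a + c - b) := by
    have := h2A x hxX (x * y) hxyX hx n_xy (by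
      intro h
      apply hy1
      have : x * 1 = x * y := by rw [mul_one]; exact h
      exact (canc this).symm)
    have e1 : x * (x * y) = y := by rw [← mul_assoc, hxx, one_mul]
    rwa [e1] at this
  have rad : mul a d = (1/8 : ℝ) • (a + d - e) := h2A x hxX z hzX hx hz1 (Ne.symm hzx)
  have rae : mul a e = (1/8 : ℝ) • (a + e - d) := by
    have := h2A x hxX (x * z) hxzX hx n_xz (by
      intro h
      apply hz1
      have : x * 1 = x * z := by rw [mul_one]; exact h
      exact (canc this).symm)
    have e1 : x * (x * z) = z := by rw [← mul_assoc, hxx, one_mul]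
    rwa [e1] at this
  have raf : mul a f = (1/8 : ℝ) • (a + f - g) := by
    exact h2A x hxX (y * z) hyzX hx n_yz (by
      intro h
      apply hzxy
      have : (x * y) * z = 1 := by rw [mul_assoc, ← h, hxx]
      have h3 : (x * y) * z = (x * y) * (x * y) := by rw [this, hX _ hxyX]
      exact canc h3)
  have rag : mul a g = (1/8 : ℝ) • (a + g - f) := by
    have := h2A x hxX (x * (y * z)) hxyzX hx n_xyz (by
      intro h
      apply n_yz
      have : x * 1 = x * (y * z) := by rw [mul_one]; exact h
      exact (canc this).symm)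
    have e1 : x * (x * (y * z)) = y * z := by rw [← mul_assoc, hxx, one_mul]
    rwa [e1] at this
  have rbd : mul b d = (1/8 : ℝ) • (b + d - f) := h2A y hyX z hzX hy1 hz1 (Ne.symm hzy)
  have rbe : mul b e = (1/8 : ℝ) • (b + e - g) := by
    have := h2A y hyX (x * z) hxzX hy1 n_xz (by
      intro h
      apply hzxy
      rw [h, ← mul_assoc, hxx, one_mul])
    have e1 : y * (x * z) = x * (y * z) := by rw [← mul_assoc, ← hxy, mul_assoc]
    rwa [e1] at this
  have rcd : mul c d = (1/8 : ℝ) • (c + d - g) := by
    have := h2A (x * y) hxyX z hzX n_xy hz1 (Ne.symm hzxy)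
    rwa [mul_assoc] at this
  have rce : mul c e = (1/8 : ℝ) • (c + e - f) := by
    have := h2A (x * y) hxyX (x * z) hxzX n_xy n_xz (by
      intro h
      apply hzy
      exact (canc h).symm)
    have e1 : (x * y) * (x * z) = y * z := by
      calc (x * y) * (x * z) = (y * x) * (x * z) := by rw [hxy]
        _ = y * (x * x) * z := by group
        _ = y * z := by rw [hxx, mul_one]
    rwa [e1] at this
  -- eigenvectors
  have pa := hax x hxX hx
  have u1 : b - c ∈ Cfsg.Axial.eigen mul a (1/4) := by
    rw [mem_eigen, map_sub, rab, rac]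
    module
  have u2 : d - e ∈ Cfsg.Axial.eigen mul a (1/4) := by
    rw [mem_eigen, map_sub, rad, rae]
    module
  have u3 : g - f ∈ Cfsg.Axial.eigen mul a (1/4) := by
    rw [mem_eigen, map_sub, raf, rag]
    module
  have hw : mul (b - c) (d - e) = (1/4 : ℝ) • (g - f) := by
    simp only [map_sub, LinearMap.sub_apply]
    rw [rbd, rbe, rcd, rce]
    module
  have hf1 := fusion_44 pa u1 u2
  have hf2 : mul (b - c) (d - e) ∈ Cfsg.Axial.eigen mul a (1/4) := by
    rw [hw]
    exact Submodule.smul_mem _ _ u3
  have hw0 := inter_10_4 hf1 hf2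
  have hgf : g = f := by
    rw [hw0] at hw
    have : g - f = 0 := by
      have h4 : (1/4 : ℝ) ≠ 0 := by norm_num
      exact (smul_eq_zero.1 hw.symm).resolve_left h4
    exact sub_eq_zero.1 this
  -- the contradiction
  have rfg : mul f g = (1/8 : ℝ) • (f + g - a) := by
    have := h2A (y * z) hyzX (x * (y * z)) hxyzX n_yz n_xyz (by
      intro h
      apply hx
      have : (1 : V ≃ₗ[ℝ] V) * (y * z) = x * (y * z) := by rw [one_mul]; exact h
      exact (canc' this).symm)
    have e1 : (y * z) * (x * (y * z)) = x := by
      have h5 := hX _ hyzX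
      calc (y * z) * (x * (y * z)) = ((y * z) * x) * (y * z) := by simp only [mul_assoc]
        _ = (x * (y * z)) * (y * z) := by rw [hcomm (y * z) hyzX x hxX]
        _ = x * ((y * z) * (y * z)) := by simp only [mul_assoc]
        _ = x := by rw [h5, mul_one]
    rwa [e1] at this
  have hidem : mul f f = f := Pair_idem (hax (y * z) hyzX n_yz)
  rw [hgf, hidem] at rfg
  have haf : a = (-6 : ℝ) • f := by
    have h6 : (8 : ℝ) • f = f + f - a := by
      have h := congrArg (fun v => (8:ℝ) • v) rfg
      simp only [smul_smul] at h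
      rw [h]; norm_num
    have h7 : a = f + f - (8 : ℝ) • f := by rw [h6]; abel
    rw [h7]; module
  have hna : B a a = 1 := h1 x hxX hx
  have hnf : B f f = 1 := h1 (y * z) hyzX n_yz
  rw [haf] at hna
  simp only [map_smul, LinearMap.smul_apply, smul_eq_mul, hnf] at hna
  norm_num at hna

end Cfsg.Agent.S5543
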