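-- Sakuma's theorem for Majorana involutions.
import Cfsg.Statements.S5544
import Cfsg.Agent.Lib.H26.Sak
import Mathlib

set_option autoImplicit false
set_option linter.unusedSimpArgs false
set_option linter.unusedVariables false
open Cfsg

namespace Cfsg.Agent.S5544

open Cfsg.Axial Cfsg.Agent.H26.Maj Cfsg.Agent.H26.Sak

section Aux

variable {V : Type*} [AddCommGroup V] [Module ℝ V]
variable {mul : V →ₗ[ℝ] V →ₗ[ℝ] V} {B : LinearMap.BilinForm ℝ V}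

theorem pair_self_fix {μ : V ≃ₗ[ℝ] V} {a : V} (h : IsMajoranaPair mul B μ a) : μ a = a := by
  apply Pair_fix h
  rw [eigenSum_triple]
  exact Submodule.mem_sup_left (by rw [mem_eigen, Pair_idem h, one_smul])

theorem pair_unique {μ μ' : V ≃ₗ[ℝ] V} {a : V} (h : IsMajoranaPair mul B μ a)
    (h' : IsMajoranaPair mul B μ' a) : μ = μ' := by
  ext v
  obtain ⟨v₁, v₀, v₄, v₃₂, h1, h0, h4, h32, rfl⟩ := Pair_decomp h v
  have hfix : v₁ + v₀ + v₄ ∈ eigenSum mul a {1, 0, 1/4} := by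
    rw [eigenSum_triple]
    refine Submodule.mem_sup.2 ⟨v₁, h1, v₀ + v₄, Submodule.mem_sup.2 ⟨v₀, h0, v₄, h4, rfl⟩, by abel⟩
  rw [map_add, map_add μ', Pair_fix h hfix, Pair_fix h' hfix, Pair_neg h h32, Pair_neg h' h32]

theorem pair_invol {μ : V ≃ₗ[ℝ] V} {a : V} (h : IsMajoranaPair mul B μ a) : μ * μ = 1 := by
  ext v
  obtain ⟨v₁, v₀, v₄, v₃₂, h1, h0, h4, h32, rfl⟩ := Pair_decomp h v
  have hfix : v₁ + v₀ + v₄ ∈ eigenSum mul a {1, 0, 1/4} := by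
    rw [eigenSum_triple]
    refine Submodule.mem_sup.2 ⟨v₁, h1, v₀ + v₄, Submodule.mem_sup.2 ⟨v₀, h0, v₄, h4, rfl⟩, by abel⟩
  show μ (μ (v₁ + v₀ + v₄ + v₃₂)) = v₁ + v₀ + v₄ + v₃₂
  rw [map_add, Pair_fix h hfix, Pair_neg h h32, map_add, Pair_fix h hfix, map_neg, Pair_neg h h32, neg_neg]

/-- Automorphisms of the product and the form. -/
def autSub (mul : V →ₗ[ℝ] V →ₗ[ℝ] V) (B : LinearMap.BilinForm ℝ V) : Subgroup (V ≃ₗ[ℝ] V) where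
  carrier := {φ | (∀ u v, φ (mul u v) = mul (φ u) (φ v)) ∧ ∀ u v, B (φ u) (φ v) = B u v}
  mul_mem' := by
    rintro φ ψ ⟨h1, h2⟩ ⟨h3, h4⟩
    refine ⟨fun u v => ?_, fun u v => ?_⟩
    · show φ (ψ (mul u v)) = mul (φ (ψ u)) (φ (ψ v))
      rw [h3, h1]
    · show B (φ (ψ u)) (φ (ψ v)) = B u v
      rw [h2, h4]
  one_mem' := ⟨fun u v => rfl, fun u v => rfl⟩
  inv_mem' := by
    rintro φ ⟨h1, h2⟩
    refine ⟨fun u v => ?_, fun u v => ?_⟩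
    · apply φ.injective
      show φ (φ.symm (mul u v)) = φ (mul (φ.symm u) (φ.symm v))
      rw [h1]; simp
    · show B (φ.symm u) (φ.symm v) = B u v
      rw [← h2 (φ.symm u) (φ.symm v)]; simp

theorem pair_mem_aut {μ : V ≃ₗ[ℝ] V} {a : V} (h : IsMajoranaPair mul B μ a) : μ ∈ autSub mul B :=
  ⟨h.1, h.2.1⟩

theorem Pair_conj {μ : V ≃ₗ[ℝ] V} {a : V} (h : IsMajoranaPair mul B μ a) (φ : V ≃ₗ[ℝ] V)
    (hφ : φ ∈ autSub mul B) : IsMajoranaPair mul B (φ * μ * φ⁻¹) (φ a) := by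
  have hφ' : φ⁻¹ ∈ autSub mul B := (autSub mul B).inv_mem hφ
  have ha : ∀ u v, φ (mul u v) = mul (φ u) (φ v) := hφ.1
  have hi : ∀ u v, φ⁻¹ (mul u v) = mul (φ⁻¹ u) (φ⁻¹ v) := hφ'.1
  have hss : ∀ w, φ⁻¹ (φ w) = w := fun w => φ.symm_apply_apply w
  obtain ⟨h1, h2, ⟨⟨h3, h4, h5, h6⟩, h7⟩, h8, h9⟩ := h
  refine ⟨fun u v => ?_, fun u v => ?_, ⟨⟨?_, ?_, ?_, ?_⟩, ?_⟩, ?_, ?_⟩
  · show φ (μ (φ⁻¹ (mul u v))) = mul (φ (μ (φ⁻¹ u))) (φ (μ (φ⁻¹ v)))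
    rw [hi, h1, ha]
  · show B (φ (μ (φ⁻¹ u))) (φ (μ (φ⁻¹ v))) = B u v
    rw [hφ.2, h2, hφ'.2]
  · intro h0
    apply h3
    exact (map_eq_zero_iff φ φ.injective).1 h0
  · rw [← ha, h4]
  · rw [eigenSum_map φ ha, h5]
    simp
  · intro c hc' d hd u hu v hv
    rw [eigen_map φ ha] at hu hv
    obtain ⟨u', hu', rfl⟩ := hu
    obtain ⟨v', hv', rfl⟩ := hv
    show mul (φ u') (φ v') ∈ _
    rw [← ha, eigenSum_map φ ha]
    exact ⟨_, h6 c hc' d hd u' hu' v' hv', rfl⟩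
  · rw [eigen_map φ ha, h7, Submodule.map_span]
    simp
  · intro v hv
    rw [eigenSum_map φ ha] at hv
    obtain ⟨w, hw, rfl⟩ := hv
    show φ (μ (φ⁻¹ (φ w))) = φ w
    rw [hss, (show μ w = w from h8 w hw)]
  · intro v hv
    rw [eigen_map φ ha] at hv
    obtain ⟨w, hw, rfl⟩ := hv
    show φ (μ (φ⁻¹ (φ w))) = - φ w
    rw [hss, (show μ w = -w from h9 w hw), map_neg]

/-- The sequence of axes attached to two Majorana pairs. -/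
noncomputable def seqA (ρ : V ≃ₗ[ℝ] V) (a₀ a₁ : V) (i : ℤ) : V :=
  (ρ ^ (i / 2)) (if i % 2 = 0 then a₀ else a₁)

theorem seqA_even (ρ : V ≃ₗ[ℝ] V) (a₀ a₁ : V) (m : ℤ) : seqA ρ a₀ a₁ (2 * m) = (ρ ^ m) a₀ := by
  unfold seqA
  have h1 : 2 * m / 2 = m := by omega
  have h2 : 2 * m % 2 = 0 := by omega
  rw [h1, if_pos h2]

theorem seqA_odd (ρ : V ≃ₗ[ℝ] V) (a₀ a₁ : V) (m : ℤ) : seqA ρ a₀ a₁ (2 * m + 1) = (ρ ^ m) a₁ := by
  unfold seqA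
  have h1 : (2 * m + 1) / 2 = m := by omega
  have h2 : ¬ (2 * m + 1) % 2 = 0 := by omega
  rw [h1, if_neg h2]

/-- The dihedral sequence attached to two pairs. -/
noncomputable def mkDih (hV : IsMajoranaAmbient mul B) {μ₀ μ₁ : V ≃ₗ[ℝ] V} {a₀ a₁ : V}
    (h₀ : IsMajoranaPair mul B μ₀ a₀) (h₁ : IsMajoranaPair mul B μ₁ a₁)
    (hn₀ : B a₀ a₀ = 1) (hn₁ : B a₁ a₁ = 1) : Dih mul B where
  a := seqA (μ₁ * μ₀) a₀ a₁
  τ i := (μ₁ * μ₀) ^ i * μ₀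
  amb := hV
  pair i := by
    have i0 := pair_invol h₀
    have i1 := pair_invol h₁
    set ρ := μ₁ * μ₀ with hρ
    have hρm : ρ ∈ autSub mul B := (autSub mul B).mul_mem (pair_mem_aut h₁) (pair_mem_aut h₀)
    have s0 : SemiconjBy μ₀ ρ ρ⁻¹ := by
      unfold SemiconjBy
      rw [hρ, mul_inv_rev, eq_comm]
      have e0 : μ₀⁻¹ = μ₀ := inv_eq_of_mul_eq_one_left i0
      have e1 : μ₁⁻¹ = μ₁ := inv_eq_of_mul_eq_one_left i1
      rw [e0, e1, mul_assoc]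
    have s1 : SemiconjBy μ₁ ρ ρ⁻¹ := by
      unfold SemiconjBy
      rw [hρ, mul_inv_rev, eq_comm]
      have e0 : μ₀⁻¹ = μ₀ := inv_eq_of_mul_eq_one_left i0
      have e1 : μ₁⁻¹ = μ₁ := inv_eq_of_mul_eq_one_left i1
      rw [e0, e1, ← mul_assoc, i1, one_mul, mul_assoc, i1, mul_one]
    obtain ⟨m, hm | hm⟩ := Int.even_or_odd' i
    · subst hm
      rw [seqA_even]
      have := Pair_conj h₀ (ρ ^ m) ((autSub mul B).zpow_mem hρm m)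
      convert this using 1
      have h2 : μ₀ * ρ ^ (-m) = ρ ^ m * μ₀ := by
        have := (s0.zpow_right (-m)).eq
        rw [this, inv_zpow', neg_neg]
      rw [mul_assoc, ← zpow_neg, h2, ← mul_assoc, ← zpow_add, two_mul]
    · subst hm
      rw [seqA_odd]
      have := Pair_conj h₁ (ρ ^ m) ((autSub mul B).zpow_mem hρm m)
      convert this using 1
      have h2 : μ₁ * ρ ^ (-m) = ρ ^ m * μ₁ := by
        have := (s1.zpow_right (-m)).eq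
        rw [this, inv_zpow', neg_neg]
      rw [mul_assoc, ← zpow_neg, h2, ← mul_assoc, ← zpow_add]
      have h3 : ρ ^ (2 * m + 1) * μ₀ = ρ ^ (2 * m) * (ρ * μ₀) := by
        rw [zpow_add_one, mul_assoc]
      rw [h3, hρ, mul_assoc μ₁, i0, mul_one, two_mul]
  norm i := by
    set ρ := μ₁ * μ₀ with hρ
    have hρm : ρ ∈ autSub mul B := (autSub mul B).mul_mem (pair_mem_aut h₁) (pair_mem_aut h₀)
    obtain ⟨m, hm | hm⟩ := Int.even_or_odd' i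
    · subst hm
      rw [seqA_even, ((autSub mul B).zpow_mem hρm m).2, hn₀]
    · subst hm
      rw [seqA_odd, ((autSub mul B).zpow_mem hρm m).2, hn₁]
  act i j := by
    have i0 := pair_invol h₀
    have i1 := pair_invol h₁
    set ρ := μ₁ * μ₀ with hρ
    have s0 : SemiconjBy μ₀ ρ ρ⁻¹ := by
      unfold SemiconjBy
      rw [hρ, mul_inv_rev, eq_comm]
      have e0 : μ₀⁻¹ = μ₀ := inv_eq_of_mul_eq_one_left i0
      have e1 : μ₁⁻¹ = μ₁ := inv_eq_of_mul_eq_one_left i1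
      rw [e0, e1, mul_assoc]
    have hz : ∀ m : ℤ, μ₀ * ρ ^ m = ρ ^ (-m) * μ₀ := by
      intro m
      have := (s0.zpow_right m).eq
      rw [this, inv_zpow']
    have hinv : ρ⁻¹ = μ₀ * μ₁ := by
      have e0 : μ₀⁻¹ = μ₀ := inv_eq_of_mul_eq_one_left i0
      have e1 : μ₁⁻¹ = μ₁ := inv_eq_of_mul_eq_one_left i1
      rw [hρ, mul_inv_rev, e0, e1]
    have hf0 := pair_self_fix h₀
    have hf1 := pair_self_fix h₁
    obtain ⟨m, hm | hm⟩ := Int.even_or_odd' j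
    · subst hm
      have e : 2 * i - 2 * m = 2 * (i - m) := by ring
      rw [e, seqA_even, seqA_even]
      show (ρ ^ i * μ₀ * ρ ^ m) a₀ = (ρ ^ (i - m)) a₀
      rw [mul_assoc, hz, ← mul_assoc, ← zpow_add, sub_eq_add_neg]
      show (ρ ^ (i + -m)) (μ₀ a₀) = _
      rw [hf0]
    · subst hm
      have e : 2 * i - (2 * m + 1) = 2 * (i - m - 1) + 1 := by ring
      rw [e, seqA_odd, seqA_odd]
      show (ρ ^ i * μ₀ * ρ ^ m) a₁ = (ρ ^ (i - m - 1)) a₁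
      rw [mul_assoc, hz, ← mul_assoc, ← zpow_add]
      have h3 : ρ ^ (i - m - 1) = ρ ^ (i + -m) * ρ⁻¹ := by
        rw [← zpow_neg_one, ← zpow_add]; congr 1
      rw [h3, hinv]
      show (ρ ^ (i + -m)) (μ₀ a₁) = (ρ ^ (i + -m)) (μ₀ (μ₁ a₁))
      rw [hf1]

end Aux

theorem result {V : Type*} [AddCommGroup V] [Module ℝ V] [FiniteDimensional ℝ V] (mul : V →ₗ[ℝ] V →ₗ[ℝ] V) (B : LinearMap.BilinForm ℝ V) (hV : Cfsg.Axial.IsMajoranaAmbient mul B) (μ₀ μ₁ : V ≃ₗ[ℝ] V) (a₀ a₁ : V) (h₀ : Cfsg.Axial.IsMajoranaPair mul B μ₀ a₀) (h₁ : Cfsg.Axial.IsMajoranaPair mul B μ₁ a₁) (hu₀ : ∀ a : V, Cfsg.Axial.IsMajoranaPair mul B μ₀ a → a = a₀) (hu₁ : ∀ a : V, Cfsg.Axial.IsMajoranaPair mul B μ₁ a → a = a₁) (hn₀ : B a₀ a₀ = 1) (hn₁ : B a₁ a₁ = 1) : ∃ n : ℕ, 1 ≤ n ∧ n ≤ 6 ∧ (μ₀ * μ₁) ^ n = 1 := by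
  let D := mkDih hV h₀ h₁ hn₀ hn₁
  obtain ⟨n, h1, h6, hn⟩ := D.exists_axis_eq
  refine ⟨n, h1, h6, ?_⟩
  have i0 := pair_invol h₀
  have i1 := pair_invol h₁
  have hp1 := D.pair (n : ℤ)
  have hp0 := D.pair 0
  rw [hn] at hp1
  have hτ : D.τ (n : ℤ) = D.τ 0 := pair_unique hp1 hp0
  have hτ' : (μ₁ * μ₀) ^ (n : ℤ) * μ₀ = (μ₁ * μ₀) ^ (0 : ℤ) * μ₀ := hτ
  have h2 : (μ₁ * μ₀) ^ (n : ℤ) = 1 := by
    rw [zpow_zero] at hτ'
    exact mul_right_cancel (by rw [hτ'])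
  rw [zpow_natCast] at h2
  have hinv : μ₀ * μ₁ = (μ₁ * μ₀)⁻¹ := by
    have e0 : μ₀⁻¹ = μ₀ := inv_eq_of_mul_eq_one_left i0
    have e1 : μ₁⁻¹ = μ₁ := inv_eq_of_mul_eq_one_left i1
    rw [mul_inv_rev, e0, e1]
  rw [hinv, inv_pow, h2, inv_one]

end Cfsg.Agent.S5544
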