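import Cfsg.Statements.S5545
import Cfsg.Agent.Lib.H26.Majorana2
import Mathlib

set_option autoImplicit false
set_option linter.unusedSimpArgs false
set_option linter.unusedVariables false
open Cfsg

namespace Cfsg.Agent.S5545

open Cfsg.Axial Cfsg.Agent.H26.Maj

variable {V : Type*} [AddCommGroup V] [Module ℝ V]
variable {mul : V →ₗ[ℝ] V →ₗ[ℝ] V} {B : LinearMap.BilinForm ℝ V}

private theorem one_side {μ : V ≃ₗ[ℝ] V} {a b : V} (hamb : IsMajoranaAmbient mul B)
    (h : IsMajoranaPair mul B μ a) (hn : B a a = 1) (hb : μ b = b) (hbi : mul b b = b) :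
    mul a (mul a b) = ((3 / 4 : ℝ) * B a b) • a + (1 / 4 : ℝ) • mul a b ∧
    (2 : ℝ) • mul (b + ((3 : ℝ) * B a b) • a - (4 : ℝ) • mul a b) ((4 : ℝ) • mul a b - ((4 : ℝ) * B a b) • a)
      = (1 - B a b / 2) • ((4 : ℝ) • mul a b - ((4 : ℝ) * B a b) • a) ∧
    B ((4 : ℝ) • mul a b - ((4 : ℝ) * B a b) • a) ((4 : ℝ) • mul a b - ((4 : ℝ) * B a b) • a)
      = 4 * (B a b - (B a b) ^ 2) ∧
    mul a b = (B a b) • a + (1 / 4 : ℝ) • ((4 : ℝ) • mul a b - ((4 : ℝ) * B a b) • a) := by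
  obtain ⟨x, y, hx, hy, hdec⟩ := decomp_of_fixed hamb h hn hb
  set l := B a b with hl
  have hax : mul a x = 0 := by
    have := mem_eigen.1 hx; simpa using this
  have hay : mul a y = (1/4 : ℝ) • y := mem_eigen.1 hy
  have haa : mul a a = a := Pair_idem h
  have hs : mul a b = l • a + (1/4 : ℝ) • y := by
    rw [hdec]
    simp only [map_add, map_smul, haa, hax, hay, add_zero]
  have hy' : y = (4 : ℝ) • mul a b - ((4 : ℝ) * l) • a := by
    rw [hs]; module
  have hx' : x = b + ((3 : ℝ) * l) • a - (4 : ℝ) • mul a b := by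
    have h1 : x = b - l • a - y := by
      rw [hdec]; abel
    nth_rewrite 1 [h1]
    rw [hy']; module
  rw [← hy', ← hx']
  -- the fusion equations
  have hxy : mul x y ∈ eigen mul a (1/4) := fusion_04 h hx hy
  have hxx : mul x x ∈ eigen mul a 0 := fusion_00 h hx hx
  have hyy : mul y y ∈ eigen mul a 1 ⊔ eigen mul a 0 := fusion_44 h hy hy
  have hcomm := Amb_comm hamb
  -- expand b * b = b
  have hexp : mul b b = (l * l) • a + mul x x + mul y y + (l / 2) • y + (2 : ℝ) • mul x y := by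
    rw [hdec]
    simp only [map_add, map_smul, LinearMap.add_apply, LinearMap.smul_apply, haa, hax, hay]
    rw [hcomm x a, hcomm y a, hcomm y x, hax, hay]
    module
  -- M + N = 0
  set M : V := (l * l) • a + mul x x + mul y y - (l • a + x) with hM
  set N : V := (l / 2) • y + (2 : ℝ) • mul x y - y with hN
  have hMN : M + N = 0 := by
    have : mul b b - b = M + N := by
      rw [hexp]
      conv_lhs => rw [hdec]
      rw [hM, hN]; abel
    rw [← this, hbi, sub_self]
  have haeig : a ∈ eigen mul a 1 := by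
    rw [mem_eigen, haa, one_smul]
  have hNmem : N ∈ eigen mul a (1/4) := by
    apply Submodule.sub_mem _ _ hy
    apply Submodule.add_mem
    · exact Submodule.smul_mem _ _ hy
    · exact Submodule.smul_mem _ _ hxy
  have hMmem : M ∈ eigen mul a 1 ⊔ eigen mul a 0 := by
    apply Submodule.sub_mem
    · apply Submodule.add_mem
      · apply Submodule.add_mem
        · exact Submodule.mem_sup_left (Submodule.smul_mem _ _ haeig)
        · exact Submodule.mem_sup_right hxx
      · exact hyy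
    · apply Submodule.add_mem
      · exact Submodule.mem_sup_left (Submodule.smul_mem _ _ haeig)
      · exact Submodule.mem_sup_right hx
  have hMeq : M = -N := eq_neg_of_add_eq_zero_left hMN
  have hN0 : N = 0 := by
    have h2 : -N ∈ eigen mul a (1/4) := Submodule.neg_mem _ hNmem
    rw [← hMeq] at h2
    have := inter_10_4 hMmem h2
    rw [this] at hMeq
    simpa using hMeq.symm
  have hM0 : M = 0 := by rw [hMeq, hN0, neg_zero]
  refine ⟨?_, ?_, ?_, ?_⟩
  · -- a ∘ s
    rw [hs]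
    simp only [map_add, map_smul, haa, hay]
    module
  · -- fusion
    have : (2 : ℝ) • mul x y = y - (l / 2) • y := by
      have h3 : (l / 2) • y + (2 : ℝ) • mul x y - y = 0 := hN0
      have h4 : (2 : ℝ) • mul x y = ((l / 2) • y + (2 : ℝ) • mul x y - y) + (y - (l / 2) • y) := by abel
      rw [h4, h3, zero_add]
    rw [this]; module
  · -- the norm of y
    have hB : B a M = 0 := by rw [hM0]; simp
    have hBxx : B a (mul x x) = 0 := by
      rw [Amb_assoc hamb, hax]; simp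
    have hBx : B a x = 0 := Amb_orth hamb (by norm_num) haeig hx
    have hByy : B a (mul y y) = (1/4 : ℝ) * B y y := by
      rw [Amb_assoc hamb, hay]; simp
    rw [hM] at hB
    simp only [map_add, map_sub, map_smul, hBxx, hBx, hByy, hn, smul_eq_mul] at hB
    nlinarith
  · -- s formula
    exact hs

/-- Let V be a finite-dimensional real vector space with a commutative bilinear product and a positive-definite symmetric bilinear form that associates with the product and satisfies the Norton inequality (the Majorana setting of the definitions). Let μ₀, μ₁ be commuting Majorana involutions with distinct axial vectors a₀ ≠ a₁ of squared length 1, each involution having no other axial vector. Then either a₀ and a₁ are orthogonal with a₀ ∘ a₁ = 0 (type 2B), or their inner product is 1/8 and, with a₂ = a₀ + a₁ − 8 a₀ ∘ a₁, the vector a₂ is an idempotent and a₀ ∘ a₂ = (1/8)(a₀ + a₂ − a₁), a₁ ∘ a₂ = (1/8)(a₁ + a₂ − a₀) (type 2A: the three idempotents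 span a subalgebra with aᵢ ∘ aⱼ = (1/8)(aᵢ + aⱼ − aₖ)). -/
theorem result {V : Type*} [AddCommGroup V] [Module ℝ V] [FiniteDimensional ℝ V] (mul : V →ₗ[ℝ] V →ₗ[ℝ] V) (B : LinearMap.BilinForm ℝ V) (hV : Cfsg.Axial.IsMajoranaAmbient mul B) (μ₀ μ₁ : V ≃ₗ[ℝ] V) (a₀ a₁ : V) (h₀ : Cfsg.Axial.IsMajoranaPair mul B μ₀ a₀) (h₁ : Cfsg.Axial.IsMajoranaPair mul B μ₁ a₁) (hu₀ : ∀ a : V, Cfsg.Axial.IsMajoranaPair mul B μ₀ a → a = a₀) (hu₁ : ∀ a : V, Cfsg.Axial.IsMajoranaPair mul B μ₁ a → a = a₁) (hn₀ : B a₀ a₀ = 1) (hn₁ : B a₁ a₁ = 1) (hc : μ₀ * μ₁ = μ₁ * μ₀) (hne : a₀ ≠ a₁) : (B a₀ a₁ = 0 ∧ mul a₀ a₁ = 0) ∨ (B a₀ a₁ = 1 / 8 ∧ mul (a₀ + a₁ - (8 : ℝ) • mul a₀ a₁) (a₀ + a₁ - (8 : ℝ) • mul a₀ a₁) = a₀ + a₁ - (8 : ℝ) • mul a₀ a₁ ∧ mul a₀ (a₀ + a₁ - (8 : ℝ) • mul a₀ a₁) = (1 / 8 : ℝ) • (a₀ + (a₀ + a₁ - (8 : ℝ) • mul a₀ a₁) - a₁) ∧ mul a₁ (a₀ + a₁ - (8 : ℝ) • mul a₀ a₁) = (1 / 8 : ℝ) • (a₁ + (a₀ + a₁ - (8 : ℝ) • mul a₀ a₁) - a₀)) := by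
  have hcv : ∀ v, μ₀ (μ₁ v) = μ₁ (μ₀ v) := fun v => by
    have := LinearEquiv.congr_fun hc v
    simpa using this
  have hfix₁ : μ₀ a₁ = a₁ :=
    hu₁ _ (Pair_transport h₁ μ₀ (Pair_mul h₀) (fun v => (hcv v).symm))
  have hfix₀ : μ₁ a₀ = a₀ :=
    hu₀ _ (Pair_transport h₀ μ₁ (Pair_mul h₁) (fun v => hcv v))
  have hi₀ : mul a₀ a₀ = a₀ := Pair_idem h₀
  have hi₁ : mul a₁ a₁ = a₁ := Pair_idem h₁
  obtain ⟨A0, B0, C0, D0⟩ := one_side hV h₀ hn₀ hfix₁ hi₁
  obtain ⟨A1, B1, C1, D1⟩ := one_side hV h₁ hn₁ hfix₀ hi₀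
  have hsym : B a₁ a₀ = B a₀ a₁ := Amb_symm hV _ _
  have hcm : mul a₁ a₀ = mul a₀ a₁ := Amb_comm hV _ _
  rw [hsym, hcm] at A1 B1 C1 D1
  set l := B a₀ a₁ with hl
  set s := mul a₀ a₁ with hs
  have hsa₀ : mul s a₀ = mul a₀ s := Amb_comm hV _ _
  have hsa₁ : mul s a₁ = mul a₁ s := Amb_comm hV _ _
  -- the formula for s²
  have E0 : (32 : ℝ) • mul s s = (6 * l) • a₁ + (8 * l - 2) • s + (16 * l ^ 2 + 4 * l) • a₀ := by
    simp only [map_add, map_sub, map_smul, LinearMap.add_apply, LinearMap.sub_apply,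
      LinearMap.smul_apply, hi₀, hcm, hsa₀, A0, A1] at B0
    linear_combination (norm := module) (-1 : ℝ) • B0
  have E1 : (32 : ℝ) • mul s s = (6 * l) • a₀ + (8 * l - 2) • s + (16 * l ^ 2 + 4 * l) • a₁ := by
    simp only [map_add, map_sub, map_smul, LinearMap.add_apply, LinearMap.sub_apply,
      LinearMap.smul_apply, hi₁, ← hs, hsa₁, A0, A1] at B1
    linear_combination (norm := module) (-1 : ℝ) • B1
  have hsub : (2 * l - 16 * l ^ 2) • (a₁ - a₀) = 0 := by
    have := E0.symm.trans E1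
    linear_combination (norm := module) this
  have hne' : a₁ - a₀ ≠ 0 := sub_ne_zero.2 (Ne.symm hne)
  have hl0 : 2 * l - 16 * l ^ 2 = 0 := (smul_eq_zero.1 hsub).resolve_right hne'
  have hcases : l = 0 ∨ l = 1 / 8 := by
    have : l * (1 - 8 * l) = 0 := by nlinarith
    rcases mul_eq_zero.1 this with h | h
    · left; exact h
    · right; linarith
  rcases hcases with h0 | h8
  · left
    refine ⟨h0, ?_⟩
    -- y = 0 by positive-definiteness
    set y : V := (4 : ℝ) • s - ((4 : ℝ) * l) • a₀ with hy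
    have hyy : B y y = 0 := by rw [C0, h0]; norm_num
    have hy0 : y = 0 := by
      by_contra hne
      have := Amb_pos hV hne
      linarith
    rw [hy0, h0] at D0
    simpa using D0
  · right
    have hss : mul s s = (1/32 : ℝ) • ((6 * l) • a₁ + (8 * l - 2) • s + (16 * l ^ 2 + 4 * l) • a₀) := by
      rw [← E0, smul_smul]; norm_num
    rw [h8] at hss A0 A1
    refine ⟨h8, ?_, ?_, ?_⟩
    · simp only [map_add, map_sub, map_smul, LinearMap.add_apply, LinearMap.sub_apply,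
        LinearMap.smul_apply, hi₀, hi₁, hcm, hsa₀, hsa₁, A0, A1, hss, ← hs]
      module
    · simp only [map_add, map_sub, map_smul, hi₀, A0, ← hs]
      module
    · simp only [map_add, map_sub, map_smul, hi₁, hcm, A1]
      module

end Cfsg.Agent.S5545
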