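import Cfsg.Statements.S5546
import Mathlib
import Cfsg.Agent.Lib.H26.Leech

set_option autoImplicit false
set_option linter.unusedSimpArgs false
set_option linter.unusedVariables false
set_option linter.style.haveILetI false
open Cfsg

namespace Cfsg.Agent.S5546

open Cfsg.Spor Cfsg.Agent.H26.Leech Matrix

abbrev L := ↥leechLattice

abbrev F13 := ZMod 13

instance fact13 : Fact (Nat.Prime 13) := ⟨by norm_num⟩

/-- Eight times a unit vector lies in the lattice. -/
theorem single_mem (j : GolayPt) : (Pi.single j 8 : GolayPt → ℤ) ∈ leechLattice := by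
  classical
  rw [mem_leechLattice_iff, mem_leechSet_iff]
  refine ⟨0, fun i => ?_, ?_, ?_⟩
  · unfold Int.ModEq
    by_cases h : i = j
    · subst h
      simp
    · simp [Pi.single_apply, h]
  · simp only [Finset.sum_pi_single', Finset.mem_univ, if_true]
    rfl
  · have : hi (Pi.single j 8) = 0 := by
      funext i
      simp only [hi, hiZ, Pi.zero_apply]
      by_cases h : i = j
      · subst h
        simp
      · simp [Pi.single_apply, h]
    rw [this]
    exact golayCode.zero_mem

def e8 (j : GolayPt) : L := ⟨Pi.single j 8, single_mem j⟩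

/-- The additive map of an element of `Co0`. -/
def gAdd (g : Equiv.Perm L) (hg : g ∈ Co0) : L →+ L := AddMonoidHom.mk' g hg.1

theorem eight_smul_eq (x : L) : (8 : ℤ) • x = ∑ j, (x.1 j) • e8 j := by
  apply Subtype.ext
  funext i
  rw [AddSubgroup.coe_zsmul, AddSubgroup.val_finsetSum]
  rw [Finset.sum_apply]
  simp only [AddSubgroup.coe_zsmul, Pi.smul_apply, smul_eq_mul, e8]
  rw [Finset.sum_eq_single i]
  · simp [mul_comm]
  · intro b _ hb
    simp [Pi.single_apply, hb.symm]
  · simp

/-- The basic formula. -/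
theorem key {g : Equiv.Perm L} (hg : g ∈ Co0) (x : L) (i : GolayPt) :
    8 * (g x).1 i = ∑ j, x.1 j * (g (e8 j)).1 i := by
  have h1 : (8 : ℤ) • g x = ∑ j, (x.1 j) • g (e8 j) := by
    have h2 := congrArg (gAdd g hg) (eight_smul_eq x)
    rw [map_zsmul, map_sum] at h2
    simpa only [map_zsmul, gAdd, AddMonoidHom.mk'_apply] using h2
  have h3 := congrArg (fun y : L => y.1 i) h1
  simp only [AddSubgroup.coe_zsmul, Pi.smul_apply, smul_eq_mul] at h3
  rw [h3, AddSubgroup.val_finsetSum, Finset.sum_apply]
  simp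

/-- The matrix modulo thirteen. -/
def rho (g : Equiv.Perm L) : Matrix GolayPt GolayPt F13 :=
  Matrix.of fun i j => 5 * (((g (e8 j)).1 i : ℤ) : F13)

theorem five_eight : (5 : F13) * 8 = 1 := by decide

theorem rho_mul {g h : Equiv.Perm L} (hg : g ∈ Co0) : rho (g * h) = rho g * rho h := by
  ext i j
  rw [Matrix.mul_apply]
  simp only [rho, Matrix.of_apply, Equiv.Perm.mul_apply]
  have h1 := key hg (h (e8 j)) i
  have h2 := congrArg (fun z : ℤ => (z : F13)) h1
  simp only [Int.cast_mul, Int.cast_sum, Int.cast_ofNat] at h2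
  calc 5 * (((g (h (e8 j))).1 i : ℤ) : F13)
      = 5 * (5 * (8 * (((g (h (e8 j))).1 i : ℤ) : F13))) := by
        rw [← mul_assoc 5 8, five_eight, one_mul]
    _ = 5 * (5 * ∑ k, (((h (e8 j)).1 k : ℤ) : F13) * (((g (e8 k)).1 i : ℤ) : F13)) := by rw [h2]
    _ = _ := by
        rw [Finset.mul_sum, Finset.mul_sum]
        exact Finset.sum_congr rfl fun k _ => by ring

theorem rho_one : rho 1 = 1 := by
  ext i j
  simp only [rho, Matrix.of_apply, Equiv.Perm.one_apply, e8, Matrix.one_apply]
  by_cases h : i = j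
  · subst h
    simp
    decide
  · simp [Pi.single_apply, h]

/-- Elements of `Co0` preserve the inner products. -/
theorem dot_preserved {g : Equiv.Perm L} (hg : g ∈ Co0) (x y : L) :
    dotInt (g x).1 (g y).1 = dotInt x.1 y.1 := by
  have hexp : ∀ a b : GolayPt → ℤ, sqNorm (a + b) = sqNorm a + sqNorm b + 2 * dotInt a b := by
    intro a b
    unfold sqNorm dotInt
    rw [← Finset.sum_add_distrib, Finset.mul_sum, ← Finset.sum_add_distrib]
    exact Finset.sum_congr rfl fun i _ => by simp only [Pi.add_apply]; ring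
  have h1 := hg.2 (x + y)
  rw [hg.1] at h1
  have h2 : sqNorm ((g x + g y : L) : GolayPt → ℤ) = sqNorm ((g x).1 + (g y).1) := rfl
  have h3 : sqNorm ((x + y : L) : GolayPt → ℤ) = sqNorm (x.1 + y.1) := rfl
  rw [h2, h3, hexp, hexp, hg.2 x, hg.2 y] at h1
  omega

theorem dot_e8 (a b : GolayPt) : dotInt (e8 a).1 (e8 b).1 = if a = b then 64 else 0 := by
  simp only [dotInt, e8]
  by_cases h : a = b
  · subst h
    rw [if_pos rfl, Finset.sum_eq_single a]
    · simp
    · intro c _ hc
      simp [Pi.single_apply, hc]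
    · simp
  · rw [if_neg h]
    apply Finset.sum_eq_zero
    intro c _
    by_cases hc : c = a
    · subst hc
      simp [Pi.single_apply, h]
    · simp [Pi.single_apply, hc]

theorem rho_orth {g : Equiv.Perm L} (hg : g ∈ Co0) : (rho g)ᵀ * rho g = 1 := by
  ext a b
  rw [Matrix.mul_apply]
  simp only [Matrix.transpose_apply, rho, Matrix.of_apply, Matrix.one_apply]
  have h1 := dot_preserved hg (e8 a) (e8 b)
  rw [dot_e8] at h1
  have h2 := congrArg (fun z : ℤ => (z : F13)) h1
  simp only [dotInt, Int.cast_sum, Int.cast_mul] at h2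
  calc ∑ i, (5 * (((g (e8 a)).1 i : ℤ) : F13)) * (5 * (((g (e8 b)).1 i : ℤ) : F13))
      = 25 * ∑ i, (((g (e8 a)).1 i : ℤ) : F13) * (((g (e8 b)).1 i : ℤ) : F13) := by
        rw [Finset.mul_sum]
        exact Finset.sum_congr rfl fun i _ => by ring
    _ = _ := by
        rw [h2]
        by_cases h : a = b
        · simp [h]; decide
        · simp [h]

/-- The fixed vector modulo thirteen. -/
def uF : GolayPt → F13 := fun i => ((vecU i : ℤ) : F13)

theorem leechU_val : (leechU : L).1 = vecU := rfl

theorem rho_u {g : Equiv.Perm L} (hg : g ∈ Co2) : rho g *ᵥ uF = uF := by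
  funext i
  have h0 : g leechU = leechU := hg.2
  have h1 := key hg.1 leechU i
  rw [h0, leechU_val] at h1
  have h2 := congrArg (fun z : ℤ => (z : F13)) h1
  simp only [Int.cast_mul, Int.cast_sum, Int.cast_ofNat] at h2
  simp only [Matrix.mulVec, dotProduct, rho, Matrix.of_apply, uF]
  calc ∑ j, (5 * (((g (e8 j)).1 i : ℤ) : F13)) * ((vecU j : ℤ) : F13)
      = 5 * ∑ j, ((vecU j : ℤ) : F13) * (((g (e8 j)).1 i : ℤ) : F13) := by
        rw [Finset.mul_sum]
        exact Finset.sum_congr rfl fun j _ => by ring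
    _ = 5 * (8 * ((vecU i : ℤ) : F13)) := by rw [h2]
    _ = _ := by rw [← mul_assoc, five_eight, one_mul]

theorem u_dot_u : uF ⬝ᵥ uF ≠ 0 := by
  decide +kernel

/-- The functional "inner product with the fixed vector". -/
def phi : (GolayPt → F13) →ₗ[F13] F13 where
  toFun x := x ⬝ᵥ uF
  map_add' x y := by simp [add_dotProduct]
  map_smul' c x := by simp [smul_dotProduct]

/-- The orthogonal complement of the fixed vector. -/
def W : Submodule F13 (GolayPt → F13) := LinearMap.ker phi

theorem mem_W {x : GolayPt → F13} : x ∈ W ↔ x ⬝ᵥ uF = 0 := Iff.rfl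

theorem rho_pres {g : Equiv.Perm L} (hg : g ∈ Co2) (x : GolayPt → F13) (hx : x ∈ W) :
    (rho g).mulVecLin x ∈ W := by
  rw [mem_W] at hx ⊢
  rw [Matrix.mulVecLin_apply]
  have h1 : (rho g *ᵥ x) ⬝ᵥ uF = (rho g *ᵥ x) ⬝ᵥ (rho g *ᵥ uF) := by rw [rho_u hg]
  rw [h1, Matrix.dotProduct_mulVec, Matrix.vecMul_mulVec, ← Matrix.dotProduct_mulVec,
    rho_orth hg.1, Matrix.one_mulVec]
  exact hx

theorem finrank_W : Module.finrank F13 W = 23 := by
  have h1 := LinearMap.finrank_range_add_finrank_ker phi
  have h2 : LinearMap.range phi = ⊤ := by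
    apply LinearMap.range_eq_top.2
    intro c
    refine ⟨(c * (uF ⬝ᵥ uF)⁻¹) • uF, ?_⟩
    show ((c * (uF ⬝ᵥ uF)⁻¹) • uF) ⬝ᵥ uF = c
    rw [smul_dotProduct, smul_eq_mul, mul_assoc, inv_mul_cancel₀ u_dot_u, mul_one]
  rw [h2, finrank_top, Module.finrank_self, Module.finrank_fintype_fun_eq_card] at h1
  have h3 : Fintype.card GolayPt = 24 := by decide
  rw [h3] at h1
  show Module.finrank F13 (LinearMap.ker phi) = 23
  omega

noncomputable def b : Module.Basis (Fin 23) F13 W := Module.finBasisOfFinrankEq F13 W finrank_W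

noncomputable def rhoW (g : ↥Co2) : W →ₗ[F13] W :=
  (rho g.1).mulVecLin.restrict (rho_pres g.2)

theorem rhoW_apply (g : ↥Co2) (x : W) : ((rhoW g x : W) : GolayPt → F13) = rho g.1 *ᵥ x.1 := rfl

theorem rhoW_mul (g h : ↥Co2) : rhoW (g * h) = rhoW g ∘ₗ rhoW h := by
  apply LinearMap.ext
  intro x
  apply Subtype.ext
  simp only [LinearMap.comp_apply, rhoW_apply, Subgroup.coe_mul]
  rw [rho_mul g.2.1, Matrix.mulVec_mulVec]

theorem rhoW_one : rhoW 1 = LinearMap.id := by
  apply LinearMap.ext
  intro x
  apply Subtype.ext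
  simp only [rhoW_apply, Subgroup.coe_one, rho_one, Matrix.one_mulVec, LinearMap.id_apply]

noncomputable def f0 : ↥Co2 →* Matrix (Fin 23) (Fin 23) F13 where
  toFun g := LinearMap.toMatrix b b (rhoW g)
  map_one' := by rw [rhoW_one, LinearMap.toMatrix_id]
  map_mul' g h := by rw [rhoW_mul, LinearMap.toMatrix_comp b b b]

theorem rho_eq_one_of {g : ↥Co2} (h : f0 g = 1) : rho g.1 = 1 := by
  have h1 : rhoW g = LinearMap.id := by
    apply (LinearMap.toMatrix b b).injective
    rw [LinearMap.toMatrix_id]
    exact h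
  have h2 : ∀ x ∈ W, rho g.1 *ᵥ x = x := by
    intro x hx
    have := congrArg (fun l : W →ₗ[F13] W => ((l ⟨x, hx⟩ : W) : GolayPt → F13)) h1
    simpa only [rhoW_apply, LinearMap.id_apply] using this
  have h3 : ∀ y, rho g.1 *ᵥ y = y := by
    intro y
    set c : F13 := (y ⬝ᵥ uF) * (uF ⬝ᵥ uF)⁻¹ with hc
    have hx : y - c • uF ∈ W := by
      rw [mem_W, sub_dotProduct, smul_dotProduct, smul_eq_mul, hc, mul_assoc,
        inv_mul_cancel₀ u_dot_u, mul_one, sub_self]
    have h4 := h2 _ hx
    rw [Matrix.mulVec_sub, Matrix.mulVec_smul, rho_u g.2] at h4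
    exact sub_left_inj.1 h4
  ext i j
  have h5 := congrFun (h3 (Pi.single j 1)) i
  rw [Matrix.mulVec_single_one] at h5
  simp only [Matrix.col_apply] at h5
  rw [h5, Matrix.one_apply]
  by_cases hij : i = j
  · subst hij; simp
  · simp [hij, Pi.single_apply]

/-- An integer with square at most 64 congruent mod 13 to a value in {0, 8} has to be this value. -/
theorem int_eq_of_sq (n : ℤ) (hn : n ^ 2 ≤ 64) (h : ((n : ℤ) : F13) = 0) : n = 0 := by
  have h1 : (13 : ℤ) ∣ n := (ZMod.intCast_zmod_eq_zero_iff_dvd n 13).1 (by exact_mod_cast h)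
  obtain ⟨k, rfl⟩ := h1
  have : k = 0 := by
    by_contra hk
    have : 1 ≤ k ^ 2 := by
      have := sq_pos_of_ne_zero (a := k) hk
      omega
    nlinarith
  simp [this]

theorem int_eq_eight (n : ℤ) (hn : n ^ 2 = 64) (h : ((n : ℤ) : F13) = 8) : n = 8 := by
  have h1 : n = 8 ∨ n = -8 := by
    have : (n - 8) * (n + 8) = 0 := by nlinarith
    rcases mul_eq_zero.1 this with h | h
    · left; omega
    · right; omega
  rcases h1 with h1 | h1
  · exact h1
  · subst h1
    exact absurd h (by decide)

theorem perm_eq_one_of {g : ↥Co2} (h : rho g.1 = 1) : g = 1 := by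
  have hg := g.2.1
  have hval : ∀ j, g.1 (e8 j) = e8 j := by
    intro j
    have hnorm : sqNorm (g.1 (e8 j)).1 = 64 := by
      have := dot_preserved hg (e8 j) (e8 j)
      rw [dot_e8, if_pos rfl] at this
      rw [← this]
      simp only [sqNorm, dotInt]
      exact Finset.sum_congr rfl fun i _ => by ring
    have hsq : ∀ i, ((g.1 (e8 j)).1 i) ^ 2 ≤ 64 := by
      intro i
      rw [← hnorm]
      unfold sqNorm
      exact Finset.single_le_sum (f := fun i => ((g.1 (e8 j)).1 i) ^ 2)
        (fun i _ => sq_nonneg _) (Finset.mem_univ i)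
    have hoff : ∀ i, i ≠ j → (g.1 (e8 j)).1 i = 0 := by
      intro i hij
      apply int_eq_of_sq _ (hsq i)
      have h1 := congrFun (congrFun h i) j
      simp only [rho, Matrix.of_apply, Matrix.one_apply, hij, if_false] at h1
      have h2 : (8 : F13) * (5 * (((g.1 (e8 j)).1 i : ℤ) : F13)) = 0 := by rw [h1, mul_zero]
      rw [← mul_assoc] at h2
      have h3 : (8 : F13) * 5 = 1 := by decide
      rwa [h3, one_mul] at h2
    have hdiag : (g.1 (e8 j)).1 j = 8 := by
      apply int_eq_eight
      · rw [← hnorm]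
        unfold sqNorm
        rw [Finset.sum_eq_single j]
        · intro i _ hij
          rw [hoff i hij]
          norm_num
        · simp
      · have h1 := congrFun (congrFun h j) j
        simp only [rho, Matrix.of_apply, Matrix.one_apply, if_true] at h1
        have h2 : (8 : F13) * (5 * (((g.1 (e8 j)).1 j : ℤ) : F13)) = 8 := by rw [h1, mul_one]
        rw [← mul_assoc] at h2
        have h3 : (8 : F13) * 5 = 1 := by decide
        rwa [h3, one_mul] at h2
    apply Subtype.ext
    funext i
    by_cases hij : i = j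
    · subst hij
      rw [hdiag]
      simp [e8]
    · rw [hoff i hij]
      simp [e8, Pi.single_apply, hij]
  apply Subtype.ext
  apply Equiv.ext
  intro x
  apply Subtype.ext
  funext i
  have h1 := key hg x i
  have h2 : 8 * (g.1 x).1 i = 8 * x.1 i := by
    rw [h1]
    simp only [hval]
    rw [Finset.sum_eq_single i]
    · simp [mul_comm, e8]
    · intro k _ hk
      simp [e8, Pi.single_apply, hk.symm]
    · simp
  have h3 : (g.1 x).1 i = x.1 i := by omega
  simpa using h3

/-- The second Conway group (the stabilizer in the Leech lattice automorphism group of the short vector fixed in the definitions) is isomorphic to a subgroup of the general linear group of degree 23 over the field with 13 elements: there is an injective homomorphism into it. -/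
theorem result : ∃ f : ↥Cfsg.Spor.Co2 →* GL (Fin 23) (ZMod 13), Function.Injective f := by
  refine ⟨f0.toHomUnits, ?_⟩
  apply (injective_iff_map_eq_one _).2
  intro g hg
  have h1 : f0 g = 1 := by
    have := congrArg Units.val hg
    simpa using this
  exact perm_eq_one_of (rho_eq_one_of h1)

end Cfsg.Agent.S5546
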