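import Cfsg.Statements.S5548
import Mathlib
import Cfsg.Agent.Lib.H26.GolayModData2

set_option autoImplicit false
set_option linter.unusedSimpArgs false
set_option linter.unusedVariables false
set_option maxRecDepth 100000
open Cfsg
open scoped Pointwise

namespace Cfsg.Agent.S5548

open Cfsg.Agent.H27.Golay Cfsg.Agent.H26.GolayMod

/-- Lookup in the table of coset representatives. -/
def tau (s : ℕ) : ℕ :=
  Nat.land (Nat.shiftRight tauTbl (Nat.mul 120 s)) 1329227995784915872903807060280344575

def cosetOK (s : ℕ) : Bool :=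
  Nat.beq s 0 || (isM24 (tau s) && (inCode (am (tau s) (s <<< 12) ^^^ 1) ||
    inCode (am (tau s) (s <<< 12) ^^^ 3) || inCode (am (tau s) (s <<< 12) ^^^ 7) ||
    inCode (am (tau s) (s <<< 12) ^^^ 15)))

theorem coset_check : allBelow cosetOK 4096 = true := by decide +kernel

def good (x : ℕ) : Bool :=
  Nat.beq x 3 || Nat.beq x 6 || Nat.beq x 12 ||
    (inCode x && !(Nat.beq x 0) && !(Nat.beq x 16777215))

def wordOK (G : List ℕ) (r : ℕ) : Bool :=
  allBelow (fun c => !(allL (fun σ => !(good (am σ (r ^^^ cw c) ^^^ (r ^^^ cw c)))) G)) 4096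

theorem word_check1 : wordOK G1 1 = true := by decide +kernel
theorem word_check3 : wordOK G3 3 = true := by decide +kernel
theorem word_check7 : wordOK G7 7 = true := by decide +kernel
theorem word_check15 : wordOK G15 15 = true := by decide +kernel

theorem G1_ok : ∀ σ ∈ G1, isM24 σ = true := by decide +kernel
theorem G3_ok : ∀ σ ∈ G3, isM24 σ = true := by decide +kernel
theorem G7_ok : ∀ σ ∈ G7, isM24 σ = true := by decide +kernel
theorem G15_ok : ∀ σ ∈ G15, isM24 σ = true := by decide +kernel

theorem exists_of_wordOK {G : List ℕ} {r c : ℕ} (h : wordOK G r = true) (hc : c < 4096) :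
    ∃ σ ∈ G, good (am σ (r ^^^ cw c) ^^^ (r ^^^ cw c)) = true := by
  have h1 := allBelow_spec h c hc
  by_contra hcon
  push Not at hcon
  rw [allL_of] at h1
  · cases h1
  · intro σ hσ
    simpa using hcon σ hσ

theorem wd_eq_single_sum (w : GolayPt → ZMod 2) :
    w = ∑ p, w p • wd (1 <<< idx p) := by
  funext q
  rw [Finset.sum_apply]
  simp only [Pi.smul_apply, smul_eq_mul, wd_apply]
  rw [Finset.sum_eq_single q]
  · simp [Nat.testBit_two_pow, Nat.one_shiftLeft]
  · intro b _ hb
    have hne : idx b ≠ idx q := fun h => hb (idx_injective h)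
    simp [Nat.testBit_two_pow, Nat.one_shiftLeft, hne]
  · simp

theorem Tp_check : allBelow (fun i => Nat.beq i 0 || (isM24 (Tp.getD i 0) && Nat.beq (am (Tp.getD i 0) 3) (1 ^^^ (1 <<< i)))) 24 = true := by
  decide +kernel

section

variable {W : Submodule (ZMod 2) (GolayPt → ZMod 2)} (hW : ∀ σ ∈ M24, ∀ w ∈ W, pw σ w ∈ W)
include hW

/-- All even words from a pair. -/
theorem even_of_pair (h3 : wd 3 ∈ W) (w : GolayPt → ZMod 2) (hw : ∑ p, w p = 0) : w ∈ W := by
  have hi : ∀ i < 24, wd (1 ^^^ (1 <<< i)) ∈ W := by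
    intro i hi
    have h := allBelow_spec Tp_check i hi
    rw [Bool.or_eq_true, Bool.and_eq_true] at h
    rcases h with h | h
    · rw [Nat.eq_of_beq_eq_true h]
      simp [wd_zero]
    have h2 := hW _ (P_mem_M24 h.1) _ h3
    rwa [am_eq_of_lt h.1, Nat.eq_of_beq_eq_true h.2] at h2
  have hsum : w = ∑ p, w p • wd (1 ^^^ (1 <<< idx p)) := by
    have h0 : ∑ p, w p • wd (1 ^^^ (1 <<< idx p)) =
        ∑ p, w p • wd (1 <<< idx p) + (∑ p, w p) • wd 1 := by
      rw [Finset.sum_smul, ← Finset.sum_add_distrib]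
      refine Finset.sum_congr rfl fun p _ => ?_
      rw [wd_xor, smul_add, add_comm]
    rw [h0, hw, zero_smul, add_zero]
    exact wd_eq_single_sum w
  rw [hsum]
  exact W.sum_mem fun p _ => W.smul_mem _ (hi _ (idx_lt p))

omit hW in
theorem code_even {u : GolayPt → ZMod 2} (hu : u ∈ golayCode) : ∑ p, u p = 0 := by
  have h : golayCode ≤ LinearMap.ker (∑ p : GolayPt, LinearMap.proj (R := ZMod 2) (φ := fun _ : GolayPt => ZMod 2) p) := by
    apply Submodule.span_le.2
    rintro x (⟨t, rfl⟩ | rfl)
    · simp only [SetLike.mem_coe, LinearMap.mem_ker, LinearMap.sum_apply, LinearMap.proj_apply]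
      revert t
      decide +kernel
    · simp only [SetLike.mem_coe, LinearMap.mem_ker, LinearMap.sum_apply, LinearMap.proj_apply]
      decide +kernel
  have := h hu
  simpa only [LinearMap.mem_ker, LinearMap.sum_apply, LinearMap.proj_apply] using this

/-- The case of a code word other than `0, 1`. -/
theorem code_le_of_word {u : GolayPt → ZMod 2} (huW : u ∈ W) (huC : u ∈ golayCode)
    (h0 : u ≠ 0) (h1 : u ≠ fun _ => 1) : golayCode ≤ W := by
  have hO : wd O0 ∈ W := by
    have hmO : ∀ x, x ∈ octadL → wd x ∈ W → wd O0 ∈ W := by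
      intro x hx hxW
      obtain ⟨g, hg, hgo⟩ := exists_smul_O0 (fs_mem_octads hx)
      have h2 := hW _ (M24.inv_mem hg) _ hxW
      have h3 : wd x = pw g (wd O0) := by
        apply word_eq_pw_of_smul
        rw [hgo, support_wd]
      rwa [h3, pw_inv_pw] at h2
    rcases code_cases huC with rfl | rfl | ⟨h, hh, rfl⟩ | ⟨h, hh, rfl⟩ | ⟨h, hh, rfl⟩
    · exact absurd rfl h0
    · exact absurd rfl h1
    · have h2 := hW _ (M24.inv_mem hh) _ huW
      rwa [pw_inv_pw] at h2
    · have h2 := hW _ (M24.inv_mem hh) _ huW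
      rw [pw_add, pw_inv_pw, pw_const] at h2
      have hs : isM24 sO = true := by decide +kernel
      have h3 := W.add_mem (hW _ (P_mem_M24 hs) _ h2) h2
      rw [pw_add, pw_const, am_eq_of_lt hs] at h3
      have h4 : wd (am sO O0) + (fun _ => 1) + (wd O0 + fun _ => 1) = wd (am sO O0 ^^^ O0) := by
        rw [wd_xor]
        funext p
        simp only [Pi.add_apply]
        have : ∀ a b : ZMod 2, a + 1 + (b + 1) = a + b := by decide
        exact this _ _
      rw [h4] at h3
      exact hmO _ (by decide +kernel) h3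
    · have h2 := hW _ (M24.inv_mem hh) _ huW
      rw [pw_inv_pw] at h2
      have hs : isM24 sD = true := by decide +kernel
      have h3 := W.add_mem (hW _ (P_mem_M24 hs) _ h2) h2
      rw [am_eq_of_lt hs, ← wd_xor] at h3
      exact hmO _ (by decide +kernel) h3
  have hall : ∀ b ∈ basisL, wd b ∈ W := by
    intro b hb
    have hb' : b ∈ octadL := by
      revert b
      decide +kernel
    obtain ⟨g, hg, hgo⟩ := exists_smul_O0 (fs_mem_octads hb')
    have h3 : wd b = pw g (wd O0) := by
      apply word_eq_pw_of_smul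
      rw [hgo, support_wd]
    rw [h3]
    exact hW _ hg _ hO
  intro w hw
  obtain ⟨c, _, rfl⟩ := exists_cwF_of_mem hw
  exact wd_cwAux_mem W _ hall c

/-- A word outside the code can be normalised. -/
theorem exists_std {w : GolayPt → ZMod 2} (hw : w ∈ W) (hw' : w ∉ golayCode) :
    ∃ r ∈ [1, 3, 7, 15], ∃ c < 4096, wd (r ^^^ cw c) ∈ W := by
  obtain ⟨m, hm, rfl⟩ := exists_wd w
  obtain ⟨c, hc, s, hs, rfl⟩ := exists_decomp m hm
  have hs0 : s ≠ 0 := by
    rintro rfl
    apply hw'
    simpa [wd_zero] using wd_cw_mem hc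
  have hk := allBelow_spec coset_check s hs
  simp only [cosetOK, Bool.or_eq_true, Bool.and_eq_true, Nat.beq_eq] at hk
  rcases hk with hk | ⟨hτ, hk⟩
  · exact absurd hk hs0
  have hlt := shift_lt hs
  have hx := am_lt (isM24_permOK hτ) (s <<< 12)
  have step : ∀ r ∈ [1, 3, 7, 15], inCode (am (tau s) (s <<< 12) ^^^ r) = true →
      ∃ r ∈ [1, 3, 7, 15], ∃ c < 4096, wd (r ^^^ cw c) ∈ W := by
    intro r hr hin
    have hrlt : r < 2 ^ 24 := by
      simp only [List.mem_cons, List.not_mem_nil, or_false] at hr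
      rcases hr with rfl | rfl | rfl | rfl <;> norm_num
    have h1 := hW _ (P_mem_M24 hτ) _ hw
    rw [wd_xor, pw_add, am_eq_of_lt hτ, am_eq_of_lt hτ] at h1
    have hcode : wd (am (tau s) (cw c)) + wd (am (tau s) (s <<< 12) ^^^ r) ∈ golayCode := by
      refine golayCode.add_mem ?_ ((wd_mem_iff (Nat.xor_lt_two_pow hx hrlt)).2 hin)
      rw [← am_eq_of_lt hτ]
      exact pw_mem_code (P_mem_M24 hτ) (wd_cw_mem hc)
    obtain ⟨d, hd, hde⟩ := exists_cwF_of_mem hcode
    refine ⟨r, hr, d, hd, ?_⟩
    rw [wd_xor, cw_eq_cwF d hd, ← hde, wd_xor]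
    convert h1 using 1
    funext p
    simp only [Pi.add_apply]
    have : ∀ a b c : ZMod 2, c + (a + (b + c)) = a + b := by decide
    exact this _ _ _
  rcases hk with ((hk | hk) | hk) | hk
  · exact step 1 (by simp) hk
  · exact step 3 (by simp) hk
  · exact step 7 (by simp) hk
  · exact step 15 (by simp) hk

theorem good_step {r c : ℕ} (hr : r ∈ [1, 3, 7, 15]) (hc : c < 4096) (h : wd (r ^^^ cw c) ∈ W) :
    ∃ x, x < 2 ^ 24 ∧ good x = true ∧ wd x ∈ W := by
  have main : ∀ {G : List ℕ}, (∀ σ ∈ G, isM24 σ = true) → wordOK G r = true →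
      ∃ x, x < 2 ^ 24 ∧ good x = true ∧ wd x ∈ W := by
    intro G hG hw
    obtain ⟨σ, hσ, hg⟩ := exists_of_wordOK hw hc
    have hrlt : r < 2 ^ 24 := by
      simp only [List.mem_cons, List.not_mem_nil, or_false] at hr
      rcases hr with rfl | rfl | rfl | rfl <;> norm_num
    refine ⟨_, Nat.xor_lt_two_pow (am_lt (isM24_permOK (hG σ hσ)) _)
      (Nat.xor_lt_two_pow hrlt (cw_lt c)), hg, ?_⟩
    rw [wd_xor, ← am_eq_of_lt (hG σ hσ)]
    exact W.add_mem (hW _ (P_mem_M24 (hG σ hσ)) _ h) h
  simp only [List.mem_cons, List.not_mem_nil, or_false] at hr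
  rcases hr with rfl | rfl | rfl | rfl
  · exact main G1_ok word_check1
  · exact main G3_ok word_check3
  · exact main G7_ok word_check7
  · exact main G15_ok word_check15

theorem pair_of_move {x y s : ℕ} (hs : isM24 s = true) (hxy : am s x = y) (hx : wd x ∈ W) :
    wd y ∈ W := by
  have := hW _ (P_mem_M24 hs) _ hx
  rwa [am_eq_of_lt hs, hxy] at this

/-- A word outside the code gives all of the code. -/
theorem code_le_of_not_mem {w : GolayPt → ZMod 2} (hw : w ∈ W) (hw' : w ∉ golayCode) :
    golayCode ≤ W := by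
  obtain ⟨r, hr, c, hc, h⟩ := exists_std hW hw hw'
  obtain ⟨x, hx, hg, hxW⟩ := good_step hW hr hc h
  have hfromPair : wd 3 ∈ W → golayCode ≤ W := fun h3 u hu =>
    even_of_pair hW h3 u (code_even hu)
  simp only [good, Bool.or_eq_true, Bool.and_eq_true, Nat.beq_eq, Bool.not_eq_true'] at hg
  rcases hg with ((rfl | rfl) | rfl) | ⟨⟨hin, h0⟩, h1⟩
  · exact hfromPair hxW
  · exact hfromPair (pair_of_move hW (by decide +kernel) (by decide +kernel : am s6 6 = 3) hxW)
  · exact hfromPair (pair_of_move hW (by decide +kernel) (by decide +kernel : am s12 12 = 3) hxW)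
  · refine code_le_of_word hW hxW ((wd_mem_iff hx).2 hin) ?_ ?_
    · intro he
      have : x = 0 := wd_injOn hx (by norm_num) (by rw [he, wd_zero])
      rw [this] at h0
      cases h0
    · intro he
      have h24 : wd 16777215 = fun _ => (1 : ZMod 2) := by
        funext p
        exact (one_eq p).symm
      have : x = 16777215 := wd_injOn hx (by norm_num) (by rw [he, h24])
      rw [this] at h1
      cases h1

theorem pair_mem {w : GolayPt → ZMod 2} (hw : w ∈ W) (hw' : w ∉ golayCode) : wd 3 ∈ W := by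
  have hC := code_le_of_not_mem hW hw hw'
  obtain ⟨r, hr, c, hc, h⟩ := exists_std hW hw hw'
  have hrW : wd r ∈ W := by
    rw [wd_xor] at h
    have h2 := W.sub_mem h (hC (wd_cw_mem hc))
    simpa using h2
  simp only [List.mem_cons, List.not_mem_nil, or_false] at hr
  rcases hr with rfl | rfl | rfl | rfl
  · have hs : isM24 s1 = true := by decide +kernel
    have h2 := W.add_mem (hW _ (P_mem_M24 hs) _ hrW) hrW
    rw [am_eq_of_lt hs, ← wd_xor, (by decide +kernel : am s1 1 ^^^ 1 = 3)] at h2
    exact h2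
  · exact hrW
  · have hs : isM24 s7 = true := by decide +kernel
    have h2 := W.add_mem (hW _ (P_mem_M24 hs) _ hrW) hrW
    rw [am_eq_of_lt hs, ← wd_xor, (by decide +kernel : am s7 7 ^^^ 7 = 12)] at h2
    exact pair_of_move hW (by decide +kernel) (by decide +kernel : am s12 12 = 3) h2
  · have hs : isM24 s15 = true := by decide +kernel
    have h2 := W.add_mem (hW _ (P_mem_M24 hs) _ hrW) hrW
    rw [am_eq_of_lt hs, ← wd_xor, (by decide +kernel : am s15 15 ^^^ 15 = 24)] at h2
    exact pair_of_move hW (by decide +kernel) (by decide +kernel : am s24 24 = 3) h2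

end

/-- For the automorphism group of the length-24 binary Golay code of the definitions (the Mathieu group of degree 24) acting on binary words of length 24 by permuting coordinates, the only invariant subspaces of the space of all words are: zero, the span of the all-ones word, the code itself, the even-weight words, and the whole space. (So the permutation module has a unique composition series.) -/
theorem result (W : Submodule (ZMod 2) (Cfsg.GolayPt → ZMod 2)) (hW : ∀ σ ∈ Cfsg.M24, ∀ w ∈ W, (fun p => w (σ.symm p)) ∈ W) : W = ⊥ ∨ W = Submodule.span (ZMod 2) {fun _ => (1 : ZMod 2)} ∨ W = Cfsg.golayCode ∨ (W : Set (Cfsg.GolayPt → ZMod 2)) = {w | ∑ p, w p = 0} ∨ W = ⊤ := by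
  have hW' : ∀ σ ∈ M24, ∀ w ∈ W, pw σ w ∈ W := hW
  by_cases hWC : W ≤ golayCode
  · by_cases h1 : W ≤ Submodule.span (ZMod 2) {fun _ => (1 : ZMod 2)}
    · by_cases hbot : W = ⊥
      · exact Or.inl hbot
      · right; left
        apply le_antisymm h1
        rw [Submodule.span_singleton_le_iff_mem]
        obtain ⟨x, hx, hx0⟩ := (Submodule.ne_bot_iff W).1 hbot
        obtain ⟨a, rfl⟩ := Submodule.mem_span_singleton.1 (h1 hx)
        have ha : a = 1 := by
          have ha0 : a ≠ 0 := by
            rintro rfl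
            simp at hx0
          have : ∀ a : ZMod 2, a ≠ 0 → a = 1 := by decide
          exact this a ha0
        rw [ha, one_smul] at hx
        exact hx
    · right; right; left
      obtain ⟨u, huW, hu1⟩ := SetLike.not_le_iff_exists.1 h1
      apply le_antisymm hWC
      refine code_le_of_word hW' huW (hWC huW) ?_ ?_
      · rintro rfl
        exact hu1 (Submodule.zero_mem _)
      · rintro rfl
        exact hu1 (Submodule.subset_span rfl)
  · obtain ⟨w, hwW, hwC⟩ := SetLike.not_le_iff_exists.1 hWC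
    have h3 := pair_mem hW' hwW hwC
    have hE := even_of_pair hW' h3
    right; right; right
    by_cases hodd : ∀ v ∈ W, ∑ p, v p = 0
    · left
      ext v
      exact ⟨fun hv => hodd v hv, fun hv => hE v hv⟩
    · right
      push Not at hodd
      obtain ⟨v, hv, hv0⟩ := hodd
      rw [eq_top_iff]
      intro y _
      by_cases hy : ∑ p, y p = 0
      · exact hE y hy
      · have h2 : y + v ∈ W := by
          apply hE
          simp only [Pi.add_apply, Finset.sum_add_distrib]
          have : ∀ a b : ZMod 2, a ≠ 0 → b ≠ 0 → a + b = 0 := by decide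
          exact this _ _ hy hv0
        have h3 := W.sub_mem h2 hv
        simpa using h3

end Cfsg.Agent.S5548
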