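import Cfsg.Statements.S5549
import Mathlib
import Cfsg.Agent.Lib.H26.GolayDual

set_option autoImplicit false
set_option linter.unusedSimpArgs false
set_option linter.unusedVariables false
set_option maxRecDepth 100000
open Cfsg
open scoped Pointwise

namespace Cfsg.Agent.S5549

open Cfsg.Agent.H27.Golay Cfsg.Agent.H26.GolayMod Cfsg.Agent.H26.GolayDual

theorem blt_spec {a b : ℕ} (h : Nat.blt a b = true) : a < b := Nat.le_of_ble_eq_true h

theorem beq_false {a b : ℕ} (h : a ≠ b) : Nat.beq a b = false := by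
  cases h2 : Nat.beq a b with
  | false => rfl
  | true => exact absurd (Nat.eq_of_beq_eq_true h2) h

/-! ### The functional given by a mask -/

/-- The functional on words given by a mask. -/
def dot (s : ℕ) (c : GolayPt → ZMod 2) : ZMod 2 := ∑ p, wd s p * c p

theorem dot_add (s : ℕ) (c d : GolayPt → ZMod 2) : dot s (c + d) = dot s c + dot s d := by
  simp only [dot, Pi.add_apply, mul_add, Finset.sum_add_distrib]

theorem dot_xor (s t : ℕ) (c : GolayPt → ZMod 2) : dot (s ^^^ t) c = dot s c + dot t c := by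
  simp only [dot, wd_xor, Pi.add_apply, add_mul, Finset.sum_add_distrib]

theorem wd_mul_wd (s m : ℕ) (p : GolayPt) : wd s p * wd m p = wd (s &&& m) p := by
  simp only [wd_apply, Nat.testBit_and, Bool.and_eq_true]
  by_cases h1 : s.testBit (idx p) = true <;> by_cases h2 : m.testBit (idx p) = true <;> simp [h1, h2]

theorem sum_wd (k : ℕ) : ∑ p, wd k p = ((fs k).card : ZMod 2) := by
  simp only [wd_apply, fs]
  rw [Finset.sum_ite, Finset.sum_const_zero, add_zero, Finset.sum_const, nsmul_eq_mul, mul_one]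

theorem dot_wd_popc {s m : ℕ} (hs : s < 2 ^ 24) : dot s (wd m) = ((popc (s &&& m) : ℕ) : ZMod 2) := by
  simp only [dot, wd_mul_wd]
  rw [sum_wd, card_fs (lt_of_le_of_lt Nat.and_le_left hs)]

theorem popc_small {x : ℕ} (hx : x < 4096) : popc x = pc12 x := by
  have h1 : Nat.land x 4095 = x := by
    show x &&& 4095 = x
    exact Nat.and_two_pow_sub_one_of_lt_two_pow (n := 12) hx
  have h2 : Nat.shiftRight x 12 = 0 := by
    show x >>> 12 = 0
    rw [Nat.shiftRight_eq_div_pow]
    omega
  show Nat.add (pc12 (Nat.land x 4095)) (pc12 (Nat.shiftRight x 12)) = _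
  rw [h1, h2]
  show pc12 x + pc12 0 = _
  rw [show pc12 0 = 0 by decide +kernel, add_zero]

theorem oddB_eq {s : ℕ} (hs : s < 4096) (O : ℕ) : oddB s O = popc (s &&& O) % 2 := by
  have hlt : s &&& O < 4096 := lt_of_le_of_lt Nat.and_le_left hs
  rw [popc_small hlt]
  exact Nat.eq_of_beq_eq_true (allBelow_spec parT_check _ hlt)

theorem oddB_le {s : ℕ} (hs : s < 4096) (O : ℕ) : oddB s O < 2 := by
  rw [oddB_eq hs]
  exact Nat.mod_lt _ (by norm_num)

theorem dot_wd {s : ℕ} (hs : s < 4096) (m : ℕ) : dot s (wd m) = ((oddB s m : ℕ) : ZMod 2) := by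
  rw [dot_wd_popc (by omega), oddB_eq hs, ZMod.natCast_mod]

/-- `dot` as a linear map. -/
def dotL (s : ℕ) : (GolayPt → ZMod 2) →ₗ[ZMod 2] ZMod 2 where
  toFun := dot s
  map_add' := dot_add s
  map_smul' a c := by
    simp only [dot, Pi.smul_apply, smul_eq_mul, RingHom.id_apply, Finset.mul_sum]
    exact Finset.sum_congr rfl fun p _ => by ring

/-- Induction on code words along the systematic basis. -/
theorem code_induction {P : ↥golayCode → Prop} (h0 : P 0)
    (hadd : ∀ a b, P a → P b → P (a + b))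
    (hb : ∀ b ∈ basisL, ∀ h : wd b ∈ golayCode, P ⟨wd b, h⟩) (c : ↥golayCode) : P c := by
  let T : Submodule (ZMod 2) (GolayPt → ZMod 2) :=
    { carrier := {w | ∃ h : w ∈ golayCode, P ⟨w, h⟩}
      add_mem' := by
        rintro a b ⟨ha, pa⟩ ⟨hb, pb⟩
        exact ⟨golayCode.add_mem ha hb, hadd _ _ pa pb⟩
      zero_mem' := ⟨golayCode.zero_mem, h0⟩
      smul_mem' := by
        rintro a w ⟨hw, pw⟩
        have : a = 0 ∨ a = 1 := by revert a; decide
        rcases this with rfl | rfl
        · rw [zero_smul]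
          exact ⟨golayCode.zero_mem, h0⟩
        · rw [one_smul]
          exact ⟨hw, pw⟩ }
  have hT : ∀ b ∈ basisL, wd b ∈ T := fun b hb' =>
    ⟨basis_mem_code b hb', hb b hb' _⟩
  obtain ⟨k, hk, hce⟩ := exists_cwF_of_mem c.2
  have h1 : (c : GolayPt → ZMod 2) ∈ T := by
    rw [hce]
    exact wd_cwAux_mem T _ hT k
  obtain ⟨h2, h3⟩ := h1
  exact h3

/-- Every functional on the code is given by a mask below `4096`. -/
theorem rep_exists (g : ↥golayCode →ₗ[ZMod 2] ZMod 2) :
    ∃ s < 4096, ∀ c : ↥golayCode, g c = dot s c := by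
  classical
  let F : Fin 12 → Bool := fun j =>
    if h : wd (basisL.getD j 0) ∈ golayCode then decide (g ⟨_, h⟩ = 1) else false
  refine ⟨Nat.ofBits F, Nat.ofBits_lt_two_pow _, ?_⟩
  set s := Nat.ofBits F with hs
  have hslt : s < 4096 := Nat.ofBits_lt_two_pow _
  refine code_induction (by simp [dot]) ?_ ?_
  · intro a b ha hb
    rw [map_add, ha, hb]
    exact (dot_add s _ _).symm
  · intro b hb h
    obtain ⟨j, hj, rfl⟩ := List.getElem_of_mem hb
    have hlen : basisL.length = 12 := rfl
    have hj' : j < 12 := by omega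
    have hd := Nat.eq_of_beq_eq_true (allBelow_spec (allBelow_spec dual_check s hslt) j hj')
    rw [List.getD_eq_getElem _ _ hj] at hd
    show g _ = dot s (wd _)
    rw [dot_wd hslt, hd]
    have hbit : Nat.land (Nat.shiftRight s j) 1 = (s.testBit j).toNat := by
      show (s >>> j) &&& 1 = _
      rw [Nat.testBit, Nat.and_one_is_mod, Nat.one_and_eq_mod_two]
      rcases Nat.mod_two_eq_zero_or_one (s >>> j) with h' | h' <;> simp [h']
    rw [hbit]
    have htb : s.testBit j = F ⟨j, hj'⟩ := Nat.testBit_ofBits_lt _ _ hj'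
    have hF : F ⟨j, hj'⟩ = decide (g ⟨wd basisL[j], h⟩ = 1) := by
      have h2 : basisL.getD j 0 = basisL[j] := List.getD_eq_getElem _ _ hj
      simp only [F, h2]
      exact dif_pos h
    rw [htb, hF]
    have : ∀ a : ZMod 2, a = ((decide (a = 1)).toNat : ZMod 2) := by decide
    exact this _

/-- The columns represent evaluation at a point. -/
def Rp (p : GolayPt) : ℕ := R (idx p)

theorem Rp_lt (p : GolayPt) : Rp p < 4096 :=
  blt_spec (allBelow_spec R_lt _ (idx_lt p))

theorem eval_eq_dot (p : GolayPt) (c : ↥golayCode) : (c : GolayPt → ZMod 2) p = dot (Rp p) c := by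
  refine code_induction (P := fun c : ↥golayCode => (c : GolayPt → ZMod 2) p = dot (Rp p) c)
    (by simp [dot]) ?_ ?_ c
  · intro a b ha hb
    show (a : GolayPt → ZMod 2) p + (b : GolayPt → ZMod 2) p = dot _ ((a : GolayPt → ZMod 2) + b)
    rw [dot_add, ha, hb]
  · intro b hb h
    show wd b p = dot (Rp p) (wd b)
    rw [dot_wd (Rp_lt p)]
    have h1 := Nat.eq_of_beq_eq_true (allL_spec (allBelow_spec R_check _ (idx_lt p)) b hb)
    rw [show oddB (Rp p) b = _ from h1]
    have hbit : Nat.land (Nat.shiftRight b (idx p)) 1 = (b.testBit (idx p)).toNat := by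
      show (b >>> idx p) &&& 1 = _
      rw [Nat.testBit, Nat.and_one_is_mod, Nat.one_and_eq_mod_two]
      rcases Nat.mod_two_eq_zero_or_one (b >>> idx p) with h' | h' <;> simp [h']
    rw [hbit, wd_apply]
    cases b.testBit (idx p) <;> simp

/-- The only masks with exactly `352` octads and even are sums of two columns. -/
theorem duad_of_count {s : ℕ} (hs : s < 4096) (he : oddB s 16777215 = 0) (h : oddS s = 352) :
    ∃ u v, u < 24 ∧ v < 24 ∧ u ≠ v ∧ s = R u ^^^ R v := by
  have h1 := allBelow_spec check1 s hs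
  simp only [he, h] at h1
  have h2 : isDuad s = true := h1
  have h3 := allBelow_spec check2 s hs
  simp only [h2, Bool.not_true, Bool.false_or, Bool.not_eq_true'] at h3
  by_contra hcon
  push Not at hcon
  rw [allBelow_of] at h3
  · cases h3
  intro u hu
  apply allBelow_of
  intro v hv
  by_cases huv : u = v
  · subst huv
    simp
  · have huv' : Nat.beq u v = false := by
      exact beq_false huv
    have hne := hcon u v hu hv huv
    simp [huv', beq_false hne]

theorem count_of_duad {u v : ℕ} (hu : u < 24) (hv : v < 24) (huv : u ≠ v)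
    (he : oddB (R u ^^^ R v) 16777215 = 0) : oddS (R u ^^^ R v) = 352 := by
  have hd : isDuad (R u ^^^ R v) = true := by
    have h := allBelow_spec (allBelow_spec check3 u hu) v hv
    have huv' : Nat.beq u v = false := by
      exact beq_false huv
    simpa [huv'] using h
  have hlt : R u ^^^ R v < 4096 :=
    Nat.xor_lt_two_pow (n := 12) (blt_spec (allBelow_spec R_lt _ hu))
      (blt_spec (allBelow_spec R_lt _ hv))
  have h1 := allBelow_spec check1 _ hlt
  simp only [he] at h1
  cases h2 : Nat.beq (oddS (R u ^^^ R v)) 352 with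
  | true => exact Nat.eq_of_beq_eq_true h2
  | false =>
    rw [h2] at h1
    simp [hd] at h1

/-! ### Pairwise meeting duads -/

theorem two_of_mem {s : Finset GolayPt} {w : GolayPt} (hc : s.card = 2) (hw : w ∈ s) :
    ∃ y, y ≠ w ∧ s = {w, y} := by
  obtain ⟨a, b, hab, rfl⟩ := Finset.card_eq_two.1 hc
  simp only [Finset.mem_insert, Finset.mem_singleton] at hw
  rcases hw with rfl | rfl
  · exact ⟨b, hab.symm, rfl⟩
  · exact ⟨a, hab, Finset.pair_comm _ _⟩

/-- Pairwise meeting distinct duads, at least four of them, have a common point. -/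
theorem star (d : GolayPt → Finset GolayPt) (z : GolayPt) (hc : ∀ a, a ≠ z → (d a).card = 2)
    (hmeet : ∀ a, a ≠ z → ∀ b, b ≠ z → a ≠ b → (d a ∩ d b).Nonempty)
    (hinj : ∀ a, a ≠ z → ∀ b, b ≠ z → a ≠ b → d a ≠ d b) :
    ∃ w, ∀ a, a ≠ z → w ∈ d a := by
  classical
  have hex : ∀ S : Finset GolayPt, S.card < 24 → ∃ i, i ∉ S := by
    intro S hS
    by_contra hcon
    push Not at hcon
    have : S = Finset.univ := Finset.eq_univ_iff_forall.2 hcon
    rw [this] at hS
    exact absurd hS (by decide)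
  obtain ⟨a1, ha1⟩ := hex {z} (by simp)
  obtain ⟨a2, ha2⟩ := hex {z, a1} (lt_of_le_of_lt (Finset.card_le_two) (by norm_num))
  simp only [Finset.mem_singleton, Finset.mem_insert, not_or] at ha1 ha2
  obtain ⟨w, hw⟩ := hmeet a1 ha1 a2 ha2.1 (Ne.symm ha2.2)
  rw [Finset.mem_inter] at hw
  obtain ⟨y1, hy1, hd1⟩ := two_of_mem (hc a1 ha1) hw.1
  obtain ⟨y2, hy2, hd2⟩ := two_of_mem (hc a2 ha2.1) hw.2
  have hy12 : y1 ≠ y2 := by
    rintro rfl
    exact hinj a1 ha1 a2 ha2.1 (Ne.symm ha2.2) (hd1.trans hd2.symm)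
  refine ⟨w, ?_⟩
  by_contra hcon
  push Not at hcon
  obtain ⟨j, hjz, hjw⟩ := hcon
  have hj1 : j ≠ a1 := by
    rintro rfl
    exact hjw hw.1
  have hj2 : j ≠ a2 := by
    rintro rfl
    exact hjw hw.2
  -- the image of `j` is the third side
  have third : ∀ i, i ≠ z → i ≠ a1 → i ≠ a2 → w ∉ d i → d i = {y1, y2} := by
    intro i hiz hi1 hi2 hiw
    obtain ⟨q1, hq1⟩ := hmeet i hiz a1 ha1 hi1
    obtain ⟨q2, hq2⟩ := hmeet i hiz a2 ha2.1 hi2
    rw [Finset.mem_inter, hd1] at hq1
    rw [Finset.mem_inter, hd2] at hq2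
    simp only [Finset.mem_insert, Finset.mem_singleton] at hq1 hq2
    have h1 : y1 ∈ d i := by
      rcases hq1.2 with rfl | rfl
      · exact absurd hq1.1 hiw
      · exact hq1.1
    have h2 : y2 ∈ d i := by
      rcases hq2.2 with rfl | rfl
      · exact absurd hq2.1 hiw
      · exact hq2.1
    obtain ⟨y, hy, hdi⟩ := two_of_mem (hc i hiz) h1
    rw [hdi] at h2 ⊢
    simp only [Finset.mem_insert, Finset.mem_singleton] at h2
    rcases h2 with rfl | rfl
    · exact absurd rfl hy12
    · rfl
  have hdj := third j hjz hj1 hj2 hjw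
  obtain ⟨i, hi⟩ := hex {z, a1, a2, j} (lt_of_le_of_lt (Finset.card_le_four) (by norm_num))
  simp only [Finset.mem_insert, Finset.mem_singleton, not_or] at hi
  obtain ⟨hiz, hi1, hi2, hij⟩ := hi
  by_cases hiw : w ∈ d i
  · obtain ⟨y, hy, hdi⟩ := two_of_mem (hc i hiz) hiw
    obtain ⟨q, hq⟩ := hmeet i hiz j hjz hij
    rw [Finset.mem_inter, hdi, hdj] at hq
    simp only [Finset.mem_insert, Finset.mem_singleton] at hq
    have hyq : y = y1 ∨ y = y2 := by
      obtain ⟨h3, h4⟩ := hq
      rcases h3 with rfl | rfl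
      · rcases h4 with rfl | rfl
        · exact absurd rfl hy1
        · exact absurd rfl hy2
      · exact h4
    rcases hyq with rfl | rfl
    · exact hinj i hiz a1 ha1 hi1 (hdi.trans hd1.symm)
    · exact hinj i hiz a2 ha2.1 hi2 (hdi.trans hd2.symm)
  · exact hinj i hiz j hjz hij ((third i hiz hi1 hi2 hiw).trans hdj.symm)

/-- Sums of four distinct columns are not sums of two. -/
theorem four_not_duad {p q r t : ℕ} (hp : p < 24) (hq : q < 24) (hr : r < 24) (ht : t < 24)
    (hpq : p ≠ q) (hpr : p ≠ r) (hpt : p ≠ t) (hqr : q ≠ r) (hqt : q ≠ t) (hrt : r ≠ t) :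
    isDuad (R p ^^^ R q ^^^ R r ^^^ R t) = false := by
  have key : ∀ a b c d, a < b → b < c → c < d → d < 24 →
      R p ^^^ R q ^^^ R r ^^^ R t = R a ^^^ R b ^^^ R c ^^^ R d →
      isDuad (R p ^^^ R q ^^^ R r ^^^ R t) = false := by
    intro a b c d hab hbc hcd hd he
    rw [he]
    have h1 := allBelow_spec check4 d hd
    have h2 := allBelow_spec h1 c (by omega)
    have hbl : ∀ {x y : ℕ}, x < y → Nat.blt x y = true := fun h => Nat.ble_eq_true_of_le h
    simp only [hbl hcd, Bool.not_true, Bool.false_or] at h2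
    have h3 := allBelow_spec h2 b (by omega)
    simp only [hbl hbc, Bool.not_true, Bool.false_or] at h3
    have h4 := allBelow_spec h3 a (by omega)
    simp only [hbl hab, Bool.not_true, Bool.false_or, Bool.not_eq_true'] at h4
    exact h4
  have hac : ∀ x1 x2 x3 x4 y1 y2 y3 y4 : ℕ, x1 ^^^ x2 ^^^ x3 ^^^ x4 = y1 ^^^ y2 ^^^ y3 ^^^ y4 ↔
      x1 ^^^ x2 ^^^ x3 ^^^ x4 = y1 ^^^ y2 ^^^ y3 ^^^ y4 := fun _ _ _ _ _ _ _ _ => Iff.rfl
  rcases lt_or_gt_of_ne hpq with h1 | h1 <;> rcases lt_or_gt_of_ne hpr with h2 | h2 <;>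
  rcases lt_or_gt_of_ne hpt with h3 | h3 <;> rcases lt_or_gt_of_ne hqr with h4 | h4 <;>
  rcases lt_or_gt_of_ne hqt with h5 | h5 <;> rcases lt_or_gt_of_ne hrt with h6 | h6 <;>
  first
  | exact absurd (by omega : False) id
  | exact key p q r t (by omega) (by omega) (by omega) (by omega) (by ac_rfl)
  | exact key p q t r (by omega) (by omega) (by omega) (by omega) (by ac_rfl)
  | exact key p r q t (by omega) (by omega) (by omega) (by omega) (by ac_rfl)
  | exact key p r t q (by omega) (by omega) (by omega) (by omega) (by ac_rfl)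
  | exact key p t q r (by omega) (by omega) (by omega) (by omega) (by ac_rfl)
  | exact key p t r q (by omega) (by omega) (by omega) (by omega) (by ac_rfl)
  | exact key q p r t (by omega) (by omega) (by omega) (by omega) (by ac_rfl)
  | exact key q p t r (by omega) (by omega) (by omega) (by omega) (by ac_rfl)
  | exact key q r p t (by omega) (by omega) (by omega) (by omega) (by ac_rfl)
  | exact key q r t p (by omega) (by omega) (by omega) (by omega) (by ac_rfl)
  | exact key q t p r (by omega) (by omega) (by omega) (by omega) (by ac_rfl)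
  | exact key q t r p (by omega) (by omega) (by omega) (by omega) (by ac_rfl)
  | exact key r p q t (by omega) (by omega) (by omega) (by omega) (by ac_rfl)
  | exact key r p t q (by omega) (by omega) (by omega) (by omega) (by ac_rfl)
  | exact key r q p t (by omega) (by omega) (by omega) (by omega) (by ac_rfl)
  | exact key r q t p (by omega) (by omega) (by omega) (by omega) (by ac_rfl)
  | exact key r t p q (by omega) (by omega) (by omega) (by omega) (by ac_rfl)
  | exact key r t q p (by omega) (by omega) (by omega) (by omega) (by ac_rfl)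
  | exact key t p q r (by omega) (by omega) (by omega) (by omega) (by ac_rfl)
  | exact key t p r q (by omega) (by omega) (by omega) (by omega) (by ac_rfl)
  | exact key t q p r (by omega) (by omega) (by omega) (by omega) (by ac_rfl)
  | exact key t q r p (by omega) (by omega) (by omega) (by omega) (by ac_rfl)
  | exact key t r p q (by omega) (by omega) (by omega) (by omega) (by ac_rfl)
  | exact key t r q p (by omega) (by omega) (by omega) (by omega) (by ac_rfl)

/-- A sum of four distinct columns is not a sum of two, on points. -/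
theorem four_ne {p q r t u v : GolayPt} (hpq : p ≠ q) (hpr : p ≠ r) (hpt : p ≠ t) (hqr : q ≠ r)
    (hqt : q ≠ t) (hrt : r ≠ t) (huv : u ≠ v) :
    Rp p ^^^ Rp q ^^^ Rp r ^^^ Rp t ≠ Rp u ^^^ Rp v := by
  intro he
  have hi : ∀ {a b : GolayPt}, a ≠ b → idx a ≠ idx b := fun h h' => h (idx_injective h')
  have h1 := four_not_duad (idx_lt p) (idx_lt q) (idx_lt r) (idx_lt t) (hi hpq) (hi hpr) (hi hpt)
    (hi hqr) (hi hqt) (hi hrt)
  have h2 := allBelow_spec (allBelow_spec check3 _ (idx_lt u)) _ (idx_lt v)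
  simp only [beq_false (hi huv), Bool.false_or] at h2
  have h3 : R (idx p) ^^^ R (idx q) ^^^ R (idx r) ^^^ R (idx t) = R (idx u) ^^^ R (idx v) := he
  rw [h3, h2] at h1
  cases h1

/-- The combinatorial core: a map on duads preserving meeting comes from a map on points. -/
theorem core (S Q : GolayPt → ℕ)
    (h1 : ∀ a b, a ≠ b → ∃ u v, u ≠ v ∧ S a ^^^ S b = Q u ^^^ Q v)
    (h2 : ∀ p q r t u v : GolayPt, p ≠ q → p ≠ r → p ≠ t → q ≠ r → q ≠ t → r ≠ t → u ≠ v →
      Q p ^^^ Q q ^^^ Q r ^^^ Q t ≠ Q u ^^^ Q v)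
    (h3 : Function.Injective S) :
    ∃ π : GolayPt → GolayPt, ∀ a b, S a ^^^ S b = Q (π a) ^^^ Q (π b) := by
  classical
  let z : GolayPt := none
  have hch : ∀ a, ∃ u v, a ≠ z → (u ≠ v ∧ S a ^^^ S z = Q u ^^^ Q v) := by
    intro a
    by_cases ha : a = z
    · exact ⟨z, z, fun h => absurd ha h⟩
    · obtain ⟨u, v, h⟩ := h1 a z ha
      exact ⟨u, v, fun _ => h⟩
  choose p q hpq using hch
  have hxy : ∀ x y w : ℕ, x ^^^ w ^^^ (y ^^^ w) = x ^^^ y := by
    intro x y w
    have : x ^^^ w ^^^ (y ^^^ w) = x ^^^ y ^^^ (w ^^^ w) := by ac_rfl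
    rw [this, Nat.xor_self, Nat.xor_zero]
  have hd2 : ∀ a, a ≠ z → ({p a, q a} : Finset GolayPt).card = 2 := by
    intro a ha
    exact Finset.card_pair (hpq a ha).1
  have hmeet : ∀ a, a ≠ z → ∀ b, b ≠ z → a ≠ b → (({p a, q a} : Finset GolayPt) ∩ {p b, q b}).Nonempty := by
    intro a ha b hb hab
    by_contra hcon
    rw [Finset.not_nonempty_iff_eq_empty] at hcon
    have hdis : ∀ x ∈ ({p a, q a} : Finset GolayPt), x ∉ ({p b, q b} : Finset GolayPt) := by
      intro x hx hx'
      have : x ∈ (({p a, q a} : Finset GolayPt) ∩ {p b, q b}) := Finset.mem_inter.2 ⟨hx, hx'⟩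
      rw [hcon] at this
      cases this
    simp only [Finset.mem_insert, Finset.mem_singleton, not_or, forall_eq_or_imp, forall_eq] at hdis
    obtain ⟨u, v, huv, he⟩ := h1 a b hab
    apply h2 (p a) (q a) (p b) (q b) u v (hpq a ha).1 hdis.1.1 hdis.1.2 hdis.2.1 hdis.2.2 (hpq b hb).1 huv
    rw [Nat.xor_assoc (Q (p a) ^^^ Q (q a)), ← (hpq a ha).2, ← (hpq b hb).2, hxy]
    exact he
  have hinj : ∀ a, a ≠ z → ∀ b, b ≠ z → a ≠ b → ({p a, q a} : Finset GolayPt) ≠ {p b, q b} := by
    intro a ha b hb hab he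
    apply hab
    apply h3
    have h4 : Q (p a) ^^^ Q (q a) = Q (p b) ^^^ Q (q b) := by
      have hc : p a ∈ ({p b, q b} : Finset GolayPt) := by
        rw [← he]
        simp
      have hc2 : q a ∈ ({p b, q b} : Finset GolayPt) := by
        rw [← he]
        simp
      simp only [Finset.mem_insert, Finset.mem_singleton] at hc hc2
      have hne := (hpq a ha).1
      rcases hc with hc | hc <;> rcases hc2 with hc2 | hc2
      · exact absurd (hc.trans hc2.symm) hne
      · rw [hc, hc2]
      · rw [hc, hc2, Nat.xor_comm]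
      · exact absurd (hc.trans hc2.symm) hne
    have h5 : S a ^^^ S z = S b ^^^ S z := by
      rw [(hpq a ha).2, (hpq b hb).2, h4]
    calc S a = S a ^^^ S z ^^^ S z := by rw [Nat.xor_assoc, Nat.xor_self, Nat.xor_zero]
      _ = S b ^^^ S z ^^^ S z := by rw [h5]
      _ = S b := by rw [Nat.xor_assoc, Nat.xor_self, Nat.xor_zero]
  obtain ⟨w, hw⟩ := star (fun a => ({p a, q a} : Finset GolayPt)) z hd2 hmeet hinj
  let π : GolayPt → GolayPt := fun a => if a = z then w else if p a = w then q a else p a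
  have hπz : ∀ a, S a ^^^ S z = Q w ^^^ Q (π a) := by
    intro a
    by_cases ha : a = z
    · subst ha
      simp only [π, if_true, Nat.xor_self]
    · simp only [π, ha, if_false]
      have hm := hw a ha
      simp only [Finset.mem_insert, Finset.mem_singleton] at hm
      by_cases hpw : p a = w
      · rw [if_pos hpw, (hpq a ha).2, hpw]
      · rw [if_neg hpw]
        have hqw : w = q a := by
          rcases hm with hm | hm
          · exact absurd hm.symm hpw
          · exact hm
        rw [(hpq a ha).2, hqw, Nat.xor_comm]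
  refine ⟨π, fun a b => ?_⟩
  have h4 := hxy (S a) (S b) (S z)
  rw [hπz a, hπz b] at h4
  rw [← h4]
  have : Q w ^^^ Q (π a) ^^^ (Q w ^^^ Q (π b)) = Q (π a) ^^^ Q (π b) ^^^ (Q w ^^^ Q w) := by ac_rfl
  rw [this, Nat.xor_self, Nat.xor_zero]

/-! ### Counting octads -/

/-- The sum over an arbitrary list. -/
def sumB (s : ℕ) (L : List ℕ) : ℕ :=
  List.rec (motive := fun _ => ℕ) 0 (fun O _ ih => Nat.add (oddB s O) ih) L

theorem sumB_eq {s : ℕ} (hs : s < 4096) (L : List ℕ) :
    sumB s L = (L.filter (fun O => Nat.beq (oddB s O) 1)).length := by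
  induction L with
  | nil => rfl
  | cons a as ih =>
    have h : sumB s (a :: as) = oddB s a + sumB s as := rfl
    rw [h, ih, List.filter_cons]
    have h2 := oddB_le hs a
    have h3 : oddB s a = 0 ∨ oddB s a = 1 := by omega
    rcases h3 with h3 | h3
    · simp [h3]
    · simp [h3]
      omega

theorem count_transfer {L : List ℕ} (hL : L.Nodup) {f : ℕ → ℕ} (hf : ∀ O ∈ L, f O ∈ L)
    (hinj : ∀ O1 ∈ L, ∀ O2 ∈ L, f O1 = f O2 → O1 = O2) {F F' : ℕ → Bool}
    (hFF : ∀ O ∈ L, F O = F' (f O)) : (L.filter F).length = (L.filter F').length := by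
  classical
  have hsurj : Set.SurjOn f (L.toFinset : Set ℕ) (L.toFinset : Set ℕ) := by
    apply Finset.surjOn_of_injOn_of_card_le f
    · intro O hO
      simp only [Finset.mem_coe, List.mem_toFinset] at hO ⊢
      exact hf O hO
    · intro a ha b hb hab
      simp only [Finset.mem_coe, List.mem_toFinset] at ha hb
      exact hinj a ha b hb hab
    · exact le_rfl
  rw [← List.toFinset_card_of_nodup (hL.filter F), ← List.toFinset_card_of_nodup (hL.filter F')]
  apply Finset.card_bij (fun O _ => f O)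
  · intro O hO
    simp only [List.mem_toFinset, List.mem_filter] at hO ⊢
    exact ⟨hf O hO.1, by rw [← hFF O hO.1]; exact hO.2⟩
  · intro a ha b hb hab
    simp only [List.mem_toFinset, List.mem_filter] at ha hb
    exact hinj a ha.1 b hb.1 hab
  · intro O' hO'
    simp only [List.mem_toFinset, List.mem_filter] at hO'
    obtain ⟨O, hO, rfl⟩ := hsurj (by simpa using hO'.1)
    simp only [Finset.mem_coe, List.mem_toFinset] at hO
    exact ⟨O, by
      simp only [List.mem_toFinset, List.mem_filter]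
      exact ⟨hO, by rw [hFF O hO]; exact hO'.2⟩, rfl⟩

theorem oddB_eq_of_dot {s s' O O' : ℕ} (hs : s < 4096) (hs' : s' < 4096)
    (h : dot s (wd O) = dot s' (wd O')) : oddB s O = oddB s' O' := by
  rw [dot_wd hs, dot_wd hs'] at h
  have h1 := oddB_le hs O
  have h2 := oddB_le hs' O'
  have h3 : oddB s O = 0 ∨ oddB s O = 1 := by omega
  have h4 : oddB s' O' = 0 ∨ oddB s' O' = 1 := by omega
  rcases h3 with h3 | h3 <;> rcases h4 with h4 | h4 <;> rw [h3, h4] at h ⊢
  · exact absurd h (by decide)
  · exact absurd h (by decide)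

theorem sep : ∀ p q : GolayPt, p ≠ q → ∃ m ∈ basisL, wd m p ≠ wd m q := by
  decide +kernel

/-- Let X be a group of linear automorphisms of the length-24 binary Golay code of the definitions that fix the all-ones word, containing the coordinate-permutation action of every element of the code's automorphism group (the Mathieu group of degree 24), and such that every element of X sends each codeword into its orbit under that Mathieu group up to adding the all-ones word (X has the same orbits as the Mathieu group on the code modulo the all-ones word). Then every element of X agrees, modulo the all-ones word, with the action of a single element of the Mathieu group: X induces exactly the Mathieu group on the code modulo the all-ones word. -/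
theorem result (X : Subgroup (↥Cfsg.golayCode ≃ₗ[ZMod 2] ↥Cfsg.golayCode)) (h1 : ∀ x ∈ X, ∀ e : ↥Cfsg.golayCode, (e : (Cfsg.GolayPt → ZMod 2)) = (fun _ => (1 : ZMod 2)) → x e = e) (hM : ∀ σ ∈ Cfsg.M24, ∃ x ∈ X, ∀ c : ↥Cfsg.golayCode, ((x c : ↥Cfsg.golayCode) : (Cfsg.GolayPt → ZMod 2)) = fun p => (c : (Cfsg.GolayPt → ZMod 2)) (σ.symm p)) (horb : ∀ x ∈ X, ∀ c : ↥Cfsg.golayCode, ∃ σ ∈ Cfsg.M24, ((x c : ↥Cfsg.golayCode) : (Cfsg.GolayPt → ZMod 2)) = (fun p => (c : (Cfsg.GolayPt → ZMod 2)) (σ.symm p)) ∨ ((x c : ↥Cfsg.golayCode) : (Cfsg.GolayPt → ZMod 2)) = (fun p => (c : (Cfsg.GolayPt → ZMod 2)) (σ.symm p)) + fun _ => (1 : ZMod 2)) (x : ↥Cfsg.golayCode ≃ₗ[ZMod 2] ↥Cfsg.golayCode) (hx : x ∈ X) : ∃ σ ∈ Cfsg.M24, ∀ c : ↥Cfsg.golayCode, ((x c : ↥Cfsg.golayCode) : (Cfsg.GolayPt → ZMod 2)) = (fun p => (c : (Cfsg.GolayPt → ZMod 2)) (σ.symm p)) ∨ ((x c : ↥Cfsg.golayCode) : (Cfsg.GolayPt → ZMod 2)) = (fun p => (c : (Cfsg.GolayPt → ZMod 2)) (σ.symm p)) + fun _ => (1 : ZMod 2) := by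
  classical
  -- the word-level action
  let X' : ↥golayCode → (GolayPt → ZMod 2) := fun c => (x c : ↥golayCode)
  have hX'add : ∀ c d, X' (c + d) = X' c + X' d := by
    intro c d
    simp only [X', map_add]
    rfl
  let e1 : ↥golayCode := ⟨fun _ => 1, allOnes_mem⟩
  have hxe : x e1 = e1 := h1 x hx e1 rfl
  have hmemb : ∀ O : ℕ, wd O ∈ golayCode → True := fun _ _ => trivial
  -- the functionals
  let fx : GolayPt → (↥golayCode →ₗ[ZMod 2] ZMod 2) := fun a =>
    (LinearMap.proj a) ∘ₗ golayCode.subtype ∘ₗ (x : ↥golayCode →ₗ[ZMod 2] ↥golayCode)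
  choose S hSlt hS using fun a => rep_exists (fx a)
  have hS' : ∀ a (c : ↥golayCode), X' c a = dot (S a) c := hS
  have hSS : ∀ a b, S a ^^^ S b < 4096 := fun a b =>
    Nat.xor_lt_two_pow (n := 12) (hSlt a) (hSlt b)
  have hRR : ∀ a b, Rp a ^^^ Rp b < 4096 := fun a b =>
    Nat.xor_lt_two_pow (n := 12) (Rp_lt a) (Rp_lt b)
  have h11 : ∀ a : ZMod 2, a = 1 → a + a = 0 := by decide
  have hw1 : wd 16777215 = (fun _ => (1 : ZMod 2)) := by
    funext p
    exact (one_eq p).symm
  have hS_even : ∀ a b, oddB (S a ^^^ S b) 16777215 = 0 := by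
    intro a b
    have h2 : dot (S a ^^^ S b) (wd 16777215) = dot 0 (wd 0) := by
      rw [dot_xor, hw1]
      have h3 : dot (S a) (fun _ => (1 : ZMod 2)) = 1 := by
        have := hS' a e1
        rw [show X' e1 = (e1 : GolayPt → ZMod 2) by simp only [X', hxe]] at this
        exact this.symm
      have h4 : dot (S b) (fun _ => (1 : ZMod 2)) = 1 := by
        have := hS' b e1
        rw [show X' e1 = (e1 : GolayPt → ZMod 2) by simp only [X', hxe]] at this
        exact this.symm
      rw [h3, h4]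
      simp [dot, wd_zero]
      decide
    have := oddB_eq_of_dot (hSS a b) (by norm_num) h2
    rw [this]
    decide +kernel
  have hR_even : ∀ a b, oddB (Rp a ^^^ Rp b) 16777215 = 0 := by
    intro a b
    have h2 : dot (Rp a ^^^ Rp b) (wd 16777215) = dot 0 (wd 0) := by
      rw [dot_xor, hw1]
      have h3 : dot (Rp a) (fun _ => (1 : ZMod 2)) = 1 := (eval_eq_dot a e1).symm
      have h4 : dot (Rp b) (fun _ => (1 : ZMod 2)) = 1 := (eval_eq_dot b e1).symm
      rw [h3, h4]
      simp [dot, wd_zero]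
      decide
    have := oddB_eq_of_dot (hRR a b) (by norm_num) h2
    rw [this]
    decide +kernel
  -- octads go to octads modulo the all-ones word
  have hoct : ∀ O, O ∈ octadL → ∀ hO : wd O ∈ golayCode,
      ∃ O', O' ∈ octadL ∧ (X' ⟨wd O, hO⟩ = wd O' ∨ X' ⟨wd O, hO⟩ = wd O' + fun _ => 1) := by
    intro O hOL hO
    obtain ⟨σ, hσ, hc⟩ := horb x hx ⟨wd O, hO⟩
    have h2 : pw σ (wd O) = wd (maskOf (σ • fs O)) := by
      have h3 := (wd_support (pw σ (wd O))).symm
      rw [support_pw, support_wd] at h3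
      exact h3
    have h4 : maskOf (σ • fs O) ∈ octadL :=
      mem_octads_iff_mask.1 (smul_mem_octads hσ (fs_mem_octads hOL))
    refine ⟨_, h4, ?_⟩
    rw [← h2]
    exact hc
  have hoL : ∀ O, O ∈ octadL → wd O ∈ golayCode := by
    intro O hO
    have h2 := (fs_mem_octads hO).1
    obtain ⟨w, hw, hwe⟩ := h2
    have h3 : wd O = w := by
      rw [← wd_support w, hwe]
      rw [← support_wd O, wd_support]
    rw [h3]
    exact hw
  have hchoice : ∀ O, ∃ O', O ∈ octadL → (O' ∈ octadL ∧
      ∀ hO : wd O ∈ golayCode, (X' ⟨wd O, hO⟩ = wd O' ∨ X' ⟨wd O, hO⟩ = wd O' + fun _ => 1)) := by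
    intro O
    by_cases hO : O ∈ octadL
    · obtain ⟨O', h2, h3⟩ := hoct O hO (hoL O hO)
      exact ⟨O', fun _ => ⟨h2, fun _ => h3⟩⟩
    · exact ⟨O, fun h => absurd h hO⟩
  choose f hf using hchoice
  have hfinj : ∀ O1 ∈ octadL, ∀ O2 ∈ octadL, f O1 = f O2 → O1 = O2 := by
    intro O1 h1O O2 h2O he
    have hc1 := (hf O1 h1O).2 (hoL O1 h1O)
    have hc2 := (hf O2 h2O).2 (hoL O2 h2O)
    rw [he] at hc1
    have hcases : x ⟨wd O1, hoL O1 h1O⟩ = x ⟨wd O2, hoL O2 h2O⟩ ∨
        x ⟨wd O1, hoL O1 h1O⟩ = x (⟨wd O2, hoL O2 h2O⟩ + e1) := by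
      rw [map_add, hxe]
      rcases hc1 with hc1 | hc1 <;> rcases hc2 with hc2 | hc2
      · left
        exact Subtype.ext (hc1.trans hc2.symm)
      · right
        apply Subtype.ext
        show X' _ = X' _ + (fun _ => 1)
        rw [hc1, hc2, add_assoc, word_add_self, add_zero]
      · right
        apply Subtype.ext
        show X' _ = X' _ + (fun _ => 1)
        rw [hc1, hc2]
      · left
        exact Subtype.ext (hc1.trans hc2.symm)
    have hlt : ∀ O ∈ octadL, O < 2 ^ 24 := fun O hO => octadL_lt hO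
    rcases hcases with hcases | hcases
    · have := x.injective hcases
      exact wd_injOn (hlt _ h1O) (hlt _ h2O) (congrArg Subtype.val this)
    · have h3 := congrArg Subtype.val (x.injective hcases)
      -- weights 8 and 16
      exfalso
      have h4 : wd O1 = wd O2 + fun _ => 1 := h3
      have h5 := congrArg (fun w => (support₂ w).card) h4
      simp only [card_support_add_one, support_wd] at h5
      have h6 : (fs O1).card = 8 := (fs_mem_octads h1O).2
      have h7 : (fs O2).card = 8 := (fs_mem_octads h2O).2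
      rw [h6, h7] at h5
      norm_num at h5
  -- the count
  have hcount : ∀ a b, a ≠ b → oddS (S a ^^^ S b) = 352 := by
    intro a b hab
    have hne : idx a ≠ idx b := fun h => hab (idx_injective h)
    have h352 := count_of_duad (idx_lt a) (idx_lt b) hne (hR_even a b)
    have e1' : oddS (S a ^^^ S b) = _ := sumB_eq (hSS a b) octadL
    have e2' : oddS (R (idx a) ^^^ R (idx b)) = _ := sumB_eq (hRR a b) octadL
    rw [e1', ← h352, e2']
    apply count_transfer octadL_nodup (fun O hO => (hf O hO).1) hfinj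
    intro O hO
    have h2 : dot (S a ^^^ S b) (wd O) = dot (Rp a ^^^ Rp b) (wd (f O)) := by
      have hc := (hf O hO).2 (hoL O hO)
      rw [dot_xor, dot_xor]
      have h3 := (hS' a ⟨wd O, hoL O hO⟩).symm
      have h4 := (hS' b ⟨wd O, hoL O hO⟩).symm
      have h5 := (eval_eq_dot a ⟨wd (f O), by exact hoL _ (hf O hO).1⟩).symm
      have h6 := (eval_eq_dot b ⟨wd (f O), by exact hoL _ (hf O hO).1⟩).symm
      simp only at h3 h4 h5 h6
      rw [h3, h4, h5, h6]
      rcases hc with hc | hc
      · rw [hc]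
      · rw [hc]
        simp only [Pi.add_apply]
        have : ∀ u v : ZMod 2, u + 1 + (v + 1) = u + v := by decide
        exact this _ _
    have h3 := oddB_eq_of_dot (hSS a b) (hRR a b) h2
    show Nat.beq (oddB (S a ^^^ S b) O) 1 = Nat.beq (oddB (R (idx a) ^^^ R (idx b)) (f O)) 1
    rw [h3]
    rfl
  have hRpt : ∀ u, u < 24 → Rp (pt u) = R u := by
    intro u hu
    show R (idx (pt u)) = R u
    rw [idx_pt' hu]
  have h1core : ∀ a b, a ≠ b → ∃ u v, u ≠ v ∧ S a ^^^ S b = Rp u ^^^ Rp v := by
    intro a b hab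
    obtain ⟨u, v, hu, hv, huv, he⟩ := duad_of_count (hSS a b) (hS_even a b) (hcount a b hab)
    refine ⟨pt u, pt v, ?_, ?_⟩
    · intro h
      apply huv
      have := congrArg idx h
      rwa [idx_pt' hu, idx_pt' hv] at this
    · rw [hRpt u hu, hRpt v hv]
      exact he
  have hSinj : Function.Injective S := by
    intro a b hab
    by_contra hne
    obtain ⟨m, hm, hne'⟩ := sep a b hne
    apply hne'
    let c : ↥golayCode := x.symm ⟨wd m, basis_mem_code m hm⟩
    have hc : X' c = wd m := by simp [X', c]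
    rw [← hc, hS' a, hS' b, hab]
  obtain ⟨π, hπ⟩ := core S Rp h1core
    (fun p q r t u v h1 h2 h3 h4 h5 h6 h7 => four_ne h1 h2 h3 h4 h5 h6 h7) hSinj
  have hπinj : Function.Injective π := by
    intro a b hab
    apply hSinj
    have h2 := hπ a b
    rw [hab, Nat.xor_self] at h2
    exact Nat.xor_eq_zero_iff.1 h2
  have hπbij : Function.Bijective π := Finite.injective_iff_bijective.1 hπinj
  have hsum : ∀ (c : ↥golayCode) a b, X' c a + X' c b =
      (c : GolayPt → ZMod 2) (π a) + (c : GolayPt → ZMod 2) (π b) := by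
    intro c a b
    rw [hS' a, hS' b, eval_eq_dot (π a), eval_eq_dot (π b), ← dot_xor, ← dot_xor, hπ]
  have hword : ∀ c : ↥golayCode, X' c = (fun p => (c : GolayPt → ZMod 2) (π p)) ∨
      X' c = (fun p => (c : GolayPt → ZMod 2) (π p)) + fun _ => 1 := by
    intro c
    have hconst : ∀ a b, X' c a + (c : GolayPt → ZMod 2) (π a) =
        X' c b + (c : GolayPt → ZMod 2) (π b) := by
      intro a b
      have h2 := hsum c a b
      have : ∀ u v w t : ZMod 2, u + v = w + t → u + w = v + t := by decide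
      exact this _ _ _ _ h2
    by_cases h0 : X' c none + (c : GolayPt → ZMod 2) (π none) = 0
    · left
      funext a
      have h2 := hconst a none
      rw [h0] at h2
      have : ∀ u v : ZMod 2, u + v = 0 → u = v := by decide
      exact this _ _ h2
    · right
      funext a
      have h2 := hconst a none
      have h3 : X' c a + (c : GolayPt → ZMod 2) (π a) ≠ 0 := by rwa [h2]
      have : ∀ u v : ZMod 2, u + v ≠ 0 → u = v + 1 := by decide
      exact this _ _ h3
  let σ : Equiv.Perm GolayPt := (Equiv.ofBijective π hπbij).symm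
  have hσsymm : ∀ p, σ.symm p = π p := fun p => rfl
  refine ⟨σ, ?_, ?_⟩
  · apply mem_M24_of_basis
    intro b hb
    have h2 : pw σ (wd b) = fun p => wd b (π p) := rfl
    rw [h2]
    have h3 := hword ⟨wd b, basis_mem_code b hb⟩
    have hmem : X' ⟨wd b, basis_mem_code b hb⟩ ∈ golayCode := (x ⟨wd b, basis_mem_code b hb⟩).2
    rcases h3 with h3 | h3
    · rw [h3] at hmem
      exact hmem
    · have h4 := golayCode.add_mem hmem allOnes_mem
      rw [h3, add_assoc, word_add_self, add_zero] at h4
      exact h4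
  · intro c
    exact hword c

end Cfsg.Agent.S5549
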