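import Cfsg.Statements.S5550
import Mathlib
import Cfsg.Agent.Lib.H26.GolayMod

set_option autoImplicit false
set_option linter.unusedSimpArgs false
set_option linter.unusedVariables false
set_option maxRecDepth 100000
open Cfsg
open scoped Pointwise

namespace Cfsg.Agent.S5550

open Cfsg.Agent.H27.Golay Cfsg.Agent.H26.GolayMod

def GO : List ℕ := [598786628011519217068719201290607619, 735341701614598469375546668841655299]
def GD : List ℕ := [811892583937568458530497511272104521, 894806870127512989581859895036496288]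

theorem GO_ok : ∀ σ ∈ GO, isM24 σ = true ∧ am σ O0 = O0 := by decide +kernel
theorem GD_ok : ∀ σ ∈ GD, isM24 σ = true ∧ am σ D0 = D0 := by decide +kernel
theorem GO_check : noFixedCoset GO = true := by decide +kernel
theorem GD_check : noFixedCoset GD = true := by decide +kernel

theorem stab_case {u0 : ℕ} {G : List ℕ} (hG : ∀ σ ∈ G, isM24 σ = true ∧ am σ u0 = u0)
    (hc : noFixedCoset G = true) {w : GolayPt → ZMod 2} (hw : w ∉ golayCode) :
    ∃ g ∈ M24, pw g (wd u0) = wd u0 ∧ pw g w - w ∉ golayCode := by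
  obtain ⟨σ, hσ, h⟩ := exists_moved G (fun σ hσ => (hG σ hσ).1) hc hw
  have h1 := hG σ hσ
  exact ⟨P σ, P_mem_M24 h1.1, by rw [am_eq_of_lt h1.1, h1.2], h⟩

theorem conj_case {u0 : ℕ}
    (H : ∀ w : GolayPt → ZMod 2, w ∉ golayCode →
      ∃ g ∈ M24, pw g (wd u0) = wd u0 ∧ pw g w - w ∉ golayCode)
    {h : Equiv.Perm GolayPt} (hh : h ∈ M24) {w : GolayPt → ZMod 2} (hw : w ∉ golayCode) :
    ∃ g ∈ M24, pw g (pw h (wd u0)) = pw h (wd u0) ∧ pw g w - w ∉ golayCode := by
  have hw' : pw h⁻¹ w ∉ golayCode := by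
    rwa [pw_mem_code_iff (M24.inv_mem hh)]
  obtain ⟨g0, hg0, h1, h2⟩ := H _ hw'
  refine ⟨h * g0 * h⁻¹, M24.mul_mem (M24.mul_mem hh hg0) (M24.inv_mem hh), ?_, ?_⟩
  · rw [pw_mul, pw_mul, pw_inv_pw, h1]
  · intro hcon
    apply h2
    rw [← pw_mem_code_iff hh, pw_sub, pw_pw_inv]
    rwa [pw_mul, pw_mul] at hcon

/-- Let u be a word of the length-24 binary Golay code of the definitions (possibly zero or all-ones) and w any binary word of length 24 outside the code. Then some automorphism of the code (a coordinate permutation preserving it) fixes u but moves w to a word not congruent to w modulo the code: the stabilizer of a codeword fixes no non-zero element of the quotient of the space of all words by the code. -/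
theorem result (u : (Cfsg.GolayPt → ZMod 2)) (hu : u ∈ Cfsg.golayCode) (w : (Cfsg.GolayPt → ZMod 2)) (hw : w ∉ Cfsg.golayCode) : ∃ σ ∈ Cfsg.M24, (fun p => u (σ.symm p)) = u ∧ (fun p => w (σ.symm p)) - w ∉ Cfsg.golayCode := by
  have HO := fun w hw => stab_case (u0 := O0) GO_ok GO_check (w := w) hw
  have HD := fun w hw => stab_case (u0 := D0) GD_ok GD_check (w := w) hw
  suffices hs : ∃ σ ∈ Cfsg.M24, pw σ u = u ∧ pw σ w - w ∉ Cfsg.golayCode by
    obtain ⟨σ, h1, h2, h3⟩ := hs
    exact ⟨σ, h1, h2, h3⟩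
  rcases code_cases hu with rfl | rfl | ⟨h, hh, rfl⟩ | ⟨h, hh, rfl⟩ | ⟨h, hh, rfl⟩
  · obtain ⟨g, hg, _, h2⟩ := HO w hw
    exact ⟨g, hg, rfl, h2⟩
  · obtain ⟨g, hg, _, h2⟩ := HO w hw
    exact ⟨g, hg, rfl, h2⟩
  · exact conj_case HO hh hw
  · obtain ⟨g, hg, h1, h2⟩ := conj_case HO hh hw
    exact ⟨g, hg, by rw [pw_add, h1]; rfl, h2⟩
  · exact conj_case HD hh hw

end Cfsg.Agent.S5550
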