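import Cfsg.Statements.S5551
import Mathlib
import Cfsg.Agent.Lib.H26.Leech

set_option autoImplicit false
set_option linter.unusedVariables false
open Cfsg

namespace Cfsg.Agent.S5551

open Cfsg.Agent.H26.Leech

theorem parallelogram (x y : GolayPt → ℤ) :
    sqNorm (x + y) + sqNorm (x - y) = 2 * sqNorm x + 2 * sqNorm y := by
  unfold sqNorm
  rw [← Finset.sum_add_distrib, Finset.mul_sum, Finset.mul_sum, ← Finset.sum_add_distrib]
  refine Finset.sum_congr rfl fun i _ => ?_
  simp only [Pi.add_apply, Pi.sub_apply]
  ring

theorem sqNorm_neg (x : GolayPt → ℤ) : sqNorm (-x) = sqNorm x := by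
  unfold sqNorm
  refine Finset.sum_congr rfl fun i _ => ?_
  simp

/-- In the Leech lattice of the definitions (integer coordinates, minimal squared length 32), let v and w be non-zero lattice vectors of squared length at most 64 that are congruent modulo twice the lattice. Then they have the same squared length, and if that length is less than 64 then w = v or w = −v. (So a class that contains a non-zero vector of squared length at most 64 has a well-defined type 2, 3 or 4, and a class of type 2 or 3 contains no such vector other than v and −v.) -/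
theorem result (v w : Cfsg.GolayPt → ℤ) (hv : v ∈ Cfsg.leechLattice) (hw : w ∈ Cfsg.leechLattice) (hv0 : v ≠ 0) (hw0 : w ≠ 0) (hvn : Cfsg.sqNorm v ≤ 64) (hwn : Cfsg.sqNorm w ≤ 64) (hc : ∃ z ∈ Cfsg.leechLattice, v - w = 2 • z) : Cfsg.sqNorm v = Cfsg.sqNorm w ∧ (Cfsg.sqNorm v < 64 → w = v ∨ w = -v) := by
  obtain ⟨z, hz, he⟩ := hc
  have hv' : v = (w + z) + z := by
    have : v = w + 2 • z := by rw [← he]; abel
    rw [this]
    abel
  have hw' : w = (w + z) - z := by abel
  have hx : w + z ∈ leechLattice := leechLattice.add_mem hw hz
  have hp := parallelogram (w + z) z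
  rw [← hv', ← hw'] at hp
  by_cases h1 : z = 0
  · subst h1
    have : v = w := by simpa using hv'
    subst this
    exact ⟨rfl, fun _ => Or.inl rfl⟩
  by_cases h2 : w + z = 0
  · have h3 : z = -w := by
      have := eq_neg_of_add_eq_zero_right h2
      exact this
    have h4 : v = -w := by
      rw [hv', h2, zero_add, h3]
    have h5 : w = -v := by rw [h4, neg_neg]
    exact ⟨by rw [h4, sqNorm_neg], fun _ => Or.inr h5⟩
  have h3 := min_norm hx h2
  have h4 := min_norm hz h1
  refine ⟨by omega, fun h => ?_⟩
  omega

end Cfsg.Agent.S5551
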