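import Cfsg.Statements.S5553
import Mathlib
import Cfsg.Agent.Lib.H26.Leech

set_option autoImplicit false
set_option linter.unusedSimpArgs false
set_option linter.unusedVariables false
set_option maxRecDepth 100000
open Cfsg

namespace Cfsg.Agent.S5553

open Cfsg.Agent.H27.Golay Cfsg.Agent.H26.GolayMod Cfsg.Agent.H26.Leech

/-- The reduction modulo two of an integer. -/
def loZ (a : ℤ) : ZMod 2 := (a : ZMod 2)

theorem loZ_add (a b : ℤ) : loZ (a + b) = loZ a + loZ b := by
  simp [loZ]

theorem loZ_eq_zero {a : ℤ} (h : loZ a = 0) : a % 2 = 0 := by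
  have := (ZMod.intCast_zmod_eq_zero_iff_dvd a 2).1 h
  omega

/-- The twelve functionals on the lattice. -/
def phiFun (x : GolayPt → ℤ) : Fin 12 → ZMod 2 := fun j =>
  if j.val = 11 then loZ (x (pt 0)) else hi x (pt j.val) + hi x (pt 11)

theorem hi_add_const {x y : GolayPt → ℤ} (hx : x ∈ leechSet) (hy : y ∈ leechSet) :
    ∃ c : ZMod 2, ∀ i, hi (x + y) i = hi x i + hi y i + c := by
  rw [mem_leechSet_iff] at hx hy
  obtain ⟨m, h1, _, _⟩ := hx
  obtain ⟨n, h4, _, _⟩ := hy
  refine ⟨if m % 2 = 1 ∧ n % 2 = 1 then 1 else 0, fun i => ?_⟩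
  simp only [hi, Pi.add_apply]
  rw [hiZ_add, par_eq h1, par_eq h4]

theorem phiFun_add {x y : GolayPt → ℤ} (hx : x ∈ leechSet) (hy : y ∈ leechSet) :
    phiFun (x + y) = phiFun x + phiFun y := by
  obtain ⟨c, hc⟩ := hi_add_const hx hy
  funext j
  simp only [phiFun, Pi.add_apply]
  by_cases hj : j.val = 11
  · simp only [hj, if_true]
    exact loZ_add _ _
  · simp only [hj, if_false]
    rw [hc, hc]
    have : ∀ a b c d e : ZMod 2, a + b + e + (c + d + e) = a + c + (b + d) := by decide
    exact this _ _ _ _ _

/-- The homomorphism on the lattice. -/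
def phi : ↥leechLattice →+ (Fin 12 → ZMod 2) :=
  AddMonoidHom.mk' (fun x => phiFun x.1) (fun x y =>
    phiFun_add (mem_leechLattice_iff.1 x.2) (mem_leechLattice_iff.1 y.2))

/-- Twice a code word. -/
def twice (m : ℕ) : GolayPt → ℤ := fun i => if m.testBit (idx i) = true then 2 else 0

theorem sum_twice (m : ℕ) : ∑ i, twice m i = 2 * ((fs m).card : ℤ) := by
  unfold twice
  have : ∀ i, (if m.testBit (idx i) = true then (2 : ℤ) else 0) = if i ∈ fs m then 2 else 0 := by
    intro i
    simp [mem_fs]
  simp only [this]
  rw [Finset.sum_ite_mem]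
  simp [mul_comm]

theorem hi_twice (m : ℕ) : hi (twice m) = wd m := by
  funext i
  simp only [hi, hiZ, twice, wd_apply]
  by_cases h : m.testBit (idx i) = true
  · simp [h]
  · simp [h]

theorem twice_mem {m : ℕ} (hm : m < 2 ^ 24) (hc : inCode m = true) : twice m ∈ leechSet := by
  rw [mem_leechSet_iff]
  have hcode : wd m ∈ golayCode := (wd_mem_iff hm).2 hc
  refine ⟨0, fun i => ?_, ?_, ?_⟩
  · unfold Int.ModEq twice
    split_ifs <;> norm_num
  · rw [sum_twice]
    have h1 : fs m ∈ supports (golayCode : Set (GolayPt → ZMod 2)) := ⟨wd m, hcode, support_wd m⟩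
    rcases supports_weights h1 with h2 | ⟨_, k, hk⟩
    · rw [h2]
      simp
    · rw [hk]
      unfold Int.ModEq
      push_cast
      omega
  · rw [hi_twice]
    exact hcode

/-- The odd vector. -/
def v0 : GolayPt → ℤ := fun i => if i = none then -3 else 1

theorem hi_v0 : hi v0 = 0 := by
  decide +kernel

theorem v0_mem : v0 ∈ leechSet := by
  rw [mem_leechSet_iff]
  refine ⟨1, ?_, ?_, ?_⟩
  · decide +kernel
  · decide +kernel
  · rw [hi_v0]
    exact golayCode.zero_mem

theorem phi_v0 : phiFun v0 = fun j => if j.val = 11 then 1 else 0 := by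
  decide +kernel

theorem testBit_cw {s j : ℕ} (hs : s < 4096) (hj : j < 12) : (cw s).testBit j = s.testBit j := by
  have h1 := Nat.testBit_mod_two_pow (cw s) 12 j
  rw [show (2 : ℕ) ^ 12 = 4096 by norm_num, cw_low s hs] at h1
  rw [h1]
  simp [hj]

theorem idx_pt_lt {j : ℕ} (hj : j < 24) : idx (pt j) = j := idx_pt' hj

theorem phi_surjective : Function.Surjective phi := by
  intro t
  let s := Nat.ofBits (fun j : Fin 11 => decide (t ⟨j.val, by omega⟩ = 1))
  have hs : s < 2 ^ 11 := Nat.ofBits_lt_two_pow _
  have hs' : s < 4096 := by omega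
  have hbit : ∀ j, (hj : j < 11) → s.testBit j = decide (t ⟨j, by omega⟩ = 1) := by
    intro j hj
    exact Nat.testBit_ofBits_lt _ _ hj
  have hbit11 : s.testBit 11 = false := Nat.testBit_lt_two_pow hs
  have hm := cw_lt s
  have hc : inCode (cw s) = true := by
    rw [← wd_mem_iff hm]
    exact wd_cw_mem hs'
  have hx1 : twice (cw s) ∈ leechSet := twice_mem hm hc
  have hphi1 : ∀ j : Fin 12, j.val ≠ 11 → phiFun (twice (cw s)) j = t j := by
    intro j hj
    have hj' : j.val < 11 := by omega
    simp only [phiFun, hj, if_false]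
    rw [hi_twice]
    simp only [wd_apply]
    rw [idx_pt_lt (by omega), idx_pt_lt (by norm_num), testBit_cw hs' (by omega),
      testBit_cw hs' (by norm_num), hbit11, hbit _ hj']
    have : ∀ a : ZMod 2, (if decide (a = 1) = true then (1 : ZMod 2) else 0) + (if false = true then 1 else 0) = a := by
      decide
    exact this _
  have hphi2 : phiFun (twice (cw s)) ⟨11, by norm_num⟩ = 0 := by
    simp only [phiFun, if_true, twice]
    split_ifs <;> decide
  by_cases h11 : t ⟨11, by norm_num⟩ = 1
  · refine ⟨⟨twice (cw s) + v0, mem_leechLattice_iff.2 (leechSet_add hx1 v0_mem)⟩, ?_⟩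
    show phiFun (twice (cw s) + v0) = t
    rw [phiFun_add hx1 v0_mem, phi_v0]
    funext j
    simp only [Pi.add_apply]
    by_cases hj : j.val = 11
    · have : j = ⟨11, by norm_num⟩ := Fin.ext hj
      subst this
      rw [hphi2, h11]
      rfl
    · simp only [hj, if_false, add_zero]
      exact hphi1 j hj
  · refine ⟨⟨twice (cw s), mem_leechLattice_iff.2 hx1⟩, ?_⟩
    show phiFun (twice (cw s)) = t
    funext j
    by_cases hj : j.val = 11
    · have : j = ⟨11, by norm_num⟩ := Fin.ext hj
      subst this
      rw [hphi2]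
      have h0 : ∀ a : ZMod 2, a ≠ 1 → 0 = a := by decide
      exact h0 _ h11
    · exact hphi1 j hj

/-- A code word with constant low twelve coordinates is constant. -/
theorem word_const {w : GolayPt → ZMod 2} (hw : w ∈ golayCode)
    (h : ∀ j, j < 11 → w (pt j) = w (pt 11)) : w = 0 ∨ w = fun _ => 1 := by
  obtain ⟨m, hm, rfl⟩ := exists_wd w
  have hc : inCode m = true := (wd_mem_iff hm).1 hw
  have hce := inCode_eq hc
  have hb : ∀ j, j < 12 → m.testBit j = m.testBit 11 := by
    intro j hj
    by_cases hj' : j = 11
    · rw [hj']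
    · have h1 := h j (by omega)
      simp only [wd_apply] at h1
      rw [idx_pt_lt (by omega), idx_pt_lt (by norm_num)] at h1
      cases h2 : m.testBit j <;> cases h3 : m.testBit 11 <;> simp [h2, h3] at h1 ⊢
  cases h11 : m.testBit 11 with
  | false =>
    left
    have h0 : m % 4096 = 0 := by
      apply Nat.eq_of_testBit_eq
      intro i
      rw [show (4096 : ℕ) = 2 ^ 12 by norm_num, Nat.testBit_mod_two_pow]
      by_cases hi' : i < 12
      · simp [hi', hb i hi', h11]
      · simp [hi']
    rw [h0, show cw 0 = 0 by decide +kernel] at hce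
    rw [← hce, wd_zero]
  | true =>
    right
    have h0 : m % 4096 = 4095 := by
      apply Nat.eq_of_testBit_eq
      intro i
      rw [show (4096 : ℕ) = 2 ^ 12 by norm_num, Nat.testBit_mod_two_pow]
      by_cases hi' : i < 12
      · have h5 : (4095 : ℕ).testBit i = true := by
          interval_cases i <;> rfl
        simp [hi', hb i hi', h11, h5]
      · have h5 : (4095 : ℕ).testBit i = false := by
          apply Nat.testBit_lt_two_pow
          exact lt_of_lt_of_le (by norm_num : 4095 < 2 ^ 12) (Nat.pow_le_pow_right (by norm_num) (by omega))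
        simp [hi', h5]
    rw [h0, show cw 4095 = 16777215 by decide +kernel] at hce
    rw [← hce]
    funext p
    exact (one_eq p).symm

/-- Vectors in the kernel have squared length divisible by `32`. -/
theorem norm_of_ker {x : GolayPt → ℤ} (hx : x ∈ leechSet) (h : phiFun x = 0) : (32 : ℤ) ∣ sqNorm x := by
  classical
  rcases even_or_odd hx with ⟨h1, h2, h3⟩ | ⟨h1, h2, h3⟩
  · have hconst : ∀ j, j < 11 → hi x (pt j) = hi x (pt 11) := by
      intro j hj
      have := congrFun h ⟨j, by omega⟩
      simp only [phiFun, Pi.zero_apply] at this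
      rw [if_neg (by omega)] at this
      have h5 : ∀ a b : ZMod 2, a + b = 0 → a = b := by decide
      exact h5 _ _ this
    rcases word_const h3 hconst with hw | hw
    · -- all coordinates divisible by four
      have h4 : ∀ i, x i % 4 = 0 := by
        intro i
        have h5 : i ∉ support₂ (hi x) := by
          rw [hw, mem_support₂]
          simp
        rw [mem_support_hi] at h5
        have := h1 i
        omega
      choose y hy using fun i => Int.dvd_of_emod_eq_zero (h4 i)
      have hsum : (∑ i, y i) % 2 = 0 := by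
        have : ∑ i, x i = 4 * ∑ i, y i := by
          rw [Finset.mul_sum]
          exact Finset.sum_congr rfl fun i _ => hy i
        omega
      have hnorm : sqNorm x = 16 * ∑ i, y i ^ 2 := by
        unfold sqNorm
        rw [Finset.mul_sum]
        refine Finset.sum_congr rfl fun i _ => ?_
        rw [hy i]
        ring
      have hsq : ∀ a : ℤ, (a ^ 2) % 2 = a % 2 := by
        intro a
        rcases Int.even_or_odd' a with ⟨c, rfl | rfl⟩
        · have : (2 * c) ^ 2 = 2 * (2 * c ^ 2) := by ring
          rw [this]
          omega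
        · have : (2 * c + 1) ^ 2 = 2 * (2 * c ^ 2 + 2 * c) + 1 := by ring
          rw [this]
          omega
      have hsq2 : (∑ i, y i ^ 2) % 2 = (∑ i, y i) % 2 := by
        rw [Finset.sum_int_mod, Finset.sum_int_mod (f := fun i => y i)]
        congr 1
        exact Finset.sum_congr rfl fun i _ => hsq _
      rw [hnorm]
      omega
    · -- all coordinates congruent to two modulo four
      have h4 : ∀ i, x i % 4 = 2 := by
        intro i
        have h5 : i ∈ support₂ (hi x) := by
          rw [hw, mem_support₂]
          simp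
        rw [mem_support_hi] at h5
        have := h1 i
        omega
      have h5 : ∀ i, (x i ^ 2) % 32 = 4 := by
        intro i
        obtain ⟨c, hc⟩ : ∃ c, x i = 4 * c + 2 := ⟨x i / 4, by have := h4 i; omega⟩
        rw [hc]
        have : (4 * c + 2) ^ 2 = 4 + 16 * (c * (c + 1)) := by ring
        rw [this]
        have h6 : (c * (c + 1)) % 2 = 0 := by
          have := Int.even_mul_succ_self c
          rcases this with ⟨d, hd⟩
          omega
        omega
      have h6 : sqNorm x % 32 = 0 := by
        unfold sqNorm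
        rw [Finset.sum_int_mod, Finset.sum_congr rfl fun i _ => h5 i]
        simp
      exact Int.dvd_of_emod_eq_zero h6
  · exfalso
    have := congrFun h ⟨11, by norm_num⟩
    simp only [phiFun, Pi.zero_apply, if_true] at this
    have h5 := loZ_eq_zero this
    have h6 := h1 (pt 0)
    omega

/-- The Leech lattice of the definitions has an additive subgroup A containing twice the lattice, of index 2^12 in the lattice, all of whose vectors have squared length divisible by 32: the invariant quadratic form 'squared length over 16 modulo 2' on the lattice modulo twice the lattice (a 24-dimensional space over the field with two elements) vanishes on a 12-dimensional subspace, so it is of plus type. -/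
theorem result : ∃ A : AddSubgroup (Cfsg.GolayPt → ℤ), A ≤ Cfsg.leechLattice ∧ (∀ v ∈ Cfsg.leechLattice, (2 : ℤ) • v ∈ A) ∧ (A.addSubgroupOf Cfsg.leechLattice).index = 2 ^ 12 ∧ ∀ v ∈ A, (32 : ℤ) ∣ Cfsg.sqNorm v := by
  classical
  refine ⟨phi.ker.map leechLattice.subtype, ?_, ?_, ?_, ?_⟩
  · rintro _ ⟨x, _, rfl⟩
    exact x.2
  · intro v hv
    refine ⟨⟨(2 : ℤ) • v, leechLattice.zsmul_mem hv 2⟩, ?_, rfl⟩
    have h1 : phi ⟨(2 : ℤ) • v, leechLattice.zsmul_mem hv 2⟩ = (2 : ℤ) • phi ⟨v, hv⟩ := by
      rw [← map_zsmul]
      rfl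
    show phi _ = 0
    rw [h1]
    funext j
    simp only [Pi.smul_apply, Pi.zero_apply]
    have h2 : ∀ a : ZMod 2, (2 : ℤ) • a = 0 := by decide
    exact h2 _
  · have h1 : (phi.ker.map leechLattice.subtype).addSubgroupOf leechLattice = phi.ker := by
      apply AddSubgroup.comap_map_eq_self_of_injective
      exact Subtype.val_injective
    rw [h1, AddSubgroup.index_ker, AddMonoidHom.range_eq_top.2 phi_surjective]
    simp
  · rintro _ ⟨x, hx, rfl⟩
    exact norm_of_ker (mem_leechLattice_iff.1 x.2) hx

end Cfsg.Agent.S5553
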