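import Cfsg.Statements.S5592
import Cfsg.Agent.Lib.H26.Leech

set_option autoImplicit false
open Cfsg

namespace Cfsg.Agent.S5592

open Cfsg.Agent.H26.Leech

theorem parallelogram (x y : GolayPt → ℤ) :
    sqNorm (x + y) + sqNorm (x - y) = 2 * sqNorm x + 2 * sqNorm y := by
  unfold sqNorm
  rw [← Finset.sum_add_distrib, Finset.mul_sum, Finset.mul_sum, ← Finset.sum_add_distrib]
  refine Finset.sum_congr rfl fun i _ => ?_
  simp only [Pi.add_apply, Pi.sub_apply]
  ring

theorem dot_eq (a z : GolayPt → ℤ) : dotInt (a + z) (a - z) = sqNorm a - sqNorm z := by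
  unfold sqNorm dotInt
  rw [← Finset.sum_sub_distrib]
  refine Finset.sum_congr rfl fun i _ => ?_
  simp only [Pi.add_apply, Pi.sub_apply]
  ring


/-- In the Leech lattice (integer coordinates, sum of squares equal to 8 times the customary norm, so the shortest non-zero vectors have sum of squares 32): if two distinct vectors of sum of squares at most 64 are congruent modulo twice the lattice, then either they are negatives of each other, or both have sum of squares 64 and they are orthogonal. -/
theorem result (x y : Cfsg.GolayPt → ℤ) (hx : x ∈ Cfsg.leechLattice) (hy : y ∈ Cfsg.leechLattice) (hxy : x ≠ y) (hxn : Cfsg.sqNorm x ≤ 64) (hyn : Cfsg.sqNorm y ≤ 64) (hc : (∃ z ∈ Cfsg.leechLattice, x - y = 2 • z)) :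
    x = -y ∨ (Cfsg.sqNorm x = 64 ∧ Cfsg.sqNorm y = 64 ∧ Cfsg.dotInt x y = 0) := by
  obtain ⟨z, hz, he⟩ := hc
  have hv' : x = (y + z) + z := by
    have : x = y + 2 • z := by rw [← he]; abel
    rw [this]
    abel
  have hw' : y = (y + z) - z := by abel
  have ha : y + z ∈ leechLattice := leechLattice.add_mem hy hz
  have hp := parallelogram (y + z) z
  have hd := dot_eq (y + z) z
  rw [← hv', ← hw'] at hp hd
  have hz0 : z ≠ 0 := by
    rintro rfl
    apply hxy
    rw [hv']
    simp
  by_cases h2 : y + z = 0
  · left
    rw [hv', h2, zero_add]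
    exact eq_neg_of_add_eq_zero_right h2
  · right
    have h3 := min_norm ha h2
    have h4 := min_norm hz hz0
    refine ⟨by omega, by omega, by omega⟩

end Cfsg.Agent.S5592
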