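import Cfsg.Statements.S5594
import Cfsg.Agent.Lib.H26.Leech
import Cfsg.Agent.Lib.H27.GolayClasses

set_option autoImplicit false
open Cfsg

set_option maxRecDepth 100000
namespace Cfsg.Agent.S5594

open Cfsg.Agent.H27.Golay Cfsg.Agent.H26.GolayMod Cfsg.Agent.H26.Leech
open scoped Pointwise

/-- A dodecad exchanged with its complement by the base involution. -/
def D1 : ℕ := 6827971

theorem c2B_ok' : permOK c2B = true := isM24_permOK c2B_ok

theorem D1_mem : D1 ∈ dodecadL := by decide +kernel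

theorem D1_swap : ∀ i ∈ List.range 24, D1.testBit i ≠ D1.testBit (pa c2B i) := by decide +kernel

theorem c2B_invol : ∀ i ∈ List.range 24, pa c2B (pa c2B i) = i := by decide +kernel

/-- The sign. -/
noncomputable def eps (i : GolayPt) : ℤ := if i ∈ fs D1 then -1 else 1

theorem eps_sq (i : GolayPt) : eps i * eps i = 1 := by
  unfold eps
  split_ifs <;> norm_num

/-- The involution on points. -/
noncomputable def π₀ : Equiv.Perm GolayPt := P c2B

theorem pi_pi (j : GolayPt) : π₀ (π₀ j) = j := by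
  show P c2B (P c2B j) = j
  have h1 := idx_lt j
  have h2 := P_pt c2B_ok' h1
  rw [pt_idx] at h2
  rw [h2, P_pt c2B_ok' (pa_lt c2B_ok' h1), c2B_invol _ (List.mem_range.2 h1), pt_idx]

theorem pi_inv : π₀⁻¹ = π₀ := by
  rw [inv_eq_iff_mul_eq_one]
  exact Equiv.ext fun j => pi_pi j

theorem eps_pi (j : GolayPt) : eps (π₀ j) * eps j = -1 := by
  have h1 := idx_lt j
  have h2 : π₀ j = pt (pa c2B (idx j)) := by
    have := P_pt c2B_ok' h1
    rwa [pt_idx] at this
  have h3 := D1_swap _ (List.mem_range.2 h1)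
  have h4 : π₀ j ∈ fs D1 ↔ D1.testBit (pa c2B (idx j)) = true := by
    rw [h2, mem_fs, idx_pt' (pa_lt c2B_ok' h1)]
  have h5 : j ∈ fs D1 ↔ D1.testBit (idx j) = true := mem_fs
  unfold eps
  by_cases a : D1.testBit (idx j) = true
  · have b : D1.testBit (pa c2B (idx j)) ≠ true := by
      rw [a] at h3
      exact fun hh => h3 hh.symm
    rw [if_pos (h5.2 a), if_neg (fun hh => b (h4.1 hh))]
    norm_num
  · have b : D1.testBit (pa c2B (idx j)) = true := by
      cases hb : D1.testBit (idx j) with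
      | true => exact absurd hb a
      | false =>
        rw [hb] at h3
        cases hc : D1.testBit (pa c2B (idx j)) with
        | true => rfl
        | false => rw [hc] at h3; exact absurd rfl h3
    rw [if_neg (fun hh => a (h5.1 hh)), if_pos (h4.2 b)]
    norm_num

/-- The monomial map. -/
noncomputable def Tf (x : GolayPt → ℤ) : GolayPt → ℤ := fun j => eps (π₀ j) * x (π₀ j)

theorem Tf_Tf (x : GolayPt → ℤ) : Tf (Tf x) = -x := by
  funext j
  show eps (π₀ j) * (eps (π₀ (π₀ j)) * x (π₀ (π₀ j))) = - x j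
  rw [pi_pi, ← mul_assoc, eps_pi]
  ring

theorem Tf_add (x y : GolayPt → ℤ) : Tf (x + y) = Tf x + Tf y := by
  funext j
  show eps (π₀ j) * (x (π₀ j) + y (π₀ j)) = eps (π₀ j) * x (π₀ j) + eps (π₀ j) * y (π₀ j)
  ring

theorem Tf_neg (x : GolayPt → ℤ) : Tf (-x) = -Tf x := by
  funext j
  show eps (π₀ j) * (- x (π₀ j)) = - (eps (π₀ j) * x (π₀ j))
  ring

theorem sqNorm_Tf (x : GolayPt → ℤ) : sqNorm (Tf x) = sqNorm x := by
  unfold sqNorm
  have : ∀ j, (Tf x j) ^ 2 = (x (π₀ j)) ^ 2 := by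
    intro j
    show (eps (π₀ j) * x (π₀ j)) ^ 2 = _
    have := eps_sq (π₀ j)
    calc (eps (π₀ j) * x (π₀ j)) ^ 2 = (eps (π₀ j) * eps (π₀ j)) * x (π₀ j) ^ 2 := by ring
      _ = _ := by rw [this, one_mul]
  simp_rw [this]
  exact Equiv.sum_comp π₀ (fun i => (x i) ^ 2)

theorem fsD1_supp : fs D1 ∈ supports (golayCode : Set (GolayPt → ZMod 2)) := (fs_mem_dodecads D1_mem).1

theorem card_D1 : (fs D1).card = 12 := (fs_mem_dodecads D1_mem).2

/-- Intersections of code supports with the dodecad are even. -/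
theorem inter_even {S : Finset GolayPt} (hS : S ∈ supports (golayCode : Set (GolayPt → ZMod 2))) :
    2 ∣ (fs D1 ∩ S).card := by
  have h1 := supports_symmDiff fsD1_supp hS
  have hc : (symmDiff (fs D1) S).card + 2 * (fs D1 ∩ S).card = (fs D1).card + S.card := by
    have h2 := Finset.card_sdiff_add_card_inter (fs D1) S
    have h3 := Finset.card_sdiff_add_card_inter S (fs D1)
    have h4 : symmDiff (fs D1) S = (fs D1 \ S) ∪ (S \ fs D1) := rfl
    have h5 : Disjoint (fs D1 \ S) (S \ fs D1) := disjoint_sdiff_sdiff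
    rw [h4, Finset.card_union_of_disjoint h5, Finset.inter_comm S] at *
    omega
  have w1 : 4 ∣ (symmDiff (fs D1) S).card := by
    rcases supports_weights h1 with h | ⟨_, h⟩
    · rw [h]; simp
    · exact h
  have w2 : 4 ∣ S.card := by
    rcases supports_weights hS with h | ⟨_, h⟩
    · rw [h]; simp
    · exact h
  rw [card_D1] at hc
  omega

theorem sum_D1 {x : GolayPt → ℤ} {m : ℤ} (h1 : ∀ i, x i ≡ m [ZMOD 2]) (h3 : hi x ∈ golayCode) :
    (4 : ℤ) ∣ ∑ i ∈ fs D1, x i := by
  have hS : support₂ (hi x) ∈ supports (golayCode : Set (GolayPt → ZMod 2)) := ⟨_, h3, rfl⟩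
  obtain ⟨t, ht⟩ := inter_even hS
  have hbit : ∀ i, (4 : ℤ) ∣ x i - ((m % 2) + 2 * (if i ∈ support₂ (hi x) then 1 else 0)) := by
    intro i
    have hp := par_eq h1 i
    by_cases hi' : i ∈ support₂ (hi x)
    · rw [if_pos hi']
      have := mem_support_hi.1 hi'
      omega
    · rw [if_neg hi']
      have h5 : ¬ (x i % 4 = 2 ∨ x i % 4 = 3) := fun hh => hi' (mem_support_hi.2 hh)
      omega
  have hsum : ∑ i ∈ fs D1, ((m % 2) + 2 * (if i ∈ support₂ (hi x) then (1 : ℤ) else 0)) =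
      12 * (m % 2) + 2 * ((fs D1 ∩ support₂ (hi x)).card : ℤ) := by
    rw [Finset.sum_add_distrib, Finset.sum_const, card_D1, ← Finset.mul_sum, Finset.sum_ite_mem,
      Finset.sum_const]
    simp
  have h6 : (4 : ℤ) ∣ ∑ i ∈ fs D1, (x i - ((m % 2) + 2 * (if i ∈ support₂ (hi x) then 1 else 0))) :=
    Finset.dvd_sum fun i _ => hbit i
  rw [Finset.sum_sub_distrib, hsum, ht] at h6
  obtain ⟨q, hq⟩ := h6
  push_cast at hq
  refine ⟨q + 3 * (m % 2) + (t : ℤ), ?_⟩
  linarith

theorem sum_Tf (x : GolayPt → ℤ) : ∑ j, Tf x j = ∑ i, x i - 2 * ∑ i ∈ fs D1, x i := by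
  have h1 : ∑ j, Tf x j = ∑ i, eps i * x i := Equiv.sum_comp π₀ (fun i => eps i * x i)
  rw [h1]
  have h2 : ∀ i, eps i * x i = x i - 2 * (if i ∈ fs D1 then x i else 0) := by
    intro i
    unfold eps
    split_ifs <;> ring
  simp_rw [h2]
  rw [Finset.sum_sub_distrib, ← Finset.mul_sum, Finset.sum_ite_mem]
  simp

theorem hi_Tf {x : GolayPt → ℤ} {m : ℤ} (h1 : ∀ i, x i ≡ m [ZMOD 2]) (j : GolayPt) :
    hi (Tf x) j = hi x (π₀ j) + if m % 2 = 1 ∧ π₀ j ∈ fs D1 then 1 else 0 := by
  show hiZ (eps (π₀ j) * x (π₀ j)) = _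
  show _ = hiZ (x (π₀ j)) + _
  have hp := par_eq h1 (π₀ j)
  unfold eps
  by_cases ha : π₀ j ∈ fs D1
  · rw [if_pos ha, neg_one_mul, hiZ_neg, hp]
    simp [ha]
  · rw [if_neg ha, one_mul]
    simp [ha]

theorem Tf_mem {x : GolayPt → ℤ} (hx : x ∈ leechSet) : Tf x ∈ leechSet := by
  rw [mem_leechSet_iff] at hx ⊢
  obtain ⟨m, h1, h2, h3⟩ := hx
  refine ⟨m, ?_, ?_, ?_⟩
  · intro j
    have hp := par_eq h1 (π₀ j)
    show (eps (π₀ j) * x (π₀ j)) % 2 = m % 2
    unfold eps
    split_ifs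
    · omega
    · omega
  · rw [sum_Tf]
    obtain ⟨q, hq⟩ := sum_D1 h1 h3
    rw [hq]
    have h5 : (∑ i, x i) % 8 = (4 * m) % 8 := h2
    show (∑ i, x i - 2 * (4 * q)) % 8 = (4 * m) % 8
    omega
  · have hpm : P c2B ∈ M24 := P_mem_M24 c2B_ok
    have hw1 : pw π₀ (hi x) ∈ golayCode := pw_mem_code hpm h3
    obtain ⟨w, hw, hsupp⟩ := fsD1_supp
    have hw2 : pw π₀ w ∈ golayCode := pw_mem_code hpm hw
    have hbit : ∀ i, w i = if i ∈ fs D1 then 1 else 0 := by
      intro i
      rw [← hsupp]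
      by_cases hi' : i ∈ support₂ w
      · rw [if_pos hi']
        have := mem_support₂.1 hi'
        have h6 : ∀ a : ZMod 2, a ≠ 0 → a = 1 := by decide
        exact h6 _ this
      · rw [if_neg hi']
        by_contra hne
        exact hi' (mem_support₂.2 hne)
    have hpw : ∀ (u : GolayPt → ZMod 2) j, pw π₀ u j = u (π₀ j) := by
      intro u j
      show u (π₀⁻¹ j) = _
      rw [pi_inv]
    rcases Int.emod_two_eq_zero_or_one m with hm | hm
    · have : hi (Tf x) = pw π₀ (hi x) := by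
        funext j
        rw [hi_Tf h1, hpw, hm]
        simp
      rw [this]
      exact hw1
    · have : hi (Tf x) = pw π₀ (hi x) + pw π₀ w := by
        funext j
        rw [hi_Tf h1, Pi.add_apply, hpw, hpw, hm, hbit]
        simp
      rw [this]
      exact golayCode.add_mem hw1 hw2

theorem Tf_mem' {x : GolayPt → ℤ} (hx : x ∈ leechLattice) : Tf x ∈ leechLattice :=
  mem_leechLattice_iff.2 (Tf_mem (mem_leechLattice_iff.1 hx))

/-- The monomial automorphism as a permutation of the lattice. -/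
noncomputable def gPerm : Equiv.Perm ↥leechLattice where
  toFun v := ⟨Tf v, Tf_mem' v.2⟩
  invFun v := ⟨-Tf v, leechLattice.neg_mem (Tf_mem' v.2)⟩
  left_inv v := by
    apply Subtype.ext
    show -Tf (Tf v) = v
    rw [Tf_Tf, neg_neg]
  right_inv v := by
    apply Subtype.ext
    show Tf (-Tf v) = v
    rw [Tf_neg, Tf_Tf, neg_neg]

theorem gPerm_mem : gPerm ∈ Co0 := by
  refine ⟨fun v w => ?_, fun v => ?_⟩
  · apply Subtype.ext
    exact Tf_add _ _
  · exact sqNorm_Tf _

/-- Negation as a permutation of the lattice. -/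
def nPerm : Equiv.Perm ↥leechLattice where
  toFun v := -v
  invFun v := -v
  left_inv v := neg_neg v
  right_inv v := neg_neg v

theorem sqNorm_neg (x : GolayPt → ℤ) : sqNorm (-x) = sqNorm x := by
  unfold sqNorm
  refine Finset.sum_congr rfl fun i _ => ?_
  simp

theorem nPerm_mem : nPerm ∈ Co0 := by
  refine ⟨fun v w => ?_, fun v => ?_⟩
  · show -(v + w) = -v + -w
    abel
  · exact sqNorm_neg _

/-- The negation in the group. -/
def nE : ↥Co0 := ⟨nPerm, nPerm_mem⟩

/-- The monomial element in the group. -/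
noncomputable def gE : ↥Co0 := ⟨gPerm, gPerm_mem⟩

theorem g_sq : gE * gE = nE := by
  apply Subtype.ext
  ext v i
  show Tf (Tf v) i = (-(v : ↥leechLattice) : ↥leechLattice).1 i
  rw [Tf_Tf]
  rfl

theorem n_sq : nE * nE = 1 := by
  apply Subtype.ext
  ext v
  show (- -v : ↥leechLattice).1 _ = _
  rw [neg_neg]
  rfl

/-- Members of `Co0` commute with negation. -/
theorem n_central (f : ↥Co0) : f * nE = nE * f := by
  apply Subtype.ext
  ext v
  show (f.1 (-v) : ↥leechLattice).1 _ = (-(f.1 v) : ↥leechLattice).1 _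
  have h0 : f.1 0 = 0 := by
    have := f.2.1 0 0
    rw [add_zero] at this
    exact left_eq_add.1 this
  have h1 : f.1 (-v) = -(f.1 v) := by
    have := f.2.1 (-v) v
    rw [neg_add_cancel, h0] at this
    exact eq_neg_of_add_eq_zero_left this.symm
  rw [h1]

/-- A nonzero vector of the lattice. -/
def v4 : GolayPt → ℤ := fun _ => 4

theorem v4_mem : v4 ∈ leechLattice := by
  apply mem_leechLattice_iff.2
  rw [mem_leechSet_iff]
  refine ⟨0, fun i => ?_, ?_, ?_⟩
  · show (4 : ℤ) % 2 = 0 % 2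
    norm_num
  · have : ∑ i, v4 i = 96 := by
      simp [v4, Finset.card_univ]
    rw [this]
    show (96 : ℤ) % 8 = (4 * 0) % 8
    norm_num
  · have : hi v4 = 0 := by
      funext i
      simp [hi, hiZ, v4]
    rw [this]
    exact golayCode.zero_mem

theorem n_ne_one : nE ≠ 1 := by
  intro h
  have h1 := congrArg (fun f : ↥Co0 => ((f.1 ⟨v4, v4_mem⟩ : ↥leechLattice).1 (pt 0))) h
  have h2 : (-(4 : ℤ)) = 4 := h1
  norm_num at h2


/-- The automorphism group of the Leech lattice contains the negation map, and the subgroup of order 2 it generates has no complement: the automorphism group is a non-split extension of its quotient by that subgroup (it is not the direct product of a group of order 2 with the first Conway group). -/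
theorem result :
    ∃ n : ↥Cfsg.Co0, (∀ v : ↥Cfsg.leechLattice, ((n • v : ↥Cfsg.leechLattice) : Cfsg.GolayPt → ℤ) = -(v : Cfsg.GolayPt → ℤ)) ∧
    ∀ K : Subgroup ↥Cfsg.Co0, ¬ (Subgroup.zpowers n).IsComplement' K := by
  refine ⟨nE, fun v => rfl, ?_⟩
  intro K hK
  obtain ⟨⟨⟨z, hz⟩, ⟨k, hk⟩⟩, hzk, -⟩ := hK.existsUnique gE
  have hzk' : z * k = gE := hzk
  obtain ⟨i, hi⟩ := hz
  have hi' : nE ^ i = z := hi
  rw [← hi'] at hzk'
  have hzc : Commute (nE ^ i) k := by
    apply Commute.zpow_left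
    exact (n_central k).symm
  have hzz : (nE ^ i) * (nE ^ i) = 1 := by
    rw [← zpow_add, ← two_mul, zpow_mul, zpow_two, n_sq, one_zpow]
  have h1 : nE = k * k := by
    rw [← g_sq, ← hzk']
    calc nE ^ i * k * (nE ^ i * k) = (nE ^ i * nE ^ i) * (k * k) := by
          rw [mul_assoc, ← mul_assoc k, ← hzc.eq, mul_assoc, mul_assoc]
      _ = k * k := by rw [hzz, one_mul]
  have h2 : nE ∈ K := by
    rw [h1]
    exact K.mul_mem hk hk
  have h3 : nE ∈ Subgroup.zpowers nE := Subgroup.mem_zpowers nE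
  have h4 := Subgroup.disjoint_def.1 hK.disjoint h3 h2
  exact n_ne_one h4

end Cfsg.Agent.S5594
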