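import Cfsg.Statements.S5599
import Cfsg.Agent.Lib.H27.GolayTrans

set_option autoImplicit false
open scoped Pointwise
open Cfsg

namespace Cfsg.Agent.S5599

open Cfsg.Agent.H27.Golay

theorem none_eq : (none : GolayPt) = pt 23 := by decide
theorem zero_eq : (some 0 : GolayPt) = pt 0 := by decide

/-- A permutation of `M24` fixing all points but `none, some 0` cannot swap them. -/
theorem no_transposition {c : Equiv.Perm GolayPt} (hc : c ∈ M24)
    (h : ∀ p, p ≠ none → p ≠ some 0 → c p = p) : c none ≠ some 0 := by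
  have hfix : c ∈ fixG [1, 2, 3, 4, 5, 6, 7, 8, 9, 10, 11] := by
    refine ⟨hc, fun i hi => h _ ?_ ?_⟩
    · revert i; decide
    · revert i; decide
  have hq : qsOK [1, 2, 3, 4, 5, 6, 7, 8, 9, 10, 11] [8683614] = true := by decide +kernel
  have := fix_sep hq hfix (i := 23) (j := 0) (by norm_num) (by norm_num) (by decide +kernel)
  rwa [← none_eq, ← zero_eq] at this

theorem exists_other (a b c d : GolayPt) : ∃ r, r ≠ a ∧ r ≠ b ∧ r ≠ c ∧ r ≠ d := by
  classical
  have hcard : ({a, b, c, d} : Finset GolayPt).card < (Finset.univ : Finset GolayPt).card := by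
    refine lt_of_le_of_lt Finset.card_le_four ?_
    simp [Finset.card_univ]
  obtain ⟨r, -, hr⟩ := Finset.exists_mem_notMem_of_card_lt_card hcard
  simp only [Finset.mem_insert, Finset.mem_singleton, not_or] at hr
  exact ⟨r, hr.1, hr.2.1, hr.2.2.1, hr.2.2.2⟩

/-- Elements of `M22` move `q` while fixing `p`. -/
theorem exists_move (p q : GolayPt) (hp0 : p ≠ none) (hp1 : p ≠ some 0) (hq0 : q ≠ none)
    (hq1 : q ≠ some 0) (hpq : p ≠ q) : ∃ x ∈ Spor.M22, x p = p ∧ x q ≠ q := by
  obtain ⟨r, hr0, hr1, hrp, hrq⟩ := exists_other none (some 0) p q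
  have h01 : (none : GolayPt) ≠ some 0 := by decide
  let u : Fin 5 → GolayPt := ![none, some 0, p, q, r]
  let v : Fin 5 → GolayPt := ![none, some 0, p, r, q]
  have hu : Function.Injective u := by
    intro i j hij
    fin_cases i <;> fin_cases j <;> first
      | rfl
      | (exfalso
         simp only [u, Fin.isValue, Fin.reduceFinMk, Matrix.cons_val] at hij
         first
          | exact h01 hij | exact h01 hij.symm
          | exact hp0 hij.symm | exact hp0 hij | exact hp1 hij | exact hp1 hij.symm | exact hq0 hij | exact hq0 hij.symm | exact hq1 hij | exact hq1 hij.symm | exact hr0 hij | exact hr0 hij.symm | exact hr1 hij | exact hr1 hij.symm | exact hpq hij | exact hpq hij.symm | exact hrp hij | exact hrp hij.symm | exact hrq hij | exact hrq hij.symm)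
  have hv : Function.Injective v := by
    intro i j hij
    fin_cases i <;> fin_cases j <;> first
      | rfl
      | (exfalso
         simp only [v, Fin.isValue, Fin.reduceFinMk, Matrix.cons_val] at hij
         first
          | exact h01 hij | exact h01 hij.symm
          | exact hp0 hij.symm | exact hp0 hij | exact hp1 hij | exact hp1 hij.symm | exact hq0 hij | exact hq0 hij.symm | exact hq1 hij | exact hq1 hij.symm | exact hr0 hij | exact hr0 hij.symm | exact hr1 hij | exact hr1 hij.symm | exact hpq hij | exact hpq hij.symm | exact hrp hij | exact hrp hij.symm | exact hrq hij | exact hrq hij.symm)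
  obtain ⟨x, hx, hxi⟩ := five_transitive u v hu hv
  refine ⟨x, ⟨⟨hx, hxi 0⟩, hxi 1⟩, hxi 2, ?_⟩
  have : x q = r := hxi 3
  rw [this]
  exact hrq


/-- In the automorphism group of the length-24 code, the two-point Mathieu group (permutations of the code's group fixing the extra point and the residue 0) has index 2 in the setwise stabiliser of that pair of points, and an element of the code's group interchanging the two points normalises the two-point group and induces on it, by conjugation, an automorphism that is not inner. -/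
theorem result (g : Equiv.Perm Cfsg.GolayPt) (hg : g ∈ Cfsg.M24) (h₁ : g none = some 0) (h₂ : g (some 0) = none) : Cfsg.Spor.M22.relIndex (Cfsg.M24 ⊓ MulAction.stabilizer (Equiv.Perm Cfsg.GolayPt) ({none, some 0} : Finset Cfsg.GolayPt)) = 2 ∧ (∀ x ∈ Cfsg.Spor.M22, g * x * g⁻¹ ∈ Cfsg.Spor.M22) ∧ ¬ ∃ h ∈ Cfsg.Spor.M22, ∀ x ∈ Cfsg.Spor.M22, g * x * g⁻¹ = h * x * h⁻¹ := by
  have h01 : (none : GolayPt) ≠ some 0 := by decide
  have hg01 : g * g ∈ Spor.M22 := by
    refine ⟨⟨M24.mul_mem hg hg, ?_⟩, ?_⟩
    · show (g * g) none = none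
      rw [Equiv.Perm.mul_apply, h₁, h₂]
    · show (g * g) (some 0) = some 0
      rw [Equiv.Perm.mul_apply, h₂, h₁]
  refine ⟨?_, ?_, ?_⟩
  · -- index two
    rw [Subgroup.relIndex, Subgroup.index_eq_two_iff]
    have hgK : g ∈ (M24 ⊓ MulAction.stabilizer (Equiv.Perm GolayPt) ({none, some 0} : Finset GolayPt)) := by
      refine ⟨hg, ?_⟩
      show g • ({none, some 0} : Finset GolayPt) = {none, some 0}
      ext q
      simp only [Finset.mem_smul_finset, Finset.mem_insert, Finset.mem_singleton, Equiv.Perm.smul_def]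
      constructor
      · rintro ⟨p, rfl | rfl, rfl⟩
        · exact Or.inr h₁
        · exact Or.inl h₂
      · rintro (rfl | rfl)
        · exact ⟨some 0, Or.inr rfl, h₂⟩
        · exact ⟨none, Or.inl rfl, h₁⟩
    refine ⟨⟨g, hgK⟩, ?_⟩
    rintro ⟨b, hb⟩
    have hbs : ∀ {p : GolayPt}, p = none ∨ p = some 0 → b p = none ∨ b p = some 0 := by
      intro p hp
      have h1 : b • ({none, some 0} : Finset GolayPt) = {none, some 0} := hb.2
      have h2 : b p ∈ ({none, some 0} : Finset GolayPt) := by
        rw [← h1, Finset.mem_smul_finset]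
        exact ⟨p, by simpa using hp, rfl⟩
      simpa using h2
    have mem_sub : ∀ {c : Equiv.Perm GolayPt} (hc : c ∈ (M24 ⊓ MulAction.stabilizer (Equiv.Perm GolayPt) ({none, some 0} : Finset GolayPt))),
        (⟨c, hc⟩ : ↥(M24 ⊓ MulAction.stabilizer (Equiv.Perm GolayPt) ({none, some 0} : Finset GolayPt))) ∈
          Spor.M22.subgroupOf (M24 ⊓ MulAction.stabilizer (Equiv.Perm GolayPt) ({none, some 0} : Finset GolayPt)) ↔
        c none = none ∧ c (some 0) = some 0 := by
      intro c hc
      rw [Subgroup.mem_subgroupOf]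
      constructor
      · rintro ⟨⟨_, h1⟩, h2⟩
        exact ⟨h1, h2⟩
      · rintro ⟨h1, h2⟩
        exact ⟨⟨hc.1, h1⟩, h2⟩
    have e : (⟨b, hb⟩ * ⟨g, hgK⟩ : ↥(M24 ⊓ MulAction.stabilizer (Equiv.Perm GolayPt) ({none, some 0} : Finset GolayPt))) = ⟨b * g, Subgroup.mul_mem _ hb hgK⟩ := rfl
    rw [e, mem_sub, mem_sub]
    have hcase := hbs (p := none) (Or.inl rfl)
    have hcase2 := hbs (p := some 0) (Or.inr rfl)
    simp only [Equiv.Perm.mul_apply, h₁, h₂]
    rcases hcase with h1 | h1
    · rcases hcase2 with h2 | h2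
      · exact absurd (b.injective (h1.trans h2.symm)) h01
      · simp [h1, h2, h01]
    · rcases hcase2 with h2 | h2
      · simp [h1, h2, h01]
      · exact absurd (b.injective (h1.trans h2.symm)) h01
  · -- normalises
    rintro x ⟨⟨hx, hx0⟩, hx1⟩
    have hx0' : x none = none := hx0
    have hx1' : x (some 0) = some 0 := hx1
    have hginv0 : g⁻¹ none = some 0 := by rw [Equiv.Perm.inv_eq_iff_eq, h₂]
    have hginv1 : g⁻¹ (some 0) = none := by rw [Equiv.Perm.inv_eq_iff_eq, h₁]
    refine ⟨⟨M24.mul_mem (M24.mul_mem hg hx) (M24.inv_mem hg), ?_⟩, ?_⟩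
    · show (g * x * g⁻¹) none = none
      simp only [Equiv.Perm.mul_apply, hginv0, hx1', h₂]
    · show (g * x * g⁻¹) (some 0) = some 0
      simp only [Equiv.Perm.mul_apply, hginv1, hx0', h₁]
  · -- not inner
    rintro ⟨h, ⟨⟨hh, hh0⟩, hh1⟩, hc⟩
    have hh0' : h none = none := hh0
    have hh1' : h (some 0) = some 0 := hh1
    set c := h⁻¹ * g with hcdef
    have hcM : c ∈ M24 := M24.mul_mem (M24.inv_mem hh) hg
    have hc0 : c none = some 0 := by
      rw [hcdef, Equiv.Perm.mul_apply, h₁, Equiv.Perm.inv_eq_iff_eq, hh1']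
    have hc1 : c (some 0) = none := by
      rw [hcdef, Equiv.Perm.mul_apply, h₂, Equiv.Perm.inv_eq_iff_eq, hh0']
    have hcomm : ∀ x ∈ Spor.M22, c * x = x * c := by
      intro x hx
      have := hc x hx
      have h3 : g * x = h * x * h⁻¹ * g := by
        rw [← this]; group
      rw [hcdef, mul_assoc, h3]
      group
    refine no_transposition hcM ?_ hc0
    intro p hp0 hp1
    by_contra hcp
    have hq0 : c p ≠ none := by
      intro h5
      apply hp1
      exact c.injective (h5.trans hc1.symm)
    have hq1 : c p ≠ some 0 := by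
      intro h5
      apply hp0
      exact c.injective (h5.trans hc0.symm)
    obtain ⟨x, hx, hxp, hxq⟩ := exists_move p (c p) hp0 hp1 hq0 hq1 (Ne.symm hcp)
    apply hxq
    have := congrArg (fun f : Equiv.Perm GolayPt => f p) (hcomm x hx)
    simp only [Equiv.Perm.mul_apply, hxp] at this
    exact this.symm

end Cfsg.Agent.S5599
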