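import Cfsg.Statements.S5601
import Cfsg.Agent.Lib.H27.GolayOrd

set_option autoImplicit false
open scoped Pointwise
open Cfsg

namespace Cfsg.Agent.S5601

open Cfsg.Agent.H27.Golay

theorem ncard_fix_zpowers (x : ↥M24) :
    {p : GolayPt | ∀ y ∈ Subgroup.zpowers x, ((y : ↥M24) : Equiv.Perm GolayPt) p = p}.ncard =
      (Finset.univ.filter fun p => (x : Equiv.Perm GolayPt) p = p : Finset GolayPt).card := by
  rw [fixset_zpowers, Set.ncard_coe_finset]

theorem card_zpowers_eq (x : ↥M24) (h : orderOf (x : Equiv.Perm GolayPt) = 3) :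
    Nat.card (Subgroup.zpowers x) = 3 := by
  rw [Nat.card_zpowers, ← h]
  exact (Subgroup.orderOf_coe x).symm


/-- The group of the length-24 code has exactly two conjugacy classes of subgroups of order 3: a subgroup of order 3 fixes either exactly 6 of the 24 points or none of them, both cases occur, and two subgroups of order 3 with the same number of fixed points are conjugate. -/
theorem result : (∀ X : Subgroup ↥Cfsg.M24, Nat.card X = 3 → {p : Cfsg.GolayPt | ∀ x ∈ X, ((x : ↥Cfsg.M24) : Equiv.Perm Cfsg.GolayPt) p = p}.ncard = 6 ∨ {p : Cfsg.GolayPt | ∀ x ∈ X, ((x : ↥Cfsg.M24) : Equiv.Perm Cfsg.GolayPt) p = p}.ncard = 0) ∧ (∃ X : Subgroup ↥Cfsg.M24, Nat.card X = 3 ∧ {p : Cfsg.GolayPt | ∀ x ∈ X, ((x : ↥Cfsg.M24) : Equiv.Perm Cfsg.GolayPt) p = p}.ncard = 6) ∧ (∃ X : Subgroup ↥Cfsg.M24, Nat.card X = 3 ∧ {p : Cfsg.GolayPt | ∀ x ∈ X, ((x : ↥Cfsg.M24) : Equiv.Perm Cfsg.GolayPt) p = p}.ncard = 0) ∧ ∀ X Y : Subgroup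 ↥Cfsg.M24, Nat.card X = 3 → Nat.card Y = 3 → {p : Cfsg.GolayPt | ∀ x ∈ X, ((x : ↥Cfsg.M24) : Equiv.Perm Cfsg.GolayPt) p = p}.ncard = {p : Cfsg.GolayPt | ∀ x ∈ Y, ((x : ↥Cfsg.M24) : Equiv.Perm Cfsg.GolayPt) p = p}.ncard → ∃ k : ↥Cfsg.M24, MulAut.conj k • X = Y := by
  refine ⟨?_, ?_, ?_, ?_⟩
  · intro X hX
    obtain ⟨x, rfl, hx⟩ := exists_gen_prime X (by norm_num) hX
    rw [ncard_fix_zpowers]
    rcases fix_order3 x.2 hx with h | h
    · exact Or.inr h
    · exact Or.inl h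
  · let x : ↥M24 := ⟨P c3A, P_mem_M24 c3A_ok⟩
    refine ⟨Subgroup.zpowers x, card_zpowers_eq x order_c3A, ?_⟩
    rw [ncard_fix_zpowers]
    exact fixcount_c3A
  · let x : ↥M24 := ⟨P c3B, P_mem_M24 c3B_ok⟩
    refine ⟨Subgroup.zpowers x, card_zpowers_eq x order_c3B, ?_⟩
    rw [ncard_fix_zpowers]
    exact fixcount_c3B
  · intro X Y hX hY hXY
    obtain ⟨x, rfl, hx⟩ := exists_gen_prime X (by norm_num) hX
    obtain ⟨y, rfl, hy⟩ := exists_gen_prime Y (by norm_num) hY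
    rw [ncard_fix_zpowers, ncard_fix_zpowers] at hXY
    rcases fix_order3 x.2 hx with h | h
    · have h' := fixed_filter_empty h
      have h'' := fixed_filter_empty (hXY ▸ h)
      obtain ⟨k, hk, e⟩ := rep3B x.2 hx h'
      obtain ⟨l, hl, e2⟩ := rep3B y.2 hy h''
      exact exists_conj_zpowers hk hl (e.trans e2.symm)
    · obtain ⟨k, hk, e⟩ := rep3A x.2 hx (by omega)
      obtain ⟨l, hl, e2⟩ := rep3A y.2 hy (by omega)
      exact exists_conj_zpowers hk hl (e.trans e2.symm)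

end Cfsg.Agent.S5601
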