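import Cfsg.Statements.S5604
import Cfsg.Agent.Lib.H27.GolayL

set_option autoImplicit false
open scoped Pointwise
open Cfsg

set_option maxRecDepth 100000
namespace Cfsg.Agent.S5604

open Cfsg.Agent.H27.Golay
open scoped Pointwise

def powL : List ℕ := [980296294882146363485576092429487136, 972678630716235700924423007097803808, 961152142314858484265183302632413216, 970280423369759319177701804856518688, 967169919791891010006221221229213728, 977592742270187552611102466486909984]

def gL : List ℕ := [984818244535754528103549039458486304, 980296294882146363485576092429487136, 972678630716235700924423007097803808, 961152142314858484265183302632413216, 970280423369759319177701804856518688, 967169919791891010006221221229213728, 977592742270187552611102466486909984]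

def s6L : List ℕ := [6858483239730608985671700102615777, 17166687359625060183479952589853751, 57978817960277333718310054598380256, 60023861681668431577194114116359191, 984818244535754528103549039458486304, 983027793986524843569355454780116993]

def l3 : List ℕ := [984818244535754528103549039458486304, 972388843434889812588431988828211232, 960987272459175447151156754424432672]

def l42 : List ℕ := [6858483239730608985671700102615777, 16270591517611462434193473903308513, 10005886044406809449368546380916449, 11163648249432963666721737926199009, 23906015158537076674966565821209313, 20949994237919021333425156665036513, 26426923149403777174629024068155105, 17166687359625060183479952589853751, 5529954180209742611809521456361527, 15027094336768624677107903448226871, 12351406059551688350553955951517751, 22881982541683491885184809052948535, 28765031667186678094764872527659063, 25177326885405712895653108639780919, 57978817960277333718310054598380256, 50890164351354559091019047624150752, 52357229577016738675290451703191264, 65496358769151730566449660912016096,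 62933334284198981650420026239822560, 67586281628106692429985308200123104, 48164876796956389709887111608483552, 60023861681668431577194114116359191, 61358192844397927073751816601841687, 44881316181719119591727460526595095, 46087560731830794299207497133137943, 69623427815246563567653208852023319, 49541455026478503959558991489155095, 55028013363405620806305374168862743, 984818244535754528103549039458486304, 980296294882146363485576092429487136, 972678630716235700924423007097803808, 961152142314858484265183302632413216, 970280423369759319177701804856518688, 967169919791891010006221221229213728, 977592742270187552611102466486909984, 983027793986524843569355454780116993, 963886441452380482684226577724910593, 969262703053198521754577856715334657, 974342223710695297309568454847316993, 975390037368432014835642502687086593, 958151305168429853775326492360100865, 959746715985467200699518478278865921]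

def l126 : List ℕ := [6858483239730608985671700102615777, 9541157333445425917884469916406497, 11281469379230993471579988920931041, 16270591517611462434193473903308513, 10762559870951104871444788497985249, 24163497977470768225865679705255649, 10005886044406809449368546380916449, 24073172844495857919921888502916833, 21304352940228093811946338506188513, 11163648249432963666721737926199009, 21680923335550206134812270244546273, 26136898642520727020185986504705761, 23906015158537076674966565821209313, 26735086918788317085762747770460897, 6954612831809980339734954820164321, 20949994237919021333425156665036513, 7022232526023146078954166228930273, 15961332403322127024401950702718689, 26426923149403777174629024068155105, 15766408767787661710195873706194657, 9779377422459029825261305707476705, 17166687359625060183479952589853751, 14785379825963672491862775593243703, 12426385349849178538092467364009015, 5529954180209742611809521456361527, 11969691262478882432963856730435639, 22734802679429514748552398572367927, 15027094336768624677107903448226871,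 22395744602059101673993903676202039, 29388485205356301736080382197570615, 12351406059551688350553955951517751, 29314859771423768764292158654160951, 24868936034300579058891856296812599, 22881982541683491885184809052948535, 25320436056305399750833234628724791, 17365994576309399155494498325907511, 28765031667186678094764872527659063, 17699618898471395500104671608160311, 5503245851244585906017702769770551, 25177326885405712895653108639780919, 5413752613728778084503522775420983, 14611633333941439555424818139910199, 57978817960277333718310054598380256, 52068974496717443311421364568918752, 65331717643441916137081339598506720, 50890164351354559091019047624150752, 65772550487366724156772626279632608, 62903561427635745936679863685680864, 52357229577016738675290451703191264, 62556315697164426370540665678845664, 68132906513767566256702399908763360, 65496358769151730566449660912016096, 67919773672025940621266068539775712, 48126644123392000191881344589437664, 62933334284198981650420026239822560, 48608789269092221317427154250738400, 57242369259015101569897843389868768,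 67586281628106692429985308200123104, 57745933471139735983684679444904672, 51491440228189084957133124587829984, 48164876796956389709887111608483552, 50734726273555934080249102123351776, 52178424171621010791985745126080224, 60023861681668431577194114116359191, 44626784217459133596322345716880407, 46187101522594080822581996023944215, 61358192844397927073751816601841687, 45731055366270472055531964133290007, 69463857327724234403754961915883543, 44881316181719119591727460526595095, 69134469178393465101706943254895639, 50143762923980462809444925293796375, 46087560731830794299207497133137943, 50078627928403737009835961838903319, 54736507541745717149637762162892823, 69623427815246563567653208852023319, 55196182404767837951534145396426775, 60209703545284079004864975798421527, 49541455026478503959558991489155095, 60547654878918413956237235757236247, 61315127218374580942192409806290967, 55028013363405620806305374168862743, 61229053670533901204229866790342679, 44487767565043805742921431886745623, 984818244535754528103549039458486304, 972388843434889812588431988828211232,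 960987272459175447151156754424432672, 980296294882146363485576092429487136, 961437802094680978853503588116139040, 970245253857456990554306890847947808, 972678630716235700924423007097803808, 969928408386152391636398392055682080, 967683527222130802454992074130674720, 961152142314858484265183302632413216, 967491758519891516367314186559100960, 977541932328922602959141083360466976, 970280423369759319177701804856518688, 978043322874912850759077239251380256, 984085288390961648805970583473334304, 967169919791891010006221221229213728, 984555525911694910489668236298860576, 980918349640568845057430966063151136, 977592742270187552611102466486909984, 980142736658610497879363303081458720, 972526773981616621590758581890825248, 983027793986524843569355454780116993, 968824914066962427917699581642215425, 974473528158201284119723303158190081, 963886441452380482684226577724910593, 973930464789570492604587976906353665, 975630934160334294276115801567702017, 969262703053198521754577856715334657, 975553725508615235736379194354344961, 958522179601151704617069979415290881,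 974342223710695297309568454847316993, 958894420416033632505129566745019393, 959448235523628865502965189386552321, 975390037368432014835642502687086593, 960068435870445482454378973192640513, 983098955685635302762197256934709249, 958151305168429853775326492360100865, 983195490708178138948317290808265729, 963559529253892835333839233882409985, 959746715985467200699518478278865921, 963339769365322804461723233744892929, 969073858342283928016305053048878081]

def cU : ℕ := 6858483239730608985671700102615777

def cV : ℕ := 17166687359625060183479952589853751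

def t0x : ℕ := 2749834963622194889805

def wz2 : ℕ := 984818244535754528103549039458486304

def wz4 : ℕ := 967530639539582366364133873171468320

def wz5 : ℕ := 979424096606648660796046424626271264


theorem c7_ok' : permOK c7 = true := isM24_permOK c7_ok

theorem coset_7 : allCos4 w3F (fun e => Bool.rec true
    (Bool.rec (anyF e (certs7b.map certFst)) true (anyF e (certs7a.map certFst))) (pow7F e)) = true := by
  decide +kernel

/-- Elements of order 7 are conjugate to `c7` or its inverse. -/
theorem rep7 {g : Equiv.Perm GolayPt} (hg : g ∈ M24) (h7 : orderOf g = 7) :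
    ∃ k ∈ M24, k * g * k⁻¹ = P c7 ∨ k * g * k⁻¹ = P c7i := by
  have hg7 : g ^ 7 = 1 := by rw [← h7]; exact pow_orderOf_eq_one g
  have : Fact (Nat.Prime 7) := ⟨by norm_num⟩
  have hm := fix_modEq g 7 hg7
  have hc3 : 3 ≤ (Finset.univ.filter fun p => g p = p).card := by
    unfold Nat.ModEq at hm
    omega
  obtain ⟨a, b, c, ha, hb, hc, hab, hac, hbc⟩ := exists_three_of_card hc3
  have ha' : g a = a := (Finset.mem_filter.1 ha).2
  have hb' : g b = b := (Finset.mem_filter.1 hb).2
  have hc' : g c = c := (Finset.mem_filter.1 hc).2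
  obtain ⟨d, hd⟩ := exists_moved (ne_one_of_order (by norm_num : (7 : ℕ) ≠ 1) h7)
  have hda : d ≠ a := by rintro rfl; exact hd ha'
  have hdb : d ≠ b := by rintro rfl; exact hd hb'
  have hdc : d ≠ c := by rintro rfl; exact hd hc'
  have hea : g d ≠ a := fun h => hda (g.injective (h.trans ha'.symm))
  have heb : g d ≠ b := fun h => hdb (g.injective (h.trans hb'.symm))
  have hec : g d ≠ c := fun h => hdc (g.injective (h.trans hc'.symm))
  let x : Fin 5 → GolayPt := ![a, b, c, d, g d]
  have hx : Function.Injective x := by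
    intro i j hij
    fin_cases i <;> fin_cases j <;> first
      | rfl
      | (exfalso
         simp only [x, Fin.reduceFinMk, Matrix.cons_val] at hij
         first
          | exact hab hij | exact hab hij.symm | exact hac hij | exact hac hij.symm
          | exact hbc hij | exact hbc hij.symm | exact hda hij | exact hda hij.symm
          | exact hdb hij | exact hdb hij.symm | exact hdc hij | exact hdc hij.symm
          | exact hea hij | exact hea hij.symm | exact heb hij | exact heb hij.symm
          | exact hec hij | exact hec hij.symm | exact hd hij | exact hd hij.symm)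
  obtain ⟨k, hk, hki⟩ := exists_to_base hx
  have e0 : k a = pt 23 := hki 0
  have e1 : k b = pt 0 := hki 1
  have e2 : k c = pt 1 := hki 2
  have e3 : k d = pt 2 := hki 3
  have e4 : k (g d) = pt 3 := hki 4
  have hconj : ∀ p, (k * g * k⁻¹) (k p) = k (g p) := by intro p; simp
  have hmem : k * g * k⁻¹ ∈ M24 := M24.mul_mem (M24.mul_mem hk hg) (M24.inv_mem hk)
  have hok := isM24_permOK w3F_ok
  have hw : ∀ i ∈ [2, 1, 0, 23], (k * g * k⁻¹) (pt i) = P w3F (pt i) := by
    intro i hi
    simp only [List.mem_cons, List.not_mem_nil, or_false] at hi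
    rcases hi with rfl | rfl | rfl | rfl
    · rw [← e3, hconj, e4, e3, P_pt hok (by norm_num), (by decide +kernel : pa w3F 2 = 3)]
    · rw [← e2, hconj, hc', e2, P_pt hok (by norm_num), (by decide +kernel : pa w3F 1 = 1)]
    · rw [← e1, hconj, hb', e1, P_pt hok (by norm_num), (by decide +kernel : pa w3F 0 = 0)]
    · rw [← e0, hconj, ha', e0, P_pt hok (by norm_num), (by decide +kernel : pa w3F 23 = 23)]
  obtain ⟨e, hr, ht⟩ := allCos4_spec coset_7 w3F_ok hmem hw
  have hp : pow7F e = true := pow7F_of hr (by
    have : orderOf (k * g * k⁻¹) = 7 := by rw [orderOf_conj', h7]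
    rw [← this]
    exact pow_orderOf_eq_one _)
  simp only [hp] at ht
  cases hA : anyF e (certs7a.map certFst) with
  | true =>
    obtain ⟨k2, hk2, e2'⟩ := conj_of_anyF hr c7_ok' certs7a_ok hA
    refine ⟨k2 * k, M24.mul_mem hk2 hk, Or.inl ?_⟩
    rw [← e2']
    group
  | false =>
    rw [hA] at ht
    obtain ⟨k2, hk2, e2'⟩ := conj_of_anyF hr (isM24_permOK c7i_ok) certs7b_ok ht
    refine ⟨k2 * k, M24.mul_mem hk2 hk, Or.inr ?_⟩
    rw [← e2']
    group

/-- Powers of the base element as codes. -/
def gpow : ℕ → ℕ
  | 0 => idCode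
  | n + 1 => pcomp c7 (gpow n)

theorem idCode_ok : permOK idCode = true := isM24_permOK idCode_spec

theorem gpow_ok (n : ℕ) : permOK (gpow n) = true := by
  induction n with
  | zero => exact idCode_ok
  | succ k ih => exact permOK_pcomp c7_ok' ih

theorem P_gpow (n : ℕ) : P (gpow n) = P c7 ^ n := by
  induction n with
  | zero => exact P_idCode
  | succ k ih =>
    show P (pcomp c7 (gpow k)) = _
    rw [P_pcomp c7_ok' (gpow_ok k), ih, pow_succ']

theorem gL_eq : gL = (List.range 7).map gpow := by decide +kernel
theorem powL_sub : ∀ c ∈ powL, c ∈ gL := by decide +kernel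
theorem gL_pow : ∀ c ∈ gL, c = idCode ∨ c ∈ powL := by decide +kernel
theorem c7_mem_pow : c7 ∈ powL := by decide +kernel
theorem gpow7 : gpow 7 = idCode := by decide +kernel

theorem c7_pow7 : P c7 ^ 7 = 1 := by
  rw [← P_gpow, gpow7, P_idCode]

theorem gL_permOK : ∀ c ∈ gL, permOK c = true := by
  intro c hc
  rw [gL_eq] at hc
  obtain ⟨j, -, rfl⟩ := List.mem_map.1 hc
  exact gpow_ok j

theorem powL_permOK : ∀ c ∈ powL, permOK c = true := fun c hc => gL_permOK c (powL_sub c hc)

theorem gL_M24 : allL isM24 gL = true := by decide +kernel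

theorem pow_fix : ∀ c ∈ powL, ∀ i ∈ List.range 24, pa c i = i → i ∈ [23, 0, 1] := by decide +kernel

theorem gL_fixF : ∀ π ∈ gL, pa π 23 = 23 ∧ pa π 0 = 0 ∧ pa π 1 = 1 := by decide +kernel

theorem s6_ok : allL isM24 s6L = true := by decide +kernel

theorem s6_comm : ∀ s ∈ s6L, ∀ c ∈ powL, pcomp s c = pcomp c s := by decide +kernel
theorem g_comm : ∀ s ∈ gL, ∀ c ∈ powL, pcomp s c = pcomp c s := by decide +kernel

theorem s6_cover : ∀ a ∈ [23, 0, 1], ∀ b ∈ [23, 0, 1], ∀ c ∈ [23, 0, 1], a ≠ b → a ≠ c → b ≠ c →
    ∃ s ∈ s6L, pa s 23 = a ∧ pa s 0 = b ∧ pa s 1 = c := by decide +kernel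

theorem g_cover : ∀ y ∈ List.range 24, y ∉ [23, 0, 1] → ∃ π ∈ gL, ∃ z ∈ [2, 4, 5], pa π z = y := by
  decide +kernel

/-- Test of `n g = g' n` on functions. -/
def commG (e : ℕ → ℕ) (c : ℕ) : Bool :=
  allBelow (fun i => Nat.beq (e (pa c7 i)) (pa c (e i))) 24

theorem commG_of {g : Equiv.Perm GolayPt} {e : ℕ → ℕ} (hr : Rep g e) {c : ℕ} (hok : permOK c = true)
    (hc : g * P c7 = P c * g) : commG e c = true := by
  apply allBelow_of
  intro i hi
  have h1 : g (P c7 (pt i)) = P c (g (pt i)) := by
    have := congrArg (fun f : Equiv.Perm GolayPt => f (pt i)) hc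
    simpa [Equiv.Perm.mul_apply] using this
  have hok7 := c7_ok'
  rw [P_pt hok7 hi, (hr _ (pa_lt hok7 hi)).2, (hr i hi).2, P_pt hok (hr i hi).1] at h1
  have h2 := congrArg idx h1
  rw [idx_pt' (hr _ (pa_lt hok7 hi)).1, idx_pt' (pa_lt hok (hr i hi).1)] at h2
  rw [h2]
  exact Nat.beq_refl _

/-- The coset test. -/
def tst (L : List ℕ) (e : ℕ → ℕ) : Bool :=
  allL (fun c => Bool.rec true (anyF e L) (commG e c)) powL

theorem wz2_ok : isM24 wz2 = true := by decide +kernel
theorem wz4_ok : isM24 wz4 = true := by decide +kernel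
theorem wz5_ok : isM24 wz5 = true := by decide +kernel

theorem coset_2 : allCos4 wz2 (tst l3) = true := by decide +kernel
theorem coset_4 : allCos4 wz4 (tst []) = true := by decide +kernel
theorem coset_5 : allCos4 wz5 (tst []) = true := by decide +kernel

theorem wz_vals : pa wz2 23 = 23 ∧ pa wz2 0 = 0 ∧ pa wz2 1 = 1 ∧ pa wz2 2 = 2 ∧
    pa wz4 23 = 23 ∧ pa wz4 0 = 0 ∧ pa wz4 1 = 1 ∧ pa wz4 2 = 4 ∧
    pa wz5 23 = 23 ∧ pa wz5 0 = 0 ∧ pa wz5 1 = 1 ∧ pa wz5 2 = 5 := by decide +kernel

theorem step_comm {x y n G : Equiv.Perm GolayPt} (hxy : x * y = y * x) (h : n * G = y * n) :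
    (x⁻¹ * n) * G = y * (x⁻¹ * n) := by
  have h2 : x⁻¹ * y = y * x⁻¹ := by
    rw [inv_mul_eq_iff_eq_mul, ← mul_assoc, hxy, mul_assoc, mul_inv_cancel, mul_one]
  rw [mul_assoc, h, ← mul_assoc, h2, mul_assoc]

theorem l3_ok : allL isM24 l3 = true := by decide +kernel

theorem l3_id : ∀ r ∈ l3, sameCode (pcomp r c7) (pcomp c7 r) = true → r = idCode := by decide +kernel

theorem core {n : Equiv.Perm GolayPt} (hn : n ∈ M24) {c : ℕ} (hc : c ∈ powL) (h : n * P c7 = P c * n) :
    ∃ s ∈ s6L, ∃ π ∈ gL, ∃ r ∈ l3, n = P s * P π * P r ∧ (c = c7 → r = idCode) := by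
  have hcok := powL_permOK c hc
  have h7fix : ∀ i ∈ [23, 0, 1], P c7 (pt i) = pt i := by
    intro i hi
    have h1 : i < 24 := by
      simp only [List.mem_cons, List.not_mem_nil, or_false] at hi
      omega
    rw [P_pt c7_ok' h1]
    have : pa c7 i = i := by
      revert i
      decide +kernel
    rw [this]
  have hF : ∀ i ∈ [23, 0, 1], idx (n (pt i)) ∈ [23, 0, 1] := by
    intro i hi
    have h1 : P c (n (pt i)) = n (pt i) := by
      have := congrArg (fun f : Equiv.Perm GolayPt => f (pt i)) h
      simp only [Equiv.Perm.mul_apply, h7fix i hi] at this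
      exact this.symm
    apply pow_fix c hc _ (List.mem_range.2 (idx_lt _))
    have h2 := P_pt hcok (idx_lt (n (pt i)))
    rw [pt_idx, h1] at h2
    have h3 := congrArg idx h2
    rw [idx_pt' (pa_lt hcok (idx_lt _))] at h3
    exact h3.symm
  have hinj : ∀ i j : ℕ, i < 24 → j < 24 → i ≠ j → idx (n (pt i)) ≠ idx (n (pt j)) := by
    intro i j hi hj hij he
    have := n.injective (idx_injective he)
    have h2 := congrArg idx this
    rw [idx_pt' hi, idx_pt' hj] at h2
    exact hij h2
  obtain ⟨s, hs, s1, s2, s3⟩ := s6_cover _ (hF 23 (by simp)) _ (hF 0 (by simp)) _ (hF 1 (by simp))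
    (hinj 23 0 (by norm_num) (by norm_num) (by norm_num))
    (hinj 23 1 (by norm_num) (by norm_num) (by norm_num))
    (hinj 0 1 (by norm_num) (by norm_num) (by norm_num))
  have hsM := allL_spec s6_ok s hs
  have hsok := isM24_permOK hsM
  have hsc : P s * P c = P c * P s := by
    rw [← P_pcomp hsok hcok, ← P_pcomp hcok hsok, s6_comm s hs c hc]
  -- first reduction
  set n1 := (P s)⁻¹ * n with hn1
  have hn1M : n1 ∈ M24 := M24.mul_mem (M24.inv_mem (P_mem_M24 hsM)) hn
  have hn1c : n1 * P c7 = P c * n1 := step_comm hsc h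
  have fixs : ∀ i, i < 24 → pa s i = idx (n (pt i)) → n1 (pt i) = pt i := by
    intro i hi he
    have h2 : P s (pt i) = n (pt i) := by
      rw [P_pt hsok hi, he, pt_idx]
    rw [hn1, Equiv.Perm.mul_apply, ← h2]
    simp
  have n1_23 := fixs 23 (by norm_num) s1
  have n1_0 := fixs 0 (by norm_num) s2
  have n1_1 := fixs 1 (by norm_num) s3
  -- second reduction
  have hy : idx (n1 (pt 2)) ∉ [23, 0, 1] := by
    intro hy
    simp only [List.mem_cons, List.not_mem_nil, or_false] at hy
    have hp : n1 (pt 2) = pt (idx (n1 (pt 2))) := (pt_idx _).symm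
    rcases hy with hy | hy | hy
    · rw [hy, ← n1_23] at hp
      exact absurd (n1.injective hp) (by decide +kernel)
    · rw [hy, ← n1_0] at hp
      exact absurd (n1.injective hp) (by decide +kernel)
    · rw [hy, ← n1_1] at hp
      exact absurd (n1.injective hp) (by decide +kernel)
  obtain ⟨π, hπ, z, hz, hπz⟩ := g_cover _ (List.mem_range.2 (idx_lt _)) hy
  have hπok := gL_permOK π hπ
  have hπM := allL_spec gL_M24 π hπ
  have hπc : P π * P c = P c * P π := by
    rw [← P_pcomp hπok hcok, ← P_pcomp hcok hπok, g_comm π hπ c hc]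
  set n2 := (P π)⁻¹ * n1 with hn2
  have hn2M : n2 ∈ M24 := M24.mul_mem (M24.inv_mem (P_mem_M24 hπM)) hn1M
  have hn2c : n2 * P c7 = P c * n2 := step_comm hπc hn1c
  obtain ⟨f1, f2, f3⟩ := gL_fixF π hπ
  have inv_fix : ∀ i, i < 24 → pa π i = i → (P π)⁻¹ (pt i) = pt i := by
    intro i hi he
    have : P π (pt i) = pt i := by rw [P_pt hπok hi, he]
    rw [Equiv.Perm.inv_eq_iff_eq, this]
  have n2_23 : n2 (pt 23) = pt 23 := by
    rw [hn2, Equiv.Perm.mul_apply, n1_23, inv_fix 23 (by norm_num) f1]
  have n2_0 : n2 (pt 0) = pt 0 := by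
    rw [hn2, Equiv.Perm.mul_apply, n1_0, inv_fix 0 (by norm_num) f2]
  have n2_1 : n2 (pt 1) = pt 1 := by
    rw [hn2, Equiv.Perm.mul_apply, n1_1, inv_fix 1 (by norm_num) f3]
  have hzlt : z < 24 := by
    simp only [List.mem_cons, List.not_mem_nil, or_false] at hz
    omega
  have n2_2 : n2 (pt 2) = pt z := by
    rw [hn2, Equiv.Perm.mul_apply, Equiv.Perm.inv_eq_iff_eq, P_pt hπok hzlt, hπz, pt_idx]
  obtain ⟨v1, v2, v3, v4, v5, v6, v7, v8, v9, v10, v11, v12⟩ := wz_vals
  have hfinish : ∀ w : ℕ, isM24 w = true → pa w 23 = 23 → pa w 0 = 0 → pa w 1 = 1 → pa w 2 = z →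
      ∀ i ∈ [2, 1, 0, 23], n2 (pt i) = P w (pt i) := by
    intro w hw a1 a2 a3 a4 i hi
    have hok := isM24_permOK hw
    simp only [List.mem_cons, List.not_mem_nil, or_false] at hi
    rcases hi with rfl | rfl | rfl | rfl
    · rw [n2_2, P_pt hok (by norm_num), a4]
    · rw [n2_1, P_pt hok (by norm_num), a3]
    · rw [n2_0, P_pt hok (by norm_num), a2]
    · rw [n2_23, P_pt hok (by norm_num), a1]
  simp only [List.mem_cons, List.not_mem_nil, or_false] at hz
  rcases hz with rfl | rfl | rfl
  · obtain ⟨e, hr, ht⟩ := allCos4_spec coset_2 wz2_ok hn2M (hfinish wz2 wz2_ok v1 v2 v3 v4)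
    have ht2 := allL_spec ht c hc
    rw [commG_of hr hcok hn2c] at ht2
    obtain ⟨r, hrm, hs2⟩ := anyF_spec ht2
    have hrok := isM24_permOK (allL_spec l3_ok r hrm)
    have hn2r : n2 = P r := eq_of_sameF hr hs2 hrok
    refine ⟨s, hs, π, hπ, r, hrm, ?_, ?_⟩
    · rw [← hn2r, hn2, hn1]
      group
    · intro hcc
      subst hcc
      apply l3_id r hrm
      apply sameCode_of_P_eq (permOK_pcomp hrok c7_ok') (permOK_pcomp c7_ok' hrok)
      rw [P_pcomp hrok c7_ok', P_pcomp c7_ok' hrok, ← hn2r]
      exact hn2c
  · exfalso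
    obtain ⟨e, hr, ht⟩ := allCos4_spec coset_4 wz4_ok hn2M (hfinish wz4 wz4_ok v5 v6 v7 v8)
    have ht2 := allL_spec ht c hc
    rw [commG_of hr hcok hn2c] at ht2
    cases ht2
  · exfalso
    obtain ⟨e, hr, ht⟩ := allCos4_spec coset_5 wz5_ok hn2M (hfinish wz5 wz5_ok v9 v10 v11 v12)
    have ht2 := allL_spec ht c hc
    rw [commG_of hr hcok hn2c] at ht2
    cases ht2

theorem mem42 : ∀ s ∈ s6L, ∀ π ∈ gL, pcomp s π ∈ l42 := by decide +kernel
theorem mem126 : ∀ s ∈ s6L, ∀ π ∈ gL, ∀ r ∈ l3, pcomp (pcomp s π) r ∈ l126 := by decide +kernel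

theorem enum126 {n : Equiv.Perm GolayPt} (hn : n ∈ M24) {c : ℕ} (hc : c ∈ powL) (h : n * P c7 = P c * n) :
    ∃ l ∈ l126, n = P l := by
  obtain ⟨s, hs, π, hπ, r, hr, e, -⟩ := core hn hc h
  have hsok := isM24_permOK (allL_spec s6_ok s hs)
  have hπok := gL_permOK π hπ
  have hrok := isM24_permOK (allL_spec l3_ok r hr)
  refine ⟨_, mem126 s hs π hπ r hr, ?_⟩
  rw [P_pcomp (permOK_pcomp hsok hπok) hrok, P_pcomp hsok hπok, e]

theorem enum42 {n : Equiv.Perm GolayPt} (hn : n ∈ M24) (h : n * P c7 = P c7 * n) :
    ∃ l ∈ l42, n = P l := by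
  obtain ⟨s, hs, π, hπ, r, hr, e, hid⟩ := core hn c7_mem_pow h
  have hsok := isM24_permOK (allL_spec s6_ok s hs)
  have hπok := gL_permOK π hπ
  refine ⟨_, mem42 s hs π hπ, ?_⟩
  rw [e, hid rfl, P_idCode, mul_one, P_pcomp hsok hπok]

/-- The base element in the group. -/
noncomputable def g0 : ↥M24 := ⟨P c7, P_mem_M24 c7_ok⟩

/-- The base subgroup of order 7. -/
noncomputable def S0 : Subgroup ↥M24 := Subgroup.zpowers g0

theorem mem_S0 (h : ↥M24) : h ∈ S0 ↔ ∃ π ∈ gL, (h : Equiv.Perm GolayPt) = P π := by
  constructor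
  · rintro ⟨z, rfl⟩
    have h1 : ((g0 ^ z : ↥M24) : Equiv.Perm GolayPt) = P c7 ^ z := rfl
    have h2 : P c7 ^ z = P c7 ^ (z % 7) := zpow_eq_zpow_emod z (by
      show P c7 ^ (7 : ℤ) = 1
      rw [zpow_ofNat, c7_pow7])
    have h3 : 0 ≤ z % 7 := Int.emod_nonneg _ (by norm_num)
    have h4 : z % 7 < 7 := Int.emod_lt_of_pos _ (by norm_num)
    obtain ⟨j, hj⟩ := Int.eq_ofNat_of_zero_le h3
    refine ⟨gpow j, ?_, ?_⟩
    · rw [gL_eq]
      exact List.mem_map.2 ⟨j, List.mem_range.2 (by omega), rfl⟩
    · rw [h1, h2, hj, zpow_natCast, P_gpow]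
  · rintro ⟨π, hπ, e⟩
    rw [gL_eq] at hπ
    obtain ⟨j, -, rfl⟩ := List.mem_map.1 hπ
    refine ⟨(j : ℤ), ?_⟩
    apply Subtype.ext
    show P c7 ^ (j : ℤ) = _
    rw [zpow_natCast, e, P_gpow]

theorem mem_S0_of_gL {π : ℕ} (hπ : π ∈ gL) (hm : P π ∈ M24) : (⟨P π, hm⟩ : ↥M24) ∈ S0 :=
  (mem_S0 _).2 ⟨π, hπ, rfl⟩

theorem c7_ne_id : sameCode c7 idCode = false := by decide +kernel

theorem g0_ne_one : g0 ≠ 1 := by
  intro h
  have h1 : P c7 = P idCode := by
    rw [P_idCode]
    exact congrArg Subtype.val h
  have h2 := c7_ne_id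
  rw [sameCode_of_P_eq c7_ok' idCode_ok h1] at h2
  cases h2

theorem l126_chk : ∀ l ∈ l126, isM24 l = true ∧ pcomp (pcomp l c7) (pinv l) ∈ powL ∧ pinv l ∈ l126 := by
  decide +kernel

theorem l42_chk : ∀ l ∈ l42, isM24 l = true ∧ pcomp l c7 = pcomp c7 l := by decide +kernel

theorem l126_dist : distL l126 := by decide +kernel
theorem l42_dist : distL l42 := by decide +kernel

theorem l126_fwd {l : ℕ} (hl : l ∈ l126) (h : ↥M24) (hh : h ∈ S0) :
    (⟨P l, P_mem_M24 (l126_chk l hl).1⟩ : ↥M24) * h * (⟨P l, P_mem_M24 (l126_chk l hl).1⟩ : ↥M24)⁻¹ ∈ S0 := by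
  obtain ⟨h1, h2, -⟩ := l126_chk l hl
  have hok := isM24_permOK h1
  set n : ↥M24 := ⟨P l, P_mem_M24 h1⟩ with hn
  have hg : n * g0 * n⁻¹ ∈ S0 := by
    refine (mem_S0 _).2 ⟨_, powL_sub _ h2, ?_⟩
    rw [P_pcomp (permOK_pcomp hok c7_ok') (permOK_pinv hok), P_pcomp hok c7_ok', P_pinv hok]
    rfl
  obtain ⟨z, rfl⟩ := hh
  have : n * (g0 ^ z) * n⁻¹ = (n * g0 * n⁻¹) ^ z := (conj_zpow).symm
  show n * (g0 ^ z) * n⁻¹ ∈ S0
  rw [this]
  exact S0.zpow_mem hg z

theorem mem_N0 (n : ↥M24) :
    n ∈ Subgroup.normalizer (S0 : Set ↥M24) ↔ ∃ l ∈ l126, (n : Equiv.Perm GolayPt) = P l := by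
  constructor
  · intro hn
    have h1 : n * g0 * n⁻¹ ∈ S0 := (Subgroup.mem_set_normalizer_iff.1 hn g0).1 (Subgroup.mem_zpowers g0)
    obtain ⟨π, hπ, e⟩ := (mem_S0 _).1 h1
    have hpow : π ∈ powL := by
      rcases gL_pow π hπ with rfl | h
      · exfalso
        rw [P_idCode] at e
        apply g0_ne_one
        have h2 : n * g0 * n⁻¹ = 1 := Subtype.ext e
        have h3 : n * g0 = n := by
          rw [mul_inv_eq_one] at h2
          exact h2
        simpa using h3
      · exact h
    apply enum126 n.2 hpow
    have h2 : (n : Equiv.Perm GolayPt) * P c7 * (n : Equiv.Perm GolayPt)⁻¹ = P π := e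
    rw [← h2]
    group
  · rintro ⟨l, hl, e⟩
    obtain ⟨h1, h2, h3⟩ := l126_chk l hl
    have hok := isM24_permOK h1
    have hn : n = ⟨P l, P_mem_M24 h1⟩ := Subtype.ext e
    rw [hn]
    apply Subgroup.mem_set_normalizer_iff.2
    intro h
    constructor
    · exact l126_fwd hl h
    · intro hh
      have h4 := l126_fwd h3 _ hh
      have h5 : (⟨P (pinv l), P_mem_M24 (l126_chk _ h3).1⟩ : ↥M24) = (⟨P l, P_mem_M24 h1⟩ : ↥M24)⁻¹ := by
        apply Subtype.ext
        exact P_pinv hok
      rw [h5] at h4
      simpa [mul_assoc] using h4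

theorem mem_C0 (n : ↥M24) :
    n ∈ Subgroup.centralizer (S0 : Set ↥M24) ↔ ∃ l ∈ l42, (n : Equiv.Perm GolayPt) = P l := by
  constructor
  · intro hn
    have h1 : g0 * n = n * g0 := (Subgroup.mem_centralizer_iff.1 hn) g0 (Subgroup.mem_zpowers g0)
    apply enum42 n.2
    exact (congrArg Subtype.val h1).symm
  · rintro ⟨l, hl, e⟩
    obtain ⟨h1, h2⟩ := l42_chk l hl
    have hok := isM24_permOK h1
    have hc : P l * P c7 = P c7 * P l := by
      rw [← P_pcomp hok c7_ok', ← P_pcomp c7_ok' hok, h2]
    have hc' : Commute g0 n := by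
      apply Subtype.ext
      show P c7 * (n : Equiv.Perm GolayPt) = (n : Equiv.Perm GolayPt) * P c7
      rw [e]
      exact hc.symm
    apply Subgroup.mem_centralizer_iff.2
    rintro h ⟨z, rfl⟩
    exact (hc'.zpow_left z).eq

theorem card_map_list {N : Subgroup ↥M24} {L : List ℕ} (h : distL L) (hok : ∀ π ∈ L, permOK π = true)
    (hN : ∀ n : ↥M24, n ∈ N ↔ ∃ l ∈ L, (n : Equiv.Perm GolayPt) = P l)
    (hM : ∀ l ∈ L, P l ∈ M24) : Nat.card ↥N = L.length := by
  have h1 := card_of_list (H := N.map M24.subtype) h hok (fun g => by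
    constructor
    · rintro ⟨x, hx, rfl⟩
      exact (hN x).1 hx
    · rintro ⟨π, hπ, rfl⟩
      exact ⟨⟨P π, hM π hπ⟩, (hN _).2 ⟨π, hπ, rfl⟩, rfl⟩)
  rw [← h1]
  exact Nat.card_congr (N.equivMapOfInjective _ M24.subtype_injective).toEquiv

theorem card_N0 : Nat.card ↥(Subgroup.normalizer (S0 : Set ↥M24)) = 126 := by
  rw [card_map_list l126_dist (fun π h => isM24_permOK (l126_chk π h).1) mem_N0
    (fun π h => P_mem_M24 (l126_chk π h).1)]
  decide +kernel

theorem card_C0 : Nat.card ↥(Subgroup.centralizer (S0 : Set ↥M24)) = 42 := by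
  rw [card_map_list l42_dist (fun π h => isM24_permOK (l42_chk π h).1) mem_C0
    (fun π h => P_mem_M24 (l42_chk π h).1)]
  decide +kernel

theorem cUV : cU ∈ l42 ∧ cV ∈ l42 ∧ sameCode (pcomp cU cV) (pcomp cV cU) = false := by decide +kernel

theorem t0x_mem : t0x ∈ trioL := by decide +kernel

theorem t0x_fix : allL (fun π => trAct π t0x t0x) l126 = true := by decide +kernel

theorem N0_fix {n : ↥M24} (hn : n ∈ Subgroup.normalizer (S0 : Set ↥M24)) :
    (n : Equiv.Perm GolayPt) • tr t0x = tr t0x := by
  obtain ⟨l, hl, e⟩ := (mem_N0 n).1 hn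
  rw [e]
  exact (trAct_spec (l126_chk l hl).1 t0x_mem t0x_mem).1 (allL_spec t0x_fix l hl)

section Transport

variable {G : Type*} [Group G] {S S' : Subgroup G} {u : G}

theorem mem_norm_conj (key : ∀ h, h ∈ S ↔ u * h * u⁻¹ ∈ S') (n : G) :
    n ∈ Subgroup.normalizer (S : Set G) ↔ u * n * u⁻¹ ∈ Subgroup.normalizer (S' : Set G) := by
  have key' : ∀ w, w ∈ S' ↔ u⁻¹ * w * u ∈ S := by
    intro w
    rw [key]
    have : u * (u⁻¹ * w * u) * u⁻¹ = w := by group
    rw [this]
  constructor
  · intro hn
    have h1 : ∀ h, h ∈ S ↔ n * h * n⁻¹ ∈ S := Subgroup.mem_set_normalizer_iff.1 hn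
    apply Subgroup.mem_set_normalizer_iff.2
    intro w
    show w ∈ S' ↔ _ ∈ S'
    rw [key' w, h1, key]
    have : u * (n * (u⁻¹ * w * u) * n⁻¹) * u⁻¹ = u * n * u⁻¹ * w * (u * n * u⁻¹)⁻¹ := by group
    rw [this]
  · intro hn
    have h1 : ∀ w, w ∈ S' ↔ (u * n * u⁻¹) * w * (u * n * u⁻¹)⁻¹ ∈ S' := Subgroup.mem_set_normalizer_iff.1 hn
    apply Subgroup.mem_set_normalizer_iff.2
    intro h
    show h ∈ S ↔ _ ∈ S
    rw [key h, h1, key]
    have : u * (n * h * n⁻¹) * u⁻¹ = u * n * u⁻¹ * (u * h * u⁻¹) * (u * n * u⁻¹)⁻¹ := by group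
    rw [this]

theorem mem_cent_conj (key : ∀ h, h ∈ S ↔ u * h * u⁻¹ ∈ S') (n : G) :
    n ∈ Subgroup.centralizer (S : Set G) ↔ u * n * u⁻¹ ∈ Subgroup.centralizer (S' : Set G) := by
  constructor
  · intro hn
    apply Subgroup.mem_centralizer_iff.2
    intro w hw
    have hw' : u⁻¹ * w * u ∈ S := by
      rw [key]
      have : u * (u⁻¹ * w * u) * u⁻¹ = w := by group
      rwa [this]
    have h1 := (Subgroup.mem_centralizer_iff.1 hn) _ hw'
    have h2 : w * (u * n * u⁻¹) = u * ((u⁻¹ * w * u) * n) * u⁻¹ := by group
    have h3 : (u * n * u⁻¹) * w = u * (n * (u⁻¹ * w * u)) * u⁻¹ := by group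
    rw [h2, h3, h1]
  · intro hn
    apply Subgroup.mem_centralizer_iff.2
    intro h hh
    have h1 := (Subgroup.mem_centralizer_iff.1 hn) _ ((key h).1 hh)
    have h2 : u * (h * n) * u⁻¹ = u * h * u⁻¹ * (u * n * u⁻¹) := by group
    have h3 : u * (n * h) * u⁻¹ = u * n * u⁻¹ * (u * h * u⁻¹) := by group
    have h4 : u * (h * n) * u⁻¹ = u * (n * h) * u⁻¹ := by rw [h2, h3, h1]
    simpa using h4

theorem card_norm_conj (key : ∀ h, h ∈ S ↔ u * h * u⁻¹ ∈ S') :
    Nat.card ↥(Subgroup.normalizer (S : Set G)) = Nat.card ↥(Subgroup.normalizer (S' : Set G)) :=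
  Nat.card_congr (Equiv.subtypeEquiv (MulAut.conj u).toEquiv (fun n => mem_norm_conj key n))

theorem card_cent_conj (key : ∀ h, h ∈ S ↔ u * h * u⁻¹ ∈ S') :
    Nat.card ↥(Subgroup.centralizer (S : Set G)) = Nat.card ↥(Subgroup.centralizer (S' : Set G)) :=
  Nat.card_congr (Equiv.subtypeEquiv (MulAut.conj u).toEquiv (fun n => mem_cent_conj key n))

theorem key_zpowers (x : G) (h : G) :
    h ∈ Subgroup.zpowers x ↔ u * h * u⁻¹ ∈ Subgroup.zpowers (u * x * u⁻¹) := by
  constructor
  · rintro ⟨z, rfl⟩
    exact ⟨z, conj_zpow⟩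
  · rintro ⟨z, hz⟩
    refine ⟨z, ?_⟩
    have h2 : u * x ^ z * u⁻¹ = u * h * u⁻¹ := by
      rw [← hz]
      exact conj_zpow.symm
    simpa using h2

end Transport

theorem c7i_eq : c7i = pinv c7 := by decide +kernel


/-- For a subgroup S of order 7 of the group of the length-24 code (a Sylow 7-subgroup): the normaliser of S has order 126, the centraliser of S has order 42 and is non-abelian, and the whole normaliser leaves some trio invariant. (These are the orders of a Frobenius group of order 21 times a symmetric group of degree 3; the isomorphism type itself is not asserted here.) -/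
theorem result (S : Subgroup ↥Cfsg.M24) (hS : Nat.card S = 7) : Nat.card ↥(Subgroup.normalizer (S : Set ↥Cfsg.M24)) = 126 ∧ Nat.card ↥(Subgroup.centralizer (S : Set ↥Cfsg.M24)) = 42 ∧ (∃ x ∈ Subgroup.centralizer (S : Set ↥Cfsg.M24), ∃ y ∈ Subgroup.centralizer (S : Set ↥Cfsg.M24), x * y ≠ y * x) ∧ ∃ T ∈ Cfsg.trios, ∀ n ∈ Subgroup.normalizer (S : Set ↥Cfsg.M24), ((n : ↥Cfsg.M24) : Equiv.Perm Cfsg.GolayPt) • T = T := by
  obtain ⟨x, rfl, hx⟩ := exists_gen_prime S (q := 7) (by norm_num) hS
  obtain ⟨k, hk, hkk⟩ := rep7 x.2 hx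
  let u : ↥M24 := ⟨k, hk⟩
  have hS0 : Subgroup.zpowers (u * x * u⁻¹) = S0 := by
    rcases hkk with h | h
    · congr 1
      exact Subtype.ext h
    · have h1 : u * x * u⁻¹ = g0⁻¹ := by
        apply Subtype.ext
        show k * (x : Equiv.Perm GolayPt) * k⁻¹ = (P c7)⁻¹
        rw [h, c7i_eq, P_pinv c7_ok']
      rw [h1, Subgroup.zpowers_inv]
      rfl
  have key : ∀ h, h ∈ Subgroup.zpowers x ↔ u * h * u⁻¹ ∈ S0 := by
    intro h
    rw [← hS0]
    exact key_zpowers x h
  refine ⟨?_, ?_, ?_, ?_⟩
  · rw [card_norm_conj key, card_N0]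
  · rw [card_cent_conj key, card_C0]
  · obtain ⟨h1, h2, h3⟩ := cUV
    obtain ⟨o1, -⟩ := l42_chk _ h1
    obtain ⟨o2, -⟩ := l42_chk _ h2
    let a : ↥M24 := ⟨P cU, P_mem_M24 o1⟩
    let b : ↥M24 := ⟨P cV, P_mem_M24 o2⟩
    have ha : a ∈ Subgroup.centralizer (S0 : Set ↥M24) := (mem_C0 a).2 ⟨cU, h1, rfl⟩
    have hb : b ∈ Subgroup.centralizer (S0 : Set ↥M24) := (mem_C0 b).2 ⟨cV, h2, rfl⟩
    refine ⟨u⁻¹ * a * u, ?_, u⁻¹ * b * u, ?_, ?_⟩
    · rw [mem_cent_conj key]
      have : u * (u⁻¹ * a * u) * u⁻¹ = a := by group
      rwa [this]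
    · rw [mem_cent_conj key]
      have : u * (u⁻¹ * b * u) * u⁻¹ = b := by group
      rwa [this]
    · intro he
      have h4 : a * b = b * a := by
        have e1 : a * b = u * (u⁻¹ * a * u * (u⁻¹ * b * u)) * u⁻¹ := by group
        have e2 : b * a = u * (u⁻¹ * b * u * (u⁻¹ * a * u)) * u⁻¹ := by group
        rw [e1, e2, he]
      have h5 : P cU * P cV = P cV * P cU := congrArg Subtype.val h4
      have oU := isM24_permOK o1
      have oV := isM24_permOK o2
      have h6 : sameCode (pcomp cU cV) (pcomp cV cU) = true := by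
        apply sameCode_of_P_eq (permOK_pcomp oU oV) (permOK_pcomp oV oU)
        rw [P_pcomp oU oV, P_pcomp oV oU, h5]
      rw [h6] at h3
      cases h3
  · refine ⟨k⁻¹ • tr t0x, smul_mem_trios (M24.inv_mem hk) (tr_mem_trios (allL_spec trioL_OK _ t0x_mem)), ?_⟩
    intro n hn
    have h1 := N0_fix ((mem_norm_conj key n).1 hn)
    have h2 : (((u * n * u⁻¹ : ↥M24) : ↥M24) : Equiv.Perm GolayPt) = k * (n : Equiv.Perm GolayPt) * k⁻¹ := rfl
    rw [h2] at h1
    have h3 : (n : Equiv.Perm GolayPt) * k⁻¹ = k⁻¹ * (k * (n : Equiv.Perm GolayPt) * k⁻¹) := by group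
    rw [← mul_smul, h3, mul_smul, h1]

end Cfsg.Agent.S5604
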