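import Cfsg.Statements.S5605
import Cfsg.Agent.Lib.H27.GolayCounts

set_option autoImplicit false
open scoped Pointwise
open Cfsg

namespace Cfsg.Agent.S5605

open Cfsg.Agent.H27.Golay


/-- An involution of the group of the length-24 code with exactly 8 fixed points maps to themselves exactly 71 octads, exactly 99 trios and exactly 91 sextets. -/
theorem result (g : Equiv.Perm Cfsg.GolayPt) (hg : g ∈ Cfsg.M24) (h₂ : orderOf g = 2) (h₈ : (Finset.univ.filter fun p => g p = p).card = 8) : {o : Finset Cfsg.GolayPt | o ∈ Cfsg.octads ∧ g • o = o}.ncard = 71 ∧ {T : Finset (Finset Cfsg.GolayPt) | T ∈ Cfsg.trios ∧ g • T = T}.ncard = 99 ∧ {S : Finset (Finset Cfsg.GolayPt) | S ∈ Cfsg.sextets ∧ g • S = S}.ncard = 91 := by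
  obtain ⟨k, hk, e⟩ := rep2A hg h₂ (by omega)
  have hok := isM24_permOK c2A_ok
  refine ⟨?_, ?_, ?_⟩
  · rw [← conj_octads hk, e, ncard_fixed_octads hok, count_2A_octads]
  · rw [← conj_trios hk, e, ncard_fixed_trios c2A_ok, count_2A_trios]
  · rw [← conj_sextets hk, e, ncard_fixed_sextets c2A_ok, count_2A_sextets]

end Cfsg.Agent.S5605
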