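import Cfsg.Statements.S5607
import Cfsg.Agent.Lib.H27.GolayL

set_option autoImplicit false
open scoped Pointwise
open Cfsg

set_option maxRecDepth 100000
namespace Cfsg.Agent.S5607

open Cfsg.Agent.H27.Golay
open scoped Pointwise

def tr1 : List ℕ := [11943302717949000103320032424527927, 48685562671654081080042389691325442, 108271474575578375853637829710404609, 142840673417063328884598966349880326, 167658853421424825045103732798905353, 215818126711318934537135646175222791, 250919533688624623420707823470468099, 308012974258750293610791399831624709, 337799849283066938888464013204085772, 394948804302864446704044602717953028, 434944176860337232263353959581113360, 479523689583875407060841476667017266, 510440472716082356053249840622558216, 549453697452369332405828167280352276, 610232311025216799852131997613349907, 636147053000214353949707675324800022, 684599278679780461850616846383930378, 723312923099093277354257131502165013, 770182276716296359315048040278427691, 792381340753474417199533521497316366, 840473482916168904587213283204062221,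 890831959834364762891419217638284305, 930768774154839755511513887034072079, 984818244535754528103549039458486304]

def tr2 : List ℕ := [984818244535754528103549039458486304, 976738873497866038669763171212035136, 956909481404633033521923126565738592, 973653402589836035969329486483563648, 978355088255623058115747202845514912, 966361362043100556385295868030520512, 961117725362934088633758246478615776, 959810896457991006433803828205007104, 976419772790000552655311310097649952, 982742615841258321588321708818186560, 963844560264022931241806718943502720, 959621144687207445011354891794305440, 961234229990267651091903061136395712, 968509197405959020708225949936179680, 963677071855936084927246249764137472, 966068256921542324835110112934352416, 968854125968931477699987145318513248, 977510031500938264240793736510191232, 965982888658624668942265304604952224, 957338114558760712377674993492213440]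

def l16 : List ℕ := [984818244535754528103549039458486304, 962508496607438698101436973414746144, 976934804572108675034832543981668384, 967775751955048358589096069482874912, 981940598513915484873933947681343520, 980942909071663397167240048230565920, 963716329872273802668156052426786848, 959707186621613884996786507251877920, 972560815420533050926679905878345760, 964653479765911582217589736242382880, 978270424222237088553180056721557536, 960831283963798152912375878980765728, 968571400229892424521567095052929056, 983298441375648284054396014667892768, 974992129703708925382840134133254176, 973929156326740366392912363040475168]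

def om2 : ℕ := 8124414

def w11 : ℕ := 984086882544015928678694184513980768

def w18 : ℕ := 971738067283509990764222603454983744

def s0x : ℕ := 5619444451524113266939949830052291199371265


theorem c2B_ok' : permOK c2B = true := isM24_permOK c2B_ok

/-- The centraliser of the base involution. -/
def Cen : Subgroup (Equiv.Perm GolayPt) where
  carrier := {c | c ∈ M24 ∧ c * P c2B = P c2B * c}
  mul_mem' := by
    rintro a b ⟨ha, ha'⟩ ⟨hb, hb'⟩
    refine ⟨M24.mul_mem ha hb, ?_⟩
    rw [mul_assoc, hb', ← mul_assoc, ha', mul_assoc]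
  one_mem' := ⟨M24.one_mem, by simp⟩
  inv_mem' := by
    rintro a ⟨ha, ha'⟩
    refine ⟨M24.inv_mem ha, ?_⟩
    rw [inv_mul_eq_iff_eq_mul, ← mul_assoc, ha', mul_assoc, mul_inv_cancel, mul_one]

def Cen1 : Subgroup (Equiv.Perm GolayPt) := Cen ⊓ MulAction.stabilizer (Equiv.Perm GolayPt) (pt 23)

def Cen2 : Subgroup (Equiv.Perm GolayPt) := Cen1 ⊓ MulAction.stabilizer (Equiv.Perm GolayPt) (pt 1)

theorem tr1_ok : allL (commC c2B) tr1 = true := by decide +kernel
theorem tr2_ok : allL (fun π => commC c2B π && Nat.beq (pa π 23) 23) tr2 = true := by decide +kernel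
theorem l16_ok : allL (fun π => commC c2B π && Nat.beq (pa π 23) 23 && Nat.beq (pa π 1) 1) l16 = true := by
  decide +kernel

theorem tr1_img : imgMask 23 tr1 = 16777215 := by decide +kernel
theorem tr2_img : imgMask 1 tr2 = om2 := by decide +kernel

theorem tr1_spec {π : ℕ} (h : π ∈ tr1) : P π ∈ Cen ∧ permOK π = true := by
  obtain ⟨-, h1, h2, h3⟩ := commC_spec c2B_ok' (allL_spec tr1_ok π h)
  exact ⟨⟨h1, h3⟩, h2⟩

theorem tr2_spec {π : ℕ} (h : π ∈ tr2) : P π ∈ Cen1 ∧ permOK π = true := by
  have h0 := allL_spec tr2_ok π h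
  rw [Bool.and_eq_true] at h0
  obtain ⟨-, h1, h2, h3⟩ := commC_spec c2B_ok' h0.1
  refine ⟨⟨⟨h1, h3⟩, ?_⟩, h2⟩
  show P π (pt 23) = pt 23
  rw [P_pt h2 (by norm_num), Nat.eq_of_beq_eq_true h0.2]

theorem l16_spec {π : ℕ} (h : π ∈ l16) : P π ∈ Cen2 ∧ permOK π = true := by
  have h0 := allL_spec l16_ok π h
  rw [Bool.and_eq_true, Bool.and_eq_true] at h0
  obtain ⟨-, h1, h2, h3⟩ := commC_spec c2B_ok' h0.1.1
  refine ⟨⟨⟨⟨h1, h3⟩, ?_⟩, ?_⟩, h2⟩
  · show P π (pt 23) = pt 23
    rw [P_pt h2 (by norm_num), Nat.eq_of_beq_eq_true h0.1.2]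
  · show P π (pt 1) = pt 1
    rw [P_pt h2 (by norm_num), Nat.eq_of_beq_eq_true h0.2]

theorem exists_tr1 (y : GolayPt) : ∃ π ∈ tr1, P π (pt 23) = y := by
  have h1 : (imgMask 23 tr1).testBit (idx y) = true := by
    rw [tr1_img]
    have hall : allBelow (fun i => Nat.testBit 16777215 i) 24 = true := by decide +kernel
    exact allBelow_spec hall _ (idx_lt _)
  obtain ⟨π, h2, h3⟩ := (testBit_imgMask _ _ _).1 h1
  refine ⟨π, h2, ?_⟩
  rw [P_pt (tr1_spec h2).2 (by norm_num), h3, pt_idx]

theorem exists_tr2 {y : GolayPt} (hy : y ∈ fs om2) : ∃ π ∈ tr2, P π (pt 1) = y := by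
  rw [mem_fs, ← tr2_img] at hy
  obtain ⟨π, h2, h3⟩ := (testBit_imgMask _ _ _).1 hy
  refine ⟨π, h2, ?_⟩
  rw [P_pt (tr2_spec h2).2 (by norm_num), h3, pt_idx]

theorem w11_ok : isM24 w11 = true := by decide +kernel
theorem w18_ok : isM24 w18 = true := by decide +kernel

theorem coset_11 : allCos4 w11 (fun e => Bool.rec true false (commF e c2B)) = true := by decide +kernel
theorem coset_18 : allCos4 w18 (fun e => Bool.rec true false (commF e c2B)) = true := by decide +kernel

theorem t0_23 : P c2B (pt 23) = pt 0 := by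
  rw [P_pt c2B_ok' (by norm_num), (by decide +kernel : pa c2B 23 = 0)]
theorem t0_1 : P c2B (pt 1) = pt 2 := by
  rw [P_pt c2B_ok' (by norm_num), (by decide +kernel : pa c2B 1 = 2)]
theorem t0_11 : P c2B (pt 11) = pt 18 := by
  rw [P_pt c2B_ok' (by norm_num), (by decide +kernel : pa c2B 11 = 18)]
theorem t0_18 : P c2B (pt 18) = pt 11 := by
  rw [P_pt c2B_ok' (by norm_num), (by decide +kernel : pa c2B 18 = 11)]

theorem comm_apply {c : Equiv.Perm GolayPt} (hc : c * P c2B = P c2B * c) (p : GolayPt) :
    c (P c2B p) = P c2B (c p) := by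
  have := congrArg (fun f : Equiv.Perm GolayPt => f p) hc
  simpa [Equiv.Perm.mul_apply] using this

theorem om2_cases : ∀ i : Fin 24, om2.testBit i = true ∨ i.val ∈ [23, 0, 11, 18] := by decide +kernel

theorem cen1_mem {n : Equiv.Perm GolayPt} (hn : n ∈ Cen1) : n (pt 1) ∈ fs om2 := by
  obtain ⟨⟨hM, hc⟩, h23⟩ := hn
  have h23' : n (pt 23) = pt 23 := h23
  have h0' : n (pt 0) = pt 0 := by
    rw [← t0_23, comm_apply hc, h23']
  by_contra hcon
  rw [mem_fs] at hcon
  have hz := om2_cases ⟨_, idx_lt (n (pt 1))⟩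
  rcases hz with hz | hz
  · exact hcon hz
  simp only [List.mem_cons, List.not_mem_nil, or_false] at hz
  have hpt : n (pt 1) = pt (idx (n (pt 1))) := (pt_idx _).symm
  rcases hz with hz | hz | hz | hz
  · rw [hz, ← h23'] at hpt
    have := n.injective hpt
    exact absurd this (by decide +kernel)
  · rw [hz, ← h0'] at hpt
    have := n.injective hpt
    exact absurd this (by decide +kernel)
  · rw [hz] at hpt
    have h2' : n (pt 2) = pt 18 := by
      rw [← t0_1, comm_apply hc, hpt, t0_11]
    have hok := isM24_permOK w11_ok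
    have hw : ∀ i ∈ [2, 1, 0, 23], n (pt i) = P w11 (pt i) := by
      intro i hi
      simp only [List.mem_cons, List.not_mem_nil, or_false] at hi
      rcases hi with rfl | rfl | rfl | rfl
      · rw [h2', P_pt hok (by norm_num), (by decide +kernel : pa w11 2 = 18)]
      · rw [hpt, P_pt hok (by norm_num), (by decide +kernel : pa w11 1 = 11)]
      · rw [h0', P_pt hok (by norm_num), (by decide +kernel : pa w11 0 = 0)]
      · rw [h23', P_pt hok (by norm_num), (by decide +kernel : pa w11 23 = 23)]
    obtain ⟨e, hr, ht⟩ := allCos4_spec coset_11 w11_ok hM hw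
    rw [commF_of hr c2B_ok' hc] at ht
    cases ht
  · rw [hz] at hpt
    have h2' : n (pt 2) = pt 11 := by
      rw [← t0_1, comm_apply hc, hpt, t0_18]
    have hok := isM24_permOK w18_ok
    have hw : ∀ i ∈ [2, 1, 0, 23], n (pt i) = P w18 (pt i) := by
      intro i hi
      simp only [List.mem_cons, List.not_mem_nil, or_false] at hi
      rcases hi with rfl | rfl | rfl | rfl
      · rw [h2', P_pt hok (by norm_num), (by decide +kernel : pa w18 2 = 11)]
      · rw [hpt, P_pt hok (by norm_num), (by decide +kernel : pa w18 1 = 18)]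
      · rw [h0', P_pt hok (by norm_num), (by decide +kernel : pa w18 0 = 0)]
      · rw [h23', P_pt hok (by norm_num), (by decide +kernel : pa w18 23 = 23)]
    obtain ⟨e, hr, ht⟩ := allCos4_spec coset_18 w18_ok hM hw
    rw [commF_of hr c2B_ok' hc] at ht
    cases ht

theorem cen2_test : allL (fun a => allL (fun c => Bool.rec true
    (anyF (fun i => pa a (pa c i)) l16) (commF (fun i => pa a (pa c i)) c2B)) H48L) T5 = true := by
  decide +kernel

theorem cen2_mem {n : Equiv.Perm GolayPt} (hn : n ∈ Cen2) : ∃ r ∈ l16, n = P r := by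
  obtain ⟨⟨⟨hM, hc⟩, h23⟩, h1⟩ := hn
  have h23' : n (pt 23) = pt 23 := h23
  have h1' : n (pt 1) = pt 1 := h1
  have h0' : n (pt 0) = pt 0 := by
    rw [← t0_23, comm_apply hc, h23']
  have h2' : n (pt 2) = pt 2 := by
    rw [← t0_1, comm_apply hc, h1']
  have hf : n ∈ fixG [2, 1, 0, 23] := by
    refine ⟨hM, ?_⟩
    intro i hi
    simp only [List.mem_cons, List.not_mem_nil, or_false] at hi
    rcases hi with rfl | rfl | rfl | rfl
    · exact h2'
    · exact h1'
    · exact h0'
    · exact h23'
  obtain ⟨a, ha, hoa, c, hc', hoc, e⟩ := exists_T5_H48 hf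
  have hr : Rep n (fun i => pa a (pa c i)) := by
    rw [e]
    exact (rep_P hoa).mul (rep_P hoc)
  have ht := allL_spec (allL_spec cen2_test a ha) c hc'
  rw [commF_of hr c2B_ok' hc] at ht
  obtain ⟨x, hx, hs⟩ := anyF_spec ht
  exact ⟨x, hx, eq_of_sameF hr hs (l16_spec hx).2⟩

theorem l16_dist : distL l16 := by decide +kernel

theorem card_Cen2 : Nat.card ↥Cen2 = 16 := by
  have := card_of_list (H := Cen2) l16_dist (fun π h => (l16_spec h).2) (fun g => by
    constructor
    · exact cen2_mem
    · rintro ⟨π, h, rfl⟩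
      exact (l16_spec h).1)
  rw [this]
  decide +kernel

theorem card_Cen1 : Nat.card ↥Cen1 = 320 := by
  have h := card_step Cen1 (pt 1) (fs om2)
    (fun y hy => by
      obtain ⟨π, h1, h2⟩ := exists_tr2 hy
      exact ⟨P π, (tr2_spec h1).1, h2⟩)
    (fun g hg => cen1_mem hg)
  have h2 : Nat.card ↥(Cen1 ⊓ MulAction.stabilizer (Equiv.Perm GolayPt) (pt 1)) = 16 := card_Cen2
  rw [h, h2, card_fs (by decide +kernel)]
  decide +kernel

theorem card_Cen : Nat.card ↥Cen = 7680 := by
  have h := card_step Cen (pt 23) (fs 16777215)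
    (fun y _ => by
      obtain ⟨π, h1, h2⟩ := exists_tr1 y
      exact ⟨P π, (tr1_spec h1).1, h2⟩)
    (fun g _ => by
      rw [mem_fs]
      have hall : allBelow (fun i => Nat.testBit 16777215 i) 24 = true := by decide +kernel
      exact allBelow_spec hall _ (idx_lt _))
  have h2 : Nat.card ↥(Cen ⊓ MulAction.stabilizer (Equiv.Perm GolayPt) (pt 23)) = 320 := card_Cen1
  rw [h, h2, card_fs (by decide +kernel)]
  decide +kernel

theorem s0x_mem : s0x ∈ sextetL := by decide +kernel

theorem fix_all : allL (fun π => sxAct π s0x s0x) tr1 = true ∧ allL (fun π => sxAct π s0x s0x) tr2 = true ∧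
    allL (fun π => sxAct π s0x s0x) l16 = true := by decide +kernel

theorem isM24_of_list {π : ℕ} (h : π ∈ tr1 ∨ π ∈ tr2 ∨ π ∈ l16) : isM24 π = true := by
  rcases h with h | h | h
  · exact (commC_spec c2B_ok' (allL_spec tr1_ok π h)).1
  · have h0 := allL_spec tr2_ok π h
    rw [Bool.and_eq_true] at h0
    exact (commC_spec c2B_ok' h0.1).1
  · have h0 := allL_spec l16_ok π h
    rw [Bool.and_eq_true, Bool.and_eq_true] at h0
    exact (commC_spec c2B_ok' h0.1.1).1

theorem fix_of_list {π : ℕ} (h : π ∈ tr1 ∨ π ∈ tr2 ∨ π ∈ l16) : P π • sx s0x = sx s0x := by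
  have hb : sxAct π s0x s0x = true := by
    rcases h with h | h | h
    · exact allL_spec fix_all.1 π h
    · exact allL_spec fix_all.2.1 π h
    · exact allL_spec fix_all.2.2 π h
  exact (sxAct_spec (isM24_of_list h) s0x_mem s0x_mem).1 hb

/-- Every element of the centraliser fixes the base sextet. -/
theorem cen_fix {c : Equiv.Perm GolayPt} (hc : c ∈ Cen) : c • sx s0x = sx s0x := by
  obtain ⟨π1, h1, e1⟩ := exists_tr1 (c (pt 23))
  have hc1 : (P π1)⁻¹ * c ∈ Cen1 := by
    refine ⟨Cen.mul_mem (Cen.inv_mem (tr1_spec h1).1) hc, ?_⟩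
    show ((P π1)⁻¹ * c) (pt 23) = pt 23
    rw [Equiv.Perm.mul_apply, ← e1]
    simp
  obtain ⟨π2, h2, e2⟩ := exists_tr2 (cen1_mem hc1)
  have hc2 : (P π2)⁻¹ * ((P π1)⁻¹ * c) ∈ Cen2 := by
    refine ⟨Cen1.mul_mem (Cen1.inv_mem (tr2_spec h2).1) hc1, ?_⟩
    show ((P π2)⁻¹ * ((P π1)⁻¹ * c)) (pt 1) = pt 1
    rw [Equiv.Perm.mul_apply, ← e2]
    simp
  obtain ⟨r, h3, e3⟩ := cen2_mem hc2
  have hcc : c = P π1 * (P π2 * P r) := by
    rw [← e3]
    group
  rw [hcc, mul_smul, mul_smul, fix_of_list (Or.inr (Or.inr h3)), fix_of_list (Or.inr (Or.inl h2)),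
    fix_of_list (Or.inl h1)]

theorem cen_trans (x y : GolayPt) : ∃ c ∈ Cen, c x = y := by
  obtain ⟨π1, h1, e1⟩ := exists_tr1 x
  obtain ⟨π2, h2, e2⟩ := exists_tr1 y
  refine ⟨P π2 * (P π1)⁻¹, Cen.mul_mem (tr1_spec h2).1 (Cen.inv_mem (tr1_spec h1).1), ?_⟩
  rw [Equiv.Perm.mul_apply, ← e1, ← e2]
  simp

theorem t0_mem : P c2B ∈ Cen := ⟨P_mem_M24 c2B_ok, rfl⟩


/-- For a fixed-point-free involution t of the group of the length-24 code: its centraliser in that group has order 7680, is transitive on the 24 points, and is contained, together with t, in the stabiliser of some sextet. -/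
theorem result (t : Equiv.Perm Cfsg.GolayPt) (ht : t ∈ Cfsg.M24) (h₂ : orderOf t = 2) (h₀ : ∀ p, t p ≠ p) : Nat.card {c : Equiv.Perm Cfsg.GolayPt // c ∈ Cfsg.M24 ∧ c * t = t * c} = 7680 ∧ (∀ p q : Cfsg.GolayPt, ∃ c ∈ Cfsg.M24, c * t = t * c ∧ c p = q) ∧ ∃ S ∈ Cfsg.sextets, t • S = S ∧ ∀ c ∈ Cfsg.M24, c * t = t * c → c • S = S := by
  obtain ⟨k, hk, e⟩ := rep2B ht h₂ h₀
  have hki := M24.inv_mem hk
  have hconj : ∀ c, (c * t = t * c) ↔ (k * c * k⁻¹) * P c2B = P c2B * (k * c * k⁻¹) := by
    intro c
    rw [← e]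
    constructor
    · intro h
      have : k * c * k⁻¹ * (k * t * k⁻¹) = k * (c * t) * k⁻¹ := by group
      rw [this, h]
      group
    · intro h
      have h1 : k * (c * t) * k⁻¹ = k * (t * c) * k⁻¹ := by
        have a1 : k * (c * t) * k⁻¹ = k * c * k⁻¹ * (k * t * k⁻¹) := by group
        have a2 : k * (t * c) * k⁻¹ = k * t * k⁻¹ * (k * c * k⁻¹) := by group
        rw [a1, a2, h]
      simpa using h1
  have hmem : ∀ c, c ∈ M24 ∧ c * t = t * c → k * c * k⁻¹ ∈ Cen := by
    rintro c ⟨h1, h2⟩
    exact ⟨M24.mul_mem (M24.mul_mem hk h1) hki, (hconj c).1 h2⟩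
  refine ⟨?_, ?_, ?_⟩
  · rw [← card_Cen]
    apply Nat.card_congr
    exact {
      toFun := fun c => ⟨k * c.1 * k⁻¹, hmem c.1 c.2⟩
      invFun := fun c => ⟨k⁻¹ * c.1 * k, M24.mul_mem (M24.mul_mem hki c.2.1) hk, by
        rw [hconj]
        have : k * (k⁻¹ * c.1 * k) * k⁻¹ = c.1 := by group
        rw [this]
        exact c.2.2⟩
      left_inv := fun c => by
        apply Subtype.ext
        show k⁻¹ * (k * c.1 * k⁻¹) * k = c.1
        group
      right_inv := fun c => by
        apply Subtype.ext
        show k * (k⁻¹ * c.1 * k) * k⁻¹ = c.1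
        group }
  · intro p q
    obtain ⟨c, hc, h⟩ := cen_trans (k p) (k q)
    refine ⟨k⁻¹ * c * k, M24.mul_mem (M24.mul_mem hki hc.1) hk, ?_, ?_⟩
    · rw [hconj]
      have : k * (k⁻¹ * c * k) * k⁻¹ = c := by group
      rw [this]
      exact hc.2
    · rw [Equiv.Perm.mul_apply, Equiv.Perm.mul_apply, h]
      simp
  · refine ⟨k⁻¹ • sx s0x, smul_mem_sextets hki (sx_mem_sextets (allL_spec sextetL_OK _ s0x_mem)), ?_, ?_⟩
    · have h1 : t = k⁻¹ * P c2B * k := by rw [← e]; group
      rw [h1, mul_smul, mul_smul, smul_inv_smul, cen_fix t0_mem]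
    · intro c hc hct
      have h2 := cen_fix (hmem c ⟨hc, hct⟩)
      have h1 : c * k⁻¹ = k⁻¹ * (k * c * k⁻¹) := by group
      rw [← mul_smul, h1, mul_smul, h2]

end Cfsg.Agent.S5607
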