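import Cfsg.Statements.S5608
import Cfsg.Agent.Lib.H27.GolayCounts

set_option autoImplicit false
open scoped Pointwise
open Cfsg

namespace Cfsg.Agent.S5608

open Cfsg.Agent.H27.Golay

/-- Commutation test. -/
def commF (e e' : ℕ → ℕ) : Bool := allBelow (fun i => Nat.beq (e (e' i)) (e' (e i))) 24

theorem commF_of {g g' : Equiv.Perm GolayPt} {e e' : ℕ → ℕ} (h : Rep g e) (h' : Rep g' e')
    (hc : g * g' = g' * g) : commF e e' = true := by
  apply allBelow_of
  intro i hi
  have h1 := (h.mul h') i hi
  have h2 := (h'.mul h) i hi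
  have h3 : pt (e (e' i)) = pt (e' (e i)) := by
    rw [← h1.2, ← h2.2, hc]
  have h4 := congrArg idx h3
  have h5 : e (e' i) = e' (e i) := by
    rwa [idx_pt' h1.1, idx_pt' h2.1] at h4
  show Nat.beq (e (e' i)) (e' (e i)) = true
  rw [h5]
  exact Nat.beq_refl _

theorem no_commute : allCos4 w2B (fun e => Bool.rec true
    (Bool.rec true
      (allL (fun c => Bool.rec true (Bool.rec (Bool.rec true false (commF (pa c) e)) true (idF (pa c))) (pow3F (pa c))) H48L)
      (fpfF e)) (pow2F e)) = true := by decide +kernel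

theorem case_six_zero {x s : Equiv.Perm GolayPt} (hx : x ∈ M24) (hs : s ∈ M24) (h₃ : orderOf x = 3)
    (h₂ : orderOf s = 2) (hc : Commute x s) (h6 : (Finset.univ.filter fun p => x p = p).card = 6)
    (h0 : ∀ p, s p ≠ p) : False := by
  have hs2 : s ^ 2 = 1 := pow2_of_order h₂
  have hss : ∀ p, s (s p) = p := by
    intro p
    have := congrArg (fun f : Equiv.Perm GolayPt => f p) hs2
    simpa [pow_succ] using this
  set F := Finset.univ.filter fun p => x p = p with hF
  have hmemF : ∀ {p}, p ∈ F ↔ x p = p := by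
    intro p
    simp [hF]
  have hsF : ∀ {p}, p ∈ F → s p ∈ F := by
    intro p hp
    rw [hmemF] at hp ⊢
    have := congrArg (fun f : Equiv.Perm GolayPt => f p) hc.eq
    simp only [Equiv.Perm.mul_apply, hp] at this
    exact this
  obtain ⟨p, hp⟩ : F.Nonempty := Finset.card_pos.1 (by omega)
  have hcard2 : ({p, s p} : Finset GolayPt).card < F.card := by
    refine lt_of_le_of_lt Finset.card_le_two ?_
    omega
  obtain ⟨q, hq, hq2⟩ := Finset.exists_mem_notMem_of_card_lt_card hcard2
  simp only [Finset.mem_insert, Finset.mem_singleton, not_or] at hq2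
  have hcard4 : ({p, s p, q, s q} : Finset GolayPt).card < F.card := by
    refine lt_of_le_of_lt Finset.card_le_four ?_
    omega
  obtain ⟨r, hr, hr2⟩ := Finset.exists_mem_notMem_of_card_lt_card hcard4
  simp only [Finset.mem_insert, Finset.mem_singleton, not_or] at hr2
  have n1 : s p ≠ p := h0 p
  have n2 : q ≠ p := hq2.1
  have n3 : q ≠ s p := hq2.2
  have n4 : s q ≠ p := fun h => n3 (by rw [← h, hss])
  have n5 : s q ≠ s p := fun h => n2 (s.injective h)
  have n6 : s q ≠ q := h0 q
  obtain ⟨r0, r1, r2, r3⟩ := hr2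
  let y : Fin 5 → GolayPt := ![p, s p, q, s q, r]
  have hy : Function.Injective y := by
    intro i j hij
    fin_cases i <;> fin_cases j <;> first
      | rfl
      | (exfalso
         simp only [y, Fin.reduceFinMk, Matrix.cons_val] at hij
         first
          | exact n1 hij | exact n1 hij.symm | exact n2 hij | exact n2 hij.symm
          | exact n3 hij | exact n3 hij.symm | exact n4 hij | exact n4 hij.symm
          | exact n5 hij | exact n5 hij.symm | exact n6 hij | exact n6 hij.symm
          | exact r0 hij | exact r0 hij.symm | exact r1 hij | exact r1 hij.symm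
          | exact r2 hij | exact r2 hij.symm | exact r3 hij | exact r3 hij.symm)
  obtain ⟨k, hk, hki⟩ := exists_to_base hy
  have e0 : k p = pt 23 := hki 0
  have e1 : k (s p) = pt 0 := hki 1
  have e2 : k q = pt 1 := hki 2
  have e3 : k (s q) = pt 2 := hki 3
  have e4 : k r = pt 3 := hki 4
  have hconjs : ∀ p, (k * s * k⁻¹) (k p) = k (s p) := by intro p; simp
  have hconjx : ∀ p, (k * x * k⁻¹) (k p) = k (x p) := by intro p; simp
  have hmems : k * s * k⁻¹ ∈ M24 := M24.mul_mem (M24.mul_mem hk hs) (M24.inv_mem hk)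
  have hmemx : k * x * k⁻¹ ∈ M24 := M24.mul_mem (M24.mul_mem hk hx) (M24.inv_mem hk)
  have hok := isM24_permOK w2B_ok
  have hw : ∀ i ∈ [2, 1, 0, 23], (k * s * k⁻¹) (pt i) = P w2B (pt i) := by
    intro i hi
    simp only [List.mem_cons, List.not_mem_nil, or_false] at hi
    rcases hi with rfl | rfl | rfl | rfl
    · rw [← e3, hconjs, hss, e2, e3, P_pt hok (by norm_num), (by decide +kernel : pa w2B 2 = 1)]
    · rw [← e2, hconjs, e3, e2, P_pt hok (by norm_num), (by decide +kernel : pa w2B 1 = 2)]
    · rw [← e1, hconjs, hss, e0, e1, P_pt hok (by norm_num), (by decide +kernel : pa w2B 0 = 23)]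
    · rw [← e0, hconjs, e1, e0, P_pt hok (by norm_num), (by decide +kernel : pa w2B 23 = 0)]
  obtain ⟨e, hr', ht⟩ := allCos4_spec no_commute w2B_ok hmems hw
  have hp2 : pow2F e = true := pow2F_of hr' (by rw [← orderOf_conj' k s] at h₂; exact pow2_of_order h₂)
  have hq2' : fpfF e = true := fpfF_of hr' (by
    intro a ha
    apply h0 (k⁻¹ a)
    have : k (s (k⁻¹ a)) = a := by simpa using ha
    rw [← Equiv.Perm.eq_inv_iff_eq] at this
    exact this)
  simp only [hp2, hq2'] at ht
  -- the element of order 3 is in the 48-group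
  have hxfix : k * x * k⁻¹ ∈ fixG [3, 2, 1, 0, 23] := by
    refine ⟨hmemx, ?_⟩
    intro i hi
    simp only [List.mem_cons, List.not_mem_nil, or_false] at hi
    rcases hi with rfl | rfl | rfl | rfl | rfl
    · rw [← e4, hconjx, hmemF.1 hr]
    · rw [← e3, hconjx, hmemF.1 (hsF hq)]
    · rw [← e2, hconjx, hmemF.1 hq]
    · rw [← e1, hconjx, hmemF.1 (hsF hp)]
    · rw [← e0, hconjx, hmemF.1 hp]
  obtain ⟨c, hc', hcok, hce⟩ := exists_H48 hxfix
  have ht2 := allL_spec ht c hc'
  have hrc := rep_P hcok
  have h3' : orderOf (P c) = 3 := by rw [← hce, orderOf_conj', h₃]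
  rw [pow3F_of hrc (pow3_of_order h3'), not_idF_of hrc (ne_one_of_order (by norm_num) h3')] at ht2
  have hcomm : P c * (k * s * k⁻¹) = (k * s * k⁻¹) * P c := by
    rw [← hce]
    have := hc.eq
    calc k * x * k⁻¹ * (k * s * k⁻¹) = k * (x * s) * k⁻¹ := by group
      _ = k * (s * x) * k⁻¹ := by rw [this]
      _ = _ := by group
  have := commF_of hrc hr' hcomm
  rw [this] at ht2
  cases ht2

theorem case_zero_eight {x s : Equiv.Perm GolayPt} (h₃ : orderOf x = 3)
    (hc : Commute x s) (h8 : (Finset.univ.filter fun p => s p = p).card = 8)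
    (h0 : ∀ p, x p ≠ p) : False := by
  classical
  have hx3 : x ^ 3 = 1 := pow3_of_order h₃
  let σ : Equiv.Perm {q // s q = q} := x.subtypePerm (fun q => by
    constructor
    · intro h
      have := congrArg (fun f : Equiv.Perm GolayPt => f q) hc.eq
      simp only [Equiv.Perm.mul_apply] at this
      apply x.injective
      rw [this, h]
    · intro h
      have := congrArg (fun f : Equiv.Perm GolayPt => f q) hc.eq
      simp only [Equiv.Perm.mul_apply] at this
      rw [← this, h])
  have hσ : σ ^ 3 ^ 1 = 1 := by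
    rw [pow_one]
    ext q
    have : ∀ n : ℕ, ((σ ^ n) q : GolayPt) = (x ^ n) q := by
      intro n
      rw [Equiv.Perm.subtypePerm_pow]
      rfl
    rw [this, hx3]
    rfl
  haveI : Fact (Nat.Prime 3) := ⟨by norm_num⟩
  have hm := Equiv.Perm.card_compl_support_modEq hσ
  have h1 : σ.supportᶜ = ∅ := by
    ext q
    simp only [Finset.mem_compl, Equiv.Perm.mem_support, ne_eq, not_not, Finset.notMem_empty, iff_false]
    intro h
    apply h0 q.1
    exact congrArg Subtype.val h
  rw [h1] at hm
  have h2 : Fintype.card {q // s q = q} = 8 := by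
    rw [← h8, Fintype.card_subtype]
  rw [h2, Finset.card_empty] at hm
  exact absurd hm (by decide)


/-- If an element of order 3 and an involution of the group of the length-24 code commute, then either the element of order 3 has exactly 6 fixed points and the involution exactly 8, or both are fixed-point-free. -/
theorem result (x s : Equiv.Perm Cfsg.GolayPt) (hx : x ∈ Cfsg.M24) (hs : s ∈ Cfsg.M24) (h₃ : orderOf x = 3) (h₂ : orderOf s = 2) (hc : Commute x s) : ((Finset.univ.filter fun p => x p = p).card = 6 ∧ (Finset.univ.filter fun p => s p = p).card = 8) ∨ ((Finset.univ.filter fun p => x p = p).card = 0 ∧ (Finset.univ.filter fun p => s p = p).card = 0) := by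
  rcases fix_order3 hx h₃ with h3 | h3 <;> rcases fix_order2 hs h₂ with h2 | h2
  · exact Or.inr ⟨h3, h2⟩
  · exact (case_zero_eight h₃ hc h2 (fixed_filter_empty h3)).elim
  · exact (case_six_zero hx hs h₃ h₂ hc h3 (fixed_filter_empty h2)).elim
  · exact Or.inl ⟨h3, h2⟩

end Cfsg.Agent.S5608
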