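import Cfsg.Statements.S5609
import Cfsg.Agent.Lib.H27.GolayStab

set_option autoImplicit false
open scoped Pointwise
open Cfsg

set_option maxRecDepth 100000
namespace Cfsg.Agent.S5609

open Cfsg.Agent.H27.Golay
open scoped Pointwise

def l30 : List ℕ := octadL.filter fun c => Nat.beq (Nat.land c O0) 0

def octChk (m : ℕ) : Bool :=
  let k := popc (Nat.land O0 m)
  Nat.beq k 0 ||
  (Nat.beq k 8 && Nat.beq m O0) ||
  (Nat.beq k 4 && l30.any fun c => Nat.beq (Nat.land c m) 0) ||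
  (Nat.beq k 2 && l30.all (fun c => !Nat.beq (Nat.land c m) 0) &&
    l30.any fun c => Nat.beq (popc (Nat.land c m)) 4)

theorem octChk_ok : octadL.all octChk = true := by decide +kernel

theorem O0_mem : fs O0 ∈ octads := by
  apply fs_mem_octads
  decide +kernel

theorem l30_spec {c : ℕ} (h : c ∈ l30) :
    fs c ∈ octads ∧ (fs c ∩ fs O0).card = 0 := by
  have h1 := List.mem_filter.1 h
  have hc := octadL_lt h1.1
  refine ⟨fs_mem_octads h1.1, ?_⟩
  rw [card_inter_fs hc]
  have h2 : Nat.land c O0 = 0 := Nat.eq_of_beq_eq_true h1.2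
  rw [h2]
  rfl

theorem zero_of_popc {x : ℕ} (hx : x < 2 ^ 24) (h : popc x = 0) : x = 0 := by
  have h6 := card_fs hx
  have h7 : fs x = ∅ := by
    rw [← Finset.card_eq_zero, h6, h]
  apply Nat.eq_of_testBit_eq
  intro i
  by_cases hi : i < 24
  · have : pt i ∉ fs x := by rw [h7]; simp
    rw [mem_fs, idx_pt ⟨i, hi⟩] at this
    simpa using this
  · have h9 : x < 2 ^ i := lt_of_lt_of_le hx (Nat.pow_le_pow_right (by norm_num) (by omega))
    rw [Nat.testBit_eq_false_of_lt h9]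
    simp

theorem mem_l30 {x : Finset GolayPt} (hx : x ∈ octads) (h0 : (x ∩ fs O0).card = 0) :
    maskOf x ∈ l30 := by
  apply List.mem_filter.2
  refine ⟨mem_octads_iff_mask.1 hx, ?_⟩
  have h := card_inter_fs (b := O0) (maskOf_lt x)
  rw [fs_maskOf, h0] at h
  have h5 : maskOf x &&& O0 < 2 ^ 24 := lt_of_le_of_lt Nat.and_le_left (maskOf_lt x)
  have h8 : maskOf x &&& O0 = 0 := zero_of_popc h5 h.symm
  show Nat.beq (Nat.land (maskOf x) O0) 0 = true
  have : Nat.land (maskOf x) O0 = maskOf x &&& O0 := rfl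
  rw [this, h8]
  rfl

theorem base_cases {x : Finset GolayPt} (hx : x ∈ octads) :
    let k := (fs O0 ∩ x).card
    k = 0 ∨ (k = 8 ∧ x = fs O0) ∨
    (k = 4 ∧ ∃ c ∈ octads, (c ∩ fs O0).card = 0 ∧ (c ∩ x).card = 0) ∨
    (k = 2 ∧ (∀ c ∈ octads, (c ∩ fs O0).card = 0 → (c ∩ x).card ≠ 0) ∧
      ∃ c ∈ octads, (c ∩ fs O0).card = 0 ∧ (c ∩ x).card = 4) := by
  intro k
  obtain ⟨m, hm, rfl⟩ := (mem_octads_iff_list x).1 hx
  have hm' := List.all_eq_true.1 octChk_ok m hm
  have hk : k = popc (Nat.land O0 m) := card_inter_fs (by decide +kernel)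
  have hcm : ∀ c, c < 2 ^ 24 → (fs c ∩ fs m).card = popc (Nat.land c m) := fun c hc =>
    card_inter_fs hc
  simp only [octChk, Bool.or_eq_true, Bool.and_eq_true, ← hk] at hm'
  rcases hm' with ((h | ⟨h1, h2⟩) | ⟨h1, h2⟩) | ⟨⟨h1, h2⟩, h3⟩
  · exact Or.inl (Nat.eq_of_beq_eq_true h)
  · right; left
    refine ⟨Nat.eq_of_beq_eq_true h1, ?_⟩
    rw [Nat.eq_of_beq_eq_true h2]
  · right; right; left
    refine ⟨Nat.eq_of_beq_eq_true h1, ?_⟩
    obtain ⟨c, hc, hc2⟩ := List.any_eq_true.1 h2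
    have hs := l30_spec hc
    refine ⟨fs c, hs.1, hs.2, ?_⟩
    rw [hcm c (octadL_lt (List.mem_filter.1 hc).1), Nat.eq_of_beq_eq_true hc2]
    rfl
  · right; right; right
    refine ⟨Nat.eq_of_beq_eq_true h1, ?_, ?_⟩
    · intro c hc h0 h00
      have hcl := mem_l30 hc h0
      have h4 := List.all_eq_true.1 h2 _ hcl
      have h5 := hcm _ (maskOf_lt c)
      rw [fs_maskOf, h00] at h5
      have h6 : maskOf c &&& m = 0 :=
        zero_of_popc (lt_of_le_of_lt Nat.and_le_left (maskOf_lt c)) h5.symm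
      have h7 : Nat.land (maskOf c) m = maskOf c &&& m := rfl
      rw [h7, h6] at h4
      exact absurd h4 (by decide)
    · obtain ⟨c, hc, hc2⟩ := List.any_eq_true.1 h3
      have hs := l30_spec hc
      refine ⟨fs c, hs.1, hs.2, ?_⟩
      rw [hcm c (octadL_lt (List.mem_filter.1 hc).1), Nat.eq_of_beq_eq_true hc2]

theorem gen_cases {o x : Finset GolayPt} (ho : o ∈ octads) (hx : x ∈ octads) (hne : o ≠ x) :
    let k := (o ∩ x).card
    k = 0 ∨
    (k = 4 ∧ ∃ c ∈ octads, (c ∩ o).card = 0 ∧ (c ∩ x).card = 0) ∨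
    (k = 2 ∧ (∀ c ∈ octads, (c ∩ o).card = 0 → (c ∩ x).card ≠ 0) ∧
      ∃ c ∈ octads, (c ∩ o).card = 0 ∧ (c ∩ x).card = 4) := by
  intro k
  obtain ⟨g, hg, rfl⟩ := exists_smul_O0 ho
  have hgi := M24.inv_mem hg
  have hy := smul_mem_octads hgi hx
  have hk : k = (fs O0 ∩ g⁻¹ • x).card := by
    have := card_smul_inter g (fs O0) (g⁻¹ • x)
    rw [smul_inv_smul] at this
    exact this
  have hcx : ∀ c : Finset GolayPt, ((g • c) ∩ x).card = (c ∩ g⁻¹ • x).card := fun c => by
    have := card_smul_inter g c (g⁻¹ • x)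
    rwa [smul_inv_smul] at this
  have hcx' : ∀ c : Finset GolayPt, (c ∩ x).card = (g⁻¹ • c ∩ g⁻¹ • x).card := fun c => by
    have := card_smul_inter g⁻¹ c x
    exact this.symm
  have hc0 : ∀ c : Finset GolayPt, ((g • c) ∩ (g • fs O0)).card = (c ∩ fs O0).card :=
    fun c => card_smul_inter g c (fs O0)
  have hc0' : ∀ c : Finset GolayPt, (c ∩ (g • fs O0)).card = (g⁻¹ • c ∩ fs O0).card :=
    fun c => by
      have := card_smul_inter g⁻¹ c (g • fs O0)
      rw [inv_smul_smul] at this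
      exact this.symm
  rcases base_cases hy with h | ⟨_, h⟩ | ⟨h, c, hc, h1, h2⟩ | ⟨h, h1, c, hc, h2, h3⟩
  · exact Or.inl (hk.trans h)
  · exfalso
    apply hne
    rw [← h, smul_inv_smul]
  · refine Or.inr (Or.inl ⟨hk.trans h, g • c, smul_mem_octads hg hc, ?_, ?_⟩)
    · rw [hc0, h1]
    · rw [hcx, h2]
  · refine Or.inr (Or.inr ⟨hk.trans h, ?_, g • c, smul_mem_octads hg hc, ?_, ?_⟩)
    · intro d hd h4 h5
      apply h1 (g⁻¹ • d) (smul_mem_octads hgi hd)
      · rw [← hc0', h4]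
      · rw [← hcx', h5]
    · rw [hc0, h2]
    · rw [hcx, h3]

theorem ne_of_card {a b : Finset GolayPt} (ha : a ∈ octads) (h : (a ∩ b).card = 0) : a ≠ b := by
  rintro rfl
  rw [Finset.inter_self, ha.2] at h
  omega

theorem adj_iff {a b : ↥octads} :
    (blockGraph octads).Adj a b ↔ ((a : Finset GolayPt) ∩ b).card = 0 := by
  rw [blockGraph, SimpleGraph.fromRel_adj]
  have hd : ∀ x y : ↥octads, Disjoint (x : Finset GolayPt) y ↔ ((x : Finset GolayPt) ∩ y).card = 0 := by
    intro x y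
    rw [Finset.card_eq_zero, Finset.disjoint_iff_inter_eq_empty]
  rw [hd, hd, Finset.inter_comm (b : Finset GolayPt)]
  constructor
  · rintro ⟨_, h | h⟩ <;> exact h
  · intro h
    refine ⟨?_, Or.inl h⟩
    intro hab
    exact ne_of_card a.2 h (congrArg Subtype.val hab)

/-- Distances from the intersection sizes. -/
theorem graph_facts {a b : ↥octads} (hne : a ≠ b) :
    (blockGraph octads).Reachable a b ∧
    let k := ((a : Finset GolayPt) ∩ b).card
    (k = 0 ∧ (blockGraph octads).dist a b = 1) ∨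
    (k = 4 ∧ (blockGraph octads).dist a b = 2) ∨
    (k = 2 ∧ (blockGraph octads).dist a b = 3) := by
  have hne' : (a : Finset GolayPt) ≠ b := fun h => hne (Subtype.ext h)
  set G := blockGraph octads with hG
  have hdist0 : ∀ x y : ↥octads, x ≠ y → G.Reachable x y → G.dist x y ≠ 0 := by
    intro x y hxy hr h0
    exact hxy (hr.dist_eq_zero_iff.1 h0)
  have hdist1 : ∀ x y : ↥octads, G.dist x y = 1 → G.Adj x y := fun x y h =>
    SimpleGraph.dist_eq_one_iff_adj.1 h
  have hdist2 : ∀ x y : ↥octads, G.Reachable x y → G.dist x y = 2 →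
      ∃ c : ↥octads, G.Adj x c ∧ G.Adj c y := by
    intro x y hr h2
    obtain ⟨w, hw⟩ := hr.exists_walk_length_eq_dist
    rw [h2] at hw
    match w, hw with
    | .cons h1 (.cons h2 .nil), _ => exact ⟨_, h1, h2⟩
  rcases gen_cases a.2 b.2 hne' with h | ⟨h, c, hc, h1, h2⟩ | ⟨h, h1, c, hc, h2, h3⟩
  · have hadj : G.Adj a b := adj_iff.2 h
    exact ⟨hadj.reachable, Or.inl ⟨h, SimpleGraph.dist_eq_one_iff_adj.2 hadj⟩⟩
  · have hac : G.Adj a ⟨c, hc⟩ := by
      apply adj_iff.2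
      rw [Finset.inter_comm]
      exact h1
    have hcb : G.Adj ⟨c, hc⟩ b := adj_iff.2 h2
    have hr : G.Reachable a b := hac.reachable.trans hcb.reachable
    refine ⟨hr, Or.inr (Or.inl ⟨h, ?_⟩)⟩
    have hle : G.dist a b ≤ 2 := SimpleGraph.dist_le (SimpleGraph.Walk.cons hac (SimpleGraph.Walk.cons hcb .nil))
    have h0 := hdist0 a b hne hr
    have h1' : G.dist a b ≠ 1 := by
      intro h5
      have := adj_iff.1 (hdist1 a b h5)
      omega
    omega
  · -- `c` is disjoint from `a` and meets `b` in 4 points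
    have hcne : (⟨c, hc⟩ : ↥octads) ≠ b := by
      intro h5
      have h6 : c = b := congrArg Subtype.val h5
      rw [h6, Finset.inter_self, b.2.2] at h3
      omega
    have hcne' : c ≠ b := fun h5 => hcne (Subtype.ext h5)
    rcases gen_cases hc b.2 hcne' with h4 | ⟨_, d, hd, h5, h6⟩ | ⟨h4, _⟩
    · omega
    · have hac : G.Adj a ⟨c, hc⟩ := by
        apply adj_iff.2
        rw [Finset.inter_comm]
        exact h2
      have hcd : G.Adj ⟨c, hc⟩ ⟨d, hd⟩ := by
        apply adj_iff.2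
        rw [Finset.inter_comm]
        exact h5
      have hdb : G.Adj ⟨d, hd⟩ b := adj_iff.2 h6
      have hr : G.Reachable a b := hac.reachable.trans (hcd.reachable.trans hdb.reachable)
      refine ⟨hr, Or.inr (Or.inr ⟨h, ?_⟩)⟩
      have hle : G.dist a b ≤ 3 :=
        SimpleGraph.dist_le (SimpleGraph.Walk.cons hac (SimpleGraph.Walk.cons hcd (SimpleGraph.Walk.cons hdb .nil)))
      have h0 := hdist0 a b hne hr
      have h1' : G.dist a b ≠ 1 := by
        intro h7
        have := adj_iff.1 (hdist1 a b h7)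
        omega
      have h2' : G.dist a b ≠ 2 := by
        intro h7
        obtain ⟨e, he1, he2⟩ := hdist2 a b hr h7
        apply h1 e e.2
        · have := adj_iff.1 he1
          rw [Finset.inter_comm]
          exact this
        · exact adj_iff.1 he2
      omega
    · omega


/-- In the graph on the 759 octads of the length-24 code in which two octads are adjacent when they are disjoint, the graph is connected (of diameter 3) and two distinct octads are at distance 1, 2 or 3 exactly when they meet in 0, 4 or 2 points respectively. -/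
theorem result (o o' : Finset Cfsg.GolayPt) (ho : o ∈ Cfsg.octads) (ho' : o' ∈ Cfsg.octads) (hne : o ≠ o') : (Cfsg.blockGraph Cfsg.octads).Connected ∧ ((Cfsg.blockGraph Cfsg.octads).dist ⟨o, ho⟩ ⟨o', ho'⟩ = 1 ↔ (o ∩ o').card = 0) ∧ ((Cfsg.blockGraph Cfsg.octads).dist ⟨o, ho⟩ ⟨o', ho'⟩ = 2 ↔ (o ∩ o').card = 4) ∧ ((Cfsg.blockGraph Cfsg.octads).dist ⟨o, ho⟩ ⟨o', ho'⟩ = 3 ↔ (o ∩ o').card = 2) := by
  have hne' : (⟨o, ho⟩ : ↥octads) ≠ ⟨o', ho'⟩ := fun h => hne (congrArg Subtype.val h)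
  refine ⟨?_, ?_⟩
  · rw [SimpleGraph.connected_iff]
    refine ⟨?_, ⟨⟨o, ho⟩⟩⟩
    intro a b
    by_cases hab : a = b
    · rw [hab]
    · exact (graph_facts hab).1
  · obtain ⟨_, h⟩ := graph_facts hne'
    simp only at h
    rcases h with ⟨h1, h2⟩ | ⟨h1, h2⟩ | ⟨h1, h2⟩ <;> rw [h1, h2] <;> simp

end Cfsg.Agent.S5609
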