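import Cfsg.Statements.S5612
import Cfsg.Agent.Lib.H27.GolayCertS

set_option autoImplicit false
open scoped Pointwise
open Cfsg

namespace Cfsg.Agent.S5612

set_option maxRecDepth 100000

open Cfsg.Agent.H27.Golay


/-- The stabiliser of a trio in the group of the length-24 code has exactly three orbits on the 759 octads, of sizes 3, 84 and 672, and exactly four orbits on the 1771 sextets, of sizes 7, 84, 336 and 1344. -/
theorem result (T : Finset (Finset Cfsg.GolayPt)) (hT : T ∈ Cfsg.trios) : (∃ X₁ ∈ Cfsg.octads, ∃ X₂ ∈ Cfsg.octads, ∃ X₃ ∈ Cfsg.octads, (MulAction.orbit ↥(MulAction.stabilizer Cfsg.M24 T) X₁).ncard = 3 ∧ (MulAction.orbit ↥(MulAction.stabilizer Cfsg.M24 T) X₂).ncard = 84 ∧ (MulAction.orbit ↥(MulAction.stabilizer Cfsg.M24 T) X₃).ncard = 672 ∧ Cfsg.octads = MulAction.orbit ↥(MulAction.stabilizer Cfsg.M24 T) X₁ ∪ MulAction.orbit ↥(MulAction.stabilizer Cfsg.M24 T) X₂ ∪ MulAction.orbit ↥(MulAction.stabilizer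 Cfsg.M24 T) X₃) ∧ (∃ Y₁ ∈ Cfsg.sextets, ∃ Y₂ ∈ Cfsg.sextets, ∃ Y₃ ∈ Cfsg.sextets, ∃ Y₄ ∈ Cfsg.sextets, (MulAction.orbit ↥(MulAction.stabilizer Cfsg.M24 T) Y₁).ncard = 7 ∧ (MulAction.orbit ↥(MulAction.stabilizer Cfsg.M24 T) Y₂).ncard = 84 ∧ (MulAction.orbit ↥(MulAction.stabilizer Cfsg.M24 T) Y₃).ncard = 336 ∧ (MulAction.orbit ↥(MulAction.stabilizer Cfsg.M24 T) Y₄).ncard = 1344 ∧ Cfsg.sextets = MulAction.orbit ↥(MulAction.stabilizer Cfsg.M24 T) Y₁ ∪ MulAction.orbit ↥(MulAction.stabilizer Cfsg.M24 T) Y₂ ∪ MulAction.orbit ↥(MulAction.stabilizer Cfsg.M24 T) Y₃ ∪ MulAction.orbit ↥(MulAction.stabilizer Cfsg.M24 T) Y₄) := by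
  obtain ⟨g, hg, rfl⟩ := exists_smul_T0 hT
  constructor
  · have C := certTO
    obtain ⟨a1, n1⟩ := C.orbit_smul hg (r := rootsTO.getD 1 0) (by decide +kernel)
    obtain ⟨a2, n2⟩ := C.orbit_smul hg (r := rootsTO.getD 2 0) (by decide +kernel)
    obtain ⟨a3, n3⟩ := C.orbit_smul hg (r := rootsTO.getD 0 0) (by decide +kernel)
    refine ⟨_, a1, _, a2, _, a3, ?_, ?_, ?_, ?_⟩
    · rw [n1]; decide +kernel
    · rw [n2]; decide +kernel
    · rw [n3]; decide +kernel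
    · exact C.union3 (by decide +kernel) (by decide +kernel) (by decide +kernel) (by decide +kernel) hg
  · have C := certTS
    obtain ⟨a1, n1⟩ := C.orbit_smul hg (r := rootsTS.getD 3 0) (by decide +kernel)
    obtain ⟨a2, n2⟩ := C.orbit_smul hg (r := rootsTS.getD 2 0) (by decide +kernel)
    obtain ⟨a3, n3⟩ := C.orbit_smul hg (r := rootsTS.getD 0 0) (by decide +kernel)
    obtain ⟨a4, n4⟩ := C.orbit_smul hg (r := rootsTS.getD 1 0) (by decide +kernel)
    refine ⟨_, a1, _, a2, _, a3, _, a4, ?_, ?_, ?_, ?_, ?_⟩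
    · rw [n1]; decide +kernel
    · rw [n2]; decide +kernel
    · rw [n3]; decide +kernel
    · rw [n4]; decide +kernel
    · exact C.union4 (by decide +kernel) (by decide +kernel) (by decide +kernel) (by decide +kernel) (by decide +kernel) hg

end Cfsg.Agent.S5612
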