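import Cfsg.Statements.S5614
import Cfsg.Agent.Lib.H27.GolayIso

set_option autoImplicit false
open scoped Pointwise
open Cfsg

namespace Cfsg.Agent.S5614

set_option maxRecDepth 100000

open Cfsg.Agent.H27.Golay

theorem R2_mem : rootsOO.getD 0 0 ∈ rootsOO := by decide +kernel

/-- Standard position of a pair of octads meeting in two points. -/
theorem exists_std {o o' : Finset GolayPt} (ho : o ∈ octads) (ho' : o' ∈ octads)
    (h₂ : (o ∩ o').card = 2) : ∃ h ∈ M24, o = h • fs O0 ∧ o' = h • fs (rootsOO.getD 0 0) := by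
  obtain ⟨g, hg, o₁, ho₁, rfl, rfl⟩ := exists_pair_std ho ho'
  have hm : o₁ ∈ Orb (fs O0) (fs (rootsOO.getD 0 0)) := by
    rw [certOO.Orb_eq R2_mem]
    refine ⟨ho₁, ?_⟩
    rw [Phi_singleton, Finset.inter_comm]
    rw [card_smul_inter] at h₂
    rw [h₂]
    decide +kernel
  obtain ⟨s, hs, h1, rfl⟩ := hm
  refine ⟨g * s, M24.mul_mem hg hs, ?_, ?_⟩
  · rw [mul_smul, h1]
  · rw [mul_smul]


/-- In the group of the length-24 code, the joint stabiliser of two octads meeting in exactly two points is isomorphic to the symmetric group of degree 6. -/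
theorem result (o o' : Finset Cfsg.GolayPt) (ho : o ∈ Cfsg.octads) (ho' : o' ∈ Cfsg.octads) (h₂ : (o ∩ o').card = 2) : Nonempty (↥(MulAction.stabilizer Cfsg.M24 o ⊓ MulAction.stabilizer Cfsg.M24 o') ≃* Equiv.Perm (Fin 6)) := by
  obtain ⟨h, hh, rfl, rfl⟩ := exists_std ho ho' h₂
  have hcard : Nat.card ↥(MulAction.stabilizer M24 (h • fs O0) ⊓ MulAction.stabilizer M24 (h • fs (rootsOO.getD 0 0))) = 720 := by
    have h1 := card_pair_stab ho ho' (r := rootsOO.getD 0 0) (by decide +kernel) (by rw [h₂]; decide +kernel)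
    have h2 : countL (fun m => Nat.beq (sumSq [m] [O0]) (sumSq [rootsOO.getD 0 0] [O0])) octadL = 448 := by
      decide +kernel
    rw [h2] at h1
    omega
  apply iso_perm_of_faithful _ (h • fs O0 \ h • fs (rootsOO.getD 0 0))
  · have := Finset.card_sdiff_add_card_inter (h • fs O0) (h • fs (rootsOO.getD 0 0))
    rw [h₂, ho.2] at this
    omega
  · intro g hg
    have h1 : ((g : ↥M24) : Equiv.Perm GolayPt) • (h • fs O0) = h • fs O0 := hg.1
    have h2 : ((g : ↥M24) : Equiv.Perm GolayPt) • (h • fs (rootsOO.getD 0 0)) = h • fs (rootsOO.getD 0 0) := hg.2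
    rw [Finset.smul_finset_sdiff, h1, h2]
  · exact hcard
  · intro g hg hfix
    have h1 : ((g : ↥M24) : Equiv.Perm GolayPt) • (h • fs (rootsOO.getD 0 0)) = h • fs (rootsOO.getD 0 0) := hg.2
    set y := h⁻¹ * (g : Equiv.Perm GolayPt) * h with hy
    have hyM : y ∈ M24 := M24.mul_mem (M24.mul_mem (M24.inv_mem hh) g.2) hh
    have hmem : y ∈ fixG [5, 3, 2, 1, 0, 23] := by
      refine ⟨hyM, ?_⟩
      intro i hi
      have h3 : h (pt i) ∈ h • fs O0 \ h • fs (rootsOO.getD 0 0) := by
        have hk : ∀ i ∈ [5, 3, 2, 1, 0, 23], pt i ∈ fs O0 ∧ pt i ∉ fs (rootsOO.getD 0 0) := by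
          decide +kernel
        have key := hk i hi
        rw [Finset.mem_sdiff]
        constructor
        · exact Finset.mem_smul_finset.2 ⟨_, key.1, rfl⟩
        · intro hc
          obtain ⟨q, hq, e⟩ := Finset.mem_smul_finset.1 hc
          have : q = pt i := h.injective e
          exact key.2 (this ▸ hq)
      have h4 := hfix _ h3
      rw [hy]
      simp [Equiv.Perm.mul_apply, h4]
    have hs : y • fs (rootsOO.getD 0 0) = fs (rootsOO.getD 0 0) := by
      rw [hy, mul_smul, mul_smul, h1, inv_smul_smul]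
    have h5 : y = 1 := eq_one_of_trivT7 (by decide +kernel) hmem hs
    apply Subtype.ext
    show (g : Equiv.Perm GolayPt) = 1
    have h6 : (g : Equiv.Perm GolayPt) = h * y * h⁻¹ := by
      rw [hy]; group
    rw [h6, h5]
    group

end Cfsg.Agent.S5614
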