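import Cfsg.Statements.S5616
import Cfsg.Agent.Lib.H27.GolayD

set_option autoImplicit false
open scoped Pointwise
open Cfsg

set_option maxRecDepth 100000
namespace Cfsg.Agent.S5616

open Cfsg.Agent.H27.Golay
open scoped Pointwise

theorem gensY_ok : allL (stabO Y0m) gensY = true := by decide +kernel

theorem gensY_spec {π : ℕ} (h : π ∈ gensY) : isM24 π = true ∧ P π • fs Y0m = fs Y0m :=
  stabO_spec (allL_spec gensY_ok π h)

theorem reachYS : ∀ c ∈ sextetL, ∃ r ∈ rootsYS, sx c ∈ Orb (fs Y0m) (sx r) :=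
  forest_reach (fs Y0m) sx sextetL sxAct gensY 144 (packL 144 sextetL) infYS rootsYS
    (fun π hπ => ⟨P_mem_M24 (gensY_spec hπ).1, (gensY_spec hπ).2⟩)
    (fun π hπ _ hc _ hd h => (sxAct_spec (gensY_spec hπ).1 hc hd).1 h)
    (by decide +kernel) (by decide +kernel) (by decide +kernel)

theorem hphi : ∀ m ∈ sextetL, meetN (fs Y0m) (sx m) = meetL Y0m (sxF m) := fun m hm =>
  meetN_famOf (sxF_nodup (allL_spec sextetL_OK m hm)) (fun _ h => sxF_lt h) Y0m

theorem certYS : OrbitCert (fs Y0m) sextets sx sextetL (meetN (fs Y0m))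
    (fun c => meetL Y0m (sxF c)) rootsYS where
  hnd := sextetL_nodup
  hinj := sx_inj
  hA := mem_sextets_iff_list
  hφ := hphi
  hinv := by
    intro s _ h x _
    have := meetN_smul s (fs Y0m) x
    rwa [h] at this
  hs := fun s hs x hx => smul_mem_sextets hs hx
  reach := reachYS
  hroots := by decide +kernel
  hdist := distinct_of_injL (by decide +kernel)

theorem count_eq (k : ℕ) :
    {S | S ∈ sextets ∧ meetN (fs Y0m) S = k}.ncard =
      countL (fun m => Nat.beq (meetL Y0m (sxF m)) k) sextetL := by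
  apply ncard_of_list sx sextetL_nodup sx_inj mem_sextets_iff_list
  intro m hm
  rw [hphi m hm]
  exact ⟨Nat.eq_of_beq_eq_true, fun h => by rw [h]; exact Nat.beq_refl _⟩

theorem count_gen {g : Equiv.Perm GolayPt} (hg : g ∈ M24) (k : ℕ) :
    {S | S ∈ sextets ∧ meetN (g • fs Y0m) S = k}.ncard =
      countL (fun m => Nat.beq (meetL Y0m (sxF m)) k) sextetL := by
  rw [← count_eq]
  have : {S | S ∈ sextets ∧ meetN (g • fs Y0m) S = k} =
      (fun S => g • S) '' {S | S ∈ sextets ∧ meetN (fs Y0m) S = k} := by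
    ext S
    constructor
    · rintro ⟨h1, h2⟩
      refine ⟨g⁻¹ • S, ⟨smul_mem_sextets (M24.inv_mem hg) h1, ?_⟩, smul_inv_smul g S⟩
      rw [← meetN_smul g, smul_inv_smul, h2]
    · rintro ⟨U, ⟨h1, h2⟩, rfl⟩
      exact ⟨smul_mem_sextets hg h1, by rw [meetN_smul, h2]⟩
  rw [this, Set.ncard_image_of_injective _ (MulAction.injective g)]

theorem conj_base {S S' : Finset (Finset GolayPt)} (hS : S ∈ sextets) (hS' : S' ∈ sextets)
    (h : meetN (fs Y0m) S = meetN (fs Y0m) S') :
    ∃ s ∈ M24, s • fs Y0m = fs Y0m ∧ s • S = S' := by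
  obtain ⟨r, hr, hreach⟩ := certYS.cover hS
  have h0 := Orb_eq_of_mem hreach
  have h1 := certYS.Orb_eq hr
  rw [← h0] at h1
  have h2 : meetN (fs Y0m) S = meetL Y0m (sxF r) := by
    have := (h1.le (self_mem_Orb (fs Y0m) S)).2
    exact this
  have h3 : S' ∈ Orb (fs Y0m) S := by
    rw [h1]
    exact ⟨hS', by rw [← h, h2]⟩
  exact h3


/-- Let Y be a set of 3 of the 24 points. The sextets of the length-24 code whose tetrads meeting Y number 1, 2 or 3 are respectively 21, 630 and 1120 in number, and two sextets with the same number of tetrads meeting Y are conjugate under the setwise stabiliser of Y in the code's group. -/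
theorem result (Y : Finset Cfsg.GolayPt) (hY : Y.card = 3) : {S : Finset (Finset Cfsg.GolayPt) | S ∈ Cfsg.sextets ∧ (S.filter fun t => (t ∩ Y).Nonempty).card = 1}.ncard = 21 ∧ {S : Finset (Finset Cfsg.GolayPt) | S ∈ Cfsg.sextets ∧ (S.filter fun t => (t ∩ Y).Nonempty).card = 2}.ncard = 630 ∧ {S : Finset (Finset Cfsg.GolayPt) | S ∈ Cfsg.sextets ∧ (S.filter fun t => (t ∩ Y).Nonempty).card = 3}.ncard = 1120 ∧ ∀ S S' : Finset (Finset Cfsg.GolayPt), S ∈ Cfsg.sextets → S' ∈ Cfsg.sextets → (S.filter fun t => (t ∩ Y).Nonempty).card = (S'.filter fun t => (t ∩ Y).Nonempty).card → ∃ g ∈ Cfsg.M24, g • Y = Y ∧ g • S = S' := by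
  obtain ⟨g, hg, rfl⟩ := exists_smul_eq_of_card (s := fs Y0m) (s' := Y)
    (by rw [hY, card_fs (by decide +kernel)]; decide +kernel) (by rw [card_fs (by decide +kernel)]; decide +kernel)
  refine ⟨?_, ?_, ?_, ?_⟩
  · have := count_gen hg 1
    rw [show countL (fun m => Nat.beq (meetL Y0m (sxF m)) 1) sextetL = 21 by decide +kernel] at this
    exact this
  · have := count_gen hg 2
    rw [show countL (fun m => Nat.beq (meetL Y0m (sxF m)) 2) sextetL = 630 by decide +kernel] at this
    exact this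
  · have := count_gen hg 3
    rw [show countL (fun m => Nat.beq (meetL Y0m (sxF m)) 3) sextetL = 1120 by decide +kernel] at this
    exact this
  · intro S S' hS hS' h
    have hgi := M24.inv_mem hg
    have h1 : meetN (fs Y0m) (g⁻¹ • S) = meetN (fs Y0m) (g⁻¹ • S') := by
      rw [← meetN_smul g, smul_inv_smul, ← meetN_smul g (fs Y0m) (g⁻¹ • S'), smul_inv_smul]
      exact h
    obtain ⟨s, hs, e1, e2⟩ := conj_base (smul_mem_sextets hgi hS) (smul_mem_sextets hgi hS') h1
    refine ⟨g * s * g⁻¹, M24.mul_mem (M24.mul_mem hg hs) hgi, ?_, ?_⟩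
    · rw [mul_smul, mul_smul, inv_smul_smul, e1]
    · rw [mul_smul, mul_smul, e2, smul_inv_smul]

end Cfsg.Agent.S5616
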