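import Cfsg.Statements.S5617
import Cfsg.Agent.Lib.H27.GolayD

set_option autoImplicit false
open scoped Pointwise
open Cfsg

set_option maxRecDepth 100000
namespace Cfsg.Agent.S5617

open Cfsg.Agent.H27.Golay
open scoped Pointwise

/-- The pair of dodecads as a family. -/
noncomputable def pairD : Finset (Finset GolayPt) := famOf [D0m, D0c]

theorem pair_eq : pairD = {fs D0m, fs D0c} := by
  ext x
  simp only [famOf, pairD, List.mem_toFinset, List.map_cons, List.map_nil, List.mem_cons,
    List.not_mem_nil, or_false, Finset.mem_insert, Finset.mem_singleton]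

theorem compl_eq : Finset.univ \ fs D0m = fs D0c := by
  apply Finset.ext
  decide +kernel

theorem pair_nodup : ([D0m, D0c].map fs).Nodup := by
  have : fs D0m ≠ fs D0c := by
    intro h
    have h1 : pt 0 ∈ fs D0m ↔ pt 0 ∈ fs D0c := by rw [h]
    revert h1
    decide +kernel
  simp [this]

/-- Test for a code to stabilise the pair. -/
def stabP (π : ℕ) : Bool :=
  Bool.rec false
    (Bool.rec false (Nat.beq (am π D0c) D0m) (Nat.beq (am π D0m) D0c) ||
      Bool.rec false (Nat.beq (am π D0c) D0c) (Nat.beq (am π D0m) D0m))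
    (isM24 π)

theorem gensDD_ok : allL stabP gensDD = true := by decide +kernel

theorem stabP_spec {π : ℕ} (h : stabP π = true) : isM24 π = true ∧ P π • pairD = pairD := by
  unfold stabP at h
  cases h1 : isM24 π with
  | false => rw [h1] at h; cases h
  | true =>
    rw [h1] at h
    refine ⟨rfl, ?_⟩
    have hok := isM24_permOK h1
    rw [pair_eq]
    rw [Finset.smul_finset_insert, Finset.smul_finset_singleton, ← fs_am hok, ← fs_am hok]
    simp only [Bool.or_eq_true] at h
    rcases h with h | h
    · cases h2 : Nat.beq (am π D0m) D0c with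
      | false => rw [h2] at h; cases h
      | true =>
        rw [h2] at h
        rw [Nat.eq_of_beq_eq_true h2, Nat.eq_of_beq_eq_true h, Finset.pair_comm]
    · cases h2 : Nat.beq (am π D0m) D0m with
      | false => rw [h2] at h; cases h
      | true =>
        rw [h2] at h
        rw [Nat.eq_of_beq_eq_true h2, Nat.eq_of_beq_eq_true h]

theorem gensDD_spec {π : ℕ} (h : π ∈ gensDD) : isM24 π = true ∧ P π • pairD = pairD :=
  stabP_spec (allL_spec gensDD_ok π h)

theorem reachDS : ∀ c ∈ sextetL, ∃ r ∈ rootsDS, sx c ∈ Orb pairD (sx r) :=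
  forest_reach pairD sx sextetL sxAct gensDD 144 (packL 144 sextetL) infDS rootsDS
    (fun π hπ => ⟨P_mem_M24 (gensDD_spec hπ).1, (gensDD_spec hπ).2⟩)
    (fun π hπ _ hc _ hd h => (sxAct_spec (gensDD_spec hπ).1 hc hd).1 h)
    (by decide +kernel) (by decide +kernel) (by decide +kernel)

theorem certDS : OrbitCert pairD sextets sx sextetL (fun x => Phi x pairD)
    (fun c => sumSq (sxF c) [D0m, D0c]) rootsDS where
  hnd := sextetL_nodup
  hinj := sx_inj
  hA := mem_sextets_iff_list
  hφ := by
    intro m hm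
    exact Phi_famOf (l1 := sxF m) (l2 := [D0m, D0c]) (sxF_nodup (allL_spec sextetL_OK m hm)) pair_nodup
      (fun _ h => sxF_lt h)
  hinv := fun s _ h x _ => phi_inv_F h x
  hs := fun s hs x hx => smul_mem_sextets hs hx
  reach := reachDS
  hroots := by decide +kernel
  hdist := distinct_of_injL (by decide +kernel)


/-- The setwise stabiliser, in the group of the length-24 code, of a complementary pair of dodecads has exactly three orbits on the 1771 sextets, of sizes 396, 495 and 880. -/
theorem result (d : Finset Cfsg.GolayPt) (hd : d ∈ Cfsg.dodecads) : ∃ X₁ ∈ Cfsg.sextets, ∃ X₂ ∈ Cfsg.sextets, ∃ X₃ ∈ Cfsg.sextets, (MulAction.orbit ↥(MulAction.stabilizer Cfsg.M24 ({d, Finset.univ \ d} : Finset (Finset Cfsg.GolayPt))) X₁).ncard = 396 ∧ (MulAction.orbit ↥(MulAction.stabilizer Cfsg.M24 ({d, Finset.univ \ d} : Finset (Finset Cfsg.GolayPt))) X₂).ncard = 495 ∧ (MulAction.orbit ↥(MulAction.stabilizer Cfsg.M24 ({d, Finset.univ \ d} : Finset (Finset Cfsg.GolayPt))) X₃).ncard = 880 ∧ Cfsg.sextets = MulAction.orbit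 ↥(MulAction.stabilizer Cfsg.M24 ({d, Finset.univ \ d} : Finset (Finset Cfsg.GolayPt))) X₁ ∪ MulAction.orbit ↥(MulAction.stabilizer Cfsg.M24 ({d, Finset.univ \ d} : Finset (Finset Cfsg.GolayPt))) X₂ ∪ MulAction.orbit ↥(MulAction.stabilizer Cfsg.M24 ({d, Finset.univ \ d} : Finset (Finset Cfsg.GolayPt))) X₃ := by
  obtain ⟨g, hg, rfl⟩ := exists_smul_D0 hd
  have hpair : ({g • fs D0m, Finset.univ \ (g • fs D0m)} : Finset (Finset GolayPt)) = g • pairD := by
    have hu : g • (Finset.univ : Finset GolayPt) = Finset.univ := by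
      ext p
      simp only [Finset.mem_smul_finset, Finset.mem_univ, true_and, iff_true]
      exact ⟨g⁻¹ • p, smul_inv_smul g p⟩
    rw [pair_eq, Finset.smul_finset_insert, Finset.smul_finset_singleton, ← compl_eq,
      Finset.smul_finset_sdiff, hu]
  rw [hpair]
  have C := certDS
  obtain ⟨a1, n1⟩ := C.orbit_smul hg (r := rootsDS.getD 0 0) (by decide +kernel)
  obtain ⟨a2, n2⟩ := C.orbit_smul hg (r := rootsDS.getD 2 0) (by decide +kernel)
  obtain ⟨a3, n3⟩ := C.orbit_smul hg (r := rootsDS.getD 1 0) (by decide +kernel)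
  refine ⟨_, a1, _, a2, _, a3, ?_, ?_, ?_, ?_⟩
  · rw [n1]; decide +kernel
  · rw [n2]; decide +kernel
  · rw [n3]; decide +kernel
  · exact C.union3 (by decide +kernel) (by decide +kernel) (by decide +kernel) (by decide +kernel) hg

end Cfsg.Agent.S5617
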