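import Cfsg.Statements.S5618
import Cfsg.Agent.Lib.H27.GolayD

set_option autoImplicit false
open scoped Pointwise
open Cfsg

set_option maxRecDepth 100000
namespace Cfsg.Agent.S5618

open Cfsg.Agent.H27.Golay
open scoped Pointwise

theorem hexadsOn_smul {g : Equiv.Perm GolayPt} (hg : g ∈ M24) {d C : Finset GolayPt}
    (hC : C ∈ hexadsOn d) : g • C ∈ hexadsOn (g • d) := by
  obtain ⟨h1, o, ho, rfl⟩ := hC
  refine ⟨by rw [Finset.card_smul_finset]; exact h1, g • o, smul_mem_octads hg ho, ?_⟩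
  rw [Finset.smul_finset_inter]

def hexChk1 : Bool :=
  allL (fun a => Bool.rec true (memL (Nat.land a D0m) hexL) (Nat.beq (popc (Nat.land a D0m)) 6)) octadL

def hexChk2 : Bool :=
  allL (fun m => Bool.rec false
    (octadL.any fun a => Nat.beq (Nat.land a D0m) m) (Nat.beq (popc m) 6)) hexL

theorem hexChk1_ok : hexChk1 = true := by decide +kernel
theorem hexChk2_ok : hexChk2 = true := by decide +kernel

theorem inter_fs (a b : ℕ) : fs a ∩ fs b = fs (Nat.land a b) := by
  ext p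
  show _ ↔ p ∈ fs (a &&& b)
  simp [mem_fs, Nat.testBit_and]

theorem hexL_lt : ∀ m ∈ hexL, m < 2 ^ 24 := by decide +kernel

theorem mem_hexads_base (x : Finset GolayPt) : x ∈ hexadsOn (fs D0m) ↔ ∃ m ∈ hexL, fs m = x := by
  constructor
  · rintro ⟨h1, o, ho, rfl⟩
    obtain ⟨a, ha, rfl⟩ := (mem_octads_iff_list o).1 ho
    have ha' := octadL_lt ha
    rw [card_inter_fs ha'] at h1
    have h2 := allL_spec hexChk1_ok a ha
    rw [h1] at h2
    have h3 : memL (Nat.land a D0m) hexL = true := h2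
    exact ⟨_, (memL_iff _ _).1 h3, (inter_fs _ _).symm⟩
  · rintro ⟨m, hm, rfl⟩
    have h2 := allL_spec hexChk2_ok m hm
    cases h3 : Nat.beq (popc m) 6 with
    | false => rw [h3] at h2; cases h2
    | true =>
      rw [h3] at h2
      have h4 : (octadL.any fun a => Nat.beq (Nat.land a D0m) m) = true := h2
      obtain ⟨a, ha, h5⟩ := List.any_eq_true.1 h4
      refine ⟨?_, fs a, fs_mem_octads ha, ?_⟩
      · rw [card_fs (hexL_lt m hm)]
        exact Nat.eq_of_beq_eq_true h3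
      · rw [inter_fs, Nat.eq_of_beq_eq_true h5]

theorem gensD_ok : allL (stabO D0m) gensD = true := by decide +kernel

theorem gensD_spec {π : ℕ} (h : π ∈ gensD) : isM24 π = true ∧ P π • fs D0m = fs D0m :=
  stabO_spec (allL_spec gensD_ok π h)

theorem reachDH : ∀ c ∈ hexL, ∃ r ∈ [C0m], fs c ∈ Orb (fs D0m) (fs r) :=
  forest_reach (fs D0m) fs hexL actO gensD 24 (packL 24 hexL) infDH [C0m]
    (fun π hπ => ⟨P_mem_M24 (gensD_spec hπ).1, (gensD_spec hπ).2⟩)
    (fun π hπ _ _ _ _ h => actO_spec (gensD_spec hπ).1 h)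
    (by decide +kernel) (by decide +kernel) (by decide +kernel)

theorem C0_hex : fs C0m ∈ hexadsOn (fs D0m) := (mem_hexads_base _).2 ⟨C0m, by decide +kernel, rfl⟩

theorem Orb_base : Orb (fs D0m) (fs C0m) = hexadsOn (fs D0m) := by
  ext x
  constructor
  · rintro ⟨s, hs, h1, rfl⟩
    have := hexadsOn_smul hs C0_hex
    rwa [h1] at this
  · intro hx
    obtain ⟨m, hm, rfl⟩ := (mem_hexads_base x).1 hx
    obtain ⟨r, hr, h⟩ := reachDH m hm
    rw [List.mem_singleton] at hr
    subst hr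
    exact h

theorem hexL_nodup : hexL.Nodup := nodup_of_descK (k := fun c => c) (by decide +kernel)

theorem ncard_hex : (hexadsOn (fs D0m)).ncard = 132 := by
  have h := ncard_of_list (Q := fun _ => True) (test := fun _ => true) (A := hexadsOn (fs D0m)) fs hexL_nodup
    (fun m hm n hn e => fs_injOn (hexL_lt m hm) (hexL_lt n hn) e) mem_hexads_base
    (fun m _ => by simp)
  have h2 : {x | x ∈ hexadsOn (fs D0m) ∧ True} = hexadsOn (fs D0m) := by
    ext x; simp
  rw [h2] at h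
  rw [h]
  decide +kernel

theorem exists_pair {d C : Finset GolayPt} (hd : d ∈ dodecads) (hC : C ∈ hexadsOn d) :
    ∃ g ∈ M24, g • fs D0m = d ∧ g • fs C0m = C := by
  obtain ⟨g, hg, rfl⟩ := exists_smul_D0 hd
  have h1 := hexadsOn_smul (M24.inv_mem hg) hC
  rw [inv_smul_smul, ← Orb_base] at h1
  obtain ⟨s, hs, h2, h3⟩ := h1
  refine ⟨g * s, M24.mul_mem hg hs, ?_, ?_⟩
  · rw [mul_smul, h2]
  · rw [mul_smul, h3, smul_inv_smul]

theorem card_H {d C : Finset GolayPt} (hd : d ∈ dodecads) (hC : C ∈ hexadsOn d) :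
    Nat.card ↥(MulAction.stabilizer M24 d ⊓ MulAction.stabilizer M24 C) = 720 := by
  have h1 := card_inf_stab d C
  rw [card_stab_dodecad hd] at h1
  obtain ⟨g, hg, rfl, rfl⟩ := exists_pair hd hC
  rw [ncard_Orb_smul hg, Orb_base, ncard_hex] at h1
  omega

theorem trivT7_D0 : trivT7 D0m = true := by decide +kernel

theorem faithful_C {d C : Finset GolayPt} (hd : d ∈ dodecads) (hC : C ∈ hexadsOn d) :
    ∀ g ∈ MulAction.stabilizer M24 d ⊓ MulAction.stabilizer M24 C,
      (∀ p ∈ C, ((g : ↥M24) : Equiv.Perm GolayPt) p = p) → g = 1 := by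
  rintro ⟨g, hgM⟩ ⟨hg1, -⟩ hfix
  obtain ⟨u, hu, rfl, rfl⟩ := exists_pair hd hC
  have hg1' : g • u • fs D0m = u • fs D0m := hg1
  have hgu : u⁻¹ * g * u ∈ M24 := M24.mul_mem (M24.mul_mem (M24.inv_mem hu) hgM) hu
  have h1 : u⁻¹ * g * u ∈ fixG [5, 3, 2, 1, 0, 23] := by
    rw [mem_fixG]
    refine ⟨hgu, ?_⟩
    intro i hi
    have hp : pt i ∈ fs C0m := by
      rw [mem_fs, idx_pt' (by revert i; decide)]
      revert i
      decide +kernel
    have := hfix _ (Finset.smul_mem_smul_finset (a := u) hp)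
    show u⁻¹ (g (u (pt i))) = pt i
    have h2 : g (u (pt i)) = u (pt i) := this
    rw [h2]
    simp
  have h2 : (u⁻¹ * g * u) • fs D0m = fs D0m := by
    rw [mul_smul, mul_smul, hg1', inv_smul_smul]
  have h3 := eq_one_of_trivT7 trivT7_D0 h1 h2
  have h4 : g = 1 := by
    have := congrArg (fun x => u * x * u⁻¹) h3
    simpa [mul_assoc] using this
  subst h4
  rfl

theorem compl_hex {d C : Finset GolayPt} (hd : d ∈ dodecads) (hC : C ∈ hexadsOn d) :
    d \ C ∈ hexadsOn d := by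
  obtain ⟨u, hu, rfl, rfl⟩ := exists_pair hd hC
  rw [← Finset.smul_finset_sdiff]
  apply hexadsOn_smul hu
  rw [mem_hexads_base]
  refine ⟨Nat.xor D0m C0m, by decide +kernel, ?_⟩
  apply Finset.ext
  decide +kernel


/-- For a dodecad d of the length-24 code and a hexad C on it (a 6-point intersection of d with an octad): the joint stabiliser of d and C in the code's group is isomorphic to the symmetric group of degree 6, and it acts faithfully both on the six points of C and on the six points of d outside C. -/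
theorem result (d : Finset Cfsg.GolayPt) (hd : d ∈ Cfsg.dodecads) (C : Finset Cfsg.GolayPt) (hC : C ∈ Cfsg.hexadsOn d) : Nonempty (↥(MulAction.stabilizer Cfsg.M24 d ⊓ MulAction.stabilizer Cfsg.M24 C) ≃* Equiv.Perm (Fin 6)) ∧ (∀ g ∈ MulAction.stabilizer Cfsg.M24 d ⊓ MulAction.stabilizer Cfsg.M24 C, (∀ p ∈ C, ((g : ↥Cfsg.M24) : Equiv.Perm Cfsg.GolayPt) p = p) → g = 1) ∧ ∀ g ∈ MulAction.stabilizer Cfsg.M24 d ⊓ MulAction.stabilizer Cfsg.M24 C, (∀ p ∈ d \ C, ((g : ↥Cfsg.M24) : Equiv.Perm Cfsg.GolayPt) p = p) → g = 1 := by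
  refine ⟨?_, faithful_C hd hC, ?_⟩
  · exact iso_perm_of_faithful _ C hC.1 (fun g hg => hg.2) (card_H hd hC) (faithful_C hd hC)
  · intro g hg hfix
    refine faithful_C hd (compl_hex hd hC) g ⟨hg.1, ?_⟩ hfix
    have h1 : ((g : ↥M24) : Equiv.Perm GolayPt) • d = d := hg.1
    have h2 : ((g : ↥M24) : Equiv.Perm GolayPt) • C = C := hg.2
    show ((g : ↥M24) : Equiv.Perm GolayPt) • (d \ C) = d \ C
    rw [Finset.smul_finset_sdiff, h1, h2]

end Cfsg.Agent.S5618
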