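import Cfsg.Statements.S5620
import Cfsg.Agent.Lib.H27.GolayStab

set_option autoImplicit false
open scoped Pointwise
open Cfsg

set_option maxRecDepth 100000
namespace Cfsg.Agent.S5620

open Cfsg.Agent.H27.Golay
open scoped Pointwise

def gc : ℕ := 667267531401082886556650301550156119
def ec : ℕ := 969143801330436290221045371555459586
def Dq : ℕ := 340831

theorem dq_eq : Cfsg.Spor.squareDodecad = fs Dq := by
  apply Finset.ext
  decide +kernel

theorem gc_ok : isM24 gc = true := by decide +kernel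
theorem ec_ok : isM24 ec = true := by decide +kernel

theorem gc_dq : P gc • Cfsg.Spor.squareDodecad = Finset.univ \ Cfsg.Spor.squareDodecad := by
  rw [dq_eq, ← fs_am (isM24_permOK gc_ok)]
  apply Finset.ext
  decide +kernel

theorem ec_dq : P ec • Cfsg.Spor.squareDodecad = Cfsg.Spor.squareDodecad := by
  rw [dq_eq, ← fs_am (isM24_permOK ec_ok)]
  apply Finset.ext
  decide +kernel

theorem gc_zero : P gc (some 0) = none := by
  have := P_pt (isM24_permOK gc_ok) (i := 0) (by norm_num)
  exact this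

theorem ec_none : P ec none = none := by
  have := P_pt (isM24_permOK ec_ok) (i := 23) (by norm_num)
  exact this

theorem ec_nofix (p : GolayPt) (hp : p ∈ Cfsg.Spor.squareDodecad) : P ec p ≠ p := by
  rw [dq_eq, mem_fs] at hp
  intro h
  have h1 := P_pt (isM24_permOK ec_ok) (idx_lt p)
  rw [pt_idx, h] at h1
  have h2 := congrArg idx h1
  rw [idx_pt' (pa_lt (isM24_permOK ec_ok) (idx_lt p))] at h2
  have hk : ∀ i : Fin 24, Dq.testBit i = true → pa ec i ≠ i := by decide +kernel
  exact hk ⟨idx p, idx_lt p⟩ hp h2.symm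

theorem smul_compl_iff (x : Equiv.Perm GolayPt) (D : Finset GolayPt) :
    x • (Finset.univ \ D) = Finset.univ \ D ↔ x • D = D := by
  have hu : x • (Finset.univ : Finset GolayPt) = Finset.univ := by
    ext p
    simp only [Finset.mem_smul_finset, Finset.mem_univ, true_and, iff_true]
    exact ⟨x⁻¹ • p, smul_inv_smul x p⟩
  rw [Finset.smul_finset_sdiff, hu, ← Finset.compl_eq_univ_sdiff, ← Finset.compl_eq_univ_sdiff,
    compl_inj_iff]

theorem mem_conj_iff {G x : Equiv.Perm GolayPt} {H : Subgroup (Equiv.Perm GolayPt)} :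
    x ∈ MulAut.conj G • H ↔ G⁻¹ * x * G ∈ H := by
  rw [Subgroup.mem_pointwise_smul_iff_inv_smul_mem]
  rfl

theorem key (G : Equiv.Perm GolayPt) (hG : G ∈ M24)
    (h1 : G • Cfsg.Spor.squareDodecad = Finset.univ \ Cfsg.Spor.squareDodecad)
    (h2 : G (some 0) = none) :
    MulAut.conj G • Cfsg.Spor.M11 = Cfsg.Spor.M12 ⊓ MulAction.stabilizer (Equiv.Perm GolayPt) (none : GolayPt) := by
  ext x
  rw [mem_conj_iff]
  have e1 : ∀ y, y ∈ Cfsg.Spor.M11 ↔ (y ∈ M24 ∧ y • Cfsg.Spor.squareDodecad = Cfsg.Spor.squareDodecad) ∧ y • (some 0 : GolayPt) = some 0 := fun y => Iff.rfl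
  have e2 : x ∈ Cfsg.Spor.M12 ⊓ MulAction.stabilizer (Equiv.Perm GolayPt) (none : GolayPt) ↔ (x ∈ M24 ∧ x • Cfsg.Spor.squareDodecad = Cfsg.Spor.squareDodecad) ∧ x • (none : GolayPt) = none := Iff.rfl
  rw [e1, e2]
  have hy : G⁻¹ * x * G ∈ M24 ↔ x ∈ M24 := by
    constructor
    · intro h
      have := M24.mul_mem (M24.mul_mem hG h) (M24.inv_mem hG)
      simpa [mul_assoc] using this
    · intro h
      exact M24.mul_mem (M24.mul_mem (M24.inv_mem hG) h) hG
  have hD : (G⁻¹ * x * G) • Cfsg.Spor.squareDodecad = Cfsg.Spor.squareDodecad ↔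
      x • Cfsg.Spor.squareDodecad = Cfsg.Spor.squareDodecad := by
    rw [mul_smul, mul_smul, h1, inv_smul_eq_iff, h1, smul_compl_iff]
  have hz : (G⁻¹ * x * G) • (some 0 : GolayPt) = some 0 ↔ x • (none : GolayPt) = none := by
    rw [mul_smul, mul_smul, inv_smul_eq_iff]
    show x • (G • (some 0 : GolayPt)) = G • (some 0 : GolayPt) ↔ _
    have : G • (some 0 : GolayPt) = none := h2
    rw [this]
  rw [hy, hD, hz]


/-- Inside the stabiliser of the dodecad of squares (a Mathieu group of degree 12), the stabiliser of the residue 0 (a point of the dodecad) and the stabiliser of the extra point (a point outside the dodecad) are isomorphic but not conjugate; conjugation by a suitable element of the code's group that maps the dodecad of squares onto its complement carries the first onto the second. -/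
theorem result : Nonempty (↥(Cfsg.Spor.M12 ⊓ MulAction.stabilizer (Equiv.Perm Cfsg.GolayPt) (none : Cfsg.GolayPt)) ≃* ↥Cfsg.Spor.M11) ∧ (¬ ∃ k ∈ Cfsg.Spor.M12, MulAut.conj k • Cfsg.Spor.M11 = Cfsg.Spor.M12 ⊓ MulAction.stabilizer (Equiv.Perm Cfsg.GolayPt) (none : Cfsg.GolayPt)) ∧ ∃ g ∈ Cfsg.M24, g • Cfsg.Spor.squareDodecad = Finset.univ \ Cfsg.Spor.squareDodecad ∧ MulAut.conj g • Cfsg.Spor.M11 = Cfsg.Spor.M12 ⊓ MulAction.stabilizer (Equiv.Perm Cfsg.GolayPt) (none : Cfsg.GolayPt) := by
  have hK := key (P gc) (P_mem_M24 gc_ok) gc_dq gc_zero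
  refine ⟨?_, ?_, P gc, P_mem_M24 gc_ok, gc_dq, hK⟩
  · rw [← hK]
    exact ⟨(Subgroup.equivSMul (MulAut.conj (P gc)) Cfsg.Spor.M11).symm⟩
  · rintro ⟨k, hk, h⟩
    have he : P ec ∈ Cfsg.Spor.M12 ⊓ MulAction.stabilizer (Equiv.Perm GolayPt) (none : GolayPt) := by
      exact ⟨⟨P_mem_M24 ec_ok, ec_dq⟩, ec_none⟩
    rw [← h, mem_conj_iff] at he
    have h3 : (k⁻¹ * P ec * k) (some 0) = some 0 := he.2
    have h4 : P ec (k (some 0)) = k (some 0) := by
      have := congrArg k h3
      simpa [Equiv.Perm.mul_apply] using this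
    refine ec_nofix _ ?_ h4
    have h5 : k • Cfsg.Spor.squareDodecad = Cfsg.Spor.squareDodecad := hk.2
    have h6 : (some 0 : GolayPt) ∈ Cfsg.Spor.squareDodecad := by
      rw [dq_eq, mem_fs]
      decide +kernel
    have := Finset.smul_mem_smul_finset (a := k) h6
    rw [h5] at this
    exact this

end Cfsg.Agent.S5620
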