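import Cfsg.Statements.S5623
import Cfsg.Agent.Lib.H27.AbsGolay2

set_option autoImplicit false
open Cfsg

namespace Cfsg.Agent.S5623

open Cfsg.Agent.H27.AbsGolay


/-- Let C be a self-dual binary code of length 24 with minimum weight at least 8 (a 12-dimensional subspace of the 24-dimensional space over the field with two elements, any two of whose words have dot product zero, with no non-zero word of weight below 8 — an abstract extended binary Golay code). Then every coset w + C of C in the ambient space contains either exactly one word of weight at most 4, which then has weight at most 3, or exactly six words of weight at most 4, all of weight exactly 4 and with pairwise disjoint supports (a sextet). -/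
theorem result (C : Submodule (ZMod 2) (Fin 24 → ZMod 2)) (hdim : Module.finrank (ZMod 2) C = 12) (horth : ∀ v ∈ C, ∀ w ∈ C, ∑ i, v i * w i = 0) (hmin : ∀ w ∈ C, w ≠ 0 → 8 ≤ hammingNorm w) (w : Fin 24 → ZMod 2) : (∃ u : Fin 24 → ZMod 2, {u : Fin 24 → ZMod 2 | u - w ∈ C ∧ hammingNorm u ≤ 4} = {u} ∧ hammingNorm u ≤ 3) ∨ ({u : Fin 24 → ZMod 2 | u - w ∈ C ∧ hammingNorm u ≤ 4}.ncard = 6 ∧ ∀ u ∈ {u : Fin 24 → ZMod 2 | u - w ∈ C ∧ hammingNorm u ≤ 4}, hammingNorm u = 4 ∧ ∀ u' ∈ {u : Fin 24 → ZMod 2 | u - w ∈ C ∧ hammingNorm u ≤ 4}, u ≠ u' → Disjoint (Finset.univ.filter fun i => u i ≠ 0) (Finset.univ.filter fun i => u' i ≠ 0)) := by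
  have hAG : AG C := ⟨hdim, horth, hmin⟩
  obtain ⟨u₀, h1, h2⟩ := hAG.covering w
  by_cases h3 : hammingNorm u₀ ≤ 3
  · left
    refine ⟨u₀, ?_, h3⟩
    ext v
    simp only [Set.mem_setOf_eq, Set.mem_singleton_iff]
    constructor
    · rintro ⟨hv1, hv2⟩
      by_contra hne
      have := (hAG.two_words hv1 h1 hv2 h2 hne).2.1
      omega
    · rintro rfl
      exact ⟨h1, h2⟩
  · right
    have h4 : hammingNorm u₀ = 4 := by omega
    have hS : {u : Fin 24 → ZMod 2 | u - w ∈ C ∧ hammingNorm u ≤ 4} = ↑(SF C u₀) := by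
      ext v
      simp only [Set.mem_setOf_eq, Finset.mem_coe, mem_SF]
      constructor
      · rintro ⟨hv1, hv2⟩
        refine ⟨?_, hv2⟩
        have := C.sub_mem hv1 h1
        simpa using this
      · rintro ⟨hv1, hv2⟩
        refine ⟨?_, hv2⟩
        have := C.add_mem hv1 h1
        simpa using this
    refine ⟨?_, ?_⟩
    · rw [hS, Set.ncard_coe_finset, hAG.SF_card h4]
    · rintro u ⟨hu1, hu2⟩
      have hwt : hammingNorm u = 4 := by
        by_cases hne : u = u₀
        · rw [hne]; exact h4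
        · exact (hAG.two_words hu1 h1 hu2 h2 hne).1
      refine ⟨hwt, ?_⟩
      rintro u' ⟨hu1', hu2'⟩ hne
      exact (hAG.two_words hu1 hu1' hu2 hu2' hne).2.2

end Cfsg.Agent.S5623
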