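import Cfsg.Statements.S5628
import Cfsg.Agent.Lib.H27.Plane4d

set_option autoImplicit false
open Cfsg

namespace Cfsg.Agent.S5628

open scoped Pointwise
open Cfsg.Agent.H27.Plane4

theorem smul_eq_image {α : Type*} [DecidableEq α] (g : Equiv.Perm α) (b : Finset α) :
    g • b = b.image g := by
  rw [Finset.smul_finset_def]
  rfl

theorem mem_aut_iff {α : Type*} [DecidableEq α] {L : Set (Finset α)} {g : Equiv.Perm α} :
    g ∈ Cfsg.setSystemAut L ↔ (fun b => b.image g) '' L = L := by
  rw [Cfsg.setSystemAut, MulAction.mem_stabilizer_iff]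
  have : g • L = (fun b => b.image g) '' L := by
    ext b
    rw [Set.mem_smul_set]
    constructor
    · rintro ⟨c, hc, rfl⟩
      exact ⟨c, hc, (smul_eq_image g c).symm⟩
    · rintro ⟨c, hc, rfl⟩
      exact ⟨c, hc, smul_eq_image g c⟩
  rw [this]


/-- In a projective plane of order 4 (a Steiner system S(2, 5, 21)), every permutation of the six points of a hyperoval (a 6-set met by no line in more than two points) is the restriction of exactly one automorphism of the plane. In particular the stabiliser of a hyperoval in the automorphism group is isomorphic to the symmetric group of degree 6 acting faithfully on the hyperoval. -/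
theorem result {α : Type*} [Fintype α] [DecidableEq α] (hα : Fintype.card α = 21) (L : Set (Finset α)) (hL : Cfsg.IsSteinerSystem 2 5 L) (H : Finset α) (hH : (H.card = 6 ∧ ∀ l ∈ L, (l ∩ H).card ≤ 2)) (σ : Equiv.Perm ↥H) : ∃! g : Equiv.Perm α, g ∈ Cfsg.setSystemAut L ∧ ∀ p : ↥H, g p = σ p := by
  have hP : Pl L := ⟨hα, hL⟩
  obtain ⟨hH6, hI⟩ := hH
  let a : ↥H ≃ Fin 6 := H.equivFinOfCardEq hH6
  obtain ⟨e, he, h₁⟩ := model_iso hP hH6 hI a
  obtain ⟨e', he', h₂⟩ := model_iso hP hH6 hI (σ.trans a)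
  let g : Equiv.Perm α := e'.trans e.symm
  have hgH : ∀ p : ↥H, g p = σ p := by
    intro p
    have h1 : e' p = e (σ p) := by
      apply Fin.ext
      rw [he', he]
      rfl
    change e.symm (e' p) = σ p
    rw [h1, Equiv.symm_apply_apply]
  have hgimg : ∀ l : Finset α, l.image g = (l.image e').image e.symm := by
    intro l
    rw [Finset.image_image]
    rfl
  have hgaut : g ∈ Cfsg.setSystemAut L := by
    rw [mem_aut_iff]
    ext b
    simp only [Set.mem_image]
    constructor
    · rintro ⟨l, hl, rfl⟩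
      have h1 : l.image e' ∈ MLF := (h₂ _).mp ⟨l, hl, rfl⟩
      obtain ⟨l', hl', hee⟩ := (h₁ _).mpr h1
      rw [hgimg, ← hee, Finset.image_image]
      simpa using hl'
    · intro hb
      have h1 : b.image e ∈ MLF := (h₁ _).mp ⟨b, hb, rfl⟩
      obtain ⟨l, hl, hee⟩ := (h₂ _).mpr h1
      refine ⟨l, hl, ?_⟩
      rw [hgimg, hee, Finset.image_image]
      simp
  refine ⟨g, ⟨hgaut, hgH⟩, ?_⟩
  rintro g' ⟨hg', hg'H⟩
  have hk : g⁻¹ * g' ∈ Cfsg.setSystemAut L := mul_mem (inv_mem hgaut) hg'
  have hk1 : g⁻¹ * g' = 1 := by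
    apply aut_trivial hP hH6 hI
    · intro l hl
      rw [mem_aut_iff] at hk
      rw [← hk]
      exact ⟨l, hl, rfl⟩
    · intro x hx
      rw [Equiv.Perm.mul_apply, hg'H ⟨x, hx⟩, Equiv.Perm.inv_eq_iff_eq, hgH ⟨x, hx⟩]
  have := mul_eq_one_iff_eq_inv.mp hk1
  exact (inv_injective this).symm

end Cfsg.Agent.S5628
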