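import Cfsg.Statements.S5632
import Cfsg.Agent.Lib.H27.TvGL

set_option autoImplicit false
open Cfsg

namespace Cfsg.Agent.S5632



/-- For a finite field F and subspaces 0 < W < U of F^n with dim W + dim U = n, the elements of SL_n(F) stabilising both W and U form a subgroup that is not maximal in SL_n(F): some subgroup lies strictly between it and SL_n(F). -/
theorem result {F : Type*} [Field F] [Fintype F] (n : ℕ) (W U : Submodule F (Fin n → F)) (hW0 : W ≠ ⊥) (hWU : W < U) (hdim : Module.finrank F W + Module.finrank F U = n) : ∃ K : Subgroup (Matrix.GeneralLinearGroup (Fin n) F), Cfsg.Geo.subspaceStabilizer W ⊓ Cfsg.Geo.subspaceStabilizer U ⊓ Cfsg.Geo.specialLinear (Fin n) F < K ∧ K < Cfsg.Geo.specialLinear (Fin n) F := by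
  refine ⟨Cfsg.Geo.subspaceStabilizer W ⊓ Cfsg.Geo.specialLinear (Fin n) F, ?_, ?_⟩
  · apply lt_of_le_of_ne
    · exact le_inf (inf_le_left.trans inf_le_left) inf_le_right
    · intro he
      -- choose `u ∈ U \ W`, `v ∉ U`
      obtain ⟨u, hu, huW⟩ := SetLike.exists_of_lt hWU
      have hUtop : U ≠ ⊤ := by
        rintro rfl
        have h1 : Module.finrank F (⊤ : Submodule F (Fin n → F)) = n := by simp
        rw [h1] at hdim
        have : 0 < Module.finrank F W := Module.finrank_pos_iff.mpr
          ((Submodule.nontrivial_iff_ne_bot).mpr hW0)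
        omega
      obtain ⟨v, hv⟩ : ∃ v, v ∉ U := by
        by_contra hc
        push Not at hc
        exact hUtop (Submodule.eq_top_iff'.mpr hc)
      have hu' : u ∉ W ⊔ (F ∙ v) := by
        intro hm
        obtain ⟨w, hw, y, hy, rfl⟩ := Submodule.mem_sup.mp hm
        obtain ⟨c, rfl⟩ := Submodule.mem_span_singleton.mp hy
        have hc0 : c ≠ 0 := by
          rintro rfl
          apply huW
          simpa using hw
        apply hv
        have h1 : c • v ∈ U := by
          have := U.sub_mem hu (hWU.le hw)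
          simpa using this
        have := U.smul_mem c⁻¹ h1
        rwa [smul_smul, inv_mul_cancel₀ hc0, one_smul] at this
      obtain ⟨t, ht, hfix, htu⟩ := Cfsg.Agent.H27.Tv.exists_tv_fix (W ⊔ (F ∙ v)) hu'
        (Submodule.mem_sup_right (Submodule.mem_span_singleton_self v))
      have htW : t ∈ Cfsg.Geo.subspaceStabilizer W :=
        Cfsg.Agent.H27.Tv.mem_stab_of_fix W t (fun w hw => hfix w (Submodule.mem_sup_left hw))
      have h2 : t ∈ Cfsg.Geo.subspaceStabilizer W ⊓ Cfsg.Geo.subspaceStabilizer U ⊓
          Cfsg.Geo.specialLinear (Fin n) F := by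
        rw [he]; exact ⟨htW, ht⟩
      have h3 : (t : Matrix (Fin n) (Fin n) F).mulVec u ∈ U := (h2.1.2 u).mp hu
      rw [htu] at h3
      exact hv ((U.add_mem_iff_right hu).mp h3)
  · apply lt_of_le_of_ne inf_le_right
    intro he
    have hWtop : W ≠ ⊤ := by
      intro h
      rw [h] at hWU
      exact not_top_lt hWU
    obtain ⟨t, ht, hn⟩ := Cfsg.Agent.H27.Tv.exists_sl_not_stab W hW0 hWtop
    rw [← he] at ht
    exact hn ht.1

end Cfsg.Agent.S5632
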