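import Cfsg.Statements.S5633
import Cfsg.Agent.Lib.H27.TvGL

set_option autoImplicit false
open Cfsg

namespace Cfsg.Agent.S5633



/-- For a finite field F and complementary non-zero subspaces W ⊕ U = F^n with dim W < dim U, the elements of SL_n(F) stabilising both W and U form a subgroup that is not maximal in SL_n(F): some subgroup lies strictly between it and SL_n(F). -/
theorem result {F : Type*} [Field F] [Fintype F] (n : ℕ) (W U : Submodule F (Fin n → F)) (hW0 : W ≠ ⊥) (hWU : W ⊓ U = ⊥) (hWU' : W ⊔ U = ⊤) (hdim : Module.finrank F W < Module.finrank F U) : ∃ K : Subgroup (Matrix.GeneralLinearGroup (Fin n) F), Cfsg.Geo.subspaceStabilizer W ⊓ Cfsg.Geo.subspaceStabilizer U ⊓ Cfsg.Geo.specialLinear (Fin n) F < K ∧ K < Cfsg.Geo.specialLinear (Fin n) F := by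
  have hU0 : U ≠ ⊥ := by
    rintro rfl
    simp at hdim
  have hUtop : U ≠ ⊤ := by
    rintro rfl
    apply hW0
    simpa using hWU
  refine ⟨Cfsg.Geo.subspaceStabilizer U ⊓ Cfsg.Geo.specialLinear (Fin n) F, ?_, ?_⟩
  · apply lt_of_le_of_ne
    · exact le_inf (inf_le_left.trans inf_le_right) inf_le_right
    · intro he
      obtain ⟨w, hw, hw0⟩ := W.ne_bot_iff.mp hW0
      obtain ⟨v, hv, hv0⟩ := U.ne_bot_iff.mp hU0
      have hwU : w ∉ U := by
        intro h
        apply hw0
        have : w ∈ W ⊓ U := ⟨hw, h⟩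
        rw [hWU] at this
        simpa using this
      obtain ⟨t, ht, hfix, htw⟩ := Cfsg.Agent.H27.Tv.exists_tv_fix U hwU hv
      have htU := Cfsg.Agent.H27.Tv.mem_stab_of_fix U t hfix
      have h2 : t ∈ Cfsg.Geo.subspaceStabilizer W ⊓ Cfsg.Geo.subspaceStabilizer U ⊓
          Cfsg.Geo.specialLinear (Fin n) F := by
        rw [he]; exact ⟨htU, ht⟩
      have h3 : (t : Matrix (Fin n) (Fin n) F).mulVec w ∈ W := (h2.1.1 w).mp hw
      rw [htw] at h3
      have hvW : v ∈ W := (W.add_mem_iff_right hw).mp h3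
      apply hv0
      have : v ∈ W ⊓ U := ⟨hvW, hv⟩
      rw [hWU] at this
      simpa using this
  · apply lt_of_le_of_ne inf_le_right
    intro he
    obtain ⟨t, ht, hn⟩ := Cfsg.Agent.H27.Tv.exists_sl_not_stab U hU0 hUtop
    rw [← he] at ht
    exact hn ht.1

end Cfsg.Agent.S5633
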