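import Cfsg.Statements.S5635
import Cfsg.Agent.Lib.H27.GeoDec
import Cfsg.Agent.Lib.H27.TvGL

set_option autoImplicit false
open Cfsg

namespace Cfsg.Agent.S5635

open scoped Matrix MatrixGroups
open Cfsg.Geo Cfsg.Agent.H27.GD

section
variable {ι : Type} [Fintype ι] [DecidableEq ι] {F : Type*} [Field F]

theorem exists_tau [Fintype F] (h : Fintype.card F ≤ 4) :
    ∃ τ : F →+* F, (6 : F) = 0 ∧ ∀ a : F, a ≠ 0 → a * τ a = 1 := by
  have h2 : 1 < Fintype.card F := Fintype.one_lt_card
  have hq : (Fintype.card F : F) = 0 := by simp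
  have hp : ∀ a : F, a ≠ 0 → a ^ (Fintype.card F - 1) = 1 := fun a ha =>
    FiniteField.pow_card_sub_one_eq_one a ha
  have hc3 : Fintype.card F = 2 ∨ Fintype.card F = 3 ∨ Fintype.card F = 4 := by omega
  rcases hc3 with hc | hc | hc
  · rw [hc] at hq hp
    refine ⟨RingHom.id F, ?_, ?_⟩
    · have : (2 : F) = 0 := by exact_mod_cast hq
      linear_combination 3 * this
    · intro a ha
      have := hp a ha
      simp only [Nat.add_one_sub_one, pow_one] at this
      simp [this]
  · rw [hc] at hq hp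
    refine ⟨RingHom.id F, ?_, ?_⟩
    · have : (3 : F) = 0 := by exact_mod_cast hq
      linear_combination 2 * this
    · intro a ha
      have := hp a ha
      simp only [RingHom.id_apply]
      rw [← this]
      ring
  · rw [hc] at hq hp
    have h4 : (4 : F) = 0 := by exact_mod_cast hq
    have h2' : (2 : F) = 0 := by
      have : (2 : F) * 2 = 0 := by linear_combination h4
      simpa using this
    let τ : F →+* F :=
      { toFun := fun x => x ^ 2
        map_one' := one_pow 2
        map_mul' := fun x y => mul_pow x y 2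
        map_zero' := by simp
        map_add' := fun x y => by
          linear_combination (x * y) * h2' }
    refine ⟨τ, ?_, ?_⟩
    · linear_combination 3 * h2'
    · intro a ha
      have := hp a ha
      change a * a ^ 2 = 1
      rw [← this]
      ring

theorem case_m1 [Fintype F] {t : ℕ} (hι : 13 ≤ Fintype.card ι) (D : Fin t → Submodule F (ι → F))
    (hD : IsMDecomposition 1 D) (hq : Fintype.card F ≤ 4) :
    ∃ K : Subgroup (GL ι F), decompositionStabilizer D ⊓ specialLinear ι F < K ∧
      K < specialLinear ι F := by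
  classical
  obtain ⟨b, hb1, hb2⟩ := exists_dec_basis hD
  obtain ⟨τ, h6, hτ⟩ := exists_tau hq
  have hcard : Fintype.card ι = t := by
    have h1 := Module.finrank_eq_card_basis b
    rw [Module.finrank_fintype_fun_eq_card] at h1
    simpa using h1
  let c : Fin t → Module.Dual F (ι → F) := fun i => b.coord ⟨i, 0⟩
  let u : Fin t → (ι → F) := fun i => b ⟨i, 0⟩
  have hcu : ∀ i j, c i (u j) = if i = j then 1 else 0 := by
    intro i j
    simp only [c, u, Module.Basis.coord_apply, Module.Basis.repr_self]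
    by_cases hij : i = j
    · subst hij; simp
    · rw [if_neg hij, Finsupp.single_apply, if_neg]
      intro he
      exact hij (congrArg Sigma.fst he).symm
  let B : (ι → F) → (ι → F) → F := fun x y => ∑ i, c i x * τ (c i y)
  have Bal : ∀ x y z, B (x + y) z = B x z + B y z := by
    intro x y z
    simp only [B, map_add, add_mul, Finset.sum_add_distrib]
  have Bar : ∀ x y z, B z (x + y) = B z x + B z y := by
    intro x y z
    simp only [B, map_add, mul_add, Finset.sum_add_distrib]
  have Bsl : ∀ (a : F) x y, B (a • x) y = a * B x y := by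
    intro a x y
    simp only [B, map_smul, smul_eq_mul, Finset.mul_sum, mul_assoc]
  have Bsr : ∀ (a : F) x y, B x (a • y) = τ a * B x y := by
    intro a x y
    simp only [B, map_smul, smul_eq_mul, Finset.mul_sum, map_mul]
    exact Finset.sum_congr rfl fun i _ => by ring
  have Bxu : ∀ x j, B x (u j) = c j x := by
    intro x j
    simp only [B, hcu]
    rw [Finset.sum_eq_single j]
    · simp
    · intro i _ hi
      simp [hi]
    · simp
  have Buy : ∀ j y, B (u j) y = τ (c j y) := by
    intro j y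
    simp only [B, hcu]
    rw [Finset.sum_eq_single j]
    · simp
    · intro i _ hi
      simp [hi]
    · simp
  have hle : decompositionStabilizer D ⊓ specialLinear ι F ≤ isoF B := by
    rintro g ⟨⟨σ, hσ⟩, -⟩
    intro x y
    have hlam : ∀ i x, c (σ i) ((g : Matrix ι ι F) *ᵥ x) = c (σ i) ((g : Matrix ι ι F) *ᵥ u i) * c i x := by
      intro i x
      have := coord_stab hb1 hb2 hσ i 0 x
      simpa [c, u, Module.Basis.coord_apply] using this
    have hne : ∀ i, c (σ i) ((g : Matrix ι ι F) *ᵥ u i) ≠ 0 := by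
      intro i
      have := det_stab_ne_zero hb1 hb2 hσ i
      simpa [c, u, Module.Basis.coord_apply, Matrix.det_fin_one] using this
    change ∑ j, c j _ * τ (c j _) = ∑ i, c i x * τ (c i y)
    rw [← Equiv.sum_comp σ]
    refine Finset.sum_congr rfl fun i _ => ?_
    rw [hlam i x, hlam i y, map_mul]
    have := hτ _ (hne i)
    linear_combination (c i x * τ (c i y)) * this
  have h3 : 3 < t := by omega
  let i0 : Fin t := ⟨0, by omega⟩
  let i1 : Fin t := ⟨1, by omega⟩
  let i2 : Fin t := ⟨2, by omega⟩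
  let i3 : Fin t := ⟨3, by omega⟩
  have h01 : i0 ≠ i1 := by simp [i0, i1, Fin.ext_iff]
  have h02 : i0 ≠ i2 := by simp [i0, i2, Fin.ext_iff]
  have h03 : i0 ≠ i3 := by simp [i0, i3, Fin.ext_iff]
  have h12 : i1 ≠ i2 := by simp [i1, i2, Fin.ext_iff]
  have h13 : i1 ≠ i3 := by simp [i1, i3, Fin.ext_iff]
  have h23 : i2 ≠ i3 := by simp [i2, i3, Fin.ext_iff]
  let f : Module.Dual F (ι → F) := c i0 + c i1 + c i2 + c i3
  let v : ι → F := u i0 + u i1 + u i2 + u i3
  have hfv : f v = 4 := by
    simp only [f, v, LinearMap.add_apply, map_add, hcu]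
    simp [h01, h02, h03, h12, h13, h23, h01.symm, h02.symm, h03.symm, h12.symm, h13.symm, h23.symm]
    norm_num
  have hBxv : ∀ x, B x v = f x := by
    intro x
    simp only [v, Bar, Bxu, f, LinearMap.add_apply]
  have hBvy : ∀ y, B v y = τ (f y) := by
    intro y
    simp only [v, Bal, Buy, f, LinearMap.add_apply, map_add]
  let R : (ι → F) →ₗ[F] (ι → F) := LinearMap.transvection ((-2 : F) • c i0) (u i0)
  let A : (ι → F) →ₗ[F] (ι → F) := LinearMap.transvection f v
  have hdet : LinearMap.det (A ∘ₗ R) = 1 := by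
    rw [LinearMap.det_comp, LinearMap.transvection.det, LinearMap.transvection.det, hfv]
    simp only [LinearMap.smul_apply, hcu, if_true, smul_eq_mul]
    linear_combination (-1 : F) * h6
  obtain ⟨g₁, hg₁, hg₁x⟩ := exists_gl_of_linear (A ∘ₗ R) hdet
  have hRx : ∀ x, R x = x + ((-2 : F) * c i0 x) • u i0 := by
    intro x
    simp [R, LinearMap.transvection.apply]
  have hAx : ∀ x, A x = x + f x • v := by
    intro x
    simp [A, LinearMap.transvection.apply]
  have hRiso : ∀ x y, B (R x) (R y) = B x y := by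
    intro x y
    simp only [hRx, Bal, Bar, Bsl, Bsr, Bxu, Buy, map_mul, map_neg, map_ofNat, map_one, hcu, if_true]
    ring
  have hAiso : ∀ x y, B (A x) (A y) = B x y := by
    intro x y
    have hτfv : τ (f v) = 4 := by rw [hfv]; exact map_ofNat τ 4
    simp only [hAx, Bal, Bar, Bsl, Bsr, hBxv, hBvy, hfv, hτfv]
    linear_combination (f x * τ (f y)) * h6
  have hg₁iso : g₁ ∈ isoF B := by
    intro x y
    rw [hg₁x, hg₁x]
    change B (A (R x)) (A (R y)) = B x y
    rw [hAiso, hRiso]
  have hg₁u : (g₁ : Matrix ι ι F) *ᵥ u i1 = u i1 + v := by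
    rw [hg₁x]
    change A (R (u i1)) = _
    rw [hRx, hcu, if_neg h01]
    simp only [mul_zero, zero_smul, add_zero]
    rw [hAx]
    simp only [f, LinearMap.add_apply, hcu]
    simp [h01, h12.symm, h13, h01.symm, h12, h13.symm]
  have hg₁S : g₁ ∉ decompositionStabilizer D ⊓ specialLinear ι F := by
    rintro ⟨⟨σ, hσ⟩, -⟩
    have hm : (g₁ : Matrix ι ι F) *ᵥ u i1 ∈ D (σ i1) := apply_mem_of_stab hσ (hb1 i1 0)
    have hc0 : c i0 ((g₁ : Matrix ι ι F) *ᵥ u i1) = 1 := by
      rw [hg₁u]
      simp only [v, map_add, hcu]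
      simp [h01, h02, h03]
    have hc2 : c i2 ((g₁ : Matrix ι ι F) *ᵥ u i1) = 1 := by
      rw [hg₁u]
      simp only [v, map_add, hcu]
      simp [h02.symm, h12.symm, h23]
    by_cases hs : i0 = σ i1
    · have : c i2 ((g₁ : Matrix ι ι F) *ᵥ u i1) = 0 := hb2 (σ i1) _ hm i2 0 (fun h => h02 (hs.trans h.symm))
      rw [hc2] at this
      exact one_ne_zero this
    · have : c i0 ((g₁ : Matrix ι ι F) *ᵥ u i1) = 0 := hb2 (σ i1) _ hm i0 0 hs
      rw [hc0] at this
      exact one_ne_zero this
  have h0u1 : c i0 (u i1) = 0 := by rw [hcu, if_neg h01]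
  obtain ⟨g₂, hg₂, hg₂x⟩ := Cfsg.Agent.H27.Tv.exists_tv (c i0) (u i1) h0u1
  have hg₂L : g₂ ∉ isoF B := by
    intro hmem
    have := hmem (u i0) (u i0)
    rw [hg₂x] at this
    simp only [hcu, if_true, one_smul, Bal, Bar, Bxu] at this
    simp [h01, h01.symm] at this
  exact ⟨specialLinear ι F ⊓ isoF B, lt_lt_of_elements inf_le_right hle hg₁ hg₁iso hg₁S hg₂ hg₂L⟩

theorem case_m2 [Fintype F] {t : ℕ} (hι : 13 ≤ Fintype.card ι) (D : Fin t → Submodule F (ι → F))
    (hD : IsMDecomposition 2 D) (hq : Fintype.card F = 2) :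
    ∃ K : Subgroup (GL ι F), decompositionStabilizer D ⊓ specialLinear ι F < K ∧
      K < specialLinear ι F := by
  classical
  obtain ⟨b, hb1, hb2⟩ := exists_dec_basis hD
  have h2 : (2 : F) = 0 := by
    have : (Fintype.card F : F) = 0 := by simp
    rw [hq] at this
    exact_mod_cast this
  have hone : ∀ a : F, a ≠ 0 → a = 1 := by
    intro a ha
    have := FiniteField.pow_card_sub_one_eq_one a ha
    rw [hq] at this
    simpa using this
  have hcard : Fintype.card ι = t * 2 := by
    have h1 := Module.finrank_eq_card_basis b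
    rw [Module.finrank_fintype_fun_eq_card] at h1
    simpa using h1
  let c : Fin t → Fin 2 → Module.Dual F (ι → F) := fun i k => b.coord ⟨i, k⟩
  let u : Fin t → Fin 2 → (ι → F) := fun i k => b ⟨i, k⟩
  have hcu : ∀ i k j l, c i k (u j l) = if i = j ∧ k = l then 1 else 0 := by
    intro i k j l
    simp only [c, u, Module.Basis.coord_apply, Module.Basis.repr_self]
    by_cases hij : i = j
    · subst hij
      by_cases hkl : k = l
      · subst hkl; simp
      · simp only [Finsupp.single_apply, Sigma.mk.inj_iff, heq_eq_eq, true_and, hkl, and_false,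
          if_false]
        simp [Ne.symm hkl]
    · rw [if_neg (fun h => hij h.1), Finsupp.single_apply, if_neg]
      intro he
      exact hij (congrArg Sigma.fst he).symm
  let ω : Fin t → (ι → F) → (ι → F) → F := fun i x y => c i 0 x * c i 1 y + c i 1 x * c i 0 y
  let B : (ι → F) → (ι → F) → F := fun x y => ∑ i, ω i x y
  have Bal : ∀ x y z, B (x + y) z = B x z + B y z := by
    intro x y z
    simp only [B, ω, map_add, add_mul, ← Finset.sum_add_distrib]
    exact Finset.sum_congr rfl fun i _ => by ring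
  have Bar : ∀ x y z, B z (x + y) = B z x + B z y := by
    intro x y z
    simp only [B, ω, map_add, mul_add, ← Finset.sum_add_distrib]
    exact Finset.sum_congr rfl fun i _ => by ring
  have Bsl : ∀ (a : F) x y, B (a • x) y = a * B x y := by
    intro a x y
    simp only [B, ω, map_smul, smul_eq_mul, Finset.mul_sum]
    exact Finset.sum_congr rfl fun i _ => by ring
  have Bsr : ∀ (a : F) x y, B x (a • y) = a * B x y := by
    intro a x y
    simp only [B, ω, map_smul, smul_eq_mul, Finset.mul_sum]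
    exact Finset.sum_congr rfl fun i _ => by ring
  have Bsym : ∀ x y, B x y = B y x := by
    intro x y
    simp only [B, ω]
    exact Finset.sum_congr rfl fun i _ => by ring
  have Bxu0 : ∀ x j, B x (u j 0) = c j 1 x := by
    intro x j
    simp only [B, ω, hcu]
    rw [Finset.sum_eq_single j]
    · simp
    · intro i _ hi
      simp [hi]
    · simp
  have Bxu1 : ∀ x j, B x (u j 1) = c j 0 x := by
    intro x j
    simp only [B, ω, hcu]
    rw [Finset.sum_eq_single j]
    · simp
    · intro i _ hi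
      simp [hi]
    · simp
  have hle : decompositionStabilizer D ⊓ specialLinear ι F ≤ isoF B := by
    rintro g ⟨⟨σ, hσ⟩, -⟩
    intro x y
    change ∑ j, ω j _ _ = ∑ i, ω i x y
    rw [← Equiv.sum_comp σ]
    refine Finset.sum_congr rfl fun i _ => ?_
    have hdetne := det_stab_ne_zero hb1 hb2 hσ i
    have hdet1 := hone _ hdetne
    rw [Matrix.det_fin_two] at hdet1
    simp only [Matrix.of_apply] at hdet1
    have hc : ∀ k x, c (σ i) k ((g : Matrix ι ι F) *ᵥ x) =
        c (σ i) k ((g : Matrix ι ι F) *ᵥ u i 0) * c i 0 x +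
        c (σ i) k ((g : Matrix ι ι F) *ᵥ u i 1) * c i 1 x := by
      intro k x
      have := coord_stab hb1 hb2 hσ i k x
      simpa [c, u, Module.Basis.coord_apply, Fin.sum_univ_two] using this
    change c (σ i) 0 _ * c (σ i) 1 _ + c (σ i) 1 _ * c (σ i) 0 _ = c i 0 x * c i 1 y + c i 1 x * c i 0 y
    rw [hc 0 x, hc 1 y, hc 1 x, hc 0 y]
    simp only [c, u, Module.Basis.coord_apply] at hdet1 ⊢
    generalize b.repr ((g : Matrix ι ι F) *ᵥ b ⟨i, 0⟩) ⟨σ i, 0⟩ = a00 at *
    generalize b.repr ((g : Matrix ι ι F) *ᵥ b ⟨i, 1⟩) ⟨σ i, 0⟩ = a01 at *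
    generalize b.repr ((g : Matrix ι ι F) *ᵥ b ⟨i, 0⟩) ⟨σ i, 1⟩ = a10 at *
    generalize b.repr ((g : Matrix ι ι F) *ᵥ b ⟨i, 1⟩) ⟨σ i, 1⟩ = a11 at *
    generalize b.repr x ⟨i, 0⟩ = x0
    generalize b.repr x ⟨i, 1⟩ = x1
    generalize b.repr y ⟨i, 0⟩ = y0
    generalize b.repr y ⟨i, 1⟩ = y1
    linear_combination (x0 * y1 + x1 * y0) * hdet1 +
      (a00 * a10 * x0 * y0 + a01 * a11 * x1 * y1 + a01 * a10 * x0 * y1 + a01 * a10 * x1 * y0) * h2
  have h1t : 1 < t := by omega
  let i0 : Fin t := ⟨0, by omega⟩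
  let i1 : Fin t := ⟨1, by omega⟩
  have h01 : i0 ≠ i1 := by simp [i0, i1, Fin.ext_iff]
  let f : Module.Dual F (ι → F) := c i0 1 + c i1 1
  let v : ι → F := u i0 0 + u i1 0
  have hfv : f v = 0 := by
    simp only [f, v, LinearMap.add_apply, map_add, hcu]
    simp
  have hBxv : ∀ x, B x v = f x := by
    intro x
    simp only [v, Bar, Bxu0, f, LinearMap.add_apply]
  have hBvy : ∀ y, B v y = f y := by
    intro y
    rw [Bsym, hBxv]
  obtain ⟨g₁, hg₁, hg₁x⟩ := Cfsg.Agent.H27.Tv.exists_tv f v hfv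
  have hg₁iso : g₁ ∈ isoF B := by
    intro x y
    rw [hg₁x, hg₁x]
    simp only [Bal, Bar, Bsl, Bsr, hBxv, hBvy, hfv]
    linear_combination (f x * f y) * h2
  have hg₁u : (g₁ : Matrix ι ι F) *ᵥ u i0 1 = u i0 1 + v := by
    rw [hg₁x]
    simp [f, hcu, h01, h01.symm]
  have hg₁S : g₁ ∉ decompositionStabilizer D ⊓ specialLinear ι F := by
    rintro ⟨⟨σ, hσ⟩, -⟩
    have hm : (g₁ : Matrix ι ι F) *ᵥ u i0 1 ∈ D (σ i0) := apply_mem_of_stab hσ (hb1 i0 1)
    have hc0 : c i0 1 ((g₁ : Matrix ι ι F) *ᵥ u i0 1) = 1 := by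
      rw [hg₁u]
      simp only [v, map_add, hcu]
      simp [h01]
    have hc2 : c i1 0 ((g₁ : Matrix ι ι F) *ᵥ u i0 1) = 1 := by
      rw [hg₁u]
      simp only [v, map_add, hcu]
      simp [h01.symm]
    by_cases hs : i0 = σ i0
    · have : c i1 0 ((g₁ : Matrix ι ι F) *ᵥ u i0 1) = 0 :=
        hb2 (σ i0) _ hm i1 0 (fun h => h01 (hs.trans h.symm))
      rw [hc2] at this
      exact one_ne_zero this
    · have : c i0 1 ((g₁ : Matrix ι ι F) *ᵥ u i0 1) = 0 := hb2 (σ i0) _ hm i0 1 hs
      rw [hc0] at this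
      exact one_ne_zero this
  have h0u1 : c i0 0 (u i1 0) = 0 := by
    rw [hcu]; simp [h01]
  obtain ⟨g₂, hg₂, hg₂x⟩ := Cfsg.Agent.H27.Tv.exists_tv (c i0 0) (u i1 0) h0u1
  have hg₂L : g₂ ∉ isoF B := by
    intro hmem
    have := hmem (u i0 0) (u i1 1)
    rw [hg₂x, hg₂x] at this
    simp only [hcu] at this
    simp only [Bal, Bar, Bsr, Bsl, Bxu1, hcu] at this
    simp [h01, h01.symm] at this
  exact ⟨specialLinear ι F ⊓ isoF B, lt_lt_of_elements inf_le_right hle hg₁ hg₁iso hg₁S hg₂ hg₂L⟩

end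


/-- For a finite field F with q elements and n ≥ 13, let D be a decomposition of F^n into t ≥ 2 independent subspaces of equal dimension m spanning F^n, where m = 1 and q ≤ 4, or m = 2 and q = 2. Then the elements of SL_n(F) permuting the members of D form a subgroup that is not maximal: some subgroup lies strictly between it and SL_n(F). -/
theorem result {F : Type*} [Field F] [Fintype F] (n : ℕ) (hn : 13 ≤ n) {t : ℕ} (m : ℕ) (D : Fin t → Submodule F (Fin n → F)) (hD : Cfsg.Geo.IsMDecomposition m D) (h : (m = 1 ∧ Fintype.card F ≤ 4) ∨ (m = 2 ∧ Fintype.card F = 2)) : ∃ K : Subgroup (Matrix.GeneralLinearGroup (Fin n) F), Cfsg.Geo.decompositionStabilizer D ⊓ Cfsg.Geo.specialLinear (Fin n) F < K ∧ K < Cfsg.Geo.specialLinear (Fin n) F := by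
  rcases h with ⟨rfl, hq⟩ | ⟨rfl, hq⟩
  · exact case_m1 (by simpa using hn) D hD hq
  · exact case_m2 (by simpa using hn) D hD hq

end Cfsg.Agent.S5635
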