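import Cfsg.Statements.S5648
import Cfsg.Agent.Lib.H27.GeoDec
import Cfsg.Agent.Lib.H27.TvGL
import Cfsg.Agent.Lib.Lead.SpBasic

set_option autoImplicit false
open Cfsg

namespace Cfsg.Agent.S5648

open scoped Matrix MatrixGroups
open Cfsg.Geo Cfsg.Agent.H27.GD

section
variable {ι : Type} [Fintype ι] [DecidableEq ι] {F : Type*} [Field F]

theorem main_abs [Fintype F] (hι : 6 ≤ Fintype.card ι) (hq : Fintype.card F = 2) {t : ℕ}
    (f : (ι → F) → (ι → F) → F) (hf : IsBilinearForm f) (fself : ∀ x, f x x = 0)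
    (D : Fin t → Submodule F (ι → F)) (hD : IsNondegenerateMDecomposition f 2 D) :
    ∃ K : Subgroup (GL ι F), decompositionStabilizer D ⊓ isoF f < K ∧ K < isoF f := by
  classical
  obtain ⟨b, hb1, hb2⟩ := exists_dec_basis hD.decomp
  have h2 : (2 : F) = 0 := by
    have : (Fintype.card F : F) = 0 := by simp
    rw [hq] at this
    exact_mod_cast this
  have hone : ∀ a : F, a ≠ 0 → a = 1 := by
    intro a ha
    have := FiniteField.pow_card_sub_one_eq_one a ha
    rw [hq] at this
    simpa using this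
  have hzo : ∀ a : F, a = 0 ∨ a = 1 := fun a => by
    by_cases ha : a = 0
    · exact Or.inl ha
    · exact Or.inr (hone a ha)
  have hcard : Fintype.card ι = t * 2 := by
    have h1 := Module.finrank_eq_card_basis b
    rw [Module.finrank_fintype_fun_eq_card] at h1
    simpa using h1
  let c : Fin t → Fin 2 → Module.Dual F (ι → F) := fun i k => b.coord ⟨i, k⟩
  let u : Fin t → Fin 2 → (ι → F) := fun i k => b ⟨i, k⟩
  have hcu : ∀ i k j l, c i k (u j l) = if i = j ∧ k = l then 1 else 0 := by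
    intro i k j l
    simp only [c, u, Module.Basis.coord_apply, Module.Basis.repr_self]
    by_cases hij : i = j
    · subst hij
      by_cases hkl : k = l
      · subst hkl; simp
      · simp only [Finsupp.single_apply, Sigma.mk.inj_iff, heq_eq_eq, true_and, hkl, and_false,
          if_false]
        simp [Ne.symm hkl]
    · rw [if_neg (fun h => hij h.1), Finsupp.single_apply, if_neg]
      intro he
      exact hij (congrArg Sigma.fst he).symm
  have hcext : ∀ x y, (∀ j k, c j k x = c j k y) → x = y := by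
    intro x y h
    apply b.ext_elem
    rintro ⟨j, k⟩
    exact h j k
  have hmemc : ∀ i, ∀ x ∈ D i, ∀ j k, j ≠ i → c j k x = 0 := fun i x hx j k hji => hb2 i x hx j k hji
  have hexp : ∀ i, ∀ y ∈ D i, y = c i 0 y • u i 0 + c i 1 y • u i 1 := by
    intro i y hy
    apply hcext
    intro j k
    by_cases hj : j = i
    · subst hj
      fin_cases k <;> simp [hcu]
    · rw [hmemc i y hy j k hj]
      simp [hcu, hj]
  have far : ∀ x y z, f z (x + y) = f z x + f z y := fun x y z => hf.add_right z x y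
  have fal : ∀ x y z, f (x + y) z = f x z + f y z := hf.add_left
  have fsl : ∀ (a : F) x y, f (a • x) y = a * f x y := hf.smul_left
  have fsr : ∀ (a : F) x y, f x (a • y) = a * f x y := hf.smul_right
  have fsym : ∀ x y, f x y = f y x := by
    intro x y
    have h1 := fself (x + y)
    rw [fal, far, far, fself, fself] at h1
    linear_combination h1 - (f y x) * h2
  have hf01 : ∀ i, f (u i 0) (u i 1) = 1 := by
    intro i
    apply hone
    intro h0
    have hne : u i 0 ≠ 0 := b.ne_zero _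
    obtain ⟨-, ⟨y, hy, hfy⟩⟩ := hD.nondegenerate i (u i 0) (hb1 i 0) hne
    apply hfy
    rw [hexp i y hy, far, fsr, fsr, fself, h0]
    simp
  have hf10 : ∀ i, f (u i 1) (u i 0) = 1 := fun i => by rw [fsym, hf01]
  have hfu0 : ∀ i k j, f (u i k) (u j 0) = c j 1 (u i k) := by
    intro i k j
    by_cases hij : i = j
    · subst hij
      fin_cases k
      · simp [hcu, fself]
      · simp [hcu, hf10]
    · rw [hD.orthogonal i j hij _ (hb1 i k) _ (hb1 j 0), hcu, if_neg]
      exact fun h => hij h.1.symm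
  have hfu1 : ∀ i k j, f (u i k) (u j 1) = c j 0 (u i k) := by
    intro i k j
    by_cases hij : i = j
    · subst hij
      fin_cases k
      · simp [hcu, hf01]
      · simp [hcu, fself]
    · rw [hD.orthogonal i j hij _ (hb1 i k) _ (hb1 j 1), hcu, if_neg]
      exact fun h => hij h.1.symm
  let ω : (ι → F) → (ι → F) → F := fun x y => ∑ i, (c i 0 x * c i 1 y + c i 1 x * c i 0 y)
  have ωb : IsBilinearForm ω := by
    constructor
    · intro x y z
      simp only [ω, map_add, add_mul, ← Finset.sum_add_distrib]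
      exact Finset.sum_congr rfl fun i _ => by ring
    · intro a x y
      simp only [ω, map_smul, smul_eq_mul, Finset.mul_sum]
      exact Finset.sum_congr rfl fun i _ => by ring
    · intro x y z
      simp only [ω, map_add, mul_add, ← Finset.sum_add_distrib]
      exact Finset.sum_congr rfl fun i _ => by ring
    · intro a x y
      simp only [ω, map_smul, smul_eq_mul, Finset.mul_sum]
      exact Finset.sum_congr rfl fun i _ => by ring
  have ωu0 : ∀ x j, ω x (u j 0) = c j 1 x := by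
    intro x j
    simp only [ω, hcu]
    rw [Finset.sum_eq_single j]
    · simp
    · intro i _ hi
      simp [hi]
    · simp
  have ωu1 : ∀ x j, ω x (u j 1) = c j 0 x := by
    intro x j
    simp only [ω, hcu]
    rw [Finset.sum_eq_single j]
    · simp
    · intro i _ hi
      simp [hi]
    · simp
  have hfω : ∀ x y, f x y = ω x y := by
    apply bilin_ext b hf ωb
    rintro ⟨i, k⟩ ⟨j, l⟩
    change f (u i k) (u j l) = ω (u i k) (u j l)
    fin_cases l
    · exact (hfu0 i k j).trans (ωu0 _ j).symm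
    · exact (hfu1 i k j).trans (ωu1 _ j).symm
  have hfxu0 : ∀ x j, f x (u j 0) = c j 1 x := fun x j => (hfω _ _).trans (ωu0 x j)
  have hfxu1 : ∀ x j, f x (u j 1) = c j 0 x := fun x j => (hfω _ _).trans (ωu1 x j)
  let Q : (ι → F) → F := fun x => ∑ i, (c i 0 x ^ 2 + c i 0 x * c i 1 x + c i 1 x ^ 2)
  have hQadd : ∀ x y, Q (x + y) = Q x + Q y + f x y := by
    intro x y
    rw [hfω]
    simp only [Q, ω, map_add, ← Finset.sum_add_distrib]
    refine Finset.sum_congr rfl fun i _ => ?_
    linear_combination (c i 0 x * c i 0 y + c i 1 x * c i 1 y) * h2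
  have hQsmul : ∀ (a : F) x, Q (a • x) = a ^ 2 * Q x := by
    intro a x
    simp only [Q, map_smul, smul_eq_mul, Finset.mul_sum]
    exact Finset.sum_congr rfl fun i _ => by ring
  have hQu : ∀ j k, Q (u j k) = 1 := by
    intro j k
    simp only [Q, hcu]
    rw [Finset.sum_eq_single j]
    · fin_cases k <;> simp
    · intro i _ hi
      simp [hi]
    · simp
  have hle : decompositionStabilizer D ⊓ isoF f ≤ isoF (fun x _ => Q x) := by
    rintro g ⟨⟨σ, hσ⟩, -⟩
    intro x _
    change ∑ j, (c j 0 _ ^ 2 + c j 0 _ * c j 1 _ + c j 1 _ ^ 2) = ∑ i, (c i 0 x ^ 2 + c i 0 x * c i 1 x + c i 1 x ^ 2)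
    rw [← Equiv.sum_comp σ]
    refine Finset.sum_congr rfl fun i _ => ?_
    have hdetne := det_stab_ne_zero hb1 hb2 hσ i
    have hdet1 := hone _ hdetne
    rw [Matrix.det_fin_two] at hdet1
    simp only [Matrix.of_apply] at hdet1
    have hc : ∀ k, c (σ i) k ((g : Matrix ι ι F) *ᵥ x) =
        c (σ i) k ((g : Matrix ι ι F) *ᵥ u i 0) * c i 0 x +
        c (σ i) k ((g : Matrix ι ι F) *ᵥ u i 1) * c i 1 x := by
      intro k
      have := coord_stab hb1 hb2 hσ i k x
      simpa [c, u, Module.Basis.coord_apply, Fin.sum_univ_two] using this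
    rw [hc 0, hc 1]
    simp only [c, u, Module.Basis.coord_apply] at hdet1 ⊢
    generalize b.repr ((g : Matrix ι ι F) *ᵥ b ⟨i, 0⟩) ⟨σ i, 0⟩ = a00 at *
    generalize b.repr ((g : Matrix ι ι F) *ᵥ b ⟨i, 1⟩) ⟨σ i, 0⟩ = a01 at *
    generalize b.repr ((g : Matrix ι ι F) *ᵥ b ⟨i, 0⟩) ⟨σ i, 1⟩ = a10 at *
    generalize b.repr ((g : Matrix ι ι F) *ᵥ b ⟨i, 1⟩) ⟨σ i, 1⟩ = a11 at *
    generalize b.repr x ⟨i, 0⟩ = x0
    generalize b.repr x ⟨i, 1⟩ = x1
    have hcol : ∀ a b' a' b'' : F, a * b'' - b' * a' = 1 → a ^ 2 + a * a' + a' ^ 2 = 1 := by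
      intro a b' a' b'' h
      rcases hzo a with rfl | rfl <;> rcases hzo a' with rfl | rfl
      · simp at h
      · simp
      · simp
      · linear_combination h2
    have h00 := hcol a00 a01 a10 a11 hdet1
    have h01 := hcol a01 a00 a11 a10 (by linear_combination (-1 : F) * hdet1 - h2)
    linear_combination x0 ^ 2 * h00 + x1 ^ 2 * h01 + x0 * x1 * hdet1 +
      (x0 * x1 * (a00 * a01 + a10 * a11 + a01 * a10)) * h2
  have hT : ∀ (φ : Module.Dual F (ι → F)) (v : ι → F), (∀ x, f x v = φ x) →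
      ∃ g : GL ι F, g ∈ isoF f ∧ ∀ x, (g : Matrix ι ι F) *ᵥ x = x + φ x • v := by
    intro φ v hφ
    have hφv : φ v = 0 := by rw [← hφ, fself]
    obtain ⟨g, -, hg⟩ := Cfsg.Agent.H27.Tv.exists_tv φ v hφv
    refine ⟨g, ?_, hg⟩
    intro x y
    rw [hg, hg]
    have hφ' : ∀ y, f v y = φ y := fun y => by rw [fsym, hφ]
    simp only [fal, far, fsl, fsr, hφ, hφ', hφv]
    linear_combination (φ x * φ y) * h2
  have ht : 2 < t := by omega
  let i0 : Fin t := ⟨0, by omega⟩
  let i1 : Fin t := ⟨1, by omega⟩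
  let i2 : Fin t := ⟨2, by omega⟩
  have h01 : i0 ≠ i1 := by simp [i0, i1, Fin.ext_iff]
  have h02 : i0 ≠ i2 := by simp [i0, i2, Fin.ext_iff]
  have h12 : i1 ≠ i2 := by simp [i1, i2, Fin.ext_iff]
  -- the element keeping `Q`
  let φ1 : Module.Dual F (ι → F) := c i0 1 + c i1 1 + c i2 1
  let v1 : ι → F := u i0 0 + u i1 0 + u i2 0
  have hφ1 : ∀ x, f x v1 = φ1 x := by
    intro x
    simp only [v1, far, hfxu0, φ1, LinearMap.add_apply]
  have hQv1 : Q v1 = 1 := by
    simp only [v1, hQadd, hQu, fal, hfu0, hcu]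
    simp [h01, h02, h12, h01.symm, h02.symm, h12.symm]
    linear_combination h2
  obtain ⟨g₁, hg₁, hg₁x⟩ := hT φ1 v1 hφ1
  have hg₁Q : g₁ ∈ isoF (fun x _ => Q x) := by
    intro x _
    change Q _ = Q _
    rw [hg₁x, hQadd, hQsmul, hQv1, fsr, hφ1]
    linear_combination (φ1 x ^ 2) * h2
  have hg₁u : (g₁ : Matrix ι ι F) *ᵥ u i0 1 = u i0 1 + v1 := by
    rw [hg₁x]
    simp only [φ1, LinearMap.add_apply, hcu]
    simp [h01, h02, h01.symm, h02.symm]
  have hg₁S : g₁ ∉ decompositionStabilizer D ⊓ isoF f := by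
    rintro ⟨⟨σ, hσ⟩, -⟩
    have hm : (g₁ : Matrix ι ι F) *ᵥ u i0 1 ∈ D (σ i0) := apply_mem_of_stab hσ (hb1 i0 1)
    have hc0 : c i0 1 ((g₁ : Matrix ι ι F) *ᵥ u i0 1) = 1 := by
      rw [hg₁u]
      simp only [v1, map_add, hcu]
      simp [h01, h02]
    have hc2 : c i1 0 ((g₁ : Matrix ι ι F) *ᵥ u i0 1) = 1 := by
      rw [hg₁u]
      simp only [v1, map_add, hcu]
      simp [h01.symm, h12]
    by_cases hs : i0 = σ i0
    · have : c i1 0 ((g₁ : Matrix ι ι F) *ᵥ u i0 1) = 0 :=
        hb2 (σ i0) _ hm i1 0 (fun h => h01 (hs.trans h.symm))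
      rw [hc2] at this
      exact one_ne_zero this
    · have : c i0 1 ((g₁ : Matrix ι ι F) *ᵥ u i0 1) = 0 := hb2 (σ i0) _ hm i0 1 hs
      rw [hc0] at this
      exact one_ne_zero this
  -- the element moving `Q`
  let φ2 : Module.Dual F (ι → F) := c i0 1 + c i1 1
  let v2 : ι → F := u i0 0 + u i1 0
  have hφ2 : ∀ x, f x v2 = φ2 x := by
    intro x
    simp only [v2, far, hfxu0, φ2, LinearMap.add_apply]
  have hQv2 : Q v2 = 0 := by
    simp only [v2, hQadd, hQu, hfu0, hcu]
    simp [h01, h01.symm]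
    linear_combination h2
  obtain ⟨g₂, hg₂, hg₂x⟩ := hT φ2 v2 hφ2
  have hg₂Q : g₂ ∉ isoF (fun x _ => Q x) := by
    intro hm
    have := hm (u i0 1) 0
    change Q _ = Q _ at this
    rw [hg₂x, hQadd, hQsmul, hQv2, fsr, hφ2] at this
    simp only [φ2, LinearMap.add_apply, hcu] at this
    simp [h01, h01.symm] at this
  exact ⟨isoF f ⊓ isoF (fun x _ => Q x), lt_lt_of_elements inf_le_right hle hg₁ hg₁Q hg₁S hg₂ hg₂Q⟩

end


/-- Over the field with 2 elements and for m ≥ 7, let D be a decomposition of F^(2m) into t pairwise orthogonal non-degenerate 2-dimensional subspaces for the standard alternating form (t = m ≥ 2). Then the elements of Sp_2m(2) permuting the members of D form a subgroup that is not maximal: some subgroup lies strictly between it and Sp_2m(2). -/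
theorem result {F : Type*} [Field F] [Fintype F] (m : ℕ) (hm : 7 ≤ m) (hq : Fintype.card F = 2) {t : ℕ} (D : Fin t → Submodule F (Fin m ⊕ Fin m → F)) (hD : Cfsg.Geo.IsNondegenerateMDecomposition (Cfsg.sympForm m F) 2 D) : ∃ K : Subgroup (Matrix.GeneralLinearGroup (Fin m ⊕ Fin m) F), Cfsg.Geo.decompositionStabilizer D ⊓ Cfsg.spGL m F < K ∧ K < Cfsg.spGL m F := by
  have hsp : Cfsg.spGL m F = isoF (Cfsg.sympForm m F) := Subgroup.ext fun _ => Iff.rfl
  rw [hsp]
  refine main_abs (by simp; omega) hq _ ⟨?_, ?_, ?_, ?_⟩ ?_ D hD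
  · exact Cfsg.Agent.Lead.sympForm_add_left
  · exact Cfsg.Agent.Lead.sympForm_smul_left
  · exact fun x y z => Cfsg.Agent.Lead.sympForm_add_right x y z
  · exact Cfsg.Agent.Lead.sympForm_smul_right
  · exact Cfsg.Agent.Lead.sympForm_self

end Cfsg.Agent.S5648
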