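import Cfsg.Statements.S5656
import Cfsg.Agent.Lib.H27.GeoDec
import Cfsg.Agent.Lib.H27.TvGL
import Cfsg.Agent.Lib.Lead.GUOrder

set_option autoImplicit false
open Cfsg

namespace Cfsg.Agent.S5656

open scoped Matrix MatrixGroups
open Cfsg.Geo Cfsg.Agent.H27.GD
open Cfsg.Agent.Lead

section
variable {F : Type*} [Field F] [Fintype F] {n : ℕ}

local notation "h" => Cfsg.hermForm n F 2

/-- An orthonormal basis of a non-degenerate Hermitian plane over `F₄`. -/
theorem exists_on_plane (hF : Fintype.card F = 2 ^ 2) (W : Submodule F (Fin n → F))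
    (hW : Module.finrank F W = 2) (hnd : IsNondegenerateOn (Cfsg.hermForm n F 2) W) :
    ∃ v : Module.Basis (Fin 2) F W, ∀ k l, h (v k : Fin n → F) (v l : Fin n → F) = if k = l then 1 else 0 := by
  classical
  have h2 : (2 : F) = 0 := by
    have h4 : (4 : F) = 0 := by
      have : (Fintype.card F : F) = 0 := by simp
      rw [hF] at this
      exact_mod_cast this
    have : (2 : F) * 2 = 0 := by linear_combination h4
    simpa using this
  have hsa : ∀ x : Fin n → F, h x x = 0 ∨ h x x = 1 := by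
    intro x
    by_cases h0 : h x x = 0
    · exact Or.inl h0
    · right
      have h1 := herm_conj hF x x
      have : h x x * (h x x - 1) = 0 := by linear_combination -h1
      rcases mul_eq_zero.mp this with h3 | h3
      · exact absurd h3 h0
      · exact sub_eq_zero.mp h3
  obtain ⟨ω, hω0, hω1⟩ : ∃ ω : F, ω ≠ 0 ∧ ω ≠ 1 := by
    by_contra hcon
    push Not at hcon
    have : (Finset.univ : Finset F) ⊆ {0, 1} := by
      intro a _
      by_cases ha : a = 0
      · simp [ha]
      · simp [hcon a ha]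
    have := Finset.card_le_card this
    rw [Finset.card_univ, hF] at this
    have h3 : ({0, 1} : Finset F).card ≤ 2 := Finset.card_le_two
    omega
  have hω2 : ω + ω ^ 2 ≠ 0 := by
    intro he
    have : ω * (ω - 1) = 0 := by linear_combination he - ω * h2
    rcases mul_eq_zero.mp this with h3 | h3
    · exact hω0 h3
    · exact hω1 (sub_eq_zero.mp h3)
  have hW0 : ∃ w ∈ W, w ≠ 0 := by
    have : W ≠ ⊥ := by
      intro hb
      rw [hb] at hW
      simp at hW
    exact (Submodule.ne_bot_iff W).mp this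
  obtain ⟨w, hw, hw0⟩ := hW0
  obtain ⟨-, ⟨x, hx, hwx⟩⟩ := hnd w hw hw0
  -- a vector of norm 1
  obtain ⟨p, hp, hpp⟩ : ∃ p ∈ W, h p p = 1 := by
    by_contra hcon
    push Not at hcon
    have hall : ∀ y ∈ W, h y y = 0 := fun y hy => (hsa y).resolve_right (hcon y hy)
    let a : F := ω * (h w x)⁻¹
    have ha : a * h w x = ω := by
      simp only [a]
      field_simp
    have h1 := hall (a • w + x) (W.add_mem (W.smul_mem a hw) hx)
    rw [herm_add_left, herm_add_right hF, herm_add_right hF, herm_smul_left, herm_smul_left,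
      herm_smul_right hF, herm_smul_right hF, hall w hw, hall x hx, herm_conj hF w x] at h1
    apply hω2
    rw [← ha]
    linear_combination h1
  -- a second vector
  obtain ⟨y, hy, hyp⟩ : ∃ y ∈ W, y ∉ Submodule.span F {p} := by
    by_contra hcon
    push Not at hcon
    have hle : W ≤ Submodule.span F {p} := hcon
    have := Submodule.finrank_mono hle
    rw [hW] at this
    have hp0 : p ≠ 0 := by
      rintro rfl
      simp [Cfsg.hermForm] at hpp
    have h3 := finrank_span_singleton (K := F) (v := p) hp0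
    omega
  let r : Fin n → F := y - h y p • p
  have hr : r ∈ W := W.sub_mem hy (W.smul_mem _ hp)
  have hrp : h r p = 0 := by
    have : r = y + (- h y p) • p := by simp [r, sub_eq_add_neg]
    rw [this, herm_add_left, herm_smul_left, hpp]
    ring
  have hpr : h p r = 0 := by
    rw [herm_conj hF r p, hrp]
    simp
  have hr0 : r ≠ 0 := by
    intro h0
    apply hyp
    have : y = h y p • p := sub_eq_zero.mp h0
    rw [this]
    exact Submodule.smul_mem _ _ (Submodule.mem_span_singleton_self p)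
  let vv : Fin 2 → W := ![⟨p, hp⟩, ⟨r, hr⟩]
  have hli : LinearIndependent F vv := by
    rw [LinearIndependent.pair_iff]
    intro s u hsu
    have hsu' : s • p + u • r = 0 := by
      have := congrArg (Subtype.val) hsu
      simpa using this
    have hs : s = 0 := by
      have := congrArg (fun z => h z p) hsu'
      simp only [herm_add_left, herm_smul_left, hpp, hrp] at this
      simpa [Cfsg.hermForm] using this
    refine ⟨hs, ?_⟩
    rw [hs, zero_smul, zero_add] at hsu'
    exact (smul_eq_zero.mp hsu').resolve_right hr0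
  let v : Module.Basis (Fin 2) F W :=
    basisOfLinearIndependentOfCardEqFinrank hli (by simp [hW])
  have hv : ∀ k, v k = vv k := fun k => by
    simp only [v, coe_basisOfLinearIndependentOfCardEqFinrank]
  have hv0 : (v 0 : Fin n → F) = p := by rw [hv]; rfl
  have hv1 : (v 1 : Fin n → F) = r := by rw [hv]; rfl
  have hrr : h r r = 1 := by
    refine (hsa r).resolve_left ?_
    intro h0
    obtain ⟨-, ⟨z, hz, hrz⟩⟩ := hnd r hr hr0
    apply hrz
    have hzexp : z = v.repr ⟨z, hz⟩ 0 • p + v.repr ⟨z, hz⟩ 1 • r := by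
      have := congrArg Subtype.val (v.sum_repr ⟨z, hz⟩)
      simp only [Fin.sum_univ_two, Submodule.coe_add, Submodule.coe_smul, hv0, hv1] at this
      exact this.symm
    rw [hzexp, herm_add_right hF, herm_smul_right hF, herm_smul_right hF, hrp, h0]
    simp
  refine ⟨v, fun k l => ?_⟩
  fin_cases k <;> fin_cases l <;> simp [hv0, hv1, hpp, hrr, hrp, hpr]

theorem main_abs (hF : Fintype.card F = 4) (hn : 13 ≤ n) {t : ℕ}
    (D : Fin t → Submodule F (Fin n → F)) (hD : IsNondegenerateMDecomposition (Cfsg.hermForm n F 2) 2 D) :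
    ∃ K : Subgroup (GL (Fin n) F), decompositionStabilizer D ⊓ (Cfsg.GU n F 2 ⊓ specialLinear (Fin n) F) < K ∧
      K < (Cfsg.GU n F 2 ⊓ specialLinear (Fin n) F) := by
  classical
  have hF' : Fintype.card F = 2 ^ 2 := by rw [hF]; norm_num
  have h2 : (2 : F) = 0 := by
    have h4 : (4 : F) = 0 := by
      have : (Fintype.card F : F) = 0 := by simp
      rw [hF] at this
      exact_mod_cast this
    have : (2 : F) * 2 = 0 := by linear_combination h4
    simpa using this
  have hcube : ∀ a : F, a ≠ 0 → a ^ 3 = 1 := by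
    intro a ha
    have := FiniteField.pow_card_sub_one_eq_one a ha
    rw [hF] at this
    simpa using this
  choose v hv using fun i => exists_on_plane hF' (D i) (hD.decomp.finrank_eq i) (hD.nondegenerate i)
  obtain ⟨b, hbv, hb2⟩ := exists_dec_basis_of hD.decomp v
  have hb1 : ∀ i k, b ⟨i, k⟩ ∈ D i := fun i k => by rw [hbv]; exact (v i k).2
  have hcard : n = t * 2 := by
    have h1 := Module.finrank_eq_card_basis b
    rw [Module.finrank_fintype_fun_eq_card] at h1
    simpa using h1
  let c : Fin t → Fin 2 → Module.Dual F (Fin n → F) := fun i k => b.coord ⟨i, k⟩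
  let u : Fin t → Fin 2 → (Fin n → F) := fun i k => b ⟨i, k⟩
  have hcu : ∀ i k j l, c i k (u j l) = if i = j ∧ k = l then 1 else 0 := by
    intro i k j l
    simp only [c, u, Module.Basis.coord_apply, Module.Basis.repr_self]
    by_cases hij : i = j
    · subst hij
      by_cases hkl : k = l
      · subst hkl; simp
      · simp only [Finsupp.single_apply, Sigma.mk.inj_iff, heq_eq_eq, true_and, hkl, and_false,
          if_false]
        simp [Ne.symm hkl]
    · rw [if_neg (fun hh => hij hh.1), Finsupp.single_apply, if_neg]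
      intro he
      exact hij (congrArg Sigma.fst he).symm
  have hcext : ∀ x y, (∀ j k, c j k x = c j k y) → x = y := by
    intro x y hh
    apply b.ext_elem
    rintro ⟨j, k⟩
    exact hh j k
  have hmemc : ∀ i, ∀ x ∈ D i, ∀ j k, j ≠ i → c j k x = 0 := fun i x hx j k hji => hb2 i x hx j k hji
  have hexp : ∀ i, ∀ y ∈ D i, y = c i 0 y • u i 0 + c i 1 y • u i 1 := by
    intro i y hy
    apply hcext
    intro j k
    by_cases hj : j = i
    · subst hj
      fin_cases k <;> simp [hcu]
    · rw [hmemc i y hy j k hj]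
      simp [hcu, hj]
  have huu : ∀ i k j l, h (u i k) (u j l) = if i = j ∧ k = l then 1 else 0 := by
    intro i k j l
    by_cases hij : i = j
    · subst hij
      simp only [u, hbv, hv, true_and]
    · rw [if_neg (fun hh => hij hh.1)]
      exact hD.orthogonal i j hij _ (hb1 i k) _ (hb1 j l)
  have hxu : ∀ x j l, h x (u j l) = c j l x := by
    intro x j l
    let φ : Module.Dual F (Fin n → F) :=
      { toFun := fun x => h x (u j l)
        map_add' := fun x y => herm_add_left x y _
        map_smul' := fun a x => herm_smul_left a x _ }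
    have : φ = c j l := by
      apply b.ext
      rintro ⟨i, k⟩
      change h (u i k) (u j l) = c j l (u i k)
      rw [huu, hcu]
      by_cases hij : i = j
      · subst hij
        by_cases hkl : k = l
        · subst hkl; simp
        · simp [hkl, Ne.symm hkl]
      · simp [hij, Ne.symm hij]
    exact congrArg (fun f : Module.Dual F (Fin n → F) => f x) this
  let S : Set (Fin n → F) := {x | (∃ i, x ∈ D i) ∧ h x x ≠ 0}
  have hle : decompositionStabilizer D ⊓ (Cfsg.GU n F 2 ⊓ specialLinear (Fin n) F) ≤ stabilizing (glToMat (Fin n) F) S := by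
    rintro g ⟨⟨σ, hσ⟩, hgU, -⟩
    intro x
    have hiso : h ((g : Matrix (Fin n) (Fin n) F) *ᵥ x) ((g : Matrix (Fin n) (Fin n) F) *ᵥ x) = h x x := hgU x x
    change x ∈ S ↔ (g : Matrix (Fin n) (Fin n) F) *ᵥ x ∈ S
    constructor
    · rintro ⟨⟨i, hi⟩, hx⟩
      exact ⟨⟨σ i, apply_mem_of_stab hσ hi⟩, by rw [hiso]; exact hx⟩
    · rintro ⟨⟨j, hj⟩, hx⟩
      refine ⟨?_, by rw [← hiso]; exact hx⟩
      obtain ⟨i, rfl⟩ := σ.surjective j
      rw [← hσ i] at hj
      obtain ⟨w, hw, hwx⟩ := hj
      have : w = x := mulVec_inj hwx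
      exact ⟨i, this ▸ hw⟩
  -- the transvections
  have hT : ∀ v : Fin n → F, h v v = 0 → ∃ g : GL (Fin n) F, g ∈ Cfsg.GU n F 2 ⊓ specialLinear (Fin n) F ∧
      ∀ x, (g : Matrix (Fin n) (Fin n) F) *ᵥ x = x + h x v • v := by
    intro v hvv
    let φ : Module.Dual F (Fin n → F) :=
      { toFun := fun x => h x v
        map_add' := fun x y => herm_add_left x y _
        map_smul' := fun a x => herm_smul_left a x _ }
    obtain ⟨g, hg, hgx⟩ := Cfsg.Agent.H27.Tv.exists_tv φ v hvv
    refine ⟨g, ⟨?_, hg⟩, hgx⟩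
    intro x y
    change h ((g : Matrix (Fin n) (Fin n) F) *ᵥ x) ((g : Matrix (Fin n) (Fin n) F) *ᵥ y) = h x y
    rw [hgx, hgx]
    change h (x + h x v • v) (y + h y v • v) = h x y
    rw [herm_add_left, herm_add_right hF', herm_add_right hF', herm_smul_left, herm_smul_left,
      herm_smul_right hF', herm_smul_right hF', hvv, herm_conj hF' y v]
    linear_combination (h x v * (h y v) ^ 2) * h2
  have ht : 3 < t := by omega
  let i0 : Fin t := ⟨0, by omega⟩
  let i1 : Fin t := ⟨1, by omega⟩
  let i2 : Fin t := ⟨2, by omega⟩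
  let i3 : Fin t := ⟨3, by omega⟩
  have h01 : i0 ≠ i1 := by simp [i0, i1, Fin.ext_iff]
  have h02 : i0 ≠ i2 := by simp [i0, i2, Fin.ext_iff]
  have h03 : i0 ≠ i3 := by simp [i0, i3, Fin.ext_iff]
  have h12 : i1 ≠ i2 := by simp [i1, i2, Fin.ext_iff]
  have h13 : i1 ≠ i3 := by simp [i1, i3, Fin.ext_iff]
  have h23 : i2 ≠ i3 := by simp [i2, i3, Fin.ext_iff]
  -- first element
  let v1 : Fin n → F := u i0 0 + u i1 0
  have hxv1 : ∀ x, h x v1 = c i0 0 x + c i1 0 x := by
    intro x
    simp only [v1, herm_add_right hF', hxu]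
  have hv1v1 : h v1 v1 = 0 := by
    rw [hxv1]
    simp only [v1, map_add, hcu]
    simp [h01, h01.symm]
    linear_combination h2
  obtain ⟨g₁, hg₁, hg₁x⟩ := hT v1 hv1v1
  have hg₁u0 : (g₁ : Matrix (Fin n) (Fin n) F) *ᵥ u i0 0 = u i1 0 := by
    rw [hg₁x, hxv1]
    simp only [hcu]
    simp only [true_and, if_true, h01.symm, false_and, if_false, add_zero, one_smul, v1]
    ext a
    simp only [Pi.add_apply]
    linear_combination (u i0 0 a) * h2
  have hg₁u1 : (g₁ : Matrix (Fin n) (Fin n) F) *ᵥ u i1 0 = u i0 0 := by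
    rw [hg₁x, hxv1]
    simp only [hcu]
    simp only [true_and, if_true, h01, false_and, if_false, zero_add, one_smul, v1]
    ext a
    simp only [Pi.add_apply]
    linear_combination (u i1 0 a) * h2
  have hg₁fix : ∀ j k, (j, k) ≠ (i0, 0) → (j, k) ≠ (i1, 0) → (g₁ : Matrix (Fin n) (Fin n) F) *ᵥ u j k = u j k := by
    intro j k h1 h3
    rw [hg₁x, hxv1, hcu, hcu]
    have h4 : ¬ (i0 = j ∧ (0 : Fin 2) = k) := fun ⟨a, b⟩ => h1 (by rw [← a, ← b])
    have h5 : ¬ (i1 = j ∧ (0 : Fin 2) = k) := fun ⟨a, b⟩ => h3 (by rw [← a, ← b])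
    simp [h4, h5]
  have hg₁2 : ∀ x, (g₁ : Matrix (Fin n) (Fin n) F) *ᵥ ((g₁ : Matrix (Fin n) (Fin n) F) *ᵥ x) = x := by
    intro x
    rw [hg₁x, hg₁x]
    change x + h x v1 • v1 + h (x + h x v1 • v1) v1 • v1 = x
    rw [herm_add_left, herm_smul_left, hv1v1]
    ext a
    simp only [Pi.add_apply, Pi.smul_apply, smul_eq_mul, mul_zero, add_zero]
    linear_combination (h x v1 * v1 a) * h2
  have hSform : ∀ x ∈ S, ∃ j k, ∃ α : F, α ≠ 0 ∧ x = α • u j k := by
    rintro x ⟨⟨j, hj⟩, hx⟩
    have hexpx := hexp j x hj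
    have hxx : h x x = c j 0 x ^ 3 + c j 1 x ^ 3 := by
      conv_lhs => rw [hexpx]
      simp only [herm_add_left, herm_add_right hF', herm_smul_left, herm_smul_right hF', huu]
      simp
      ring
    by_cases h0 : c j 0 x = 0
    · refine ⟨j, 1, c j 1 x, ?_, ?_⟩
      · intro h1
        rw [hxx, h0, h1] at hx
        simp at hx
      · rw [h0, zero_smul, zero_add] at hexpx
        exact hexpx
    · by_cases h1 : c j 1 x = 0
      · refine ⟨j, 0, c j 0 x, h0, ?_⟩
        rw [h1, zero_smul, add_zero] at hexpx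
        exact hexpx
      · exfalso
        apply hx
        rw [hxx, hcube _ h0, hcube _ h1]
        linear_combination h2
  have hg₁S : ∀ x ∈ S, (g₁ : Matrix (Fin n) (Fin n) F) *ᵥ x ∈ S := by
    intro x hx
    obtain ⟨j, k, α, hα, rfl⟩ := hSform x hx
    have hcases : ∃ j' k', (g₁ : Matrix (Fin n) (Fin n) F) *ᵥ u j k = u j' k' := by
      by_cases h3 : (j, k) = (i0, 0)
      · obtain ⟨rfl, rfl⟩ := Prod.mk.inj h3
        exact ⟨_, _, hg₁u0⟩
      · by_cases h4 : (j, k) = (i1, 0)
        · obtain ⟨rfl, rfl⟩ := Prod.mk.inj h4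
          exact ⟨_, _, hg₁u1⟩
        · exact ⟨_, _, hg₁fix j k h3 h4⟩
    obtain ⟨j', k', hjk⟩ := hcases
    rw [Matrix.mulVec_smul, hjk]
    refine ⟨⟨j', (D j').smul_mem _ (hb1 j' k')⟩, ?_⟩
    rw [herm_smul_left, herm_smul_right hF', huu]
    simp only [and_self, if_true, mul_one]
    rw [← pow_succ']
    rw [hcube α hα]
    exact one_ne_zero
  have hg₁L : g₁ ∈ stabilizing (glToMat (Fin n) F) S := by
    intro x
    change x ∈ S ↔ (g₁ : Matrix (Fin n) (Fin n) F) *ᵥ x ∈ S
    refine ⟨hg₁S x, fun hx => ?_⟩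
    have := hg₁S _ hx
    rwa [hg₁2] at this
  have hg₁N : g₁ ∉ decompositionStabilizer D ⊓ (Cfsg.GU n F 2 ⊓ specialLinear (Fin n) F) := by
    rintro ⟨⟨σ, hσ⟩, -⟩
    have hm0 : u i1 0 ∈ D (σ i0) := by
      rw [← hg₁u0]
      exact apply_mem_of_stab hσ (hb1 i0 0)
    have hm1 : u i0 1 ∈ D (σ i0) := by
      have h3 : (i0, (1 : Fin 2)) ≠ (i0, 0) := by simp
      have h4 : (i0, (1 : Fin 2)) ≠ (i1, 0) := by simp [h01]
      rw [← hg₁fix i0 1 h3 h4]
      exact apply_mem_of_stab hσ (hb1 i0 1)
    have h3 : σ i0 = i1 := by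
      by_contra hne
      have : c i1 0 (u i1 0) = 0 := hb2 (σ i0) _ hm0 i1 0 (fun hh => hne hh.symm)
      rw [hcu] at this
      simp at this
    have h4 : σ i0 = i0 := by
      by_contra hne
      have : c i0 1 (u i0 1) = 0 := hb2 (σ i0) _ hm1 i0 1 (fun hh => hne hh.symm)
      rw [hcu] at this
      simp at this
    exact h01 (h4.symm.trans h3)
  -- second element
  let v2 : Fin n → F := u i0 0 + u i1 0 + u i2 0 + u i3 0
  have hxv2 : ∀ x, h x v2 = c i0 0 x + c i1 0 x + c i2 0 x + c i3 0 x := by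
    intro x
    simp only [v2, herm_add_right hF', hxu]
  have hv2v2 : h v2 v2 = 0 := by
    rw [hxv2]
    simp only [v2, map_add, hcu]
    simp [h01, h01.symm, h02, h02.symm, h03, h03.symm, h12, h12.symm, h13, h13.symm, h23, h23.symm]
    linear_combination (2 : F) * h2
  obtain ⟨g₂, hg₂, hg₂x⟩ := hT v2 hv2v2
  have hg₂L : g₂ ∉ stabilizing (glToMat (Fin n) F) S := by
    intro hm
    have hmem : u i0 0 ∈ S := by
      refine ⟨⟨i0, hb1 i0 0⟩, ?_⟩
      rw [huu]
      simp
    have h3 : (g₂ : Matrix (Fin n) (Fin n) F) *ᵥ u i0 0 ∈ S := (hm _).mp hmem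
    obtain ⟨⟨j, hj⟩, -⟩ := h3
    rw [hg₂x, hxv2] at hj
    have hval : c i0 0 (u i0 0) + c i1 0 (u i0 0) + c i2 0 (u i0 0) + c i3 0 (u i0 0) = 1 := by
      simp only [hcu]
      simp [h01.symm, h02.symm, h03.symm]
    rw [hval, one_smul] at hj
    have hc1 : c i1 0 (u i0 0 + v2) = 1 := by
      simp only [v2, map_add, hcu]
      simp [h01.symm, h12, h13]
    have hc2 : c i2 0 (u i0 0 + v2) = 1 := by
      simp only [v2, map_add, hcu]
      simp [h02.symm, h12.symm, h23]
    by_cases hj1 : i1 = j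
    · have : c i2 0 (u i0 0 + v2) = 0 := hb2 j _ hj i2 0 (fun hh => h12 (hj1.trans hh.symm))
      rw [hc2] at this
      exact one_ne_zero this
    · have : c i1 0 (u i0 0 + v2) = 0 := hb2 j _ hj i1 0 hj1
      rw [hc1] at this
      exact one_ne_zero this
  exact ⟨_, lt_lt_of_elements inf_le_right hle hg₁ hg₁L hg₁N hg₂ hg₂L⟩

end


/-- Let F be the field with 4 elements (q = 2) and n ≥ 13. Let D be a decomposition of F^n into t pairwise orthogonal 2-dimensional subspaces, each non-degenerate for the standard unitary form Σ u_i v_i². Then the elements of SU_n(2) permuting the members of D form a subgroup that is not maximal: some subgroup lies strictly between it and SU_n(2). -/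
theorem result {F : Type*} [Field F] [Fintype F] (n : ℕ) (hF : Fintype.card F = 4) (hn : 13 ≤ n) {t : ℕ} (D : Fin t → Submodule F (Fin n → F)) (hD : Cfsg.Geo.IsNondegenerateMDecomposition (Cfsg.hermForm n F 2) 2 D) : ∃ K : Subgroup (Matrix.GeneralLinearGroup (Fin n) F), Cfsg.Geo.decompositionStabilizer D ⊓ (Cfsg.GU n F 2 ⊓ Cfsg.Geo.specialLinear (Fin n) F) < K ∧ K < (Cfsg.GU n F 2 ⊓ Cfsg.Geo.specialLinear (Fin n) F) := by
  exact main_abs hF hn D hD

end Cfsg.Agent.S5656
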