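import Cfsg.Statements.S5671
import Cfsg.Agent.Lib.H27.GeoDec
import Cfsg.Agent.Lib.H27.TvGL
import Cfsg.Agent.Lib.H27.GeoTens
import Cfsg.Agent.Lib.Lead.GUOrder

set_option autoImplicit false
open Cfsg

namespace Cfsg.Agent.S5671

open scoped Matrix MatrixGroups Kronecker
open Cfsg.Geo Cfsg.Agent.H27.GD Cfsg.Agent.H27.GT

section
variable {F : Type*} [Field F] [Fintype F]

theorem two_eq_zero' (hF : Fintype.card F = 4) : (2 : F) = 0 := by
  have h4 : (4 : F) = 0 := by
    have : (Fintype.card F : F) = 0 := by simp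
    rw [hF] at this
    exact_mod_cast this
  have : (2 : F) * 2 = 0 := by linear_combination h4
  simpa using this

variable {κ : Type} [Fintype κ] [DecidableEq κ]

/-- Additivity in the second argument. -/
theorem add_right' (hF : Fintype.card F = 4) {f : (κ → F) → (κ → F) → F} (hf : IsUnitaryFormPow 2 f)
    (x y z : κ → F) : f z (x + y) = f z x + f z y := by
  have h2 := two_eq_zero' hF
  rw [hf.herm z (x + y), hf.add_left, hf.herm z x, hf.herm z y]
  linear_combination (f x z * f y z) * h2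

theorem smul_right' {f : (κ → F) → (κ → F) → F} (hf : IsUnitaryFormPow 2 f)
    (a : F) (x z : κ → F) : f z (a • x) = a ^ 2 * f z x := by
  rw [hf.herm z (a • x), hf.smul_left, hf.herm z x]
  ring

theorem form_sub_left {f : (κ → F) → (κ → F) → F} (hf : IsUnitaryFormPow 2 f) (x y z : κ → F) :
    f (x - y) z = f x z - f y z := by
  have : x - y = x + (-1 : F) • y := by simp [sub_eq_add_neg]
  rw [this, hf.add_left, hf.smul_left]
  ring

theorem norm_zero_or_one (hF : Fintype.card F = 4) {f : (κ → F) → (κ → F) → F}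
    (hf : IsUnitaryFormPow 2 f) (x : κ → F) : f x x = 0 ∨ f x x = 1 := by
  by_cases h0 : f x x = 0
  · exact Or.inl h0
  · right
    have h1 := hf.herm x x
    have : f x x * (f x x - 1) = 0 := by linear_combination -h1
    rcases mul_eq_zero.mp this with h3 | h3
    · exact absurd h3 h0
    · exact sub_eq_zero.mp h3

theorem exists_gen (hF : Fintype.card F = 4) : ∃ ω : F, ω + ω ^ 2 ≠ 0 := by
  classical
  have h2 := two_eq_zero' hF
  obtain ⟨ω, hω0, hω1⟩ : ∃ ω : F, ω ≠ 0 ∧ ω ≠ 1 := by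
    by_contra hcon
    push Not at hcon
    have : (Finset.univ : Finset F) ⊆ {0, 1} := by
      intro a _
      by_cases ha : a = 0
      · simp [ha]
      · simp [hcon a ha]
    have := Finset.card_le_card this
    rw [Finset.card_univ, hF] at this
    have h3 : ({0, 1} : Finset F).card ≤ 2 := Finset.card_le_two
    omega
  refine ⟨ω, fun he => ?_⟩
  have : ω * (ω - 1) = 0 := by linear_combination he - ω * h2
  rcases mul_eq_zero.mp this with h3 | h3
  · exact hω0 h3
  · exact hω1 (sub_eq_zero.mp h3)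

/-- A vector of norm one. -/
theorem exists_norm_one (hF : Fintype.card F = 4) [Nonempty κ] {f : (κ → F) → (κ → F) → F}
    (hf : IsUnitaryFormPow 2 f) : ∃ p : κ → F, f p p = 1 := by
  by_contra hcon
  push Not at hcon
  have hall : ∀ y, f y y = 0 := fun y => (norm_zero_or_one hF hf y).resolve_right (hcon y)
  obtain ⟨ω, hω⟩ := exists_gen hF
  let w : κ → F := Pi.single (Classical.arbitrary κ) 1
  have hw : w ≠ 0 := by
    intro h
    have := congrFun h (Classical.arbitrary κ)
    simp [w] at this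
  obtain ⟨-, x, hx⟩ := hf.nondegenerate w hw
  let a : F := ω * (f w x)⁻¹
  have ha : a * f w x = ω := by
    simp only [a]
    field_simp
  have h1 := hall (a • w + x)
  rw [hf.add_left, add_right' hF hf, add_right' hF hf, hf.smul_left, hf.smul_left, smul_right' hf,
    smul_right' hf, hall w, hall x, hf.herm x w] at h1
  apply hω
  rw [← ha]
  linear_combination h1

/-- An isotropic non-zero vector in dimension at least two. -/
theorem exists_isotropic (hF : Fintype.card F = 4) {n₂ : ℕ} (hn : 2 ≤ n₂) {f : (Fin n₂ → F) → (Fin n₂ → F) → F}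
    (hf : IsUnitaryFormPow 2 f) : ∃ s : Fin n₂ → F, s ≠ 0 ∧ f s s = 0 := by
  have h2 := two_eq_zero' hF
  haveI : Nonempty (Fin n₂) := ⟨⟨0, by omega⟩⟩
  obtain ⟨w, hw⟩ := exists_norm_one hF hf
  have hw0 : w ≠ 0 := by
    rintro rfl
    have := hf.smul_left 0 0 0
    simp only [smul_zero, zero_mul] at this
    rw [this] at hw
    exact zero_ne_one hw
  obtain ⟨i, hi⟩ := Function.ne_iff.mp hw0
  obtain ⟨j, hj⟩ : ∃ j : Fin n₂, j ≠ i := by
    by_contra hcon
    push Not at hcon
    have h0 := hcon ⟨0, by omega⟩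
    have h1 := hcon ⟨1, by omega⟩
    have := h0.trans h1.symm
    simp [Fin.ext_iff] at this
  let z : Fin n₂ → F := Pi.single j 1
  let z' : Fin n₂ → F := z - f z w • w
  have hz'w : f z' w = 0 := by
    simp only [z']
    rw [form_sub_left hf, hf.smul_left, hw]
    ring
  have hwz' : f w z' = 0 := by
    rw [hf.herm w z', hz'w]
    simp
  have hz'0 : z' ≠ 0 := by
    intro h0
    have hzw : z = f z w • w := sub_eq_zero.mp h0
    have h3 := congrFun hzw i
    have h4 := congrFun hzw j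
    simp only [z, Pi.single_apply, Pi.smul_apply, smul_eq_mul, if_true] at h3 h4
    rw [if_neg (Ne.symm hj)] at h3
    have hne : w i ≠ 0 := hi
    have : f (Pi.single j 1) w = 0 := by
      rcases mul_eq_zero.mp h3.symm with h5 | h5
      · exact h5
      · exact absurd h5 hne
    rw [this] at h4
    simp at h4
  rcases norm_zero_or_one hF hf z' with h3 | h3
  · exact ⟨z', hz'0, h3⟩
  · refine ⟨w + z', ?_, ?_⟩
    · intro h0
      have hw' : w = (-1 : F) • z' := by
        have : w = - z' := eq_neg_of_add_eq_zero_left h0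
        simpa using this
      have := hz'w
      rw [hf.herm z' w] at this
      have h5 : f w w = f w ((-1 : F) • z') := by rw [← hw']
      rw [smul_right' hf, hwz'] at h5
      rw [hw] at h5
      simp at h5
    · rw [hf.add_left, add_right' hF hf, add_right' hF hf, hw, hwz', hz'w, h3]
      linear_combination h2

/-- An orthonormal basis of a two-dimensional unitary space over `F₄`. -/
theorem exists_on_basis (hF : Fintype.card F = 4) {f : (Fin 2 → F) → (Fin 2 → F) → F}
    (hf : IsUnitaryFormPow 2 f) : ∃ u : Module.Basis (Fin 2) F (Fin 2 → F),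
      ∀ k l, f (u k) (u l) = if k = l then 1 else 0 := by
  classical
  have h2 := two_eq_zero' hF
  obtain ⟨p, hpp⟩ := exists_norm_one hF hf
  have hp0 : p ≠ 0 := by
    rintro rfl
    have := hf.smul_left 0 0 0
    simp only [smul_zero, zero_mul] at this
    rw [this] at hpp
    exact zero_ne_one hpp
  obtain ⟨y, hyp⟩ : ∃ y : Fin 2 → F, y ∉ Submodule.span F {p} := by
    by_contra hcon
    push Not at hcon
    have hle : (⊤ : Submodule F (Fin 2 → F)) ≤ Submodule.span F {p} := fun y _ => hcon y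
    have h3 := Submodule.finrank_mono hle
    rw [finrank_top, finrank_span_singleton hp0] at h3
    simp at h3
  let r : Fin 2 → F := y - f y p • p
  have hrp : f r p = 0 := by
    simp only [r]
    rw [form_sub_left hf, hf.smul_left, hpp]
    ring
  have hpr : f p r = 0 := by
    rw [hf.herm p r, hrp]
    simp
  have hr0 : r ≠ 0 := by
    intro h0
    apply hyp
    have : y = f y p • p := sub_eq_zero.mp h0
    rw [this]
    exact Submodule.smul_mem _ _ (Submodule.mem_span_singleton_self p)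
  let vv : Fin 2 → (Fin 2 → F) := ![p, r]
  have hli : LinearIndependent F vv := by
    rw [LinearIndependent.pair_iff]
    intro s t hst
    have hs : s = 0 := by
      have := congrArg (fun z => f z p) hst
      simp only [hf.add_left, hf.smul_left, hpp, hrp, mul_one, mul_zero, add_zero] at this
      have h0 : f 0 p = 0 := by
        have := hf.smul_left 0 0 p
        simpa using this
      rwa [h0] at this
    refine ⟨hs, ?_⟩
    rw [hs, zero_smul, zero_add] at hst
    exact (smul_eq_zero.mp hst).resolve_right hr0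
  let v : Module.Basis (Fin 2) F (Fin 2 → F) :=
    basisOfLinearIndependentOfCardEqFinrank hli (by simp)
  have hv : ∀ k, v k = vv k := fun k => by
    simp only [v, coe_basisOfLinearIndependentOfCardEqFinrank]
  have hv0 : v 0 = p := hv 0
  have hv1 : v 1 = r := hv 1
  have hrr : f r r = 1 := by
    refine (norm_zero_or_one hF hf r).resolve_left ?_
    intro h0
    obtain ⟨-, z, hrz⟩ := hf.nondegenerate r hr0
    apply hrz
    have hzexp : z = v.repr z 0 • p + v.repr z 1 • r := by
      have := v.sum_repr z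
      simp only [Fin.sum_univ_two, hv0, hv1] at this
      exact this.symm
    rw [hzexp, add_right' hF hf, smul_right' hf, smul_right' hf, hrp, h0]
    simp
  refine ⟨v, fun k l => ?_⟩
  fin_cases k <;> fin_cases l <;> simp [hv0, hv1, hpp, hrr, hrp, hpr]

/-- The form equals the form of its Gram matrix. -/
theorem form_eq_gram (hF : Fintype.card F = 4) {f : (κ → F) → (κ → F) → F} (hf : IsUnitaryFormPow 2 f)
    (x y : κ → F) : f x y = formOfGram (fun a : F => a ^ 2) (gramMatrix f) x y := by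
  have hr : ∀ (s : Finset κ) (g : κ → (κ → F)) (z : κ → F), f z (∑ a ∈ s, g a) = ∑ a ∈ s, f z (g a) := by
    classical
    intro s g z
    induction s using Finset.induction_on with
    | empty =>
      simp only [Finset.sum_empty]
      have := hf.smul_left 0 0 z
      rw [hf.herm z 0]
      simp only [smul_zero, zero_mul] at this
      rw [this]
      simp
    | insert a s ha ih =>
      rw [Finset.sum_insert ha, Finset.sum_insert ha, add_right' hF hf, ih]
  have hl : ∀ (s : Finset κ) (g : κ → (κ → F)) (z : κ → F), f (∑ a ∈ s, g a) z = ∑ a ∈ s, f (g a) z := by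
    classical
    intro s g z
    induction s using Finset.induction_on with
    | empty =>
      simp only [Finset.sum_empty]
      have := hf.smul_left 0 0 z
      simpa using this
    | insert a s ha ih =>
      rw [Finset.sum_insert ha, Finset.sum_insert ha, hf.add_left, ih]
  conv_lhs => rw [sum_single_eq x, sum_single_eq y]
  rw [hl]
  simp only [formOfGram]
  refine Finset.sum_congr rfl fun a _ => ?_
  rw [hr]
  refine Finset.sum_congr rfl fun b _ => ?_
  rw [hf.smul_left, smul_right' hf]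
  simp only [gramMatrix]
  ring


/-- The abstract form of the statement on the product index. -/
theorem main_abs (hF : Fintype.card F = 4) {n₂ : ℕ} (hn : 2 ≤ n₂)
    (ψ : (Fin 2 × Fin n₂ → F) → (Fin 2 × Fin n₂ → F) → F)
    (hal : ∀ x y z, ψ (x + y) z = ψ x z + ψ y z) (hsl : ∀ (a : F) x z, ψ (a • x) z = a * ψ x z)
    (hconj : ∀ x y, ψ x y = ψ y x ^ 2)
    (f₁ : (Fin 2 → F) → (Fin 2 → F) → F) (f₂ : (Fin n₂ → F) → (Fin n₂ → F) → F)
    (hf₁ : IsUnitaryFormPow 2 f₁) (hf₂ : IsUnitaryFormPow 2 f₂) (c : F) (hc : c ≠ 0)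
    (hψ : ∀ p r s t, ψ (ptens p s) (ptens r t) = c * (f₁ p r * f₂ s t)) :
    ∃ K : Subgroup (GL (Fin 2 × Fin n₂) F),
      kroneckerSubgroup 2 n₂ F ⊓ (isoF ψ ⊓ specialLinear (Fin 2 × Fin n₂) F) < K ∧ K < isoF ψ ⊓ specialLinear (Fin 2 × Fin n₂) F := by
  classical
  have h2 := two_eq_zero' hF
  have hcube : ∀ a : F, a ≠ 0 → a ^ 3 = 1 := by
    intro a ha
    have := FiniteField.pow_card_sub_one_eq_one a ha
    rw [hF] at this
    simpa using this
  obtain ⟨u, hu⟩ := exists_on_basis hF hf₁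
  have hu00 : f₁ (u 0) (u 0) = 1 := by rw [hu]; simp
  have hu11 : f₁ (u 1) (u 1) = 1 := by rw [hu]; simp
  have hu01 : f₁ (u 0) (u 1) = 0 := by rw [hu]; simp
  have hu10 : f₁ (u 1) (u 0) = 0 := by rw [hu]; simp
  obtain ⟨s, hs0, hss⟩ := exists_isotropic hF hn hf₂
  obtain ⟨⟨t, ht⟩, -⟩ := hf₂.nondegenerate s hs0
  have hst : f₂ s t ≠ 0 := by
    rw [hf₂.herm s t]
    exact pow_ne_zero 2 ht
  have hharm : ∀ x y z, ψ z (x + y) = ψ z x + ψ z y := by
    intro x y z
    rw [hconj z (x + y), hal, hconj z x, hconj z y]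
    linear_combination (ψ x z * ψ y z) * h2
  have hsrm : ∀ (a : F) x z, ψ z (a • x) = a ^ 2 * ψ z x := by
    intro a x z
    rw [hconj z (a • x), hsl, hconj z x]
    ring
  -- blocks
  let D : Fin 2 → Submodule F (Fin 2 × Fin n₂ → F) := fun k =>
    LinearMap.range
      ({ toFun := fun r => ptens (u k) r
         map_add' := ptens_add_right _
         map_smul' := fun a r => ptens_smul_right a _ r } : (Fin n₂ → F) →ₗ[F] (Fin 2 × Fin n₂ → F))
  have hmemD : ∀ k r, ptens (u k) r ∈ D k := fun k r => ⟨r, rfl⟩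
  have hDex : ∀ k x, x ∈ D k → ∃ r, x = ptens (u k) r := by
    rintro k x ⟨r, rfl⟩
    exact ⟨r, rfl⟩
  -- isometries: transvections
  have hT : ∀ v, ψ v v = 0 → ∃ g : GL (Fin 2 × Fin n₂) F, g ∈ isoF ψ ⊓ specialLinear (Fin 2 × Fin n₂) F ∧
      ∀ x, (g : Matrix (Fin 2 × Fin n₂) (Fin 2 × Fin n₂) F) *ᵥ x = x + ψ x v • v := by
    intro v hvv
    let φ : Module.Dual F (Fin 2 × Fin n₂ → F) :=
      { toFun := fun x => ψ x v
        map_add' := fun x y => hal x y _
        map_smul' := fun a x => hsl a x _ }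
    obtain ⟨g, hg, hgx⟩ := Cfsg.Agent.H27.Tv.exists_tv φ v hvv
    refine ⟨g, ⟨?_, hg⟩, hgx⟩
    intro x y
    rw [hgx, hgx]
    change ψ (x + ψ x v • v) (y + ψ y v • v) = ψ x y
    rw [hal, hharm, hharm, hsl, hsl, hsrm, hsrm, hvv, hconj v y]
    linear_combination (ψ x v * (ψ y v) ^ 2) * h2
  -- the stabiliser contains the Kronecker part
  have hle : kroneckerSubgroup 2 n₂ F ⊓ (isoF ψ ⊓ specialLinear (Fin 2 × Fin n₂) F) ≤ decompositionStabilizer D := by
    rintro g ⟨⟨a, b, hg⟩, hiso, -⟩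
    have hgp : ∀ p r, (g : Matrix (Fin 2 × Fin n₂) (Fin 2 × Fin n₂) F) *ᵥ ptens p r = ptens ((a : Matrix (Fin 2) (Fin 2) F) *ᵥ p) ((b : Matrix (Fin n₂) (Fin n₂) F) *ᵥ r) := by
      intro p r
      rw [hg, kron_mulVec_ptens]
    have hsim : ∀ p r, f₁ ((a : Matrix (Fin 2) (Fin 2) F) *ᵥ p) ((a : Matrix (Fin 2) (Fin 2) F) *ᵥ r) * f₂ ((b : Matrix (Fin n₂) (Fin n₂) F) *ᵥ s) ((b : Matrix (Fin n₂) (Fin n₂) F) *ᵥ t) = f₁ p r * f₂ s t := by
      intro p r
      have := hiso (ptens p s) (ptens r t)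
      rw [hgp, hgp, hψ, hψ] at this
      exact mul_left_cancel₀ hc this
    -- images of the frame
    have hframe : ∀ k, ∃ m, ∃ α : F, α ≠ 0 ∧ (a : Matrix (Fin 2) (Fin 2) F) *ᵥ u k = α • u m := by
      intro k
      have hne : f₁ ((a : Matrix (Fin 2) (Fin 2) F) *ᵥ u k) ((a : Matrix (Fin 2) (Fin 2) F) *ᵥ u k) ≠ 0 := by
        intro h0
        have := hsim (u k) (u k)
        rw [h0, zero_mul, hu] at this
        simp only [if_true, one_mul] at this
        exact hst this.symm
      generalize hz : (a : Matrix (Fin 2) (Fin 2) F) *ᵥ u k = z at hne ⊢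
      have hzexp : z = u.repr z 0 • u 0 + u.repr z 1 • u 1 := by
        have := u.sum_repr z
        simp only [Fin.sum_univ_two] at this
        exact this.symm
      have hnorm : f₁ z z = (u.repr z 0) ^ 3 + (u.repr z 1) ^ 3 := by
        conv_lhs => rw [hzexp]
        simp only [hf₁.add_left, add_right' hF hf₁, hf₁.smul_left, smul_right' hf₁, hu00, hu11, hu01, hu10]
        ring
      by_cases h0 : u.repr z 0 = 0
      · refine ⟨1, u.repr z 1, ?_, ?_⟩
        · intro h1
          rw [hnorm, h0, h1] at hne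
          simp at hne
        · rw [h0, zero_smul, zero_add] at hzexp
          exact hzexp
      · by_cases h1 : u.repr z 1 = 0
        · refine ⟨0, u.repr z 0, h0, ?_⟩
          rw [h1, zero_smul, add_zero] at hzexp
          exact hzexp
        · exfalso
          apply hne
          rw [hnorm, hcube _ h0, hcube _ h1]
          linear_combination h2
    choose τ α hα hτ using hframe
    have hinj : Function.Injective τ := by
      intro k l hkl
      by_contra hne
      have hkl' : (a : Matrix (Fin 2) (Fin 2) F) *ᵥ (α l • u k - α k • u l) = 0 := by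
        rw [Matrix.mulVec_sub, Matrix.mulVec_smul, Matrix.mulVec_smul, hτ, hτ, hkl, smul_smul, smul_smul, mul_comm,
          sub_self]
      have h3 := mulVec_eq_zero_iff.mp hkl'
      have h4 : α l • u k = α k • u l := sub_eq_zero.mp h3
      have h5 := congrArg (fun z => f₁ z (u k)) h4
      simp only [hf₁.smul_left, hu] at h5
      simp only [if_true, mul_one, Ne.symm hne, if_false, mul_zero] at h5
      exact hα l h5
    let σ : Equiv.Perm (Fin 2) := Equiv.ofBijective τ (Finite.injective_iff_bijective.mp hinj)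
    refine ⟨σ, fun k => ?_⟩
    have hσk : σ k = τ k := rfl
    rw [hσk]
    apply le_antisymm
    · rintro _ ⟨x, hx, rfl⟩
      obtain ⟨r, rfl⟩ := hDex k x hx
      change (g : Matrix (Fin 2 × Fin n₂) (Fin 2 × Fin n₂) F) *ᵥ ptens (u k) r ∈ _
      rw [hgp, hτ, ptens_smul_left, ← ptens_smul_right]
      exact hmemD _ _
    · intro x hx
      obtain ⟨r, rfl⟩ := hDex _ x hx
      refine ⟨ptens (u k) ((α k)⁻¹ • (((b⁻¹ : GL (Fin n₂) F) : Matrix (Fin n₂) (Fin n₂) F) *ᵥ r)), hmemD _ _, ?_⟩
      change (g : Matrix (Fin 2 × Fin n₂) (Fin 2 × Fin n₂) F) *ᵥ _ = _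
      rw [hgp, hτ, Matrix.mulVec_smul, Matrix.mulVec_mulVec, ← Units.val_mul, mul_inv_cancel, Units.val_one,
        Matrix.one_mulVec, ptens_smul_left, ptens_smul_right, smul_smul, mul_inv_cancel₀ (hα k), one_smul]
  -- first element
  let v₁ := ptens (u 0) s
  have hv₁ : ψ v₁ v₁ = 0 := by
    simp only [v₁]
    rw [hψ, hss]
    ring
  obtain ⟨g₁, hg₁, hg₁x⟩ := hT v₁ hv₁
  have hψ0 : ∀ r, ψ (ptens (u 0) r) v₁ = c * f₂ r s := by
    intro r
    simp only [v₁]
    rw [hψ, hu00]
    ring
  have hψ1 : ∀ r, ψ (ptens (u 1) r) v₁ = 0 := by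
    intro r
    simp only [v₁]
    rw [hψ, hu10]
    ring
  have hg₁2 : ∀ x, (g₁ : Matrix (Fin 2 × Fin n₂) (Fin 2 × Fin n₂) F) *ᵥ ((g₁ : Matrix (Fin 2 × Fin n₂) (Fin 2 × Fin n₂) F) *ᵥ x) = x := by
    intro x
    rw [hg₁x, hg₁x, hal, hsl, hv₁]
    ext a
    simp only [Pi.add_apply, Pi.smul_apply, smul_eq_mul, mul_zero, add_zero]
    linear_combination (ψ x v₁ * v₁ a) * h2
  have hg₁D : ∀ k, ∀ x ∈ D k, (g₁ : Matrix (Fin 2 × Fin n₂) (Fin 2 × Fin n₂) F) *ᵥ x ∈ D k := by
    intro k x hx
    obtain ⟨r, rfl⟩ := hDex k x hx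
    rw [hg₁x]
    fin_cases k
    · change ptens (u 0) r + ψ (ptens (u 0) r) v₁ • v₁ ∈ D 0
      rw [hψ0]
      simp only [v₁]
      rw [← ptens_smul_right, ← ptens_add_right]
      exact hmemD _ _
    · change ptens (u 1) r + ψ (ptens (u 1) r) v₁ • v₁ ∈ D 1
      rw [hψ1, zero_smul, add_zero]
      exact hmemD _ _
  have hg₁L : g₁ ∈ decompositionStabilizer D := by
    refine ⟨1, fun k => ?_⟩
    apply le_antisymm
    · rintro _ ⟨x, hx, rfl⟩
      exact hg₁D k x hx
    · intro x hx
      refine ⟨_, hg₁D k x hx, ?_⟩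
      exact hg₁2 x
  have hg₁N : g₁ ∉ kroneckerSubgroup 2 n₂ F ⊓ (isoF ψ ⊓ specialLinear (Fin 2 × Fin n₂) F) := by
    rintro ⟨⟨a, b, hg⟩, -⟩
    have hgp : ∀ p r, (g₁ : Matrix (Fin 2 × Fin n₂) (Fin 2 × Fin n₂) F) *ᵥ ptens p r = ptens ((a : Matrix (Fin 2) (Fin 2) F) *ᵥ p) ((b : Matrix (Fin n₂) (Fin n₂) F) *ᵥ r) := by
      intro p r
      rw [hg, kron_mulVec_ptens]
    have hne : ∀ k, (a : Matrix (Fin 2) (Fin 2) F) *ᵥ u k ≠ 0 := fun k h0 =>
      u.ne_zero k (mulVec_eq_zero_iff.mp h0)
    have e1 : ptens ((a : Matrix (Fin 2) (Fin 2) F) *ᵥ u 1) ((b : Matrix (Fin n₂) (Fin n₂) F) *ᵥ t) = ptens (u 1) t := by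
      rw [← hgp, hg₁x, hψ1, zero_smul, add_zero]
    have e0 : ptens ((a : Matrix (Fin 2) (Fin 2) F) *ᵥ u 0) ((b : Matrix (Fin n₂) (Fin n₂) F) *ᵥ t) =
        ptens (u 0) (t + (c * f₂ t s) • s) := by
      rw [← hgp, hg₁x, hψ0, ptens_add_right, ptens_smul_right]
    obtain ⟨l1, hl1⟩ := ptens_eq_right (hne 1) e1
    obtain ⟨l0, hl0⟩ := ptens_eq_right (hne 0) e0
    have hκ : c * f₂ t s ≠ 0 := mul_ne_zero hc ht
    have e : l1 • t = l0 • (t + (c * f₂ t s) • s) := hl1.symm.trans hl0
    have e' := congrArg (fun z => f₂ z s) e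
    simp only [hf₂.smul_left, hf₂.add_left, hss, mul_zero, add_zero] at e'
    have hll : l1 = l0 := mul_right_cancel₀ ht e'
    rw [← hll, smul_add, ] at e
    have e'' : l1 • (c * f₂ t s) • s = 0 := by
      have := e
      rw [left_eq_add] at this
      exact this
    rw [smul_smul] at e''
    have hl10 : l1 = 0 := by
      rcases mul_eq_zero.mp ((smul_eq_zero.mp e'').resolve_right hs0) with h | h
      · exact h
      · exact absurd h hκ
    rw [hl10, zero_smul] at hl1
    have ht0 := mulVec_eq_zero_iff.mp hl1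
    apply ht
    rw [ht0]
    have := hf₂.smul_left 0 0 s
    simpa using this
  -- second element
  let v₂ := ptens (u 0 + u 1) s
  have hv₂ : ψ v₂ v₂ = 0 := by
    simp only [v₂]
    rw [hψ, hss]
    ring
  obtain ⟨g₂, hg₂, hg₂x⟩ := hT v₂ hv₂
  have hg₂L : g₂ ∉ decompositionStabilizer D := by
    rintro ⟨σ, hσ⟩
    have hm : (g₂ : Matrix (Fin 2 × Fin n₂) (Fin 2 × Fin n₂) F) *ᵥ ptens (u 0) t ∈ D (σ 0) := apply_mem_of_stab hσ (hmemD 0 t)
    rw [hg₂x] at hm
    have hκ : ψ (ptens (u 0) t) v₂ = c * f₂ t s := by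
      simp only [v₂]
      rw [hψ, add_right' hF hf₁, hu00, hu01]
      ring
    rw [hκ] at hm
    obtain ⟨r, hr⟩ := hDex _ _ hm
    have hcases : σ 0 = 0 ∨ σ 0 = 1 := by
      generalize σ 0 = i
      fin_cases i <;> simp
    rcases hcases with h0 | h1
    · rw [h0] at hr
      have := congrArg (fun z => ψ z (ptens (u 1) t)) hr
      simp only [v₂, hal, hsl, hψ, hf₁.add_left, hu00, hu01, hu10, hu11] at this
      have h5 : (c * f₂ t s) * (c * f₂ s t) = 0 := by linear_combination this
      exact mul_ne_zero (mul_ne_zero hc ht) (mul_ne_zero hc hst) h5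
    · rw [h1] at hr
      have := congrArg (fun z => ψ z (ptens (u 0) s)) hr
      simp only [v₂, hal, hsl, hψ, hf₁.add_left, hu00, hu01, hu10, hu11, hss] at this
      have h5 : c * f₂ t s = 0 := by linear_combination this
      exact mul_ne_zero hc ht h5
  exact ⟨_, lt_lt_of_elements inf_le_right hle hg₁ hg₁L hg₁N hg₂ hg₂L⟩

end


/-- Let F be the field with 4 elements (q = 2) and n = 2 n₂ ≥ 13. Suppose the standard unitary form Σ u_i v_i² on F^n is similar, through P and e, to the tensor product of non-degenerate unitary forms f₁ on F^2 and f₂ on F^(n₂). Then the elements of SU_n(2) in the stabiliser of this tensor decomposition form a subgroup that is not maximal: some subgroup lies strictly between it and SU_n(2). -/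
theorem result {F : Type*} [Field F] [Fintype F] (n : ℕ) (hF : Fintype.card F = 4) (hn : 13 ≤ n) (n₂ : ℕ) (e : Fin n ≃ Fin 2 × Fin n₂) (P : Matrix.GeneralLinearGroup (Fin n) F) (f₁ : (Fin 2 → F) → (Fin 2 → F) → F) (f₂ : (Fin n₂ → F) → (Fin n₂ → F) → F) (hf₁ : Cfsg.Geo.IsUnitaryFormPow 2 f₁) (hf₂ : Cfsg.Geo.IsUnitaryFormPow 2 f₂) (hT : Cfsg.Geo.IsTensorFormStructure (fun x : F => x ^ 2) (Cfsg.hermForm n F 2) f₁ f₂ e P) : ∃ K : Subgroup (Matrix.GeneralLinearGroup (Fin n) F), Cfsg.Geo.tensorProductSubgroup 2 n₂ e P ⊓ (Cfsg.GU n F 2 ⊓ Cfsg.Geo.specialLinear (Fin n) F) < K ∧ K < (Cfsg.GU n F 2 ⊓ Cfsg.Geo.specialLinear (Fin n) F) := by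
  classical
  have hcard : n = 2 * n₂ := by
    have := Fintype.card_congr e
    simpa using this
  apply transfer e P
  obtain ⟨c, hc, hcf⟩ := hT
  let ψ : (Fin 2 × Fin n₂ → F) → (Fin 2 × Fin n₂ → F) → F := fun x y =>
    Cfsg.hermForm n F 2 (Phi e P x) (Phi e P y)
  have hF' : Fintype.card F = 2 ^ 2 := by rw [hF]; norm_num
  have hcomap : (Cfsg.GU n F 2 ⊓ specialLinear (Fin n) F).comap (tenIso e P).toMonoidHom =
      isoF ψ ⊓ specialLinear (Fin 2 × Fin n₂) F := by
    ext g
    exact and_congr (tenIso_mem_isoF e P (Cfsg.hermForm n F 2) g) (tenIso_mem_SL e P g)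
  rw [hcomap]
  apply main_abs hF (n₂ := n₂) (by omega) ψ ?_ ?_ ?_ f₁ f₂ hf₁ hf₂ c hc ?_
  · intro x y z
    simp only [ψ, Phi_add]
    exact Cfsg.Agent.Lead.herm_add_left _ _ _
  · intro a x z
    simp only [ψ, Phi_smul]
    exact Cfsg.Agent.Lead.herm_smul_left _ _ _
  · intro x y
    exact Cfsg.Agent.Lead.herm_conj hF' _ _
  · intro p r s t
    simp only [ψ, Phi]
    rw [hcf, formOfGram_ptens _ (fun x y => mul_pow x y 2), ← form_eq_gram hF hf₁, ← form_eq_gram hF hf₂]

end Cfsg.Agent.S5671
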