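import Cfsg.Statements.S5689
import Cfsg.Agent.Lib.H27.GeoOSwap

set_option autoImplicit false
open Cfsg

namespace Cfsg.Agent.S5689



/-- Let F be a finite field with q elements, n ≥ 13 even, Q a non-degenerate quadratic form on F^n of minus type (no subspace of dimension n/2 is totally singular), and Ω the commutator subgroup of the isometry group of Q, viewed inside GL_n(F). Let W be a non-zero proper subspace on which the polar form of Q is non-degenerate, not of odd dimension n/2. Exclude the case q ≤ 3 in which W, or its orthogonal complement, is a plane containing a line on which Q vanishes. Then the elements of Ω stabilising W form a maximal subgroup of Ω. -/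
theorem result {F : Type*} [Field F] [Fintype F] {n : ℕ} (hn : 13 ≤ n) (heven : Even n) (Q : (Fin n → F) → F) (hQ : Cfsg.Geo.IsNondegenerateQuadraticForm Q) (hminus : ¬ Cfsg.Geo.IsPlusTypeOn Q ⊤) (W : Submodule F (Fin n → F)) (hW0 : W ≠ ⊥) (hW1 : W ≠ ⊤) (hdim : ¬ (2 * Module.finrank F W = n ∧ Odd (Module.finrank F W))) (hW : Cfsg.Geo.IsNondegenerateOn (QuadraticMap.polar Q) W) (hex : ¬ (Fintype.card F ≤ 3 ∧ (∃ U : Submodule F (Fin n → F), Module.finrank F U = 2 ∧ Cfsg.Geo.IsNondegenerateOn (QuadraticMap.polar Q) U ∧ Cfsg.Geo.IsPlusTypeOn Q U ∧ (U = W ∨ (Cfsg.Geo.AreOrthogonalFor (QuadraticMap.polar Q) U W ∧ Module.finrank F U + Module.finrank F W = n))))) : Cfsg.Geo.IsMaximalIn (Cfsg.Geo.omegaGL Q) (Cfsg.Geo.subspaceStabilizer W ⊓ Cfsg.Geo.omegaGL Q) := by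
  refine Cfsg.Agent.H27.GO.nd_max_W hQ (by simp; omega) hW0 hW1 hW ?_ ?_
  · simpa using hex
  · intro h
    rintro ⟨g, hgO, hg⟩
    have h' : 2 * Module.finrank F W = n := by simpa using h
    have hk : ¬ Odd (Module.finrank F W) := fun ho => hdim ⟨h', ho⟩
    have hD := Cfsg.Agent.H27.GO.OD_of_nondeg hQ (Cfsg.Agent.H27.GO.ndg_of_on hW)
    have hd := Cfsg.Agent.H27.GO.finrank_perp_eq hQ W
    have hd' : Module.finrank F (Cfsg.Agent.H27.GO.perpIn hQ ⊤ W) = Module.finrank F W := by
      simp only [Fintype.card_fin] at hd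
      omega
    refine hminus (Cfsg.Agent.H27.GO.plus_of_swap hQ hD hgO hg ?_ ?_)
    · rw [hd']
      exact Nat.not_odd_iff_even.1 hk
    · rw [hd', h']
      simp

end Cfsg.Agent.S5689
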