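import Cfsg.Statements.S5802
import Cfsg.Agent.Lib.H28.GUK8

set_option autoImplicit false
open Cfsg

namespace Cfsg.Agent.S5802

/-- Every maximal subgroup of SU_6(q) is of one of the listed geometric types or lies in the residual class. Let F be the field with q² elements, f the standard unitary form Σ u_i v_i^q on F^6, and H a maximal subgroup of SU_6(q) (inside GL_6(F)). Then H is the intersection with SU_6(q) of one of: the stabiliser of a non-zero totally isotropic subspace; the stabiliser of a non-degenerate 1- or 2-space; for q ≥ 3, the stabiliser of a decomposition into six mutually orthogonal non-degenerate 1-spaces; for q ≥ 3, of a decomposition into three mutually orthogonal non-degenerate 2-spaces; of a decomposition into two orthogonal non-degenerate 3-spaces; of a decomposition into two totally isotropic 3-spaces; for q ≥ 3, the normaliser of an adjoint-closed degree-3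 subfield of the matrix algebra; for q ≥ 3, the stabiliser of a tensor decomposition of f into unitary forms on F^2 and F^3; a subfield group of odd prime index whose F₀-structure carries f; a subfield group of index 2 and symplectic type; for q odd, a subfield group of index 2 and orthogonal type — or else H lies in the residual class of the unitary case. -/
theorem result {F : Type*} [Field F] [Fintype F] (q : ℕ) (hF : Fintype.card F = q ^ 2) (H : Subgroup (Matrix.GeneralLinearGroup (Fin 6) F)) (hH : Cfsg.Geo.IsMaximalIn (Cfsg.GU 6 F q ⊓ Cfsg.Geo.specialLinear (Fin 6) F) H) :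
    (∃ W : Submodule F (Fin 6 → F), W ≠ ⊥ ∧ Cfsg.Geo.IsTotallySingularFor (Cfsg.hermForm 6 F q) W ∧ H = Cfsg.Geo.subspaceStabilizer W ⊓ (Cfsg.GU 6 F q ⊓ Cfsg.Geo.specialLinear (Fin 6) F)) ∨
    (∃ W : Submodule F (Fin 6 → F), W ≠ ⊥ ∧ Cfsg.Geo.IsNondegenerateOn (Cfsg.hermForm 6 F q) W ∧ 2 * Module.finrank F W < 6 ∧ H = Cfsg.Geo.subspaceStabilizer W ⊓ (Cfsg.GU 6 F q ⊓ Cfsg.Geo.specialLinear (Fin 6) F)) ∨
    (3 ≤ q ∧ ∃ D : Fin 6 → Submodule F (Fin 6 → F), Cfsg.Geo.IsNondegenerateMDecomposition (Cfsg.hermForm 6 F q) 1 D ∧ H = Cfsg.Geo.decompositionStabilizer D ⊓ (Cfsg.GU 6 F q ⊓ Cfsg.Geo.specialLinear (Fin 6) F)) ∨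
    (3 ≤ q ∧ ∃ D : Fin 3 → Submodule F (Fin 6 → F), Cfsg.Geo.IsNondegenerateMDecomposition (Cfsg.hermForm 6 F q) 2 D ∧ H = Cfsg.Geo.decompositionStabilizer D ⊓ (Cfsg.GU 6 F q ⊓ Cfsg.Geo.specialLinear (Fin 6) F)) ∨
    (∃ D : Fin 2 → Submodule F (Fin 6 → F), Cfsg.Geo.IsNondegenerateMDecomposition (Cfsg.hermForm 6 F q) 3 D ∧ H = Cfsg.Geo.decompositionStabilizer D ⊓ (Cfsg.GU 6 F q ⊓ Cfsg.Geo.specialLinear (Fin 6) F)) ∨
    (∃ D : Fin 2 → Submodule F (Fin 6 → F), Cfsg.Geo.IsMDecomposition 3 D ∧ (∀ i, Cfsg.Geo.IsTotallySingularFor (Cfsg.hermForm 6 F q) (D i)) ∧ H = Cfsg.Geo.decompositionStabilizer D ⊓ (Cfsg.GU 6 F q ⊓ Cfsg.Geo.specialLinear (Fin 6) F)) ∨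
    (3 ≤ q ∧ ∃ K : Subalgebra F (Matrix (Fin 6) (Fin 6) F), Cfsg.Geo.IsFieldSubalgebra 3 K ∧ Cfsg.Geo.IsAdjointClosedFor (Cfsg.hermForm 6 F q) K ∧ H = Cfsg.Geo.subalgebraNormalizer K ⊓ (Cfsg.GU 6 F q ⊓ Cfsg.Geo.specialLinear (Fin 6) F)) ∨
    (3 ≤ q ∧ ∃ (e : Fin 6 ≃ Fin 2 × Fin 3) (P : Matrix.GeneralLinearGroup (Fin 6) F) (f₁ : (Fin 2 → F) → (Fin 2 → F) → F) (f₂ : (Fin 3 → F) → (Fin 3 → F) → F), Cfsg.Geo.IsUnitaryFormPow q f₁ ∧ Cfsg.Geo.IsUnitaryFormPow q f₂ ∧ Cfsg.Geo.IsTensorFormStructure (fun x : F => x ^ q) (Cfsg.hermForm 6 F q) f₁ f₂ e P ∧ H = Cfsg.Geo.tensorProductSubgroup 2 3 e P ⊓ (Cfsg.GU 6 F q ⊓ Cfsg.Geo.specialLinear (Fin 6) F)) ∨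
    (∃ (F₀ : Subfield F) (r : ℕ) (P : Matrix.GeneralLinearGroup (Fin 6) F), r.Prime ∧ Odd r ∧ Fintype.card F = Nat.card F₀ ^ r ∧ Cfsg.Geo.IsFormRationalStructure (Cfsg.hermForm 6 F q) F₀ 1 P ∧ H = Cfsg.Geo.subfieldSubgroup F₀ P ⊓ (Cfsg.GU 6 F q ⊓ Cfsg.Geo.specialLinear (Fin 6) F)) ∨
    (∃ (F₀ : Subfield F) (P : Matrix.GeneralLinearGroup (Fin 6) F) (ζ : F), Fintype.card F = Nat.card F₀ ^ 2 ∧ ζ ≠ 0 ∧ ζ + ζ ^ q = 0 ∧ Cfsg.Geo.IsFormRationalStructure (Cfsg.hermForm 6 F q) F₀ ζ P ∧ (∀ u : Fin 6 → F, (∀ i, u i ∈ F₀) → (Cfsg.hermForm 6 F q) (Matrix.mulVec (P : Matrix (Fin 6) (Fin 6) F) u) (Matrix.mulVec (P : Matrix (Fin 6) (Fin 6) F) u) = 0) ∧ H = Cfsg.Geo.subfieldSubgroup F₀ P ⊓ (Cfsg.GU 6 F q ⊓ Cfsg.Geo.specialLinear (Fin 6) F)) ∨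
    (Odd q ∧ ∃ (F₀ : Subfield F) (P : Matrix.GeneralLinearGroup (Fin 6) F), Fintype.card F = Nat.card F₀ ^ 2 ∧ Cfsg.Geo.IsFormRationalStructure (Cfsg.hermForm 6 F q) F₀ 1 P ∧ H = Cfsg.Geo.subfieldSubgroup F₀ P ⊓ (Cfsg.GU 6 F q ⊓ Cfsg.Geo.specialLinear (Fin 6) F)) ∨
    Cfsg.Geo.InUnitaryResidualClass H := by
  have hq23 : q = 2 ∨ 3 ≤ q := by
    have h1 : 2 ≤ Fintype.card F := Fintype.one_lt_card
    rw [hF] at h1
    have hq0 : q ≠ 0 := by
      rintro rfl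
      norm_num at h1
    have hq1 : q ≠ 1 := by
      rintro rfl
      norm_num at h1
    omega
  obtain ⟨σ, hS⟩ := Cfsg.Agent.H28.exists_hs hF
  have hmain := Cfsg.Agent.H28.main_su_comp (n := 6) hS (by norm_num) (by simpa using Cfsg.Agent.H28.not_pow_of_decide (n := 6) (by norm_num) (by decide)) (by simpa using Cfsg.Agent.H28.not_prime_power_of (n := 6) (a := 2) (b := 3) (by norm_num) (by norm_num) (by norm_num) (by norm_num) (by norm_num)) hH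
  rcases hmain with h | h | ⟨t, m, D, hc, h2, hD, hE⟩ | ⟨k, D, hk, hD, hts, hE⟩ | ⟨r, K, hr, hrodd, hrn, hK, hadj, hE⟩ | ⟨n₁, n₂, e, P, f₁, f₂, h2, hlt, hq, hu₁, hu₂, hst, hE⟩ | h | h | h | h
  · exact Or.inl (h)
  · exact Or.inr (Or.inl (h))
  · have ht2 := hD.decomp.two_le
    have hm0 := hD.decomp.pos
    have htle : t ≤ 6 := Nat.le_of_dvd (by norm_num) ⟨m, hc.symm⟩
    have hcases : (t = 6 ∧ m = 1) ∨ (t = 3 ∧ m = 2) ∨ (t = 2 ∧ m = 3) := by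
      interval_cases t <;> omega
    rcases hcases with ⟨rfl, rfl⟩ | ⟨rfl, rfl⟩ | ⟨rfl, rfl⟩
    · rcases hq23 with rfl | hq3
      · exfalso
        rw [hE] at hH
        exact Cfsg.Agent.H28.su62_frame_false (by rw [hF]; norm_num) hD hH
      · exact Or.inr (Or.inr (Or.inl (⟨hq3, D, hD, hE⟩)))
    · exact Or.inr (Or.inr (Or.inr (Or.inl (⟨h2 rfl, D, hD, hE⟩))))
    · exact Or.inr (Or.inr (Or.inr (Or.inr (Or.inl (⟨D, hD, hE⟩)))))
  · obtain rfl : k = 3 := by omega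
    exact Or.inr (Or.inr (Or.inr (Or.inr (Or.inr (Or.inl (⟨D, hD, hts, hE⟩))))))
  · have hrle : r ≤ 6 := Nat.le_of_dvd (by norm_num) hrn
    have hcases : r = 3 := by
      interval_cases r <;> first | omega | (exfalso; revert hr; norm_num; done) | (exfalso; revert hrodd; decide)
    subst hcases
    rcases hq23 with rfl | hq3
    · rw [hE] at hH ⊢
      obtain ⟨F₀, P, ζ, h1, h3, h4, h5, h6, h7⟩ := Cfsg.Agent.H28.su62_K (by rw [hF]; norm_num) hK hadj hH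
      exact Or.inr (Or.inr (Or.inr (Or.inr (Or.inr (Or.inr (Or.inr (Or.inr (Or.inr (Or.inl (⟨F₀, P, ζ, h1, h3, h4, h5, h6, h7⟩))))))))))
    · exact Or.inr (Or.inr (Or.inr (Or.inr (Or.inr (Or.inr (Or.inl (⟨hq3, K, hK, hadj, hE⟩)))))))
  · have hcard : n₁ * n₂ = 6 := by
      have := Fintype.card_congr e
      simpa using this.symm
    have hn1 : n₁ ≤ 6 := Nat.le_of_dvd (by norm_num) ⟨n₂, hcard.symm⟩
    have hcases : (n₁ = 2 ∧ n₂ = 3) := by
      interval_cases n₁ <;> omega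
    rcases hcases with ⟨rfl, rfl⟩
    · exact Or.inr (Or.inr (Or.inr (Or.inr (Or.inr (Or.inr (Or.inr (Or.inl (⟨hq rfl, e, P, f₁, f₂, hu₁, hu₂, hst, hE⟩))))))))
  · exact Or.inr (Or.inr (Or.inr (Or.inr (Or.inr (Or.inr (Or.inr (Or.inr (Or.inl (h)))))))))
  · exact Or.inr (Or.inr (Or.inr (Or.inr (Or.inr (Or.inr (Or.inr (Or.inr (Or.inr (Or.inl (h))))))))))
  · exact Or.inr (Or.inr (Or.inr (Or.inr (Or.inr (Or.inr (Or.inr (Or.inr (Or.inr (Or.inr (Or.inl (h)))))))))))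
  · exact Or.inr (Or.inr (Or.inr (Or.inr (Or.inr (Or.inr (Or.inr (Or.inr (Or.inr (Or.inr (Or.inr (h)))))))))))

end Cfsg.Agent.S5802
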