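import Cfsg.Statements.S5805
import Cfsg.Agent.Lib.H28.GSSix
-- import your own Cfsg.Agent.* helpers here

set_option autoImplicit false
open Cfsg

namespace Cfsg.Agent.S5805

/-- Every maximal subgroup of Sp_6(q) is of one of the listed geometric types or lies in the residual class. Let F be a finite field with q elements, f the standard alternating form on F^6 (coordinates Fin 3 ⊕ Fin 3), and H a maximal subgroup of Sp_6(F) (inside GL_6(F)). Then H is the intersection with Sp_6(F) of one of: the stabiliser of a non-zero totally isotropic subspace; the stabiliser of a non-degenerate 2-space; for q ≥ 3, the stabiliser of a decomposition into three mutually orthogonal non-degenerate 2-spaces; for q odd, of a decomposition into two totally isotropic 3-spaces; the normaliser of a degree-3 subfield K of the matrix algebra, self-adjoint with f(k v, v) = 0; for q odd, the normaliser of a degree-2 subfield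 closed under adjoints but not self-adjoint; for q odd, q ≥ 5, the stabiliser of a tensor decomposition of f into an alternating form on F^2 and a symmetric form on F^3; a subfield group (|F| = |F₀|^r, r prime) whose F₀-structure carries a non-zero multiple of f; for q even, the similarity group of a non-degenerate quadratic form polarising to f — or else H lies in the residual class of the symplectic case. -/
theorem result {F : Type*} [Field F] [Fintype F] (H : Subgroup (Matrix.GeneralLinearGroup (Fin 3 ⊕ Fin 3) F)) (hH : Cfsg.Geo.IsMaximalIn (Cfsg.spGL 3 F) H) :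
    (∃ W : Submodule F (Fin 3 ⊕ Fin 3 → F), W ≠ ⊥ ∧ Cfsg.Geo.IsTotallySingularFor (Cfsg.sympForm 3 F) W ∧ H = Cfsg.Geo.subspaceStabilizer W ⊓ Cfsg.spGL 3 F) ∨
    (∃ W : Submodule F (Fin 3 ⊕ Fin 3 → F), W ≠ ⊥ ∧ Cfsg.Geo.IsNondegenerateOn (Cfsg.sympForm 3 F) W ∧ Module.finrank F W < 3 ∧ H = Cfsg.Geo.subspaceStabilizer W ⊓ Cfsg.spGL 3 F) ∨
    (3 ≤ Fintype.card F ∧ ∃ D : Fin 3 → Submodule F (Fin 3 ⊕ Fin 3 → F), Cfsg.Geo.IsNondegenerateMDecomposition (Cfsg.sympForm 3 F) 2 D ∧ H = Cfsg.Geo.decompositionStabilizer D ⊓ Cfsg.spGL 3 F) ∨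
    (Odd (Fintype.card F) ∧ ∃ D : Fin 2 → Submodule F (Fin 3 ⊕ Fin 3 → F), Cfsg.Geo.IsMDecomposition 3 D ∧ (∀ i, Cfsg.Geo.IsTotallySingularFor (Cfsg.sympForm 3 F) (D i)) ∧ H = Cfsg.Geo.decompositionStabilizer D ⊓ Cfsg.spGL 3 F) ∨
    (∃ K : Subalgebra F (Matrix (Fin 3 ⊕ Fin 3) (Fin 3 ⊕ Fin 3) F), Cfsg.Geo.IsFieldSubalgebra 3 K ∧ Cfsg.Geo.IsSelfAdjointFor (Cfsg.sympForm 3 F) K ∧ (∀ k ∈ K, ∀ v : (Fin 3 ⊕ Fin 3 → F), (Cfsg.sympForm 3 F) (Matrix.mulVec k v) v = 0) ∧ H = Cfsg.Geo.subalgebraNormalizer K ⊓ Cfsg.spGL 3 F) ∨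
    (Odd (Fintype.card F) ∧ ∃ K : Subalgebra F (Matrix (Fin 3 ⊕ Fin 3) (Fin 3 ⊕ Fin 3) F), Cfsg.Geo.IsFieldSubalgebra 2 K ∧ Cfsg.Geo.IsAdjointClosedFor (Cfsg.sympForm 3 F) K ∧ ¬ Cfsg.Geo.IsSelfAdjointFor (Cfsg.sympForm 3 F) K ∧ H = Cfsg.Geo.subalgebraNormalizer K ⊓ Cfsg.spGL 3 F) ∨
    (Odd (Fintype.card F) ∧ 5 ≤ Fintype.card F ∧ ∃ (e : (Fin 3 ⊕ Fin 3) ≃ Fin 2 × Fin 3) (P : Matrix.GeneralLinearGroup (Fin 3 ⊕ Fin 3) F) (f₁ : (Fin 2 → F) → (Fin 2 → F) → F) (f₂ : (Fin 3 → F) → (Fin 3 → F) → F), Cfsg.Geo.IsSymplecticForm f₁ ∧ Cfsg.Geo.IsSymmetricForm f₂ ∧ Cfsg.Geo.IsTensorFormStructure id (Cfsg.sympForm 3 F) f₁ f₂ e P ∧ H = Cfsg.Geo.tensorProductSubgroup 2 3 e P ⊓ Cfsg.spGL 3 F) ∨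
    (∃ (F₀ : Subfield F) (r : ℕ) (P : Matrix.GeneralLinearGroup (Fin 3 ⊕ Fin 3) F) (ζ : F), r.Prime ∧ Fintype.card F = Nat.card F₀ ^ r ∧ ζ ≠ 0 ∧ Cfsg.Geo.IsFormRationalStructure (Cfsg.sympForm 3 F) F₀ ζ P ∧ H = Cfsg.Geo.subfieldSubgroup F₀ P ⊓ Cfsg.spGL 3 F) ∨
    (¬ Odd (Fintype.card F) ∧ ∃ Q : (Fin 3 ⊕ Fin 3 → F) → F, Cfsg.Geo.IsNondegenerateQuadraticForm Q ∧ (∀ u v : (Fin 3 ⊕ Fin 3 → F), QuadraticMap.polar Q u v = (Cfsg.sympForm 3 F) u v) ∧ H = Cfsg.Geo.quadSimilarityGroup Q ⊓ Cfsg.spGL 3 F) ∨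
    Cfsg.Geo.InSymplecticResidualClass H := by
  have hmain := Cfsg.Agent.H28.main_sp_odd (ι := Fin 3 ⊕ Fin 3) (f := Cfsg.sympForm 3 F)
    Cfsg.Agent.H28.symp_isSymplectic (k := 3) (by decide) (by simp) (by simp)
    (by simpa using Cfsg.Agent.H28.not_pow_of_decide (n := 6) (by norm_num) (by decide))
    (by simpa using Cfsg.Agent.H28.not_prime_power_of (n := 6) (a := 2) (b := 3) (by norm_num) (by norm_num) (by norm_num) (by norm_num) (by norm_num)) hH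
  have hcard10 : Fintype.card (Fin 3 ⊕ Fin 3) = 6 := by simp
  rcases hmain with h | ⟨W, h0, hW, hdim, hE⟩ | ⟨t, m, D, hc, h2, hev, hD, hE⟩ | ⟨hq, k, D, hk, hD, hts, hE⟩ | ⟨r, K, hr, hrn, hK, hsa, hv, hE⟩ | h | ⟨hq, n₁, n₂, e, P, f₁, f₂, hn₁, hn₂, hf₁, hf₂, hst, hE⟩ | h | h | h
  · exact Or.inl h
  · exact Or.inr (Or.inl ⟨W, h0, hW, by rw [hcard10] at hdim; omega, hE⟩)
  · rw [hcard10] at hc
    have ht2 := hD.decomp.two_le
    have hm0 := hD.decomp.pos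
    obtain ⟨c, rfl⟩ := hev
    have hcases : t = 3 ∧ c = 1 := by
      have h5 : t * c = 3 := by nlinarith
      have : t ∣ 3 := ⟨c, h5.symm⟩
      have ht := (Nat.dvd_prime (by norm_num)).1 this
      rcases ht with rfl | rfl <;> omega
    obtain ⟨rfl, rfl⟩ := hcases
    exact Or.inr (Or.inr (Or.inl ⟨h2 rfl, D, hD, hE⟩))
  · obtain rfl : k = 3 := by rw [hcard10] at hk; omega
    exact Or.inr (Or.inr (Or.inr (Or.inl ⟨hq, D, hD, hts, hE⟩)))
  · rw [hcard10] at hrn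
    have hr5 : r = 3 := by
      have h5 : r ∣ 3 := by
        obtain ⟨c, hc⟩ := hrn
        exact ⟨c, by nlinarith⟩
      have ht := (Nat.dvd_prime (by norm_num)).1 h5
      rcases ht with rfl | rfl
      · exact absurd hr (by norm_num)
      · rfl
    subst hr5
    exact Or.inr (Or.inr (Or.inr (Or.inr (Or.inl ⟨K, hK, hsa, hv, hE⟩))))
  · exact Or.inr (Or.inr (Or.inr (Or.inr (Or.inr (Or.inl h)))))
  · have hcard : n₁ * n₂ = 6 := by
      have := Fintype.card_congr e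
      simpa using this.symm
    have hn1 : n₁ ≤ 6 := Nat.le_of_dvd (by norm_num) ⟨n₂, hcard.symm⟩
    have hcases : (n₁ = 2 ∧ n₂ = 3) ∨ (n₁ = 3 ∧ n₂ = 2) := by
      interval_cases n₁ <;> omega
    rcases hcases with ⟨rfl, rfl⟩ | ⟨rfl, rfl⟩
    · by_cases hq5 : 5 ≤ Fintype.card F
      · exact Or.inr (Or.inr (Or.inr (Or.inr (Or.inr (Or.inr (Or.inl ⟨hq, hq5, e, P, f₁, f₂, hf₁, hf₂, hst, hE⟩))))))
      · have hq3 : Fintype.card F = 3 := by
          have h2 : 2 ≤ Fintype.card F := Fintype.one_lt_card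
          obtain ⟨k, hk⟩ := hq
          omega
        have hs := Cfsg.Agent.H28.sp_eform (Cfsg.Agent.H28.symp_isSymplectic (m := 3) (F := F))
        obtain ⟨c₀, hc₀, hsplit⟩ := Cfsg.Agent.H28.tensor_struct_rev
          (Cfsg.Agent.H28.sesq_of_bilinear hf₁.bilinear) (Cfsg.Agent.H28.sesq_of_bilinear hf₂.bilinear) id (fun _ => rfl) hst
        have hHi : H ≤ Cfsg.Agent.H28.Spf (Cfsg.sympForm 3 F) := hH.1.le
        obtain ⟨t, D, hD, hle⟩ := Cfsg.Agent.H28.sp6_frame_decomp hq3 hf₁ hf₂ hc₀ hs hsplit hHi (by rw [hE]; exact inf_le_left)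
        have ht := Cfsg.Agent.H28.decomp_card hD.decomp
        rw [hcard10] at ht
        obtain rfl : t = 3 := by omega
        exact Or.inr (Or.inr (Or.inl ⟨by omega, D, hD, Cfsg.Agent.H28.eq_inf_of_max hH hle
          (Cfsg.Agent.H28.not_sp_le_decomp Cfsg.Agent.H28.symp_isSymplectic hD.decomp (by norm_num))⟩))
    · exact absurd hf₁ (Cfsg.Agent.H28.no_symplectic_odd (by decide))
  · exact Or.inr (Or.inr (Or.inr (Or.inr (Or.inr (Or.inr (Or.inr (Or.inl h)))))))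
  · exact Or.inr (Or.inr (Or.inr (Or.inr (Or.inr (Or.inr (Or.inr (Or.inr (Or.inl h))))))))
  · exact Or.inr (Or.inr (Or.inr (Or.inr (Or.inr (Or.inr (Or.inr (Or.inr (Or.inr h))))))))

end Cfsg.Agent.S5805
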