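import Cfsg.Statements.S5826
import Cfsg.Agent.Lib.H28.GLW2

set_option autoImplicit false
open Cfsg

namespace Cfsg.Agent.S5826

/-- Every maximal subgroup of Ω_8^-(q) is of one of the listed geometric types or lies in the residual class. Let F be a finite field with q elements, Q a non-degenerate quadratic form on F^8 of minus type (no totally singular 4-space), Ω the commutator subgroup of its isometry group, and H a maximal subgroup of Ω (inside GL_8(F)). Then H is the intersection with Ω of one of: the stabiliser of a non-zero totally singular subspace; for q odd, the stabiliser of a non-degenerate subspace of odd dimension; the stabiliser of a non-degenerate 2-space of minus type; for q ≥ 4, the stabiliser of a non-degenerate 2-space of plus type; the stabiliser of a non-degenerate 4-space; for q even, the stabiliser of the span of a non-singular vector; the normaliser of a degree-2 subfield of the matrix algebra; a subfield group of odd prime index whose F₀-structure carries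 a non-zero multiple of Q — or else H lies in the residual class of the orthogonal case (modulo scalars H is almost simple, with absolutely irreducible perfect socle preimage realisable over no proper subfield and fixing no non-degenerate unitary form). -/
theorem result {F : Type*} [Field F] [Fintype F] (Q : (Fin 8 → F) → F) (hQ : Cfsg.Geo.IsNondegenerateQuadraticForm Q) (hminus : ¬ Cfsg.Geo.IsPlusTypeOn Q ⊤) (H : Subgroup (Matrix.GeneralLinearGroup (Fin 8) F)) (hH : Cfsg.Geo.IsMaximalIn (Cfsg.Geo.omegaGL Q) H) :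
    (∃ W : Submodule F (Fin 8 → F), W ≠ ⊥ ∧ Cfsg.Geo.IsTotallySingularQuad Q W ∧ H = Cfsg.Geo.subspaceStabilizer W ⊓ Cfsg.Geo.omegaGL Q) ∨
    (Odd (Fintype.card F) ∧ ∃ W : Submodule F (Fin 8 → F), W ≠ ⊥ ∧ W ≠ ⊤ ∧ Odd (Module.finrank F W) ∧ Cfsg.Geo.IsNondegenerateOn (QuadraticMap.polar Q) W ∧ H = Cfsg.Geo.subspaceStabilizer W ⊓ Cfsg.Geo.omegaGL Q) ∨
    (∃ W : Submodule F (Fin 8 → F), Module.finrank F W = 2 ∧ Cfsg.Geo.IsNondegenerateOn (QuadraticMap.polar Q) W ∧ ¬ Cfsg.Geo.IsPlusTypeOn Q W ∧ H = Cfsg.Geo.subspaceStabilizer W ⊓ Cfsg.Geo.omegaGL Q) ∨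
    (4 ≤ Fintype.card F ∧ ∃ W : Submodule F (Fin 8 → F), Module.finrank F W = 2 ∧ Cfsg.Geo.IsNondegenerateOn (QuadraticMap.polar Q) W ∧ Cfsg.Geo.IsPlusTypeOn Q W ∧ H = Cfsg.Geo.subspaceStabilizer W ⊓ Cfsg.Geo.omegaGL Q) ∨
    (∃ W : Submodule F (Fin 8 → F), Module.finrank F W = 4 ∧ Cfsg.Geo.IsNondegenerateOn (QuadraticMap.polar Q) W ∧ H = Cfsg.Geo.subspaceStabilizer W ⊓ Cfsg.Geo.omegaGL Q) ∨
    (¬ Odd (Fintype.card F) ∧ ∃ v : (Fin 8 → F), Q v ≠ 0 ∧ H = Cfsg.Geo.subspaceStabilizer (Submodule.span F {v}) ⊓ Cfsg.Geo.omegaGL Q) ∨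
    (∃ K : Subalgebra F (Matrix (Fin 8) (Fin 8) F), Cfsg.Geo.IsFieldSubalgebra 2 K ∧ H = Cfsg.Geo.subalgebraNormalizer K ⊓ Cfsg.Geo.omegaGL Q) ∨
    (∃ (F₀ : Subfield F) (r : ℕ) (P : Matrix.GeneralLinearGroup (Fin 8) F) (ζ : F), r.Prime ∧ Odd r ∧ Fintype.card F = Nat.card F₀ ^ r ∧ ζ ≠ 0 ∧ Cfsg.Geo.IsQuadFormRationalStructure (fun v : Fin 8 → F => ζ * Q v) F₀ P ∧ H = Cfsg.Geo.subfieldSubgroup F₀ P ⊓ Cfsg.Geo.omegaGL Q) ∨
    Cfsg.Geo.InOrthogonalResidualClass H := by
  classical
  have hn : 7 ≤ Fintype.card (Fin 8) := by simp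
  have hHΩ : H ≤ Cfsg.Geo.omegaGL Q := hH.1.le
  have hHU : H ≤ Cfsg.isometryGroup F Q := fun g hg => Cfsg.Agent.H28.omega_le_isom (hHΩ hg)
  have htopfr : Module.finrank F (⊤ : Submodule F (Fin 8 → F)) = 8 := by
    rw [finrank_top]
    simp
  have hts4 : ∀ W : Submodule F (Fin 8 → F), Cfsg.Geo.IsTotallySingularQuad Q W → Module.finrank F W = 4 → False := by
    intro W hW hd
    exact hminus ⟨W, le_top, hW, by rw [hd, htopfr]⟩
  by_contra hgoal
  -- non-degenerate subspaces of small dimension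
  have key : ∀ W : Submodule F (Fin 8 → F), W ≠ ⊥ → W ≠ ⊤ → Cfsg.Geo.IsNondegenerateOn (QuadraticMap.polar Q) W →
      H ≤ Cfsg.Geo.subspaceStabilizer W → Module.finrank F W ≤ 4 → False := by
    intro W hW0 hW1 hWn hle hd
    have heq := Cfsg.Agent.H28.eq_inf_of_max hH hle (Cfsg.Agent.H28.omega_not_le_stab hQ hn hW0 hW1)
    have hd0 : Module.finrank F W ≠ 0 := by
      intro h
      exact hW0 (Submodule.finrank_eq_zero.1 h)
    rcases Nat.even_or_odd (Module.finrank F W) with he | ho
    · obtain ⟨d, hdd⟩ := he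
      have hcases : Module.finrank F W = 2 ∨ Module.finrank F W = 4 := by omega
      rcases hcases with h2 | h4
      · by_cases hp : Cfsg.Geo.IsPlusTypeOn Q W
        · by_cases hq : 4 ≤ Fintype.card F
          · exact hgoal (by iterate 3 right
                            left
                            exact ⟨hq, W, h2, hWn, hp, heq⟩)
          · exact Cfsg.Agent.H28.plane_contra hQ (by omega) hn hH h2 hWn hp heq
        · exact hgoal (by iterate 2 right
                          left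
                          exact ⟨W, h2, hWn, hp, heq⟩)
      · exact hgoal (by iterate 4 right
                        left
                        exact ⟨W, h4, hWn, heq⟩)
    · have h2ne : (2 : F) ≠ 0 := by
        intro h2
        have := Cfsg.Agent.H28.even_nondeg_char2 hQ h2 hWn
        exact (Nat.not_even_iff_odd.2 ho) this
      exact hgoal (by iterate 1 right
                      left
                      exact ⟨Cfsg.Agent.H28.odd_of_two_ne_zero h2ne, W, hW0, hW1, ho, hWn, heq⟩)
  -- the field clause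
  have hfield : ∀ (r : ℕ) (K : Subalgebra F (Matrix (Fin 8) (Fin 8) F)), r.Prime → Cfsg.Geo.IsFieldSubalgebra r K →
      H ≤ Cfsg.Geo.subalgebraNormalizer K → False := by
    intro r K hr hK hle
    have heq := Cfsg.Agent.H28.eq_inf_of_max hH hle (Cfsg.Agent.H28.omega_not_le_field hQ hn hK hr.ne_one)
    have hdvd := Cfsg.Agent.H28.IsFieldSubalgebra.finrank_dvd hK
    rw [Fintype.card_fin] at hdvd
    have hr12 : r = 2 := by
      have hle12 : r ≤ 8 := Nat.le_of_dvd (by norm_num) hdvd
      interval_cases r <;> first | omega | (exfalso; revert hr; norm_num) | (exfalso; revert hdvd; norm_num)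
    subst hr12
    exact hgoal (by iterate 6 right
                    left
                    exact ⟨K, hK, heq⟩)
  -- the tensor clause with a binary factor
  have hten2 : ∀ (e : Fin 8 ≃ Fin 4 × Fin 2) (P : Matrix.GeneralLinearGroup (Fin 8) F)
      (f₁ : (Fin 4 → F) → (Fin 4 → F) → F) (f₂ : (Fin 2 → F) → (Fin 2 → F) → F),
      (∀ x u y v, QuadraticMap.polar Q (Cfsg.Agent.H28.pureV e P x u) (Cfsg.Agent.H28.pureV e P y v) = f₁ x y * f₂ u v) →
      (((2 : F) ≠ 0 ∧ Cfsg.Geo.IsSymmetricForm f₁ ∧ Cfsg.Geo.IsSymmetricForm f₂) ∨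
        (Cfsg.Geo.IsSymplecticForm f₁ ∧ Cfsg.Geo.IsSymplecticForm f₂ ∧ ∀ x u, Q (Cfsg.Agent.H28.pureV e P x u) = 0)) →
      H ≤ Cfsg.Geo.tensorProductSubgroup 4 2 e P → False := by
    intro e P f₁ f₂ hsplit hforms hle
    rcases hforms with ⟨h2, hf₁, hf₂⟩ | ⟨-, -, hpure⟩
    · rcases Cfsg.Agent.H28.tensor_sym_two hQ h2 (w := 4) (by simp) hHU hf₁.nondegenerate hf₂ hsplit hle with
        ⟨D, hD, hts, -⟩ | ⟨K, hK, -, -, hle'⟩
      · exact hts4 (D 0) (hts 0) (hD.finrank_eq 0)
      · exact hfield 2 K Nat.prime_two hK hle'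
    · exact hminus (Cfsg.Agent.H28.plus_of_pure hQ hpure)
  rcases Cfsg.Agent.H28.e8_le_main hQ (by simp) hHU with hmain | hplus
  swap
  · exact hminus hplus
  rcases hmain with
    ⟨W, hW0, hts, hle⟩ | ⟨W, hW0, hW1, hWn, hle⟩ | ⟨h2, v, hv, hle⟩ | ⟨t, k, D, hD, hle⟩ | ⟨k, D, hD, hts, hle⟩ |
    ⟨r, K, hr, hK, -, hle⟩ | ⟨w, a, e, P, f₁, f₂, hw, ha, hirr, hsplit, hforms, hle⟩ |
    ⟨F₁, r, P, ζ, hr, hcard, hζ, hrat, hle⟩ | hres
  · obtain ⟨g, hg, hgS⟩ := Cfsg.Agent.H27.GO.exists_not_stab hQ hn hW0 hts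
    exact hgoal (Or.inl ⟨W, hW0, hts, Cfsg.Agent.H28.eq_inf_of_max hH hle fun h => hgS (h hg)⟩)
  · by_cases hd : Module.finrank F W ≤ 4
    · exact key W hW0 hW1 hWn hle hd
    · have hfr := Cfsg.Agent.H28.finrank_qorth hQ W
      rw [Fintype.card_fin] at hfr
      have hinv := Cfsg.Agent.H28.inv_qorth hQ hHU (W := W) fun g hg v hv => (hle hg v).1 hv
      refine key _ ?_ ?_ (Cfsg.Agent.H28.nondeg_qorth hQ hWn) (Cfsg.Agent.H28.le_stab_of_inv hinv) (by omega)
      · intro h
        rw [h, finrank_bot] at hfr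
        exact hW1 (Submodule.eq_top_of_finrank_eq (by simp only [Module.finrank_fintype_fun_eq_card, Fintype.card_fin]; omega))
      · intro h
        rw [h, htopfr] at hfr
        have h0 : Module.finrank F W = 0 := by omega
        exact hW0 (Submodule.finrank_eq_zero.1 h0)
  · have hv0 : v ≠ 0 := by
      rintro rfl
      exact hv (Cfsg.Agent.H28.Q_zero hQ)
    have hfr := finrank_span_singleton (K := F) hv0
    have h1 : Submodule.span F {v} ≠ ⊥ := by
      intro h
      rw [h, finrank_bot] at hfr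
      omega
    have h3 : Submodule.span F {v} ≠ ⊤ := by
      intro h
      rw [h, htopfr] at hfr
      omega
    exact hgoal (by iterate 5 right
                    left
                    exact ⟨fun ho => Cfsg.Agent.H28.two_ne_zero_of_odd ho h2, v, hv,
                      Cfsg.Agent.H28.eq_inf_of_max hH hle (Cfsg.Agent.H28.omega_not_le_stab hQ hn h1 h3)⟩)
  · have hcard := Cfsg.Agent.H28.decomp_card hD.decomp.decomp
    rw [Fintype.card_fin] at hcard
    have ht2 := hD.decomp.decomp.two_le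
    have hk0 := hD.decomp.decomp.pos
    have hcases : ∀ t k : ℕ, 2 ≤ t → 0 < k → t * k = 8 →
        (t = 2 ∧ k = 4) ∨ (t = 4 ∧ k = 2) ∨ (t = 8 ∧ k = 1) := by
      intro t k h1 h3 h4
      have h5 : t ≤ 8 := by nlinarith
      interval_cases t <;> omega
    have hoddk : Odd k → (2 : F) ≠ 0 := by
      intro hk h2
      have ht0 : 0 < t := by omega
      have h1 := Cfsg.Agent.H28.even_nondeg_char2 hQ h2 (hD.decomp.nondegenerate ⟨0, ht0⟩)
      rw [hD.decomp.decomp.finrank_eq] at h1
      exact (Nat.not_even_iff_odd.2 hk) h1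
    rcases hcases t k ht2 hk0 hcard with ⟨rfl, rfl⟩ | ⟨rfl, rfl⟩ | ⟨rfl, rfl⟩
    · exact hminus (Cfsg.Agent.H28.plus_even_blocks hQ hD (by decide) (by decide))
    · exact hminus (Cfsg.Agent.H28.plus_even_blocks hQ hD (by decide) (by decide))
    · exact hminus (Cfsg.Agent.H28.plus_four_blocks hQ (hoddk (by decide)) hD (by decide))
  · have hcard := Cfsg.Agent.H28.decomp_card hD
    rw [Fintype.card_fin] at hcard
    exact hts4 (D 0) (hts 0) (by rw [hD.finrank_eq]; omega)
  · exact hfield r K hr hK hle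
  · have hcard : w * a = 8 := by
      have h1 := Fintype.card_congr e
      simpa using h1.symm
    have hcases : ∀ w a : ℕ, 2 ≤ w → 2 ≤ a → w * a = 8 → (w = 2 ∧ a = 4) ∨ (w = 4 ∧ a = 2) := by
      intro t k h1 h3 h4
      have h5 : t ≤ 8 := by nlinarith
      interval_cases t <;> omega
    rcases hcases w a hw ha hcard with ⟨rfl, rfl⟩ | ⟨rfl, rfl⟩
    · refine hten2 (e.trans (Equiv.prodComm _ _)) P f₂ f₁ ?_ ?_ (hle.trans (Cfsg.Agent.H28.tensor_le_swap e P))
      · intro x u y v
        rw [Cfsg.Agent.H28.pureV_swap, Cfsg.Agent.H28.pureV_swap, hsplit, mul_comm]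
      · rcases hforms with ⟨h2, h3, h4⟩ | ⟨h3, h4, h5⟩
        · exact Or.inl ⟨h2, h4, h3⟩
        · exact Or.inr ⟨h4, h3, fun x u => by rw [Cfsg.Agent.H28.pureV_swap]; exact h5 u x⟩
    · exact hten2 e P f₁ f₂ hsplit hforms hle
  · by_cases hr2 : r = 2
    · subst hr2
      exact hminus (Cfsg.Agent.H28.plus_of_rational_two hQ hζ hcard hrat (m := 4) (by simp))
    · exact hgoal (by iterate 7 right
                      left
                      exact ⟨F₁, r, P, ζ, hr, hr.odd_of_ne_two hr2, hcard, hζ, hrat,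
                        Cfsg.Agent.H28.eq_inf_of_max hH hle
                          (Cfsg.Agent.H28.omega_not_le_subfield hQ hn (Cfsg.Agent.H28.ne_top_of_card_pow hr hcard) P)⟩)
  · exact hgoal (by iterate 8 right
                    exact hres)
end Cfsg.Agent.S5826
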