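import Cfsg.Statements.S5832
import Cfsg.Agent.Lib.H28.GU9
-- import your own Cfsg.Agent.* helpers here

set_option autoImplicit false
open Cfsg

namespace Cfsg.Agent.S5832

/-- Every maximal subgroup of SU_9(q) is of one of the listed geometric types or lies in the residual class. Let F be the field with q² elements, f the standard unitary form Σ u_i v_i^q on F^9, and H a maximal subgroup of SU_9(q) (inside GL_9(F)). Then H is the intersection with SU_9(q) of one of: the stabiliser of a non-zero totally isotropic subspace; the stabiliser of a non-degenerate 1-, 2-, 3- or 4-space; the stabiliser of a decomposition into nine mutually orthogonal non-degenerate 1-spaces; of a decomposition into three mutually orthogonal non-degenerate 3-spaces; the normaliser of an adjoint-closed degree-3 subfield of the matrix algebra; a subfield group of odd prime index whose F₀-structure carries f; for q odd, a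 subfield group of index 2 whose F₀-structure carries f; for q = p ≡ 2 mod 3 prime, the normaliser of an absolutely irreducible extraspecial group 3_+^(1+4) of exponent 3 inside the similarity group of f; for q ≥ 3, the stabiliser of a tensor decomposition of f as a tensor square of a unitary form on F^3 — or else H lies in the residual class of the unitary case. -/
theorem result {F : Type*} [Field F] [Fintype F] (q : ℕ) (hF : Fintype.card F = q ^ 2) (H : Subgroup (Matrix.GeneralLinearGroup (Fin 9) F)) (hH : Cfsg.Geo.IsMaximalIn (Cfsg.GU 9 F q ⊓ Cfsg.Geo.specialLinear (Fin 9) F) H) :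
    (∃ W : Submodule F (Fin 9 → F), W ≠ ⊥ ∧ Cfsg.Geo.IsTotallySingularFor (Cfsg.hermForm 9 F q) W ∧ H = Cfsg.Geo.subspaceStabilizer W ⊓ (Cfsg.GU 9 F q ⊓ Cfsg.Geo.specialLinear (Fin 9) F)) ∨
    (∃ W : Submodule F (Fin 9 → F), W ≠ ⊥ ∧ Cfsg.Geo.IsNondegenerateOn (Cfsg.hermForm 9 F q) W ∧ 2 * Module.finrank F W < 9 ∧ H = Cfsg.Geo.subspaceStabilizer W ⊓ (Cfsg.GU 9 F q ⊓ Cfsg.Geo.specialLinear (Fin 9) F)) ∨
    (∃ D : Fin 9 → Submodule F (Fin 9 → F), Cfsg.Geo.IsNondegenerateMDecomposition (Cfsg.hermForm 9 F q) 1 D ∧ H = Cfsg.Geo.decompositionStabilizer D ⊓ (Cfsg.GU 9 F q ⊓ Cfsg.Geo.specialLinear (Fin 9) F)) ∨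
    (∃ D : Fin 3 → Submodule F (Fin 9 → F), Cfsg.Geo.IsNondegenerateMDecomposition (Cfsg.hermForm 9 F q) 3 D ∧ H = Cfsg.Geo.decompositionStabilizer D ⊓ (Cfsg.GU 9 F q ⊓ Cfsg.Geo.specialLinear (Fin 9) F)) ∨
    (∃ K : Subalgebra F (Matrix (Fin 9) (Fin 9) F), Cfsg.Geo.IsFieldSubalgebra 3 K ∧ Cfsg.Geo.IsAdjointClosedFor (Cfsg.hermForm 9 F q) K ∧ H = Cfsg.Geo.subalgebraNormalizer K ⊓ (Cfsg.GU 9 F q ⊓ Cfsg.Geo.specialLinear (Fin 9) F)) ∨
    (∃ (F₀ : Subfield F) (r : ℕ) (P : Matrix.GeneralLinearGroup (Fin 9) F), r.Prime ∧ Odd r ∧ Fintype.card F = Nat.card F₀ ^ r ∧ Cfsg.Geo.IsFormRationalStructure (Cfsg.hermForm 9 F q) F₀ 1 P ∧ H = Cfsg.Geo.subfieldSubgroup F₀ P ⊓ (Cfsg.GU 9 F q ⊓ Cfsg.Geo.specialLinear (Fin 9) F)) ∨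
    (Odd q ∧ ∃ (F₀ : Subfield F) (P : Matrix.GeneralLinearGroup (Fin 9) F), Fintype.card F = Nat.card F₀ ^ 2 ∧ Cfsg.Geo.IsFormRationalStructure (Cfsg.hermForm 9 F q) F₀ 1 P ∧ H = Cfsg.Geo.subfieldSubgroup F₀ P ⊓ (Cfsg.GU 9 F q ⊓ Cfsg.Geo.specialLinear (Fin 9) F)) ∨
    (∃ (p : ℕ) (R : Subgroup (Matrix.GeneralLinearGroup (Fin 9) F)), p.Prime ∧ q = p ∧ p % 3 = 2 ∧ Cfsg.Geo.IsSymplecticTypeGroup 3 R ∧ Cfsg.Geo.ActsAbsolutelyIrreducibly (Cfsg.Geo.matrixSet R) ∧ R ≤ Cfsg.Geo.similarityGroup (Cfsg.hermForm 9 F q) ∧ Nat.card R = 243 ∧ Nat.card (Subgroup.center R) = 3 ∧ H = Cfsg.Geo.subgroupNormalizer R ⊓ (Cfsg.GU 9 F q ⊓ Cfsg.Geo.specialLinear (Fin 9) F)) ∨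
    (3 ≤ q ∧ ∃ (e : Fin 9 ≃ (Fin 2 → Fin 3)) (P : Matrix.GeneralLinearGroup (Fin 9) F) (f₁ : (Fin 3 → F) → (Fin 3 → F) → F), Cfsg.Geo.IsUnitaryFormPow q f₁ ∧ Cfsg.Geo.IsTensorPowerFormStructure (fun x : F => x ^ q) (Cfsg.hermForm 9 F q) f₁ e P ∧ H = Cfsg.Geo.tensorWreathSubgroup 3 2 e P ⊓ (Cfsg.GU 9 F q ⊓ Cfsg.Geo.specialLinear (Fin 9) F)) ∨
    Cfsg.Geo.InUnitaryResidualClass H := by
  obtain ⟨σ, hS⟩ := Cfsg.Agent.H28.exists_hs hF
  have hmain := Cfsg.Agent.H28.su9_conc hS hH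
  rcases hmain with (h | h | ⟨t, m, D, hc, h2, hD, hE⟩ | ⟨k, D, hk, hD, hts, hE⟩ | ⟨r, K, hr, hrodd, hrn, hK, hadj, hE⟩ | ⟨n₁, n₂, e, P, f₁, f₂, h2, hlt, hq, hu₁, hu₂, hst, hE⟩ | h | ⟨F₀, P, ζ, _, _, _, _, hiso, _⟩ | h | h) | h | h
  · exact Or.inl (h)
  · exact Or.inr (Or.inl (h))
  · have ht2 := hD.decomp.two_le
    have hm0 := hD.decomp.pos
    have htle : t ≤ 9 := Nat.le_of_dvd (by norm_num) ⟨m, hc.symm⟩
    have hcases : (t = 9 ∧ m = 1) ∨ (t = 3 ∧ m = 3) := by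
      interval_cases t <;> omega
    rcases hcases with ⟨rfl, rfl⟩ | ⟨rfl, rfl⟩
    · exact Or.inr (Or.inr (Or.inl (⟨D, hD, hE⟩)))
    · exact Or.inr (Or.inr (Or.inr (Or.inl (⟨D, hD, hE⟩))))
  · omega
  · have hrle : r ≤ 9 := Nat.le_of_dvd (by norm_num) hrn
    have hcases : r = 3 := by
      interval_cases r <;> first | omega | (exfalso; revert hr; norm_num; done) | (exfalso; revert hrodd; decide)
    rcases hcases with rfl
    · exact Or.inr (Or.inr (Or.inr (Or.inr (Or.inl (⟨K, hK, hadj, hE⟩)))))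
  · have hcard : n₁ * n₂ = 9 := by
      have := Fintype.card_congr e
      simpa using this.symm
    have hn1 : n₁ ≤ 9 := Nat.le_of_dvd (by norm_num) ⟨n₂, hcard.symm⟩
    exfalso
    interval_cases n₁ <;> omega
  · exact Or.inr (Or.inr (Or.inr (Or.inr (Or.inr (Or.inl (h))))))
  · exact (Cfsg.Agent.H28.zeta_clause_false hS (by decide) hiso).elim
  · exact Or.inr (Or.inr (Or.inr (Or.inr (Or.inr (Or.inr (Or.inl (h)))))))
  · exact Or.inr (Or.inr (Or.inr (Or.inr (Or.inr (Or.inr (Or.inr (Or.inr (Or.inr (h)))))))))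
  · exact Or.inr (Or.inr (Or.inr (Or.inr (Or.inr (Or.inr (Or.inr (Or.inr (Or.inl (h)))))))))
  · exact Or.inr (Or.inr (Or.inr (Or.inr (Or.inr (Or.inr (Or.inr (Or.inl (h))))))))

end Cfsg.Agent.S5832
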