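import Cfsg.Statements.S5835
import Cfsg.Agent.Lib.H28.GO9d

set_option autoImplicit false
open Cfsg

namespace Cfsg.Agent.S5835

/-- Every maximal subgroup of Ω_9(q), q odd, is of one of the listed geometric types or lies in the residual class. Let F be a finite field of odd order q, Q the standard quadratic form x₀² + Σ x_i y_i on F^9 (coordinates Unit ⊕ (Fin 4 ⊕ Fin 4)), Ω the commutator subgroup of its isometry group, and H a maximal subgroup of Ω (inside GL_9(F)). Then H is the intersection with Ω of one of: the stabiliser of a non-zero totally singular subspace; the stabiliser of a non-zero non-degenerate subspace of even dimension (not a plus-type plane when q = 3); for q prime, the stabiliser of a decomposition into nine pairwise orthogonal, pairwise isometric non-degenerate 1-spaces; for q ≥ 5, the stabiliser of a decomposition into three pairwise orthogonal, pairwise isometric non-degenerate 3-spaces;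 the normaliser of a degree-3 subfield of the matrix algebra, self-adjoint for the polar form; a subfield group (|F| = |F₀|^r, r prime) whose F₀-structure carries Q; for q ≥ 5, the stabiliser of a tensor decomposition of the polar form as a tensor square of a symmetric form on F^3 — or else H lies in the residual class of the orthogonal case (modulo scalars H is almost simple, with absolutely irreducible perfect socle preimage realisable over no proper subfield and fixing no non-degenerate unitary form). -/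
theorem result {F : Type*} [Field F] [Fintype F] (hodd : Odd (Fintype.card F)) (H : Subgroup (Matrix.GeneralLinearGroup (Unit ⊕ (Fin 4 ⊕ Fin 4)) F)) (hH : Cfsg.Geo.IsMaximalIn (Cfsg.Geo.omegaGL (Cfsg.quadFormOdd 4 F)) H) :
    (∃ W : Submodule F (Unit ⊕ (Fin 4 ⊕ Fin 4) → F), W ≠ ⊥ ∧ Cfsg.Geo.IsTotallySingularQuad (Cfsg.quadFormOdd 4 F) W ∧ H = Cfsg.Geo.subspaceStabilizer W ⊓ Cfsg.Geo.omegaGL (Cfsg.quadFormOdd 4 F)) ∨
    (∃ W : Submodule F (Unit ⊕ (Fin 4 ⊕ Fin 4) → F), W ≠ ⊥ ∧ Even (Module.finrank F W) ∧ Cfsg.Geo.IsNondegenerateOn (QuadraticMap.polar (Cfsg.quadFormOdd 4 F)) W ∧ ¬ (Fintype.card F = 3 ∧ Module.finrank F W = 2 ∧ Cfsg.Geo.IsPlusTypeOn (Cfsg.quadFormOdd 4 F) W) ∧ H = Cfsg.Geo.subspaceStabilizer W ⊓ Cfsg.Geo.omegaGL (Cfsg.quadFormOdd 4 F)) ∨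
    ((Fintype.card F).Prime ∧ ∃ D : Fin 9 → Submodule F (Unit ⊕ (Fin 4 ⊕ Fin 4) → F), Cfsg.Geo.IsOrthogonalMDecomposition (Cfsg.quadFormOdd 4 F) 1 D ∧ H = Cfsg.Geo.decompositionStabilizer D ⊓ Cfsg.Geo.omegaGL (Cfsg.quadFormOdd 4 F)) ∨
    (5 ≤ Fintype.card F ∧ ∃ D : Fin 3 → Submodule F (Unit ⊕ (Fin 4 ⊕ Fin 4) → F), Cfsg.Geo.IsOrthogonalMDecomposition (Cfsg.quadFormOdd 4 F) 3 D ∧ H = Cfsg.Geo.decompositionStabilizer D ⊓ Cfsg.Geo.omegaGL (Cfsg.quadFormOdd 4 F)) ∨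
    (∃ K : Subalgebra F (Matrix (Unit ⊕ (Fin 4 ⊕ Fin 4)) (Unit ⊕ (Fin 4 ⊕ Fin 4)) F), Cfsg.Geo.IsFieldSubalgebra 3 K ∧ Cfsg.Geo.IsSelfAdjointFor (QuadraticMap.polar (Cfsg.quadFormOdd 4 F)) K ∧ H = Cfsg.Geo.subalgebraNormalizer K ⊓ Cfsg.Geo.omegaGL (Cfsg.quadFormOdd 4 F)) ∨
    (∃ (F₀ : Subfield F) (r : ℕ) (P : Matrix.GeneralLinearGroup (Unit ⊕ (Fin 4 ⊕ Fin 4)) F), r.Prime ∧ Fintype.card F = Nat.card F₀ ^ r ∧ Cfsg.Geo.IsQuadFormRationalStructure (Cfsg.quadFormOdd 4 F) F₀ P ∧ H = Cfsg.Geo.subfieldSubgroup F₀ P ⊓ Cfsg.Geo.omegaGL (Cfsg.quadFormOdd 4 F)) ∨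
    (5 ≤ Fintype.card F ∧ ∃ (e : (Unit ⊕ (Fin 4 ⊕ Fin 4)) ≃ (Fin 2 → Fin 3)) (P : Matrix.GeneralLinearGroup (Unit ⊕ (Fin 4 ⊕ Fin 4)) F) (f₁ : (Fin 3 → F) → (Fin 3 → F) → F), Cfsg.Geo.IsSymmetricForm f₁ ∧ Cfsg.Geo.IsTensorPowerFormStructure id (QuadraticMap.polar (Cfsg.quadFormOdd 4 F)) f₁ e P ∧ H = Cfsg.Geo.tensorWreathSubgroup 3 2 e P ⊓ Cfsg.Geo.omegaGL (Cfsg.quadFormOdd 4 F)) ∨
    Cfsg.Geo.InOrthogonalResidualClass H := by
  have h2 : (2 : F) ≠ 0 := Cfsg.Agent.H28.two_ne_zero_of_odd hodd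
  have h := Cfsg.Agent.H28.omega9_conc (Cfsg.Agent.H28.quadFormOdd_nondeg 4 h2) h2 (Cfsg.Agent.H28.quadFormOdd_rat 4)
    (ι := Unit ⊕ (Fin 4 ⊕ Fin 4)) (F := F) (by simp) hH
  have hc : Fintype.card (Unit ⊕ (Fin 4 ⊕ Fin 4)) = 9 := by simp
  rcases h with h | h | h | h
  · rw [hc] at h
    rcases h with h | h | h | h | h
    · exact Or.inl h
    · exact Or.inr (Or.inl h)
    · exact Or.inr (Or.inr (Or.inl h))
    · exact Or.inr (Or.inr (Or.inr (Or.inr (Or.inr (Or.inl h)))))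
    · exact Or.inr (Or.inr (Or.inr (Or.inr (Or.inr (Or.inr (Or.inr h))))))
  · exact Or.inr (Or.inr (Or.inr (Or.inl h)))
  · exact Or.inr (Or.inr (Or.inr (Or.inr (Or.inl h))))
  · exact Or.inr (Or.inr (Or.inr (Or.inr (Or.inr (Or.inr (Or.inl h))))))

end Cfsg.Agent.S5835
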