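import Cfsg.Statements.S5853
import Cfsg.Agent.Lib.H28.MainSL

set_option autoImplicit false
open Cfsg

namespace Cfsg.Agent.S5853

/-- Every maximal subgroup of SL_11(q) is of one of the listed geometric types or lies in the residual class. Let F be a finite field with q elements (p its characteristic) and H a maximal subgroup of SL_11(F) (inside GL_11(F)). Then H is the intersection with SL_11(F) of one of: the stabiliser of a proper non-zero subspace; for q ≥ 5, the stabiliser of a decomposition into 11 independent 1-spaces; the normaliser of a degree-11 subfield of the matrix algebra; a subfield group for a subfield F₀ with |F| = |F₀|^r, r prime; for q = p prime with p ≡ 1 mod 11, or q = p⁵ with p ≡ 3, 4, 5 or 9 mod 11, the normaliser of an absolutely irreducible 11-subgroup R of exponent 11 and order 11^(1+2m) with centre of order 11, all of whose characteristic abelian subgroups are cyclic, F being the smallest field of characteristic p containing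 the eleventh roots of unity (here R is extraspecial of order 11³); for q odd, the similarity group of a non-degenerate quadratic form; the similarity group of a non-degenerate unitary form — or else H lies in the residual class of the linear case (modulo scalars H is almost simple, with absolutely irreducible perfect socle preimage realisable over no proper subfield and fixing no non-degenerate quadratic, symplectic or unitary form). -/
theorem result {F : Type*} [Field F] [Fintype F] (H : Subgroup (Matrix.GeneralLinearGroup (Fin 11) F)) (hH : Cfsg.Geo.IsMaximalIn (Cfsg.Geo.specialLinear (Fin 11) F) H) :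
    (∃ W : Submodule F (Fin 11 → F), W ≠ ⊥ ∧ W ≠ ⊤ ∧ H = Cfsg.Geo.subspaceStabilizer W ⊓ Cfsg.Geo.specialLinear (Fin 11) F) ∨
    (5 ≤ Fintype.card F ∧ ∃ D : Fin 11 → Submodule F (Fin 11 → F), Cfsg.Geo.IsMDecomposition 1 D ∧ H = Cfsg.Geo.decompositionStabilizer D ⊓ Cfsg.Geo.specialLinear (Fin 11) F) ∨
    (∃ K : Subalgebra F (Matrix (Fin 11) (Fin 11) F), Cfsg.Geo.IsFieldSubalgebra 11 K ∧ H = Cfsg.Geo.subalgebraNormalizer K ⊓ Cfsg.Geo.specialLinear (Fin 11) F) ∨
    (∃ (F₀ : Subfield F) (r : ℕ) (P : Matrix.GeneralLinearGroup (Fin 11) F), r.Prime ∧ Fintype.card F = Nat.card F₀ ^ r ∧ H = Cfsg.Geo.subfieldSubgroup F₀ P ⊓ Cfsg.Geo.specialLinear (Fin 11) F) ∨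
    ((∃ p : ℕ, p.Prime ∧ CharP F p ∧ ((Fintype.card F = p ∧ p % 11 = 1) ∨ (Fintype.card F = p ^ 5 ∧ (p % 11 = 3 ∨ p % 11 = 4 ∨ p % 11 = 5 ∨ p % 11 = 9)))) ∧ ∃ R : Subgroup (Matrix.GeneralLinearGroup (Fin 11) F), Cfsg.Geo.IsLinearSymplecticTypeData 11 R ∧ H = Cfsg.Geo.subgroupNormalizer R ⊓ Cfsg.Geo.specialLinear (Fin 11) F) ∨
    (Odd (Fintype.card F) ∧ ∃ Q : (Fin 11 → F) → F, Cfsg.Geo.IsNondegenerateQuadraticForm Q ∧ H = Cfsg.Geo.quadSimilarityGroup Q ⊓ Cfsg.Geo.specialLinear (Fin 11) F) ∨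
    (∃ (σ : F ≃+* F) (f : (Fin 11 → F) → (Fin 11 → F) → F), Cfsg.Geo.IsUnitaryForm σ f ∧ H = Cfsg.Geo.similarityGroup f ⊓ Cfsg.Geo.specialLinear (Fin 11) F) ∨
    Cfsg.Geo.InLinearResidualClass H := by
  have harith : ∀ r' : Fin 11, ∀ e' : Fin 11, 1 ≤ r'.1 → 0 < e'.1 → e'.1 % 2 = 1 → r'.1 ^ e'.1 % 11 = 1 →
      (∀ d : Fin 11, d.1 < e'.1 → 0 < d.1 → r'.1 ^ d.1 % 11 ≠ 1) →
      (e'.1 = 1 ∧ r'.1 = 1) ∨ (e'.1 = 5 ∧ (r'.1 = 3 ∨ r'.1 = 4 ∨ r'.1 = 5 ∨ r'.1 = 9)) := by
    set_option synthInstance.maxSize 4000 in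
    set_option synthInstance.maxHeartbeats 0 in
    decide +kernel
  have hfermat : ∀ r < 11, 1 ≤ r → r ^ 10 % 11 = 1 := by decide +kernel
  have hℓ : (11 : ℕ).Prime := by norm_num
  have h := Cfsg.Agent.H28.main_sl (ι := Fin 11) (F := F) (t := 11) (by simp) hℓ (by decide) hH
  rcases h with h | h | h | h | ⟨⟨p, e, hodd, hne, hmin⟩, hR⟩ | h | h | h
  · exact Or.inl h
  · exact Or.inr (Or.inl h)
  · exact Or.inr (Or.inr (Or.inl h))
  · exact Or.inr (Or.inr (Or.inr (Or.inl h)))
  · refine Or.inr (Or.inr (Or.inr (Or.inr (Or.inl ⟨?_, hR⟩))))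
    obtain ⟨hp, hchar, hcard, hrl, hr1, he0, hre, hrd⟩ := Cfsg.Agent.H28.min_field_residue hℓ hne hmin
    have hodd' := Cfsg.Agent.H28.odd_e_mod hodd
    have hele : e < 11 := by
      by_contra hcon
      exact hrd 10 (by omega) (by norm_num) (hfermat _ hrl hr1)
    have := harith ⟨_, hrl⟩ ⟨e, hele⟩ hr1 he0 hodd' hre (fun d hd => hrd d.1 hd)
    dsimp only at this
    rcases this with ⟨rfl, h1⟩ | ⟨rfl, h1⟩
    · exact ⟨p, hp, hchar, Or.inl ⟨by rw [hcard, pow_one], h1⟩⟩
    · exact ⟨p, hp, hchar, Or.inr ⟨hcard, h1⟩⟩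
  · exact Or.inr (Or.inr (Or.inr (Or.inr (Or.inr (Or.inl h)))))
  · exact Or.inr (Or.inr (Or.inr (Or.inr (Or.inr (Or.inr (Or.inl h))))))
  · exact Or.inr (Or.inr (Or.inr (Or.inr (Or.inr (Or.inr (Or.inr h))))))

end Cfsg.Agent.S5853
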