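import Cfsg.Statements.S5938
import Cfsg.Agent.Lib.H09.Dick11
import Cfsg.Agent.S0803

set_option autoImplicit false
open Cfsg

namespace Cfsg.Agent.S5938

open Cfsg.Agent.H09.Dick Cfsg.Agent.H11.SL2X MulAction

set_option maxHeartbeats 2000000 in
/-- Let p be a prime with p ≡ ±1 (mod 8) and F a field with p elements. Then PSL_2(F) has a maximal subgroup isomorphic to the symmetric group S_4. -/
theorem result {F : Type*} [Field F] [Fintype F] (p : ℕ) [Fact p.Prime] (hF : Fintype.card F = p) (hp : p % 8 = 1 ∨ p % 8 = 7) : ∃ H : Subgroup (Matrix.ProjectiveSpecialLinearGroup (Fin 2) F), IsCoatom H ∧ Nonempty (H ≃* Equiv.Perm (Fin 4)) := by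
  classical
  haveI : CharP F p := charP_of_card_prime (Fact.out) hF
  have hpp : p.Prime := Fact.out
  have hp7 : 7 ≤ p := by
    have := hpp.two_le
    by_contra hlt
    have : p = 2 ∨ p = 3 ∨ p = 4 ∨ p = 5 ∨ p = 6 := by omega
    omega
  have hsq : p ^ 2 % 16 = 1 := by
    have h1 : p % 16 = 1 ∨ p % 16 = 7 ∨ p % 16 = 9 ∨ p % 16 = 15 := by omega
    rw [Nat.pow_mod]
    rcases h1 with h | h | h | h <;> rw [h]
  obtain ⟨M, ⟨e⟩⟩ := (Cfsg.Agent.S0803.result hF).2 hsq
  have hM := card_of_iso e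
  rw [card_S4] at hM
  have hN := card_PS2 F
  rw [hF] at hN
  refine ⟨M, ⟨?_, fun H hlt => ?_⟩, ⟨e⟩⟩
  · rintro rfl
    rw [Subgroup.card_top] at hM
    have hd : Nat.gcd 2 (p - 1) ≤ 2 := Nat.gcd_le_left _ (by norm_num)
    have h7 : p * (p ^ 2 - 1) ≤ Nat.card (PS2 F) * 2 := by
      rw [← hN]
      exact Nat.mul_le_mul_left _ hd
    have h8 : 48 ≤ p ^ 2 - 1 := by
      have : 49 ≤ p ^ 2 := by nlinarith
      omega
    have h9 : 7 * 48 ≤ p * (p ^ 2 - 1) := Nat.mul_le_mul hp7 h8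
    change Nat.card (PS2 F) = 24 at hM
    omega
  by_contra hH
  obtain ⟨hc1, hc2⟩ := card_lt_of_lt hlt
  rw [hM] at hc1 hc2
  obtain ⟨a, b, ha, hb, hab⟩ : ∃ a b : Equiv.Perm (Fin 4), a * a ≠ 1 ∧ b * b ≠ 1 ∧ a * b ≠ b * a :=
    ⟨Equiv.swap 0 1 * Equiv.swap 1 2, Equiv.swap 1 2 * Equiv.swap 2 3, by decide, by decide, by decide⟩
  let ι : Equiv.Perm (Fin 4) →* H := (Subgroup.inclusion hlt.le).comp e.symm.toMonoidHom
  have hι : Function.Injective ι := (Subgroup.inclusion_injective hlt.le).comp e.symm.injective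
  rcases dickson_int hF p H with ⟨k, hk, ha'⟩ | ⟨x, hx⟩ | ⟨⟨e'⟩⟩ | ⟨⟨e'⟩⟩ | ⟨⟨e'⟩⟩ | ⟨K, i1, i2, m, hm, hres⟩
  · rcases ha' with ⟨hcyc, -⟩ | ⟨⟨d⟩⟩
    · apply hab
      apply hι
      rw [map_mul, map_mul]
      exact (IsCyclic.commGroup (α := H)).mul_comm _ _
    · exact no_emb_dihedral ha hb hab (d.toMonoidHom.comp ι) (d.injective.comp hι)
  · have hco : ¬ p ∣ Nat.card M := by
      rw [hM]
      intro hd
      have h2 : p ∣ 2 ^ 3 * 3 := by simpa using hd
      rcases (Nat.Prime.dvd_mul hpp).1 h2 with h3 | h3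
      · have := (Nat.prime_dvd_prime_iff_eq hpp Nat.prime_two).1 (hpp.dvd_of_dvd_pow h3)
        omega
      · have := (Nat.prime_dvd_prime_iff_eq hpp Nat.prime_three).1 h3
        omega
    have hcomm := comm_of_fix p (M := M) (x := x) (fun h hh => hx h (hlt.le hh)) hco (e.symm a) (e.symm b)
    apply hab
    apply e.symm.injective
    rw [map_mul, map_mul]
    exact hcomm
  · have h12 : Nat.card H = 12 := (card_of_iso e').trans card_A4
    omega
  · have h12 : Nat.card H = 24 := (card_of_iso e').trans card_S4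
    omega
  · have h12 : Nat.card H = 60 := (card_of_iso e').trans card_A5
    rw [h12] at hc2
    omega
  · exact hH (top_of_prime_card (by rw [hF]; exact hpp) (by rw [hm, hF]) hres)

end Cfsg.Agent.S5938
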