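import Cfsg.Statements.S5941
import Cfsg.Agent.Lib.H09.Dick11

set_option autoImplicit false
open Cfsg

namespace Cfsg.Agent.S5941

open Cfsg.Agent.H09.Dick Cfsg.Agent.H11.SL2X MulAction

set_option maxHeartbeats 2000000 in
/-- Let K and F be finite fields of odd characteristic with #F = (#K)². Then PSL_2(F) has a maximal subgroup isomorphic to PGL_2(K). -/
theorem result {F K : Type*} [Field F] [Fintype F] [Field K] [Fintype K] (q : ℕ) (hK : Fintype.card K = q) (hF : Fintype.card F = q ^ 2) (hq : Odd q) : ∃ H : Subgroup (Matrix.ProjectiveSpecialLinearGroup (Fin 2) F), IsCoatom H ∧ Nonempty (H ≃* Matrix.ProjGenLinGroup (Fin 2) K) := by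
  classical
  have hq2 : 2 ≤ q := hK ▸ card_two_le K
  have hq3 : 3 ≤ q := by
    obtain ⟨j, hj⟩ := hq
    omega
  have hKF : Fintype.card K ^ 2 = Fintype.card F := by rw [hK, hF]
  obtain ⟨φ⟩ := Cfsg.Agent.H03.PS.exists_embed (F := F) (K := K) (m := 2) (by norm_num) hKF
  obtain ⟨p, hp⟩ := CharP.exists K
  haveI : Fact p.Prime := ⟨CharP.char_is_prime K p⟩
  have hpp : p.Prime := Fact.out
  haveI : CharP F p := charP_of_injective_ringHom φ.injective p
  have hoddF : Odd (Fintype.card F) := by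
    rw [hF]
    exact hq.pow
  have hsq := Cfsg.Agent.H03.PS.isSquare_of_even φ hKF hoddF (m := 2) even_two
  let Ψ : Matrix.ProjGenLinGroup (Fin 2) K →* PS2 F :=
    QuotientGroup.lift (Subgroup.center (GL (Fin 2) K)) (Cfsg.Agent.H03.PS.psi φ hsq) (fun g hg => (Cfsg.Agent.H03.PS.psi_eq_one_iff φ hsq g).2 hg)
  have hΨ : Function.Injective Ψ := by
    rw [injective_iff_map_eq_one]
    intro x hx
    induction x using Matrix.ProjGenLinGroup.induction_on with
    | mk g =>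
      have h3 : Cfsg.Agent.H03.PS.psi φ hsq g = 1 := hx
      exact Matrix.ProjGenLinGroup.mk_eq_one.2 ((Cfsg.Agent.H03.PS.psi_eq_one_iff φ hsq g).1 h3)
  obtain ⟨M, hMdef⟩ : ∃ M, M = Ψ.range := ⟨_, rfl⟩
  have e : Matrix.ProjGenLinGroup (Fin 2) K ≃* M := by
    rw [hMdef]
    exact MonoidHom.ofInjective hΨ
  have hmem : ∀ g : SL2 K, pr (Matrix.SpecialLinearGroup.map φ g) ∈ M := by
    intro g
    rw [hMdef]
    have hs : (1 : F) * 1 = φ ((g : GL (Fin 2) K) : M2 K).det := by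
      have : ((g : GL (Fin 2) K) : M2 K).det = 1 := g.2
      rw [this, map_one, one_mul]
    refine ⟨QuotientGroup.mk (g : GL (Fin 2) K), ?_⟩
    change Cfsg.Agent.H03.PS.psi φ hsq (g : GL (Fin 2) K) = _
    rw [Cfsg.Agent.H03.PS.psi_apply φ hsq _ hs]
    congr 1
    apply Subtype.ext
    rw [Cfsg.Agent.H03.PS.lift1_val, inv_one, one_smul]
    rfl
  have hx1 : pr (Cfsg.Agent.Lead.DicksonSL.xE (1 : F)) ∈ M := by
    have := hmem (Cfsg.Agent.Lead.DicksonSL.xE 1)
    rwa [show Matrix.SpecialLinearGroup.map φ (Cfsg.Agent.Lead.DicksonSL.xE (1 : K)) = Cfsg.Agent.Lead.DicksonSL.xE (φ 1) from Cfsg.Agent.H27.DC.φ_xE φ 1, map_one] at this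
  have hy1 : pr (Cfsg.Agent.Lead.DicksonSL.yE (1 : F)) ∈ M := by
    have := hmem (Cfsg.Agent.Lead.DicksonSL.yE 1)
    rwa [show Matrix.SpecialLinearGroup.map φ (Cfsg.Agent.Lead.DicksonSL.yE (1 : K)) = Cfsg.Agent.Lead.DicksonSL.yE (φ 1) from Cfsg.Agent.H27.DC.φ_yE φ 1, map_one] at this
  have hM : Nat.card M = q * (q ^ 2 - 1) := by
    rw [← card_of_iso e, card_PGL, hK]
  have hN := card_PS2 F
  rw [hF] at hN
  obtain ⟨r, rfl⟩ : ∃ r, q = r + 3 := ⟨q - 3, by omega⟩
  have e1 : (r + 3) ^ 2 - 1 = (r + 2) * (r + 4) := by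
    have : (r + 3) ^ 2 = (r + 2) * (r + 4) + 1 := by ring
    omega
  rw [e1] at hM
  have hMlt : Nat.card M < Nat.card (PS2 F) := by
    have hd : Nat.gcd 2 ((r + 3) ^ 2 - 1) ≤ 2 := Nat.gcd_le_left _ (by norm_num)
    have h7 : (r + 3) ^ 2 * (((r + 3) ^ 2) ^ 2 - 1) ≤ Nat.card (PS2 F) * 2 := by
      rw [← hN]
      exact Nat.mul_le_mul_left _ hd
    have e2 : ((r + 3) ^ 2) ^ 2 - 1 = (r + 2) * (r + 4) * ((r + 3) ^ 2 + 1) := by
      have : ((r + 3) ^ 2) ^ 2 = (r + 2) * (r + 4) * ((r + 3) ^ 2 + 1) + 1 := by ring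
      omega
    rw [e2] at h7
    rw [hM]
    have h8 : 2 * ((r + 3) * ((r + 2) * (r + 4))) < (r + 3) ^ 2 * ((r + 2) * (r + 4) * ((r + 3) ^ 2 + 1)) := by
      have h9 : 0 < (r + 3) * ((r + 2) * (r + 4)) := by positivity
      have e3 : (r + 3) ^ 2 * ((r + 2) * (r + 4) * ((r + 3) ^ 2 + 1)) = ((r + 3) * ((r + 2) * (r + 4))) * ((r + 3) * ((r + 3) ^ 2 + 1)) := by ring
      rw [e3, mul_comm 2]
      apply Nat.mul_lt_mul_of_pos_left _ h9
      nlinarith
    omega
  refine ⟨M, ⟨?_, fun H hlt => ?_⟩, ⟨e.symm⟩⟩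
  · rintro rfl
    rw [Subgroup.card_top] at hMlt
    exact lt_irrefl _ hMlt
  by_contra hH
  have hc1 : (r + 3) * ((r + 2) * (r + 4)) < Nat.card H := hM ▸ (card_lt_of_lt hlt).1
  have hc2 : (r + 3) * ((r + 2) * (r + 4)) ∣ Nat.card H := hM ▸ (card_lt_of_lt hlt).2
  have hpq : p ∣ r + 3 := by
    obtain ⟨n, -, hn⟩ := FiniteField.card K p
    rw [← hK, hn]
    exact dvd_pow_self p n.ne_zero
  have hpQ : p ∣ (r + 3) ^ 2 := dvd_pow hpq (by norm_num)
  have h60 : 120 ≤ Nat.card H ∨ ((r = 0) ∧ 24 < Nat.card H) := by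
    by_cases hr : r = 0
    · subst hr
      right
      exact ⟨rfl, hc1⟩
    · left
      have h3 : 2 ≤ r := by
        obtain ⟨j, hj⟩ := hq
        omega
      have : 5 * (4 * 6) ≤ (r + 3) * ((r + 2) * (r + 4)) := by
        apply Nat.mul_le_mul (by omega)
        apply Nat.mul_le_mul (by omega) (by omega)
      omega
  rcases dickson_int hF p H with ⟨k, hk, ha'⟩ | ⟨x, hx⟩ | ⟨⟨e'⟩⟩ | ⟨⟨e'⟩⟩ | ⟨⟨e'⟩⟩ | ⟨K', i1, i2, m, hm, hres⟩
  · have hnd := not_dvd_of_k hpp hpQ (by nlinarith) hk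
    have hp2 : p ≠ 2 := by
      rintro rfl
      obtain ⟨j, hj⟩ := hq
      omega
    have hdH : p ∣ Nat.card H := hpq.trans ((Dvd.intro _ rfl).trans hc2)
    rcases card_of_a ha' with h | h
    · rw [h] at hdH
      exact hnd hdH
    · rw [h] at hdH
      rcases (Nat.Prime.dvd_mul hpp).1 hdH with h3 | h3
      · exact hp2 ((Nat.prime_dvd_prime_iff_eq hpp Nat.prime_two).1 h3)
      · exact hnd h3
  · exact no_fix_xy p one_ne_zero one_ne_zero (hlt.le hx1) (hlt.le hy1) hx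
  · have h12 : Nat.card H = 12 := (card_of_iso e').trans card_A4
    rw [h12] at h60
    omega
  · have h12 : Nat.card H = 24 := (card_of_iso e').trans card_S4
    rw [h12] at h60
    omega
  · have h12 : Nat.card H = 60 := (card_of_iso e').trans card_A5
    rw [h12] at h60 hc2
    rcases h60 with h | ⟨rfl, h⟩
    · omega
    · omega
  · have hc1' := card_two_le K'
    obtain ⟨c, hc⟩ : ∃ c, c = Fintype.card K' := ⟨_, rfl⟩
    rw [← hc] at hm hc1'
    by_cases hm1 : m = 1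
    · subst hm1
      rw [pow_one] at hm
      exact hH (top_of_same_card K' (by rw [← hc, hm, hF]) hres)
    · have hm2 : 2 ≤ m := by
        rcases m with _ | _ | m
        · simp at hm
          have : 1 < (r + 3) ^ 2 := by nlinarith
          omega
        · simp at hm1
        · omega
      have hle : c ^ 2 ≤ (r + 3) ^ 2 := by
        rw [← hm]
        exact Nat.pow_le_pow_right (by omega) hm2
      have hcle : c ≤ r + 3 := (Nat.pow_le_pow_iff_left (by norm_num)).1 hle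
      have hcH : Nat.card H ≤ c * (c ^ 2 - 1) := by
        rcases hres with ⟨⟨e'⟩⟩ | ⟨⟨e'⟩⟩
        · have h7 := card_PS2 K'
          rw [← hc] at h7
          rw [card_of_iso e', ← h7]
          exact Nat.le_mul_of_pos_right _ (Nat.gcd_pos_of_pos_left _ (by norm_num))
        · have h7 := card_PGL K'
          rw [← hc] at h7
          rw [card_of_iso e', h7]
      have h4 : c * (c ^ 2 - 1) ≤ (r + 3) * ((r + 2) * (r + 4)) := by
        rw [← e1]
        exact Nat.mul_le_mul hcle (Nat.sub_le_sub_right hle 1)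
      exact absurd (hc1.trans_le (hcH.trans h4)) (lt_irrefl _)

end Cfsg.Agent.S5941
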