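import Cfsg.Statements.S5942
import Cfsg.Agent.Lib.H09.Dick11
import Cfsg.Agent.S0803
import Cfsg.Agent.S0804

set_option autoImplicit false
open Cfsg

namespace Cfsg.Agent.S5942

open Cfsg.Agent.H09.Dick Cfsg.Agent.H11.SL2X MulAction

set_option maxHeartbeats 2000000 in
/-- Let K and F be finite fields of odd characteristic with #F = (#K)^r for an odd prime r. Then PSL_2(F) has a maximal subgroup isomorphic to PSL_2(K). -/
theorem result {F K : Type*} [Field F] [Fintype F] [Field K] [Fintype K] (q r : ℕ) (hK : Fintype.card K = q) (hF : Fintype.card F = q ^ r) (hq : Odd q) (hr : r.Prime) (hr2 : r ≠ 2) : ∃ H : Subgroup (Matrix.ProjectiveSpecialLinearGroup (Fin 2) F), IsCoatom H ∧ Nonempty (H ≃* Matrix.ProjectiveSpecialLinearGroup (Fin 2) K) := by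
  classical
  have hq2 : 2 ≤ q := hK ▸ card_two_le K
  have hq3 : 3 ≤ q := by
    obtain ⟨j, hj⟩ := hq
    omega
  have hKF : Fintype.card K ^ r = Fintype.card F := by rw [hK, hF]
  obtain ⟨φ⟩ := Cfsg.Agent.H03.PS.exists_embed (F := F) (K := K) (m := r) hr.one_le hKF
  obtain ⟨p, hp⟩ := CharP.exists K
  haveI : Fact p.Prime := ⟨CharP.char_is_prime K p⟩
  have hpp : p.Prime := Fact.out
  haveI : CharP F p := charP_of_injective_ringHom φ.injective p
  have hoddF : Odd (Fintype.card F) := by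
    rw [hF]
    exact hq.pow
  have hrodd : Odd r := hr.eq_two_or_odd'.resolve_left hr2
  obtain ⟨M, hMdef⟩ : ∃ M, M = (Cfsg.Agent.H03.PS.psMap φ).range := ⟨_, rfl⟩
  have e : PS2 K ≃* M := by
    rw [hMdef]
    exact MonoidHom.ofInjective (Cfsg.Agent.H03.PS.psMap_injective φ)
  have hx1 : pr (Cfsg.Agent.Lead.DicksonSL.xE (1 : F)) ∈ M := by
    have := xE_mem_range φ 1
    rwa [map_one, ← hMdef] at this
  have hy1 : pr (Cfsg.Agent.Lead.DicksonSL.yE (1 : F)) ∈ M := by
    have := yE_mem_range φ 1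
    rwa [map_one, ← hMdef] at this
  have hcM := card_PS2 K
  rw [hK, card_of_iso e] at hcM
  have hgcd : Nat.gcd 2 (q - 1) = 2 := by
    rcases gcd_two_cases hq2 with ⟨-, h⟩ | ⟨h, -⟩
    · exact absurd h (Nat.not_even_iff_odd.2 hq)
    · exact h
  rw [hgcd] at hcM
  have hQ2 : 2 ≤ q ^ r := by
    rw [← hF]
    exact card_two_le F
  have hMlt : Nat.card M < Nat.card (PS2 F) := by
    rw [← card_of_iso e]
    exact card_PS2_lt K (F := F) hr.two_le hKF
  refine ⟨M, ⟨?_, fun H hlt => ?_⟩, ⟨e.symm⟩⟩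
  · rintro rfl
    rw [Subgroup.card_top] at hMlt
    exact lt_irrefl _ hMlt
  by_contra hH
  have hc1 : Nat.card M < Nat.card H := (card_lt_of_lt hlt).1
  have hc2 : Nat.card M ∣ Nat.card H := (card_lt_of_lt hlt).2
  have hpq : p ∣ q := by
    obtain ⟨n, -, hn⟩ := FiniteField.card K p
    rw [← hK, hn]
    exact dvd_pow_self p n.ne_zero
  have hpQ : p ∣ q ^ r := dvd_pow hpq hr.ne_zero
  have hMp : p ∣ Nat.card M := by
    rw [← card_of_iso e]
    exact dvd_card_PS2 p
  obtain ⟨s, rfl⟩ : ∃ s, q = s + 3 := ⟨q - 3, by omega⟩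
  have e1 : (s + 3) ^ 2 - 1 = (s + 2) * (s + 4) := by
    have : (s + 3) ^ 2 = (s + 2) * (s + 4) + 1 := by ring
    omega
  rw [e1] at hcM
  have hMge : 12 ≤ Nat.card M := by
    have : 3 * (2 * 4) ≤ (s + 3) * ((s + 2) * (s + 4)) := by
      apply Nat.mul_le_mul (by omega)
      apply Nat.mul_le_mul (by omega) (by omega)
    omega
  have hMge2 : s = 0 ∨ 60 ≤ Nat.card M := by
    by_cases hs : s = 0
    · exact Or.inl hs
    · right
      have h3 : 2 ≤ s := by
        obtain ⟨j, hj⟩ := hq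
        omega
      have : 5 * (4 * 6) ≤ (s + 3) * ((s + 2) * (s + 4)) := by
        apply Nat.mul_le_mul (by omega)
        apply Nat.mul_le_mul (by omega) (by omega)
      omega
  rcases dickson_int hF p H with ⟨k, hk, ha'⟩ | ⟨x, hx⟩ | ⟨⟨e'⟩⟩ | ⟨⟨e'⟩⟩ | ⟨⟨e'⟩⟩ | ⟨K', i1, i2, m, hm, hres⟩
  · have hnd := not_dvd_of_k hpp hpQ hQ2 hk
    have hp2 : p ≠ 2 := by
      rintro rfl
      obtain ⟨j, hj⟩ := hq
      omega
    have hdH : p ∣ Nat.card H := hMp.trans hc2
    rcases card_of_a ha' with h | h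
    · rw [h] at hdH
      exact hnd hdH
    · rw [h] at hdH
      rcases (Nat.Prime.dvd_mul hpp).1 hdH with h3 | h3
      · exact hp2 ((Nat.prime_dvd_prime_iff_eq hpp Nat.prime_two).1 h3)
      · exact hnd h3
  · exact no_fix_xy p one_ne_zero one_ne_zero (hlt.le hx1) (hlt.le hy1) hx
  · have h12 : Nat.card H = 12 := (card_of_iso e').trans card_A4
    omega
  · have h12 : Nat.card H = 24 := (card_of_iso e').trans card_S4
    rcases hMge2 with rfl | h
    · have h3 := (Cfsg.Agent.S0803.result hF).1 ⟨H, ⟨e'⟩⟩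
      obtain ⟨j, rfl⟩ := hrodd
      have h4 : ∀ j : ℕ, ((0 + 3) ^ (2 * j + 1)) ^ 2 % 16 = 9 := by
        intro j
        induction j with
        | zero => norm_num
        | succ j ih =>
          have e2 : ((0 + 3) ^ (2 * (j + 1) + 1)) ^ 2 = ((0 + 3) ^ (2 * j + 1)) ^ 2 * 81 := by ring
          rw [e2]
          omega
      rw [h4] at h3
      omega
    · omega
  · have h12 : Nat.card H = 60 := (card_of_iso e').trans card_A5
    rcases hMge2 with rfl | h
    · have h3 := (Cfsg.Agent.S0804.result hF).1 ⟨H, ⟨e'⟩⟩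
      rw [five_dvd_iff (by omega)] at h3
      obtain ⟨j, rfl⟩ := hrodd
      have h4 : ∀ j : ℕ, ((0 + 3) ^ (2 * j + 1)) ^ 2 % 5 = 4 := by
        intro j
        induction j with
        | zero => norm_num
        | succ j ih =>
          have e2 : ((0 + 3) ^ (2 * (j + 1) + 1)) ^ 2 = ((0 + 3) ^ (2 * j + 1)) ^ 2 * 81 := by ring
          rw [e2]
          omega
      have h5 := sq_mod_five (h4 j)
      generalize (0 + 3) ^ (2 * j + 1) = x at h3 h5
      omega
    · omega
  · have hm' := hm.trans hF.symm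
    rcases subfield_case p hr e.symm hKF hlt.le hm' hres (by rw [hK]; omega) with h | h
    · subst h
      rw [pow_one] at hm'
      exact hH (top_of_same_card K' hm' hres)
    · rcases hres with ⟨⟨e'⟩⟩ | ⟨⟨e'⟩⟩
      · have h5 := card_PS2 K'
        rw [h, hK, hgcd, e1, ← card_of_iso e'] at h5
        exact absurd (Nat.eq_of_mul_eq_mul_right (by norm_num) (h5.trans hcM.symm)) hc1.ne'
      · have hrm : m = r := by
          rw [h] at hm'
          exact Nat.pow_right_injective (by rw [hK]; omega) (hm'.trans hKF.symm)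
        exact Cfsg.Agent.H03.PS.not_PGL_of_odd hm' hoddF (hrm ▸ hrodd) H e'

end Cfsg.Agent.S5942
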