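import Cfsg.Statements.S5943
import Cfsg.Agent.Lib.H09.Dick11

set_option autoImplicit false
open Cfsg

namespace Cfsg.Agent.S5943

open Cfsg.Agent.H09.Dick Cfsg.Agent.H11.SL2X MulAction

set_option maxHeartbeats 2000000 in
/-- Let K and F be finite fields of characteristic 2 with #K = q > 2 and #F = q^r for a prime r. Then PSL_2(F) has a maximal subgroup isomorphic to PSL_2(K) (which equals PGL_2(K) in characteristic 2). -/
theorem result {F K : Type*} [Field F] [Fintype F] [Field K] [Fintype K] (q r : ℕ) (hK : Fintype.card K = q) (hF : Fintype.card F = q ^ r) (hq : Even q) (hq2 : q ≠ 2) (hr : r.Prime) : ∃ H : Subgroup (Matrix.ProjectiveSpecialLinearGroup (Fin 2) F), IsCoatom H ∧ Nonempty (H ≃* Matrix.ProjectiveSpecialLinearGroup (Fin 2) K) := by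
  classical
  have hq2' : 2 ≤ q := hK ▸ card_two_le K
  have hq4 : 4 ≤ q := by
    obtain ⟨j, hj⟩ := hq
    omega
  have hKF : Fintype.card K ^ r = Fintype.card F := by rw [hK, hF]
  obtain ⟨φ⟩ := Cfsg.Agent.H03.PS.exists_embed (F := F) (K := K) (m := r) hr.one_le hKF
  obtain ⟨p, hp⟩ := CharP.exists K
  haveI : Fact p.Prime := ⟨CharP.char_is_prime K p⟩
  have hpp : p.Prime := Fact.out
  haveI : CharP F p := charP_of_injective_ringHom φ.injective p
  obtain ⟨n, -, hn⟩ := FiniteField.card K p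
  rw [hK] at hn
  have hp2 : p = 2 := by
    have h3 : 2 ∣ p ^ (n : ℕ) := by
      rw [← hn]
      exact hq.two_dvd
    exact ((Nat.prime_dvd_prime_iff_eq Nat.prime_two hpp).1 (Nat.prime_two.dvd_of_dvd_pow h3)).symm
  subst hp2
  have h4q : 4 ∣ q := by
    have hn2 : 2 ≤ (n : ℕ) := by
      by_contra hlt
      have : (n : ℕ) = 1 := by
        have := n.pos
        omega
      rw [this, pow_one] at hn
      omega
    rw [hn]
    exact pow_dvd_pow 2 hn2
  obtain ⟨M, hMdef⟩ : ∃ M, M = (Cfsg.Agent.H03.PS.psMap φ).range := ⟨_, rfl⟩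
  have e : PS2 K ≃* M := by
    rw [hMdef]
    exact MonoidHom.ofInjective (Cfsg.Agent.H03.PS.psMap_injective φ)
  have hx1 : pr (Cfsg.Agent.Lead.DicksonSL.xE (1 : F)) ∈ M := by
    have := xE_mem_range φ 1
    rwa [map_one, ← hMdef] at this
  have hy1 : pr (Cfsg.Agent.Lead.DicksonSL.yE (1 : F)) ∈ M := by
    have := yE_mem_range φ 1
    rwa [map_one, ← hMdef] at this
  have hcM := card_PS2 K
  rw [hK, card_of_iso e] at hcM
  have hgcd : Nat.gcd 2 (q - 1) = 1 := by
    rcases gcd_two_cases hq2' with ⟨h, -⟩ | ⟨-, h⟩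
    · exact h
    · exact absurd hq (Nat.not_even_iff_odd.2 h)
  rw [hgcd, mul_one] at hcM
  have hQ2 : 2 ≤ q ^ r := by
    rw [← hF]
    exact card_two_le F
  have hMlt : Nat.card M < Nat.card (PS2 F) := by
    rw [← card_of_iso e]
    exact card_PS2_lt K (F := F) hr.two_le hKF
  refine ⟨M, ⟨?_, fun H hlt => ?_⟩, ⟨e.symm⟩⟩
  · rintro rfl
    rw [Subgroup.card_top] at hMlt
    exact lt_irrefl _ hMlt
  by_contra hH
  have hc1 : Nat.card M < Nat.card H := (card_lt_of_lt hlt).1
  have hc2 : Nat.card M ∣ Nat.card H := (card_lt_of_lt hlt).2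
  have hpQ : 2 ∣ q ^ r := dvd_pow hq.two_dvd hr.ne_zero
  have hMp : 4 ∣ Nat.card H := by
    refine dvd_trans ?_ hc2
    rw [hcM]
    exact h4q.trans (Dvd.intro _ rfl)
  have hMge : 60 ≤ Nat.card M := by
    rw [hcM]
    have : 4 * (4 ^ 2 - 1) ≤ q * (q ^ 2 - 1) := by
      apply Nat.mul_le_mul hq4
      exact Nat.sub_le_sub_right (Nat.pow_le_pow_left hq4 2) 1
    omega
  rcases dickson_int hF 2 H with ⟨k, hk, ha'⟩ | ⟨x, hx⟩ | ⟨⟨e'⟩⟩ | ⟨⟨e'⟩⟩ | ⟨⟨e'⟩⟩ | ⟨K', i1, i2, m, hm, hres⟩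
  · have hnd := not_dvd_of_k hpp hpQ hQ2 hk
    rcases card_of_a ha' with h | h
    · rw [h] at hMp
      exact hnd ((by norm_num : 2 ∣ 4).trans hMp)
    · rw [h] at hMp
      apply hnd
      obtain ⟨c, hc⟩ := hMp
      exact ⟨c, by omega⟩
  · exact no_fix_xy 2 one_ne_zero one_ne_zero (hlt.le hx1) (hlt.le hy1) hx
  · have h12 : Nat.card H = 12 := (card_of_iso e').trans card_A4
    omega
  · have h12 : Nat.card H = 24 := (card_of_iso e').trans card_S4
    omega
  · have h12 : Nat.card H = 60 := (card_of_iso e').trans card_A5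
    omega
  · have hm' := hm.trans hF.symm
    rcases subfield_case 2 hr e.symm hKF hlt.le hm' hres (by rw [hK]; omega) with h | h
    · subst h
      rw [pow_one] at hm'
      exact hH (top_of_same_card K' hm' hres)
    · have h5 : Nat.card H = q * (q ^ 2 - 1) := by
        rcases hres with ⟨⟨e'⟩⟩ | ⟨⟨e'⟩⟩
        · have h5 := card_PS2 K'
          rw [h, hK, hgcd, mul_one] at h5
          rw [card_of_iso e', h5]
        · have h5 := card_PGL K'
          rw [h, hK] at h5
          rw [card_of_iso e', h5]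
      rw [h5, hcM] at hc1
      exact lt_irrefl _ hc1

end Cfsg.Agent.S5943
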