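import Cfsg.Statements.S5944
-- import your own Cfsg.Agent.* helpers here

set_option autoImplicit false
open Cfsg

namespace Cfsg.Agent.S5944

/-- For n ≠ 4, every proper subgroup of the symmetric group S_n other than the alternating group A_n has index at least n. -/
theorem result (n : ℕ) (hn : n ≠ 4) (H : Subgroup (Equiv.Perm (Fin n))) (hH : H ≠ ⊤) (hA : H ≠ alternatingGroup (Fin n)) : n ≤ H.index := by
    classical
  by_contra hlt
  push Not at hlt
  have hidx : H.index ≠ 0 := Subgroup.index_ne_zero_of_finite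
  have hidx1 : H.index ≠ 1 := fun h => hH (Subgroup.index_eq_one.mp h)
  have hidx2 : H.index ≠ 2 := fun h => hA (Equiv.Perm.eq_alternatingGroup_of_index_eq_two h)
  have hn5 : 5 ≤ n := by omega
  have hcardn : 5 ≤ Nat.card (Fin n) := by simpa using hn5
  -- the action on the cosets of `H`
  let φ : Equiv.Perm (Fin n) →* Equiv.Perm (Equiv.Perm (Fin n) ⧸ H) :=
    MulAction.toPermHom (Equiv.Perm (Fin n)) (Equiv.Perm (Fin n) ⧸ H)
  have hker : φ.ker ≤ H := by
    intro g hg
    have h1 : φ g = 1 := MonoidHom.mem_ker.mp hg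
    have h2 : g • ((1 : Equiv.Perm (Fin n)) : Equiv.Perm (Fin n) ⧸ H) = ((1 : Equiv.Perm (Fin n)) : Equiv.Perm (Fin n) ⧸ H) := by
      have := congrArg (fun σ : Equiv.Perm (Equiv.Perm (Fin n) ⧸ H) => σ ((1 : Equiv.Perm (Fin n)) : Equiv.Perm (Fin n) ⧸ H)) h1
      simpa [φ] using this
    rw [MulAction.Quotient.smul_coe, QuotientGroup.eq] at h2
    simpa using h2
  by_cases hnt : Nontrivial φ.ker
  · have hle : alternatingGroup (Fin n) ≤ H :=
      (Equiv.Perm.alternatingGroup_le_of_normal hcardn hnt).trans hker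
    have : Nontrivial (Fin n) := Fin.nontrivial_iff_two_le.mpr (by omega)
    have hdvd : H.index ∣ 2 := (alternatingGroup.index_eq_two (α := Fin n)) ▸ Subgroup.index_dvd_of_le hle
    rcases (Nat.dvd_prime Nat.prime_two).mp hdvd with h | h
    · exact hidx1 h
    · exact hidx2 h
  · have hinj : Function.Injective φ := by
      rw [← MonoidHom.ker_eq_bot_iff]
      rw [not_nontrivial_iff_subsingleton] at hnt
      exact Subgroup.eq_bot_of_subsingleton _
    haveI : Finite (Equiv.Perm (Fin n) ⧸ H) := inferInstance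
    have hcard := Nat.card_le_card_of_injective φ hinj
    rw [Nat.card_perm, Nat.card_perm] at hcard
    have h3 : Nat.card (Equiv.Perm (Fin n) ⧸ H) = H.index := rfl
    rw [h3, Nat.card_fin] at hcard
    have h4 : (H.index).factorial < n.factorial := (Nat.factorial_lt (by omega)).mpr hlt
    omega

end Cfsg.Agent.S5944
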