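import Cfsg.Statements.S5945
import Cfsg.Agent.Lib.H29.SixExotic
import Cfsg.Agent.Lib.H29.SixIndex
-- import your own Cfsg.Agent.* helpers here

set_option autoImplicit false
open Cfsg

namespace Cfsg.Agent.S5945

open Cfsg.Agent.H29 Equiv Equiv.Perm MulAction


/-- The symmetric group S_6 has exactly 12 subgroups of index 6; each of them is isomorphic to S_5, and at least one of them is not the stabilizer of any point. -/
theorem result : Nat.card {H : Subgroup (Equiv.Perm (Fin 6)) // H.index = 6} = 12 ∧ (∀ H : Subgroup (Equiv.Perm (Fin 6)), H.index = 6 → Nonempty (H ≃* Equiv.Perm (Fin 5))) ∧ ∃ H : Subgroup (Equiv.Perm (Fin 6)), H.index = 6 ∧ ∀ a : Fin 6, H ≠ MulAction.stabilizer (Equiv.Perm (Fin 6)) a := by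
  classical
  have h6 : Fintype.card (Fin 6) = 6 := Fintype.card_fin 6
  have hnoE : ∀ s ∈ exoticS6, ¬ s.IsSwap := by
    rintro s hs ⟨u, v, huv, rfl⟩
    exact exoticS6_no_swap _ _ huv hs
  have hQindex : ∀ x : Perm (Fin 6) ⧸ exoticS6, (stabilizer (Perm (Fin 6)) x).index = 6 := by
    intro x
    rw [MulAction.index_stabilizer_of_transitive, ← Subgroup.index_eq_card, exoticS6_index]
  have hQconj : ∀ g : Perm (Fin 6), stabilizer (Perm (Fin 6)) ((g : Perm (Fin 6)) : Perm (Fin 6) ⧸ exoticS6)
      = exoticS6.map (MulAut.conj g).toMonoidHom := by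
    intro g
    have h3 := MulAction.stabilizer_smul_eq_stabilizer_map_conj g ((1 : Perm (Fin 6)) : Perm (Fin 6) ⧸ exoticS6)
    rw [MulAction.Quotient.smul_coe, smul_eq_mul, mul_one, MulAction.stabilizer_quotient] at h3
    exact h3
  have hQno : ∀ x : Perm (Fin 6) ⧸ exoticS6, ∀ s ∈ stabilizer (Perm (Fin 6)) x, ¬ s.IsSwap := by
    intro x
    obtain ⟨g, rfl⟩ := QuotientGroup.mk_surjective x
    intro s hs hs2
    rw [hQconj] at hs
    obtain ⟨s', hs', rfl⟩ := hs
    apply hnoE s' hs'
    have h := isSwap_conj hs2 g⁻¹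
    have h2 : g⁻¹ * ((MulAut.conj g).toMonoidHom s') * g⁻¹⁻¹ = s' := by
      simp [MulAut.conj_apply, mul_assoc]
    rwa [h2] at h
  have hPno : ∀ a : Fin 6, ∃ s ∈ stabilizer (Perm (Fin 6)) a, s.IsSwap :=
    fun a => exists_swap_mem_stabilizer (by omega) a
  let F : Fin 6 ⊕ (Perm (Fin 6) ⧸ exoticS6) → {H : Subgroup (Perm (Fin 6)) // H.index = 6} :=
    Sum.elim
      (fun a => ⟨stabilizer (Perm (Fin 6)) a, by
        rw [MulAction.index_stabilizer_of_transitive, Nat.card_fin]⟩)
      (fun x => ⟨stabilizer (Perm (Fin 6)) x, hQindex x⟩)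
  have hFbij : Function.Bijective F := by
    constructor
    · rintro (a | x) (b | y) hxy
      · have h1 : stabilizer (Perm (Fin 6)) a = stabilizer (Perm (Fin 6)) b := congrArg Subtype.val hxy
        congr 1
        by_contra hab
        obtain ⟨c, hc⟩ := exists_not_mem_finset ({a, b} : Finset (Fin 6))
          (lt_of_le_of_lt Finset.card_le_two (by simp))
        simp only [Finset.mem_insert, Finset.mem_singleton, not_or] at hc
        have h2 : swap b c ∈ stabilizer (Perm (Fin 6)) a :=
          swap_apply_of_ne_of_ne hab (Ne.symm hc.1)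
        rw [h1] at h2
        have h3 : swap b c b = b := h2
        rw [swap_apply_left] at h3
        exact hc.2 h3
      · exfalso
        have h1 : stabilizer (Perm (Fin 6)) a = stabilizer (Perm (Fin 6)) y := congrArg Subtype.val hxy
        obtain ⟨s, hs, hs2⟩ := hPno a
        rw [h1] at hs
        exact hQno y s hs hs2
      · exfalso
        have h1 : stabilizer (Perm (Fin 6)) x = stabilizer (Perm (Fin 6)) b := congrArg Subtype.val hxy
        obtain ⟨s, hs, hs2⟩ := hPno b
        rw [← h1] at hs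
        exact hQno x s hs hs2
      · have h1 : stabilizer (Perm (Fin 6)) x = stabilizer (Perm (Fin 6)) y := congrArg Subtype.val hxy
        congr 1
        by_contra hab
        haveI : Fintype (Perm (Fin 6) ⧸ exoticS6) := Fintype.ofFinite _
        have hX : Fintype.card (Perm (Fin 6) ⧸ exoticS6) = 6 := by
          rw [← Nat.card_eq_fintype_card, ← Subgroup.index_eq_card, exoticS6_index]
        obtain ⟨c, hc⟩ := exists_not_mem_finset ({x, y} : Finset (Perm (Fin 6) ⧸ exoticS6))
          (lt_of_le_of_lt Finset.card_le_two (by omega))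
        simp only [Finset.mem_insert, Finset.mem_singleton, not_or] at hc
        obtain ⟨g, hg⟩ := (cosetRep_bij h6 exoticS6 exoticS6_index).2 (swap y c)
        have h2 : g ∈ stabilizer (Perm (Fin 6)) x := by
          show cosetRep exoticS6 g x = x
          rw [hg]
          exact swap_apply_of_ne_of_ne hab (Ne.symm hc.1)
        rw [h1] at h2
        have h3 : cosetRep exoticS6 g y = y := h2
        rw [hg, swap_apply_left] at h3
        exact hc.2 h3
    · rintro ⟨H, hH⟩
      by_cases hs : ∃ s ∈ H, s.IsSwap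
      · obtain ⟨s, hs1, hs2⟩ := hs
        obtain ⟨a, ha⟩ := eq_stabilizer_of_swap_mem (by simp) (by simp) H (by rw [hH, h6]) hs2 hs1
        exact ⟨Sum.inl a, Subtype.ext ha.symm⟩
      · push Not at hs
        obtain ⟨x, hx⟩ := eq_stabilizer_coset h6 exoticS6 H exoticS6_index hH hnoE hs
        exact ⟨Sum.inr x, Subtype.ext hx.symm⟩
  refine ⟨?_, ?_, exoticS6, exoticS6_index, ?_⟩
  · rw [← Nat.card_congr (Equiv.ofBijective F hFbij), Nat.card_sum, Nat.card_fin,
      ← Subgroup.index_eq_card, exoticS6_index]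
  · intro H hH
    exact nonempty_mulEquiv_perm_five h6 H hH
  · intro a h
    obtain ⟨s, hs, hs2⟩ := hPno a
    rw [← h] at hs
    exact hnoE s hs hs2

end Cfsg.Agent.S5945
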