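import Cfsg.Statements.S5949
import Cfsg.Agent.Lib.H29.PSLSub
-- import your own Cfsg.Agent.* helpers here

set_option autoImplicit false
open scoped MatrixGroups
open Cfsg

namespace Cfsg.Agent.S5949

open Polynomial Module Cfsg.Agent.H29 Matrix

theorem mem_of_tStable {n : ℕ} {F : Type*} [Field F] (x : Matrix (Fin n) (Fin n) F)
    (W : Submodule F (Fin n → F)) (h : TStable (Matrix.toLin' x) W) :
    W.map (Matrix.toLin' x) ≤ W := by
  rintro _ ⟨v, hv, rfl⟩
  exact h v hv

theorem tStable_of_map {n : ℕ} {F : Type*} [Field F] (x : Matrix (Fin n) (Fin n) F)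
    (W : Submodule F (Fin n → F)) (h : W.map (Matrix.toLin' x) ≤ W) :
    TStable (Matrix.toLin' x) W :=
  fun v hv => h ⟨v, hv, rfl⟩


/-- Elements of prime order of PSL_n(q) with no fixed `m`-space. Here `T = PSL_n(F)` for a field `F` with `q = p^f` elements (`n ≥ 2`, `(n, q) ≠ (2, 2), (2, 3)`); an element of `T` of prime order `r` is represented by a matrix `x` of determinant 1 with `x^r` scalar and `x` not scalar; `i` denotes the multiplicative order of `q` modulo `r` (when `r ≠ p`), and `(a)_r` the `r`-part of `a`. Let `1 ≤ m ≤ n/2` and let `r` be a prime dividing the number of `m`-dimensional subspaces of `F^n`. Then every element of `T` of order `r` fixes some `m`-dimensional subspace (the action on `m`-spaces is `r`-elusive) if and only if `r ≠ p` and either (i) `i = 1` and (`r ∣ m`, or `(q−1)_r ≥ (n)_r` where in addition `q ≡ 1 (mod 4)` is required when `r = 2` and `n` is even), or (ii) `2 ≤ i ≤ m` and `n mod i ≥ m mod i`. -/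
theorem result {F : Type*} [Field F] [Fintype F] {p : ℕ} [Fact p.Prime] [CharP F p] {q : ℕ} (hq : Fintype.card F = q)
    (n m : ℕ) (hn : 2 ≤ n) (hT : (n, q) ≠ (2, 2) ∧ (n, q) ≠ (2, 3)) (hm : 1 ≤ m) (hmn : 2 * m ≤ n)
    (r : ℕ) [Fact r.Prime] (hrΩ : r ∣ Nat.card {W : Submodule F (Fin n → F) // Module.finrank F ↥W = m}) :
    (∀ x : Matrix.SpecialLinearGroup (Fin n) F,
      (∃ c : F, ((x ^ r : Matrix.SpecialLinearGroup (Fin n) F) : Matrix (Fin n) (Fin n) F) = c • (1 : Matrix (Fin n) (Fin n) F)) →
      (∀ c : F, (x : Matrix (Fin n) (Fin n) F) ≠ c • (1 : Matrix (Fin n) (Fin n) F)) →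
      ∃ W : Submodule F (Fin n → F), Module.finrank F ↥W = m ∧ W.map (Matrix.toLin' (x : Matrix (Fin n) (Fin n) F)) ≤ W) ↔
    (r ≠ p ∧
      ((orderOf (q : ZMod r) = 1 ∧ (r ∣ m ∨ (padicValNat r n ≤ padicValNat r (q - 1) ∧ (r = 2 → Even n → q % 4 = 1)))) ∨
       (2 ≤ orderOf (q : ZMod r) ∧ orderOf (q : ZMod r) ≤ m ∧ m % orderOf (q : ZMod r) ≤ n % orderOf (q : ZMod r)))) := by
  classical
  have hq2 : 2 ≤ q := two_le_card hq
  set i := orderOf (q : ZMod r) with hi
  have hn0 : n ≠ 0 := by omega
  have hmn : m ≤ finrank F (Fin n → F) := by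
    rw [Module.finrank_fin_fun]
    omega
  constructor
  · intro H
    obtain ⟨j, hj, hjd⟩ := exists_of_dvd_count hq m hmn hrΩ
    rw [Module.finrank_fin_fun] at hjd
    have hrp : r ≠ p := ne_char_of_dvd hq (by omega) hjd
    refine ⟨hrp, ?_⟩
    have hipos : 0 < i := orderOf_q_pos (F := F) (p := p) hq hrp
    have hidvd : i ∣ n - j := (dvd_pow_sub_one_iff hq2 _).1 hjd
    by_cases hi1 : i = 1
    · left
      refine ⟨hi1, ?_⟩
      by_contra hcon
      push Not at hcon
      have hrm : ¬ r ∣ m := hcon.1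
      have hv : ¬ (padicValNat r n ≤ padicValNat r (q - 1) ∧ (r = 2 → Even n → q % 4 = 1)) := by
        rintro ⟨h1, h2⟩
        obtain ⟨h3, h4, h5⟩ := hcon.2 h1
        exact h5 (h2 h3 h4)
      obtain ⟨x, ⟨c, hc⟩, hns, hdiv⟩ := exists_sl_of_i_one (F := F) (p := p) hq hrp hi1 n hn0 hv
      obtain ⟨W, hWm, hW⟩ := H x ⟨c, hc⟩ hns
      apply hrm
      rw [← hWm]
      exact hdiv W (tStable_of_map _ W hW)
    · right
      have hi2 : 2 ≤ i := by omega
      refine ⟨hi2, ?_⟩
      have hjn : 0 < n - j := by omega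
      have hin : i ≤ n := (Nat.le_of_dvd hjn hidvd).trans (Nat.sub_le _ _)
      have ht : 1 ≤ n / i := (Nat.le_div_iff_mul_le hipos).2 (by simpa using hin)
      obtain ⟨x, hx1, hns, A, B, hA, hAB⟩ := exists_sl_block (F := F) (p := p) hq hrp hi2 n (n / i)
        (n % i) (by rw [mul_comm]; exact (Nat.div_add_mod n i).symm) ht
      obtain ⟨W, hWm, hW⟩ := H x ⟨1, by rw [hx1, one_smul]⟩ hns
      obtain ⟨h1, t', ht'⟩ := (fun h => (⟨h.1, h.2⟩ : _ ∧ _)) (hAB W (tStable_of_map _ W hW))
      rw [hWm] at h1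
      set a' := finrank F (W ⊓ A : Submodule F (Fin n → F)) with ha'
      have ha'le : a' ≤ n % i := (Submodule.finrank_mono inf_le_right).trans hA
      have hmodlt : n % i < i := Nat.mod_lt _ hipos
      have hm' : m = a' + i * t' := by rw [h1, ht']
      have hmmod : m % i = a' := by
        rw [hm', Nat.add_mul_mod_self_left, Nat.mod_eq_of_lt (by omega)]
      refine ⟨?_, by rw [hmmod]; exact ha'le⟩
      by_contra hlt
      push Not at hlt
      have ht0 : t' = 0 := by
        by_contra h0
        have : i * 1 ≤ i * t' := Nat.mul_le_mul_left _ (by omega)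
        omega
      rw [ht0, mul_zero, add_zero] at hm'
      -- `n % i = j`
      have hnmod : n % i = j := by
        have h2 : n = (n - j) + j := by omega
        obtain ⟨w, hw⟩ := hidvd
        rw [h2, hw, Nat.mul_add_mod]
        exact Nat.mod_eq_of_lt (by omega)
      omega
  · rintro ⟨hrp, hcase⟩ x ⟨c, hc⟩ hns
    have hipos : 0 < i := orderOf_q_pos (F := F) (p := p) hq hrp
    set T := Matrix.toLin' (x : Matrix (Fin n) (Fin n) F) with hT
    have hTr : T ^ r = c • (1 : Module.End F (Fin n → F)) := by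
      rw [hT, ← toLin'_pow_eq, ← toLin'_smul_one, ← hc, Matrix.SpecialLinearGroup.coe_pow]
    have hdetT : LinearMap.det T = 1 := by
      rw [hT, LinearMap.det_toLin']
      exact x.2
    have hc0 : c ≠ 0 := by
      rintro rfl
      have h1 := congrArg Matrix.det hc
      have hne : Nonempty (Fin n) := ⟨⟨0, by omega⟩⟩
      rw [Matrix.SpecialLinearGroup.coe_pow, Matrix.det_pow, x.2, one_pow, zero_smul, Matrix.det_zero] at h1
      exact one_ne_zero h1
    suffices hs : ∃ W : Submodule F (Fin n → F), finrank F W = m ∧ TStable T W by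
      obtain ⟨W, h1, h2⟩ := hs
      exact ⟨W, h1, mem_of_tStable _ W h2⟩
    -- reduction when `c` is an `r`-th power
    have hred : ∀ b : F, b ≠ 0 → b ^ r = c → ((b⁻¹ • T) ^ r = 1) := by
      intro b hb hbc
      rw [_root_.smul_pow, hTr, smul_smul, inv_pow, hbc, inv_mul_cancel₀ hc0, one_smul]
    have hstab : ∀ (b : F) (W : Submodule F (Fin n → F)), b ≠ 0 → TStable (b⁻¹ • T) W → TStable T W :=
      fun b W hb h => tStable_of_smul _ h (inv_ne_zero hb)
    rcases hcase with ⟨hi1, hcase⟩ | ⟨hi2, himk, hmod⟩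
    · by_cases hcp : ∃ b : F, b ^ r = c
      · obtain ⟨b, hb⟩ := hcp
        have hb0 : b ≠ 0 := by
          rintro rfl
          rw [zero_pow (Fact.out : r.Prime).ne_zero] at hb
          exact hc0 hb.symm
        obtain ⟨U, W, -, -, hW, -, hWr⟩ := exists_stable_pair_of_degree_one (b⁻¹ • T) (X ^ r - 1 : F[X])
          (by
            have := X_pow_sub_C_ne_zero (R := F) (Fact.out : r.Prime).pos 1
            simpa using this)
          (fun g hg hd => natDegree_of_dvd_X_pow_sub_one (p := p) hq hrp hi1 g hg hd)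
          (aeval_X_pow_sub_one _ (hred b hb0 hb)) 0 m (Nat.zero_le _) hmn
        exact ⟨W, hWr, hstab b W hb0 hW⟩
      · push Not at hcp
        have hpad := padic_of_not_pow hq n hn0 T c hcp hTr hdetT
        have hrm : r ∣ m := by
          rcases hcase with h | h
          · exact h
          · exact absurd h hpad
        obtain ⟨t, rfl⟩ := hrm
        obtain ⟨U, W, -, -, hW, -, hWr⟩ := exists_stable_of_not_pow T c hcp hTr 0 t (Nat.zero_le _)
          (by rw [Module.finrank_fin_fun]; nlinarith)
        exact ⟨W, by rw [hWr, mul_comm], hW⟩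
    · -- `r ∤ q - 1`
      have hrq : ¬ r ∣ q - 1 := by
        rw [dvd_sub_one_iff hq2]
        omega
      obtain ⟨b, hb0, hb⟩ := exists_pow_eq_of_not_dvd hq hrq c hc0
      obtain ⟨a₁, t', hsum, hpair⟩ := exists_pair_of_pow_eq_one (p := p) hq hrp (b⁻¹ • T) (hred b hb0 hb)
      rw [Module.finrank_fin_fun, ← hi] at hsum
      simp only [← hi] at hpair
      have hβ : min t' (m / i) ≤ t' := min_le_left _ _
      have hβ2 : min t' (m / i) * i ≤ m :=
        (Nat.mul_le_mul_right _ (min_le_right _ _)).trans (Nat.div_mul_le_self _ _)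
      have hα : m - min t' (m / i) * i ≤ a₁ := by
        rcases le_total t' (m / i) with h | h
        · rw [min_eq_left h]
          have hmle : m ≤ n := by omega
          omega
        · rw [min_eq_right h]
          have h1 : m - m / i * i = m % i := by
            have := Nat.div_add_mod' m i
            omega
          rw [h1]
          -- `n % i ≤ a₁`
          have h2 : n % i ≤ a₁ := by
            have h3 : n % i = a₁ % i := by
              rw [hsum, Nat.add_mul_mod_self_right]
            rw [h3]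
            exact Nat.mod_le _ _
          omega
      obtain ⟨U, W, -, -, hW, -, hWr⟩ := hpair _ _ _ _ le_rfl hα le_rfl hβ
      refine ⟨W, ?_, hstab b W hb0 hW⟩
      rw [hWr]
      omega

end Cfsg.Agent.S5949
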