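import Cfsg.Statements.S5950
import Cfsg.Agent.Lib.H29.Unip
import Cfsg.Agent.Lib.H29.PrimeOrd
import Cfsg.Agent.Lib.H29.PSLSub
import Cfsg.Agent.S5949
-- import your own Cfsg.Agent.* helpers here

set_option autoImplicit false
open scoped MatrixGroups
open Cfsg

namespace Cfsg.Agent.S5950

open Module Polynomial Cfsg.Agent.H29

theorem card_complements {F V : Type*} [Field F] [Fintype F] [AddCommGroup V] [Module F V]
    [FiniteDimensional F V] (U : Submodule F V) :
    Nat.card {W : Submodule F V // IsCompl U W} =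
      Fintype.card F ^ (finrank F (V ⧸ U) * finrank F U) := by
  classical
  obtain ⟨W₀, hW₀⟩ := Submodule.exists_isCompl U
  let f₀ := U.isComplEquivProj ⟨W₀, hW₀⟩
  let e : {f : V →ₗ[F] U // ∀ x : U, f x = x} ≃ ((V ⧸ U) →ₗ[F] U) :=
  { toFun := fun f => U.liftQ (f.1 - f₀.1) (by
        intro x hx
        apply LinearMap.mem_ker.2
        rw [LinearMap.sub_apply, f.2 ⟨x, hx⟩, f₀.2 ⟨x, hx⟩, sub_self])
    invFun := fun g => ⟨f₀.1 + g ∘ₗ U.mkQ, by
        intro x
        have h1 : U.mkQ (x : V) = 0 := (Submodule.Quotient.mk_eq_zero U).2 x.2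
        rw [LinearMap.add_apply, LinearMap.comp_apply, h1, map_zero, add_zero, f₀.2 x]⟩
    left_inv := by
      intro f
      apply Subtype.ext
      apply LinearMap.ext
      intro v
      simp
    right_inv := by
      intro g
      apply Submodule.linearMap_qext
      apply LinearMap.ext
      intro v
      simp }
  have hV : Finite V := Module.finite_of_finite F
  have hU : Finite U := inferInstance
  have hfin : Finite (V ⧸ U →ₗ[F] U) := Module.finite_of_finite F
  have : Fintype (V ⧸ U →ₗ[F] U) := Fintype.ofFinite _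
  rw [Nat.card_congr (U.isComplEquivProj.trans e), Nat.card_eq_fintype_card,
    Module.card_eq_pow_finrank (K := F), Module.finrank_linearMap]

theorem card_pairs {F : Type*} [Field F] [Fintype F] (n m : ℕ) (hm : m ≤ n) :
    Nat.card {P : Submodule F (Fin n → F) × Submodule F (Fin n → F) //
      IsCompl P.1 P.2 ∧ Module.finrank F ↥P.1 = m} =
    Nat.card {W : Submodule F (Fin n → F) // Module.finrank F ↥W = m} *
      Fintype.card F ^ ((n - m) * m) := by
  classical
  let e : {P : Submodule F (Fin n → F) × Submodule F (Fin n → F) //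
      IsCompl P.1 P.2 ∧ Module.finrank F ↥P.1 = m} ≃
      Σ U : {W : Submodule F (Fin n → F) // Module.finrank F ↥W = m},
        {W : Submodule F (Fin n → F) // IsCompl U.1 W} :=
  { toFun := fun P => ⟨⟨P.1.1, P.2.2⟩, ⟨P.1.2, P.2.1⟩⟩
    invFun := fun S => ⟨(S.1.1, S.2.1), ⟨S.2.2, S.1.2⟩⟩
    left_inv := fun P => rfl
    right_inv := fun S => rfl }
  rw [Nat.card_congr e, Nat.card_sigma]
  have h1 : ∀ U : {W : Submodule F (Fin n → F) // Module.finrank F ↥W = m},
      Nat.card {W : Submodule F (Fin n → F) // IsCompl U.1 W} = Fintype.card F ^ ((n - m) * m) := by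
    intro U
    rw [card_complements, U.2]
    have h2 := Submodule.finrank_quotient_add_finrank U.1
    rw [Module.finrank_fin_fun, U.2] at h2
    have h3 : finrank F ((Fin n → F) ⧸ U.1) = n - m := by omega
    rw [h3]
  simp only [h1]
  rw [Finset.sum_const, Finset.card_univ, smul_eq_mul, Nat.card_eq_fintype_card]

/-- Stable complements for semisimple elements. -/
theorem exists_stable_compl {F : Type*} [Field F] {V : Type*} [AddCommGroup V] [Module F V]
    [FiniteDimensional F V] {p r : ℕ} [CharP F p] (hrp : r ≠ p) (hp : p.Prime) (hr : r.Prime)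
    (T : V →ₗ[F] V) (c : F) (hc : c ≠ 0) (hT : T ^ r = c • (1 : Module.End F V))
    (W : Submodule F V) (hW : TStable T W) : ∃ U : Submodule F V, IsCompl W U ∧ TStable T U := by
  have hrF : (r : F) ≠ 0 := by
    intro h0
    have h1 := (CharP.cast_eq_zero_iff F p r).1 h0
    exact hrp ((Nat.prime_dvd_prime_iff_eq hp hr).1 h1).symm
  have hsep := Polynomial.separable_X_pow_sub_C c hrF hc
  have hss : Module.End.IsSemisimple T := by
    apply Module.End.isSemisimple_of_squarefree_aeval_eq_zero hsep.squarefree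
    simp only [map_sub, map_pow, aeval_X, aeval_C, hT]
    rw [Algebra.algebraMap_eq_smul_one, sub_self]
  obtain ⟨U, hU, hc⟩ := Module.End.isSemisimple_iff.1 hss W (fun v hv => hW v hv)
  exact ⟨U, hc, fun v hv => hU hv⟩

/-- Elusive for unipotent elements implies the partition property. -/
theorem pp_of_elusive {F : Type*} [Field F] {p : ℕ} [Fact p.Prime] [CharP F p]
    (n m : ℕ) (hmn : m ≤ n)
    (H : ∀ x : Matrix.SpecialLinearGroup (Fin n) F,
      (∃ c : F, ((x ^ p : Matrix.SpecialLinearGroup (Fin n) F) : Matrix (Fin n) (Fin n) F) = c • (1 : Matrix (Fin n) (Fin n) F)) →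
      (∀ c : F, (x : Matrix (Fin n) (Fin n) F) ≠ c • (1 : Matrix (Fin n) (Fin n) F)) →
      ∃ U W : Submodule F (Fin n → F), IsCompl U W ∧ Module.finrank F ↥U = m ∧
        U.map (Matrix.toLin' (x : Matrix (Fin n) (Fin n) F)) ≤ U ∧ W.map (Matrix.toLin' (x : Matrix (Fin n) (Fin n) F)) ≤ W) :
    ∀ μ : Multiset ℕ, (∀ a ∈ μ, 0 < a ∧ a ≤ p) → μ.sum = n → ∃ ν : Multiset ℕ, ν ≤ μ ∧ ν.sum = m := by
  classical
  intro μ h0 hs
  by_cases hne : ∃ a ∈ μ, 2 ≤ a
  · obtain ⟨x, N, hN, hxN, hxp, hns⟩ := exists_sl_of_type (F := F) (p := p) n μ h0 hs hne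
    obtain ⟨U, W, hc, hUm, hU, hW⟩ := H x ⟨1, by rw [hxp]; simp⟩ hns
    rw [hxN] at hU hW
    have hst : ∀ A : Submodule F (Fin n → F), A.map (1 + N) ≤ A → TStable N A := by
      intro A hA v hv
      have h1 : (1 + N) v ∈ A := hA ⟨v, hv, rfl⟩
      have h2 : N v = (1 + N) v - v := by simp
      rw [h2]
      exact A.sub_mem h1 hv
    obtain ⟨ν, hν, hνs⟩ := exists_sub_of_compl hN (fun a ha => (h0 a ha).2) hc (hst U hU) (hst W hW)
    exact ⟨ν, hν, by rw [hνs, hUm]⟩
  · exact exists_sub_of_all_one n m hmn μ (fun a ha => (h0 a ha).1) hs hne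

/-- The partition property implies fixed pairs for unipotent elements. -/
theorem elusive_of_pp {F : Type*} [Field F] [Fintype F] {p : ℕ} [Fact p.Prime] [CharP F p]
    (n m : ℕ) (hmn : m ≤ n)
    (hPP : ∀ μ : Multiset ℕ, (∀ a ∈ μ, 0 < a ∧ a ≤ p) → μ.sum = n → ∃ ν : Multiset ℕ, ν ≤ μ ∧ ν.sum = m)
    (x : Matrix.SpecialLinearGroup (Fin n) F) (c : F)
    (hc : ((x ^ p : Matrix.SpecialLinearGroup (Fin n) F) : Matrix (Fin n) (Fin n) F) = c • (1 : Matrix (Fin n) (Fin n) F)) :
    ∃ U W : Submodule F (Fin n → F), IsCompl U W ∧ Module.finrank F ↥U = m ∧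
      U.map (Matrix.toLin' (x : Matrix (Fin n) (Fin n) F)) ≤ U ∧ W.map (Matrix.toLin' (x : Matrix (Fin n) (Fin n) F)) ≤ W := by
  classical
  set T := Matrix.toLin' (x : Matrix (Fin n) (Fin n) F) with hT
  have hnpos : p ≠ 0 := (Fact.out : p.Prime).ne_zero
  have hTr : T ^ p = c • (1 : Module.End F (Fin n → F)) := by
    rw [hT, ← toLin'_pow_eq, ← toLin'_smul_one, ← hc, Matrix.SpecialLinearGroup.coe_pow]
  obtain ⟨b, hb⟩ := exists_pow_char_eq (F := F) (p := p) c
  by_cases hn0 : n = 0
  · subst hn0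
    obtain rfl : m = 0 := by omega
    refine ⟨⊥, ⊤, isCompl_bot_top, by simp, by simp, by simp⟩
  have hc0 : c ≠ 0 := by
    rintro rfl
    have h1 := congrArg Matrix.det hc
    have hne : Nonempty (Fin n) := ⟨⟨0, by omega⟩⟩
    rw [Matrix.SpecialLinearGroup.coe_pow, Matrix.det_pow, x.2, one_pow, zero_smul, Matrix.det_zero] at h1
    exact one_ne_zero h1
  have hb0 : b ≠ 0 := by
    rintro rfl
    rw [zero_pow hnpos] at hb
    exact hc0 hb.symm
  set Y : Module.End F (Fin n → F) := b⁻¹ • T with hY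
  have hYp : Y ^ p = 1 := by
    rw [hY, _root_.smul_pow, hTr, smul_smul, inv_pow, hb, inv_mul_cancel₀ hc0, one_smul]
  have : Nontrivial (Fin n → F) := by
    have hne : Nonempty (Fin n) := ⟨⟨0, by omega⟩⟩
    exact inferInstance
  have : CharP (Module.End F (Fin n → F)) p :=
    charP_of_injective_algebraMap (FaithfulSMul.algebraMap_injective F _) p
  set N : Module.End F (Fin n → F) := Y - 1 with hN
  have hNp : N ^ p = 0 := by
    rw [hN, sub_pow_char_of_commute _ (Commute.one_right Y), hYp, one_pow, sub_self]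
  obtain ⟨μ, hμ, hμp⟩ := exists_hasJType N p _ ⊤ rfl (tStable_top N) (fun v _ => by rw [hNp]; rfl)
  have hsum : μ.sum = n := by
    rw [← hμ.finrank_eq, finrank_top, Module.finrank_fin_fun]
  obtain ⟨ν, hν, hνs⟩ := hPP μ (fun a ha => ⟨hμ.pos a ha, hμp a ha⟩) hsum
  obtain ⟨U, U', h1, h2, h3, h4, h5⟩ := hμ.split ν hν
  have hd : finrank F U + finrank F U' = n := by
    rw [h4, h5, hνs, hsum]
    omega
  have hinf : U ⊓ U' = ⊥ := by
    have h6 := Submodule.finrank_sup_add_finrank_inf_eq U U'
    rw [h1, finrank_top, Module.finrank_fin_fun] at h6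
    have h7 : finrank F (U ⊓ U' : Submodule F (Fin n → F)) = 0 := by omega
    exact Submodule.finrank_eq_zero.1 h7
  have hstT : ∀ A : Submodule F (Fin n → F), TStable N A → A.map T ≤ A := by
    rintro A hA _ ⟨v, hv, rfl⟩
    have h6 : T v = b • (N v + v) := by
      simp [hN, hY, smul_smul, mul_inv_cancel₀ hb0]
    show T v ∈ A
    rw [h6]
    exact A.smul_mem _ (A.add_mem (hA v hv) hv)
  exact ⟨U, U', ⟨disjoint_iff.2 hinf, codisjoint_iff.2 h1⟩, by rw [h4, hνs], hstT U h2, hstT U' h3⟩

/-- The partition property in characteristic two. -/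
theorem pp_two (n m : ℕ) (hmn : m < n) (h : Odd n ∨ Even m) :
    ∀ μ : Multiset ℕ, (∀ a ∈ μ, 0 < a ∧ a ≤ 2) → μ.sum = n → ∃ ν : Multiset ℕ, ν ≤ μ ∧ ν.sum = m := by
  classical
  intro μ h0 hs
  set A := μ.count 2 with hA
  set B := μ.count 1 with hB
  have hμ : μ = Multiset.replicate A 2 + Multiset.replicate B 1 := by
    ext a
    rw [Multiset.count_add, Multiset.count_replicate, Multiset.count_replicate]
    by_cases h1 : a = 1
    · subst h1
      simp [hB]
    by_cases h2 : a = 2
    · subst h2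
      simp [hA]
    · rw [if_neg (Ne.symm h2), if_neg (Ne.symm h1), Multiset.count_eq_zero_of_notMem]
      intro ha
      have := h0 a ha
      omega
  have hn : 2 * A + B = n := by
    rw [← hs]
    conv_rhs => rw [hμ]
    simp [mul_comm]
  -- find `A' ≤ A`, `B' ≤ B` with `2 A' + B' = m`
  obtain ⟨A', B', hA', hB', hm⟩ : ∃ A' B', A' ≤ A ∧ B' ≤ B ∧ 2 * A' + B' = m := by
    by_cases hle : m / 2 ≤ A
    · refine ⟨m / 2, m % 2, hle, ?_, by omega⟩
      rcases h with h | h
      · obtain ⟨k, hk⟩ := h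
        omega
      · obtain ⟨k, hk⟩ := h
        omega
    · exact ⟨A, m - 2 * A, le_rfl, by omega, by omega⟩
  refine ⟨Multiset.replicate A' 2 + Multiset.replicate B' 1, ?_, by simp [← hm, mul_comm]⟩
  rw [hμ]
  exact add_le_add (Multiset.replicate_le_replicate _ |>.2 hA') (Multiset.replicate_le_replicate _ |>.2 hB')


/-- Elements of prime order of PSL_n(q) fixing no decomposition `F^n = U ⊕ W` with `dim U = m`. Here `T = PSL_n(F)` for a field `F` with `q = p^f` elements (`n ≥ 2`, `(n, q) ≠ (2, 2), (2, 3)`); an element of `T` of prime order `r` is represented by a matrix `x` of determinant 1 with `x^r` scalar and `x` not scalar; `i` denotes the multiplicative order of `q` modulo `r` (when `r ≠ p`), and `(a)_r` the `r`-part of `a`. Let `n ≥ 3`, `1 ≤ m < n/2`, and let `r` be a prime dividing the number of such decompositions (unordered pairs `{U, W}` of complementary subspaces with `dim U = m`; since `m ≠ n − m` these are the ordered pairs with `dim U = m`). Then every element of `T` of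 order `r` fixes such a pair (fixes both `U` and `W` for some complementary `U, W` with `dim U = m`) if and only if one of: (i) `r = p > 2` and every partition of `n` into parts of size at most `p` contains, as a sub-multiset, a partition of `m`; (ii) `r = p = 2` and `n` is odd or `m` is even; (iii) `r ≠ p`, `i = 1`, and `r ∣ m` or `(q−1)_r ≥ (n)_r` (with `q ≡ 1 (mod 4)` required when `r = 2` and `n` is even); (iv) `r ≠ p`, `2 ≤ i ≤ m` and `n mod i ≥ m mod i`. -/
theorem result {F : Type*} [Field F] [Fintype F] {p : ℕ} [Fact p.Prime] [CharP F p] {q : ℕ} (hq : Fintype.card F = q)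
    (n m : ℕ) (hn : 3 ≤ n) (hm : 1 ≤ m) (hmn : 2 * m < n)
    (r : ℕ) [Fact r.Prime]
    (hrΩ : r ∣ Nat.card {P : Submodule F (Fin n → F) × Submodule F (Fin n → F) // IsCompl P.1 P.2 ∧ Module.finrank F ↥P.1 = m}) :
    (∀ x : Matrix.SpecialLinearGroup (Fin n) F,
      (∃ c : F, ((x ^ r : Matrix.SpecialLinearGroup (Fin n) F) : Matrix (Fin n) (Fin n) F) = c • (1 : Matrix (Fin n) (Fin n) F)) →
      (∀ c : F, (x : Matrix (Fin n) (Fin n) F) ≠ c • (1 : Matrix (Fin n) (Fin n) F)) →
      ∃ U W : Submodule F (Fin n → F), IsCompl U W ∧ Module.finrank F ↥U = m ∧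
        U.map (Matrix.toLin' (x : Matrix (Fin n) (Fin n) F)) ≤ U ∧ W.map (Matrix.toLin' (x : Matrix (Fin n) (Fin n) F)) ≤ W) ↔
    ((r = p ∧ 2 < p ∧ (∀ μ : Multiset ℕ, (∀ a ∈ μ, 0 < a ∧ a ≤ p) → μ.sum = n → ∃ ν : Multiset ℕ, ν ≤ μ ∧ ν.sum = m)) ∨
     (r = p ∧ p = 2 ∧ (Odd n ∨ Even m)) ∨
     (r ≠ p ∧
      ((orderOf (q : ZMod r) = 1 ∧ (r ∣ m ∨ (padicValNat r n ≤ padicValNat r (q - 1) ∧ (r = 2 → Even n → q % 4 = 1)))) ∨
       (2 ≤ orderOf (q : ZMod r) ∧ orderOf (q : ZMod r) ≤ m ∧ m % orderOf (q : ZMod r) ≤ n % orderOf (q : ZMod r))))) := by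
  classical
  have hmle : m ≤ n := by omega
  by_cases hrp : r = p
  · subst hrp
    constructor
    · intro H
      have hPP := pp_of_elusive (F := F) (p := r) n m hmle H
      by_cases hp2 : 2 < r
      · exact Or.inl ⟨rfl, hp2, hPP⟩
      · have hr2 : r = 2 := by
          have := (Fact.out : r.Prime).two_le
          omega
        refine Or.inr (Or.inl ⟨rfl, hr2, ?_⟩)
        by_contra hcon
        push Not at hcon
        have hne : Even n := Nat.not_odd_iff_even.1 hcon.1
        have hmo : ¬ Even m := hcon.2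
        obtain ⟨k, hk⟩ := hne
        obtain ⟨ν, hν, hνs⟩ := hPP (Multiset.replicate k 2)
          (by
            intro a ha
            rw [Multiset.eq_of_mem_replicate ha, hr2]
            omega)
          (by simp; omega)
        have h1 : ν = Multiset.replicate (Multiset.card ν) 2 := by
          rw [Multiset.eq_replicate]
          exact ⟨rfl, fun b hb => Multiset.eq_of_mem_replicate (Multiset.mem_of_le hν hb)⟩
        rw [h1] at hνs
        simp at hνs
        exact hmo ⟨Multiset.card ν, by omega⟩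
    · rintro (⟨_, _, hPP⟩ | ⟨_, hr2, hcomb⟩ | ⟨h, _⟩)
      · rintro x ⟨c, hc⟩ _
        exact elusive_of_pp (F := F) (p := r) n m hmle hPP x c hc
      · rintro x ⟨c, hc⟩ _
        refine elusive_of_pp (F := F) (p := r) n m hmle ?_ x c hc
        rw [hr2]
        exact pp_two n m (by omega) hcomb
      · exact absurd rfl h
  · have hdvd : r ∣ Nat.card {W : Submodule F (Fin n → F) // Module.finrank F ↥W = m} := by
      rw [card_pairs (F := F) n m hmle] at hrΩ
      rcases (Nat.Prime.dvd_mul (Fact.out : r.Prime)).1 hrΩ with h | h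
      · exact h
      · exfalso
        have h1 := (Fact.out : r.Prime).dvd_of_dvd_pow h
        obtain ⟨f, _, hf⟩ := card_eq_pow_char (p := p) hq
        rw [hq, hf] at h1
        have h2 := (Fact.out : r.Prime).dvd_of_dvd_pow h1
        exact hrp ((Nat.prime_dvd_prime_iff_eq Fact.out Fact.out).1 h2)
    have hS := Cfsg.Agent.S5949.result (F := F) (p := p) hq n m (by omega)
      ⟨by
        intro h
        have := congrArg Prod.fst h
        simp at this
        omega, by
        intro h
        have := congrArg Prod.fst h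
        simp at this
        omega⟩ hm (by omega) r hdvd
    constructor
    · intro H
      have h1 := hS.1 (fun x hx hns => by
        obtain ⟨U, W, -, hU, hUx, -⟩ := H x hx hns
        exact ⟨U, hU, hUx⟩)
      exact Or.inr (Or.inr h1)
    · rintro (⟨h, _⟩ | ⟨h, _⟩ | hcase)
      · exact absurd h hrp
      · exact absurd h hrp
      · rintro x ⟨c, hc⟩ hns
        obtain ⟨U, hU, hUx⟩ := hS.2 hcase x ⟨c, hc⟩ hns
        set T := Matrix.toLin' (x : Matrix (Fin n) (Fin n) F) with hT
        have hTr : T ^ r = c • (1 : Module.End F (Fin n → F)) := by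
          rw [hT, ← toLin'_pow_eq, ← toLin'_smul_one, ← hc, Matrix.SpecialLinearGroup.coe_pow]
        have hc0 : c ≠ 0 := by
          rintro rfl
          have h1 := congrArg Matrix.det hc
          have hne : Nonempty (Fin n) := ⟨⟨0, by omega⟩⟩
          rw [Matrix.SpecialLinearGroup.coe_pow, Matrix.det_pow, x.2, one_pow, zero_smul, Matrix.det_zero] at h1
          exact one_ne_zero h1
        have hUs : TStable T U := fun v hv => hUx ⟨v, hv, rfl⟩
        obtain ⟨W, hcW, hW⟩ := exists_stable_compl (p := p) hrp Fact.out Fact.out T c hc0 hTr U hUs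
        refine ⟨U, W, hcW, hU, hUx, ?_⟩
        rintro _ ⟨v, hv, rfl⟩
        exact hW v hv

end Cfsg.Agent.S5950
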