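import Cfsg.Statements.S5951
import Cfsg.Agent.Lib.H29.PSLSub
-- import your own Cfsg.Agent.* helpers here

set_option autoImplicit false
open scoped MatrixGroups
open Cfsg

namespace Cfsg.Agent.S5951

open Polynomial Module Cfsg.Agent.H29 Matrix

theorem mem_of_tStable {n : ℕ} {F : Type*} [Field F] (x : Matrix (Fin n) (Fin n) F)
    (W : Submodule F (Fin n → F)) (h : TStable (Matrix.toLin' x) W) :
    W.map (Matrix.toLin' x) ≤ W := by
  rintro _ ⟨v, hv, rfl⟩
  exact h v hv

theorem tStable_of_map {n : ℕ} {F : Type*} [Field F] (x : Matrix (Fin n) (Fin n) F)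
    (W : Submodule F (Fin n → F)) (h : W.map (Matrix.toLin' x) ≤ W) :
    TStable (Matrix.toLin' x) W :=
  fun v hv => h ⟨v, hv, rfl⟩

/-- Product of `q ^ (a - j) - 1` for `j < b`. -/
def Pr (q a b : ℕ) : ℕ := ∏ j : Fin b, (q ^ (a - (j : ℕ)) - 1)

theorem Pr_succ (q a b : ℕ) : Pr q a (b + 1) = Pr q a b * (q ^ (a - b) - 1) := by
  simp only [Pr, Fin.prod_univ_castSucc, Fin.val_castSucc, Fin.val_last]

theorem Pr_add (q a b c : ℕ) : Pr q a (b + c) = Pr q a b * Pr q (a - b) c := by
  induction c with
  | zero => simp [Pr]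
  | succ c ih =>
    rw [← add_assoc, Pr_succ, ih, Pr_succ, mul_assoc, Nat.sub_sub]

theorem Pr_pos (q a b : ℕ) (hq : 2 ≤ q) (hb : b ≤ a) : 0 < Pr q a b := by
  apply Finset.prod_pos
  intro j _
  have h1 : 1 ≤ a - (j : ℕ) := by have := j.2; omega
  have h2 : q ^ 1 ≤ q ^ (a - (j : ℕ)) := Nat.pow_le_pow_right (by omega) h1
  have h3 : 2 ≤ q ^ (a - (j : ℕ)) := by simpa using hq.trans (by simpa using h2)
  omega

section Pairs

variable {F : Type*} [Field F] [Fintype F] {V : Type*} [AddCommGroup V] [Module F V]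
  [FiniteDimensional F V] {q : ℕ}

/-- Counting pairs `U ≤ W`. -/
theorem card_pairs_mul (hF : Fintype.card F = q) (m k : ℕ) (hk : k ≤ finrank F V) (hmk : m ≤ k) :
    Nat.card {P : Submodule F V × Submodule F V // P.1 ≤ P.2 ∧ finrank F ↥P.1 = m ∧ finrank F ↥P.2 = k} *
        Pr q m m =
      Nat.card {W : Submodule F V // finrank F ↥W = k} * Pr q k m := by
  classical
  haveI : Finite V := Module.finite_of_finite F
  let X₁ := {P : Submodule F V × Submodule F V // P.1 ≤ P.2 ∧ finrank F ↥P.1 = m ∧ finrank F ↥P.2 = k}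
  let Y₁ := {W : Submodule F V // finrank F ↥W = k}
  let f : X₁ → Y₁ := fun P => ⟨P.1.2, P.2.2.2⟩
  have hfib : ∀ W : Y₁, Nat.card {P : X₁ // f P = W} * Pr q m m = Pr q k m := by
    rintro ⟨W, hW⟩
    have hcount := card_subspaces_mul' (F := F) (V := W) hF m (by rw [hW]; exact hmk)
    rw [hW] at hcount
    have h2 : Nat.card {P : X₁ // f P = ⟨W, hW⟩} = Nat.card {U : Submodule F W // finrank F ↥U = m} := by
      apply Nat.card_congr
      refine
        { toFun := fun P => ⟨P.1.1.1.comap W.subtype, ?_⟩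
          invFun := fun U => ⟨⟨(U.1.map W.subtype, W), ?_, ?_, hW⟩, rfl⟩
          left_inv := ?_
          right_inv := ?_ }
      · obtain ⟨⟨⟨A, B⟩, hAB, hAm, hBk⟩, hP⟩ := P
        have hB : B = W := congrArg Subtype.val hP
        subst hB
        simp only at hAB hAm ⊢
        have h4 := Submodule.finrank_map_subtype_eq B (A.comap B.subtype)
        rw [Submodule.map_comap_subtype, inf_eq_right.2 hAB, hAm] at h4
        exact h4.symm
      · exact Submodule.map_subtype_le W U.1
      · rw [Submodule.finrank_map_subtype_eq]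
        exact U.2
      · rintro ⟨⟨⟨A, B⟩, hAB, hAm, hBk⟩, hP⟩
        have hB : B = W := congrArg Subtype.val hP
        subst hB
        apply Subtype.ext
        apply Subtype.ext
        apply Prod.ext
        · show (A.comap B.subtype).map B.subtype = A
          rw [Submodule.map_comap_subtype, inf_eq_right.2 hAB]
        · rfl
      · rintro ⟨U, hU⟩
        apply Subtype.ext
        show (U.map W.subtype).comap W.subtype = U
        exact Submodule.comap_map_eq_of_injective W.injective_subtype U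
    rw [h2]
    exact hcount
  have h3 : Nat.card X₁ = Nat.card (Σ W : Y₁, {s : X₁ // f s = W}) :=
    Nat.card_congr (Equiv.sigmaFiberEquiv f).symm
  haveI : Fintype (Submodule F V) := Fintype.ofFinite _
  letI : Fintype Y₁ := Fintype.ofFinite _
  show Nat.card X₁ * Pr q m m = Nat.card Y₁ * Pr q k m
  rw [h3, Nat.card_sigma, Finset.sum_mul]
  simp only [hfib]
  rw [Finset.sum_const, Finset.card_univ, smul_eq_mul, Nat.card_eq_fintype_card]

/-- The number of pairs, up to the powers of `q`. -/
theorem card_pairs_eq (hF : Fintype.card F = q) (n m : ℕ) (hn : finrank F V = n) (hmn : 2 * m ≤ n) :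
    Nat.card {P : Submodule F V × Submodule F V // P.1 ≤ P.2 ∧ finrank F ↥P.1 = m ∧ finrank F ↥P.2 = n - m} *
        (Pr q m m * Pr q m m) = Pr q n (2 * m) := by
  have hq2 : 2 ≤ q := two_le_card hF
  have h1 := card_pairs_mul (F := F) (V := V) hF m (n - m) (by omega) (by omega)
  have h2 := card_subspaces_mul' (F := F) (V := V) hF (n - m) (by omega)
  rw [hn] at h2
  set C := Nat.card {P : Submodule F V × Submodule F V // P.1 ≤ P.2 ∧ finrank F ↥P.1 = m ∧ finrank F ↥P.2 = n - m}
  set N := Nat.card {W : Submodule F V // finrank F ↥W = n - m}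
  have h2' : N * Pr q (n - m) (n - m) = Pr q n (n - m) := h2
  have e1 : Pr q n n = Pr q n (n - m) * Pr q m m := by
    have := Pr_add q n (n - m) m
    rw [show n - m + m = n by omega, show n - (n - m) = m by omega] at this
    exact this
  have e2 : Pr q (n - m) (n - m) = Pr q (n - m) m * Pr q (n - 2 * m) (n - 2 * m) := by
    have := Pr_add q (n - m) m (n - 2 * m)
    rw [show m + (n - 2 * m) = n - m by omega, show n - m - m = n - 2 * m by omega] at this
    exact this
  have e3 : Pr q n n = Pr q n (2 * m) * Pr q (n - 2 * m) (n - 2 * m) := by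
    have := Pr_add q n (2 * m) (n - 2 * m)
    rw [show 2 * m + (n - 2 * m) = n by omega] at this
    exact this
  have hE : 0 < Pr q (n - m) m := Pr_pos q _ _ hq2 (by omega)
  have hD : 0 < Pr q (n - 2 * m) (n - 2 * m) := Pr_pos q _ _ hq2 le_rfl
  have h3 : C * Pr q m m * Pr q (n - 2 * m) (n - 2 * m) = Pr q n (n - m) := by
    apply Nat.eq_of_mul_eq_mul_left hE
    rw [← h2', e2]
    calc Pr q (n - m) m * (C * Pr q m m * Pr q (n - 2 * m) (n - 2 * m))
        = (C * Pr q m m) * (Pr q (n - m) m * Pr q (n - 2 * m) (n - 2 * m)) := by ring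
      _ = (N * Pr q (n - m) m) * (Pr q (n - m) m * Pr q (n - 2 * m) (n - 2 * m)) := by rw [h1]
      _ = _ := by ring
  apply Nat.eq_of_mul_eq_mul_right hD
  calc C * (Pr q m m * Pr q m m) * Pr q (n - 2 * m) (n - 2 * m)
      = (C * Pr q m m * Pr q (n - 2 * m) (n - 2 * m)) * Pr q m m := by ring
    _ = Pr q n (n - m) * Pr q m m := by rw [h3]
    _ = Pr q n (2 * m) * Pr q (n - 2 * m) (n - 2 * m) := by rw [← e1, e3]

end Pairs


/-- Elements of prime order of PSL_n(q) fixing no pair of subspaces `U < W` with `dim U = m`, `dim W = n − m`. Here `T = PSL_n(F)` for a field `F` with `q = p^f` elements (`n ≥ 2`, `(n, q) ≠ (2, 2), (2, 3)`); an element of `T` of prime order `r` is represented by a matrix `x` of determinant 1 with `x^r` scalar and `x` not scalar; `i` denotes the multiplicative order of `q` modulo `r` (when `r ≠ p`), and `(a)_r` the `r`-part of `a`. Let `1 ≤ m < n/2` and let `r` be a prime dividing the number of such pairs. Then every element of `T` of order `r` fixes such a pair (both `U` and `W`)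 if and only if `r ≠ p` and either (i) `i = 1` and (`r ∣ m`, or `(q−1)_r ≥ (n)_r` with `q ≡ 1 (mod 4)` required when `r = 2` and `n` is even), or (ii) `2 ≤ i ≤ m` and `n mod i ≥ 2 (m mod i)`. -/
theorem result {F : Type*} [Field F] [Fintype F] {p : ℕ} [Fact p.Prime] [CharP F p] {q : ℕ} (hq : Fintype.card F = q)
    (n m : ℕ) (hn : 2 ≤ n) (hT : (n, q) ≠ (2, 2) ∧ (n, q) ≠ (2, 3)) (hm : 1 ≤ m) (hmn : 2 * m < n)
    (r : ℕ) [Fact r.Prime]
    (hrΩ : r ∣ Nat.card {P : Submodule F (Fin n → F) × Submodule F (Fin n → F) //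
        P.1 ≤ P.2 ∧ Module.finrank F ↥P.1 = m ∧ Module.finrank F ↥P.2 = n - m}) :
    (∀ x : Matrix.SpecialLinearGroup (Fin n) F,
      (∃ c : F, ((x ^ r : Matrix.SpecialLinearGroup (Fin n) F) : Matrix (Fin n) (Fin n) F) = c • (1 : Matrix (Fin n) (Fin n) F)) →
      (∀ c : F, (x : Matrix (Fin n) (Fin n) F) ≠ c • (1 : Matrix (Fin n) (Fin n) F)) →
      ∃ U W : Submodule F (Fin n → F), U ≤ W ∧ Module.finrank F ↥U = m ∧ Module.finrank F ↥W = n - m ∧
        U.map (Matrix.toLin' (x : Matrix (Fin n) (Fin n) F)) ≤ U ∧ W.map (Matrix.toLin' (x : Matrix (Fin n) (Fin n) F)) ≤ W) ↔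
    (r ≠ p ∧
      ((orderOf (q : ZMod r) = 1 ∧ (r ∣ m ∨ (padicValNat r n ≤ padicValNat r (q - 1) ∧ (r = 2 → Even n → q % 4 = 1)))) ∨
       (2 ≤ orderOf (q : ZMod r) ∧ orderOf (q : ZMod r) ≤ m ∧ 2 * (m % orderOf (q : ZMod r)) ≤ n % orderOf (q : ZMod r)))) := by
  classical
  have hq2 : 2 ≤ q := two_le_card hq
  set i := orderOf (q : ZMod r) with hi
  have hn0 : n ≠ 0 := by omega
  constructor
  · intro H
    -- the count
    have hcount := card_pairs_eq (F := F) (V := Fin n → F) hq n m (by simp) hmn.le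
    have hd : r ∣ Pr q n (2 * m) := by
      rw [← hcount]
      exact hrΩ.mul_right _
    obtain ⟨j, -, hjd⟩ := (Prime.dvd_finsetProd_iff (Nat.Prime.prime (Fact.out : r.Prime)) _).1 hd
    have hjlt : (j : ℕ) < 2 * m := j.2
    have hrp : r ≠ p := ne_char_of_dvd hq (by omega) hjd
    refine ⟨hrp, ?_⟩
    have hipos : 0 < i := orderOf_q_pos (F := F) (p := p) hq hrp
    have hidvd : i ∣ n - (j : ℕ) := (dvd_pow_sub_one_iff hq2 _).1 hjd
    by_cases hi1 : i = 1
    · left
      refine ⟨hi1, ?_⟩
      by_contra hcon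
      push Not at hcon
      have hrm : ¬ r ∣ m := hcon.1
      have hv : ¬ (padicValNat r n ≤ padicValNat r (q - 1) ∧ (r = 2 → Even n → q % 4 = 1)) := by
        rintro ⟨h1, h2⟩
        obtain ⟨h3, h4, h5⟩ := hcon.2 h1
        exact h5 (h2 h3 h4)
      obtain ⟨x, ⟨c, hc⟩, hns, hdiv⟩ := exists_sl_of_i_one (F := F) (p := p) hq hrp hi1 n hn0 hv
      obtain ⟨U, W, -, hUm, -, hU, -⟩ := H x ⟨c, hc⟩ hns
      apply hrm
      rw [← hUm]
      exact hdiv U (tStable_of_map _ U hU)
    · right
      have hi2 : 2 ≤ i := by omega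
      refine ⟨hi2, ?_⟩
      have hjn : 0 < n - (j : ℕ) := by omega
      have hin : i ≤ n := (Nat.le_of_dvd hjn hidvd).trans (Nat.sub_le _ _)
      have ht : 1 ≤ n / i := (Nat.le_div_iff_mul_le hipos).2 (by simpa using hin)
      obtain ⟨x, hx1, hns, A, B, hA, hAB⟩ := exists_sl_block (F := F) (p := p) hq hrp hi2 n (n / i)
        (n % i) (by rw [mul_comm]; exact (Nat.div_add_mod n i).symm) ht
      obtain ⟨U, W, hUW, hUm, hWm, hU, hW⟩ := H x ⟨1, by rw [hx1, one_smul]⟩ hns
      obtain ⟨h1, s₁, hs₁⟩ := hAB U (tStable_of_map _ U hU)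
      obtain ⟨h2, s₂, hs₂⟩ := hAB W (tStable_of_map _ W hW)
      rw [hUm] at h1
      rw [hWm] at h2
      set a₁ := finrank F (U ⊓ A : Submodule F (Fin n → F)) with ha₁
      set a₂ := finrank F (W ⊓ A : Submodule F (Fin n → F)) with ha₂
      have ha₂le : a₂ ≤ n % i := (Submodule.finrank_mono inf_le_right).trans hA
      have ha₁₂ : a₁ ≤ a₂ := Submodule.finrank_mono (inf_le_inf_right _ hUW)
      have hmodlt : n % i < i := Nat.mod_lt _ hipos
      have hm' : m = a₁ + i * s₁ := by rw [h1, hs₁]
      have hk' : n - m = a₂ + i * s₂ := by rw [h2, hs₂]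
      have hmmod : m % i = a₁ := by
        rw [hm', Nat.add_mul_mod_self_left, Nat.mod_eq_of_lt (by omega)]
      have hnsum : n = (a₁ + a₂) + i * (s₁ + s₂) := by
        calc n = m + (n - m) := by omega
          _ = (a₁ + i * s₁) + (a₂ + i * s₂) := by rw [← hm', ← hk']
          _ = _ := by ring
      have hnmod : n % i = (a₁ + a₂) % i := by
        conv_lhs => rw [hnsum, Nat.add_mul_mod_self_left]
      have h2a : 2 * a₁ ≤ n % i := by
        rcases lt_or_ge (a₁ + a₂) i with h3 | h3
        · rw [hnmod, Nat.mod_eq_of_lt h3]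
          omega
        · exfalso
          have h4 : (a₁ + a₂) % i = a₁ + a₂ - i := by
            rw [Nat.mod_eq_sub_mod h3, Nat.mod_eq_of_lt (by omega)]
          omega
      refine ⟨?_, by rw [hmmod]; exact h2a⟩
      by_contra hlt
      push Not at hlt
      have hs0 : s₁ = 0 := by
        by_contra h0
        have : i * 1 ≤ i * s₁ := Nat.mul_le_mul_left _ (by omega)
        omega
      rw [hs0, mul_zero, add_zero] at hm'
      have hnj : n % i = (j : ℕ) := by
        have h5 : n = (n - (j : ℕ)) + (j : ℕ) := by omega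
        obtain ⟨w, hw⟩ := hidvd
        rw [h5, hw, Nat.mul_add_mod]
        exact Nat.mod_eq_of_lt (by omega)
      omega
  · rintro ⟨hrp, hcase⟩ x ⟨c, hc⟩ hns
    have hipos : 0 < i := orderOf_q_pos (F := F) (p := p) hq hrp
    set T := Matrix.toLin' (x : Matrix (Fin n) (Fin n) F) with hT
    have hTr : T ^ r = c • (1 : Module.End F (Fin n → F)) := by
      rw [hT, ← toLin'_pow_eq, ← toLin'_smul_one, ← hc, Matrix.SpecialLinearGroup.coe_pow]
    have hdetT : LinearMap.det T = 1 := by
      rw [hT, LinearMap.det_toLin']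
      exact x.2
    have hc0 : c ≠ 0 := by
      rintro rfl
      have h1 := congrArg Matrix.det hc
      have hne : Nonempty (Fin n) := ⟨⟨0, by omega⟩⟩
      rw [Matrix.SpecialLinearGroup.coe_pow, Matrix.det_pow, x.2, one_pow, zero_smul, Matrix.det_zero] at h1
      exact one_ne_zero h1
    suffices hs : ∃ U W : Submodule F (Fin n → F), U ≤ W ∧ finrank F U = m ∧ finrank F W = n - m ∧
        TStable T U ∧ TStable T W by
      obtain ⟨U, W, h1, h2, h3, h4, h5⟩ := hs
      exact ⟨U, W, h1, h2, h3, mem_of_tStable _ U h4, mem_of_tStable _ W h5⟩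
    have hred : ∀ b : F, b ≠ 0 → b ^ r = c → ((b⁻¹ • T) ^ r = 1) := by
      intro b hb hbc
      rw [_root_.smul_pow, hTr, smul_smul, inv_pow, hbc, inv_mul_cancel₀ hc0, one_smul]
    have hstab : ∀ (b : F) (W : Submodule F (Fin n → F)), b ≠ 0 → TStable (b⁻¹ • T) W → TStable T W :=
      fun b W hb h => tStable_of_smul _ h (inv_ne_zero hb)
    rcases hcase with ⟨hi1, hcase⟩ | ⟨hi2, himk, hmod⟩
    · by_cases hcp : ∃ b : F, b ^ r = c
      · obtain ⟨b, hb⟩ := hcp
        have hb0 : b ≠ 0 := by
          rintro rfl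
          rw [zero_pow (Fact.out : r.Prime).ne_zero] at hb
          exact hc0 hb.symm
        obtain ⟨U, W, hUW, hU, hW, hUr, hWr⟩ := exists_stable_pair_of_degree_one (b⁻¹ • T) (X ^ r - 1 : F[X])
          (by
            have := X_pow_sub_C_ne_zero (R := F) (Fact.out : r.Prime).pos 1
            simpa using this)
          (fun g hg hd => natDegree_of_dvd_X_pow_sub_one (p := p) hq hrp hi1 g hg hd)
          (aeval_X_pow_sub_one _ (hred b hb0 hb)) m (n - m) (by omega) (by simp)
        exact ⟨U, W, hUW, hUr, hWr, hstab b U hb0 hU, hstab b W hb0 hW⟩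
      · push Not at hcp
        have hpad := padic_of_not_pow hq n hn0 T c hcp hTr hdetT
        have hrm : r ∣ m := by
          rcases hcase with h | h
          · exact h
          · exact absurd h hpad
        obtain ⟨s, hs, -⟩ := det_of_not_pow T c hcp hTr hdetT
        rw [Module.finrank_fin_fun] at hs
        obtain ⟨t, rfl⟩ := hrm
        have hrn : n - r * t = (s - t) * r := by
          rw [hs, Nat.sub_mul, mul_comm r t]
        have hts : t ≤ s - t := by
          by_contra hlt
          push Not at hlt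
          have hrpos := (Fact.out : r.Prime).pos
          have h1 : (s - t + 1) * r ≤ t * r := Nat.mul_le_mul_right _ hlt
          rw [add_mul, ← hrn, one_mul] at h1
          have h2 := hmn
          have h3 : r * t = t * r := mul_comm _ _
          omega
        obtain ⟨U, W, hUW, hU, hW, hUr, hWr⟩ := exists_stable_of_not_pow T c hcp hTr t (s - t) hts
          (by rw [Module.finrank_fin_fun, ← hrn]; omega)
        exact ⟨U, W, hUW, by rw [hUr, mul_comm], by rw [hWr, hrn], hU, hW⟩
    · have hrq : ¬ r ∣ q - 1 := by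
        rw [dvd_sub_one_iff hq2]
        omega
      obtain ⟨b, hb0, hb⟩ := exists_pow_eq_of_not_dvd hq hrq c hc0
      obtain ⟨a₁, t', hsum, hpair⟩ := exists_pair_of_pow_eq_one (p := p) hq hrp (b⁻¹ • T) (hred b hb0 hb)
      rw [Module.finrank_fin_fun, ← hi] at hsum
      simp only [← hi] at hpair
      obtain ⟨himk, hmod⟩ := (⟨himk, hmod⟩ : _ ∧ _)
      set k := n - m with hk
      -- the dimensions of `W`
      have hnmod : (n - m) % i = n % i - m % i := by
        have h1 : m % i ≤ n % i := by omega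
        have h2 : m / i ≤ n / i := Nat.div_le_div_right (by omega)
        have h3 : n - m = i * (n / i - m / i) + (n % i - m % i) := by
          have h4 := Nat.div_add_mod n i
          have h5 := Nat.div_add_mod m i
          rw [Nat.mul_sub]
          have h6 : i * (m / i) ≤ i * (n / i) := Nat.mul_le_mul_left _ h2
          omega
        rw [h3, Nat.mul_add_mod, Nat.mod_eq_of_lt]
        have := Nat.mod_lt n hipos
        omega
      have hnmoda : n % i ≤ a₁ := by
        have h3 : n % i = a₁ % i := by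
          rw [hsum, Nat.add_mul_mod_self_right]
        rw [h3]
        exact Nat.mod_le _ _
      set β₂ := min t' (k / i) with hβ₂
      have hβ₂le : β₂ * i ≤ k :=
        (Nat.mul_le_mul_right _ (min_le_right _ _)).trans (Nat.div_mul_le_self _ _)
      set α₂ := k - β₂ * i with hα₂
      have hα₂le : α₂ ≤ a₁ := by
        rcases le_total t' (k / i) with h | h
        · have : β₂ = t' := min_eq_left h
          rw [hα₂, this]
          omega
        · have : β₂ = k / i := min_eq_right h
          have h1 : α₂ = k % i := by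
            rw [hα₂, this]
            have := Nat.div_add_mod' k i
            omega
          rw [h1, hk, hnmod]
          omega
      have hα₂ge : n % i - m % i ≤ α₂ := by
        rw [← hnmod, ← hk]
        have h1 : k = α₂ + β₂ * i := by omega
        have h2 : k % i = α₂ % i := by
          rw [h1, Nat.add_mul_mod_self_right]
        rw [h2]
        exact Nat.mod_le _ _
      set β₁ := min β₂ (m / i) with hβ₁
      have hβ₁le : β₁ * i ≤ m :=
        (Nat.mul_le_mul_right _ (min_le_right _ _)).trans (Nat.div_mul_le_self _ _)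
      set α₁ := m - β₁ * i with hα₁
      have hα₁le : α₁ ≤ α₂ := by
        rcases le_total β₂ (m / i) with h | h
        · have : β₁ = β₂ := min_eq_left h
          rw [hα₁, this, hα₂]
          omega
        · have : β₁ = m / i := min_eq_right h
          have h1 : α₁ = m % i := by
            rw [hα₁, this]
            have := Nat.div_add_mod' m i
            omega
          omega
      obtain ⟨U, W, hUW, hU, hW, hUr, hWr⟩ := hpair α₁ α₂ β₁ β₂ hα₁le hα₂le (min_le_left _ _) (min_le_left _ _)
      refine ⟨U, W, hUW, ?_, ?_, hstab b U hb0 hU, hstab b W hb0 hW⟩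
      · rw [hUr]
        omega
      · rw [hWr]
        omega

end Cfsg.Agent.S5951
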