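import Cfsg.Statements.S5952
-- import your own Cfsg.Agent.* helpers here

set_option autoImplicit false
open Cfsg

namespace Cfsg.Agent.S5952

variable {F V : Type*} [Field F] [AddCommGroup V] [Module F V] [FiniteDimensional F V]

lemma exists_sub (C : Submodule F V) (k : ℕ) (h : k ≤ Module.finrank F C) :
    ∃ W : Submodule F V, W ≤ C ∧ Module.finrank F W = k := by
  classical
  let b := Module.finBasis F C
  let v : Fin k → V := fun i => (b (Fin.castLE h i) : V)
  have hv : LinearIndependent F v := by
    have h1 := b.linearIndependent.comp _ (Fin.castLE_injective h)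
    have h2 := h1.map' C.subtype (Submodule.ker_subtype C)
    exact h2
  refine ⟨Submodule.span F (Set.range v), ?_, ?_⟩
  · rw [Submodule.span_le]
    rintro _ ⟨i, rfl⟩
    exact (b (Fin.castLE h i)).2
  · rw [finrank_span_eq_card hv]
    simp

lemma split_dim (A B W : Submodule F V) (hdisj : Disjoint A B) (hW : W ≤ A ⊔ B) :
    Module.finrank F W = Module.finrank F ((W ⊔ A) ⊓ B : Submodule F V) + Module.finrank F (W ⊓ A : Submodule F V) := by
  have h1 : W ⊔ A = A ⊔ ((W ⊔ A) ⊓ B) := by
    have hle : A ≤ W ⊔ A := le_sup_right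
    have := sup_inf_assoc_of_le B hle
    rw [inf_comm (W ⊔ A) B, ← this, inf_eq_right.mpr (sup_le hW le_sup_left)]
  have h2 : A ⊓ ((W ⊔ A) ⊓ B) = ⊥ := by
    rw [eq_bot_iff]
    exact le_trans (inf_le_inf_left A inf_le_right) hdisj.le_bot
  have h3 := Submodule.finrank_sup_add_finrank_inf_eq A ((W ⊔ A) ⊓ B)
  have h4 := Submodule.finrank_sup_add_finrank_inf_eq W A
  rw [h2, finrank_bot, ← h1] at h3
  omega

lemma dvd_finrank {s a : ℕ} (f : V →ₗ[F] V) (U : Fin s → Submodule F V)
    (hindep : iSupIndep U)
    (hUinv : ∀ j, U j ≤ (U j).comap f) (hUdim : ∀ j, Module.finrank F ↥(U j) = a)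
    (hUirr : ∀ j, ∀ W : Submodule F V, W ≤ U j → W ≤ W.comap f → W = ⊥ ∨ W = U j)
    (T : Finset (Fin s)) :
    ∀ W : Submodule F V, W ≤ ⨆ i ∈ T, U i → W ≤ W.comap f → a ∣ Module.finrank F W := by
  classical
  induction T using Finset.induction_on with
  | empty =>
    intro W hW _
    simp only [Finset.notMem_empty, iSup_false, iSup_bot, le_bot_iff] at hW
    subst hW
    simp
  | insert j T hj ih =>
    intro W hW hWinv
    rw [Finset.iSup_insert] at hW
    set B := ⨆ i ∈ T, U i with hB
    have hBinv : B ≤ B.comap f := by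
      refine iSup₂_le fun i hi => (hUinv i).trans ?_
      exact Submodule.comap_mono (le_iSup₂_of_le i hi le_rfl)
    have hdisj : Disjoint (U j) B := by
      have := hindep.disjoint_biSup (y := (T : Set (Fin s))) (x := j) (by simpa using hj)
      simpa using this
    have hsplit := split_dim (U j) B W hdisj hW
    have hW₁inv : ((W ⊔ U j) ⊓ B : Submodule F V) ≤ ((W ⊔ U j) ⊓ B : Submodule F V).comap f := by
      rw [Submodule.comap_inf]
      refine inf_le_inf ?_ hBinv
      refine sup_le (hWinv.trans (Submodule.comap_mono le_sup_left)) ((hUinv j).trans (Submodule.comap_mono le_sup_right))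
    have hd1 := ih _ (inf_le_right) hW₁inv
    have hW₂inv : (W ⊓ U j : Submodule F V) ≤ (W ⊓ U j : Submodule F V).comap f := by
      rw [Submodule.comap_inf]
      exact inf_le_inf hWinv (hUinv j)
    have hd2 : a ∣ Module.finrank F (W ⊓ U j : Submodule F V) := by
      rcases hUirr j _ inf_le_right hW₂inv with h | h
      · rw [h]; simp
      · rw [h, hUdim]
    rw [hsplit]
    exact dvd_add hd1 hd2

lemma finrank_biSup {s a : ℕ} (U : Fin s → Submodule F V)
    (hindep : iSupIndep U) (hUdim : ∀ j, Module.finrank F ↥(U j) = a)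
    (T : Finset (Fin s)) :
    Module.finrank F (⨆ i ∈ T, U i : Submodule F V) = T.card * a := by
  classical
  induction T using Finset.induction_on with
  | empty => simp
  | insert j T hj ih =>
    rw [Finset.iSup_insert, Finset.card_insert_of_notMem hj]
    have hdisj : Disjoint (U j) (⨆ i ∈ T, U i) := by
      have := hindep.disjoint_biSup (y := (T : Set (Fin s))) (x := j) (by simpa using hj)
      simpa using this
    have h3 := Submodule.finrank_sup_add_finrank_inf_eq (U j) (⨆ i ∈ T, U i)
    rw [hdisj.eq_bot, finrank_bot, ih, hUdim] at h3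
    rw [add_mul, one_mul]
    omega


/-- Which dimensions of invariant subspaces a semisimple linear map has. Let `V` be a finite-dimensional vector space over a field `F` and `f` an invertible semisimple linear map of `V`. Suppose `V` is the internal direct sum of the fixed space `C_V(f)` (the eigenspace for 1) and subspaces `U_1, …, U_s`, each `f`-invariant of dimension `a ≥ 1` on which `f` acts irreducibly (no `f`-invariant subspaces other than 0 and `U_j`). Let `0 < m < dim V` and `ℓ = m mod a`. Then `f` leaves some `m`-dimensional subspace invariant if and only if `dim C_V(f) ≥ m`, or `a ≤ m` and `dim C_V(f) ≥ ℓ`. -/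
theorem result {F V : Type*} [Field F] [AddCommGroup V] [Module F V]
    [FiniteDimensional F V] (f : V →ₗ[F] V) (hf : Function.Bijective f) (hss : Module.End.IsSemisimple f)
    {s a : ℕ} (ha : 1 ≤ a) (U : Fin s → Submodule F V)
    (hUinv : ∀ j, (U j).map f ≤ U j) (hUdim : ∀ j, Module.finrank F ↥(U j) = a)
    (hUirr : ∀ j, ∀ W : Submodule F V, W ≤ U j → W.map f ≤ W → W = ⊥ ∨ W = U j)
    (hdec : DirectSum.IsInternal (fun o : Option (Fin s) => o.elim (Module.End.eigenspace f 1) U))
    (m : ℕ) (hm : 0 < m) (hmV : m < Module.finrank F V) :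
    (∃ W : Submodule F V, Module.finrank F ↥W = m ∧ W.map f ≤ W) ↔
    (m ≤ Module.finrank F ↥(Module.End.eigenspace f 1) ∨
      (a ≤ m ∧ m % a ≤ Module.finrank F ↥(Module.End.eigenspace f 1))) := by
    classical
  set C := Module.End.eigenspace f 1 with hC
  have hCfix : ∀ x ∈ C, f x = x := by
    intro x hx
    have := Module.End.mem_eigenspace_iff.mp hx
    simpa using this
  have hCinv : C ≤ C.comap f := fun x hx => by
    rw [Submodule.mem_comap, hCfix x hx]; exact hx
  have hUinv' : ∀ j, U j ≤ (U j).comap f := fun j => Submodule.map_le_iff_le_comap.mp (hUinv j)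
  have hUirr' : ∀ j, ∀ W : Submodule F V, W ≤ U j → W ≤ W.comap f → W = ⊥ ∨ W = U j :=
    fun j W h1 h2 => hUirr j W h1 (Submodule.map_le_iff_le_comap.mpr h2)
  obtain ⟨hind, htop⟩ := (DirectSum.isInternal_submodule_iff_iSupIndep_and_iSup_eq_top _).mp hdec
  have hindU : iSupIndep U := hind.comp (Option.some_injective _)
  set B : Submodule F V := ⨆ j ∈ (Finset.univ : Finset (Fin s)), U j with hB
  have hdisj : Disjoint C B := by
    have h0 := hind none
    refine h0.mono_right ?_
    refine iSup₂_le fun j _ => ?_
    exact le_iSup₂_of_le (some j) (by simp) le_rfl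
  have hsup : C ⊔ B = ⊤ := by
    rw [iSup_option] at htop
    have : (⨆ b, (Option.elim (some b) C U)) = B := by simp [hB]
    rw [this] at htop
    exact htop
  have hcompl : IsCompl C B := ⟨hdisj, codisjoint_iff.mpr hsup⟩
  have hBdim : Module.finrank F B = s * a := by
    have := finrank_biSup U hindU hUdim Finset.univ
    simpa using this
  have hV : Module.finrank F C + s * a = Module.finrank F V := by
    rw [← hBdim]
    exact Submodule.finrank_add_eq_of_isCompl hcompl
  constructor
  · rintro ⟨W, hWm, hWinv⟩
    have hWinv' : W ≤ W.comap f := Submodule.map_le_iff_le_comap.mp hWinv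
    have hsplit := split_dim C B W hdisj (by rw [hsup]; exact le_top)
    have hd : a ∣ Module.finrank F ((W ⊔ C) ⊓ B : Submodule F V) := by
      refine dvd_finrank f U hindU hUinv' hUdim hUirr' Finset.univ _ inf_le_right ?_
      rw [Submodule.comap_inf]
      refine inf_le_inf ?_ ?_
      · exact sup_le (hWinv'.trans (Submodule.comap_mono le_sup_left)) (hCinv.trans (Submodule.comap_mono le_sup_right))
      · refine iSup₂_le fun i hi => (hUinv' i).trans ?_
        exact Submodule.comap_mono (le_iSup₂_of_le i hi le_rfl)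
    obtain ⟨t, ht⟩ := hd
    have hc : Module.finrank F (W ⊓ C : Submodule F V) ≤ Module.finrank F C :=
      Submodule.finrank_mono inf_le_right
    rw [hWm, ht] at hsplit
    rcases Nat.eq_zero_or_pos t with h0 | hpos
    · left
      subst h0
      simp at hsplit
      omega
    · right
      constructor
      · have : a ≤ a * t := Nat.le_mul_of_pos_right a hpos
        omega
      · rw [hsplit, Nat.mul_add_mod]
        exact (Nat.mod_le _ _).trans hc
  · intro h
    -- a good pair `(c, t)`
    have hpair : ∃ c t : ℕ, c ≤ Module.finrank F C ∧ t ≤ s ∧ c + t * a = m := by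
      rcases h with h | ⟨h1, h2⟩
      · exact ⟨m, 0, h, Nat.zero_le _, by simp⟩
      · by_cases hle : m / a ≤ s
        · refine ⟨m % a, m / a, h2, hle, ?_⟩
          rw [mul_comm]
          exact Nat.mod_add_div m a
        · push Not at hle
          refine ⟨m - s * a, s, ?_, le_rfl, ?_⟩
          · omega
          · have : s * a ≤ m := by
              have h3 : s * a ≤ (m / a) * a := Nat.mul_le_mul_right a hle.le
              exact h3.trans (Nat.div_mul_le_self m a)
            omega
    obtain ⟨c, t, hc, ht, hsum⟩ := hpair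
    obtain ⟨C₀, hC₀, hC₀c⟩ := exists_sub C c hc
    obtain ⟨T, -, hT⟩ := Finset.exists_subset_card_eq (s := (Finset.univ : Finset (Fin s))) (n := t) (by simpa using ht)
    refine ⟨C₀ ⊔ ⨆ j ∈ T, U j, ?_, ?_⟩
    · have h3 := Submodule.finrank_sup_add_finrank_inf_eq C₀ (⨆ j ∈ T, U j)
      have h4 : C₀ ⊓ (⨆ j ∈ T, U j) = ⊥ := by
        rw [eq_bot_iff]
        refine le_trans (inf_le_inf hC₀ ?_) hdisj.le_bot
        exact iSup₂_le fun j _ => le_iSup₂_of_le j (Finset.mem_univ j) le_rfl
      rw [h4, finrank_bot, finrank_biSup U hindU hUdim T, hC₀c, hT] at h3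
      omega
    · rw [Submodule.map_le_iff_le_comap]
      refine sup_le ?_ ?_
      · intro x hx
        rw [Submodule.mem_comap, hCfix x (hC₀ hx)]
        exact Submodule.mem_sup_left hx
      · refine iSup₂_le fun i hi => (hUinv' i).trans ?_
        exact Submodule.comap_mono (le_sup_of_le_right (le_iSup₂_of_le i hi le_rfl))

end Cfsg.Agent.S5952
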