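import Cfsg.Statements.S5957
import Cfsg.Agent.Lib.H29.InvBlocks
-- import your own Cfsg.Agent.* helpers here

set_option autoImplicit false
open scoped MatrixGroups
open Cfsg

namespace Cfsg.Agent.S5957

open Cfsg.Agent.H29 in
theorem decomp_exists {F : Type*} [Field F] {n : ℕ} (X : (Fin n → F) →ₗ[F] (Fin n → F)) (z : F)
    (hz : z ≠ 0) (hX : ∀ v, X (X v) = z • v) (a t : ℕ) (hat : n = a * t) (ha : 1 ≤ a) :
    ∃ D : Fin t → Submodule F (Fin n → F), (∀ i, Module.finrank F (D i) = a) ∧ iSupIndep D ∧ iSup D = ⊤ ∧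
      ∃ σ : Equiv.Perm (Fin t), ∀ j, (D j).map X = D (σ j) := by
  classical
  obtain ⟨S, hS, hS', b, π, hli, hsp, hπ, hmon⟩ := exists_monomial_family X z hz hX _ ⊤ rfl (by simp)
  have hcard : Fintype.card S = n := by
    have h1 := finrank_span_eq_card hli
    rw [hsp, finrank_top, Module.finrank_fin_fun] at h1
    exact h1.symm
  obtain ⟨𝓑, h1, h2, h3⟩ := exists_blocks π hπ a ha t Finset.univ (by simp) (by
    rw [Finset.card_univ, hcard, hat])
  have hcard𝓑 : 𝓑.card = t := by
    have e1 : (𝓑.biUnion id).card = ∑ B ∈ 𝓑, (id B).card := by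
      apply Finset.card_biUnion
      intro B hB C hC hne
      exact h2 B hB C hC hne
    have e2 : ∑ B ∈ 𝓑, (id B).card = ∑ _B ∈ 𝓑, a := Finset.sum_congr rfl (fun B hB => (h1 B hB).1)
    rw [h3, Finset.card_univ, hcard, hat, e2, Finset.sum_const, smul_eq_mul, mul_comm] at e1
    exact (Nat.eq_of_mul_eq_mul_right (lt_of_lt_of_le Nat.zero_lt_one ha) e1).symm
  let e : 𝓑 ≃ Fin t := 𝓑.equivFinOfCardEq hcard𝓑
  let B : Fin t → Finset S := fun j => (e.symm j).1
  have hBmem : ∀ j, B j ∈ 𝓑 := fun j => (e.symm j).2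
  have hBdisj : ∀ i j, i ≠ j → Disjoint (B i) (B j) := by
    intro i j hij
    apply h2 _ (hBmem i) _ (hBmem j)
    intro h
    exact hij (e.symm.injective (Subtype.ext h))
  have hBcover : ∀ s, ∃ j, s ∈ B j := by
    intro s
    have : s ∈ 𝓑.biUnion id := by rw [h3]; exact Finset.mem_univ s
    obtain ⟨C, hC, hsC⟩ := Finset.mem_biUnion.1 this
    refine ⟨e ⟨C, hC⟩, ?_⟩
    simp only [B, Equiv.symm_apply_apply]
    exact hsC
  let g : Fin t → Fin t := fun j => e ⟨(B j).image π, (h1 _ (hBmem j)).2.2⟩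
  have hBg : ∀ j, B (g j) = (B j).image π := by
    intro j
    simp only [B, g, Equiv.symm_apply_apply]
  have hginv : Function.Involutive g := by
    intro j
    apply e.symm.injective
    apply Subtype.ext
    show B (g (g j)) = B j
    rw [hBg, hBg, image_image_invol π hπ]
  let σ : Equiv.Perm (Fin t) := hginv.toPerm
  refine ⟨fun j => Submodule.span F (b '' (B j : Set S)), ?_, ?_, ?_, σ, ?_⟩
  · intro i
    have hl : LinearIndependent F (b ∘ (Subtype.val : (B i) → S)) :=
      hli.comp _ Subtype.val_injective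
    have := finrank_span_eq_card hl
    rw [Set.range_comp, Subtype.range_coe_subtype] at this
    have h4 : {x | x ∈ B i} = (B i : Set S) := rfl
    rw [h4] at this
    simp only [Fintype.card_coe] at this
    rw [this]
    exact (h1 _ (hBmem i)).1
  · rw [iSupIndep_def]
    intro i
    have hd : Disjoint (B i : Set S) (⋃ j ∈ {j | j ≠ i}, (B j : Set S)) := by
      rw [Set.disjoint_iUnion₂_right]
      intro j hj
      exact Finset.disjoint_coe.2 (hBdisj i j (Ne.symm hj))
    refine (hli.disjoint_span_image hd).mono_right ?_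
    apply iSup₂_le
    intro j hj
    apply Submodule.span_mono
    apply Set.image_mono
    intro s hs
    simp only [Set.mem_iUnion]
    exact ⟨j, hj, hs⟩
  · rw [eq_top_iff, ← hsp, Submodule.span_le]
    rintro _ ⟨s, rfl⟩
    obtain ⟨j, hj⟩ := hBcover s
    exact Submodule.mem_iSup_of_mem j (Submodule.subset_span ⟨s, hj, rfl⟩)
  · intro j
    show _ = Submodule.span F (b '' (B (g j) : Set S))
    rw [hBg, Submodule.map_span]
    apply le_antisymm
    · rw [Submodule.span_le]
      rintro _ ⟨_, ⟨s, hs, rfl⟩, rfl⟩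
      obtain ⟨c, _, hc⟩ := hmon s
      show X (b s) ∈ _
      rw [hc]
      exact Submodule.smul_mem _ _ (Submodule.subset_span ⟨π s, by
        simp only [Finset.coe_image]; exact ⟨s, hs, rfl⟩, rfl⟩)
    · rw [Submodule.span_le]
      rintro _ ⟨s', hs', rfl⟩
      simp only [Finset.coe_image] at hs'
      obtain ⟨s, hs, rfl⟩ := hs'
      obtain ⟨c, hc0, hc⟩ := hmon s
      have : b (π s) = c⁻¹ • X (b s) := by rw [hc, smul_smul, inv_mul_cancel₀ hc0, one_smul]
      show b (π s) ∈ _
      rw [this]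
      exact Submodule.smul_mem _ _ (Submodule.subset_span ⟨b s, ⟨s, hs, rfl⟩, rfl⟩)



/-- Involutions of PSL_n(q) and imprimitive subgroups. Here `T = PSL_n(F)` for a field `F` with `q = p^f` elements (`n ≥ 2`, `(n, q) ≠ (2, 2), (2, 3)`), `n = a·t` with `t ≥ 2`, and Ω is the set of direct-sum decompositions of `F^n` into `t` subspaces of dimension `a` (unordered; their number is the number of ordered ones divided by `t!`), whose stabilizers are the imprimitive subgroups of type GL_a(q) ≀ S_t (maximal except in some small cases; maximality is not assumed); an element of `T` of prime order `r` (a matrix `x` of determinant 1 with `x^r` scalar, `x` not scalar) fixes a point of Ω when it permutes the summands of some such decomposition. If the number of such decompositions is even, then every involution of `T` stabilizes one of them (the action is 2-elusive). -/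
theorem result {F : Type*} [Field F] [Fintype F] {p : ℕ} [Fact p.Prime] [CharP F p] {q : ℕ} (hq : Fintype.card F = q)
    (n a t : ℕ) (hn : 2 ≤ n) (hT : (n, q) ≠ (2, 2) ∧ (n, q) ≠ (2, 3)) (hat : n = a * t) (ha : 1 ≤ a) (ht : 2 ≤ t)
    (hΩ : 2 ∣ Nat.card {D : Fin t → Submodule F (Fin n → F) // Cfsg.Geo.IsMDecomposition a D} / Nat.factorial t)
    (x : Matrix.SpecialLinearGroup (Fin n) F)
    (hx1 : ∃ z : F, ((x ^ 2 : Matrix.SpecialLinearGroup (Fin n) F) : Matrix (Fin n) (Fin n) F) = z • (1 : Matrix (Fin n) (Fin n) F))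
    (hx2 : ∀ z : F, (x : Matrix (Fin n) (Fin n) F) ≠ z • (1 : Matrix (Fin n) (Fin n) F)) :
    ∃ D : Fin t → Submodule F (Fin n → F), Cfsg.Geo.IsMDecomposition a D ∧
        ∃ σ : Equiv.Perm (Fin t), ∀ j, (D j).map (Matrix.toLin' (x : Matrix (Fin n) (Fin n) F)) = D (σ j) := by
  obtain ⟨z, hz⟩ := hx1
  have hn0 : n ≠ 0 := by omega
  let A : Matrix (Fin n) (Fin n) F := (x : Matrix (Fin n) (Fin n) F)
  have hA : A * A = z • (1 : Matrix (Fin n) (Fin n) F) := by
    rw [← hz, sq]
    rfl
  have hz0 : z ≠ 0 := by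
    rintro rfl
    have h1 : (A * A).det = 1 := by
      rw [Matrix.det_mul, x.2, mul_one]
    have hne : Nonempty (Fin n) := ⟨⟨0, by omega⟩⟩
    rw [hA, zero_smul, Matrix.det_zero] at h1
    exact zero_ne_one h1
  have hX : ∀ v, Matrix.toLin' A (Matrix.toLin' A v) = z • v := by
    intro v
    rw [← LinearMap.comp_apply, ← Matrix.toLin'_mul, hA]
    simp
  obtain ⟨D, h1, h2, h3, σ, h4⟩ := decomp_exists (Matrix.toLin' A) z hz0 hX a t hat ha
  exact ⟨D, ⟨ht, ha, h1, h2, h3⟩, σ, h4⟩

end Cfsg.Agent.S5957
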