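import Cfsg.Statements.S5959
import Cfsg.Agent.Lib.H29.Unip
import Cfsg.Agent.Lib.H29.PrimeOrd
import Cfsg.Agent.Lib.H29.PSLSub
-- import your own Cfsg.Agent.* helpers here

set_option autoImplicit false
open scoped MatrixGroups
open Cfsg

namespace Cfsg.Agent.S5959

open Module Polynomial Cfsg.Agent.H29

theorem geom_eq_pow {F : Type*} [Field F] {p : ℕ} [Fact p.Prime] [CharP F p] :
    (∑ l ∈ Finset.range p, (X : F[X]) ^ l) = (X - 1) ^ (p - 1) := by
  have hp0 : (Fact.out : p.Prime).pos = (Fact.out : p.Prime).pos := rfl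
  have h1 : (X - 1 : F[X]) ≠ 0 := X_sub_C_ne_zero (1 : F) |> (by simpa using ·)
  apply mul_right_cancel₀ h1
  rw [geom_sum_mul, ← pow_succ, Nat.sub_add_cancel (Fact.out : p.Prime).pos,
    sub_pow_char, one_pow]

theorem sum_sub_eq_count {p : ℕ} (hp : 0 < p) (μ : Multiset ℕ) (h0 : ∀ b ∈ μ, 0 < b ∧ b ≤ p) :
    (μ.map fun b => b - (p - 1)).sum = μ.count p := by
  classical
  induction μ using Multiset.induction_on with
  | empty => simp
  | cons b μ ih =>
    have h1 := h0 b (Multiset.mem_cons_self _ _)
    rw [Multiset.map_cons, Multiset.sum_cons,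
      ih (fun a ha => h0 a (Multiset.mem_cons_of_mem ha))]
    by_cases hb : b = p
    · subst hb
      rw [Multiset.count_cons_self]
      omega
    · rw [Multiset.count_cons_of_ne (Ne.symm hb)]
      omega


/-- Elements of order `p` of PSL_n(q) and imprimitive subgroups: a necessary condition. Here `T = PSL_n(F)` for a field `F` with `q = p^f` elements (`n ≥ 2`, `(n, q) ≠ (2, 2), (2, 3)`), `n = a·t` with `t ≥ 2`, and Ω is the set of direct-sum decompositions of `F^n` into `t` subspaces of dimension `a` (unordered; their number is the number of ordered ones divided by `t!`), whose stabilizers are the imprimitive subgroups of type GL_a(q) ≀ S_t (maximal except in some small cases; maximality is not assumed); an element of `T` of prime order `r` (a matrix `x` of determinant 1 with `x^r` scalar, `x` not scalar) fixes a point of Ω when it permutes the summands of some such decomposition. Suppose `p > 2` divides the number of such decompositions. If every element of `T` of order `p` stabilizes such a decomposition,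 then every partition of `n` into parts of size at most `p` in which the part `p` occurs fewer than `a` times contains (as a sub-multiset) a partition of `a`. -/
theorem result {F : Type*} [Field F] [Fintype F] {p : ℕ} [Fact p.Prime] [CharP F p] {q : ℕ} (hq : Fintype.card F = q)
    (n a t : ℕ) (hn : 2 ≤ n) (hT : (n, q) ≠ (2, 2) ∧ (n, q) ≠ (2, 3)) (hat : n = a * t) (ha : 1 ≤ a) (ht : 2 ≤ t)
    (hp : 2 < p) (hΩ : p ∣ Nat.card {D : Fin t → Submodule F (Fin n → F) // Cfsg.Geo.IsMDecomposition a D} / Nat.factorial t)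
    (h : ∀ x : Matrix.SpecialLinearGroup (Fin n) F,
      (∃ z : F, ((x ^ p : Matrix.SpecialLinearGroup (Fin n) F) : Matrix (Fin n) (Fin n) F) = z • (1 : Matrix (Fin n) (Fin n) F)) →
      (∀ z : F, (x : Matrix (Fin n) (Fin n) F) ≠ z • (1 : Matrix (Fin n) (Fin n) F)) →
      ∃ D : Fin t → Submodule F (Fin n → F), Cfsg.Geo.IsMDecomposition a D ∧
        ∃ σ : Equiv.Perm (Fin t), ∀ j, (D j).map (Matrix.toLin' (x : Matrix (Fin n) (Fin n) F)) = D (σ j)) :
    (∀ μ : Multiset ℕ, (∀ b ∈ μ, 0 < b ∧ b ≤ p) → μ.sum = n → μ.count p < a → ∃ ν : Multiset ℕ, ν ≤ μ ∧ ν.sum = a) := by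
  classical
  intro μ h0 hs hcount
  have hale : a ≤ n := by
    rw [hat]
    exact Nat.le_mul_of_pos_right _ (by omega)
  by_cases hne : ∃ b ∈ μ, 2 ≤ b
  swap
  · exact exists_sub_of_all_one n a hale μ (fun b hb => (h0 b hb).1) hs hne
  obtain ⟨x, N, hN, hxN, hxp, hns⟩ := exists_sl_of_type (F := F) (p := p) n μ h0 hs hne
  obtain ⟨D, hD, σ, hσ⟩ := h x ⟨1, by rw [hxp]; simp⟩ hns
  rw [hxN] at hσ
  set T : Module.End F (Fin n → F) := 1 + N with hT
  have hp0 : 0 < p := (Fact.out : p.Prime).pos
  have hTN : T - 1 = N := by rw [hT]; abel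
  have hTp : T ^ p = 1 := by
    have h1 : T = Matrix.toLin' (x : Matrix (Fin n) (Fin n) F) := hxN.symm
    rw [h1, ← toLin'_pow_eq, ← Matrix.SpecialLinearGroup.coe_pow, hxp]
    simp only [Matrix.SpecialLinearGroup.coe_one, Matrix.toLin'_one]
    rfl
  have hDinj : ∀ i k, D i = D k → i = k := by
    intro i k hik
    by_contra hne'
    have hdisj := hD.indep.pairwiseDisjoint hne'
    have h1 : Disjoint (D i) (D i) := by
      have h2 : Disjoint (D i) (D k) := hdisj
      rwa [← hik] at h2
    have h3 : D i = ⊥ := disjoint_self.1 h1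
    have h4 := hD.finrank_eq i
    rw [h3, finrank_bot] at h4
    omega
  have hiter : ∀ (l : ℕ) (j : Fin t), (D j).map (T ^ l) = D (σ^[l] j) := by
    intro l
    induction l with
    | zero =>
      intro j
      rw [pow_zero, Function.iterate_zero, id]
      exact Submodule.map_id _
    | succ l ih =>
      intro j
      rw [pow_succ', Module.End.mul_eq_comp, Submodule.map_comp, ih, hσ,
        Function.iterate_succ_apply']
  have hper : ∀ j, σ^[p] j = j := fun j => hDinj _ _ (by
    rw [← hiter, hTp]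
    exact Submodule.map_id _)
  have hfix : ∀ j, σ j = j := by
    intro j₀
    by_contra hne'
    have hmin : Function.minimalPeriod σ j₀ = p := by
      have hd : Function.minimalPeriod σ j₀ ∣ p := Function.IsPeriodicPt.minimalPeriod_dvd (hper j₀)
      rcases (Nat.dvd_prime Fact.out).1 hd with h1 | h1
      · exact absurd (Function.minimalPeriod_eq_one_iff_isFixedPt.1 h1) hne'
      · exact h1
    have hneq : ∀ l, 0 < l → l < p → σ^[l] j₀ ≠ j₀ := by
      intro l h1 h2 h3
      have := Function.IsPeriodicPt.minimalPeriod_le h1 h3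
      omega
    have hinj : ∀ v ∈ D j₀, (∑ l ∈ Finset.range p, (T ^ l) v) = 0 → v = 0 := by
      intro v hv hsum
      have hmem : ∀ l, (T ^ l) v ∈ D (σ^[l] j₀) := fun l => by
        rw [← hiter]
        exact ⟨v, hv, rfl⟩
      have hdis : Disjoint (D j₀) (⨆ k, ⨆ (_ : k ≠ j₀), D k) := hD.indep j₀
      have hv2 : v ∈ ⨆ k, ⨆ (_ : k ≠ j₀), D k := by
        have h1 : v = - ∑ l ∈ (Finset.range p).erase 0, (T ^ l) v := by
          rw [← Finset.add_sum_erase _ _ (Finset.mem_range.2 hp0), pow_zero] at hsum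
          exact eq_neg_of_add_eq_zero_left hsum
        rw [h1]
        apply Submodule.neg_mem
        apply Submodule.sum_mem
        intro l hl
        have hl1 := Finset.mem_erase.1 hl
        have hl2 := Finset.mem_range.1 hl1.2
        exact (le_iSup₂_of_le (f := fun k (_ : k ≠ j₀) => D k) (σ^[l] j₀)
          (hneq l (Nat.pos_of_ne_zero hl1.1) hl2) le_rfl) (hmem l)
      exact (Submodule.disjoint_def.1 hdis) v hv hv2
    -- `N ^ (p - 1)` is the sum of the powers of `T`
    have hNp : N ^ (p - 1) = ∑ l ∈ Finset.range p, T ^ l := by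
      have h1 := congrArg (aeval T) (geom_eq_pow (F := F) (p := p))
      simp only [map_sum, map_pow, aeval_X, map_sub, map_one] at h1
      rw [h1, hTN]
    have hinj2 : Function.Injective ((N ^ (p - 1)).domRestrict (D j₀)) := by
      rw [← LinearMap.ker_eq_bot, eq_bot_iff]
      rintro ⟨v, hv⟩ h2
      have h3 : (N ^ (p - 1)) v = 0 := h2
      rw [hNp, LinearMap.sum_apply] at h3
      have := hinj v hv h3
      rw [Submodule.mem_bot]
      exact Subtype.ext this
    have h5 := LinearMap.finrank_range_of_inj hinj2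
    rw [LinearMap.range_domRestrict, hD.finrank_eq j₀] at h5
    have h6 : finrank F ((D j₀).map (N ^ (p - 1))) ≤ finrank F ((⊤ : Submodule F (Fin n → F)).map (N ^ (p - 1))) :=
      Submodule.finrank_mono (Submodule.map_mono le_top)
    rw [h5, hN.finrank_map_pow, sum_sub_eq_count hp0 μ h0] at h6
    omega
  -- all summands are stable
  have hstab : ∀ j, TStable N (D j) := by
    intro j v hv
    have h1 : T v ∈ D j := by
      have h2 := hσ j
      rw [hfix j] at h2
      rw [← h2]
      exact ⟨v, hv, rfl⟩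
    have h2 : N v = T v - v := by simp [hT]
    rw [h2]
    exact (D j).sub_mem h1 hv
  have ht0 : 0 < t := by omega
  let j₀ : Fin t := ⟨0, ht0⟩
  have hc : IsCompl (D j₀) (⨆ k, ⨆ (_ : k ≠ j₀), D k) := by
    refine ⟨hD.indep j₀, ?_⟩
    rw [codisjoint_iff, eq_top_iff, ← hD.iSup_eq_top]
    apply iSup_le
    intro k
    by_cases hk : k = j₀
    · rw [hk]
      exact le_sup_left
    · exact le_sup_of_le_right (le_iSup₂_of_le (f := fun k (_ : k ≠ j₀) => D k) k hk le_rfl)
  have hst2 : TStable N (⨆ k, ⨆ (_ : k ≠ j₀), D k) := by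
    intro v hv
    have h1 : (⨆ k, ⨆ (_ : k ≠ j₀), D k) ≤ Submodule.comap N (⨆ k, ⨆ (_ : k ≠ j₀), D k) := by
      apply iSup₂_le
      intro k hk u hu
      exact (le_iSup₂_of_le (f := fun k (_ : k ≠ j₀) => D k) k hk le_rfl) (hstab k u hu)
    exact h1 hv
  obtain ⟨ν, hν, hνs⟩ := exists_sub_of_compl hN (fun b hb => (h0 b hb).2) hc (hstab j₀) hst2
  exact ⟨ν, hν, by rw [hνs, hD.finrank_eq j₀]⟩

end Cfsg.Agent.S5959
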