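import Cfsg.Statements.S5960
import Cfsg.Agent.Lib.H29.InvBlocks
import Cfsg.Agent.Lib.H29.SympPlanes
import Cfsg.Agent.Lib.H11.Symp
-- import your own Cfsg.Agent.* helpers here

set_option autoImplicit false
open scoped MatrixGroups
open Cfsg

namespace Cfsg.Agent.S5960

open Cfsg.Agent.H29 in
/-- Abstract version of the statement. -/
theorem abstract_decomp {F V : Type*} [Field F] [AddCommGroup V] [Module F V] [FiniteDimensional F V]
    (ω : V →ₗ[F] V →ₗ[F] F) (halt : ∀ v, ω v v = 0) (hnd : ∀ u, u ≠ 0 → ∃ v, ω u v ≠ 0)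
    (x : V →ₗ[F] V) (z : F) (hz : z ≠ 0) (hxω : ∀ u v, ω (x u) (x v) = ω u v)
    (hx : ∀ v, x (x v) = z • v) (a t d : ℕ) (hd : Module.finrank F V = 2 * d) (hdat : d = a * t)
    (ha : 1 ≤ a) :
    ∃ D : Fin t → Submodule F V, (∀ i, Module.finrank F (D i) = 2 * a) ∧ iSupIndep D ∧ iSup D = ⊤ ∧
      (∀ j, ∀ u ∈ D j, u ≠ 0 → ∃ v ∈ D j, ω u v ≠ 0) ∧
      (∀ j j', j ≠ j' → ∀ u ∈ D j, ∀ v ∈ D j', ω u v = 0) ∧
      ∃ σ : Equiv.Perm (Fin t), ∀ j, (D j).map x = D (σ j) := by
  classical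
  obtain ⟨S, hS, hS', b, π, hsys, hπ, hmon⟩ := exists_plane_sys halt x z hz hxω hx _ ⊤ rfl (by simp)
    (fun u _ hu => by
      obtain ⟨v, hv⟩ := hnd u hu
      exact ⟨v, Submodule.mem_top, hv⟩)
  have hcard : Fintype.card S = d := by
    have h1 := finrank_span_eq_card (planeSys_linearIndependent halt hsys)
    rw [hsys.span, finrank_top, hd, Fintype.card_prod, Fintype.card_bool] at h1
    omega
  obtain ⟨𝓑, h1, h2, h3⟩ := exists_blocks π hπ a ha t Finset.univ (by simp) (by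
    rw [Finset.card_univ, hcard, hdat])
  have hcard𝓑 : 𝓑.card = t := by
    have e1 : (𝓑.biUnion id).card = ∑ B ∈ 𝓑, (id B).card := by
      apply Finset.card_biUnion
      intro B hB C hC hne
      exact h2 B hB C hC hne
    have e2 : ∑ B ∈ 𝓑, (id B).card = ∑ _B ∈ 𝓑, a := Finset.sum_congr rfl (fun B hB => (h1 B hB).1)
    rw [h3, Finset.card_univ, hcard, hdat, e2, Finset.sum_const, smul_eq_mul, mul_comm] at e1
    exact (Nat.eq_of_mul_eq_mul_right (lt_of_lt_of_le Nat.zero_lt_one ha) e1).symm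
  let e : 𝓑 ≃ Fin t := 𝓑.equivFinOfCardEq hcard𝓑
  let B : Fin t → Finset S := fun j => (e.symm j).1
  have hBmem : ∀ j, B j ∈ 𝓑 := fun j => (e.symm j).2
  have hBdisj : ∀ i j, i ≠ j → Disjoint (B i) (B j) := by
    intro i j hij
    apply h2 _ (hBmem i) _ (hBmem j)
    intro h
    exact hij (e.symm.injective (Subtype.ext h))
  have hBcover : ∀ s, ∃ j, s ∈ B j := by
    intro s
    have : s ∈ 𝓑.biUnion id := by rw [h3]; exact Finset.mem_univ s
    obtain ⟨C, hC, hsC⟩ := Finset.mem_biUnion.1 this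
    refine ⟨e ⟨C, hC⟩, ?_⟩
    simp only [B, Equiv.symm_apply_apply]
    exact hsC
  let g : Fin t → Fin t := fun j => e ⟨(B j).image π, (h1 _ (hBmem j)).2.2⟩
  have hBg : ∀ j, B (g j) = (B j).image π := by
    intro j
    simp only [B, g, Equiv.symm_apply_apply]
  have hginv : Function.Involutive g := by
    intro j
    apply e.symm.injective
    apply Subtype.ext
    show B (g (g j)) = B j
    rw [hBg, hBg, image_image_invol π hπ]
  let σ : Equiv.Perm (Fin t) := hginv.toPerm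
  let D : Fin t → Submodule F V := fun j =>
    Submodule.span F (Set.range (Function.uncurry (fun k : (B j) => b k.1)))
  have hsysj : ∀ j, PlaneSys ω (D j) (fun k : (B j) => b k.1) := fun j =>
    { self := fun k => hsys.self k.1
      orth := fun k l i i' hkl => hsys.orth k.1 l.1 i i' (fun h => hkl (Subtype.ext h))
      span := rfl }
  have hmemD : ∀ j, ∀ k ∈ B j, ∀ i, b k i ∈ D j := fun j k hk i =>
    Submodule.subset_span ⟨(⟨k, hk⟩, i), rfl⟩
  have hDnd : ∀ j, ∀ u ∈ D j, u ≠ 0 → ∃ v ∈ D j, ω u v ≠ 0 := fun j =>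
    planeSys_nondeg halt (hsysj j)
  have hcross : ∀ j j', j ≠ j' → ∀ u ∈ D j, ∀ v ∈ D j', ω u v = 0 := by
    intro j j' hjj' u hu v hv
    revert v
    apply form_span_right (u := u)
    rintro _ ⟨⟨l, i'⟩, rfl⟩
    revert u
    apply form_span_left
    rintro _ ⟨⟨k, i⟩, rfl⟩
    refine hsys.orth k.1 l.1 i i' ?_
    intro hkl
    exact Finset.disjoint_left.1 (hBdisj j j' hjj') k.2 (hkl ▸ l.2)
  refine ⟨D, ?_, ?_, ?_, hDnd, hcross, σ, ?_⟩
  · intro i
    have h5 := finrank_span_eq_card (planeSys_linearIndependent halt (hsysj i))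
    show Module.finrank F (D i) = _
    have h6 : Fintype.card (B i) = a := by
      rw [Fintype.card_coe]
      exact (h1 _ (hBmem i)).1
    rw [Fintype.card_prod, Fintype.card_bool, h6] at h5
    rw [show D i = Submodule.span F (Set.range (Function.uncurry (fun k : (B i) => b k.1))) from rfl,
      h5, mul_comm]
  · rw [iSupIndep_def]
    intro j
    rw [Submodule.disjoint_def]
    intro u hu hu2
    by_contra hu0
    obtain ⟨v, hv, huv⟩ := hDnd j u hu hu0
    apply huv
    have hle : (⨆ k, ⨆ (_ : k ≠ j), D k) ≤ LinearMap.ker (ω.flip v) := by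
      apply iSup₂_le
      intro k hk w hw
      rw [LinearMap.mem_ker, LinearMap.flip_apply]
      exact hcross k j hk w hw v hv
    have := hle hu2
    rwa [LinearMap.mem_ker, LinearMap.flip_apply] at this
  · rw [eq_top_iff, ← hsys.span, Submodule.span_le]
    rintro _ ⟨⟨k, i⟩, rfl⟩
    obtain ⟨j, hj⟩ := hBcover k
    exact Submodule.mem_iSup_of_mem j (hmemD j k hj i)
  · intro j
    have hle : ∀ j', (D j').map x ≤ D (g j') := by
      intro j'
      show Submodule.map x (Submodule.span F _) ≤ _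
      rw [Submodule.map_span, Submodule.span_le]
      rintro _ ⟨_, ⟨⟨k, i⟩, rfl⟩, rfl⟩
      have hsub : Submodule.span F (Set.range (b (π k.1))) ≤ D (g j') := by
        rw [Submodule.span_le]
        rintro _ ⟨i', rfl⟩
        apply Submodule.subset_span
        have : π k.1 ∈ B (g j') := by
          rw [hBg]
          exact Finset.mem_image.2 ⟨_, k.2, rfl⟩
        exact ⟨(⟨π k.1, this⟩, i'), rfl⟩
      exact hsub (hmon k.1 i)
    apply le_antisymm (hle j)
    intro w hw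
    have h7 : x w ∈ D (g (g j)) := hle (g j) (Submodule.mem_map_of_mem hw)
    rw [hginv j] at h7
    refine ⟨z⁻¹ • x w, Submodule.smul_mem _ _ h7, ?_⟩
    rw [map_smul, hx, smul_smul, inv_mul_cancel₀ hz, one_smul]



/-- Involutions of PSp_n(q) and imprimitive subgroups. Here `T = PSp_n(q)`, `n = 2d ≥ 4`, `(n, q) ≠ (4, 2)`, realised through the symplectic matrices over the field `F` with `q` elements and the standard alternating form; `n = a·t` with `a` even and `t ≥ 2`, and Ω is the (nonempty) set of orthogonal decompositions of `F^n` into `t` nondegenerate subspaces of dimension `a` (unordered; counted as ordered ones divided by `t!`), whose stabilizers are the imprimitive subgroups of type Sp_a(q) ≀ S_t (maximality is not assumed); an element of `T` of prime order `r` (a symplectic matrix `x` with `x^r` scalar, `x` not scalar) fixes a point of Ω when it permutes the summands of some such decomposition. If the number of such decompositions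 is even, then every involution of `T` stabilizes one of them (the action is 2-elusive). -/
theorem result {F : Type*} [Field F] [Fintype F] {p : ℕ} [Fact p.Prime] [CharP F p] {q : ℕ} (hq : Fintype.card F = q)
    (d : ℕ) (hd : 2 ≤ d) (hT : (d, q) ≠ (2, 2))
    (a t : ℕ) (hat : 2 * d = a * t) (ha : 2 ≤ a) (hae : Even a) (ht : 2 ≤ t) (hΩ : 2 ∣ Nat.card {D : Fin t → Submodule F (Fin d ⊕ Fin d → F) // (Cfsg.Geo.IsMDecomposition a D ∧ (∀ j, ∀ u ∈ D j, u ≠ 0 → ∃ v ∈ D j, Cfsg.sympForm d F u v ≠ 0) ∧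
          (∀ j j', j ≠ j' → ∀ u ∈ D j, ∀ v ∈ D j', Cfsg.sympForm d F u v = 0))} / Nat.factorial t)
    (x : ↥(Matrix.symplecticGroup (Fin d) F))
    (hx1 : ∃ z : F, ((x ^ 2 : ↥(Matrix.symplecticGroup (Fin d) F)) : Matrix (Fin d ⊕ Fin d) (Fin d ⊕ Fin d) F) = z • (1 : Matrix (Fin d ⊕ Fin d) (Fin d ⊕ Fin d) F))
    (hx2 : ∀ z : F, (x : Matrix (Fin d ⊕ Fin d) (Fin d ⊕ Fin d) F) ≠ z • (1 : Matrix (Fin d ⊕ Fin d) (Fin d ⊕ Fin d) F)) :
    ∃ D : Fin t → Submodule F (Fin d ⊕ Fin d → F), (Cfsg.Geo.IsMDecomposition a D ∧ (∀ j, ∀ u ∈ D j, u ≠ 0 → ∃ v ∈ D j, Cfsg.sympForm d F u v ≠ 0) ∧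
          (∀ j j', j ≠ j' → ∀ u ∈ D j, ∀ v ∈ D j', Cfsg.sympForm d F u v = 0)) ∧
        ∃ σ : Equiv.Perm (Fin t), ∀ j, (D j).map (Matrix.toLin' (x : Matrix (Fin d ⊕ Fin d) (Fin d ⊕ Fin d) F)) = D (σ j) := by
  obtain ⟨z, hz⟩ := hx1
  obtain ⟨a', rfl⟩ := hae
  let A : Matrix (Fin d ⊕ Fin d) (Fin d ⊕ Fin d) F := (x : Matrix (Fin d ⊕ Fin d) (Fin d ⊕ Fin d) F)
  have hAS : A ∈ Matrix.symplecticGroup (Fin d) F := x.2
  have hA : A * A = z • (1 : Matrix (Fin d ⊕ Fin d) (Fin d ⊕ Fin d) F) := by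
    rw [← hz, sq]
    rfl
  let ω : (Fin d ⊕ Fin d → F) →ₗ[F] (Fin d ⊕ Fin d → F) →ₗ[F] F :=
    LinearMap.mk₂ F (Cfsg.sympForm d F) Cfsg.Agent.H11.sympForm_add_left
      Cfsg.Agent.H11.sympForm_smul_left Cfsg.Agent.H11.sympForm_add_right
      Cfsg.Agent.H11.sympForm_smul_right
  have hωapp : ∀ u v, ω u v = Cfsg.sympForm d F u v := fun _ _ => rfl
  have halt : ∀ v, ω v v = 0 := Cfsg.Agent.H11.sympForm_self
  have hnd : ∀ u, u ≠ 0 → ∃ v, ω u v ≠ 0 := by
    intro u hu
    by_contra hcon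
    push Not at hcon
    apply hu
    rw [← Module.forall_dual_apply_eq_zero_iff F]
    intro φ
    obtain ⟨w, hw⟩ := Cfsg.Agent.H11.exists_sympForm_rep φ
    rw [hw]
    exact hcon w
  have hxω : ∀ u v, ω (Matrix.toLin' A u) (Matrix.toLin' A v) = ω u v := by
    intro u v
    simp only [Matrix.toLin'_apply, hωapp]
    exact Cfsg.Agent.H11.sympForm_mulVec hAS u v
  have hX : ∀ v, Matrix.toLin' A (Matrix.toLin' A v) = z • v := by
    intro v
    rw [← LinearMap.comp_apply, ← Matrix.toLin'_mul, hA]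
    simp
  have hz0 : z ≠ 0 := by
    rintro rfl
    have hd0 : 0 < d := by omega
    let i : Fin d ⊕ Fin d := Sum.inl ⟨0, hd0⟩
    have hne : (Pi.single i (1 : F) : Fin d ⊕ Fin d → F) ≠ 0 := by
      intro h
      have := congrFun h i
      simp at this
    obtain ⟨v, hv⟩ := hnd _ hne
    apply hv
    rw [← hxω, ← hxω, hX, hX]
    simp
  obtain ⟨D, h1, h2, h3, h4, h5, σ, h6⟩ := abstract_decomp ω halt hnd (Matrix.toLin' A) z hz0 hxω hX
    a' t d (by simp; ring) (by
      have : 2 * d = (a' + a') * t := hat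
      nlinarith) (by omega)
  refine ⟨D, ⟨⟨ht, by omega, ?_, h2, h3⟩, h4, h5⟩, σ, h6⟩
  intro i
  rw [h1]
  ring

end Cfsg.Agent.S5960
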