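import Cfsg.Statements.S5962
import Cfsg.Agent.Lib.H29.SympLagr
import Cfsg.Agent.Lib.H11.Symp
-- import your own Cfsg.Agent.* helpers here

set_option autoImplicit false
open scoped MatrixGroups
open Cfsg

namespace Cfsg.Agent.S5962

/-- Involutions of PSp_n(q), q odd, and the subgroups GL_{n/2}(q).2. Here `T = PSp_n(q)`, `n = 2d ≥ 4`, `q` odd, realised through the symplectic matrices over the field `F` with `q` elements; Ω is the set of unordered pairs `{U, W}` of complementary totally isotropic `d`-spaces (`F^n = U ⊕ W`), whose stabilizers are the subgroups of type GL_d(q).2 (maximal except in some small cases; maximality is not assumed); an element of `T` of prime order `r` (a symplectic matrix `x` with `x^r` scalar, `x` not scalar) fixes such a pair when it fixes or interchanges `U` and `W`. If the number of such pairs is even, every involution of `T` fixes one of them (the action is 2-elusive). -/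
theorem result {F : Type*} [Field F] [Fintype F] {p : ℕ} [Fact p.Prime] [CharP F p] {q : ℕ} (hq : Fintype.card F = q)
    (d : ℕ) (hd : 2 ≤ d) (hT : (d, q) ≠ (2, 2)) (hodd : Odd q)
    (hΩ : 2 ∣ Nat.card {P : Submodule F (Fin d ⊕ Fin d → F) × Submodule F (Fin d ⊕ Fin d → F) // IsCompl P.1 P.2 ∧ (∀ u ∈ P.1, ∀ v ∈ P.1, Cfsg.sympForm d F u v = 0) ∧ (∀ u ∈ P.2, ∀ v ∈ P.2, Cfsg.sympForm d F u v = 0)} / 2)
    (x : ↥(Matrix.symplecticGroup (Fin d) F))
    (hx1 : ∃ z : F, ((x ^ 2 : ↥(Matrix.symplecticGroup (Fin d) F)) : Matrix (Fin d ⊕ Fin d) (Fin d ⊕ Fin d) F) = z • (1 : Matrix (Fin d ⊕ Fin d) (Fin d ⊕ Fin d) F))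
    (hx2 : ∀ z : F, (x : Matrix (Fin d ⊕ Fin d) (Fin d ⊕ Fin d) F) ≠ z • (1 : Matrix (Fin d ⊕ Fin d) (Fin d ⊕ Fin d) F)) :
    ∃ U W : Submodule F (Fin d ⊕ Fin d → F), IsCompl U W ∧ (∀ u ∈ U, ∀ v ∈ U, Cfsg.sympForm d F u v = 0) ∧ (∀ u ∈ W, ∀ v ∈ W, Cfsg.sympForm d F u v = 0) ∧
        ((U.map (Matrix.toLin' (x : Matrix (Fin d ⊕ Fin d) (Fin d ⊕ Fin d) F)) = U ∧ W.map (Matrix.toLin' (x : Matrix (Fin d ⊕ Fin d) (Fin d ⊕ Fin d) F)) = W) ∨
         (U.map (Matrix.toLin' (x : Matrix (Fin d ⊕ Fin d) (Fin d ⊕ Fin d) F)) = W ∧ W.map (Matrix.toLin' (x : Matrix (Fin d ⊕ Fin d) (Fin d ⊕ Fin d) F)) = U)) := by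
  obtain ⟨z, hz⟩ := hx1
  let A : Matrix (Fin d ⊕ Fin d) (Fin d ⊕ Fin d) F := (x : Matrix (Fin d ⊕ Fin d) (Fin d ⊕ Fin d) F)
  have hAS : A ∈ Matrix.symplecticGroup (Fin d) F := x.2
  have hA : A * A = z • (1 : Matrix (Fin d ⊕ Fin d) (Fin d ⊕ Fin d) F) := by
    rw [← hz, sq]
    rfl
  let ω : (Fin d ⊕ Fin d → F) →ₗ[F] (Fin d ⊕ Fin d → F) →ₗ[F] F :=
    LinearMap.mk₂ F (Cfsg.sympForm d F) Cfsg.Agent.H11.sympForm_add_left
      Cfsg.Agent.H11.sympForm_smul_left Cfsg.Agent.H11.sympForm_add_right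
      Cfsg.Agent.H11.sympForm_smul_right
  have hωapp : ∀ u v, ω u v = Cfsg.sympForm d F u v := fun _ _ => rfl
  have halt : ∀ v, ω v v = 0 := Cfsg.Agent.H11.sympForm_self
  have hnd : ∀ u, u ≠ 0 → ∃ v, ω u v ≠ 0 := by
    intro u hu
    by_contra hcon
    push Not at hcon
    apply hu
    rw [← Module.forall_dual_apply_eq_zero_iff F]
    intro φ
    obtain ⟨w, hw⟩ := Cfsg.Agent.H11.exists_sympForm_rep φ
    rw [hw]
    exact hcon w
  have hxω : ∀ u v, ω (Matrix.toLin' A u) (Matrix.toLin' A v) = ω u v := by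
    intro u v
    simp only [Matrix.toLin'_apply, hωapp]
    exact Cfsg.Agent.H11.sympForm_mulVec hAS u v
  have hX : ∀ v, Matrix.toLin' A (Matrix.toLin' A v) = z • v := by
    intro v
    rw [← LinearMap.comp_apply, ← Matrix.toLin'_mul, hA]
    simp
  have h2 : (2 : F) ≠ 0 := by
    intro h
    have h3 : ((2 : ℕ) : F) = 0 := by exact_mod_cast h
    have h4 : p ∣ 2 := (CharP.cast_eq_zero_iff F p 2).1 h3
    have hp2 : p = 2 := (Nat.prime_dvd_prime_iff_eq Fact.out Nat.prime_two).1 h4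
    have h5 : ((q : ℕ) : F) = 0 := by rw [← hq]; exact FiniteField.cast_card_eq_zero F
    have h6 : p ∣ q := (CharP.cast_eq_zero_iff F p q).1 h5
    rw [hp2] at h6
    exact (Nat.not_even_iff_odd.2 hodd) (even_iff_two_dvd.2 h6)
  have hne : ∃ w : Fin d ⊕ Fin d → F, w ≠ 0 := by
    have hd0 : 0 < d := by omega
    let i : Fin d ⊕ Fin d := Sum.inl ⟨0, hd0⟩
    refine ⟨Pi.single i (1 : F), ?_⟩
    intro h
    have := congrFun h i
    simp at this
  have hzz : z * z = 1 := by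
    obtain ⟨w, hw⟩ := hne
    obtain ⟨v, hv⟩ := hnd w hw
    have h3 : ω w v = z * z * ω w v := by
      have e1 := hxω (Matrix.toLin' A w) (Matrix.toLin' A v)
      rw [hX, hX, hxω] at e1
      simp only [map_smul, LinearMap.smul_apply, smul_eq_mul] at e1
      linear_combination -e1
    have h4 : (z * z - 1) * ω w v = 0 := by linear_combination -h3
    have h5 := (mul_eq_zero.1 h4).resolve_right hv
    linear_combination h5
  have hdisj : ∀ U W : Submodule F (Fin d ⊕ Fin d → F), U ⊔ W = ⊤ →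
      Cfsg.Agent.H29.TotIso ω U → Cfsg.Agent.H29.TotIso ω W → IsCompl U W := by
    intro U W hsup hU hW
    refine ⟨?_, codisjoint_iff.2 hsup⟩
    rw [Submodule.disjoint_def]
    intro u hu hu2
    by_contra hu0
    obtain ⟨v, hv⟩ := hnd u hu0
    have hvm : v ∈ U ⊔ W := by rw [hsup]; trivial
    obtain ⟨a, ha, b, hb, rfl⟩ := Submodule.mem_sup.1 hvm
    apply hv
    rw [map_add, hU u hu a ha, hW u hu2 b hb, add_zero]
  have hzc : z = 1 ∨ z = -1 := by
    have h3 : (z - 1) * (z + 1) = 0 := by linear_combination hzz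
    rcases mul_eq_zero.1 h3 with h | h
    · left; linear_combination h
    · right; linear_combination h
  have hndT : Cfsg.Agent.H29.NondegOn ω ⊤ := fun u _ hu => by
    obtain ⟨v, hv⟩ := hnd u hu
    exact ⟨v, Submodule.mem_top, hv⟩
  rcases hzc with rfl | rfl
  · have hX' : ∀ v, Matrix.toLin' A (Matrix.toLin' A v) = v := fun v => by rw [hX, one_smul]
    obtain ⟨U, W, hsup, hU, hW, hmU, hmW⟩ := Cfsg.Agent.H29.exists_lagr_fix halt h2 _ hxω hX' _ ⊤ rfl
      (by simp) hndT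
    exact ⟨U, W, hdisj U W hsup hU hW, fun u hu v hv => hU u hu v hv, fun u hu v hv => hW u hu v hv,
      Or.inl ⟨hmU, hmW⟩⟩
  · obtain ⟨U, W, hsup, hU, hW, hmU, hmW⟩ := Cfsg.Agent.H29.exists_lagr_swap halt h2 _ hxω hX _ ⊤ rfl
      (by simp) hndT
    exact ⟨U, W, hdisj U W hsup hU hW, fun u hu v hv => hU u hu v hv, fun u hu v hv => hW u hu v hv,
      Or.inr ⟨hmU, hmW⟩⟩

end Cfsg.Agent.S5962
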