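import Cfsg.Statements.S5964
import Cfsg.Agent.Lib.H29.Unip
import Cfsg.Agent.Lib.H29.JordanStd
import Cfsg.Agent.Lib.H29.Subfield
import Cfsg.Agent.Lib.H29.PrimeOrd
import Cfsg.Agent.Lib.H29.PSLSub
import Cfsg.Agent.Lib.H29.Diag
import Cfsg.Agent.Lib.Lead.CardSL
-- import your own Cfsg.Agent.* helpers here

set_option autoImplicit false
open scoped MatrixGroups
open Cfsg

namespace Cfsg.Agent.S5964

open Module Polynomial Cfsg.Agent.H29

theorem factor_gl (q₀ k n i : ℕ) (hi : i < n) (hq₀ : Odd q₀) (hk : Odd k) :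
    ∃ m : ℕ, Odd m ∧ (q₀ ^ k) ^ n - (q₀ ^ k) ^ i = (q₀ ^ n - q₀ ^ i) * m := by
  obtain ⟨d, rfl⟩ : ∃ d, n = i + d := ⟨n - i, by omega⟩
  have hd : 0 < d := by omega
  set A := q₀ ^ i with hA
  set B := q₀ ^ d with hB
  have hB1 : 1 ≤ B := Nat.one_le_pow _ _ hq₀.pos
  have hBodd : Odd B := hq₀.pow
  have hAodd : Odd A := hq₀.pow
  have hk1 : 1 ≤ k := hk.pos
  obtain ⟨k', rfl⟩ : ∃ k', k = k' + 1 := ⟨k - 1, by omega⟩
  have hsum := mul_geom_sum_add_one hB1 (k' + 1)
  have hSodd := geom_sum_odd hBodd (k' + 1) hk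
  set S := ∑ t ∈ Finset.range (k' + 1), B ^ t with hS
  refine ⟨A ^ k' * S, hAodd.pow.mul hSodd, ?_⟩
  have h1 : (q₀ ^ (k' + 1)) ^ (i + d) = A ^ (k' + 1) * B ^ (k' + 1) := by
    rw [hA, hB, ← pow_mul, ← pow_mul, ← pow_mul, ← pow_add]
    congr 1
    ring
  have h2 : (q₀ ^ (k' + 1)) ^ i = A ^ (k' + 1) := by
    rw [hA, ← pow_mul, ← pow_mul, mul_comm]
  have h3 : q₀ ^ (i + d) = A * B := by rw [hA, hB, pow_add]
  rw [h1, h2, h3]
  have h4 : A ^ (k' + 1) * B ^ (k' + 1) - A ^ (k' + 1) = A ^ (k' + 1) * (B ^ (k' + 1) - 1) := by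
    rw [Nat.mul_sub, mul_one]
  have h5 : A * B - A = A * (B - 1) := by
    rw [Nat.mul_sub, mul_one]
  have h6 : B ^ (k' + 1) - 1 = (B - 1) * S := by omega
  rw [h4, h5, h6]
  ring

/-- For odd `q` and odd `k` the index of the subfield group is odd. -/
theorem index_subfield_odd {F : Type*} [Field F] [Fintype F] {F₀ : Subfield F} {q q₀ k : ℕ} (n : ℕ)
    (hq : Fintype.card F = q) (hodd : Odd q) (hqk : q = q₀ ^ k) (hkodd : Odd k)
    (hF₀ : Nat.card F₀ = q₀) :
    Odd ((Cfsg.Geo.subfieldSubgroup F₀ 1).comap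
      (Matrix.SpecialLinearGroup.toGL : Matrix.SpecialLinearGroup (Fin n) F →* GL (Fin n) F)).index := by
  classical
  have hk0 : k ≠ 0 := by
    rintro rfl
    exact (Nat.not_even_iff_odd.2 hkodd) (by simp)
  have hq₀odd : Odd q₀ := by
    rw [hqk] at hodd
    exact (Nat.odd_pow_iff hk0).1 hodd
  rw [Subgroup.index_comap, Cfsg.Agent.Lead.range_toGL_eq_ker_det]
  have h1 := relIndex_normal_dvd_index (Cfsg.Geo.subfieldSubgroup F₀ (1 : GL (Fin n) F))
    (Matrix.GeneralLinearGroup.det : GL (Fin n) F →* Fˣ).ker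
  apply Odd.of_dvd_nat _ h1
  let ι : F₀ →+* F := F₀.subtype
  let R : Subgroup (GL (Fin n) F) := (Matrix.GeneralLinearGroup.map ι).range
  have hle : R ≤ Cfsg.Geo.subfieldSubgroup F₀ (1 : GL (Fin n) F) := by
    rintro _ ⟨g, rfl⟩
    rw [mem_subfieldSubgroup_iff]
    refine ⟨1, g, one_ne_zero, ?_⟩
    rw [one_smul]
    rfl
  apply Odd.of_dvd_nat _ (Subgroup.index_dvd_of_le hle)
  have hinj : Function.Injective (Matrix.GeneralLinearGroup.map ι : GL (Fin n) F₀ →* GL (Fin n) F) := by
    intro g h hgh
    apply Units.ext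
    apply Matrix.map_injective F₀.subtype_injective
    exact congrArg Units.val hgh
  have hcardR : Nat.card R = Nat.card (GL (Fin n) F₀) :=
    (Nat.card_congr (MonoidHom.ofInjective hinj).toEquiv).symm
  have hmul := Subgroup.card_mul_index R
  have hF₀ft : Fintype F₀ := Fintype.ofFinite _
  have hcF₀ : Fintype.card F₀ = q₀ := by rw [← Nat.card_eq_fintype_card, hF₀]
  rw [hcardR, Matrix.card_GL_field, Matrix.card_GL_field, hcF₀, hq, hqk] at hmul
  have hfac : ∀ i : Fin n, ∃ m : ℕ, Odd m ∧ (q₀ ^ k) ^ n - (q₀ ^ k) ^ (i : ℕ) =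
      (q₀ ^ n - q₀ ^ (i : ℕ)) * m := fun i => factor_gl q₀ k n i i.2 hq₀odd hkodd
  choose m hm hmeq using hfac
  have hprod : (∏ i : Fin n, ((q₀ ^ k) ^ n - (q₀ ^ k) ^ (i : ℕ))) =
      (∏ i : Fin n, (q₀ ^ n - q₀ ^ (i : ℕ))) * ∏ i, m i := by
    rw [← Finset.prod_mul_distrib]
    exact Finset.prod_congr rfl fun i _ => hmeq i
  have hMo : Odd (∏ i, m i) := Finset.prod_induction _ Odd (fun a b ha hb => ha.mul hb) odd_one
    (fun i _ => hm i)
  have hGpos : 0 < ∏ i : Fin n, (q₀ ^ n - q₀ ^ (i : ℕ)) := by
    rw [← hcF₀, ← Matrix.card_GL_field]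
    exact Nat.card_pos
  rw [hprod] at hmul
  rw [Nat.eq_of_mul_eq_mul_left hGpos hmul]
  exact hMo


/-- Involutions of PSL_n(q) and subfield subgroups. Here `T = PSL_n(F)` for a field `F` with `q = p^f` elements (`n ≥ 2`, `(n, q) ≠ (2, 2), (2, 3)`), `F₀` is the subfield with `q₀` elements where `q = q₀^k` for a prime `k`, and `H` is the subgroup of matrices of determinant 1 lying in the subfield group of `F₀` (invertible matrices over `F₀` times scalars) — a maximal subgroup of type GL_n(q₀) (the case `n = 2`, `q₀ = 2` is excluded); Ω is the set of `T`-conjugates of `H` (cosets of `H`), so an element of `T` of prime order `r` (a matrix `x` of determinant 1 with `x^r` scalar, `x` not scalar) fixes a point of Ω when some conjugate of `x` by a matrix of determinant 1 lies in `H`. Suppose the index of `H` is even. Then every involution of `T` is conjugate in `T` into `H` if and only if either `q` is even, or `k = 2` and `(n)_2 ≤ (q − 1)_2`. (For `q` odd and `k` odd the index of `H` is odd, so that case does not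 arise.) -/
theorem result {F : Type*} [Field F] [Fintype F] {p : ℕ} [Fact p.Prime] [CharP F p] {q : ℕ} (hq : Fintype.card F = q)
    (n : ℕ) (hn : 2 ≤ n) (hT : (n, q) ≠ (2, 2) ∧ (n, q) ≠ (2, 3))
    (F₀ : Subfield F) (k q₀ : ℕ) (hk : k.Prime) (hF₀ : Nat.card ↥F₀ = q₀) (hqk : q = q₀ ^ k) (hC5 : ¬ (n = 2 ∧ q₀ = 2)) (hΩ : 2 ∣ ((Cfsg.Geo.subfieldSubgroup F₀ 1).comap (Matrix.SpecialLinearGroup.toGL : Matrix.SpecialLinearGroup (Fin n) F →* GL (Fin n) F)).index) :
    (∀ x : Matrix.SpecialLinearGroup (Fin n) F,
      (∃ z : F, ((x ^ 2 : Matrix.SpecialLinearGroup (Fin n) F) : Matrix (Fin n) (Fin n) F) = z • (1 : Matrix (Fin n) (Fin n) F)) →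
      (∀ z : F, (x : Matrix (Fin n) (Fin n) F) ≠ z • (1 : Matrix (Fin n) (Fin n) F)) →
      ∃ P : Matrix.SpecialLinearGroup (Fin n) F, P⁻¹ * x * P ∈ ((Cfsg.Geo.subfieldSubgroup F₀ 1).comap (Matrix.SpecialLinearGroup.toGL : Matrix.SpecialLinearGroup (Fin n) F →* GL (Fin n) F))) ↔
    (Odd q → (k = 2 ∧ padicValNat 2 n ≤ padicValNat 2 (q - 1))) := by
  classical
  have hn0 : 0 < n := by omega
  have hn0' : n ≠ 0 := by omega
  have hne : Nonempty (Fin n) := ⟨⟨0, hn0⟩⟩
  let ι : F₀ →+* F := F₀.subtype
  have hιinj : Function.Injective ι := F₀.subtype_injective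
  by_cases hodd : Odd q
  · have hchar : ringChar F ≠ 2 := by
      intro h
      have h1 := FiniteField.even_card_of_char_two h
      rw [hq] at h1
      exact (Nat.not_even_iff_odd.2 hodd) (Nat.even_iff.2 h1)
    have h2p : (2 : ℕ) ≠ p := by
      rintro rfl
      obtain ⟨f, hf, hf2⟩ := card_eq_pow_char (p := 2) hq
      rw [hf2] at hodd
      exact (Nat.not_even_iff_odd.2 hodd) (Even.pow_of_ne_zero even_two (by omega))
    have h20 : (2 : F) ≠ 0 := by
      intro h
      have h1 := (CharP.cast_eq_zero_iff F p 2).1 (by exact_mod_cast h)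
      exact h2p ((Nat.prime_dvd_prime_iff_eq Fact.out Nat.prime_two).1 h1).symm
    have h1ne : (1 : F) ≠ -1 := by
      intro h
      apply h20
      have : (2 : F) = 1 + 1 := by norm_num
      rw [this]
      nth_rewrite 2 [h]
      simp
    constructor
    · intro H _
      have hk2 : k = 2 := by
        by_contra hk2
        have hkodd : Odd k := hk.odd_of_ne_two hk2
        have h1 := index_subfield_odd (F₀ := F₀) n hq hodd hqk hkodd hF₀
        exact (Nat.not_even_iff_odd.2 h1) (even_iff_two_dvd.2 hΩ)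
      refine ⟨hk2, ?_⟩
      subst hk2
      by_contra hv
      have hi1 : orderOf (q : ZMod 2) = 1 := by
        have h1 : (q : ZMod 2) = 1 := by
          have := Nat.odd_iff.1 hodd
          have h2 := (ZMod.natCast_eq_natCast_iff' q 1 2).2 (by omega)
          simpa using h2
        rw [h1, orderOf_one]
      obtain ⟨x, ⟨c, hc⟩, hns, hdiv⟩ := exists_sl_of_i_one (F := F) (p := p) (r := 2) hq h2p hi1 n hn0'
        (fun h => hv h.1)
      set X : Matrix (Fin n) (Fin n) F := (x : Matrix (Fin n) (Fin n) F) with hX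
      have hX2 : X ^ 2 = c • 1 := by
        rw [hX, ← Matrix.SpecialLinearGroup.coe_pow]
        exact hc
      have hc0 : c ≠ 0 := by
        rintro rfl
        have h1 := congrArg Matrix.det hX2
        rw [Matrix.det_pow, hX, x.2, one_pow, zero_smul, Matrix.det_zero] at h1
        exact one_ne_zero h1
      -- `c` is not a square
      have hcs : ¬ IsSquare c := by
        rintro ⟨b, rfl⟩
        have hT : ∀ v, X.mulVec (X.mulVec v) = (b * b) • v := by
          intro v
          rw [Matrix.mulVec_mulVec, ← sq, hX2, Matrix.smul_mulVec, Matrix.one_mulVec]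
        have hb0 : b ≠ 0 := by
          rintro rfl
          exact hc0 (by simp)
        obtain ⟨v, hv'⟩ : ∃ v, X.mulVec v - b • v ≠ 0 := by
          by_contra hcon
          push Not at hcon
          apply hns b
          apply Matrix.toLin'.injective
          apply LinearMap.ext
          intro w
          rw [Matrix.toLin'_apply, Matrix.toLin'_apply, Matrix.smul_mulVec, Matrix.one_mulVec]
          exact sub_eq_zero.1 (hcon w)
        set u := X.mulVec v - b • v with hu
        have hXu : X.mulVec u = (-b) • u := by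
          rw [hu, Matrix.mulVec_sub, Matrix.mulVec_smul, hT, smul_sub, neg_smul, neg_smul, mul_smul]
          abel
        have h1 := hdiv (Submodule.span F {u}) (by
          intro w hw
          obtain ⟨t, rfl⟩ := Submodule.mem_span_singleton.1 hw
          rw [map_smul, Matrix.toLin'_apply, hXu]
          exact Submodule.smul_mem _ _ (Submodule.smul_mem _ _ (Submodule.mem_span_singleton_self u)))
        rw [finrank_span_singleton hv'] at h1
        omega
      obtain ⟨P, hP⟩ := H x ⟨c, hc⟩ hns
      rw [Subgroup.mem_comap, mem_subfieldSubgroup_iff] at hP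
      obtain ⟨c₁, g₀, hc₁, hcg⟩ := hP
      rw [Matrix.SpecialLinearGroup.coe_GL_coe_matrix] at hcg
      set PM : Matrix (Fin n) (Fin n) F := (P : Matrix (Fin n) (Fin n) F) with hPM
      set PI : Matrix (Fin n) (Fin n) F := ((P⁻¹ : Matrix.SpecialLinearGroup (Fin n) F) : Matrix (Fin n) (Fin n) F) with hPI
      have hPIP : PI * PM = 1 := by
        rw [hPI, hPM, ← Matrix.SpecialLinearGroup.coe_mul, inv_mul_cancel, Matrix.SpecialLinearGroup.coe_one]
      have hPPI : PM * PI = 1 := by
        rw [hPI, hPM, ← Matrix.SpecialLinearGroup.coe_mul, mul_inv_cancel, Matrix.SpecialLinearGroup.coe_one]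
      set G₀ : Matrix (Fin n) (Fin n) F := (g₀ : Matrix (Fin n) (Fin n) F₀).map F₀.subtype with hG₀
      have hX' : PI * X * PM = c₁ • G₀ := by
        rw [← hcg]
        rfl
      have hsq1 : (c₁ • G₀) ^ 2 = c • 1 := by
        rw [← hX', sq]
        calc PI * X * PM * (PI * X * PM) = PI * X * (PM * PI) * X * PM := by simp only [mul_assoc]
          _ = PI * (X ^ 2) * PM := by rw [hPPI, sq]; simp only [mul_assoc, mul_one]
          _ = c • 1 := by
            rw [hX2, Matrix.mul_smul, Matrix.smul_mul, mul_one, hPIP]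
      rw [_root_.smul_pow] at hsq1
      have hentry : ∃ w : F₀, ((w : F)) * c₁ ^ 2 = c := by
        let i₁ : Fin n := ⟨0, hn0⟩
        refine ⟨((g₀ : Matrix (Fin n) (Fin n) F₀) ^ 2) i₁ i₁, ?_⟩
        have h1 := congrFun (congrFun hsq1 i₁) i₁
        simp only [Matrix.smul_apply, Matrix.one_apply_eq, smul_eq_mul, mul_one] at h1
        rw [← h1, mul_comm]
        congr 1
        rw [hG₀, ← RingHom.mapMatrix_apply, ← map_pow]
        rfl
      obtain ⟨w, hw⟩ := hentry
      have hw0 : w ≠ 0 := by
        rintro rfl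
        apply hc0
        rw [← hw]
        simp
      have hws := isSquare_of_subfield_two hq hodd hqk hF₀ w hw0
      apply hcs
      rw [← hw]
      exact hws.mul (IsSquare.sq c₁)
    · intro hcase x ⟨z, hz⟩ hns
      obtain ⟨hk2, hv⟩ := hcase hodd
      subst hk2
      set X : Matrix (Fin n) (Fin n) F := (x : Matrix (Fin n) (Fin n) F) with hX
      set T := Matrix.toLin' X with hT
      have hTr : T ^ 2 = z • (1 : Module.End F (Fin n → F)) := by
        rw [hT, ← toLin'_pow_eq, ← toLin'_smul_one, ← hz, Matrix.SpecialLinearGroup.coe_pow]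
      have hdetT : LinearMap.det T = 1 := by
        rw [hT, LinearMap.det_toLin']
        exact x.2
      have hzs : ∃ b : F, b ^ 2 = z := by
        by_contra hcon
        push Not at hcon
        have hpad := padic_of_not_pow (r := 2) hq n hn0' T z hcon hTr hdetT
        apply hpad
        refine ⟨hv, fun _ _ => ?_⟩
        have hq₀odd : Odd q₀ := by
          rw [hqk] at hodd
          exact (Nat.odd_pow_iff (by norm_num)).1 hodd
        obtain ⟨t, ht⟩ := hq₀odd
        rw [hqk, ht]
        ring_nf
        omega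
      obtain ⟨b, hb⟩ := hzs
      have hz0 : z ≠ 0 := by
        rintro rfl
        have h1 := congrArg Matrix.det hz
        rw [Matrix.SpecialLinearGroup.coe_pow, Matrix.det_pow, x.2, one_pow, zero_smul, Matrix.det_zero] at h1
        exact one_ne_zero h1
      have hb0 : b ≠ 0 := by
        rintro rfl
        rw [zero_pow (by norm_num)] at hb
        exact hz0 hb.symm
      set Y : (Fin n → F) →ₗ[F] (Fin n → F) := b⁻¹ • T with hY
      have hYY : ∀ v, Y (Y v) = v := by
        intro v
        have h1 : Y ^ 2 = 1 := by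
          rw [hY, _root_.smul_pow, hTr, smul_smul, inv_pow, hb, inv_mul_cancel₀ hz0, one_smul]
        have h2 := congrArg (fun A : Module.End F (Fin n → F) => A v) h1
        simpa [sq] using h2
      obtain ⟨B, ε, hBε⟩ := exists_eig_basis Y 1 (-1) h1ne (by
        intro v
        rw [hYY]
        simp)
      obtain ⟨Q, hQ⟩ := exists_gl_of_basis B
      -- the diagonal matrix over the subfield
      let d₀ : Fin n → F₀ := fun i => if ε i then 1 else -1
      have hd₀ : ∀ i, d₀ i ≠ 0 := by
        intro i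
        simp only [d₀]
        split_ifs <;> simp
      have hdet₀ : (Matrix.diagonal d₀).det ≠ 0 := by
        rw [Matrix.det_diagonal]
        exact Finset.prod_ne_zero_iff.2 fun i _ => hd₀ i
      let g₀ : GL (Fin n) F₀ := Matrix.GeneralLinearGroup.mkOfDetNeZero _ hdet₀
      have hg₀ : (g₀ : Matrix (Fin n) (Fin n) F₀).map F₀.subtype =
          Matrix.diagonal (fun i => if ε i then (1 : F) else -1) := by
        ext i j
        show ((Matrix.diagonal d₀ i j : F₀) : F) = _
        by_cases hij : i = j
        · subst hij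
          simp only [Matrix.diagonal_apply_eq, d₀]
          split_ifs <;> simp
        · rw [Matrix.diagonal_apply_ne _ hij, Matrix.diagonal_apply_ne _ hij]
          rfl
      have hδ : (Q : Matrix (Fin n) (Fin n) F).det ≠ 0 := (Matrix.isUnits_det_units Q).ne_zero
      let i₀ : Fin n := ⟨0, hn0⟩
      let cd : Fin n → F := Function.update (fun _ => 1) i₀ ((Q : Matrix (Fin n) (Fin n) F).det)⁻¹
      have hcd : (Matrix.diagonal cd).det = ((Q : Matrix (Fin n) (Fin n) F).det)⁻¹ := by
        rw [Matrix.det_diagonal, Finset.prod_update_of_mem (Finset.mem_univ _)]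
        simp
      let C : GL (Fin n) F := Matrix.GeneralLinearGroup.mkOfDetNeZero (Matrix.diagonal cd)
        (by rw [hcd]; exact inv_ne_zero hδ)
      have hCval : (C : Matrix (Fin n) (Fin n) F) = Matrix.diagonal cd := rfl
      apply conj_into_subfield x b hb0 Q C g₀ 1
      · rw [hg₀]
        apply matrix_ext_single
        intro i
        have h1 : X.mulVec (B i) = b • (if ε i then (1 : F) else -1) • B i := by
          have h2 := hBε i
          rw [← h2, hY]
          simp only [LinearMap.smul_apply]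
          rw [smul_smul, mul_inv_cancel₀ hb0, one_smul, hT, Matrix.toLin'_apply]
        rw [← Matrix.mulVec_mulVec, hQ, ← Matrix.mulVec_mulVec, Matrix.smul_mulVec, Matrix.mulVec_single_one]
        rw [h1]
        have h3 : (Matrix.diagonal fun i => if ε i = true then (1 : F) else -1).col i =
            (if ε i then (1 : F) else -1) • (Pi.single i 1 : Fin n → F) := by
          ext j
          by_cases hij : j = i
          · subst hij
            simp
          · simp [Matrix.diagonal_apply_ne _ hij, Pi.single_apply, hij]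
        rw [h3, Matrix.mulVec_smul, Matrix.mulVec_smul, hQ]
        
      · rw [hg₀, hCval, Matrix.diagonal_mul_diagonal, Matrix.diagonal_mul_diagonal]
        congr 1
        funext i
        exact mul_comm _ _
      · rw [hCval, hcd]
        simp [hδ]
  · have hqeven : Even q := Nat.not_odd_iff_even.1 hodd
    have hp2 : p = 2 := by
      obtain ⟨f, hf, hf2⟩ := card_eq_pow_char (p := p) hq
      rw [hf2] at hqeven
      have h1 := (Nat.even_pow.1 hqeven).1
      exact ((Nat.prime_dvd_prime_iff_eq Nat.prime_two Fact.out).1 (even_iff_two_dvd.1 h1)).symm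
    subst hp2
    constructor
    · intro _ h
      exact absurd h hodd
    · intro _ x ⟨z, hz⟩ hns
      obtain ⟨b, hb⟩ := exists_pow_char_eq (F := F) (p := 2) z
      have hz0 : z ≠ 0 := by
        rintro rfl
        have h1 := congrArg Matrix.det hz
        rw [Matrix.SpecialLinearGroup.coe_pow, Matrix.det_pow, x.2, one_pow, zero_smul, Matrix.det_zero] at h1
        exact one_ne_zero h1
      have hb0 : b ≠ 0 := by
        rintro rfl
        rw [zero_pow (by norm_num)] at hb
        exact hz0 hb.symm
      set M : Matrix (Fin n) (Fin n) F := b⁻¹ • (x : Matrix (Fin n) (Fin n) F) - 1 with hM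
      have hcharM : CharP (Matrix (Fin n) (Fin n) F) 2 := Matrix.charP 2
      have hM3 : M ^ 2 = 0 := by
        rw [hM, sub_pow_char_of_commute (p := 2) (Commute.one_right _), one_pow, _root_.smul_pow,
          ← Matrix.SpecialLinearGroup.coe_pow, hz, smul_smul, inv_pow, hb, inv_mul_cancel₀ hz0, one_smul,
          sub_self]
      set N : (Fin n → F) →ₗ[F] (Fin n → F) := Matrix.toLin' M with hN
      have hN3 : N ^ 2 = 0 := by
        rw [hN, ← toLin'_pow_eq, hM3, map_zero]
      obtain ⟨κ, _, _, a, e, Q, hpos, hle, hQ⟩ := exists_std_conj N 2 hN3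
      rw [hN, LinearMap.toMatrix'_toLin'] at hQ
      set S : Matrix (Fin n) (Fin n) F := stdNil e F with hS
      have hSmap : (stdNil e F₀).map ι = S := stdNil_map e ι
      have hxM : (x : Matrix (Fin n) (Fin n) F) = b • (1 + M) := by
        rw [hM, add_sub_cancel, smul_smul, mul_inv_cancel₀ hb0, one_smul]
      have hxQ : (x : Matrix (Fin n) (Fin n) F) * (Q : Matrix (Fin n) (Fin n) F) =
          (Q : Matrix (Fin n) (Fin n) F) * (b • (1 + S)) := by
        rw [hxM, Matrix.smul_mul, Matrix.mul_smul, add_mul, mul_add, one_mul, mul_one, hQ]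
      have hδ : (Q : Matrix (Fin n) (Fin n) F).det ≠ 0 := (Matrix.isUnits_det_units Q).ne_zero
      have h1S : (1 + S).det ≠ 0 := by
        intro h
        have h1 := congrArg Matrix.det hxQ
        rw [Matrix.det_mul, Matrix.det_mul, x.2, one_mul, Matrix.det_smul, h, mul_zero, mul_zero] at h1
        exact hδ h1
      have hmap1 : (1 + stdNil e F₀ : Matrix (Fin n) (Fin n) F₀).map ι = 1 + S := by
        rw [← hSmap]
        ext i j
        simp [Matrix.one_apply, apply_ite ι]
      have h1S₀ : (1 + stdNil e F₀ : Matrix (Fin n) (Fin n) F₀).det ≠ 0 := by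
        intro h
        apply h1S
        rw [← hmap1, ← RingHom.mapMatrix_apply, ← RingHom.map_det, h, map_zero]
      let g₀ : GL (Fin n) F₀ := Matrix.GeneralLinearGroup.mkOfDetNeZero _ h1S₀
      have hg₀ : (g₀ : Matrix (Fin n) (Fin n) F₀).map F₀.subtype = 1 + S := hmap1
      have hκ : Nonempty κ := by
        by_contra hemp
        rw [not_nonempty_iff] at hemp
        have h1 := Fintype.card_congr e
        rw [Fintype.card_fin] at h1
        have h2 : Fintype.card (Σ j : κ, Fin (a j)) = 0 := by
          rw [Fintype.card_sigma]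
          simp
        omega
      obtain ⟨j₀⟩ := hκ
      have hex : ∃ c : F, c ^ a j₀ = ((Q : Matrix (Fin n) (Fin n) F).det)⁻¹ := by
        have h1 := hpos j₀
        have h2 := hle j₀
        have h3 : a j₀ = 1 ∨ a j₀ = 2 := by omega
        rcases h3 with h3 | h3
        · exact ⟨_, by rw [h3, pow_one]⟩
        · rw [h3]
          exact exists_pow_char_eq (p := 2) _
      obtain ⟨c, hc⟩ := hex
      have hc0 : c ≠ 0 := by
        rintro rfl
        rw [zero_pow (by have := hpos j₀; omega)] at hc
        exact inv_ne_zero hδ hc.symm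
      have hCdet : (stdScal e j₀ c).det ≠ 0 := by
        rw [stdScal_det]
        exact pow_ne_zero _ hc0
      let C : GL (Fin n) F := Matrix.GeneralLinearGroup.mkOfDetNeZero _ hCdet
      have hCval : (C : Matrix (Fin n) (Fin n) F) = stdScal e j₀ c := rfl
      apply conj_into_subfield x b hb0 Q C g₀ 1
      · rw [hg₀]
        exact hxQ
      · rw [hg₀, hCval, mul_add, add_mul, mul_one, one_mul, stdScal_commute]
      · rw [hCval, stdScal_det, hc]
        simp [hδ]

end Cfsg.Agent.S5964
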