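import Cfsg.Statements.S5966
import Cfsg.Agent.Lib.H29.Unip
import Cfsg.Agent.Lib.H29.JordanStd
import Cfsg.Agent.Lib.H29.Subfield
import Cfsg.Agent.Lib.H29.PrimeOrd
import Cfsg.Agent.Lib.H29.PSLSub
-- import your own Cfsg.Agent.* helpers here

set_option autoImplicit false
open scoped MatrixGroups
open Cfsg

namespace Cfsg.Agent.S5966

open Module Polynomial Cfsg.Agent.H29

/-- Commuting with the double block: the determinant is a square. -/
theorem isSquare_det_of_commute {F : Type*} [Field F] {m n : ℕ} (e : (Σ _ : Fin m, Fin 2) ≃ Fin n)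
    (C : Matrix (Fin n) (Fin n) F)
    (hC : C * stdNil e F = stdNil e F * C) : IsSquare C.det := by
  classical
  let ε : (Fin m ⊕ Fin m) ≃ (Σ _ : Fin m, Fin 2) :=
  { toFun := Sum.elim (fun j => ⟨j, 0⟩) (fun j => ⟨j, 1⟩)
    invFun := fun x => if x.2 = 0 then Sum.inl x.1 else Sum.inr x.1
    left_inv := by
      rintro (j | j) <;> simp
    right_inv := by
      rintro ⟨j, l⟩
      fin_cases l <;> simp }
  let e₃ : (Fin m ⊕ Fin m) ≃ Fin n := ε.trans e
  have hJ : (stdNil e F).submatrix e₃ e₃ =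
      Matrix.fromBlocks (0 : Matrix (Fin m) (Fin m) F) 0 1 0 := by
    ext s s'
    have h1 : (stdNil e F).submatrix e₃ e₃ s s' = stdCol e F (ε s') (e (ε s)) := by
      show stdCol e F (e.symm (e (ε s'))) (e (ε s)) = _
      rw [Equiv.symm_apply_apply]
    rw [h1]
    rcases s' with j' | j'
    · have h2 : ε (Sum.inl j') = ⟨j', 0⟩ := rfl
      rw [h2]
      simp only [stdCol]
      rcases s with j | j
      · have h3 : ε (Sum.inl j) = ⟨j, 0⟩ := rfl
        rw [h3]
        simp
      · have h3 : ε (Sum.inr j) = ⟨j, 1⟩ := rfl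
        rw [h3]
        simp [Matrix.one_apply]
    · have h2 : ε (Sum.inr j') = ⟨j', 1⟩ := rfl
      rw [h2]
      simp only [stdCol]
      rcases s with j | j <;> simp
  have hdet : C.det = (C.submatrix e₃ e₃).det := (Matrix.det_submatrix_equiv_self e₃ C).symm
  rw [hdet]
  have hcomm : (C.submatrix e₃ e₃) * (stdNil e F).submatrix e₃ e₃ =
      (stdNil e F).submatrix e₃ e₃ * (C.submatrix e₃ e₃) := by
    rw [Matrix.submatrix_mul_equiv, Matrix.submatrix_mul_equiv, hC]
  rw [hJ, ← Matrix.fromBlocks_toBlocks (C.submatrix e₃ e₃)] at hcomm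
  rw [← Matrix.fromBlocks_toBlocks (C.submatrix e₃ e₃)]
  set A := (C.submatrix e₃ e₃).toBlocks₁₁
  set B := (C.submatrix e₃ e₃).toBlocks₁₂
  set G := (C.submatrix e₃ e₃).toBlocks₂₁
  set D := (C.submatrix e₃ e₃).toBlocks₂₂
  rw [Matrix.fromBlocks_multiply, Matrix.fromBlocks_multiply] at hcomm
  simp only [mul_zero, add_zero, zero_mul, zero_add, mul_one, one_mul] at hcomm
  obtain ⟨h1, -, h3, -⟩ := Matrix.fromBlocks_inj.1 hcomm
  rw [h1, h3, Matrix.det_fromBlocks_zero₁₂]
  exact ⟨A.det, rfl⟩


/-- Elements of order 3 of PSL_n(q) in characteristic 3 and subfield subgroups. Here `T = PSL_n(F)` for a field `F` with `q` elements, `q` a power of 3 (`n ≥ 2`, `(n, q) ≠ (2, 2), (2, 3)`), `F₀` is the subfield with `q₀` elements where `q = q₀^k` for a prime `k`, and `H` is the subgroup of matrices of determinant 1 lying in the subfield group of `F₀` (invertible matrices over `F₀` times scalars) — a maximal subgroup of type GL_n(q₀) (the case `n = 2`, `q₀ = 2` is excluded); Ω is the set of `T`-conjugates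 of `H` (cosets of `H`), so an element of `T` of prime order `r` (a matrix `x` of determinant 1 with `x^r` scalar, `x` not scalar) fixes a point of Ω when some conjugate of `x` by a matrix of determinant 1 lies in `H`. Suppose 3 divides the index of `H`. Then every element of `T` of order 3 is conjugate in `T` into `H` if and only if `n` is odd, or `n` is even and `k > 2`. -/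
theorem result {F : Type*} [Field F] [Fintype F] [CharP F 3] {q : ℕ} (hq : Fintype.card F = q)
    (n : ℕ) (hn : 2 ≤ n) (hT : (n, q) ≠ (2, 3))
    (F₀ : Subfield F) (k q₀ : ℕ) (hk : k.Prime) (hF₀ : Nat.card ↥F₀ = q₀) (hqk : q = q₀ ^ k) (hC5 : ¬ (n = 2 ∧ q₀ = 2)) (hΩ : 3 ∣ ((Cfsg.Geo.subfieldSubgroup F₀ 1).comap (Matrix.SpecialLinearGroup.toGL : Matrix.SpecialLinearGroup (Fin n) F →* GL (Fin n) F)).index) :
    (∀ x : Matrix.SpecialLinearGroup (Fin n) F,
      (∃ z : F, ((x ^ 3 : Matrix.SpecialLinearGroup (Fin n) F) : Matrix (Fin n) (Fin n) F) = z • (1 : Matrix (Fin n) (Fin n) F)) →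
      (∀ z : F, (x : Matrix (Fin n) (Fin n) F) ≠ z • (1 : Matrix (Fin n) (Fin n) F)) →
      ∃ P : Matrix.SpecialLinearGroup (Fin n) F, P⁻¹ * x * P ∈ ((Cfsg.Geo.subfieldSubgroup F₀ 1).comap (Matrix.SpecialLinearGroup.toGL : Matrix.SpecialLinearGroup (Fin n) F →* GL (Fin n) F))) ↔
    (Odd n ∨ (Even n ∧ 2 < k)) := by
  classical
  have hn0 : 0 < n := by omega
  have hne : Nonempty (Fin n) := ⟨⟨0, hn0⟩⟩
  have hqodd : Odd q := by
    obtain ⟨f, hf, hf2⟩ := card_eq_pow_char (p := 3) hq
    rw [hf2]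
    exact Odd.pow (by decide)
  have hchar : ringChar F ≠ 2 := by
    rw [ringChar.eq F 3]
    norm_num
  let ι : F₀ →+* F := F₀.subtype
  have hιinj : Function.Injective ι := F₀.subtype_injective
  have hcube : ∀ c : F, ∃ b : F, b ^ 3 = c := fun c => exists_pow_char_eq (p := 3) c
  constructor
  · intro H
    by_contra hcon
    push Not at hcon
    obtain ⟨hnodd, hk2⟩ := hcon
    have hneven : Even n := Nat.not_odd_iff_even.1 hnodd
    have hk : k = 2 := by
      have := hk.two_le
      have := hk2 hneven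
      omega
    subst hk
    obtain ⟨m, hm⟩ := hneven
    have hmpos : 0 < m := by omega
    have hcard : Fintype.card (Σ _ : Fin m, Fin 2) = n := by
      simp
      omega
    let e₀ : (Σ _ : Fin m, Fin 2) ≃ Fin n := Fintype.equivFinOfCardEq hcard
    have hpos₀ : ∀ _ : Fin m, 0 < 2 := fun _ => by norm_num
    let J : Matrix (Fin n) (Fin n) F := stdNil e₀ F
    have hJtype := hasJType_stdNil (F := F) hpos₀ e₀
    have hJ2 : J ^ 2 = 0 := by
      apply Matrix.toLin'.injective
      rw [toLin'_pow_eq, map_zero]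
      apply LinearMap.ext
      intro v
      apply hJtype.kill (L := 2) _ (Submodule.mem_top)
      intro a ha
      obtain ⟨j, -, rfl⟩ := Multiset.mem_map.1 ha
      exact le_rfl
    have hcharM : CharP (Matrix (Fin n) (Fin n) F) 3 := Matrix.charP 3
    have hx₀3 : (1 + J) ^ 3 = 1 := by
      rw [add_pow_char_of_commute 3 (Commute.one_left J), one_pow]
      have : J ^ 3 = 0 := by rw [pow_succ, hJ2, zero_mul]
      rw [this, add_zero]
    have hx₀det : (1 + J).det = 1 := by
      apply eq_one_of_pow_char (p := 3)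
      rw [← Matrix.det_pow, hx₀3, Matrix.det_one]
    obtain ⟨d, hd⟩ := FiniteField.exists_nonsquare hchar
    have hd0 : d ≠ 0 := by
      rintro rfl
      exact hd (IsSquare.zero)
    obtain ⟨D, hD⟩ := exists_gl_det hn0 d hd0
    set DM : Matrix (Fin n) (Fin n) F := (D : Matrix (Fin n) (Fin n) F) with hDM
    set DI : Matrix (Fin n) (Fin n) F := ((D⁻¹ : GL (Fin n) F) : Matrix (Fin n) (Fin n) F) with hDI
    have hDID : DI * DM = 1 := by
      rw [hDI, hDM, ← Units.val_mul, inv_mul_cancel, Units.val_one]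
    have hDDI : DM * DI = 1 := by
      rw [hDI, hDM, ← Units.val_mul, mul_inv_cancel, Units.val_one]
    have hXdet : (DI * (1 + J) * DM).det = 1 := by
      rw [Matrix.det_mul, Matrix.det_mul, hx₀det, mul_one, ← Matrix.det_mul, hDID, Matrix.det_one]
    obtain ⟨x, hx⟩ : ∃ x : Matrix.SpecialLinearGroup (Fin n) F,
        (x : Matrix (Fin n) (Fin n) F) = DI * (1 + J) * DM := ⟨⟨_, hXdet⟩, rfl⟩
    have hDconj : ∀ l : ℕ, (DI * (1 + J) * DM) ^ l = DI * (1 + J) ^ l * DM := by
      intro l
      induction l with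
      | zero => simp [hDID]
      | succ l ih =>
        rw [pow_succ, ih, pow_succ]
        calc DI * (1 + J) ^ l * DM * (DI * (1 + J) * DM)
            = DI * (1 + J) ^ l * (DM * DI) * (1 + J) * DM := by simp only [mul_assoc]
          _ = DI * ((1 + J) ^ l * (1 + J)) * DM := by rw [hDDI]; simp only [mul_assoc, mul_one]
    have hx3 : ((x ^ 3 : Matrix.SpecialLinearGroup (Fin n) F) : Matrix (Fin n) (Fin n) F) = 1 := by
      rw [Matrix.SpecialLinearGroup.coe_pow, hx, hDconj, hx₀3, mul_one, hDID]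
    have hns : ∀ z : F, (x : Matrix (Fin n) (Fin n) F) ≠ z • (1 : Matrix (Fin n) (Fin n) F) := by
      intro z hz
      have h1 : 1 + J = z • 1 := by
        have h2 : DM * (DI * (1 + J) * DM) * DI = 1 + J := by
          calc DM * (DI * (1 + J) * DM) * DI = (DM * DI) * (1 + J) * (DM * DI) := by
                simp only [mul_assoc]
            _ = 1 + J := by rw [hDDI, one_mul, mul_one]
        rw [← h2, ← hx, hz, Matrix.mul_smul, Matrix.smul_mul, mul_one, hDDI]
      have hJz : J = (z - 1) • (1 : Matrix (Fin n) (Fin n) F) := by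
        have : J = (1 + J) - 1 := by abel
        rw [this, h1, sub_smul, one_smul]
      let j₀ : Fin m := ⟨0, hmpos⟩
      have h3 := stdNil_mulVec_single (R := F) e₀ ⟨j₀, 1⟩
      rw [dif_neg (by simp)] at h3
      have h4 := stdNil_mulVec_single (R := F) e₀ ⟨j₀, 0⟩
      rw [dif_pos (by simp)] at h4
      have h5 : z - 1 = 0 := by
        have h6 : J.mulVec (Pi.single (e₀ ⟨j₀, 1⟩) 1) = 0 := h3
        rw [hJz, Matrix.smul_mulVec, Matrix.one_mulVec] at h6
        have h7 := congrFun h6 (e₀ ⟨j₀, 1⟩)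
        simpa using h7
      have h8 : J = 0 := by rw [hJz, h5, zero_smul]
      have h9 : J.mulVec (Pi.single (e₀ ⟨j₀, 0⟩) 1) =
          Pi.single (e₀ ⟨j₀, ⟨(0 : ℕ) + 1, by norm_num⟩⟩) 1 := h4
      rw [h8, Matrix.zero_mulVec] at h9
      have h10 := congrFun h9 (e₀ ⟨j₀, ⟨(0 : ℕ) + 1, by norm_num⟩⟩)
      simp at h10
    obtain ⟨P, hP⟩ := H x ⟨1, by rw [hx3, one_smul]⟩ hns
    rw [Subgroup.mem_comap, mem_subfieldSubgroup_iff] at hP
    obtain ⟨c, g₀, hc0, hcg⟩ := hP
    rw [Matrix.SpecialLinearGroup.coe_GL_coe_matrix] at hcg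
    set PM : Matrix (Fin n) (Fin n) F := (P : Matrix (Fin n) (Fin n) F) with hPM
    set PI : Matrix (Fin n) (Fin n) F := ((P⁻¹ : Matrix.SpecialLinearGroup (Fin n) F) : Matrix (Fin n) (Fin n) F) with hPI
    have hPIP : PI * PM = 1 := by
      rw [hPI, hPM, ← Matrix.SpecialLinearGroup.coe_mul, inv_mul_cancel, Matrix.SpecialLinearGroup.coe_one]
    have hPPI : PM * PI = 1 := by
      rw [hPI, hPM, ← Matrix.SpecialLinearGroup.coe_mul, mul_inv_cancel, Matrix.SpecialLinearGroup.coe_one]
    set G₀ : Matrix (Fin n) (Fin n) F := (g₀ : Matrix (Fin n) (Fin n) F₀).map F₀.subtype with hG₀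
    have hX' : PI * (x : Matrix (Fin n) (Fin n) F) * PM = c • G₀ := by
      rw [← hcg]
      rfl
    -- the cube of the new element
    have hx3' : (x : Matrix (Fin n) (Fin n) F) ^ 3 = 1 := by
      rw [← Matrix.SpecialLinearGroup.coe_pow]
      exact hx3
    have hcube1 : (c • G₀) ^ 3 = 1 := by
      rw [← hX']
      have h1 : ∀ l : ℕ, (PI * (x : Matrix (Fin n) (Fin n) F) * PM) ^ l =
          PI * (x : Matrix (Fin n) (Fin n) F) ^ l * PM := by
        intro l
        induction l with
        | zero => simp [hPIP]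
        | succ l ih =>
          rw [pow_succ, ih, pow_succ]
          calc PI * (x : Matrix (Fin n) (Fin n) F) ^ l * PM * (PI * (x : Matrix (Fin n) (Fin n) F) * PM)
              = PI * (x : Matrix (Fin n) (Fin n) F) ^ l * (PM * PI) * (x : Matrix (Fin n) (Fin n) F) * PM := by
                simp only [mul_assoc]
            _ = _ := by rw [hPPI]; simp only [mul_assoc, mul_one]
      rw [h1, hx3', mul_one, hPIP]
    have hG3 : G₀ ^ 3 = (c⁻¹) ^ 3 • (1 : Matrix (Fin n) (Fin n) F) := by
      have h1 : c ^ 3 • G₀ ^ 3 = 1 := by rw [← _root_.smul_pow]; exact hcube1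
      have h2 := congrArg (fun A => (c⁻¹) ^ 3 • A) h1
      simp only [smul_smul] at h2
      rw [← mul_pow, inv_mul_cancel₀ hc0, one_pow, one_smul] at h2
      exact h2
    have hentry : ∃ w : F₀, (w : F) = (c⁻¹) ^ 3 := by
      let i₁ : Fin n := ⟨0, hn0⟩
      refine ⟨((g₀ : Matrix (Fin n) (Fin n) F₀) ^ 3) i₁ i₁, ?_⟩
      have h1 := congrFun (congrFun hG3 i₁) i₁
      simp only [Matrix.smul_apply, Matrix.one_apply_eq, smul_eq_mul, mul_one] at h1
      rw [← h1, hG₀, ← RingHom.mapMatrix_apply, ← map_pow]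
      rfl
    obtain ⟨w, hw⟩ := hentry
    have hF₀fin : Finite F₀ := inferInstance
    have hF₀ft : Fintype F₀ := Fintype.ofFinite _
    have hF₀char : CharP F₀ 3 := (RingHom.charP_iff ι hιinj 3).2 inferInstance
    obtain ⟨w', hw'⟩ := exists_pow_char_eq (F := F₀) (p := 3) w
    have hw'c : (w' : F) = c⁻¹ := by
      have h1 : ((w' : F) - c⁻¹) ^ 3 = 0 := by
        rw [sub_pow_char, ← hw, ← hw']
        simp
      exact sub_eq_zero.1 (pow_eq_zero_iff (by norm_num) |>.1 h1)
    have hw'0 : w' ≠ 0 := by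
      rintro rfl
      have : c⁻¹ = 0 := by rw [← hw'c]; simp
      exact inv_ne_zero hc0 this
    -- the element over the subfield
    set g₁ : Matrix (Fin n) (Fin n) F₀ := w'⁻¹ • (g₀ : Matrix (Fin n) (Fin n) F₀) with hg₁
    have hg₁map : g₁.map ι = PI * (x : Matrix (Fin n) (Fin n) F) * PM := by
      rw [hX']
      ext i i'
      simp only [hg₁, Matrix.map_apply, Matrix.smul_apply, smul_eq_mul, hG₀]
      have h1 : ι w'⁻¹ = c := by
        show ((w'⁻¹ : F₀) : F) = c
        rw [map_inv₀ F₀.subtype w' |> fun h => (h : ((w'⁻¹ : F₀) : F) = ((w' : F))⁻¹), hw'c, inv_inv]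
      rw [map_mul, h1]
    set N₁ : Matrix (Fin n) (Fin n) F₀ := g₁ - 1 with hN₁
    have hN₁map : N₁.map ι = PI * (DI * J * DM) * PM := by
      have h1 : N₁.map ι = g₁.map ι - 1 := by
        rw [hN₁]
        ext i i'
        simp [Matrix.map_apply, Matrix.one_apply, apply_ite ι]
      rw [h1, hg₁map, hx]
      have h2 : DI * (1 + J) * DM = 1 + DI * J * DM := by
        rw [mul_add, add_mul, mul_one, hDID]
      rw [h2, mul_add, add_mul, mul_one, hPIP]
      abel
    set R₀ : Matrix (Fin n) (Fin n) F := DM * PM with hR₀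
    have hR₀det : R₀.det = d := by
      rw [hR₀, Matrix.det_mul, hDM, hD, hPM, P.2, mul_one]
    have hJR₀ : J * R₀ = R₀ * N₁.map ι := by
      rw [hN₁map, hR₀]
      symm
      calc (DM * PM) * (PI * (DI * J * DM) * PM) = DM * (PM * PI) * DI * J * DM * PM := by
            simp only [mul_assoc]
        _ = (DM * DI) * J * DM * PM := by rw [hPPI]; simp only [mul_assoc, mul_one]
        _ = J * (DM * PM) := by rw [hDDI]; simp only [mul_assoc, one_mul]
    set R₀I : Matrix (Fin n) (Fin n) F := PI * DI with hR₀I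
    have hR₀IR₀ : R₀I * R₀ = 1 := by
      calc R₀I * R₀ = PI * (DI * DM) * PM := by simp only [hR₀I, hR₀, mul_assoc]
        _ = 1 := by rw [hDID, mul_one, hPIP]
    have hN₁eq : N₁.map ι = R₀I * J * R₀ := by
      rw [mul_assoc, hJR₀, ← mul_assoc, hR₀IR₀, one_mul]
    have hN₁sq : N₁ ^ 2 = 0 := by
      have h1 : (N₁ ^ 2).map ι = (N₁.map ι) ^ 2 := by
        rw [← RingHom.mapMatrix_apply, map_pow]
        rfl
      have h0 : (N₁ ^ 2).map ι = 0 := by
        rw [h1, sq, hN₁eq]
        have h2 : R₀ * R₀I = 1 := mul_eq_one_comm.1 hR₀IR₀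
        calc R₀I * J * R₀ * (R₀I * J * R₀) = R₀I * J * (R₀ * R₀I) * J * R₀ := by simp only [mul_assoc]
          _ = R₀I * (J ^ 2) * R₀ := by rw [h2, sq]; simp only [mul_assoc, mul_one]
          _ = 0 := by rw [hJ2]; simp
      apply Matrix.map_injective hιinj
      simp only [h0]
      ext i j
      simp
    have hR₀det' : IsUnit R₀.det := by
      rw [hR₀det]
      exact IsUnit.mk0 _ hd0
    have hR₀Idet' : IsUnit R₀I.det := by
      have h1 : R₀I.det * R₀.det = 1 := by rw [← Matrix.det_mul, hR₀IR₀, Matrix.det_one]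
      exact IsUnit.of_mul_eq_one _ h1
    have hNrank : N₁.rank = m := by
      rw [← rank_map_eq ι, hN₁eq, Matrix.rank_mul_eq_left_of_isUnit_det _ _ hR₀det',
        Matrix.rank_mul_eq_right_of_isUnit_det _ _ hR₀Idet', rank_eq_finrank_map]
      have h1 := hJtype.finrank_map_pow 1
      rw [pow_one] at h1
      rw [h1]
      simp
    obtain ⟨Q₀, hQ₀⟩ := exists_conj_two_blocks e₀ N₁ hN₁sq hNrank
    set QM : Matrix (Fin n) (Fin n) F := (Q₀ : Matrix (Fin n) (Fin n) F₀).map ι with hQM
    have hQmap : N₁.map ι * QM = QM * J := by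
      have h1 := congrArg (fun A => A.map ι) hQ₀
      simp only [Matrix.map_mul] at h1
      rw [stdNil_map] at h1
      exact h1
    have hcomm : (R₀ * QM) * J = J * (R₀ * QM) := by
      calc (R₀ * QM) * J = R₀ * (QM * J) := mul_assoc _ _ _
        _ = R₀ * (N₁.map ι * QM) := by rw [hQmap]
        _ = (R₀ * N₁.map ι) * QM := (mul_assoc _ _ _).symm
        _ = (J * R₀) * QM := by rw [hJR₀]
        _ = J * (R₀ * QM) := mul_assoc _ _ _
    have hsq := isSquare_det_of_commute e₀ (R₀ * QM) hcomm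
    rw [Matrix.det_mul, hR₀det] at hsq
    have hw1 : (Q₀ : Matrix (Fin n) (Fin n) F₀).det ≠ 0 := by
      exact (Matrix.isUnits_det_units Q₀).ne_zero
    have hQdet : QM.det = ((Q₀ : Matrix (Fin n) (Fin n) F₀).det : F) := by
      rw [hQM, ← RingHom.mapMatrix_apply, ← RingHom.map_det]
      rfl
    have hsq2 := isSquare_of_subfield_two hq hqodd hqk hF₀ _ hw1
    rw [← hQdet] at hsq2
    apply hd
    have hQM0 : QM.det ≠ 0 := by
      rw [hQdet]
      intro h
      exact hw1 (Subtype.ext h)
    have h3 : d = (d * QM.det) / QM.det := by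
      field_simp
    rw [h3]
    exact hsq.div hsq2
  · rintro hcase x ⟨z, hz⟩ hns
    obtain ⟨b, hb⟩ := hcube z
    have hz0 : z ≠ 0 := by
      rintro rfl
      have h1 := congrArg Matrix.det hz
      rw [Matrix.SpecialLinearGroup.coe_pow, Matrix.det_pow, x.2, one_pow, zero_smul, Matrix.det_zero] at h1
      exact one_ne_zero h1
    have hb0 : b ≠ 0 := by
      rintro rfl
      rw [zero_pow (by norm_num)] at hb
      exact hz0 hb.symm
    set M : Matrix (Fin n) (Fin n) F := b⁻¹ • (x : Matrix (Fin n) (Fin n) F) - 1 with hM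
    have hcharM : CharP (Matrix (Fin n) (Fin n) F) 3 := Matrix.charP 3
    have hM3 : M ^ 3 = 0 := by
      rw [hM, sub_pow_char_of_commute (p := 3) (Commute.one_right _), one_pow, _root_.smul_pow,
        ← Matrix.SpecialLinearGroup.coe_pow, hz, smul_smul, inv_pow, hb, inv_mul_cancel₀ hz0, one_smul,
        sub_self]
    set N : (Fin n → F) →ₗ[F] (Fin n → F) := Matrix.toLin' M with hN
    have hN3 : N ^ 3 = 0 := by
      rw [hN, ← toLin'_pow_eq, hM3, map_zero]
    obtain ⟨κ, _, _, a, e, Q, hpos, hle, hQ⟩ := exists_std_conj N 3 hN3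
    rw [hN, LinearMap.toMatrix'_toLin'] at hQ
    set S : Matrix (Fin n) (Fin n) F := stdNil e F with hS
    have hSmap : (stdNil e F₀).map ι = S := stdNil_map e ι
    have hxM : (x : Matrix (Fin n) (Fin n) F) = b • (1 + M) := by
      rw [hM, add_sub_cancel, smul_smul, mul_inv_cancel₀ hb0, one_smul]
    have hxQ : (x : Matrix (Fin n) (Fin n) F) * (Q : Matrix (Fin n) (Fin n) F) =
        (Q : Matrix (Fin n) (Fin n) F) * (b • (1 + S)) := by
      rw [hxM, Matrix.smul_mul, Matrix.mul_smul, add_mul, mul_add, one_mul, mul_one, hQ]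
    have hδ : (Q : Matrix (Fin n) (Fin n) F).det ≠ 0 := (Matrix.isUnits_det_units Q).ne_zero
    have h1S : (1 + S).det ≠ 0 := by
      intro h
      have h1 := congrArg Matrix.det hxQ
      rw [Matrix.det_mul, Matrix.det_mul, x.2, one_mul, Matrix.det_smul, h, mul_zero, mul_zero] at h1
      exact hδ h1
    have hmap1 : (1 + stdNil e F₀ : Matrix (Fin n) (Fin n) F₀).map ι = 1 + S := by
      rw [← hSmap]
      ext i j
      simp [Matrix.one_apply, apply_ite ι]
    have h1S₀ : (1 + stdNil e F₀ : Matrix (Fin n) (Fin n) F₀).det ≠ 0 := by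
      intro h
      apply h1S
      rw [← hmap1, ← RingHom.mapMatrix_apply, ← RingHom.map_det, h, map_zero]
    let g₀ : GL (Fin n) F₀ := Matrix.GeneralLinearGroup.mkOfDetNeZero _ h1S₀
    have hg₀ : (g₀ : Matrix (Fin n) (Fin n) F₀).map F₀.subtype = 1 + S := hmap1
    -- adjusting the determinant
    have hadjust : ∃ (j₀ : κ) (c : F) (w : F₀), c ≠ 0 ∧ w ≠ 0 ∧
        (Q : Matrix (Fin n) (Fin n) F).det * c ^ a j₀ * (w : F) = 1 := by
      have hκ : Nonempty κ := by
        by_contra hemp
        rw [not_nonempty_iff] at hemp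
        have h1 := Fintype.card_congr e
        rw [Fintype.card_fin] at h1
        have h2 : Fintype.card (Σ j : κ, Fin (a j)) = 0 := by
          rw [Fintype.card_sigma]
          simp
        omega
      by_cases hall : ∀ j, a j = 2
      · have hnκ : n = 2 * Fintype.card κ := by
          have h1 := Fintype.card_congr e
          rw [Fintype.card_fin, Fintype.card_sigma] at h1
          simp only [Fintype.card_fin, hall, Finset.sum_const, smul_eq_mul, Finset.card_univ] at h1
          omega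
        have hk2 : 2 < k := by
          rcases hcase with h | h
          · exact absurd (by rw [hnκ]; exact even_two_mul _) (Nat.not_even_iff_odd.2 h)
          · exact h.2
        have hkodd : Odd k := hk.odd_of_ne_two (by omega)
        obtain ⟨w₀, hw₀, hw₀s⟩ := exists_nonsquare_subfield_odd hq hqodd hqk hkodd hF₀
        have hw₀' : (w₀ : F) ≠ 0 := fun h => hw₀ (Subtype.ext h)
        obtain ⟨j₀⟩ := hκ
        by_cases hsq : IsSquare ((Q : Matrix (Fin n) (Fin n) F).det)⁻¹
        · obtain ⟨c, hc⟩ := hsq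
          have hc0 : c ≠ 0 := by
            rintro rfl
            rw [mul_zero] at hc
            exact inv_ne_zero hδ hc
          refine ⟨j₀, c, 1, hc0, one_ne_zero, ?_⟩
          rw [hall j₀, sq, ← hc]
          simp [hδ]
        · obtain ⟨c, hc⟩ := isSquare_mul_of_not hchar (inv_ne_zero hδ) hw₀' hsq hw₀s
          have hc0 : c ≠ 0 := by
            rintro rfl
            rw [mul_zero] at hc
            exact (mul_ne_zero (inv_ne_zero hδ) hw₀') hc
          refine ⟨j₀, c, w₀⁻¹, hc0, inv_ne_zero hw₀, ?_⟩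
          rw [hall j₀, sq, ← hc]
          have : ((w₀⁻¹ : F₀) : F) = (w₀ : F)⁻¹ := map_inv₀ F₀.subtype w₀
          rw [this]
          field_simp
      · push Not at hall
        obtain ⟨j₀, hj₀⟩ := hall
        have h1 := hpos j₀
        have h2 := hle j₀
        have h3 : a j₀ = 1 ∨ a j₀ = 3 := by omega
        refine ⟨j₀, ?_⟩
        have hex : ∃ c : F, c ^ a j₀ = ((Q : Matrix (Fin n) (Fin n) F).det)⁻¹ := by
          rcases h3 with h3 | h3
          · exact ⟨_, by rw [h3, pow_one]⟩
          · rw [h3]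
            exact hcube _
        obtain ⟨c, hc⟩ := hex
        have hc0 : c ≠ 0 := by
          rintro rfl
          rw [zero_pow (by omega)] at hc
          exact inv_ne_zero hδ hc.symm
        refine ⟨c, 1, hc0, one_ne_zero, ?_⟩
        rw [hc]
        simp [hδ]
    obtain ⟨j₀, c, w, hc0, hw0, hdet⟩ := hadjust
    have hCdet : (stdScal e j₀ c).det ≠ 0 := by
      rw [stdScal_det]
      exact pow_ne_zero _ hc0
    let C : GL (Fin n) F := Matrix.GeneralLinearGroup.mkOfDetNeZero _ hCdet
    have hCval : (C : Matrix (Fin n) (Fin n) F) = stdScal e j₀ c := rfl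
    obtain ⟨W, hW⟩ := exists_gl_det hn0 w hw0
    apply conj_into_subfield x b hb0 Q C g₀ W
    · rw [hg₀]
      exact hxQ
    · rw [hg₀, hCval, mul_add, add_mul, mul_one, one_mul, stdScal_commute]
    · rw [hW, hCval, stdScal_det]
      exact hdet

end Cfsg.Agent.S5966
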