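import Cfsg.Statements.S5968
import Cfsg.Agent.Lib.H29.SympRank
-- import your own Cfsg.Agent.* helpers here

set_option autoImplicit false
open scoped MatrixGroups
open Cfsg

namespace Cfsg.Agent.S5968

open Cfsg.Agent.H29



/-- Derangements of odd prime order of PSL_n(q) on the cosets of a symplectic-type subgroup. Here `T = PSL_n(F)` for a field `F` with `q` elements, `n ≥ 4` even, `f` is a nondegenerate alternating form on `F^n`, and `H` is the subgroup of matrices of determinant 1 preserving `f` up to a scalar — a maximal subgroup of type Sp_n(q); Ω is the set of `T`-conjugates of `H` (cosets of `H`), so an element of `T` of prime order `r` (a matrix `x` of determinant 1 with `x^r` scalar, `x` not scalar) fixes a point of Ω when some conjugate of `x` by a matrix of determinant 1 preserves `f` up to a scalar. For every odd prime `r` dividing the index of `H`, with `(n, r) ≠ (6, 3)`, there is an element of `T` of order `r` with no conjugate in `H`. (For `n = 6`, `r = 3` this can fail: when `(q − 1)_3 = 3` every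 element of order 3 is conjugate into `H`.) -/
theorem result {F : Type*} [Field F] [Fintype F] {p : ℕ} [Fact p.Prime] [CharP F p] {q : ℕ} (hq : Fintype.card F = q)
    (n : ℕ) (hn : 4 ≤ n) (he : Even n) (f : (Fin n → F) → (Fin n → F) → F) (hf : Cfsg.Geo.IsSymplecticForm f)
    (r : ℕ) [Fact r.Prime] (hr2 : r ≠ 2) (hgap : ¬ (n = 6 ∧ r = 3)) (hΩ : r ∣ ((Cfsg.Geo.similarityGroup f).comap (Matrix.SpecialLinearGroup.toGL : Matrix.SpecialLinearGroup (Fin n) F →* GL (Fin n) F)).index) :
    ∃ x : Matrix.SpecialLinearGroup (Fin n) F,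
      (∃ z : F, ((x ^ r : Matrix.SpecialLinearGroup (Fin n) F) : Matrix (Fin n) (Fin n) F) = z • (1 : Matrix (Fin n) (Fin n) F)) ∧
      (∀ z : F, (x : Matrix (Fin n) (Fin n) F) ≠ z • (1 : Matrix (Fin n) (Fin n) F)) ∧
      ∀ P : Matrix.SpecialLinearGroup (Fin n) F, P⁻¹ * x * P ∉ ((Cfsg.Geo.similarityGroup f).comap (Matrix.SpecialLinearGroup.toGL : Matrix.SpecialLinearGroup (Fin n) F →* GL (Fin n) F)) := by
  classical
  obtain ⟨d, hd⟩ := he
  have hnd : n = 2 * d := by omega
  by_cases hrp : r = p
  · subst hrp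
    exact no_conj_char hr2 (by omega) f hf
  · have hq2 := two_le_card hq
    obtain ⟨ψ, hinj, hiso⟩ := exists_sp_embed d hnd f hf
    have hψ : ∀ g, ψ g ∈ ((Cfsg.Geo.similarityGroup f).comap (Matrix.SpecialLinearGroup.toGL : Matrix.SpecialLinearGroup (Fin n) F →* GL (Fin n) F)) := by
      intro g
      refine ⟨1, fun u v => ?_⟩
      rw [Matrix.SpecialLinearGroup.coe_GL_coe_matrix, Units.val_one, one_mul]
      exact hiso g u v
    obtain ⟨m, hm, hdvd⟩ := exists_odd_of_dvd_index (p := p) hq n d (by omega) hnd _ ψ hinj hψ r hrp hΩ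
    have hord := (dvd_pow_sub_one_iff hq2 (2 * m + 1)).1 hdvd
    by_cases h1 : r ∣ q - 1
    · exact no_conj_split hq hn f hf r hr2 hgap h1
    · have ho0 := orderOf_q_pos (p := p) (r := r) hq hrp
      have ho1 : orderOf (q : ZMod r) ≠ 1 := fun h => h1 ((dvd_sub_one_iff hq2).2 h)
      have ho2 := Nat.le_of_dvd (by omega) hord
      exact no_conj_odd_rank (p := p) hq (by omega) f hf r hrp (Odd.of_dvd_nat ⟨m, rfl⟩ hord) (by omega) (by omega)

end Cfsg.Agent.S5968
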