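import Cfsg.Statements.S5969
import Cfsg.Agent.Lib.H29.PlanesInv
import Cfsg.Agent.Lib.H29.Mat2
import Cfsg.Agent.Lib.H29.PrimeStable
import Cfsg.Agent.Lib.H29.PrimeOrd
import Cfsg.Agent.Lib.H29.Unip
import Cfsg.Agent.Lib.H29.Subfield
-- import your own Cfsg.Agent.* helpers here

set_option autoImplicit false
open scoped MatrixGroups
open Cfsg

namespace Cfsg.Agent.S5969

open Module Polynomial Cfsg.Agent.H29

section K

variable {F : Type*} [Field F] {n : ℕ} {K : Subalgebra F (Matrix (Fin n) (Fin n) F)}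

theorem K_exists_nonscalar (hK : Cfsg.Geo.IsFieldSubalgebra 2 K) :
    ∃ a ∈ K, ∀ c : F, a ≠ c • (1 : Matrix (Fin n) (Fin n) F) := by
  by_contra hcon
  push Not at hcon
  have h1 : Subalgebra.toSubmodule K ≤ Submodule.span F {(1 : Matrix (Fin n) (Fin n) F)} := by
    intro a ha
    obtain ⟨c, hc⟩ := hcon a ha
    rw [hc]
    exact Submodule.smul_mem _ _ (Submodule.mem_span_singleton_self _)
  have h2 := Submodule.finrank_mono h1
  have h3 : finrank F (Submodule.span F {(1 : Matrix (Fin n) (Fin n) F)}) ≤ 1 :=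
    (finrank_span_le_card ({1} : Set (Matrix (Fin n) (Fin n) F))).trans (by simp)
  have h4 : finrank F (Subalgebra.toSubmodule K) = 2 := hK.finrank_eq
  omega

theorem K_mulVec_eq_zero (hK : Cfsg.Geo.IsFieldSubalgebra 2 K) {r : Matrix (Fin n) (Fin n) F}
    (hr : r ∈ K) (h0 : r ≠ 0) {v : Fin n → F} (hv : r.mulVec v = 0) : v = 0 := by
  obtain ⟨y, hy, hry⟩ := hK.inv r hr h0
  have h1 : y * r = 1 := by rw [hK.comm y hy r hr, hry]
  have h2 : (y * r).mulVec v = y.mulVec (r.mulVec v) := by rw [Matrix.mulVec_mulVec]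
  rw [h1, Matrix.one_mulVec, hv, Matrix.mulVec_zero] at h2
  exact h2

theorem K_combo (hK : Cfsg.Geo.IsFieldSubalgebra 2 K) {a : Matrix (Fin n) (Fin n) F} (ha : a ∈ K)
    (hns : ∀ c : F, a ≠ c • (1 : Matrix (Fin n) (Fin n) F)) {k : Matrix (Fin n) (Fin n) F} (hk : k ∈ K) :
    ∃ α β : F, k = α • 1 + β • a := by
  have hone : (1 : Matrix (Fin n) (Fin n) F) ≠ 0 := by
    intro h
    apply hns 0
    have : a = a * 1 := (mul_one a).symm
    rw [this, h, mul_zero, zero_smul]
  let fam : Fin 2 → K := ![⟨1, K.one_mem⟩, ⟨a, ha⟩]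
  have hli : LinearIndependent F fam := by
    apply LinearIndependent.pair_iff.2
    intro s t hst
    have h1 : s • (1 : Matrix (Fin n) (Fin n) F) + t • a = 0 := congrArg Subtype.val hst
    by_cases ht : t = 0
    · subst ht
      rw [zero_smul, add_zero] at h1
      exact ⟨(smul_eq_zero.1 h1).resolve_right hone, rfl⟩
    · exfalso
      apply hns (-(t⁻¹ * s))
      have h2 : t • a = -(s • (1 : Matrix (Fin n) (Fin n) F)) := eq_neg_of_add_eq_zero_right h1
      have h3 : a = t⁻¹ • (t • a) := by rw [smul_smul, inv_mul_cancel₀ ht, one_smul]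
      rw [h3, h2, smul_neg, smul_smul, neg_smul]
  have hspan := hli.span_eq_top_of_card_eq_finrank' (by
    rw [Fintype.card_fin]
    exact hK.finrank_eq.symm)
  have hk' : (⟨k, hk⟩ : K) ∈ Submodule.span F (Set.range fam) := by
    rw [hspan]
    exact Submodule.mem_top
  obtain ⟨c, hc⟩ := (Submodule.mem_span_range_iff_exists_fun F).1 hk'
  refine ⟨c 0, c 1, ?_⟩
  rw [Fin.sum_univ_two] at hc
  have h1 := congrArg Subtype.val hc
  exact h1.symm

theorem mem_normalizer (hK : Cfsg.Geo.IsFieldSubalgebra 2 K) {a : Matrix (Fin n) (Fin n) F} (ha : a ∈ K)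
    (hns : ∀ c : F, a ≠ c • (1 : Matrix (Fin n) (Fin n) F)) (g : GL (Fin n) F)
    (h : (g : Matrix (Fin n) (Fin n) F) * a * ((g⁻¹ : GL (Fin n) F) : Matrix (Fin n) (Fin n) F) ∈ K) :
    g ∈ Cfsg.Geo.subalgebraNormalizer K := by
  set G : Matrix (Fin n) (Fin n) F := (g : Matrix (Fin n) (Fin n) F) with hG
  set GI : Matrix (Fin n) (Fin n) F := ((g⁻¹ : GL (Fin n) F) : Matrix (Fin n) (Fin n) F) with hGI
  have hGIG : GI * G = 1 := by
    rw [hGI, hG, ← Units.val_mul, inv_mul_cancel, Units.val_one]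
  have hGGI : G * GI = 1 := by
    rw [hGI, hG, ← Units.val_mul, mul_inv_cancel, Units.val_one]
  have hmap : ∀ k ∈ K, G * k * GI ∈ K := by
    intro k hk
    obtain ⟨α, β, rfl⟩ := K_combo hK ha hns hk
    have h1 : G * (α • 1 + β • a) * GI = α • (1 : Matrix (Fin n) (Fin n) F) + β • (G * a * GI) := by
      rw [mul_add, add_mul, Matrix.mul_smul, Matrix.mul_smul, Matrix.smul_mul, Matrix.smul_mul, mul_one, hGGI]
    rw [h1]
    exact K.add_mem (K.smul_mem K.one_mem _) (K.smul_mem h _)
  let φ : K →ₗ[F] K :=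
  { toFun := fun k => ⟨G * k * GI, hmap k k.2⟩
    map_add' := fun x y => by
      apply Subtype.ext
      simp [mul_add, add_mul]
    map_smul' := fun c x => by
      apply Subtype.ext
      simp [Matrix.mul_smul, Matrix.smul_mul] }
  have hfin : FiniteDimensional F K := by
    apply Module.finite_of_finrank_pos
    rw [show finrank F K = 2 from hK.finrank_eq]
    norm_num
  have hinj : Function.Injective φ := by
    intro x y hxy
    have h1 : G * (x : Matrix (Fin n) (Fin n) F) * GI = G * (y : Matrix (Fin n) (Fin n) F) * GI :=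
      congrArg Subtype.val hxy
    have h2 : GI * (G * (x : Matrix (Fin n) (Fin n) F) * GI) * G = GI * (G * (y : Matrix (Fin n) (Fin n) F) * GI) * G := by
      rw [h1]
    have h3 : ∀ A : Matrix (Fin n) (Fin n) F, GI * (G * A * GI) * G = A := by
      intro A
      calc GI * (G * A * GI) * G = (GI * G) * A * (GI * G) := by simp only [mul_assoc]
        _ = A := by rw [hGIG, one_mul, mul_one]
    rw [h3, h3] at h2
    exact Subtype.ext h2
  have hsurj := LinearMap.injective_iff_surjective.1 hinj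
  intro k
  constructor
  · exact hmap k
  · intro hk
    obtain ⟨k', hk'⟩ := hsurj ⟨G * k * GI, hk⟩
    have h1 : G * (k' : Matrix (Fin n) (Fin n) F) * GI = G * k * GI := congrArg Subtype.val hk'
    have h2 : GI * (G * (k' : Matrix (Fin n) (Fin n) F) * GI) * G = GI * (G * k * GI) * G := by
      rw [h1]
    have h3 : ∀ A : Matrix (Fin n) (Fin n) F, GI * (G * A * GI) * G = A := by
      intro A
      calc GI * (G * A * GI) * G = (GI * G) * A * (GI * G) := by simp only [mul_assoc]
        _ = A := by rw [hGIG, one_mul, mul_one]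
    rw [h3, h3] at h2
    rw [← h2]
    exact k'.2

/-- An element of the normalizer with a rank one difference from a scalar forces `n ≤ 2`. -/
theorem no_rank_one (hK : Cfsg.Geo.IsFieldSubalgebra 2 K) (g : GL (Fin n) F)
    (hg : g ∈ Cfsg.Geo.subalgebraNormalizer K) (lam : F) (hlam : lam ≠ 0) (w : Fin n → F) (hw : w ≠ 0)
    (μ : (Fin n → F) → F) (hμ : ∀ v, (g : Matrix (Fin n) (Fin n) F).mulVec v = lam • v + μ v • w)
    (v₀ : Fin n → F) (hv₀ : μ v₀ ≠ 0) : n ≤ 2 := by
  classical
  obtain ⟨a, ha, hns⟩ := K_exists_nonscalar hK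
  set G : Matrix (Fin n) (Fin n) F := (g : Matrix (Fin n) (Fin n) F) with hG
  set GI : Matrix (Fin n) (Fin n) F := ((g⁻¹ : GL (Fin n) F) : Matrix (Fin n) (Fin n) F) with hGI
  have hGIG : GI * G = 1 := by
    rw [hGI, hG, ← Units.val_mul, inv_mul_cancel, Units.val_one]
  have ha' : G * a * GI ∈ K := (hg a).1 ha
  set a' := G * a * GI with ha'def
  have hGa : G * a = a' * G := by
    rw [ha'def, mul_assoc, mul_assoc, hGIG, mul_one]
  have hrel : ∀ v, G.mulVec (a.mulVec v) = a'.mulVec (G.mulVec v) := by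
    intro v
    rw [Matrix.mulVec_mulVec, Matrix.mulVec_mulVec, hGa]
  by_cases hcase : a' = a
  · exfalso
    have h1 := hrel v₀
    rw [hcase, hμ, hμ, Matrix.mulVec_add, Matrix.mulVec_smul, Matrix.mulVec_smul] at h1
    have h2 : μ (a.mulVec v₀) • w = μ v₀ • a.mulVec w := add_left_cancel h1
    set α := μ (a.mulVec v₀) / μ v₀ with hα
    have h3 : (a - α • 1).mulVec w = 0 := by
      rw [Matrix.sub_mulVec, Matrix.smul_mulVec, Matrix.one_mulVec]
      have h4 : a.mulVec w = (μ v₀)⁻¹ • (μ v₀ • a.mulVec w) := by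
        rw [smul_smul, inv_mul_cancel₀ hv₀, one_smul]
      rw [h4, ← h2, smul_smul, hα, div_eq_mul_inv, mul_comm, sub_self]
    have h5 : a - α • 1 ≠ 0 := by
      intro h
      exact hns α (sub_eq_zero.1 h)
    exact hw (K_mulVec_eq_zero hK (K.sub_mem ha (K.smul_mem K.one_mem _)) h5 h3)
  · -- semilinear case
    have hk : a' - a ≠ 0 := sub_ne_zero.2 hcase
    have hkK : a' - a ∈ K := K.sub_mem ha' ha
    obtain ⟨y, hy, hky⟩ := hK.inv _ hkK hk
    have hyk : y * (a' - a) = 1 := by rw [hK.comm y hy _ hkK, hky]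
    have hspan : ∀ v : Fin n → F, v ∈ Submodule.span F
        (Set.range ![(y * a').mulVec w, y.mulVec w]) := by
      intro v
      have h1 := hrel v
      rw [hμ, hμ, Matrix.mulVec_add, Matrix.mulVec_smul, Matrix.mulVec_smul] at h1
      -- `lam (a' - a) v = μ (a v) w - μ v a' w`
      have h2 : lam • (a' - a).mulVec v = μ (a.mulVec v) • w - μ v • a'.mulVec w := by
        rw [Matrix.sub_mulVec, smul_sub]
        have h3 : lam • a.mulVec v + μ (a.mulVec v) • w = lam • a'.mulVec v + μ v • a'.mulVec w := h1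
        have h4 : lam • a'.mulVec v = lam • a.mulVec v + μ (a.mulVec v) • w - μ v • a'.mulVec w := by
          rw [h3]
          abel
        rw [h4]
        abel
      have h5 : v = lam⁻¹ • y.mulVec (lam • (a' - a).mulVec v) := by
        rw [Matrix.mulVec_smul, Matrix.mulVec_mulVec, hyk, Matrix.one_mulVec, smul_smul,
          inv_mul_cancel₀ hlam, one_smul]
      rw [h5, h2, Matrix.mulVec_sub, Matrix.mulVec_smul, Matrix.mulVec_smul, Matrix.mulVec_mulVec]
      apply Submodule.smul_mem
      apply Submodule.sub_mem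
      · exact Submodule.smul_mem _ _ (Submodule.subset_span ⟨1, rfl⟩)
      · exact Submodule.smul_mem _ _ (Submodule.subset_span ⟨0, rfl⟩)
    have htop : Submodule.span F (Set.range ![(y * a').mulVec w, y.mulVec w]) = ⊤ := by
      rw [eq_top_iff]
      intro v _
      exact hspan v
    have h1 := finrank_range_le_card (R := F) ![(y * a').mulVec w, y.mulVec w]
    rw [Set.finrank, htop, finrank_top, Module.finrank_fin_fun, Fintype.card_fin] at h1
    exact h1

theorem K_eq_zero_or (hK : Cfsg.Geo.IsFieldSubalgebra 2 K) {x y : Matrix (Fin n) (Fin n) F} (hx : x ∈ K)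
    (hxy : x * y = 0) : x = 0 ∨ y = 0 := by
  by_cases h : x = 0
  · exact Or.inl h
  · right
    obtain ⟨w, hw, hxw⟩ := hK.inv x hx h
    have h1 : w * x = 1 := by rw [hK.comm w hw x hx, hxw]
    calc y = (w * x) * y := by rw [h1, one_mul]
      _ = 0 := by rw [mul_assoc, hxy, mul_zero]

theorem K_exists_sqrt (hK : Cfsg.Geo.IsFieldSubalgebra 2 K) (h20 : (2 : F) ≠ 0) :
    ∃ r ∈ K, ∃ z₀ : F, r * r = z₀ • (1 : Matrix (Fin n) (Fin n) F) ∧
      (∀ c : F, r ≠ c • (1 : Matrix (Fin n) (Fin n) F)) ∧ ∀ c : F, c * c ≠ z₀ := by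
  obtain ⟨a, ha, hns⟩ := K_exists_nonscalar hK
  obtain ⟨s, t, hst⟩ := K_combo hK ha hns (K.mul_mem ha ha)
  set r : Matrix (Fin n) (Fin n) F := a - (t / 2) • 1 with hr
  have hrK : r ∈ K := K.sub_mem ha (K.smul_mem K.one_mem _)
  have hrns : ∀ c : F, r ≠ c • (1 : Matrix (Fin n) (Fin n) F) := by
    intro c hc
    apply hns (c + t / 2)
    rw [add_smul, ← hc, hr]
    abel
  have hrr : r * r = (s + t ^ 2 / 4) • (1 : Matrix (Fin n) (Fin n) F) := by
    have h1 : r * r = a * a - (t / 2 + t / 2) • a + ((t / 2) * (t / 2)) • 1 := by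
      rw [hr]
      simp only [sub_mul, mul_sub, Matrix.smul_mul, Matrix.mul_smul, mul_one, one_mul, smul_smul, add_smul]
      abel
    rw [h1, hst]
    have h4 : (4 : F) = 2 * 2 := by norm_num
    have h2 : t / 2 + t / 2 = t := by field_simp; ring
    have h3 : (t / 2) * (t / 2) = t ^ 2 / 4 := by rw [h4]; field_simp
    rw [h2, h3, add_smul]
    abel
  refine ⟨r, hrK, s + t ^ 2 / 4, hrr, hrns, ?_⟩
  intro c hc
  have h1 : (r - c • 1) * (r + c • 1) = 0 := by
    simp only [sub_mul, mul_add, Matrix.smul_mul, Matrix.mul_smul, mul_one, one_mul, smul_smul]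
    rw [hrr, ← hc]
    abel
  rcases K_eq_zero_or hK (K.sub_mem hrK (K.smul_mem K.one_mem _)) h1 with h2 | h2
  · exact hrns c (sub_eq_zero.1 h2)
  · apply hrns (-c)
    rw [neg_smul]
    exact eq_neg_of_add_eq_zero_left h2

theorem no_rank_one' (hK : Cfsg.Geo.IsFieldSubalgebra 2 K) (x : Matrix.SpecialLinearGroup (Fin n) F)
    (lam c : F) (hlam : lam ≠ 0) (hc : c ≠ 0) (i₀ i₁ : Fin n)
    (hX : ∀ y : Fin n → F, (x : Matrix (Fin n) (Fin n) F).mulVec y = lam • y + (c * y i₁) • Pi.single i₀ 1)
    (P : Matrix.SpecialLinearGroup (Fin n) F)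
    (hP : P⁻¹ * x * P ∈ (Cfsg.Geo.subalgebraNormalizer K).comap
      (Matrix.SpecialLinearGroup.toGL : Matrix.SpecialLinearGroup (Fin n) F →* GL (Fin n) F)) : n ≤ 2 := by
  set PM : Matrix (Fin n) (Fin n) F := (P : Matrix (Fin n) (Fin n) F) with hPM
  set PI : Matrix (Fin n) (Fin n) F := ((P⁻¹ : Matrix.SpecialLinearGroup (Fin n) F) : Matrix (Fin n) (Fin n) F) with hPI
  have hPIP : PI * PM = 1 := by
    rw [hPI, hPM, ← Matrix.SpecialLinearGroup.coe_mul, inv_mul_cancel, Matrix.SpecialLinearGroup.coe_one]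
  have hPPI : PM * PI = 1 := by
    rw [hPI, hPM, ← Matrix.SpecialLinearGroup.coe_mul, mul_inv_cancel, Matrix.SpecialLinearGroup.coe_one]
  have hg : ((Matrix.SpecialLinearGroup.toGL (P⁻¹ * x * P) : GL (Fin n) F) : Matrix (Fin n) (Fin n) F) =
      PI * (x : Matrix (Fin n) (Fin n) F) * PM := by
    rw [Matrix.SpecialLinearGroup.coe_GL_coe_matrix, Matrix.SpecialLinearGroup.coe_mul,
      Matrix.SpecialLinearGroup.coe_mul]
  have hPe : ∀ i, PM.mulVec (PI.mulVec (Pi.single i 1)) = Pi.single i 1 := fun i => by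
    rw [Matrix.mulVec_mulVec, hPPI, Matrix.one_mulVec]
  apply no_rank_one hK _ hP lam hlam (PI.mulVec (Pi.single i₀ 1)) ?_ (fun v => c * (PM.mulVec v) i₁) ?_
    (PI.mulVec (Pi.single i₁ 1)) ?_
  · intro h
    have h1 := hPe i₀
    rw [h, Matrix.mulVec_zero] at h1
    have h2 := congrFun h1 i₀
    simp at h2
  · intro v
    rw [hg, ← Matrix.mulVec_mulVec, ← Matrix.mulVec_mulVec, hX, Matrix.mulVec_add, Matrix.mulVec_smul,
      Matrix.mulVec_smul, Matrix.mulVec_mulVec, hPIP, Matrix.one_mulVec]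
  · rw [hPe]
    simpa using hc

end K

/-- The case of dimension two. -/
theorem case_two {F : Type*} [Field F] [Fintype F] {p : ℕ} [Fact p.Prime] [CharP F p] {q : ℕ}
    (hq : Fintype.card F = q) (K : Subalgebra F (Matrix (Fin 2) (Fin 2) F))
    (hK : Cfsg.Geo.IsFieldSubalgebra 2 K) (x : Matrix.SpecialLinearGroup (Fin 2) F) (z : F)
    (hz : ((x ^ 2 : Matrix.SpecialLinearGroup (Fin 2) F) : Matrix (Fin 2) (Fin 2) F) = z • (1 : Matrix (Fin 2) (Fin 2) F))
    (hns : ∀ z : F, (x : Matrix (Fin 2) (Fin 2) F) ≠ z • (1 : Matrix (Fin 2) (Fin 2) F)) :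
    ∃ P : Matrix.SpecialLinearGroup (Fin 2) F, P⁻¹ * x * P ∈ (Cfsg.Geo.subalgebraNormalizer K).comap
      (Matrix.SpecialLinearGroup.toGL : Matrix.SpecialLinearGroup (Fin 2) F →* GL (Fin 2) F) := by
  classical
  set X : Matrix (Fin 2) (Fin 2) F := (x : Matrix (Fin 2) (Fin 2) F) with hX
  have hXdet : X.det = 1 := x.2
  have hX2 : X * X = z • 1 := by
    rw [← sq, hX, ← Matrix.SpecialLinearGroup.coe_pow]
    exact hz
  have htr : X.trace = 0 := by
    by_contra htr
    apply hns (X.trace⁻¹ * (z + 1))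
    have h1 := sq_eq_trace X
    rw [hX2, hXdet] at h1
    have h2 : X.trace • X = (z + 1) • (1 : Matrix (Fin 2) (Fin 2) F) := by
      rw [one_smul] at h1
      rw [add_smul, one_smul, h1]
      abel
    rw [mul_smul, ← h2, smul_smul, inv_mul_cancel₀ htr, one_smul]
  -- the abstract reduction
  suffices hs : ∃ (r : Matrix (Fin 2) (Fin 2) F) (R Y₀ C : Matrix (Fin 2) (Fin 2) F) (s e : F),
      r ∈ K ∧ (∀ c : F, r ≠ c • (1 : Matrix (Fin 2) (Fin 2) F)) ∧ R.det ≠ 0 ∧ r * R = R * C ∧
      Y₀ * C = (s • 1 + e • C) * Y₀ ∧ Y₀.det = 1 ∧ Y₀.trace = 0 ∧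
      (∀ c : F, Y₀ ≠ c • (1 : Matrix (Fin 2) (Fin 2) F)) by
    obtain ⟨r, R, Y₀, C, s, e, hr, hrns, hRd, hrR, hY₀C, hY₀d, hY₀t, hY₀ns⟩ := hs
    let RG : GL (Fin 2) F := Matrix.GeneralLinearGroup.mkOfDetNeZero R hRd
    set RI : Matrix (Fin 2) (Fin 2) F := ((RG⁻¹ : GL (Fin 2) F) : Matrix (Fin 2) (Fin 2) F) with hRI
    have hRIR : RI * R = 1 := by
      have : ((RG⁻¹ * RG : GL (Fin 2) F) : Matrix (Fin 2) (Fin 2) F) = 1 := by
        rw [inv_mul_cancel, Units.val_one]
      exact this
    have hRRI : R * RI = 1 := mul_eq_one_comm.1 hRIR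
    set Y : Matrix (Fin 2) (Fin 2) F := R * Y₀ * RI with hY
    have hYd : Y.det = 1 := by
      rw [hY, Matrix.det_mul, Matrix.det_mul, hY₀d, mul_one, ← Matrix.det_mul, hRRI, Matrix.det_one]
    have hYt : Y.trace = 0 := by
      rw [hY, Matrix.trace_mul_comm, ← mul_assoc, hRIR, one_mul, hY₀t]
    have hYns : ∀ c : F, Y ≠ c • (1 : Matrix (Fin 2) (Fin 2) F) := by
      intro c hc
      apply hY₀ns c
      calc Y₀ = RI * (R * Y₀ * RI) * R := by
            calc Y₀ = (RI * R) * Y₀ * (RI * R) := by rw [hRIR, one_mul, mul_one]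
              _ = _ := by simp only [mul_assoc]
        _ = c • 1 := by
            rw [← hY, hc, Matrix.mul_smul, Matrix.smul_mul, mul_one, hRIR]
    have hYr : Y * r = (s • 1 + e • r) * Y := by
      have hrRI : RI * r = C * RI := by
        calc RI * r = RI * (r * R) * RI := by
              rw [mul_assoc, mul_assoc, hRRI, mul_one]
          _ = RI * R * C * RI := by rw [hrR]; simp only [mul_assoc]
          _ = C * RI := by rw [hRIR, one_mul]
      calc Y * r = R * (Y₀ * (RI * r)) := by simp only [hY, mul_assoc]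
        _ = R * ((Y₀ * C) * RI) := by rw [hrRI]; simp only [mul_assoc]
        _ = R * ((s • 1 + e • C) * Y₀ * RI) := by rw [hY₀C]
        _ = (s • 1 + e • (R * C * RI)) * (R * Y₀ * RI) := by
            have h3 : R * (s • 1 + e • C) = (s • 1 + e • (R * C * RI)) * R := by
              rw [mul_add, add_mul, Matrix.mul_smul, Matrix.mul_smul, Matrix.smul_mul, Matrix.smul_mul, mul_one,
                one_mul]
              congr 2
              rw [mul_assoc (R * C), hRIR, mul_one]
            calc R * ((s • 1 + e • C) * Y₀ * RI) = (R * (s • 1 + e • C)) * Y₀ * RI := by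
                  simp only [mul_assoc]
              _ = _ := by rw [h3]; simp only [mul_assoc]
        _ = (s • 1 + e • r) * Y := by
            have h4 : R * C * RI = r := by rw [← hrR, mul_assoc, hRRI, mul_one]
            rw [h4]
    -- conjugating `x` onto `Y`
    have hconj : ∃ P : Matrix (Fin 2) (Fin 2) F, P.det = 1 ∧ X * P = P * Y := by
      by_cases h20 : (2 : F) = 0
      · obtain ⟨P, hP, hXP⟩ := exists_conj_two X Y hns hYns (by rw [htr, hYt]) (by rw [hXdet, hYd])
        have hchar2 : p = 2 := by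
          have h1 := (CharP.cast_eq_zero_iff F p 2).1 (by exact_mod_cast h20)
          exact (Nat.prime_dvd_prime_iff_eq Fact.out Nat.prime_two).1 h1
        subst hchar2
        obtain ⟨w, hw⟩ := exists_pow_char_eq (F := F) (p := 2) P.det⁻¹
        refine ⟨w • P, ?_, ?_⟩
        · rw [Matrix.det_smul, Fintype.card_fin, hw, inv_mul_cancel₀ hP]
        · rw [Matrix.mul_smul, hXP, Matrix.smul_mul]
      · exact exists_conj_two_det_one h20 X Y hns hYns (by rw [htr, hYt]) (by rw [hXdet, hYd]) (by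
          rw [htr, hXdet]
          have h4 : (4 : F) = 2 * 2 := by norm_num
          rw [h4]
          simp [h20])
    obtain ⟨P, hPd, hXP⟩ := hconj
    obtain ⟨PS, hPS⟩ : ∃ PS : Matrix.SpecialLinearGroup (Fin 2) F, (PS : Matrix (Fin 2) (Fin 2) F) = P :=
      ⟨⟨P, hPd⟩, rfl⟩
    refine ⟨PS, ?_⟩
    have hg : ((Matrix.SpecialLinearGroup.toGL (PS⁻¹ * x * PS) : GL (Fin 2) F) : Matrix (Fin 2) (Fin 2) F) = Y := by
      rw [Matrix.SpecialLinearGroup.coe_GL_coe_matrix, Matrix.SpecialLinearGroup.coe_mul,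
        Matrix.SpecialLinearGroup.coe_mul, mul_assoc, hPS, ← hX, hXP, ← hPS, ← mul_assoc,
        ← Matrix.SpecialLinearGroup.coe_mul, inv_mul_cancel, Matrix.SpecialLinearGroup.coe_one, one_mul]
    rw [Subgroup.mem_comap]
    apply mem_normalizer hK hr hrns
    rw [hg]
    set GG : GL (Fin 2) F := Matrix.SpecialLinearGroup.toGL (PS⁻¹ * x * PS) with hGG
    have hGGI : Y * ((GG⁻¹ : GL (Fin 2) F) : Matrix (Fin 2) (Fin 2) F) = 1 := by
      rw [← hg, ← Units.val_mul, mul_inv_cancel, Units.val_one]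
    rw [hYr, mul_assoc, hGGI, mul_one]
    exact K.add_mem (K.smul_mem K.one_mem _) (K.smul_mem hr _)
  -- construct the data
  by_cases h20 : (2 : F) = 0
  · -- characteristic two
    have hchar2 : p = 2 := by
      have h1 := (CharP.cast_eq_zero_iff F p 2).1 (by exact_mod_cast h20)
      exact (Nat.prime_dvd_prime_iff_eq Fact.out Nat.prime_two).1 h1
    subst hchar2
    obtain ⟨a, ha, hans⟩ := K_exists_nonscalar hK
    obtain ⟨v, hv⟩ := exists_cyclic_two a hans
    set t := a.trace with ht
    set d := a.det with hd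
    have ht0 : t ≠ 0 := by
      intro h0
      have h1 := sq_eq_trace a
      rw [← ht, ← hd, h0, zero_smul, zero_sub] at h1
      obtain ⟨w, hw⟩ := exists_pow_char_eq (F := F) (p := 2) (-d)
      have h2 : (a - w • 1) * (a - w • 1) = 0 := by
        have hcharM : CharP (Matrix (Fin 2) (Fin 2) F) 2 := Matrix.charP 2
        have h3 : (a - w • 1) ^ 2 = a ^ 2 - (w • 1) ^ 2 := sub_pow_char_of_commute 2
          (Commute.smul_right (Commute.one_right a) w)
        rw [← sq, h3, sq a, h1, _root_.smul_pow, hw, one_pow, neg_smul, sub_self]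
      rcases K_eq_zero_or hK (K.sub_mem ha (K.smul_mem K.one_mem _)) h2 with h3 | h3 <;>
      exact hans w (sub_eq_zero.1 h3)
    refine ⟨a, cycMat a v, !![1, t; 0, 1], compMat t d, t, 1, ha, hans, ?_, mul_cycMat a v, ?_, ?_, ?_, ?_⟩
    · rw [cycMat_det]
      exact hv
    · ext i j
      fin_cases i <;> fin_cases j <;>
        simp [compMat, Matrix.mul_apply, Fin.sum_univ_two, Matrix.one_apply] <;>
        first
          | (linear_combination t * h20)
          | (linear_combination (-t) * h20)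
          | ring
    · simp [Matrix.det_fin_two]
    · simp only [Matrix.trace_fin_two, Matrix.of_apply, Matrix.cons_val_zero, Matrix.cons_val_one, Matrix.head_cons]
      simpa using (by linear_combination h20 : (1 : F) + 1 = 0)
    · intro c hc
      have h1 := congrFun (congrFun hc 0) 1
      simp at h1
      exact ht0 h1
  · -- odd characteristic
    obtain ⟨r, hr, z₀, hrr, hrns, hz₀⟩ := K_exists_sqrt hK h20
    have hz₀0 : z₀ ≠ 0 := by
      intro h
      exact hz₀ 0 (by rw [h, mul_zero])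
    obtain ⟨v, hv⟩ := exists_cyclic_two r hrns
    have hodd : Odd (Fintype.card F) := by
      rw [hq]
      obtain ⟨f', hf', hf2⟩ := card_eq_pow_char (p := p) hq
      rw [hf2]
      apply Odd.pow
      refine (Fact.out : p.Prime).odd_of_ne_two ?_
      rintro rfl
      exact h20 (by exact_mod_cast CharP.cast_eq_zero F 2)
    obtain ⟨α, β, hαβ⟩ := Cfsg.Agent.S5967.exists_norm_eq hodd z₀ (-1) hz₀0
    have htr0 : r.trace = 0 := by
      by_contra htr0
      apply hrns (r.trace⁻¹ * (z₀ + r.det))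
      have h1 := sq_eq_trace r
      rw [hrr] at h1
      have h2 : r.trace • r = (z₀ + r.det) • (1 : Matrix (Fin 2) (Fin 2) F) := by
        rw [add_smul, h1]
        abel
      rw [mul_smul, ← h2, smul_smul, inv_mul_cancel₀ htr0, one_smul]
    have hdet0 : r.det = -z₀ := by
      have h1 := sq_eq_trace r
      rw [hrr, htr0, zero_smul, zero_sub] at h1
      have h2 := congrFun (congrFun h1 0) 0
      simp at h2
      linear_combination h2
    refine ⟨r, cycMat r v, !![α, β * z₀; -β, -α], compMat r.trace r.det, 0, -1, hr, hrns, ?_, mul_cycMat r v,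
      ?_, ?_, ?_, ?_⟩
    · rw [cycMat_det]
      exact hv
    · rw [htr0, hdet0]
      ext i j
      fin_cases i <;> fin_cases j <;>
        simp [compMat, Matrix.mul_apply, Fin.sum_univ_two, Matrix.one_apply] <;> ring
    · rw [Matrix.det_fin_two_of]
      linear_combination -hαβ
    · simp [Matrix.trace_fin_two]
    · intro c hc
      have h1 := congrFun (congrFun hc 0) 1
      have h2 := congrFun (congrFun hc 0) 0
      have h3 := congrFun (congrFun hc 1) 1
      simp at h1 h2 h3
      rcases h1 with h1 | h1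
      · subst h1
        have h4 : α = 0 := by
          have : (2 : F) * α = 0 := by linear_combination h2 - h3
          exact (mul_eq_zero.1 this).resolve_left h20
        rw [h4] at hαβ
        simp at hαβ
      · exact hz₀0 h1


/-- Involutions of PSL_n(q) and extension-field subgroups of degree 2. Here `T = PSL_n(F)` for a field `F` with `q = p^f` elements (`n ≥ 2`, `(n, q) ≠ (2, 2), (2, 3)`), `k` is a prime dividing `n`, `K` is a subalgebra of the `n × n` matrices that is a field of degree `k` over `F` (an extension-field structure F_{q^k} on `F^n`), and `H` is the subgroup of matrices of determinant 1 normalizing `K` — a subgroup of type GL_{n/k}(q^k) (maximal except in some small cases; maximality is not assumed); Ω is the set of cosets of `H` in `T`, so an element of `T` of prime order `r` (a matrix `x` of determinant 1 with `x^r` scalar, `x` not scalar) fixes a point of Ω when some conjugate of `x` by a matrix of determinant 1 normalizes `K`. Take `k = 2` and suppose the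 index of `H` is even. Then every involution of `T` is conjugate in `T` into `H` if and only if `n = 2`, or `q` is odd and `(q − 1)_2 ≤ (n)_2`. -/
theorem result {F : Type*} [Field F] [Fintype F] {p : ℕ} [Fact p.Prime] [CharP F p] {q : ℕ} (hq : Fintype.card F = q)
    (n : ℕ) (hn : 2 ≤ n) (hT : (n, q) ≠ (2, 2) ∧ (n, q) ≠ (2, 3))
    (k : ℕ) (hk : k.Prime) (hkn : k ∣ n) (K : Subalgebra F (Matrix (Fin n) (Fin n) F)) (hK : Cfsg.Geo.IsFieldSubalgebra k K) (hk2 : k = 2) (hΩ : 2 ∣ ((Cfsg.Geo.subalgebraNormalizer K).comap (Matrix.SpecialLinearGroup.toGL : Matrix.SpecialLinearGroup (Fin n) F →* GL (Fin n) F)).index) :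
    (∀ x : Matrix.SpecialLinearGroup (Fin n) F,
      (∃ z : F, ((x ^ 2 : Matrix.SpecialLinearGroup (Fin n) F) : Matrix (Fin n) (Fin n) F) = z • (1 : Matrix (Fin n) (Fin n) F)) →
      (∀ z : F, (x : Matrix (Fin n) (Fin n) F) ≠ z • (1 : Matrix (Fin n) (Fin n) F)) →
      ∃ P : Matrix.SpecialLinearGroup (Fin n) F, P⁻¹ * x * P ∈ ((Cfsg.Geo.subalgebraNormalizer K).comap (Matrix.SpecialLinearGroup.toGL : Matrix.SpecialLinearGroup (Fin n) F →* GL (Fin n) F))) ↔
    (n = 2 ∨ (Odd q ∧ padicValNat 2 (q - 1) ≤ padicValNat 2 n)) := by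
  classical
  subst hk2
  have he : Even n := even_iff_two_dvd.2 hkn
  have hn0' : n ≠ 0 := by omega
  have hne : Nonempty (Fin n) := ⟨⟨0, by omega⟩⟩
  have hq2 : 2 ≤ q := two_le_card hq
  have hodd20 : Odd q → (2 : F) ≠ 0 := by
    intro hodd h
    have h1 := (CharP.cast_eq_zero_iff F p 2).1 (by exact_mod_cast h)
    have hp2 : p = 2 := (Nat.prime_dvd_prime_iff_eq Fact.out Nat.prime_two).1 h1
    obtain ⟨f', hf', hf2⟩ := card_eq_pow_char (p := p) hq
    rw [hf2, hp2] at hodd
    exact (Nat.not_even_iff_odd.2 hodd) (Even.pow_of_ne_zero even_two (by omega))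
  constructor
  · intro H
    by_contra hlt
    push Not at hlt
    obtain ⟨hn2, hodd⟩ := hlt
    have hn3 : 3 ≤ n := by omega
    let i₀ : Fin n := ⟨0, by omega⟩
    let i₁ : Fin n := ⟨1, by omega⟩
    have h01 : i₁ ≠ i₀ := by simp [i₀, i₁, Fin.ext_iff]
    by_cases hqodd : Odd q
    · have hv := hodd hqodd
      have h20 : (2 : F) ≠ 0 := hodd20 hqodd
      obtain ⟨d, hd0, hdn⟩ := Cfsg.Agent.S5967.exists_neg_pow hq n hn0' h20 hv
      let D : Fin n → F := Function.update (fun _ => -d) i₀ d
      have hDi₀ : D i₀ = d := by simp [D]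
      have hDi : ∀ i, i ≠ i₀ → D i = -d := fun i hi => by simp [D, hi]
      have hD2 : ∀ i, D i * D i = d ^ 2 := by
        intro i
        by_cases hi : i = i₀
        · rw [hi, hDi₀, sq]
        · rw [hDi i hi]
          ring
      have hdetD : (Matrix.diagonal D).det = 1 := by
        rw [Matrix.det_diagonal, Finset.prod_update_of_mem (Finset.mem_univ _), Finset.prod_const]
        have hc : (Finset.univ \ {i₀}).card = n - 1 := by
          rw [Finset.card_sdiff_of_subset (Finset.subset_univ _)]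
          simp
        rw [hc]
        have hnm : n = (n - 1) + 1 := by omega
        have hoddm : Odd (n - 1) := by
          obtain ⟨t, ht⟩ := he
          exact ⟨t - 1, by omega⟩
        have h3 : d * (-d) ^ (n - 1) = d ^ n * (-1) ^ (n - 1) := by
          rw [neg_pow d, mul_comm ((-1 : F) ^ (n - 1)), ← mul_assoc, ← pow_succ', ← hnm]
        rw [h3, hdn, hoddm.neg_one_pow]
        ring
      obtain ⟨x, hx⟩ : ∃ x : Matrix.SpecialLinearGroup (Fin n) F,
          (x : Matrix (Fin n) (Fin n) F) = Matrix.diagonal D := ⟨⟨_, hdetD⟩, rfl⟩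
      have hx2 : ((x ^ 2 : Matrix.SpecialLinearGroup (Fin n) F) : Matrix (Fin n) (Fin n) F) =
          (d ^ 2) • (1 : Matrix (Fin n) (Fin n) F) := by
        rw [Matrix.SpecialLinearGroup.coe_pow, hx, sq, Matrix.diagonal_mul_diagonal]
        ext i j
        by_cases hij : i = j
        · subst hij
          simp [hD2]
        · simp [hij]
      have hd2ne : d ≠ -d := by
        intro h
        apply mul_ne_zero h20 hd0
        linear_combination h
      have hns : ∀ z : F, (x : Matrix (Fin n) (Fin n) F) ≠ z • (1 : Matrix (Fin n) (Fin n) F) := by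
        intro z hz
        rw [hx] at hz
        have h1 := congrFun (congrFun hz i₀) i₀
        have h2 := congrFun (congrFun hz i₁) i₁
        simp only [Matrix.diagonal_apply_eq, Matrix.smul_apply, Matrix.one_apply_eq, smul_eq_mul, mul_one] at h1 h2
        rw [hDi₀] at h1
        rw [hDi i₁ h01] at h2
        exact hd2ne (h1.trans h2.symm)
      obtain ⟨P, hP⟩ := H x ⟨_, hx2⟩ hns
      have hle := no_rank_one' hK x (-d) (2 * d) (neg_ne_zero.2 hd0) (mul_ne_zero h20 hd0) i₀ i₀ (by
        intro y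
        rw [hx]
        ext j
        by_cases hj : j = i₀
        · subst hj
          simp [Matrix.mulVec_diagonal, hDi₀]
          ring
        · simp [Matrix.mulVec_diagonal, hDi j hj, hj]) P hP
      omega
    · have hqeven : Even q := Nat.not_odd_iff_even.1 hqodd
      have hp2 : p = 2 := by
        obtain ⟨f', hf', hf2⟩ := card_eq_pow_char (p := p) hq
        rw [hf2] at hqeven
        have h1 := (Nat.even_pow.1 hqeven).1
        exact ((Nat.prime_dvd_prime_iff_eq Nat.prime_two Fact.out).1 (even_iff_two_dvd.1 h1)).symm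
      subst hp2
      have h20 : (2 : F) = 0 := by exact_mod_cast CharP.cast_eq_zero F 2
      have hdet : (Matrix.transvection i₀ i₁ (1 : F)).det = 1 :=
        Matrix.det_transvection_of_ne _ _ (Ne.symm h01) _
      obtain ⟨x, hx⟩ : ∃ x : Matrix.SpecialLinearGroup (Fin n) F,
          (x : Matrix (Fin n) (Fin n) F) = Matrix.transvection i₀ i₁ (1 : F) := ⟨⟨_, hdet⟩, rfl⟩
      have hx2 : ((x ^ 2 : Matrix.SpecialLinearGroup (Fin n) F) : Matrix (Fin n) (Fin n) F) =
          (1 : F) • (1 : Matrix (Fin n) (Fin n) F) := by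
        rw [Matrix.SpecialLinearGroup.coe_pow, hx, sq, Matrix.transvection_mul_transvection_same _ _ (Ne.symm h01),
          show (1 : F) + 1 = 0 by linear_combination h20, Matrix.transvection_zero, one_smul]
      have hns : ∀ z : F, (x : Matrix (Fin n) (Fin n) F) ≠ z • (1 : Matrix (Fin n) (Fin n) F) := by
        intro z hz
        rw [hx] at hz
        have h1 := congrFun (congrFun hz i₀) i₁
        simp [Matrix.transvection, Matrix.one_apply, Ne.symm h01] at h1
      obtain ⟨P, hP⟩ := H x ⟨_, hx2⟩ hns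
      have hle := no_rank_one' hK x 1 1 one_ne_zero one_ne_zero i₀ i₁ (by
        intro y
        rw [hx, Matrix.transvection, Matrix.add_mulVec, Matrix.one_mulVec]
        ext j
        by_cases hj : j = i₀
        · subst hj
          simp [Matrix.mulVec, dotProduct, Matrix.single_apply, Finset.sum_ite_eq]
        · have hj' : ¬ (i₀ = j) := fun h => hj h.symm
          simp [Matrix.mulVec, dotProduct, Matrix.single_apply, hj, hj']) P hP
      omega
  · rintro hv x ⟨z, hz⟩ hns
    rcases hv with rfl | ⟨hqodd, hv⟩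
    · exact case_two hq K hK x z hz hns
    have h20 : (2 : F) ≠ 0 := hodd20 hqodd
    have hcardS : n = 2 * Fintype.card (Fin (n / 2)) := by
      rw [Fintype.card_fin]
      obtain ⟨t, ht⟩ := he
      omega
    have hSne : Nonempty (Fin (n / 2)) := ⟨⟨0, by omega⟩⟩
    obtain ⟨k₀⟩ := hSne
    obtain ⟨r₀, hr₀, z₀, hrr, hrns, hz₀⟩ := K_exists_sqrt hK h20
    have hz₀0 : z₀ ≠ 0 := by
      intro h
      exact hz₀ 0 (by rw [h, mul_zero])
    set X : Matrix (Fin n) (Fin n) F := (x : Matrix (Fin n) (Fin n) F) with hX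
    have hX2 : X * X = z • 1 := by
      rw [← sq, hX, ← Matrix.SpecialLinearGroup.coe_pow]
      exact hz
    have hXX : ∀ v, X.mulVec (X.mulVec v) = z • v := by
      intro v
      rw [Matrix.mulVec_mulVec, hX2, Matrix.smul_mulVec, Matrix.one_mulVec]
    have hz0 : z ≠ 0 := by
      rintro rfl
      have h1 := congrArg Matrix.det hX2
      rw [Matrix.det_mul, hX, x.2, mul_one, zero_smul, Matrix.det_zero] at h1
      exact one_ne_zero h1
    have hXdet : X.det = 1 := x.2
    have hmem : ∀ (P : Matrix.SpecialLinearGroup (Fin n) F) (a : Matrix (Fin n) (Fin n) F), a ∈ K →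
        (∀ c : F, a ≠ c • (1 : Matrix (Fin n) (Fin n) F)) →
        ((P⁻¹ * x * P : Matrix.SpecialLinearGroup (Fin n) F) : Matrix (Fin n) (Fin n) F) * a =
          a * ((P⁻¹ * x * P : Matrix.SpecialLinearGroup (Fin n) F) : Matrix (Fin n) (Fin n) F) →
        P⁻¹ * x * P ∈ (Cfsg.Geo.subalgebraNormalizer K).comap
          (Matrix.SpecialLinearGroup.toGL : Matrix.SpecialLinearGroup (Fin n) F →* GL (Fin n) F) := by
      intro P a ha hans hcomm
      apply mem_normalizer hK ha hans
      have h1 : ((Matrix.SpecialLinearGroup.toGL (P⁻¹ * x * P) : GL (Fin n) F) : Matrix (Fin n) (Fin n) F) =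
          ((P⁻¹ * x * P : Matrix.SpecialLinearGroup (Fin n) F) : Matrix (Fin n) (Fin n) F) := rfl
      rw [h1, hcomm, mul_assoc, ← h1, ← Units.val_mul, mul_inv_cancel, Units.val_one, mul_one]
      exact ha
    have hrrv : ∀ v, r₀.mulVec (r₀.mulVec v) = z₀ • v := by
      intro v
      rw [Matrix.mulVec_mulVec, hrr, Matrix.smul_mulVec, Matrix.one_mulVec]
    by_cases hs : IsSquare z
    · obtain ⟨b, rfl⟩ := hs
      have hb0 : b ≠ 0 := by
        rintro rfl
        exact hz0 (by simp)
      obtain ⟨H, hH⟩ := exists_cyclic_pairs r₀ z₀ hz₀0 hrrv hz₀ (Fin (n / 2)) hcardS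
      obtain ⟨B, A, hBx, hA⟩ := blocks_of_square hq he h20 hv hn0' X hXdet b hb0 hXX (Fin (n / 2)) hcardS
      obtain ⟨P, hP⟩ := exists_transport x A B H hBx (by
        intro δ _
        obtain ⟨a, -, hAk⟩ := hA k₀
        refine ⟨k₀, !![δ, 0; 0, 1], ?_, ?_⟩
        · rw [hAk]
          ext i j
          fin_cases i <;> fin_cases j <;> simp [Matrix.mul_apply, Fin.sum_univ_two, mul_comm]
        · simp [Matrix.det_fin_two])
      refine ⟨P, hmem P r₀ hr₀ hrns ?_⟩
      set G : Matrix (Fin n) (Fin n) F := ((P⁻¹ * x * P : Matrix.SpecialLinearGroup (Fin n) F) : Matrix (Fin n) (Fin n) F) with hG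
      have hGH : ∀ k, ∃ a : F, G.mulVec (H (0, k)) = a • H (0, k) ∧ G.mulVec (H (1, k)) = a • H (1, k) := by
        intro k
        obtain ⟨a, -, hAk⟩ := hA k
        refine ⟨a, ?_, ?_⟩
        · rw [hP, Fin.sum_univ_two, hAk]
          simp
        · rw [hP, Fin.sum_univ_two, hAk]
          simp
      apply Matrix.toLin'.injective
      apply H.ext
      rintro ⟨i, k⟩
      obtain ⟨a, h0, h1⟩ := hGH k
      rw [Matrix.toLin'_apply, Matrix.toLin'_apply, ← Matrix.mulVec_mulVec, ← Matrix.mulVec_mulVec]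
      fin_cases i
      · show G.mulVec (r₀.mulVec (H (0, k))) = r₀.mulVec (G.mulVec (H (0, k)))
        rw [h0, ← hH, h1, Matrix.mulVec_smul, ← hH]
      · show G.mulVec (r₀.mulVec (H (1, k))) = r₀.mulVec (G.mulVec (H (1, k)))
        rw [h1, hH, hrrv, Matrix.mulVec_smul, h0, Matrix.mulVec_smul, hrrv, smul_comm]
    · -- non-square
      have hringChar : ringChar F ≠ 2 := by
        intro h
        apply h20
        have h1 := ringChar.spec F 2
        exact_mod_cast h1.2 (by rw [h])
      have hz₀s : ¬ IsSquare z₀ := by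
        rintro ⟨c, hc⟩
        exact hz₀ c hc.symm
      obtain ⟨v, hv'⟩ := isSquare_mul_of_not hringChar hz0 hz₀0 hs hz₀s
      have hv0 : v ≠ 0 := by
        rintro rfl
        rw [mul_zero] at hv'
        exact mul_ne_zero hz0 hz₀0 hv'
      set rz : Matrix (Fin n) (Fin n) F := (v / z₀) • r₀ with hrz
      have hrzK : rz ∈ K := K.smul_mem hr₀ _
      have hrzrz : rz * rz = z • 1 := by
        rw [hrz, Matrix.smul_mul, Matrix.mul_smul, hrr, smul_smul, smul_smul]
        congr 1
        field_simp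
        linear_combination -hv'
      have hrzv : ∀ u, rz.mulVec (rz.mulVec u) = z • u := by
        intro u
        rw [Matrix.mulVec_mulVec, hrzrz, Matrix.smul_mulVec, Matrix.one_mulVec]
      have hrzns : ∀ c : F, rz ≠ c • (1 : Matrix (Fin n) (Fin n) F) := by
        intro c hc
        apply hrns ((v / z₀)⁻¹ * c)
        have h1 : v / z₀ ≠ 0 := div_ne_zero hv0 hz₀0
        rw [mul_smul, ← hc, hrz, smul_smul, inv_mul_cancel₀ h1, one_smul]
      have hcz : ∀ c : F, c * c ≠ z := fun c hc => hs ⟨c, hc.symm⟩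
      obtain ⟨B, hB⟩ := exists_cyclic_pairs X z hz0 hXX hcz (Fin (n / 2)) hcardS
      obtain ⟨H, hH⟩ := exists_cyclic_pairs rz z hz0 hrzv hcz (Fin (n / 2)) hcardS
      set A₀ : Matrix (Fin 2) (Fin 2) F := !![0, z; 1, 0] with hA₀
      obtain ⟨P, hP⟩ := exists_transport x (fun _ => A₀) B H (by
        rintro i k
        rw [Fin.sum_univ_two]
        fin_cases i
        · show X.mulVec (B (0, k)) = _
          rw [← hB]
          simp [hA₀]
        · show X.mulVec (B (1, k)) = _
          rw [hB, hXX]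
          simp [hA₀]) (by
        intro δ _
        obtain ⟨a, t, hat⟩ := Cfsg.Agent.S5967.exists_norm_eq (by rw [hq]; exact hqodd) z δ hz0
        refine ⟨k₀, a • 1 + t • A₀, ?_, ?_⟩
        · rw [add_mul, mul_add, Matrix.smul_mul, Matrix.mul_smul, Matrix.smul_mul, Matrix.mul_smul, one_mul, mul_one]
        · have h1 : a • (1 : Matrix (Fin 2) (Fin 2) F) + t • A₀ = !![a, t * z; t * 1, a] := by
            rw [hA₀]
            ext i j
            fin_cases i <;> fin_cases j <;> simp
          rw [h1, Matrix.det_fin_two_of, ← hat]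
          ring)
      refine ⟨P, hmem P rz hrzK hrzns ?_⟩
      set G : Matrix (Fin n) (Fin n) F := ((P⁻¹ * x * P : Matrix.SpecialLinearGroup (Fin n) F) : Matrix (Fin n) (Fin n) F) with hG
      have hGrz : G = rz := by
        apply Matrix.toLin'.injective
        apply H.ext
        rintro ⟨i, k⟩
        rw [Matrix.toLin'_apply, Matrix.toLin'_apply, hP, Fin.sum_univ_two]
        fin_cases i
        · show _ = rz.mulVec (H (0, k))
          rw [← hH]
          simp [hA₀]
        · show _ = rz.mulVec (H (1, k))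
          rw [hH, hrzv]
          simp [hA₀]
      rw [hGrz]

end Cfsg.Agent.S5969
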