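import Cfsg.Statements.S5970
import Cfsg.Agent.Lib.H29.NormSinger
-- import your own Cfsg.Agent.* helpers here

set_option autoImplicit false
open scoped MatrixGroups
open Cfsg

namespace Cfsg.Agent.S5970

open Polynomial Module Cfsg.Agent.H29 Cfsg.Agent.H12.Singer

/-- Derangements with a small annihilator. -/
theorem exists_small_annih {F : Type*} [Field F] [Fintype F] {p : ℕ} [hp : Fact p.Prime] [CharP F p] {q : ℕ}
    (hq : Fintype.card F = q) (n : ℕ) [hn : Fact n.Prime] (hnp : n ≠ p) (h3 : 3 < n)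
    (hi : orderOf (q : ZMod n) ≠ n - 1) :
    ∃ x : Matrix.SpecialLinearGroup (Fin n) F,
      ((x : Matrix (Fin n) (Fin n) F) ^ n = 1) ∧
      (∀ c : F, (x : Matrix (Fin n) (Fin n) F) ≠ c • (1 : Matrix (Fin n) (Fin n) F)) ∧
      ∃ g : F[X], g ≠ 0 ∧ g.natDegree < n ∧ Polynomial.aeval (x : Matrix (Fin n) (Fin n) F) g = 0 := by
  classical
  have hq2 := two_le_card hq
  have hipos := orderOf_q_pos (F := F) (p := p) (r := n) hq hnp
  have hdvd : orderOf (q : ZMod n) ∣ n - 1 := by
    apply orderOf_dvd_of_pow_eq_one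
    exact ZMod.pow_card_sub_one_eq_one (natCast_q_ne_zero (F := F) (p := p) hq hnp)
  have hilt : orderOf (q : ZMod n) < n - 1 := by
    have := Nat.le_of_dvd (by omega) hdvd
    omega
  by_cases hi1 : orderOf (q : ZMod n) = 1
  · have hnq : n ∣ q - 1 := (dvd_sub_one_iff hq2).2 hi1
    have hcardU : n ∣ Fintype.card Fˣ := by
      rw [Fintype.card_units, hq]
      exact hnq
    obtain ⟨ζ, hζ⟩ := exists_prime_orderOf_dvd_card n hcardU
    have hζ1 : (ζ : F) ≠ 1 := by
      intro h
      have h1 : ζ = 1 := Units.ext h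
      rw [h1, orderOf_one] at hζ
      omega
    have hζ0 : (ζ : F) ≠ 0 := ζ.ne_zero
    have hζn : (ζ : F) ^ n = 1 := by
      have h1 : ζ ^ n = 1 := by
        rw [← hζ]
        exact pow_orderOf_eq_one ζ
      rw [← Units.val_pow_eq_pow_val, h1, Units.val_one]
    let i₀ : Fin n := ⟨0, by omega⟩
    let i₁ : Fin n := ⟨1, by omega⟩
    let i₂ : Fin n := ⟨2, by omega⟩
    have h01 : i₀ ≠ i₁ := by simp [i₀, i₁, Fin.ext_iff]
    have h02 : i₀ ≠ i₂ := by simp [i₀, i₂, Fin.ext_iff]
    have h12 : i₁ ≠ i₂ := by simp [i₁, i₂, Fin.ext_iff]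
    let D : Fin n → F := Function.update (Function.update (fun _ => 1) i₀ (ζ : F)) i₁ (ζ : F)⁻¹
    have hD0 : D i₀ = ζ := by simp [D, h01]
    have hD1 : D i₁ = (ζ : F)⁻¹ := by simp [D]
    have hD2 : ∀ i, i ≠ i₀ → i ≠ i₁ → D i = 1 := by
      intro i h1 h2
      simp [D, h1, h2]
    have hdetD : (Matrix.diagonal D).det = 1 := by
      rw [Matrix.det_diagonal, Finset.prod_eq_mul i₀ i₁ h01]
      · rw [hD0, hD1, mul_inv_cancel₀ hζ0]
      · intro i _ hi
        exact hD2 i hi.1 hi.2
      · simp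
      · simp
    obtain ⟨x, hx⟩ : ∃ x : Matrix.SpecialLinearGroup (Fin n) F,
        (x : Matrix (Fin n) (Fin n) F) = Matrix.diagonal D := ⟨⟨_, hdetD⟩, rfl⟩
    refine ⟨x, ?_, ?_, (X - C (ζ : F)) * (X - C (ζ : F)⁻¹) * (X - C 1), ?_, ?_, ?_⟩
    · rw [hx, Matrix.diagonal_pow]
      rw [← Matrix.diagonal_one]
      congr 1
      ext i
      simp only [Pi.pow_apply]
      by_cases h0 : i = i₀
      · rw [h0, hD0, hζn]
      · by_cases h1 : i = i₁
        · rw [h1, hD1, inv_pow, hζn, inv_one]
        · rw [hD2 i h0 h1, one_pow]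
    · intro c hc
      rw [hx] at hc
      have h1 := congrFun (congrFun hc i₀) i₀
      have h2 := congrFun (congrFun hc i₂) i₂
      simp only [Matrix.diagonal_apply_eq, Matrix.smul_apply, Matrix.one_apply_eq, smul_eq_mul, mul_one] at h1 h2
      rw [hD0] at h1
      rw [hD2 i₂ (Ne.symm h02) (Ne.symm h12)] at h2
      exact hζ1 (h1.trans h2.symm)
    · exact mul_ne_zero (mul_ne_zero (X_sub_C_ne_zero _) (X_sub_C_ne_zero _)) (X_sub_C_ne_zero _)
    · rw [natDegree_mul (mul_ne_zero (X_sub_C_ne_zero _) (X_sub_C_ne_zero _)) (X_sub_C_ne_zero _),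
        natDegree_mul (X_sub_C_ne_zero _) (X_sub_C_ne_zero _), natDegree_X_sub_C, natDegree_X_sub_C,
        natDegree_X_sub_C]
      omega
    · rw [hx, aeval_diagonal_eq]
      rw [← Matrix.diagonal_zero]
      congr 1
      ext i
      simp only [eval_mul, eval_sub, eval_X, eval_C, Pi.zero_apply]
      by_cases h0 : i = i₀
      · rw [h0, hD0, sub_self, zero_mul, zero_mul]
      · by_cases h1 : i = i₁
        · rw [h1, hD1, sub_self, mul_zero, zero_mul]
        · rw [hD2 i h0 h1, sub_self, mul_zero]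
  · have hi2 : 2 ≤ orderOf (q : ZMod n) := by omega
    have hΦ0 := Phi_ne_zero (F := F) hn
    have hr2 := hn.out.two_le
    have hΦu : ¬ IsUnit (Phi F n) := by
      intro hu
      have h1 := congrArg natDegree (X_sub_one_mul_Phi (F := F) n)
      have hX : (X - 1 : F[X]) = X - C 1 := by simp
      rw [natDegree_mul (by rw [hX]; exact X_sub_C_ne_zero 1) hΦ0,
        natDegree_eq_zero_of_isUnit hu, hX, natDegree_X_sub_C, ← C_1, natDegree_X_pow_sub_C] at h1
      omega
    obtain ⟨g, hg, hgΦ⟩ := WfDvdMonoid.exists_irreducible_factor hΦu hΦ0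
    have hgd : g.natDegree = orderOf (q : ZMod n) := natDegree_of_dvd_Phi (p := p) hq hnp g hg hgΦ
    obtain ⟨x, hx1, hx2⟩ := exists_block_matrix g hg 1 (n - orderOf (q : ZMod n)) n (by rw [hgd]; omega)
    set T := Matrix.toLin' x with hT
    have hTr : T ^ n = 1 := by
      obtain ⟨h, hh⟩ := hgΦ
      have h1 : Polynomial.aeval T (X ^ n - 1 : F[X]) = 0 := by
        rw [← X_sub_one_mul_Phi, hh, ← mul_assoc, map_mul, hx1, zero_mul]
      simp only [map_sub, map_pow, aeval_X, map_one] at h1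
      exact sub_eq_zero.1 h1
    have hxr : x ^ n = 1 := by
      apply Matrix.toLin'.injective
      rw [toLin'_pow_eq, ← hT, hTr]
      ext v
      simp
    have hrq : ¬ n ∣ q - 1 := by
      rw [dvd_sub_one_iff hq2]
      omega
    have hdet : x.det = 1 := by
      apply eq_one_of_pow_eq_one hq hrq
      rw [← Matrix.det_pow, hxr, Matrix.det_one]
    obtain ⟨xS, hX⟩ : ∃ xS : Matrix.SpecialLinearGroup (Fin n) F, (xS : Matrix (Fin n) (Fin n) F) = x :=
      ⟨⟨x, hdet⟩, rfl⟩
    have hX1 : (X - 1 : F[X]) = X - C 1 := by simp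
    refine ⟨xS, ?_, ?_, (X - 1) * g, ?_, ?_, ?_⟩
    · rw [hX]
      exact hxr
    · intro c hc
      have hc' : x = c • (1 : Matrix (Fin n) (Fin n) F) := by rw [← hX]; exact hc
      have hTc : T = c • (1 : Module.End F (Fin n → F)) := by
        rw [hT, hc', toLin'_smul_one]
      have hkpos : 0 < finrank F (LinearMap.ker (Polynomial.aeval T g)) := by
        have : 0 < 1 * g.natDegree := by rw [hgd]; positivity
        omega
      obtain ⟨v, hv⟩ := Submodule.exists_mem_ne_zero_of_ne_bot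
        (fun h : LinearMap.ker (Polynomial.aeval T g) = ⊥ => by
          rw [h, finrank_bot] at hkpos
          exact lt_irrefl _ hkpos)
      have h1 : Polynomial.aeval T g v = 0 := hv.1
      rw [hTc, aeval_smul_one] at h1
      have h2 : g.eval c = 0 := (smul_eq_zero.1 h1).resolve_right hv.2
      have h3 : (X - C c) ∣ g := dvd_iff_isRoot.2 h2
      have h4 := natDegree_of_dvd_irreducible g (X - C c) hg (irreducible_X_sub_C c) h3
      rw [natDegree_X_sub_C] at h4
      omega
    · exact mul_ne_zero (by rw [hX1]; exact X_sub_C_ne_zero 1) hg.ne_zero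
    · rw [natDegree_mul (by rw [hX1]; exact X_sub_C_ne_zero 1) hg.ne_zero, hX1, natDegree_X_sub_C, hgd]
      omega
    · rw [hX]
      apply Matrix.toLin'.injective
      rw [← aeval_toLin', ← hT, hx1, map_zero]

/-- Elements of order `n`, when the order of `q` is `n - 1`, are conjugate into the normaliser. -/
theorem conj_of_order {F : Type*} [Field F] [Fintype F] {p : ℕ} [hp : Fact p.Prime] [CharP F p] {q n : ℕ}
    {K : Subalgebra F (Matrix (Fin n) (Fin n) F)} (hq : Fintype.card F = q) [hn : Fact n.Prime] (hnp : n ≠ p)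
    (h3 : 3 ≤ n) (hK : Cfsg.Geo.IsFieldSubalgebra n K) (hi : orderOf (q : ZMod n) = n - 1)
    (x : Matrix.SpecialLinearGroup (Fin n) F) (z : F)
    (hz : (x : Matrix (Fin n) (Fin n) F) ^ n = z • 1)
    (hns : ∀ c : F, (x : Matrix (Fin n) (Fin n) F) ≠ c • (1 : Matrix (Fin n) (Fin n) F)) :
    ∃ P : Matrix.SpecialLinearGroup (Fin n) F, P⁻¹ * x * P ∈ (Cfsg.Geo.subalgebraNormalizer K).comap
      (Matrix.SpecialLinearGroup.toGL : Matrix.SpecialLinearGroup (Fin n) F →* GL (Fin n) F) := by
  classical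
  haveI : Nonempty (Fin n) := ⟨⟨0, by omega⟩⟩
  have hq2 := two_le_card hq
  have hrq : ¬ n ∣ q - 1 := by
    rw [dvd_sub_one_iff hq2]
    omega
  have hz0 : z ≠ 0 := by
    rintro rfl
    have h1 := congrArg Matrix.det hz
    rw [zero_smul, Matrix.det_zero, Matrix.det_pow, x.2, one_pow] at h1
    exact one_ne_zero h1
  obtain ⟨b, hb0, hbz⟩ := exists_pow_eq_of_not_dvd hq hrq z hz0
  set Y : Matrix (Fin n) (Fin n) F := b⁻¹ • (x : Matrix (Fin n) (Fin n) F) with hY
  have hxY : (x : Matrix (Fin n) (Fin n) F) = b • Y := by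
    rw [hY, smul_smul, mul_inv_cancel₀ hb0, one_smul]
  have hYn : Y ^ n = 1 := by
    rw [hY, _root_.smul_pow, hz, smul_smul, inv_pow, ← hbz, inv_mul_cancel₀ (pow_ne_zero _ hb0), one_smul]
  have hY1 : Y ≠ 1 := by
    intro h
    apply hns b
    rw [hxY, h]
  have hΦ0 := Phi_ne_zero (F := F) hn
  have hnd : (Phi F n).natDegree = n - 1 := by
    have h1 := congrArg natDegree (X_sub_one_mul_Phi (F := F) n)
    have hX : (X - 1 : F[X]) = X - C 1 := by simp
    rw [natDegree_mul (by rw [hX]; exact X_sub_C_ne_zero 1) hΦ0, hX, natDegree_X_sub_C, ← C_1,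
      natDegree_X_pow_sub_C] at h1
    omega
  have hΦu : ¬ IsUnit (Phi F n) := by
    intro hu
    have := natDegree_eq_zero_of_isUnit hu
    omega
  obtain ⟨g, hg, hgΦ⟩ := WfDvdMonoid.exists_irreducible_factor hΦu hΦ0
  have hgd : g.natDegree = orderOf (q : ZMod n) := natDegree_of_dvd_Phi (p := p) hq hnp g hg hgΦ
  have hirr : Irreducible (Phi F n) := by
    obtain ⟨h, hh⟩ := hgΦ
    have hh0 : h ≠ 0 := by
      rintro rfl
      rw [mul_zero] at hh
      exact hΦ0 hh
    have h1 : (Phi F n).natDegree = g.natDegree + h.natDegree := by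
      rw [hh, natDegree_mul hg.ne_zero hh0]
    have h2 : h.natDegree = 0 := by omega
    obtain ⟨c, hc⟩ := natDegree_eq_zero.1 h2
    have hc0 : c ≠ 0 := by
      rintro rfl
      apply hh0
      rw [← hc, C_0]
    have hu : IsUnit h := by
      rw [← hc]
      exact isUnit_C.2 hc0.isUnit
    rw [hh]
    exact (irreducible_mul_isUnit hu).2 hg
  have hn0 : (n : F) ≠ 0 := by
    intro h
    have h5 : p ∣ n := (CharP.cast_eq_zero_iff F p n).1 h
    exact hnp ((Nat.prime_dvd_prime_iff_eq hp.out hn.out).1 h5).symm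
  apply exists_conj_into_normalizer hq hn.out hK hn0 x b Y hxY hYn
  intro h h0 hd
  apply noann_of_Phi_irreducible n h3 (by simp) hirr hnd (Matrix.toLin' Y) _ _ h h0 hd
  · rw [← toLin'_pow_eq, hYn]
    ext v
    simp
  · intro h1
    apply hY1
    apply Matrix.toLin'.injective
    rw [h1]
    ext v
    simp


/-- Elements of order `n` of PSL_n(q), `n` prime, and the normalizer of a Singer cycle. Here `T = PSL_n(F)` for a field `F` with `q = p^f` elements (`n ≥ 2`, `(n, q) ≠ (2, 2), (2, 3)`), `k` is a prime dividing `n`, `K` is a subalgebra of the `n × n` matrices that is a field of degree `k` over `F` (an extension-field structure F_{q^k} on `F^n`), and `H` is the subgroup of matrices of determinant 1 normalizing `K` — a subgroup of type GL_{n/k}(q^k) (maximal except in some small cases; maximality is not assumed); Ω is the set of cosets of `H` in `T`, so an element of `T` of prime order `r` (a matrix `x` of determinant 1 with `x^r` scalar, `x` not scalar) fixes a point of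 Ω when some conjugate of `x` by a matrix of determinant 1 normalizes `K`. Take `k = n > 3` prime with `n ≠ p` (so `H` is the normalizer of a Singer cycle), and suppose `n` divides the index of `H`. Then every element of `T` of order `n` is conjugate in `T` into `H` if and only if the multiplicative order of `q` modulo `n` is `n − 1`. -/
theorem result {F : Type*} [Field F] [Fintype F] {p : ℕ} [Fact p.Prime] [CharP F p] {q : ℕ} (hq : Fintype.card F = q)
    (n : ℕ) (hn : 2 ≤ n) (hT : (n, q) ≠ (2, 2) ∧ (n, q) ≠ (2, 3))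
    (k : ℕ) (hk : k.Prime) (hkn : k ∣ n) (K : Subalgebra F (Matrix (Fin n) (Fin n) F)) (hK : Cfsg.Geo.IsFieldSubalgebra k K) (hkn' : k = n) (hn3 : 3 < n) (hnp : n ≠ p) (hΩ : n ∣ ((Cfsg.Geo.subalgebraNormalizer K).comap (Matrix.SpecialLinearGroup.toGL : Matrix.SpecialLinearGroup (Fin n) F →* GL (Fin n) F)).index) :
    (∀ x : Matrix.SpecialLinearGroup (Fin n) F,
      (∃ z : F, ((x ^ n : Matrix.SpecialLinearGroup (Fin n) F) : Matrix (Fin n) (Fin n) F) = z • (1 : Matrix (Fin n) (Fin n) F)) →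
      (∀ z : F, (x : Matrix (Fin n) (Fin n) F) ≠ z • (1 : Matrix (Fin n) (Fin n) F)) →
      ∃ P : Matrix.SpecialLinearGroup (Fin n) F, P⁻¹ * x * P ∈ ((Cfsg.Geo.subalgebraNormalizer K).comap (Matrix.SpecialLinearGroup.toGL : Matrix.SpecialLinearGroup (Fin n) F →* GL (Fin n) F))) ↔
    orderOf (q : ZMod n) = n - 1 := by
  classical
  have hkn'' := hkn'.symm
  subst hkn''
  haveI hnP : Fact n.Prime := ⟨hk⟩
  have hn0 : n ≠ 0 := hk.ne_zero
  haveI : Nonempty (Fin n) := ⟨⟨0, hk.pos⟩⟩
  constructor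
  · intro H
    by_contra hi
    obtain ⟨x, hxn, hns, g, hg0, hgd, hg⟩ := exists_small_annih (p := p) hq n hnp hn3 hi
    have hx1 : ((x ^ n : Matrix.SpecialLinearGroup (Fin n) F) : Matrix (Fin n) (Fin n) F) = (1 : F) • (1 : Matrix (Fin n) (Fin n) F) := by
      rw [Matrix.SpecialLinearGroup.coe_pow, hxn, one_smul]
    obtain ⟨P, hP⟩ := H x ⟨1, hx1⟩ hns
    set PM : Matrix (Fin n) (Fin n) F := (P : Matrix (Fin n) (Fin n) F) with hPM
    set PI : Matrix (Fin n) (Fin n) F := ((P⁻¹ : Matrix.SpecialLinearGroup (Fin n) F) : Matrix (Fin n) (Fin n) F) with hPI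
    have hPIP : PI * PM = 1 := by
      rw [hPI, hPM, ← Matrix.SpecialLinearGroup.coe_mul, inv_mul_cancel, Matrix.SpecialLinearGroup.coe_one]
    have hPPI : PM * PI = 1 := by
      rw [hPI, hPM, ← Matrix.SpecialLinearGroup.coe_mul, mul_inv_cancel, Matrix.SpecialLinearGroup.coe_one]
    have hY : ((Matrix.SpecialLinearGroup.toGL (P⁻¹ * x * P) : GL (Fin n) F) : Matrix (Fin n) (Fin n) F) =
        PI * (x : Matrix (Fin n) (Fin n) F) * PM := by
      rw [Matrix.SpecialLinearGroup.coe_GL_coe_matrix, Matrix.SpecialLinearGroup.coe_mul,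
        Matrix.SpecialLinearGroup.coe_mul]
    have h0 := no_small_annihilator hk hK _ hP 1 (by
        rw [hY, conj_pow_matrix hPPI, if_neg hn0, hxn, mul_one, hPIP, one_smul]) (by
        intro c hc
        rw [hY] at hc
        apply hns c
        calc (x : Matrix (Fin n) (Fin n) F) = PM * (PI * (x : Matrix (Fin n) (Fin n) F) * PM) * PI := by
              calc (x : Matrix (Fin n) (Fin n) F) = (PM * PI) * x * (PM * PI) := by rw [hPPI, one_mul, mul_one]
                _ = _ := by simp only [mul_assoc]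
          _ = c • 1 := by
              rw [hc, Matrix.mul_smul, Matrix.smul_mul, mul_one, hPPI]) g (by
        rw [hY, aeval_conj_matrix hPPI hPIP, hg, mul_zero, zero_mul]) hgd
    exact hg0 h0
  · rintro hi x ⟨z, hz⟩ hns
    have hz' : (x : Matrix (Fin n) (Fin n) F) ^ n = z • 1 := by
      rw [← Matrix.SpecialLinearGroup.coe_pow]
      exact hz
    exact conj_of_order (p := p) hq hnp (by omega) hK hi x z hz' hns

end Cfsg.Agent.S5970
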