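import Cfsg.Statements.S5971
import Cfsg.Agent.S5970
import Cfsg.Agent.Lib.Lead.CardSL
-- import your own Cfsg.Agent.* helpers here

set_option autoImplicit false
open scoped MatrixGroups
open Cfsg

namespace Cfsg.Agent.S5971

open Polynomial Module Cfsg.Agent.H29 Cfsg.Agent.H12.Singer

theorem cube_contra {F : Type*} [Field F] (hnine : ∀ c : F, c ^ 9 = 1 → c ^ 3 = 1) (α β b : F) (hb : b ≠ 0)
    (hα : α ^ 3 = 1) (hβ : β ^ 3 = 1) (hαβ : α ≠ β) (h : b ^ 3 * α ^ 2 * β = 1 ∨ b ^ 3 * α * β ^ 2 = 1) : False := by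
  set u := b⁻¹ with hu
  have hub : u * b = 1 := inv_mul_cancel₀ hb
  have hub3 : u ^ 3 * b ^ 3 = 1 := by rw [← mul_pow, hub, one_pow]
  have hs : ∃ s : F, s ^ 3 = α * β ^ 2 := by
    rcases h with h | h
    · refine ⟨u ^ 2, ?_⟩
      have h1 : u ^ 3 = α ^ 2 * β := by
        calc u ^ 3 = (u ^ 3 * b ^ 3) * α ^ 2 * β + u ^ 3 * (1 - b ^ 3 * α ^ 2 * β) := by ring
          _ = α ^ 2 * β := by rw [hub3, h]; ring
      calc (u ^ 2) ^ 3 = (u ^ 3) ^ 2 := by ring
        _ = α ^ 3 * α * β ^ 2 := by rw [h1]; ring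
        _ = α * β ^ 2 := by rw [hα, one_mul]
    · refine ⟨u, ?_⟩
      calc u ^ 3 = (u ^ 3 * b ^ 3) * α * β ^ 2 + u ^ 3 * (1 - b ^ 3 * α * β ^ 2) := by ring
        _ = α * β ^ 2 := by rw [hub3, h]; ring
  obtain ⟨s, hs⟩ := hs
  have h9 : s ^ 9 = 1 := by
    calc s ^ 9 = (s ^ 3) ^ 3 := by ring
      _ = α ^ 3 * (β ^ 3) ^ 2 := by rw [hs]; ring
      _ = 1 := by rw [hα, hβ]; ring
  have h1 := hnine s h9
  rw [hs] at h1
  apply hαβ
  calc α = α * β ^ 3 := by rw [hβ, mul_one]
    _ = (α * β ^ 2) * β := by ring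
    _ = β := by rw [h1, one_mul]

/-- Elements with a small annihilator are not conjugate into the normaliser. -/
theorem no_conj_small {F : Type*} [Field F] [Fintype F] {n : ℕ} {K : Subalgebra F (Matrix (Fin n) (Fin n) F)}
    (hnp : n.Prime) (hK : Cfsg.Geo.IsFieldSubalgebra n K) (x : Matrix.SpecialLinearGroup (Fin n) F) (z : F)
    (hxn : (x : Matrix (Fin n) (Fin n) F) ^ n = z • 1)
    (hns : ∀ c : F, (x : Matrix (Fin n) (Fin n) F) ≠ c • (1 : Matrix (Fin n) (Fin n) F))
    (g : F[X]) (hg0 : g ≠ 0) (hgd : g.natDegree < n) (hg : Polynomial.aeval (x : Matrix (Fin n) (Fin n) F) g = 0)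
    (P : Matrix.SpecialLinearGroup (Fin n) F)
    (hP : P⁻¹ * x * P ∈ (Cfsg.Geo.subalgebraNormalizer K).comap
      (Matrix.SpecialLinearGroup.toGL : Matrix.SpecialLinearGroup (Fin n) F →* GL (Fin n) F)) : False := by
  have hn0 := hnp.ne_zero
  set PM : Matrix (Fin n) (Fin n) F := (P : Matrix (Fin n) (Fin n) F) with hPM
  set PI : Matrix (Fin n) (Fin n) F := ((P⁻¹ : Matrix.SpecialLinearGroup (Fin n) F) : Matrix (Fin n) (Fin n) F) with hPI
  have hPIP : PI * PM = 1 := by
    rw [hPI, hPM, ← Matrix.SpecialLinearGroup.coe_mul, inv_mul_cancel, Matrix.SpecialLinearGroup.coe_one]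
  have hPPI : PM * PI = 1 := by
    rw [hPI, hPM, ← Matrix.SpecialLinearGroup.coe_mul, mul_inv_cancel, Matrix.SpecialLinearGroup.coe_one]
  have hY : ((Matrix.SpecialLinearGroup.toGL (P⁻¹ * x * P) : GL (Fin n) F) : Matrix (Fin n) (Fin n) F) =
      PI * (x : Matrix (Fin n) (Fin n) F) * PM := by
    rw [Matrix.SpecialLinearGroup.coe_GL_coe_matrix, Matrix.SpecialLinearGroup.coe_mul,
      Matrix.SpecialLinearGroup.coe_mul]
  have h0 := no_small_annihilator hnp hK _ hP z (by
      rw [hY, conj_pow_matrix hPPI, if_neg hn0, hxn, Matrix.mul_smul, Matrix.smul_mul, mul_one, hPIP]) (by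
      intro c hc
      rw [hY] at hc
      apply hns c
      calc (x : Matrix (Fin n) (Fin n) F) = PM * (PI * (x : Matrix (Fin n) (Fin n) F) * PM) * PI := by
            calc (x : Matrix (Fin n) (Fin n) F) = (PM * PI) * x * (PM * PI) := by rw [hPPI, one_mul, mul_one]
              _ = _ := by simp only [mul_assoc]
        _ = c • 1 := by
            rw [hc, Matrix.mul_smul, Matrix.smul_mul, mul_one, hPPI]) g (by
      rw [hY, aeval_conj_matrix hPPI hPIP, hg, mul_zero, zero_mul]) hgd
  exact hg0 h0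

/-- The main case `q ≡ 4, 7 mod 9`. -/
theorem conj_of_four_seven {F : Type*} [Field F] [Fintype F] {q : ℕ} {K : Subalgebra F (Matrix (Fin 3) (Fin 3) F)}
    (hq : Fintype.card F = q) (hK : Cfsg.Geo.IsFieldSubalgebra 3 K) (h9 : q % 9 = 4 ∨ q % 9 = 7) (h30 : (3 : F) ≠ 0)
    (x : Matrix.SpecialLinearGroup (Fin 3) F) (z : F)
    (hz : (x : Matrix (Fin 3) (Fin 3) F) ^ 3 = z • 1)
    (hns : ∀ c : F, (x : Matrix (Fin 3) (Fin 3) F) ≠ c • (1 : Matrix (Fin 3) (Fin 3) F)) :
    ∃ P : Matrix.SpecialLinearGroup (Fin 3) F, P⁻¹ * x * P ∈ (Cfsg.Geo.subalgebraNormalizer K).comap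
      (Matrix.SpecialLinearGroup.toGL : Matrix.SpecialLinearGroup (Fin 3) F →* GL (Fin 3) F) := by
  classical
  have hq2 := two_le_card hq
  have hnine : ∀ c : F, c ^ 9 = 1 → c ^ 3 = 1 := by
    intro c hc
    have hc0 : c ≠ 0 := by
      rintro rfl
      simp at hc
    have h1 : orderOf c ∣ 3 ^ 2 := orderOf_dvd_of_pow_eq_one (by norm_num; exact hc)
    have h2 : orderOf c ∣ q - 1 := by
      apply orderOf_dvd_of_pow_eq_one
      rw [← hq]
      exact FiniteField.pow_card_sub_one_eq_one c hc0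
    obtain ⟨k, hk, hk'⟩ := (Nat.dvd_prime_pow Nat.prime_three).1 h1
    have h3 : orderOf c ∣ 3 := by
      interval_cases k
      · rw [hk']
        norm_num
      · rw [hk']
        norm_num
      · exfalso
        rw [hk'] at h2
        norm_num at h2
        omega
    exact orderOf_dvd_iff_pow_eq_one.1 h3
  have h3q : 3 ∣ Fintype.card Fˣ := by
    rw [Fintype.card_units, hq]
    omega
  obtain ⟨ζ, hζ⟩ := exists_prime_orderOf_dvd_card 3 h3q
  obtain ⟨ω, hω⟩ : ∃ ω : F, ω = (ζ : F) := ⟨_, rfl⟩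
  have hω1 : ω ≠ 1 := by
    intro h
    have h1 : ζ = 1 := Units.ext (by rw [← hω, h, Units.val_one])
    rw [h1, orderOf_one] at hζ
    omega
  have hω3 : ω ^ 3 = 1 := by
    have h1 : ζ ^ 3 = 1 := by
      rw [← hζ]
      exact pow_orderOf_eq_one ζ
    rw [hω, ← Units.val_pow_eq_pow_val, h1, Units.val_one]
  have hω2 : ω ^ 2 + ω + 1 = 0 := by
    have h1 : (ω - 1) * (ω ^ 2 + ω + 1) = 0 := by
      ring_nf
      rw [hω3]
      ring
    exact (mul_eq_zero.1 h1).resolve_left (sub_ne_zero.2 hω1)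
  have hz0 : z ≠ 0 := by
    rintro rfl
    have h1 := congrArg Matrix.det hz
    rw [zero_smul, Matrix.det_zero, Matrix.det_pow, x.2, one_pow] at h1
    exact one_ne_zero h1
  have hcube : ∃ b : F, b ^ 3 = z := by
    by_contra hc
    push Not at hc
    obtain ⟨s, hs, hs1⟩ := det_of_not_pow (Matrix.toLin' (x : Matrix (Fin 3) (Fin 3) F)) z hc (by
      rw [← toLin'_pow_eq, hz, toLin'_smul_one]) (by
      rw [LinearMap.det_toLin']
      exact x.2)
    rw [Module.finrank_fin_fun] at hs
    have hs' : s = 1 := by omega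
    rw [hs'] at hs1
    apply hc 1
    rw [one_pow]
    linear_combination -hs1
  obtain ⟨b, hb⟩ := hcube
  have hb0 : b ≠ 0 := by
    rintro rfl
    apply hz0
    rw [← hb]
    ring
  set Y : Matrix (Fin 3) (Fin 3) F := b⁻¹ • (x : Matrix (Fin 3) (Fin 3) F) with hY
  have hxY : (x : Matrix (Fin 3) (Fin 3) F) = b • Y := by
    rw [hY, smul_smul, mul_inv_cancel₀ hb0, one_smul]
  have hYn : Y ^ 3 = 1 := by
    rw [hY, _root_.smul_pow, hz, smul_smul, inv_pow, ← hb, inv_mul_cancel₀ (pow_ne_zero _ hb0), one_smul]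
  have h30' : ((3 : ℕ) : F) ≠ 0 := by exact_mod_cast h30
  apply exists_conj_into_normalizer hq Nat.prime_three hK h30' x b Y hxY hYn
  intro h h0 hd hzero
  set T := Matrix.toLin' Y with hT
  have hT3 : T ^ 3 = 1 := by
    rw [hT, ← toLin'_pow_eq, hYn]
    ext v
    simp
  have hint : IsIntegral F T := IsIntegral.of_finite F T
  set m := minpoly F T with hm
  have hmm : m.Monic := minpoly.monic hint
  have hm0 : Polynomial.aeval T m = 0 := minpoly.aeval F T
  have hmh : m ∣ h := minpoly.dvd F T hzero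
  have hmX : m ∣ (X ^ 3 - 1 : F[X]) := by
    apply minpoly.dvd
    simp [hT3]
  have hdegm : m.natDegree < 3 := (natDegree_le_of_dvd hmh h0).trans_lt hd
  have hfac : ∀ γ α β : F, (X ^ 3 - 1 : F[X]) = (X - C γ) * ((X - C α) * (X - C β)) → α ≠ β →
      m.eval γ ≠ 0 → False := by
    intro γ α β hf hαβ hγ
    have hα : α ^ 3 = 1 := by
      have h1 := congrArg (eval α) hf
      simp at h1
      linear_combination h1
    have hβ : β ^ 3 = 1 := by
      have h1 := congrArg (eval β) hf
      simp at h1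
      linear_combination h1
    have hc : IsCoprime (X - C γ) m := by
      rw [(irreducible_X_sub_C γ).coprime_iff_not_dvd, dvd_iff_isRoot]
      exact hγ
    have hdiv : m ∣ (X - C α) * (X - C β) := by
      rw [hf] at hmX
      exact hc.symm.dvd_of_dvd_mul_left hmX
    have hzero' : Polynomial.aeval T ((X - C α) * (X - C β)) = 0 := by
      obtain ⟨t, ht⟩ := hdiv
      rw [ht, map_mul, hm0, zero_mul]
    have hTT : ∀ v, T (T v) - (α + β) • T v + (α * β) • v = 0 := by
      intro v
      have h1 := congrArg (fun L : Module.End F (Fin 3 → F) => L v) hzero'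
      simp only [map_mul, map_sub, aeval_X, aeval_C, Module.End.mul_apply, LinearMap.sub_apply,
        Module.algebraMap_end_apply, LinearMap.zero_apply, map_smul] at h1
      rw [← h1]
      module
    obtain ⟨B₀, ε, hB⟩ := exists_eig_basis T α β hαβ hTT
    let c : Fin 3 → F := fun i => if ε i then α else β
    have hXB : ∀ i, Y.mulVec (B₀ i) = c i • B₀ i := fun i => hB i
    have hscal : ∀ a : F, (∀ i, c i = a) → False := by
      intro a ha
      apply hns (b * a)
      have hYa : Y = a • 1 := by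
        apply Matrix.toLin'.injective
        apply B₀.ext
        intro i
        rw [Matrix.toLin'_apply, hXB, ha, Matrix.toLin'_apply, Matrix.smul_mulVec, Matrix.one_mulVec]
      rw [hxY, hYa, smul_smul]
    obtain ⟨Q, hQ⟩ := exists_gl_of_basis B₀
    have hdiag : Y * (Q : Matrix (Fin 3) (Fin 3) F) = (Q : Matrix (Fin 3) (Fin 3) F) * Matrix.diagonal c := by
      apply matrix_ext_single
      intro i
      rw [← Matrix.mulVec_mulVec, hQ, hXB, ← Matrix.mulVec_mulVec]
      have h1 : (Matrix.diagonal c).mulVec (Pi.single i 1) = c i • (Pi.single i 1 : Fin 3 → F) := by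
        ext j
        by_cases hij : j = i
        · subst hij
          simp
        · simp [hij]
      rw [h1, Matrix.mulVec_smul, hQ]
    have hprod : Y.det = c 0 * c 1 * c 2 := by
      have h1 := congrArg Matrix.det hdiag
      rw [Matrix.det_mul, Matrix.det_mul, Matrix.det_diagonal, Fin.prod_univ_three] at h1
      have h2 : (Q : Matrix (Fin 3) (Fin 3) F).det ≠ 0 := (Matrix.isUnits_det_units Q).ne_zero
      rw [mul_comm] at h1
      exact mul_left_cancel₀ h2 h1
    have hdet : b ^ 3 * (c 0 * c 1 * c 2) = 1 := by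
      have h1 := x.2
      have h2 : (x : Matrix (Fin 3) (Fin 3) F).det = b ^ 3 * Y.det := by
        rw [hxY, Matrix.det_smul, Fintype.card_fin]
      rw [← hprod, ← h2]
      exact h1
    have hc0 : c 0 = if ε 0 then α else β := rfl
    have hc1 : c 1 = if ε 1 then α else β := rfl
    have hc2 : c 2 = if ε 2 then α else β := rfl
    have hall : ∀ a : F, c 0 = a → c 1 = a → c 2 = a → False := by
      intro a h0 h1 h2
      apply hscal a
      intro i
      fin_cases i
      · exact h0
      · exact h1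
      · exact h2
    rw [hc0, hc1, hc2] at hdet
    cases he0 : ε 0 <;> cases he1 : ε 1 <;> cases he2 : ε 2 <;> simp only [he0, he1, he2, Bool.false_eq_true, if_false, if_true] at hdet
    · exact hall β (by rw [hc0, he0]; simp) (by rw [hc1, he1]; simp) (by rw [hc2, he2]; simp)
    · exact cube_contra hnine α β b hb0 hα hβ hαβ (Or.inr (by linear_combination hdet))
    · exact cube_contra hnine α β b hb0 hα hβ hαβ (Or.inr (by linear_combination hdet))
    · exact cube_contra hnine α β b hb0 hα hβ hαβ (Or.inl (by linear_combination hdet))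
    · exact cube_contra hnine α β b hb0 hα hβ hαβ (Or.inr (by linear_combination hdet))
    · exact cube_contra hnine α β b hb0 hα hβ hαβ (Or.inl (by linear_combination hdet))
    · exact cube_contra hnine α β b hb0 hα hβ hαβ (Or.inl (by linear_combination hdet))
    · exact hall α (by rw [hc0, he0]; simp) (by rw [hc1, he1]; simp) (by rw [hc2, he2]; simp)
  have hw : (C ω : F[X]) ^ 2 + C ω + 1 = 0 := by
    have := congrArg (C : F → F[X]) hω2
    simpa using this
  have hw3 : (C ω : F[X]) ^ 3 = 1 := by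
    have := congrArg (C : F → F[X]) hω3
    simpa using this
  have hω21 : ω ^ 2 ≠ 1 := by
    intro h
    apply hω1
    calc ω = ω ^ 2 * ω := by rw [h, one_mul]
      _ = ω ^ 3 := by ring
      _ = 1 := hω3
  have hωω : ω ≠ ω ^ 2 := by
    intro h
    have h1 : ω * (ω - 1) = 0 := by
      linear_combination -h
    have hω0 : ω ≠ 0 := by
      rintro rfl
      simp at hω3
    exact (mul_eq_zero.1 h1).elim hω0 (fun h2 => hω1 (sub_eq_zero.1 h2))
  have hC2 : C (ω ^ 2) = (C ω : F[X]) ^ 2 := by simp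
  have hf1 : (X ^ 3 - 1 : F[X]) = (X - C 1) * ((X - C ω) * (X - C (ω ^ 2))) := by
    rw [hC2, C_1]
    linear_combination (X ^ 2 - C ω * X) * hw + hw3
  have hf2 : (X ^ 3 - 1 : F[X]) = (X - C ω) * ((X - C 1) * (X - C (ω ^ 2))) := by
    rw [hf1]
    ring
  have hf3 : (X ^ 3 - 1 : F[X]) = (X - C (ω ^ 2)) * ((X - C 1) * (X - C ω)) := by
    rw [hf1]
    ring
  by_cases h1 : m.eval 1 ≠ 0
  · exact hfac 1 ω (ω ^ 2) hf1 hωω h1
  by_cases h2 : m.eval ω ≠ 0
  · exact hfac ω 1 (ω ^ 2) hf2 hω21.symm h2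
  by_cases h3 : m.eval (ω ^ 2) ≠ 0
  · exact hfac (ω ^ 2) 1 ω hf3 hω1.symm h3
  push Not at h1 h2 h3
  have hle := Polynomial.card_le_degree_of_subset_roots (p := m) (Z := {1, ω, ω ^ 2}) (by
    intro a ha
    rw [mem_roots hmm.ne_zero, IsRoot.def]
    simp only [Finset.insert_val, Finset.singleton_val, Multiset.mem_ndinsert, Multiset.mem_singleton] at ha
    rcases ha with rfl | rfl | rfl
    · exact h1
    · exact h2
    · exact h3)
  have hcard : ({1, ω, ω ^ 2} : Finset F).card = 3 := by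
    rw [Finset.card_insert_of_notMem, Finset.card_insert_of_notMem, Finset.card_singleton]
    · simpa using hωω
    · simp only [Finset.mem_insert, Finset.mem_singleton, not_or]
      exact ⟨hω1.symm, hω21.symm⟩
  omega


/-- For `q ≡ 2, 5 mod 9`, the normaliser contains a Sylow `3`-subgroup. -/
theorem not_three_dvd_index {F : Type*} [Field F] [Fintype F] {q : ℕ} {K : Subalgebra F (Matrix (Fin 3) (Fin 3) F)}
    (hq : Fintype.card F = q) (hK : Cfsg.Geo.IsFieldSubalgebra 3 K) (h9 : q % 9 = 2 ∨ q % 9 = 5) :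
    ¬ 3 ∣ ((Cfsg.Geo.subalgebraNormalizer K).comap
      (Matrix.SpecialLinearGroup.toGL : Matrix.SpecialLinearGroup (Fin 3) F →* GL (Fin 3) F)).index := by
  classical
  intro h3
  have hq2 := two_le_card hq
  obtain ⟨φ, hφa, hφn, hφns⟩ := exists_frobenius hq (by norm_num) hK
  set Φ : Matrix (Fin 3) (Fin 3) F := (φ : Matrix (Fin 3) (Fin 3) F) with hΦ
  have hφφ : Φ * ((φ⁻¹ : GL (Fin 3) F) : Matrix (Fin 3) (Fin 3) F) = 1 := by
    have : ((φ * φ⁻¹ : GL (Fin 3) F) : Matrix (Fin 3) (Fin 3) F) = 1 := by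
      rw [mul_inv_cancel, Units.val_one]
    exact this
  have hφN : φ ∈ Cfsg.Geo.subalgebraNormalizer K := by
    apply mem_normalizer_of_forall
    intro a ha
    rw [← hΦ, hφa a ha, mul_assoc, hφφ, mul_one]
    exact K.pow_mem ha _
  have h3q : ¬ 3 ∣ q - 1 := by omega
  have hdet : Φ.det = 1 := by
    apply eq_one_of_pow_eq_one hq h3q
    rw [← Matrix.det_pow, hφn, Matrix.det_one]
  obtain ⟨φS, hφS⟩ : ∃ φS : Matrix.SpecialLinearGroup (Fin 3) F, (φS : Matrix (Fin 3) (Fin 3) F) = Φ :=
    ⟨⟨Φ, hdet⟩, rfl⟩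
  set H := (Cfsg.Geo.subalgebraNormalizer K).comap
      (Matrix.SpecialLinearGroup.toGL : Matrix.SpecialLinearGroup (Fin 3) F →* GL (Fin 3) F) with hH
  have hmem : φS ∈ H := by
    have h1 : Matrix.SpecialLinearGroup.toGL φS = φ := by
      apply Units.ext
      rw [Matrix.SpecialLinearGroup.coe_GL_coe_matrix, hφS]
    show Matrix.SpecialLinearGroup.toGL φS ∈ Cfsg.Geo.subalgebraNormalizer K
    rw [h1]
    exact hφN
  have hφS3 : φS ^ 3 = 1 := by
    apply Subtype.ext
    rw [Matrix.SpecialLinearGroup.coe_pow, hφS, hφn, Matrix.SpecialLinearGroup.coe_one]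
  have hφS1 : φS ≠ 1 := by
    intro h
    apply hφns 1
    rw [one_smul, ← hφS, h, Matrix.SpecialLinearGroup.coe_one]
  have hord : orderOf (⟨φS, hmem⟩ : H) = 3 := by
    apply orderOf_eq_prime
    · apply Subtype.ext
      exact hφS3
    · intro h
      exact hφS1 (congrArg Subtype.val h)
  have hcardH : 3 ∣ Nat.card H := by
    have h1 := orderOf_dvd_natCard (⟨φS, hmem⟩ : H)
    rwa [hord] at h1
  have h9SL : 9 ∣ Nat.card (Matrix.SpecialLinearGroup (Fin 3) F) := by
    rw [← H.card_mul_index]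
    exact mul_dvd_mul hcardH h3
  have hprod := Cfsg.Agent.Lead.card_SL (F := F) 3 (by norm_num)
  rw [hq, Fin.prod_univ_three] at hprod
  have h9prod : 9 ∣ (q ^ 3 - q ^ ((0 : Fin 3) : ℕ)) * (q ^ 3 - q ^ ((1 : Fin 3) : ℕ)) * (q ^ 3 - q ^ ((2 : Fin 3) : ℕ)) := by
    rw [← hprod]
    exact h9SL.mul_left _
  have hz := (ZMod.natCast_eq_zero_iff _ 9).2 h9prod
  have h1 : q ^ ((0 : Fin 3) : ℕ) ≤ q ^ 3 := Nat.pow_le_pow_right (by omega) (by simp)
  have h2 : q ^ ((1 : Fin 3) : ℕ) ≤ q ^ 3 := Nat.pow_le_pow_right (by omega) (by simp)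
  have h3' : q ^ ((2 : Fin 3) : ℕ) ≤ q ^ 3 := Nat.pow_le_pow_right (by omega) (by simp)
  rw [Nat.cast_mul, Nat.cast_mul, Nat.cast_sub h1, Nat.cast_sub h2, Nat.cast_sub h3'] at hz
  simp only [Nat.cast_pow, Fin.val_zero, Fin.val_one, Fin.val_two] at hz
  rcases h9 with h | h
  · have hc : (q : ZMod 9) = 2 := by
      rw [← ZMod.natCast_mod q 9, h]
      rfl
    rw [hc] at hz
    revert hz
    decide
  · have hc : (q : ZMod 9) = 5 := by
      rw [← ZMod.natCast_mod q 9, h]
      rfl
    rw [hc] at hz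
    revert hz
    decide


/-- Elements of order 3 of PSL_3(q) and the normalizer of a Singer cycle. Here `T = PSL_n(F)` for a field `F` with `q = p^f` elements (`n ≥ 2`, `(n, q) ≠ (2, 2), (2, 3)`), `k` is a prime dividing `n`, `K` is a subalgebra of the `n × n` matrices that is a field of degree `k` over `F` (an extension-field structure F_{q^k} on `F^n`), and `H` is the subgroup of matrices of determinant 1 normalizing `K` — a subgroup of type GL_{n/k}(q^k) (maximal except in some small cases; maximality is not assumed); Ω is the set of cosets of `H` in `T`, so an element of `T` of prime order `r` (a matrix `x` of determinant 1 with `x^r` scalar, `x` not scalar) fixes a point of Ω when some conjugate of `x` by a matrix of determinant 1 normalizes `K`. Take `n = k = 3` and suppose 3 divides the index of `H`. Then every element of `T` of order 3 is conjugate in `T` into `H` if and only if `q ≡ 4, 7` or `8 (mod 9)`. -/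
theorem result {F : Type*} [Field F] [Fintype F] {p : ℕ} [Fact p.Prime] [CharP F p] {q : ℕ} (hq : Fintype.card F = q)
    (n : ℕ) (hn : n = 3) (k : ℕ) (hk : k.Prime) (hkn : k ∣ n) (K : Subalgebra F (Matrix (Fin n) (Fin n) F)) (hK : Cfsg.Geo.IsFieldSubalgebra k K) (hk3 : k = 3) (hΩ : 3 ∣ ((Cfsg.Geo.subalgebraNormalizer K).comap (Matrix.SpecialLinearGroup.toGL : Matrix.SpecialLinearGroup (Fin n) F →* GL (Fin n) F)).index) :
    (∀ x : Matrix.SpecialLinearGroup (Fin n) F,
      (∃ z : F, ((x ^ 3 : Matrix.SpecialLinearGroup (Fin n) F) : Matrix (Fin n) (Fin n) F) = z • (1 : Matrix (Fin n) (Fin n) F)) →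
      (∀ z : F, (x : Matrix (Fin n) (Fin n) F) ≠ z • (1 : Matrix (Fin n) (Fin n) F)) →
      ∃ P : Matrix.SpecialLinearGroup (Fin n) F, P⁻¹ * x * P ∈ ((Cfsg.Geo.subalgebraNormalizer K).comap (Matrix.SpecialLinearGroup.toGL : Matrix.SpecialLinearGroup (Fin n) F →* GL (Fin n) F))) ↔
    (q % 9 = 4 ∨ q % 9 = 7 ∨ q % 9 = 8) := by
  classical
  subst hn
  subst hk3
  have hq2 := two_le_card hq
  obtain ⟨f, hf, hqf⟩ := card_eq_pow_char (p := p) hq
  have h3p : (3 : ℕ) ∣ q → p = 3 := by
    intro h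
    rw [hqf] at h
    exact ((Nat.prime_dvd_prime_iff_eq Nat.prime_three Fact.out).1 (Nat.prime_three.dvd_of_dvd_pow h)).symm
  haveI : Nonempty (Fin 3) := ⟨0⟩
  constructor
  · intro H
    by_contra hcon
    push Not at hcon
    obtain ⟨h4, h7, h8⟩ := hcon
    have hcases : q % 3 = 0 ∨ q % 9 = 1 ∨ q % 9 = 2 ∨ q % 9 = 5 := by omega
    rcases hcases with h0 | h1 | h2 | h2
    · -- characteristic three
      have hp3 : p = 3 := h3p (Nat.dvd_of_mod_eq_zero h0)
      have h30 : (3 : F) = 0 := by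
        have := CharP.cast_eq_zero F p
        rw [hp3] at this
        exact_mod_cast this
      have h01 : (0 : Fin 3) ≠ 1 := by decide
      have hdet : (Matrix.transvection (0 : Fin 3) 1 (1 : F)).det = 1 :=
        Matrix.det_transvection_of_ne _ _ h01 _
      obtain ⟨x, hx⟩ : ∃ x : Matrix.SpecialLinearGroup (Fin 3) F,
          (x : Matrix (Fin 3) (Fin 3) F) = Matrix.transvection (0 : Fin 3) 1 (1 : F) := ⟨⟨_, hdet⟩, rfl⟩
      have hx3 : (x : Matrix (Fin 3) (Fin 3) F) ^ 3 = (1 : F) • 1 := by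
        rw [hx, one_smul, pow_succ, sq, Matrix.transvection_mul_transvection_same _ _ h01,
          Matrix.transvection_mul_transvection_same _ _ h01,
          show (1 : F) + 1 + 1 = 0 by linear_combination h30, Matrix.transvection_zero]
      have hns : ∀ z : F, (x : Matrix (Fin 3) (Fin 3) F) ≠ z • (1 : Matrix (Fin 3) (Fin 3) F) := by
        intro z hz
        rw [hx] at hz
        have h1 := congrFun (congrFun hz 0) 1
        simp [Matrix.transvection, Matrix.one_apply, h01] at h1
      obtain ⟨P, hP⟩ := H x ⟨1, by rw [Matrix.SpecialLinearGroup.coe_pow]; exact hx3⟩ hns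
      apply no_conj_small Nat.prime_three hK x 1 hx3 hns ((X - C 1) ^ 2) (pow_ne_zero _ (X_sub_C_ne_zero 1))
        (by rw [natDegree_pow, natDegree_X_sub_C]; norm_num) _ P hP
      have h1 : (x : Matrix (Fin 3) (Fin 3) F) - 1 = Matrix.single 0 1 (1 : F) := by
        rw [hx, Matrix.transvection]
        simp
      simp only [map_pow, map_sub, aeval_X, aeval_C, map_one, C_1]
      rw [h1, sq, Matrix.single_mul_single_of_ne _ _ _ _ (by decide)]
    · -- `q ≡ 1 mod 9`
      have hd9 : 9 ∣ q - 1 := by omega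
      obtain ⟨ξ, hξ⟩ := IsCyclic.exists_generator (α := Fˣ)
      have hord : orderOf ξ = q - 1 := by
        rw [orderOf_eq_card_of_forall_mem_zpowers hξ, Nat.card_eq_fintype_card, Fintype.card_units, hq]
      obtain ⟨e, he⟩ := hd9
      set η : Fˣ := ξ ^ e with hη
      have hη9 : η ^ 9 = 1 := by
        rw [hη, ← pow_mul, mul_comm, ← he, ← hord, pow_orderOf_eq_one]
      have hη3 : η ^ 3 ≠ 1 := by
        rw [hη, ← pow_mul]
        apply pow_ne_one_of_lt_orderOf
        · intro h
          have : e = 0 := by omega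
          omega
        · rw [hord, he]
          omega
      set ω : F := ((η ^ 3 : Fˣ) : F) with hω
      set d : F := ((η⁻¹ : Fˣ) : F) with hd
      have hd0 : d ≠ 0 := Units.ne_zero _
      have hω1 : ω ≠ 1 := by
        intro h
        exact hη3 (Units.ext (by rw [← hω, h, Units.val_one]))
      have hω3 : ω ^ 3 = 1 := by
        rw [hω, ← Units.val_pow_eq_pow_val, ← pow_mul, show 3 * 3 = 9 by norm_num, hη9, Units.val_one]
      have hd3 : d ^ 3 * ω = 1 := by
        rw [hd, hω, ← Units.val_pow_eq_pow_val, ← Units.val_mul, inv_pow, inv_mul_cancel, Units.val_one]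
      let D : Fin 3 → F := ![d, d, d * ω]
      have hdetD : (Matrix.diagonal D).det = 1 := by
        rw [Matrix.det_diagonal, Fin.prod_univ_three]
        simp only [D, Matrix.cons_val_zero, Matrix.cons_val_one, Matrix.cons_val]
        linear_combination hd3
      obtain ⟨x, hx⟩ : ∃ x : Matrix.SpecialLinearGroup (Fin 3) F,
          (x : Matrix (Fin 3) (Fin 3) F) = Matrix.diagonal D := ⟨⟨_, hdetD⟩, rfl⟩
      have hx3 : (x : Matrix (Fin 3) (Fin 3) F) ^ 3 = (d ^ 3) • 1 := by
        rw [hx, Matrix.diagonal_pow]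
        ext i j
        by_cases hij : i = j
        · subst hij
          fin_cases i <;> simp [D, mul_pow, hω3]
        · simp [hij]
      have hns : ∀ z : F, (x : Matrix (Fin 3) (Fin 3) F) ≠ z • (1 : Matrix (Fin 3) (Fin 3) F) := by
        intro z hz
        rw [hx] at hz
        have h1 := congrFun (congrFun hz 0) 0
        have h2 := congrFun (congrFun hz 2) 2
        simp [D] at h1 h2
        rw [← h1] at h2
        apply hω1
        exact mul_left_cancel₀ hd0 (by rw [h2, mul_one])
      obtain ⟨P, hP⟩ := H x ⟨d ^ 3, by rw [Matrix.SpecialLinearGroup.coe_pow]; exact hx3⟩ hns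
      apply no_conj_small Nat.prime_three hK x (d ^ 3) hx3 hns ((X - C d) * (X - C (d * ω)))
        (mul_ne_zero (X_sub_C_ne_zero _) (X_sub_C_ne_zero _))
        (by rw [natDegree_mul (X_sub_C_ne_zero _) (X_sub_C_ne_zero _), natDegree_X_sub_C, natDegree_X_sub_C]; norm_num) _ P hP
      rw [hx, aeval_diagonal_eq]
      rw [← Matrix.diagonal_zero]
      congr 1
      ext i
      fin_cases i <;> simp [D]
    · exact not_three_dvd_index hq hK (Or.inl h2) hΩ
    · exact not_three_dvd_index hq hK (Or.inr h2) hΩ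
  · rintro hcases x ⟨z, hz⟩ hns
    have hz' : (x : Matrix (Fin 3) (Fin 3) F) ^ 3 = z • 1 := by
      rw [← Matrix.SpecialLinearGroup.coe_pow]
      exact hz
    have hp3 : 3 ≠ p := by
      rintro rfl
      rw [hqf] at hcases
      have h1 : 3 ∣ 3 ^ f := dvd_pow_self 3 hf.ne'
      omega
    have h30 : (3 : F) ≠ 0 := by
      intro h
      have h5 : p ∣ 3 := (CharP.cast_eq_zero_iff F p 3).1 (by exact_mod_cast h)
      exact hp3 ((Nat.prime_dvd_prime_iff_eq Fact.out Nat.prime_three).1 h5).symm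
    rcases hcases with h | h | h
    · exact conj_of_four_seven hq hK (Or.inl h) h30 x z hz' hns
    · exact conj_of_four_seven hq hK (Or.inr h) h30 x z hz' hns
    · have hi : orderOf (q : ZMod 3) = 3 - 1 := by
        have h1 : (q : ZMod 3) = 2 := by
          rw [← ZMod.natCast_mod q 3, show q % 3 = 2 by omega]
          rfl
        rw [h1]
        exact orderOf_eq_prime (p := 2) (by decide) (by decide)
      exact Cfsg.Agent.S5970.conj_of_order (p := p) hq hp3 (by omega) hK hi x z hz' hns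

end Cfsg.Agent.S5971
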