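import Cfsg.Statements.S5979
import Cfsg.Agent.Lib.H29.TensorRank
import Cfsg.Agent.Lib.H29.PlanesInv
-- import your own Cfsg.Agent.* helpers here

set_option autoImplicit false
open scoped MatrixGroups
open Cfsg

namespace Cfsg.Agent.S5979

open Polynomial Module Cfsg.Agent.H29
open scoped Kronecker

theorem rank_diag_sub {F : Type*} [Field F] [DecidableEq F] {n : ℕ} (D : Fin n → F) (c : F) :
    (Matrix.diagonal D - c • (1 : Matrix (Fin n) (Fin n) F)).rank = Fintype.card {i // D i ≠ c} := by
  have h1 : Matrix.diagonal D - c • (1 : Matrix (Fin n) (Fin n) F) = Matrix.diagonal (fun i => D i - c) := by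
    ext i j
    by_cases hij : i = j
    · subst hij
      simp
    · simp [hij]
  rw [h1, Matrix.rank_diagonal]
  apply Fintype.card_congr
  exact Equiv.subtypeEquivRight (fun i => by rw [sub_ne_zero])

theorem eq_of_rank_eq_zero {F : Type*} [Field F] {n : ℕ} (M : Matrix (Fin n) (Fin n) F) (h : M.rank = 0) : M = 0 := by
  have h1 : LinearMap.range M.mulVecLin = ⊥ := by
    apply Submodule.finrank_eq_zero.1
    exact h
  have h2 : M.mulVecLin = 0 := LinearMap.range_eq_bot.1 h1
  ext i j
  have h3 := congrFun (LinearMap.congr_fun h2 (Pi.single j 1)) i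
  simpa using h3

theorem rank_single_le {F : Type*} [Field F] {n : ℕ} (i j : Fin n) (c : F) :
    (Matrix.single i j c).rank ≤ 1 := by
  classical
  let U : Matrix (Fin n) Unit F := Matrix.of fun s _ => if s = i then 1 else 0
  let V : Matrix Unit (Fin n) F := Matrix.of fun _ t => if t = j then c else 0
  have h : Matrix.single i j c = U * V := by
    ext s t
    simp only [Matrix.mul_apply, U, V, Matrix.of_apply, Fintype.sum_unique, Matrix.single_apply]
    by_cases h1 : s = i
    · by_cases h2 : t = j
      · subst h1 h2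
        simp
      · have h2' : j ≠ t := fun h => h2 h.symm
        simp [h1, h2, h2']
    · have h1' : i ≠ s := fun h => h1 h.symm
      simp [h1, h1']
  rw [h]
  refine (Matrix.rank_mul_le_left _ _).trans ?_
  simpa using Matrix.rank_le_card_width U

theorem transvection_pow {F : Type*} [Field F] {n : ℕ} {i j : Fin n} (hij : i ≠ j) (m : ℕ) :
    (Matrix.transvection i j (1 : F)) ^ m = Matrix.transvection i j (m : F) := by
  induction m with
  | zero => simp
  | succ m ih =>
    rw [pow_succ, ih, Matrix.transvection_mul_transvection_same _ _ hij]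
    simp

theorem mem_tensor_of_action {F : Type*} [Field F] {n a b : ℕ} (e : Fin n ≃ Fin a × Fin b) (P y : GL (Fin n) F)
    (U : GL (Fin a) F) (V : GL (Fin b) F) (A : Fin b → Matrix (Fin a) (Fin a) F)
    (hUV : ∀ i' i k' k, (U : Matrix (Fin a) (Fin a) F) i' i * (V : Matrix (Fin b) (Fin b) F) k' k =
      if k' = k then A k i' i else 0)
    (hy : ∀ i k, (y : Matrix (Fin n) (Fin n) F).mulVec
        ((P : Matrix (Fin n) (Fin n) F).mulVec (Pi.single (e.symm (i, k)) 1)) =
      ∑ i', A k i' i • (P : Matrix (Fin n) (Fin n) F).mulVec (Pi.single (e.symm (i', k)) 1)) :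
    y ∈ Cfsg.Geo.tensorProductSubgroup a b e P := by
  classical
  rw [tensor_mem_iff]
  refine ⟨U, V, ?_⟩
  apply matrix_ext_single
  intro j
  obtain ⟨i, k, rfl⟩ : ∃ i k, j = e.symm (i, k) := ⟨(e j).1, (e j).2, by simp⟩
  have hcol : (((U : Matrix (Fin a) (Fin a) F) ⊗ₖ (V : Matrix (Fin b) (Fin b) F)).submatrix e e).mulVec
      (Pi.single (e.symm (i, k)) 1) = ∑ i', A k i' i • (Pi.single (e.symm (i', k)) 1 : Fin n → F) := by
    ext t
    obtain ⟨i'', k'', rfl⟩ : ∃ i'' k'', t = e.symm (i'', k'') := ⟨(e t).1, (e t).2, by simp⟩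
    rw [Matrix.mulVec_single_one]
    simp only [Matrix.col_apply, Matrix.submatrix_apply, Equiv.apply_symm_apply, Matrix.kroneckerMap_apply]
    rw [hUV, Finset.sum_apply]
    simp only [Pi.smul_apply, smul_eq_mul, Pi.single_apply, e.symm.injective.eq_iff, Prod.mk.injEq]
    by_cases hk : k'' = k
    · subst hk
      simp
    · simp [hk]
  rw [← Matrix.mulVec_mulVec, hy, ← Matrix.mulVec_mulVec, hcol, Matrix.mulVec_sum]
  apply Finset.sum_congr rfl
  intro i' _
  rw [Matrix.mulVec_smul]

/-- The implication from the arithmetic condition. -/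
theorem conj_tensor_two {F : Type*} [Field F] [Fintype F] {q : ℕ} (hq : Fintype.card F = q) (n b : ℕ) (hn0 : n ≠ 0)
    (hab : n = 2 * b) (e : Fin n ≃ Fin 2 × Fin b) (P : GL (Fin n) F) (hodd : Odd q)
    (hv : padicValNat 2 (q - 1) ≤ padicValNat 2 n) (x : GL (Fin n) F)
    (hx : x ∈ Cfsg.Geo.specialLinear (Fin n) F) (z : F)
    (hz : ((x ^ 2 : GL (Fin n) F) : Matrix (Fin n) (Fin n) F) = z • 1)
    (hns : ∀ c : F, (x : Matrix (Fin n) (Fin n) F) ≠ c • 1) :
    ∃ g ∈ Cfsg.Geo.specialLinear (Fin n) F, g⁻¹ * x * g ∈ Cfsg.Geo.tensorProductSubgroup 2 b e P := by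
  classical
  have hb0 : 0 < b := by omega
  have he : Even n := by
    rw [hab]
    exact even_two_mul b
  have h20 : (2 : F) ≠ 0 := by
    obtain ⟨p, hchar⟩ := CharP.exists F
    haveI : Fact p.Prime := ⟨CharP.char_is_prime F p⟩
    intro h
    have h1 := (CharP.cast_eq_zero_iff F p 2).1 (by exact_mod_cast h)
    have hp2 : p = 2 := (Nat.prime_dvd_prime_iff_eq Fact.out Nat.prime_two).1 h1
    obtain ⟨f', hf', hf2⟩ := card_eq_pow_char (p := p) hq
    rw [hf2, hp2] at hodd
    exact (Nat.not_even_iff_odd.2 hodd) (Even.pow_of_ne_zero even_two (by omega))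
  have hdetx : (x : Matrix (Fin n) (Fin n) F).det = 1 := by
    have h1 : Matrix.GeneralLinearGroup.det x = 1 := hx
    have h2 := congrArg Units.val h1
    simpa using h2
  obtain ⟨xS, hxS⟩ : ∃ xS : Matrix.SpecialLinearGroup (Fin n) F, (xS : Matrix (Fin n) (Fin n) F) = x :=
    ⟨⟨x, hdetx⟩, rfl⟩
  have hxS' : Matrix.SpecialLinearGroup.toGL xS = x := by
    apply Units.ext
    rw [Matrix.SpecialLinearGroup.coe_GL_coe_matrix, hxS]
  set X : Matrix (Fin n) (Fin n) F := (x : Matrix (Fin n) (Fin n) F) with hX
  have hX2 : X * X = z • 1 := by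
    rw [← sq, hX, ← Units.val_pow_eq_pow_val]
    exact hz
  have hXX : ∀ v, X.mulVec (X.mulVec v) = z • v := by
    intro v
    rw [Matrix.mulVec_mulVec, hX2, Matrix.smul_mulVec, Matrix.one_mulVec]
  haveI : Nonempty (Fin n) := ⟨⟨0, by omega⟩⟩
  have hz0 : z ≠ 0 := by
    rintro rfl
    have h1 := congrArg Matrix.det hX2
    rw [Matrix.det_mul, hdetx, mul_one, zero_smul, Matrix.det_zero] at h1
    exact one_ne_zero h1
  have hcardS : n = 2 * Fintype.card (Fin b) := by
    rw [Fintype.card_fin]
    exact hab
  have hk₀ : Fin b := ⟨0, hb0⟩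
  have hPIP : ((P⁻¹ : GL (Fin n) F) : Matrix (Fin n) (Fin n) F) * (P : Matrix (Fin n) (Fin n) F) = 1 := by
    rw [← Units.val_mul, inv_mul_cancel, Units.val_one]
  have hPPI : (P : Matrix (Fin n) (Fin n) F) * ((P⁻¹ : GL (Fin n) F) : Matrix (Fin n) (Fin n) F) = 1 := by
    rw [← Units.val_mul, mul_inv_cancel, Units.val_one]
  let H : Basis (Fin 2 × Fin b) F (Fin n → F) :=
    ((Pi.basisFun F (Fin n)).reindex e).map (Matrix.toLin'OfInv hPIP hPPI)
  have hH : ∀ i k, H (i, k) = (P : Matrix (Fin n) (Fin n) F).mulVec (Pi.single (e.symm (i, k)) 1) := by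
    intro i k
    simp only [H, Basis.map_apply, Basis.reindex_apply, Pi.basisFun_apply]
    rfl
  -- reduction to the action on the tensor basis
  have hfinish : ∀ (P' : Matrix.SpecialLinearGroup (Fin n) F) (U : GL (Fin 2) F) (V : GL (Fin b) F)
      (A : Fin b → Matrix (Fin 2) (Fin 2) F),
      (∀ i' i k' k, (U : Matrix (Fin 2) (Fin 2) F) i' i * (V : Matrix (Fin b) (Fin b) F) k' k =
        if k' = k then A k i' i else 0) →
      (∀ i k, ((P'⁻¹ * xS * P' : Matrix.SpecialLinearGroup (Fin n) F) : Matrix (Fin n) (Fin n) F).mulVec (H (i, k)) =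
        ∑ i', A k i' i • H (i', k)) →
      ∃ g ∈ Cfsg.Geo.specialLinear (Fin n) F, g⁻¹ * x * g ∈ Cfsg.Geo.tensorProductSubgroup 2 b e P := by
    intro P' U V A hUV hact
    refine ⟨Matrix.SpecialLinearGroup.toGL P', ?_, ?_⟩
    · show Matrix.GeneralLinearGroup.det _ = 1
      apply Units.ext
      simp
    · have h1 : (Matrix.SpecialLinearGroup.toGL P')⁻¹ * x * Matrix.SpecialLinearGroup.toGL P' =
          Matrix.SpecialLinearGroup.toGL (P'⁻¹ * xS * P') := by
        rw [map_mul, map_mul, map_inv, hxS']
      rw [h1]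
      apply mem_tensor_of_action e P _ U V A hUV
      intro i k
      have h2 := hact i k
      simp only [hH] at h2
      exact h2
  by_cases hs : IsSquare z
  · obtain ⟨b₀, rfl⟩ := hs
    have hb₀ : b₀ ≠ 0 := by
      rintro rfl
      exact hz0 (by simp)
    obtain ⟨B, A, hBx, hA⟩ := blocks_of_square hq he h20 hv hn0 X hdetx b₀ hb₀ hXX (Fin b) hcardS
    obtain ⟨P', hP'⟩ := exists_transport xS A B H (by rw [hxS]; exact hBx) (by
      intro δ _
      obtain ⟨a, -, hAk⟩ := hA hk₀
      refine ⟨hk₀, !![δ, 0; 0, 1], ?_, ?_⟩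
      · rw [hAk]
        ext i j
        fin_cases i <;> fin_cases j <;> simp [Matrix.mul_apply, Fin.sum_univ_two, mul_comm]
      · simp [Matrix.det_fin_two])
    choose c hc hAc using hA
    have hc0 : ∀ k, c k ≠ 0 := by
      intro k
      rcases hc k with h | h <;> rw [h]
      · exact hb₀
      · exact neg_ne_zero.2 hb₀
    have hdetV : (Matrix.diagonal c).det ≠ 0 := by
      rw [Matrix.det_diagonal]
      exact Finset.prod_ne_zero_iff.2 (fun k _ => hc0 k)
    apply hfinish P' 1 (Matrix.GeneralLinearGroup.mkOfDetNeZero (Matrix.diagonal c) hdetV) A _ hP'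
    intro i' i k' k
    show (1 : Matrix (Fin 2) (Fin 2) F) i' i * (Matrix.diagonal c) k' k = _
    rw [hAc k]
    by_cases hkk : k' = k
    · subst hkk
      fin_cases i <;> fin_cases i' <;> simp
    · simp [hkk]
  · have hcz : ∀ c : F, c * c ≠ z := fun c hc => hs ⟨c, hc.symm⟩
    obtain ⟨B, hB⟩ := exists_cyclic_pairs X z hz0 hXX hcz (Fin b) hcardS
    set A₀ : Matrix (Fin 2) (Fin 2) F := !![0, z; 1, 0] with hA₀
    have hodd' : Odd (Fintype.card F) := by rw [hq]; exact hodd
    obtain ⟨P', hP'⟩ := exists_transport xS (fun _ => A₀) B H (by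
        rw [hxS]
        rintro i k
        rw [Fin.sum_univ_two]
        fin_cases i
        · show X.mulVec (B (0, k)) = _
          rw [← hB]
          simp [hA₀]
        · show X.mulVec (B (1, k)) = _
          rw [hB, hXX]
          simp [hA₀]) (by
        intro δ _
        obtain ⟨a, t, hat⟩ := Cfsg.Agent.S5967.exists_norm_eq hodd' z δ hz0
        refine ⟨hk₀, a • 1 + t • A₀, ?_, ?_⟩
        · rw [add_mul, mul_add, Matrix.smul_mul, Matrix.mul_smul, Matrix.smul_mul, Matrix.mul_smul, one_mul, mul_one]
        · have h1 : a • (1 : Matrix (Fin 2) (Fin 2) F) + t • A₀ = !![a, t * z; t * 1, a] := by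
            rw [hA₀]
            ext i j
            fin_cases i <;> fin_cases j <;> simp
          rw [h1, Matrix.det_fin_two_of, ← hat]
          ring)
    have hdetA : A₀.det ≠ 0 := by
      rw [hA₀, Matrix.det_fin_two_of]
      simpa using hz0
    apply hfinish P' (Matrix.GeneralLinearGroup.mkOfDetNeZero A₀ hdetA) 1 (fun _ => A₀) _ hP'
    intro i' i k' k
    show A₀ i' i * (1 : Matrix (Fin b) (Fin b) F) k' k = _
    by_cases hkk : k' = k
    · subst hkk
      simp
    · simp [hkk]


/-- Elements of prime order of PSL_n(q) and the stabilizers of tensor decompositions with factors of different dimensions. Here `T = PSL_n(F)` for a field `F` with `q` elements and `n = a·b` with `2 ≤ a < b`; a tensor decomposition `F^n ≅ F^a ⊗ F^b` is given by a bijection `e` of index sets and a change of basis `P`, and `H` is the subgroup of matrices of determinant 1 in its stabilizer (the conjugate by `P` of the group of Kronecker products `g₁ ⊗ g₂`) — a subgroup of type GL_a(q) ⊗ GL_b(q) (maximality is not assumed); Ω is the set of cosets of `H`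 in `T`, so an element of `T` of prime order `r` (a matrix `x` of determinant 1 with `x^r` scalar, `x` not scalar) fixes a point of Ω exactly when some conjugate of `x` by a matrix of determinant 1 lies in `H`. Let `r` be a prime dividing the index of `H`. Then every element of `T` of order `r` fixes a point of Ω if and only if `r = 2`, `a = 2`, `q` is odd and `(q − 1)_2 ≤ (n)_2` (2-parts). -/
theorem result {F : Type*} [Field F] [Fintype F] {p : ℕ} [Fact p.Prime] [CharP F p] {q : ℕ} (hq : Fintype.card F = q)
    (n a b : ℕ) (hab : n = a * b) (ha : 2 ≤ a) (hlt : a < b) (e : Fin n ≃ Fin a × Fin b) (P : GL (Fin n) F)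
    (r : ℕ) [Fact r.Prime]
    (hΩ : r ∣ (Cfsg.Geo.tensorProductSubgroup a b e P).relIndex (Cfsg.Geo.specialLinear (Fin n) F)) :
    (∀ x ∈ Cfsg.Geo.specialLinear (Fin n) F, (∃ z : F, ((x ^ r : GL (Fin n) F) : Matrix (Fin n) (Fin n) F) = z • (1 : Matrix (Fin n) (Fin n) F)) →
      (∀ z : F, (x : Matrix (Fin n) (Fin n) F) ≠ z • (1 : Matrix (Fin n) (Fin n) F)) →
      ∃ g ∈ Cfsg.Geo.specialLinear (Fin n) F, g⁻¹ * x * g ∈ Cfsg.Geo.tensorProductSubgroup a b e P) ↔
    (r = 2 ∧ a = 2 ∧ Odd q ∧ padicValNat 2 (q - 1) ≤ padicValNat 2 n) := by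
  classical
  have hq2 := two_le_card hq
  have hb3 : 3 ≤ b := by omega
  have hn0 : 0 < n := by
    rw [hab]
    positivity
  have hne : Nonempty (Fin n) := ⟨⟨0, hn0⟩⟩
  have hmemSL : ∀ s : Matrix.SpecialLinearGroup (Fin n) F,
      Matrix.SpecialLinearGroup.toGL s ∈ Cfsg.Geo.specialLinear (Fin n) F := by
    intro s
    show Matrix.GeneralLinearGroup.det _ = 1
    apply Units.ext
    simp
  constructor
  · intro H
    by_contra hneg
    have key : ∀ x₀ : Matrix (Fin n) (Fin n) F, x₀.det = 1 → ∀ z : F, x₀ ^ r = z • 1 → (∀ c : F, x₀ ≠ c • 1) →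
        ∃ (A : GL (Fin a) F) (B : GL (Fin b) F),
          (∀ c : F, (x₀ - c • 1).rank =
            ((A : Matrix (Fin a) (Fin a) F) ⊗ₖ (B : Matrix (Fin b) (Fin b) F) - c • 1).rank) ∧
          ((A : Matrix (Fin a) (Fin a) F) ⊗ₖ (B : Matrix (Fin b) (Fin b) F)) ^ r = z • 1 := by
      intro x₀ hdet z hz hns
      obtain ⟨xS, hxS⟩ : ∃ xS : Matrix.SpecialLinearGroup (Fin n) F, (xS : Matrix (Fin n) (Fin n) F) = x₀ :=
        ⟨⟨x₀, hdet⟩, rfl⟩
      have hx : ((Matrix.SpecialLinearGroup.toGL xS : GL (Fin n) F) : Matrix (Fin n) (Fin n) F) = x₀ := by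
        rw [Matrix.SpecialLinearGroup.coe_GL_coe_matrix, hxS]
      obtain ⟨g, -, hgH⟩ := H _ (hmemSL xS) ⟨z, by rw [Units.val_pow_eq_pow_val, hx, hz]⟩
        (fun c => by rw [hx]; exact hns c)
      obtain ⟨A, B, h1, h2⟩ := tensor_witness e P _ g hgH
      rw [hx] at h1 h2
      exact ⟨A, B, h1, h2 r z hz⟩
    have hscal : ∀ (A : GL (Fin a) F) (B : GL (Fin b) F) (c : F),
        ((A : Matrix (Fin a) (Fin a) F) ⊗ₖ (B : Matrix (Fin b) (Fin b) F) - c • 1).rank < b →
        ∃ α : F, (A : Matrix (Fin a) (Fin a) F) = α • 1 := by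
      intro A B c hlt
      by_contra hcon
      push Not at hcon
      have := le_rank_kronecker_sub (A : Matrix (Fin a) (Fin a) F) hcon (B : Matrix (Fin b) (Fin b) F) B.isUnit c
      omega
    have hdvd : ∀ (A : GL (Fin a) F) (B : GL (Fin b) F) (α c : F), (A : Matrix (Fin a) (Fin a) F) = α • 1 →
        a ∣ ((A : Matrix (Fin a) (Fin a) F) ⊗ₖ (B : Matrix (Fin b) (Fin b) F) - c • 1).rank := by
      intro A B α c hA
      rw [hA, kron_smul_sub, rank_one_kronecker]
      exact dvd_mul_right _ _
    have d0 : ∀ x₀ : Matrix (Fin n) (Fin n) F, x₀.det = 1 → ∀ z : F, x₀ ^ r = z • 1 → (∀ c : F, x₀ ≠ c • 1) →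
        ∀ c : F, (x₀ - c • 1).rank < b → ∀ c' : F, a ∣ (x₀ - c' • 1).rank := by
      intro x₀ hdet z hz hns c hlt c'
      obtain ⟨A, B, h1, -⟩ := key x₀ hdet z hz hns
      rw [h1] at hlt
      obtain ⟨α, hα⟩ := hscal A B c hlt
      rw [h1]
      exact hdvd A B α c' hα
    have d1 : ∀ x₀ : Matrix (Fin n) (Fin n) F, x₀.det = 1 → ∀ z : F, x₀ ^ r = z • 1 → (∀ c : F, x₀ ≠ c • 1) →
        ∀ c : F, (x₀ - c • 1).rank < b → (x₀ - c • 1).rank < a → False := by
      intro x₀ hdet z hz hns c hlt hlta
      have h1 := d0 x₀ hdet z hz hns c hlt c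
      have h2 := Nat.eq_zero_of_dvd_of_lt h1 hlta
      have h3 := eq_of_rank_eq_zero _ h2
      exact hns c (sub_eq_zero.1 h3)
    by_cases hrp : r = p
    · -- transvections
      let i₀ : Fin n := ⟨0, hn0⟩
      let i₁ : Fin n := ⟨1, by rw [hab]; nlinarith⟩
      have h01 : i₀ ≠ i₁ := by simp [i₀, i₁, Fin.ext_iff]
      have hdet : (Matrix.transvection i₀ i₁ (1 : F)).det = 1 := Matrix.det_transvection_of_ne _ _ h01 _
      apply d1 _ hdet 1 _ _ 1
      · refine lt_of_le_of_lt ?_ (by omega : 1 < b)
        rw [one_smul, Matrix.transvection, add_sub_cancel_left]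
        exact rank_single_le _ _ _
      · refine lt_of_le_of_lt ?_ (by omega : 1 < a)
        rw [one_smul, Matrix.transvection, add_sub_cancel_left]
        exact rank_single_le _ _ _
      · rw [transvection_pow h01, hrp, CharP.cast_eq_zero, Matrix.transvection_zero, one_smul]
      · intro c hc
        have h1 := congrFun (congrFun hc i₀) i₁
        simp [Matrix.transvection, h01] at h1
    have hipos : 0 < orderOf (q : ZMod r) := orderOf_q_pos (p := p) hq hrp
    by_cases hi1 : orderOf (q : ZMod r) = 1
    · have hdv : r ∣ q - 1 := (dvd_sub_one_iff hq2).2 hi1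
      let i₀ : Fin n := ⟨0, hn0⟩
      let i₁ : Fin n := ⟨1, by rw [hab]; nlinarith⟩
      let i₂ : Fin n := ⟨2, by rw [hab]; nlinarith⟩
      have h01 : i₀ ≠ i₁ := by simp [i₀, i₁, Fin.ext_iff]
      have h02 : i₀ ≠ i₂ := by simp [i₀, i₂, Fin.ext_iff]
      have h12 : i₁ ≠ i₂ := by simp [i₁, i₂, Fin.ext_iff]
      by_cases hr2 : r = 2
      · subst hr2
        have hqodd : Odd q := by
          obtain ⟨t, ht⟩ := hdv
          exact ⟨t, by omega⟩
        have h20 : (2 : F) ≠ 0 := by
          intro h
          have h1 := (CharP.cast_eq_zero_iff F p 2).1 (by exact_mod_cast h)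
          have hp2 : p = 2 := (Nat.prime_dvd_prime_iff_eq Fact.out Nat.prime_two).1 h1
          exact hrp hp2.symm
        by_cases ha2 : a = 2
        · subst ha2
          have hlt : padicValNat 2 n < padicValNat 2 (q - 1) := by
            by_contra hle
            exact hneg ⟨rfl, rfl, hqodd, by omega⟩
          obtain ⟨d, hd0, hdn⟩ := Cfsg.Agent.S5967.exists_neg_pow hq n hn0.ne' h20 hlt
          let D : Fin n → F := Function.update (fun _ => d) i₀ (-d)
          have hDi₀ : D i₀ = -d := by simp [D]
          have hDi : ∀ i, i ≠ i₀ → D i = d := fun i hi => by simp [D, hi]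
          have hdetD : (Matrix.diagonal D).det = 1 := by
            rw [Matrix.det_diagonal, Finset.prod_update_of_mem (Finset.mem_univ _), Finset.prod_const]
            have hc : (Finset.univ \ {i₀}).card = n - 1 := by
              rw [Finset.card_sdiff_of_subset (Finset.subset_univ _)]
              simp
            rw [hc]
            have h3 : -d * d ^ (n - 1) = -(d ^ n) := by
              rw [neg_mul, ← pow_succ', show n - 1 + 1 = n by omega]
            rw [h3, hdn, neg_neg]
          have hd2ne : -d ≠ d := by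
            intro h
            apply mul_ne_zero h20 hd0
            linear_combination -h
          have hrk : (Matrix.diagonal D - d • (1 : Matrix (Fin n) (Fin n) F)).rank ≤ 1 := by
            rw [rank_diag_sub, Fintype.card_subtype]
            have : (Finset.univ.filter fun i => D i ≠ d) ⊆ {i₀} := by
              intro i hi
              simp only [Finset.mem_filter, Finset.mem_univ, true_and] at hi
              by_contra hne
              exact hi (hDi i (by simpa using hne))
            simpa using Finset.card_le_card this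
          apply d1 _ hdetD (d ^ 2) _ _ d (lt_of_le_of_lt hrk (by omega)) (lt_of_le_of_lt hrk (by norm_num))
          · rw [Matrix.diagonal_pow]
            ext i j
            by_cases hij : i = j
            · subst hij
              by_cases hi : i = i₀
              · simp [hi, hDi₀]
              · simp [hDi i hi]
            · simp [hij]
          · intro c hc
            have h1 := congrFun (congrFun hc i₀) i₀
            have h2 := congrFun (congrFun hc i₁) i₁
            simp only [Matrix.diagonal_apply_eq, Matrix.smul_apply, Matrix.one_apply_eq, smul_eq_mul, mul_one] at h1 h2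
            rw [hDi₀] at h1
            rw [hDi i₁ (Ne.symm h01)] at h2
            exact hd2ne (h1.trans h2.symm)
        · have ha3 : 3 ≤ a := by omega
          let D : Fin n → F := Function.update (Function.update (fun _ => 1) i₀ (-1)) i₁ (-1)
          have hD0 : D i₀ = -1 := by simp [D, h01]
          have hD1 : D i₁ = -1 := by simp [D]
          have hD2 : ∀ i, i ≠ i₀ → i ≠ i₁ → D i = 1 := by
            intro i h1 h2
            simp [D, h1, h2]
          have hdetD : (Matrix.diagonal D).det = 1 := by
            rw [Matrix.det_diagonal, Finset.prod_eq_mul i₀ i₁ h01]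
            · rw [hD0, hD1]
              ring
            · intro i _ hi
              exact hD2 i hi.1 hi.2
            · simp
            · simp
          have hrk : (Matrix.diagonal D - (1 : F) • (1 : Matrix (Fin n) (Fin n) F)).rank ≤ 2 := by
            rw [rank_diag_sub, Fintype.card_subtype]
            have : (Finset.univ.filter fun i => D i ≠ 1) ⊆ {i₀, i₁} := by
              intro i hi
              simp only [Finset.mem_filter, Finset.mem_univ, true_and] at hi
              by_contra hne
              simp only [Finset.mem_insert, Finset.mem_singleton, not_or] at hne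
              exact hi (hD2 i hne.1 hne.2)
            exact (Finset.card_le_card this).trans Finset.card_le_two
          apply d1 _ hdetD 1 _ _ 1 (lt_of_le_of_lt hrk (by omega)) (lt_of_le_of_lt hrk (by omega))
          · rw [Matrix.diagonal_pow, one_smul, ← Matrix.diagonal_one]
            congr 1
            ext i
            simp only [Pi.pow_apply]
            by_cases hi0 : i = i₀
            · rw [hi0, hD0]
              ring
            · by_cases hi1' : i = i₁
              · rw [hi1', hD1]
                ring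
              · rw [hD2 i hi0 hi1']
                ring
          · intro c hc
            have h1 := congrFun (congrFun hc i₀) i₀
            have h2 := congrFun (congrFun hc i₂) i₂
            simp only [Matrix.diagonal_apply_eq, Matrix.smul_apply, Matrix.one_apply_eq, smul_eq_mul, mul_one] at h1 h2
            rw [hD0] at h1
            rw [hD2 i₂ (Ne.symm h02) (Ne.symm h12)] at h2
            apply h20
            have h3 : (-1 : F) = 1 := h1.trans h2.symm
            linear_combination -h3
      · -- odd order
        have hcardU : r ∣ Fintype.card Fˣ := by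
          rw [Fintype.card_units, hq]
          exact hdv
        obtain ⟨ζ, hζ⟩ := exists_prime_orderOf_dvd_card r hcardU
        have hζ1 : (ζ : F) ≠ 1 := by
          intro h
          have h1 : ζ = 1 := Units.ext h
          rw [h1, orderOf_one] at hζ
          exact (Fact.out : r.Prime).one_lt.ne hζ
        have hζ0 : (ζ : F) ≠ 0 := ζ.ne_zero
        have hζn : (ζ : F) ^ r = 1 := by
          have h1 : ζ ^ r = 1 := by
            rw [← hζ]
            exact pow_orderOf_eq_one ζ
          rw [← Units.val_pow_eq_pow_val, h1, Units.val_one]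
        have hζinv : (ζ : F)⁻¹ ≠ ζ := by
          intro h
          have h1 : ζ ^ 2 = 1 := by
            apply Units.ext
            rw [Units.val_pow_eq_pow_val, Units.val_one, sq]
            nth_rewrite 1 [← h]
            exact inv_mul_cancel₀ hζ0
          have h2 := orderOf_dvd_of_pow_eq_one h1
          rw [hζ] at h2
          exact hr2 ((Nat.prime_dvd_prime_iff_eq Fact.out Nat.prime_two).1 h2)
        let D : Fin n → F := Function.update (Function.update (fun _ => 1) i₀ (ζ : F)) i₁ (ζ : F)⁻¹
        have hD0 : D i₀ = ζ := by simp [D, h01]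
        have hD1 : D i₁ = (ζ : F)⁻¹ := by simp [D]
        have hD2 : ∀ i, i ≠ i₀ → i ≠ i₁ → D i = 1 := by
          intro i h1 h2
          simp [D, h1, h2]
        have hdetD : (Matrix.diagonal D).det = 1 := by
          rw [Matrix.det_diagonal, Finset.prod_eq_mul i₀ i₁ h01]
          · rw [hD0, hD1, mul_inv_cancel₀ hζ0]
          · intro i _ hi
            exact hD2 i hi.1 hi.2
          · simp
          · simp
        have hrk : (Matrix.diagonal D - (1 : F) • (1 : Matrix (Fin n) (Fin n) F)).rank ≤ 2 := by
          rw [rank_diag_sub, Fintype.card_subtype]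
          have : (Finset.univ.filter fun i => D i ≠ 1) ⊆ {i₀, i₁} := by
            intro i hi
            simp only [Finset.mem_filter, Finset.mem_univ, true_and] at hi
            by_contra hne
            simp only [Finset.mem_insert, Finset.mem_singleton, not_or] at hne
            exact hi (hD2 i hne.1 hne.2)
          exact (Finset.card_le_card this).trans Finset.card_le_two
        have h1 := d0 _ hdetD 1 (by
            rw [Matrix.diagonal_pow, one_smul, ← Matrix.diagonal_one]
            congr 1
            ext i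
            simp only [Pi.pow_apply]
            by_cases h0 : i = i₀
            · rw [h0, hD0, hζn]
            · by_cases h1 : i = i₁
              · rw [h1, hD1, inv_pow, hζn, inv_one]
              · rw [hD2 i h0 h1, one_pow]) (by
            intro c hc
            have h1 := congrFun (congrFun hc i₀) i₀
            have h2 := congrFun (congrFun hc i₂) i₂
            simp only [Matrix.diagonal_apply_eq, Matrix.smul_apply, Matrix.one_apply_eq, smul_eq_mul, mul_one] at h1 h2
            rw [hD0] at h1
            rw [hD2 i₂ (Ne.symm h02) (Ne.symm h12)] at h2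
            exact hζ1 (h1.trans h2.symm)) 1 (lt_of_le_of_lt hrk (by omega)) (ζ : F)
        rw [rank_diag_sub] at h1
        have hcard : Fintype.card {i // D i ≠ (ζ : F)} = n - 1 := by
          have h2 : Fintype.card {i // D i ≠ (ζ : F)} = Fintype.card {i // i ≠ i₀} := by
            apply Fintype.card_congr
            apply Equiv.subtypeEquivRight
            intro i
            by_cases hi0 : i = i₀
            · simp [hi0, hD0]
            · by_cases hi1' : i = i₁
              · rw [hi1', hD1]
                simp [hζinv, Ne.symm h01]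
              · rw [hD2 i hi0 hi1']
                simp [hi0, Ne.symm hζ1]
          rw [h2, Fintype.card_subtype, Finset.filter_ne', Finset.card_erase_of_mem (Finset.mem_univ _),
            Finset.card_univ, Fintype.card_fin]
        rw [hcard] at h1
        have h2 : a ∣ n := ⟨b, hab⟩
        have h3 : a ∣ n - (n - 1) := Nat.dvd_sub h2 h1
        rw [show n - (n - 1) = 1 by omega] at h3
        have := Nat.le_of_dvd one_pos h3
        omega
    · -- `r` does not divide `q - 1`
      have hi2 : 2 ≤ orderOf (q : ZMod r) := by omega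
      have hrq : ¬ r ∣ q - 1 := by
        rw [dvd_sub_one_iff hq2]
        exact hi1
      have hin : orderOf (q : ZMod r) ≤ n := by
        have h1 : r ∣ Nat.card (GL (Fin n) F) := by
          refine hΩ.trans ?_
          rw [Subgroup.relIndex]
          exact (Subgroup.index_dvd_card _).trans (Subgroup.card_subgroup_dvd_card _)
        rw [Matrix.card_GL_field, hq] at h1
        obtain ⟨j, -, hj⟩ := (Prime.dvd_finset_prod_iff (Nat.Prime.prime Fact.out) _).1 h1
        have hjn : (j : ℕ) < n := j.2
        have h2 : q ^ n - q ^ (j : ℕ) = q ^ (j : ℕ) * (q ^ (n - j) - 1) := by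
          rw [Nat.mul_sub, mul_one, ← pow_add]
          congr 2
          omega
        rw [h2] at hj
        have hrqj : ¬ r ∣ q ^ (j : ℕ) := by
          intro h
          obtain ⟨f, hf, hqf⟩ := card_eq_pow_char (p := p) hq
          rw [hqf] at h
          have h3 := (Fact.out : r.Prime).dvd_of_dvd_pow h
          have h4 := (Fact.out : r.Prime).dvd_of_dvd_pow h3
          exact hrp ((Nat.prime_dvd_prime_iff_eq Fact.out Fact.out).1 h4)
        have h3 := ((Nat.Prime.dvd_mul Fact.out).1 hj).resolve_left hrqj
        have h4 := (dvd_pow_sub_one_iff hq2 _).1 h3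
        have h5 := Nat.le_of_dvd (by omega) h4
        omega
      obtain ⟨x₀, hdet, hr1, hns, hrank⟩ := exists_block_sum (p := p) hq hrp hi2 n hin
      have hz : x₀ ^ r = (1 : F) • 1 := by rw [one_smul, hr1]
      obtain ⟨A, B, h1, h2⟩ := key x₀ hdet 1 hz hns
      have hrank' : (x₀ - (1 : F) • 1).rank ≤ orderOf (q : ZMod r) := by rwa [one_smul]
      rw [kron_pow] at h2
      haveI hnea : Nonempty (Fin a) := ⟨⟨0, by omega⟩⟩
      haveI hneb : Nonempty (Fin b) := ⟨⟨0, by omega⟩⟩
      have hAscal : ∃ α : F, (A : Matrix (Fin a) (Fin a) F) = α • 1 := by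
        by_cases hib : orderOf (q : ZMod r) < b
        · exact hscal A B 1 (by rw [← h1]; omega)
        · have hAr0 : (A : Matrix (Fin a) (Fin a) F) ^ r ≠ 0 := by
            intro h
            have h3 := congrArg Matrix.det h
            rw [Matrix.det_pow, Matrix.det_zero] at h3
            exact pow_ne_zero _ (Matrix.isUnits_det_units A).ne_zero h3
          have hBr0 : (B : Matrix (Fin b) (Fin b) F) ^ r ≠ 0 := by
            intro h
            have h3 := congrArg Matrix.det h
            rw [Matrix.det_pow, Matrix.det_zero] at h3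
            exact pow_ne_zero _ (Matrix.isUnits_det_units B).ne_zero h3
          obtain ⟨α, hα⟩ := exists_smul_of_kron_eq _ _ hBr0 hAr0 _ h2
          have hα0 : α ≠ 0 := by
            rintro rfl
            rw [zero_smul] at hα
            exact hAr0 hα
          obtain ⟨β, hβ0, hβ⟩ := exists_pow_eq_of_not_dvd hq hrq α hα0
          have hA' : (β⁻¹ • (A : Matrix (Fin a) (Fin a) F)) ^ r = 1 := by
            rw [_root_.smul_pow, hα, smul_smul, inv_pow, hβ, inv_mul_cancel₀ hα0, one_smul]
          have h3 := dvd_rank_of_pow_eq_one (p := p) hq hrp _ hA'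
          have h4 : (β⁻¹ • (A : Matrix (Fin a) (Fin a) F) - 1).rank ≤ a := by
            have h8 := Matrix.rank_le_card_width (β⁻¹ • (A : Matrix (Fin a) (Fin a) F) - 1)
            rwa [Fintype.card_fin] at h8
          have h5 := Nat.eq_zero_of_dvd_of_lt h3 (by omega)
          have h6 := eq_of_rank_eq_zero _ h5
          refine ⟨β, ?_⟩
          have h7 : β⁻¹ • (A : Matrix (Fin a) (Fin a) F) = 1 := sub_eq_zero.1 h6
          rw [← h7, smul_smul, mul_inv_cancel₀ hβ0, one_smul]
      obtain ⟨α, hα⟩ := hAscal
      have hrk := h1 1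
      rw [hα, kron_smul_sub, rank_one_kronecker, one_smul] at hrk
      have hG : (α • (B : Matrix (Fin b) (Fin b) F)) ^ r = 1 := by
        rw [hα, _root_.smul_pow, one_pow] at h2
        ext j j'
        have h3 := congrFun (congrFun h2 (⟨0, by omega⟩, j)) (⟨0, by omega⟩, j')
        simpa [Matrix.one_apply, _root_.smul_pow] using h3
      have h3 := dvd_rank_of_pow_eq_one (p := p) hq hrp _ hG
      have h4 : (α • (B : Matrix (Fin b) (Fin b) F) - 1).rank ≠ 0 := by
        intro h5
        have h6 := eq_of_rank_eq_zero _ h5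
        apply hns 1
        rw [one_smul]
        rw [one_smul] at hrk
        have h7 : (x₀ - 1).rank = 0 := by rw [hrk, h5, mul_zero]
        exact sub_eq_zero.1 (eq_of_rank_eq_zero _ h7)
      have h5 := Nat.le_of_dvd (Nat.pos_of_ne_zero h4) h3
      rw [one_smul] at hrk
      rw [one_smul] at hrank'
      have h6 : 2 * orderOf (q : ZMod r) ≤ a * (α • (B : Matrix (Fin b) (Fin b) F) - 1).rank :=
        Nat.mul_le_mul ha h5
      omega
  · rintro ⟨rfl, rfl, hodd, hv⟩ x hx ⟨z, hz⟩ hns
    exact conj_tensor_two hq n b hn0.ne' (by rw [hab]) e P hodd hv x hx z hz hns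

end Cfsg.Agent.S5979
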