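import Cfsg.Statements.S5994
import Cfsg.Agent.Lib.H27.JT9
import Cfsg.Agent.Lib.H01.OmDiagM

set_option autoImplicit false
open scoped MatrixGroups
open Cfsg

namespace Cfsg.Agent.S5994



/-- A necessary condition for every element of order p of PΩ⁻_n(q), q odd, to fix an elliptic `m`-space. Here `T = PΩ⁻_n(F)`, `n = 2d ≥ 8`, realised through `Ω⁻_n(q)`, the commutator subgroup of the isometry group of `Q = Σ_{i<d−1} xᵢyᵢ + z₁² + a z₁z₂ + b z₂²` with `z₁² + a z₁z₂ + b z₂²` anisotropic, over the field `F` with `q` elements; an element of `T` of prime order `r` is an element `x` of `Ω⁻_n(q)` with `x^r` scalar and `x` not scalar; `q` is odd; a nondegenerate `m`-space (even `m`) is a subspace on which the polar form of `Q` is nondegenerate; it is hyperbolic if it contains an `m/2`-dimensional subspace on which `Q` vanishes, elliptic otherwise. Let `m` be even with `2 ≤ m ≤ n − 2` and suppose `p` divides the number of elliptic `m`-spaces. If every element of `T` of order `p` fixes some elliptic `m`-space, then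 `n ≡ m (mod 4)` and every partition of `n` into parts of size at most `p` in which every even part has even multiplicity contains (as a sub-multiset) a partition of `m` in which every even part has even multiplicity. -/
theorem result {F : Type*} [Field F] [Fintype F] {p : ℕ} [Fact p.Prime] [CharP F p] {q : ℕ} (hq : Fintype.card F = q) (hqodd : Odd q)
    (d m : ℕ) (hd : 4 ≤ d) (hm : 2 ≤ m) (hme : Even m) (hmn : m + 2 ≤ 2 * d) (a b : F) (hab : ∀ x y : F, x ^ 2 + a * x * y + b * y ^ 2 = 0 → x = 0 ∧ y = 0)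
    (hpΩ : p ∣ Nat.card {W : Submodule F ((Fin (d - 1) ⊕ Fin (d - 1)) ⊕ Fin 2 → F) // Module.finrank F ↥W = m ∧ Cfsg.Geo.IsNondegenerateOn (QuadraticMap.polar (Cfsg.quadFormMinus (d - 1) F a b)) W ∧ ¬ Cfsg.Geo.IsPlusTypeOn (Cfsg.quadFormMinus (d - 1) F a b) W}) :
    (∀ x : GL ((Fin (d - 1) ⊕ Fin (d - 1)) ⊕ Fin 2) F, x ∈ Cfsg.Geo.omegaGL (Cfsg.quadFormMinus (d - 1) F a b) →
      (∃ z : F, ((x ^ p : GL ((Fin (d - 1) ⊕ Fin (d - 1)) ⊕ Fin 2) F) : Matrix ((Fin (d - 1) ⊕ Fin (d - 1)) ⊕ Fin 2) ((Fin (d - 1) ⊕ Fin (d - 1)) ⊕ Fin 2) F) = z • (1 : Matrix ((Fin (d - 1) ⊕ Fin (d - 1)) ⊕ Fin 2) ((Fin (d - 1) ⊕ Fin (d - 1)) ⊕ Fin 2) F)) →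
      (∀ z : F, (x : Matrix ((Fin (d - 1) ⊕ Fin (d - 1)) ⊕ Fin 2) ((Fin (d - 1) ⊕ Fin (d - 1)) ⊕ Fin 2) F) ≠ z • (1 : Matrix ((Fin (d - 1) ⊕ Fin (d - 1)) ⊕ Fin 2) ((Fin (d - 1) ⊕ Fin (d - 1)) ⊕ Fin 2) F)) →
      ∃ W : Submodule F ((Fin (d - 1) ⊕ Fin (d - 1)) ⊕ Fin 2 → F), (Module.finrank F ↥W = m ∧ Cfsg.Geo.IsNondegenerateOn (QuadraticMap.polar (Cfsg.quadFormMinus (d - 1) F a b)) W ∧ ¬ Cfsg.Geo.IsPlusTypeOn (Cfsg.quadFormMinus (d - 1) F a b) W) ∧ W.map (Matrix.toLin' (x : Matrix ((Fin (d - 1) ⊕ Fin (d - 1)) ⊕ Fin 2) ((Fin (d - 1) ⊕ Fin (d - 1)) ⊕ Fin 2) F)) ≤ W) →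
    ((2 * d) % 4 = m % 4 ∧ (∀ μ : Multiset ℕ, (∀ e ∈ μ, 0 < e ∧ e ≤ p) → (∀ e : ℕ, Even e → Even (μ.count e)) → μ.sum = 2 * d →
        ∃ ν : Multiset ℕ, ν ≤ μ ∧ ν.sum = m ∧ ∀ e : ℕ, Even e → Even (ν.count e))) := by
  classical
  intro H
  obtain ⟨hodd, h2⟩ := Cfsg.Agent.H27.JT.odd_of_char (F := F) (p := p) hq hqodd
  have hpp := (Fact.out : p.Prime)
  have hp3 : 3 ≤ p := by
    have := hpp.two_le
    obtain ⟨t, ht⟩ := hodd
    omega
  have hp2 : p ≠ 2 := by omega
  have hη : ∃ η : F, ¬ IsSquare η := FiniteField.exists_nonsquare (by rw [ringChar.eq F p]; exact hp2)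
  have hΔ : 4 * b - a ^ 2 ≠ 0 := by
    intro h
    have := (hab (-a / 2) 1 (by
      field_simp
      linear_combination h)).2
    exact one_ne_zero this
  have hnd := Cfsg.Agent.H01.Om.minus_nondeg2 h2 (d - 1) a b hΔ
  have hco : ⇑(Cfsg.Agent.H11.minusForm (d - 1) F a b) = Cfsg.quadFormMinus (d - 1) F a b :=
    funext fun v => Cfsg.Agent.H11.minusForm_apply a b v
  -- partitions with an odd part
  have key : ∀ μ : Multiset ℕ, (∀ e ∈ μ, 0 < e ∧ e ≤ p) → (∀ e : ℕ, Even e → Even (μ.count e)) → μ.sum = 2 * d → (∃ e ∈ μ, Odd e) →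
        ∃ ν : Multiset ℕ, ν ≤ μ ∧ ν.sum = m ∧ (∀ e : ℕ, Even e → Even (ν.count e)) ∧
          (ν.count 1 = 0 → (∀ e, 2 < e → ν.count e = 0) → False) := by
    intro μ hparts hpar hsum hex
    by_cases hbig : ∃ e ∈ μ, 2 ≤ e
    · have hR : Cfsg.Agent.H27.JT.RR (Cfsg.quadFormMinus (d - 1) F a b) p μ :=
        Cfsg.Agent.H27.JT.R_minus h2 hη hab p μ hpar hparts d hsum hex
      obtain ⟨g, hg1, hg2, hg3, hg4⟩ := Cfsg.Agent.H27.JT.sub_of_RR' (Cfsg.Agent.H11.minusForm (d - 1) F a b) hco
        hnd (Cfsg.Agent.H27.JT.card_ne_two hq hqodd) h2 hodd hR hbig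
      obtain ⟨W, ⟨hW1, hW2, hW4⟩, hW3⟩ := H g hg1 ⟨1, by rw [hg2]; simp⟩ hg3
      obtain ⟨ν, h1, h3, h4, h5⟩ := hg4 W hW2 hW3
      exact ⟨ν, h1, by rw [h3, hW1], h4, fun c1 c2 => hW4 (h5 c1 c2)⟩
    · push Not at hbig
      have hone : ∀ e ∈ μ, e = 1 := by
        intro e he
        have := (hparts e he).1
        have := hbig e he
        omega
      obtain ⟨ν, h1, h3, h4⟩ := Cfsg.Agent.H27.JT.trivial_sub μ m hone (by omega)
      refine ⟨ν, h1, h3, h4, ?_⟩
      intro c1 _
      have hν : ν = 0 := by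
        rw [Multiset.eq_zero_iff_forall_notMem]
        intro x hx
        have hx1 := hone x (Multiset.mem_of_le h1 hx)
        subst hx1
        exact absurd c1 (Multiset.count_ne_zero.2 hx)
      rw [hν] at h3
      simp at h3
      omega
  -- all partitions
  have part : ∀ μ : Multiset ℕ, (∀ e ∈ μ, 0 < e ∧ e ≤ p) → (∀ e : ℕ, Even e → Even (μ.count e)) → μ.sum = 2 * d →
        ∃ ν : Multiset ℕ, ν ≤ μ ∧ ν.sum = m ∧ ∀ e : ℕ, Even e → Even (ν.count e) := by
    intro μ hparts hpar hsum
    by_cases hex : ∃ e ∈ μ, Odd e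
    · obtain ⟨ν, h1, h3, h4, -⟩ := key μ hparts hpar hsum hex
      exact ⟨ν, h1, h3, h4⟩
    · push Not at hex
      have hev : ∀ e ∈ μ, Even e := fun e he => Nat.not_odd_iff_even.1 (hex e he)
      rcases Multiset.empty_or_exists_mem μ with h0 | ⟨e, he⟩
      · subst h0
        simp at hsum
        omega
      · have hee := hev e he
        have hcnt := hpar e hee
        obtain ⟨μ₁, rfl⟩ := Multiset.exists_cons_of_mem he
        have he1 : e ∈ μ₁ := by
          rw [Multiset.count_cons_self] at hcnt
          by_contra hc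
          rw [Multiset.count_eq_zero_of_notMem hc] at hcnt
          simp at hcnt
        obtain ⟨μ₂, rfl⟩ := Multiset.exists_cons_of_mem he1
        have he0 := hparts e (Multiset.mem_cons_self _ _)
        have he2 : 2 ≤ e := by
          obtain ⟨r, hr⟩ := hee
          omega
        have hep : e + 1 ≤ p := by
          have : e ≠ p := by
            rintro rfl
            exact (Nat.not_even_iff_odd.2 hodd) hee
          omega
        have hev2 : ∀ x ∈ μ₂, Even x := fun x hx => hev x (Multiset.mem_cons_of_mem (Multiset.mem_cons_of_mem hx))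
        have hodd1 : ¬ Even (e + 1) := by
          rw [Nat.even_add_one]
          exact not_not.2 hee
        have hodd2 : ¬ Even (e - 1) := by
          obtain ⟨r, hr⟩ := hee
          rw [show e - 1 = 2 * (r - 1) + 1 by omega]
          exact Nat.not_even_iff_odd.2 ⟨r - 1, rfl⟩
        obtain ⟨ν', h1, h3, h4, -⟩ := key ((e + 1) ::ₘ (e - 1) ::ₘ μ₂) (by
            intro x hx
            rw [Multiset.mem_cons, Multiset.mem_cons] at hx
            rcases hx with rfl | rfl | hx
            · omega
            · omega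
            · exact hparts x (Multiset.mem_cons_of_mem (Multiset.mem_cons_of_mem hx))) (by
            intro t ht
            have h5 : t ≠ e + 1 := by
              rintro rfl
              exact hodd1 ht
            have h6 : t ≠ e - 1 := by
              rintro rfl
              exact hodd2 ht
            rw [Multiset.count_cons_of_ne h5, Multiset.count_cons_of_ne h6]
            have := hpar t ht
            rw [Multiset.count_cons, Multiset.count_cons] at this
            by_cases h10 : t = e
            · subst h10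
              simp only [if_true] at this
              rw [show μ₂.count t + 1 + 1 = μ₂.count t + 2 from rfl] at this
              exact (Nat.even_add.1 this).2 even_two
            · simpa [h10] using this) (by
            simp only [Multiset.sum_cons] at hsum ⊢
            omega) ⟨e + 1, Multiset.mem_cons_self _ _, Nat.not_even_iff_odd.1 hodd1⟩
        exact Cfsg.Agent.H27.JT.replace_pair μ₂ e hee he2 hev2 m hme ν' h1 h3 h4
  refine ⟨?_, part⟩
  -- the congruence
  rcases Nat.even_or_odd d with hde | hdo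
  · obtain ⟨ν, h1, h3, h4⟩ := part (Multiset.replicate d 2) (by
        intro e he
        rw [Multiset.mem_replicate] at he
        omega) (by
        intro e he
        rw [Multiset.count_replicate]
        split_ifs
        · exact hde
        · exact Even.zero) (by
        simp
        ring)
    have hs := Cfsg.Agent.H27.JT.sum_two_values ν 1 (by norm_num) (by
      intro x hx
      have := Multiset.mem_of_le h1 hx
      rw [Multiset.mem_replicate] at this
      exact Or.inl this.2)
    have hc1 : ν.count 1 = 0 := by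
      have := Multiset.count_le_of_le 1 h1
      rw [Multiset.count_replicate] at this
      simpa using this
    obtain ⟨c, hc⟩ := h4 2 even_two
    rw [hc1, hc, h3] at hs
    obtain ⟨t, ht⟩ := hde
    omega
  · obtain ⟨t, ht⟩ := hdo
    obtain ⟨ν, h1, h3, h4, h5⟩ := key (Multiset.replicate (2 * t) 2 + {1, 1}) (by
        intro e he
        rw [Multiset.mem_add, Multiset.mem_replicate, Multiset.insert_eq_cons, Multiset.mem_cons, Multiset.mem_singleton] at he
        rcases he with ⟨-, rfl⟩ | rfl | rfl <;> omega) (by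
        intro e he
        rw [Multiset.count_add, Multiset.count_replicate, Multiset.insert_eq_cons, Multiset.count_cons, Multiset.count_singleton]
        have hne : e ≠ 1 := by
          rintro rfl
          exact absurd he (by decide)
        simp only [hne, if_false, add_zero]
        split_ifs
        · exact even_two_mul t
        · exact Even.zero) (by
        simp [Multiset.insert_eq_cons, ht]
        ring) ⟨1, by simp [Multiset.insert_eq_cons], odd_one⟩
    have hmem : ∀ x ∈ ν, x = 2 ∨ x = 1 := by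
      intro x hx
      have := Multiset.mem_of_le h1 hx
      rw [Multiset.mem_add, Multiset.mem_replicate, Multiset.insert_eq_cons, Multiset.mem_cons, Multiset.mem_singleton] at this
      rcases this with ⟨-, h⟩ | h | h
      · exact Or.inl h
      · exact Or.inr h
      · exact Or.inr h
    have hs := Cfsg.Agent.H27.JT.sum_two_values ν 1 (by norm_num) hmem
    have hc1 : ν.count 1 ≤ 2 := by
      have := Multiset.count_le_of_le 1 h1
      rw [Multiset.count_add, Multiset.count_replicate, Multiset.insert_eq_cons, Multiset.count_cons, Multiset.count_singleton] at this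
      simpa using this
    obtain ⟨c, hc⟩ := h4 2 even_two
    obtain ⟨u, hu⟩ := hme
    have hc2 : ν.count 1 ≠ 0 := by
      intro h0
      apply h5 h0
      intro e he
      apply Multiset.count_eq_zero_of_notMem
      intro hx
      rcases hmem e hx with h | h <;> omega
    rw [hc, h3] at hs
    omega

end Cfsg.Agent.S5994
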