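import Cfsg.Statements.S5995
import Cfsg.Agent.Lib.H27.JT9
import Cfsg.Agent.Lib.H11.Spin7

set_option autoImplicit false
open scoped MatrixGroups
open Cfsg

namespace Cfsg.Agent.S5995



/-- A necessary condition for every element of order p of Ω_n(q), nq odd, to fix a hyperbolic `m`-space. Here `T = Ω_n(F)`, `n = 2d+1 ≥ 7`, `q` odd, realised as the commutator subgroup of the isometry group of `Q = x₀² + Σ xᵢyᵢ` over the field `F` with `q` elements (trivial centre, so its elements of prime order `r` are used directly); a nondegenerate `m`-space (even `m`) is a subspace on which the polar form of `Q` is nondegenerate; it is hyperbolic if it contains an `m/2`-dimensional subspace on which `Q` vanishes, elliptic otherwise. Let `m` be even with `2 ≤ m ≤ n − 1` and suppose `p` divides the number of hyperbolic `m`-spaces. If every element of `T` of order `p` fixes some hyperbolic `m`-space, then `m ≡ 0 (mod 4)` and every partition of `n` into parts of size at most `p` in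 which every even part has even multiplicity contains (as a sub-multiset) a partition of `m` in which every even part has even multiplicity. -/
theorem result {F : Type*} [Field F] [Fintype F] {p : ℕ} [Fact p.Prime] [CharP F p] {q : ℕ} (hq : Fintype.card F = q) (hqodd : Odd q)
    (d m : ℕ) (hd : 3 ≤ d) (hm : 2 ≤ m) (hme : Even m) (hmn : m ≤ 2 * d)
    (hpΩ : p ∣ Nat.card {W : Submodule F (Unit ⊕ (Fin d ⊕ Fin d) → F) // Module.finrank F ↥W = m ∧ Cfsg.Geo.IsNondegenerateOn (QuadraticMap.polar (Cfsg.quadFormOdd d F)) W ∧ Cfsg.Geo.IsPlusTypeOn (Cfsg.quadFormOdd d F) W}) :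
    (∀ x : GL (Unit ⊕ (Fin d ⊕ Fin d)) F, x ∈ Cfsg.Geo.omegaGL (Cfsg.quadFormOdd d F) → orderOf x = p →
      ∃ W : Submodule F (Unit ⊕ (Fin d ⊕ Fin d) → F), (Module.finrank F ↥W = m ∧ Cfsg.Geo.IsNondegenerateOn (QuadraticMap.polar (Cfsg.quadFormOdd d F)) W ∧ Cfsg.Geo.IsPlusTypeOn (Cfsg.quadFormOdd d F) W) ∧ W.map (Matrix.toLin' (x : Matrix (Unit ⊕ (Fin d ⊕ Fin d)) (Unit ⊕ (Fin d ⊕ Fin d)) F)) ≤ W) →
    (m % 4 = 0 ∧ (∀ μ : Multiset ℕ, (∀ e ∈ μ, 0 < e ∧ e ≤ p) → (∀ e : ℕ, Even e → Even (μ.count e)) → μ.sum = 2 * d + 1 →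
        ∃ ν : Multiset ℕ, ν ≤ μ ∧ ν.sum = m ∧ ∀ e : ℕ, Even e → Even (ν.count e))) := by
  classical
  intro H
  obtain ⟨hodd, h2⟩ := Cfsg.Agent.H27.JT.odd_of_char (F := F) (p := p) hq hqodd
  have hpp := (Fact.out : p.Prime)
  have hp3 : 3 ≤ p := by
    have := hpp.two_le
    obtain ⟨t, ht⟩ := hodd
    omega
  have key : ∀ μ : Multiset ℕ, (∀ e ∈ μ, 0 < e ∧ e ≤ p) → (∀ e : ℕ, Even e → Even (μ.count e)) → μ.sum = 2 * d + 1 →
        ∃ ν : Multiset ℕ, ν ≤ μ ∧ ν.sum = m ∧ ∀ e : ℕ, Even e → Even (ν.count e) := by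
    intro μ hparts hpar hsum
    by_cases hbig : ∃ e ∈ μ, 2 ≤ e
    · have hR : Cfsg.Agent.H27.JT.RR (Cfsg.quadFormOdd d F) p μ :=
        Cfsg.Agent.H27.JT.R_odd h2 p μ hpar hparts d hsum
      obtain ⟨g, hg1, hg2, hg3, hg4⟩ := Cfsg.Agent.H27.JT.sub_of_RR' (Cfsg.Agent.H11.oddForm d F) (Cfsg.Agent.H11.oddForm_coe d)
        (Cfsg.Agent.H11.odd_nondeg h2 d) (Cfsg.Agent.H27.JT.card_ne_two hq hqodd) h2 hodd hR hbig
      have hne : g ≠ 1 := by
        rintro rfl
        apply hg3 1
        simp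
      obtain ⟨W, ⟨hW1, hW2, -⟩, hW3⟩ := H g hg1 (orderOf_eq_prime hg2 hne)
      obtain ⟨ν, h1, h3, h4, -⟩ := hg4 W hW2 hW3
      exact ⟨ν, h1, by rw [h3, hW1], h4⟩
    · push Not at hbig
      apply Cfsg.Agent.H27.JT.trivial_sub
      · intro e he
        have := (hparts e he).1
        have := hbig e he
        omega
      · omega
  refine ⟨?_, key⟩
  obtain ⟨b, r, hr, hsumr⟩ : ∃ b r : ℕ, (r = 1 ∨ r = 3) ∧ 2 * d + 1 = 4 * b + r := by
    rcases Nat.even_or_odd' d with ⟨c, rfl | rfl⟩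
    · exact ⟨c, 1, Or.inl rfl, by ring⟩
    · exact ⟨c, 3, Or.inr rfl, by ring⟩
  have hr2 : r ≠ 2 := by omega
  have hro : Odd r := by
    rcases hr with rfl | rfl <;> decide
  set μ₀ : Multiset ℕ := Multiset.replicate (2 * b) 2 + {r} with hμ₀
  obtain ⟨ν, h1, h3, h4⟩ := key μ₀ (by
      intro e he
      rw [hμ₀, Multiset.mem_add, Multiset.mem_replicate, Multiset.mem_singleton] at he
      rcases he with ⟨-, rfl⟩ | rfl
      · omega
      · omega) (by
      intro e he
      rw [hμ₀, Multiset.count_add, Multiset.count_replicate, Multiset.count_singleton]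
      have hne : e ≠ r := by
        rintro rfl
        exact (Nat.not_even_iff_odd.2 hro) he
      simp only [hne, if_false, add_zero]
      split_ifs
      · exact even_two_mul b
      · exact Even.zero) (by
      rw [hμ₀, Multiset.sum_add, Multiset.sum_replicate, Multiset.sum_singleton, hsumr]
      simp
      ring)
  have hmem : ∀ x ∈ ν, x = 2 ∨ x = r := by
    intro x hx
    have := Multiset.mem_of_le h1 hx
    rw [hμ₀, Multiset.mem_add, Multiset.mem_replicate, Multiset.mem_singleton] at this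
    rcases this with ⟨-, h⟩ | h
    · exact Or.inl h
    · exact Or.inr h
  have hs := Cfsg.Agent.H27.JT.sum_two_values ν r hr2 hmem
  have hcr : ν.count r ≤ 1 := by
    have := Multiset.count_le_of_le r h1
    rw [hμ₀, Multiset.count_add, Multiset.count_replicate, Multiset.count_singleton] at this
    simpa [hr2.symm] using this
  obtain ⟨c, hc⟩ := h4 2 even_two
  obtain ⟨t, ht⟩ := hme
  have hcr0 : ν.count r = 0 := by
    by_contra hne
    have h5 : ν.count r = 1 := by omega
    rw [h5, hc, h3, ht] at hs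
    obtain ⟨u, hu⟩ := hro
    omega
  rw [hcr0, hc, h3] at hs
  omega

end Cfsg.Agent.S5995
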