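import Cfsg.Statements.S5996
import Cfsg.Agent.Lib.H27.JT7
import Cfsg.Agent.Lib.H11.MTS4

set_option autoImplicit false
open scoped MatrixGroups
open Cfsg

namespace Cfsg.Agent.S5996



/-- A necessary condition for every element of order p of PΩ⁺_n(q), q odd, to fix a hyperbolic `m`-space. Here `T = PΩ⁺_n(F)`, `n = 2d ≥ 8`, realised through `Ω⁺_n(q)`, the commutator subgroup of the isometry group of `Q = Σ xᵢyᵢ` over the field `F` with `q` elements; an element of `T` of prime order `r` is an element `x` of `Ω⁺_n(q)` with `x^r` scalar and `x` not scalar; `q` is odd; a nondegenerate `m`-space (even `m`) is a subspace on which the polar form of `Q` is nondegenerate; it is hyperbolic if it contains an `m/2`-dimensional subspace on which `Q` vanishes, elliptic otherwise. Let `m` be even with `2 ≤ m < n/2` and suppose `p` divides the number of hyperbolic `m`-spaces. If every element of `T` of order `p` fixes some hyperbolic `m`-space, then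 every partition of `n` into parts of size at most `p` in which every even part has even multiplicity contains (as a sub-multiset) a partition of `m` in which every even part has even multiplicity. -/
theorem result {F : Type*} [Field F] [Fintype F] {p : ℕ} [Fact p.Prime] [CharP F p] {q : ℕ} (hq : Fintype.card F = q) (hqodd : Odd q)
    (d m : ℕ) (hd : 4 ≤ d) (hm : 2 ≤ m) (hme : Even m) (hmd : m < d)
    (hpΩ : p ∣ Nat.card {W : Submodule F (Fin d ⊕ Fin d → F) // Module.finrank F ↥W = m ∧ Cfsg.Geo.IsNondegenerateOn (QuadraticMap.polar (Cfsg.quadFormPlus d F)) W ∧ Cfsg.Geo.IsPlusTypeOn (Cfsg.quadFormPlus d F) W}) :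
    (∀ x : GL (Fin d ⊕ Fin d) F, x ∈ Cfsg.Geo.omegaGL (Cfsg.quadFormPlus d F) →
      (∃ z : F, ((x ^ p : GL (Fin d ⊕ Fin d) F) : Matrix (Fin d ⊕ Fin d) (Fin d ⊕ Fin d) F) = z • (1 : Matrix (Fin d ⊕ Fin d) (Fin d ⊕ Fin d) F)) →
      (∀ z : F, (x : Matrix (Fin d ⊕ Fin d) (Fin d ⊕ Fin d) F) ≠ z • (1 : Matrix (Fin d ⊕ Fin d) (Fin d ⊕ Fin d) F)) →
      ∃ W : Submodule F (Fin d ⊕ Fin d → F), (Module.finrank F ↥W = m ∧ Cfsg.Geo.IsNondegenerateOn (QuadraticMap.polar (Cfsg.quadFormPlus d F)) W ∧ Cfsg.Geo.IsPlusTypeOn (Cfsg.quadFormPlus d F) W) ∧ W.map (Matrix.toLin' (x : Matrix (Fin d ⊕ Fin d) (Fin d ⊕ Fin d) F)) ≤ W) →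
    (∀ μ : Multiset ℕ, (∀ e ∈ μ, 0 < e ∧ e ≤ p) → (∀ e : ℕ, Even e → Even (μ.count e)) → μ.sum = 2 * d →
        ∃ ν : Multiset ℕ, ν ≤ μ ∧ ν.sum = m ∧ ∀ e : ℕ, Even e → Even (ν.count e)) := by
  classical
  intro H μ hparts hpar hsum
  obtain ⟨hodd, h2⟩ := Cfsg.Agent.H27.JT.odd_of_char (F := F) (p := p) hq hqodd
  by_cases hbig : ∃ e ∈ μ, 2 ≤ e
  · have hR : Cfsg.Agent.H27.JT.RR (Cfsg.quadFormPlus d F) p μ :=
      Cfsg.Agent.H27.JT.R_plus h2 p _ μ rfl hpar hparts d hsum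
    obtain ⟨g, hg1, hg2, hg3, hg4⟩ := Cfsg.Agent.H27.JT.sub_of_RR' (Cfsg.Agent.H11.plusForm d F) (funext Cfsg.Agent.H11.plusForm_apply)
      (Cfsg.Agent.H11.plus_nondeg' d) (Cfsg.Agent.H27.JT.card_ne_two hq hqodd) h2 hodd hR hbig
    obtain ⟨W, ⟨hW1, hW2, -⟩, hW3⟩ := H g hg1 ⟨1, by rw [hg2]; simp⟩ hg3
    obtain ⟨ν, h1, h3, h4, -⟩ := hg4 W hW2 hW3
    exact ⟨ν, h1, by rw [h3, hW1], h4⟩
  · push Not at hbig
    apply Cfsg.Agent.H27.JT.trivial_sub
    · intro e he
      have := (hparts e he).1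
      have := hbig e he
      omega
    · omega

end Cfsg.Agent.S5996
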