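import Cfsg.Statements.S5997
import Cfsg.Agent.Lib.H29.Mat2
-- import your own Cfsg.Agent.* helpers here

set_option autoImplicit false
open scoped MatrixGroups
open Cfsg

namespace Cfsg.Agent.S5997

open Matrix Cfsg.Agent.H29

section Aux

variable {F : Type*} [Field F]

local notation "M₂" => Matrix (Fin 2) (Fin 2) F

/-- Quaternion relations. -/
structure QuatRel (I J K : M₂) : Prop where
  II : I * I = -1
  JJ : J * J = -1
  KK : K * K = -1
  IJ : I * J = K
  JI : J * I = -K
  JK : J * K = I
  KJ : K * J = -I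
  KI : K * I = J
  IK : I * K = -J

theorem quatRel_of_anti {I J : M₂} (hII : I * I = -1) (hJJ : J * J = -1) (hJI : J * I = -(I * J)) :
    QuatRel I J (I * J) := by
  refine ⟨hII, hJJ, ?_, rfl, hJI, ?_, ?_, ?_, ?_⟩
  · calc I * J * (I * J) = I * (J * I) * J := by simp only [Matrix.mul_assoc]
      _ = -1 := by
        rw [hJI]
        simp only [Matrix.mul_neg, Matrix.neg_mul, ← Matrix.mul_assoc, hII]
        simp only [Matrix.mul_assoc, hJJ]
        simp
  · calc J * (I * J) = (J * I) * J := by simp only [Matrix.mul_assoc]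
      _ = I := by
        rw [hJI]
        simp only [Matrix.neg_mul, Matrix.mul_assoc, hJJ]
        simp
  · calc I * J * J = I * (J * J) := by simp only [Matrix.mul_assoc]
      _ = -I := by rw [hJJ]; simp
  · calc I * J * I = I * (J * I) := by simp only [Matrix.mul_assoc]
      _ = J := by
        rw [hJI]
        simp only [Matrix.mul_neg, ← Matrix.mul_assoc, hII]
        simp
  · calc I * (I * J) = (I * I) * J := by simp only [Matrix.mul_assoc]
      _ = -J := by rw [hII]; simp

theorem notScalar_of_sq (h2 : (2 : F) ≠ 0) {A B : M₂} (hA : A * A = -1) (hB : B * B = -1)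
    (hAB : A * B = -(B * A)) (c : F) : A ≠ c • (1 : M₂) := by
  rintro rfl
  have h1 : (2 * c) • B = 0 := by
    have h3 : c • B = -(c • B) := by
      simpa [Matrix.smul_mul, Matrix.mul_smul] using hAB
    have h4 : c • B + c • B = 0 := by
      nth_rw 2 [h3]
      simp
    rw [two_mul, add_smul]
    exact h4
  have hne : (-1 : M₂) ≠ 0 := by
    intro h
    have := congrFun (congrFun h 0) 0
    simp at this
  have h5 : 2 * c ≠ 0 ∨ 2 * c = 0 := (ne_or_eq _ _)
  rcases h5 with h5 | h5
  · have hB0 : B = 0 := (smul_eq_zero.1 h1).resolve_left h5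
    rw [hB0] at hB
    simp at hB
  · have hc : c = 0 := (mul_eq_zero.1 h5).resolve_left h2
    rw [hc] at hA
    simp at hA

theorem trace_det_of_sq {A : M₂} (hA : ∀ c : F, A ≠ c • (1 : M₂)) (h : A * A = -1) :
    A.trace = 0 ∧ A.det = 1 := by
  have h1 := sq_eq_trace A
  rw [h] at h1
  have ht : A.trace = 0 := by
    by_contra ht
    apply hA (A.trace⁻¹ * (A.det - 1))
    have h2 : A.trace • A = (A.det - 1) • (1 : M₂) := by
      rw [sub_smul, one_smul]
      rw [eq_sub_iff_add_eq] at h1
      rw [eq_sub_iff_add_eq, ← h1]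
      abel
    rw [mul_smul, ← h2, smul_smul, inv_mul_cancel₀ ht, one_smul]
  refine ⟨ht, ?_⟩
  rw [ht] at h1
  have := congrFun (congrFun h1 0) 0
  simp at this
  exact this.symm

variable {I J K : Matrix (Fin 2) (Fin 2) F}

theorem QuatRel.W_sq (h : QuatRel I J K) :
    (-1 + I + J + K) * (-1 + I + J + K) = -(2 : F) • (-1 + I + J + K) - (4 : F) • (1 : M₂) := by
  have e : (-1 + I + J + K) * (-1 + I + J + K) =
      -((-1 + I + J + K) + (-1 + I + J + K)) - ((1 : M₂) + 1 + 1 + 1) := by
    simp only [Matrix.add_mul, Matrix.mul_add, Matrix.neg_mul, Matrix.mul_neg, Matrix.one_mul,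
      Matrix.mul_one, h.II, h.JJ, h.KK, h.IJ, h.JI, h.JK, h.KJ, h.KI, h.IK]
    abel
  rw [e]
  have e2 : -(2 : F) • (-1 + I + J + K) = -((-1 + I + J + K) + (-1 + I + J + K)) := by
    rw [neg_smul, two_smul]
  have e4 : (4 : F) • (1 : M₂) = (1 : M₂) + 1 + 1 + 1 := by
    have : (4 : F) = 1 + 1 + 1 + 1 := by norm_num
    rw [this, add_smul, add_smul, add_smul, one_smul]
  rw [e2, e4]

theorem QuatRel.W_I (h : QuatRel I J K) : (-1 + I + J + K) * I = K * (-1 + I + J + K) := by
  simp only [Matrix.add_mul, Matrix.mul_add, Matrix.neg_mul, Matrix.mul_neg, Matrix.one_mul,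
      Matrix.mul_one, h.II, h.JJ, h.KK, h.IJ, h.JI, h.JK, h.KJ, h.KI, h.IK]
  abel

theorem QuatRel.W_J (h : QuatRel I J K) : (-1 + I + J + K) * J = I * (-1 + I + J + K) := by
  simp only [Matrix.add_mul, Matrix.mul_add, Matrix.neg_mul, Matrix.mul_neg, Matrix.one_mul,
      Matrix.mul_one, h.II, h.JJ, h.KK, h.IJ, h.JI, h.JK, h.KJ, h.KI, h.IK]
  abel

theorem QuatRel.Y_sq (h : QuatRel I J K) {t : F} (ht : t * 2 = 1) :
    (t • (-1 + I + J + K)) * (t • (-1 + I + J + K)) = -(t • (-1 + I + J + K)) - 1 := by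
  rw [Matrix.smul_mul, Matrix.mul_smul, h.W_sq, smul_smul, smul_sub, smul_smul, smul_smul]
  have e1 : t * t * -2 = -t := by linear_combination (-t) * ht
  have e2 : t * t * 4 = 1 := by linear_combination (t * 2 + 1) * ht
  rw [e1, e2, neg_smul, one_smul]

theorem QuatRel.Y_I (h : QuatRel I J K) (t : F) :
    (t • (-1 + I + J + K)) * I = K * (t • (-1 + I + J + K)) := by
  rw [Matrix.smul_mul, Matrix.mul_smul, h.W_I]

theorem QuatRel.Y_J (h : QuatRel I J K) (t : F) :
    (t • (-1 + I + J + K)) * J = I * (t • (-1 + I + J + K)) := by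
  rw [Matrix.smul_mul, Matrix.mul_smul, h.W_J]

theorem QuatRel.Y_notScalar (h2 : (2 : F) ≠ 0) (h : QuatRel I J K) {t : F} (ht : t * 2 = 1) (c : F) :
    t • (-1 + I + J + K) ≠ c • (1 : M₂) := by
  intro hc
  have hW : -1 + I + J + K = (2 * c) • (1 : M₂) := by
    have : (2 : F) • (t • (-1 + I + J + K)) = (2 : F) • (c • (1 : M₂)) := by rw [hc]
    rw [smul_smul, mul_comm, ht, one_smul, smul_smul] at this
    exact this
  have hcomm : (-1 + I + J + K) * I = I * (-1 + I + J + K) := by
    rw [hW]
    simp [Matrix.smul_mul, Matrix.mul_smul]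
  rw [h.W_I] at hcomm
  simp only [Matrix.add_mul, Matrix.mul_add, Matrix.neg_mul, Matrix.mul_neg, Matrix.one_mul,
      Matrix.mul_one, h.II, h.JJ, h.KK, h.IJ, h.JI, h.JK, h.KJ, h.KI, h.IK] at hcomm
  have h1 : (2 : F) • K = (2 : F) • J := by
    rw [two_smul, two_smul]
    have h3 : (-K + J + -I + -1) - (-I + -1 + K + -J) = 0 := by rw [hcomm]; simp
    have h4 : (K + K) - (J + J) = -((-K + J + -I + -1) - (-I + -1 + K + -J)) := by abel
    rw [← sub_eq_zero, h4, h3, neg_zero]
  have h5 : K = J := smul_right_injective _ h2 h1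
  have h6 : I = 1 := by
    have := h.KJ
    rw [h5, h.JJ] at this
    exact (neg_injective this).symm
  have h7 := h.II
  rw [h6, Matrix.one_mul] at h7
  have h8 := congrFun (congrFun h7 0) 0
  simp at h8
  have h9 : (2 : F) = 0 := by linear_combination h8
  exact h2 h9

/-- The trace and determinant of `Y`. -/
theorem QuatRel.Y_trace_det (h2 : (2 : F) ≠ 0) (h : QuatRel I J K) (hI : I.trace = 0)
    (hJ : J.trace = 0) (hK : K.trace = 0) {t : F} (ht : t * 2 = 1) :
    (t • (-1 + I + J + K)).trace = -1 ∧ (t • (-1 + I + J + K)).det = 1 := by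
  have htr : (t • (-1 + I + J + K)).trace = -1 := by
    rw [Matrix.trace_smul, Matrix.trace_add, Matrix.trace_add, Matrix.trace_add, hI, hJ, hK,
      Matrix.trace_neg, Matrix.trace_one]
    simp
    linear_combination ht
  refine ⟨htr, ?_⟩
  have h1 := sq_eq_trace (t • (-1 + I + J + K))
  rw [h.Y_sq ht, htr, neg_smul, one_smul] at h1
  have h3 : (1 : M₂) = (t • (-1 + I + J + K)).det • (1 : M₂) := by
    have h4 := sub_right_inj.1 h1
    exact h4
  generalize (t • (-1 + I + J + K)).det = d at h3 ⊢
  have := congrFun (congrFun h3 0) 0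
  simp at this
  exact this.symm

end Aux

section GLpart

variable {F : Type*} [Field F]

local notation "M₂" => Matrix (Fin 2) (Fin 2) F

/-- Data of a quaternion subgroup of `GL₂`. -/
structure QuatData (R : Subgroup (GL (Fin 2) F)) (i j : GL (Fin 2) F) : Prop where
  hi : i ∈ R
  hj : j ∈ R
  hII : ((i : GL (Fin 2) F) : M₂) * (i : GL (Fin 2) F) = -1
  hJJ : ((j : GL (Fin 2) F) : M₂) * (j : GL (Fin 2) F) = -1
  hJI : ((j : GL (Fin 2) F) : M₂) * (i : GL (Fin 2) F) = -(((i : GL (Fin 2) F) : M₂) * (j : GL (Fin 2) F))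
  hgen : ∀ h ∈ R, ∃ n m : ℕ, h = i ^ n * j ^ m
  hcard : Nat.card R = 8

theorem exists_quatData (R : Subgroup (GL (Fin 2) F)) (hR : Nonempty (↥R ≃* QuaternionGroup 2)) :
    ∃ i j, QuatData R i j := by
  obtain ⟨φ⟩ := hR
  let A : QuaternionGroup 2 := .a 1
  let B : QuaternionGroup 2 := .xa 0
  have hgen0 : ∀ q : QuaternionGroup 2, ∃ n m : Fin 4, q = A ^ (n : ℕ) * B ^ (m : ℕ) := by decide
  have hBB : B * B = A * A := by decide
  have hBA : B * A = A * A * (A * B) := by decide
  have hZA : A * A * A = A * (A * A) := by decide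
  have hZB : A * A * B = B * (A * A) := by decide
  have hZZ : A * A * (A * A) = 1 := by decide
  have hZ1 : A * A ≠ 1 := by decide
  let ι : QuaternionGroup 2 →* GL (Fin 2) F := R.subtype.comp φ.symm.toMonoidHom
  have hι : Function.Injective ι := by
    intro a b hab
    have : φ.symm a = φ.symm b := Subtype.ext hab
    exact φ.symm.injective this
  have hιR : ∀ q, ι q ∈ R := fun q => (φ.symm q).2
  let I : M₂ := (ι A : GL (Fin 2) F)
  let J : M₂ := (ι B : GL (Fin 2) F)
  have conv : ∀ q₁ q₂ : QuaternionGroup 2, q₁ = q₂ →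
      ((ι q₁ : GL (Fin 2) F) : M₂) = (ι q₂ : GL (Fin 2) F) := fun _ _ h => by rw [h]
  have mulv : ∀ q₁ q₂ : QuaternionGroup 2,
      ((ι (q₁ * q₂) : GL (Fin 2) F) : M₂) = (ι q₁ : GL (Fin 2) F) * (ι q₂ : GL (Fin 2) F) := fun a b => by
    rw [map_mul, Units.val_mul]
  have oneV : ((ι 1 : GL (Fin 2) F) : M₂) = 1 := by rw [map_one]; rfl
  have eBB : J * J = I * I := by
    have := conv _ _ hBB
    simpa only [mulv] using this
  have eBA : J * I = I * I * (I * J) := by
    have := conv _ _ hBA
    simpa only [mulv] using this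
  have eZA : I * I * I = I * (I * I) := by
    have := conv _ _ hZA
    simpa only [mulv] using this
  have eZB : I * I * J = J * (I * I) := by
    have := conv _ _ hZB
    simpa only [mulv] using this
  have eZZ : I * I * (I * I) = 1 := by
    have := conv _ _ hZZ
    simpa only [mulv, oneV] using this
  have eZ1 : I * I ≠ 1 := by
    intro h
    apply hZ1
    apply hι
    apply Units.ext
    rw [map_one]
    rw [mulv]
    exact h
  -- inverses
  have hIu : IsUnit I := (ι A).isUnit
  have hJu : IsUnit J := (ι B).isUnit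
  -- `I * I` is scalar
  have hZs : ∃ c : F, I * I = c • (1 : M₂) := by
    by_contra hcon
    push Not at hcon
    obtain ⟨a, b, hab⟩ := commutant_two (I * I) I hcon eZA
    obtain ⟨a', b', hab'⟩ := commutant_two (I * I) J hcon eZB
    have hcomm : I * J = J * I := by
      rw [hab, hab']
      generalize I * I = Z
      simp only [Matrix.add_mul, Matrix.mul_add, Matrix.smul_mul, Matrix.mul_smul, Matrix.one_mul,
        Matrix.mul_one]
      module
    rw [← hcomm] at eBA
    have h1 : (1 : M₂) * (I * J) = I * I * (I * J) := by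
      rw [Matrix.one_mul]; exact eBA
    have huIJ : IsUnit (I * J) := hIu.mul hJu
    have h2 := huIJ.mul_right_cancel h1
    exact eZ1 h2.symm
  obtain ⟨c, hc⟩ := hZs
  have hc2 : c * c = 1 := by
    rw [hc] at eZZ
    rw [Matrix.smul_mul, Matrix.mul_smul, Matrix.one_mul, smul_smul] at eZZ
    have := congrFun (congrFun eZZ 0) 0
    simpa using this
  have hcm : c = -1 := by
    have h1 : (c - 1) * (c + 1) = 0 := by linear_combination hc2
    rcases mul_eq_zero.1 h1 with h | h
    · exfalso
      apply eZ1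
      rw [hc, sub_eq_zero.1 h, one_smul]
    · linear_combination h
  have hII : I * I = -1 := by rw [hc, hcm, neg_smul, one_smul]
  have hJJ : J * J = -1 := by rw [eBB, hII]
  have hJI : J * I = -(I * J) := by rw [eBA, hII]; simp
  refine ⟨ι A, ι B, ⟨hιR _, hιR _, hII, hJJ, hJI, ?_, ?_⟩⟩
  · intro h hh
    obtain ⟨n, m, hnm⟩ := hgen0 (φ ⟨h, hh⟩)
    refine ⟨n, m, ?_⟩
    have : ι (φ ⟨h, hh⟩) = h := by simp [ι]
    rw [← this, hnm, map_mul, map_pow, map_pow]
  · rw [Nat.card_congr φ.toEquiv, Nat.card_eq_fintype_card, QuaternionGroup.card]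

theorem mem_normalizer_of_conj {R : Subgroup (GL (Fin 2) F)} {i j g : GL (Fin 2) F} (hq : QuatData R i j)
    (h1 : g * i * g⁻¹ ∈ R) (h2 : g * j * g⁻¹ ∈ R) (h3 : g⁻¹ * i * g ∈ R) (h4 : g⁻¹ * j * g ∈ R) :
    g ∈ Geo.subgroupNormalizer R := by
  have key : ∀ g : GL (Fin 2) F, g * i * g⁻¹ ∈ R → g * j * g⁻¹ ∈ R → ∀ h ∈ R, g * h * g⁻¹ ∈ R := by
    intro g h1 h2 h hh
    obtain ⟨n, m, rfl⟩ := hq.hgen h hh
    have : g * (i ^ n * j ^ m) * g⁻¹ = (g * i * g⁻¹) ^ n * (g * j * g⁻¹) ^ m := by
      rw [conj_pow, conj_pow]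
      group
    rw [this]
    exact R.mul_mem (R.pow_mem h1 n) (R.pow_mem h2 m)
  show g ∈ Subgroup.normalizer (R : Set (GL (Fin 2) F))
  rw [Subgroup.mem_normalizer_iff]
  intro h
  constructor
  · exact key g h1 h2 h
  · intro hh
    have := key g⁻¹ (by simpa using h3) (by simpa using h4) _ hh
    have e : g⁻¹ * (g * h * g⁻¹) * g⁻¹⁻¹ = h := by group
    rwa [e] at this

/-- Elements of `SL₂` with trace zero (non-scalar) are conjugate into `R`. -/
theorem scalar_mem_normalizer (R : Subgroup (GL (Fin 2) F)) (s : GL (Fin 2) F) {c : F}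
    (hs : (s : M₂) = c • (1 : M₂)) : s ∈ Geo.subgroupNormalizer R := by
  have hcomm : ∀ h : GL (Fin 2) F, s * h = h * s := by
    intro h
    apply Units.ext
    simp [Units.val_mul, hs, Matrix.smul_mul, Matrix.mul_smul]
  show s ∈ Subgroup.normalizer (R : Set (GL (Fin 2) F))
  rw [Subgroup.mem_normalizer_iff]
  intro h
  rw [hcomm h, mul_inv_cancel_right]

end GLpart

section Fixed

variable {F : Type*} [Field F] [Fintype F]

local notation "M₂" => Matrix (Fin 2) (Fin 2) F

/-- An element of prime order `r ≥ 5` normalising a group of order `8` containing a non-trivial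
fixed element centralises it. -/
theorem commute_of_normalizer {R : Subgroup (GL (Fin 2) F)} (hcard : Nat.card R = 8) {r : ℕ} [Fact r.Prime]
    (hr : 5 ≤ r) {y z : GL (Fin 2) F} (hy : y ∈ Geo.subgroupNormalizer R) (hyr : y ^ r = 1)
    (hz : z ∈ R) (hz1 : z ≠ 1) (hzy : y * z = z * y) : ∀ h ∈ R, y * h = h * y := by
  classical
  haveI : Fintype R := Fintype.ofFinite _
  have hy' : ∀ h, h ∈ R ↔ y * h * y⁻¹ ∈ R := Subgroup.mem_normalizer_iff.1 hy
  let f : Function.End ↥R := fun h => ⟨y * h * y⁻¹, (hy' h).1 h.2⟩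
  have hfn : ∀ n : ℕ, ∀ h : R, (((f ^ n) h : R) : GL (Fin 2) F) = y ^ n * h * (y ^ n)⁻¹ := by
    intro n
    induction n with
    | zero => intro h; simp; rfl
    | succ n ih =>
      intro h
      rw [pow_succ]
      show (((f ^ n) (f h) : R) : GL (Fin 2) F) = _
      rw [ih]
      show y ^ n * (y * h * y⁻¹) * (y ^ n)⁻¹ = _
      rw [pow_succ]
      group
  have hf : f ^ r ^ 1 = 1 := by
    funext h
    apply Subtype.ext
    rw [pow_one, hfn, hyr]
    simp
    rfl
  have hmod := Equiv.Perm.card_fixedPoints_modEq (p := r) (n := 1) hf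
  let D : Subgroup ↥R := (Subgroup.centralizer {y}).subgroupOf R
  have hD : ∀ h : ↥R, h ∈ D ↔ y * h = h * y := by
    intro h
    rw [Subgroup.mem_subgroupOf, Subgroup.mem_centralizer_singleton_iff]
    exact eq_comm
  have hfix : ∀ h : ↥R, h ∈ Function.fixedPoints f ↔ h ∈ D := by
    intro h
    rw [Function.mem_fixedPoints, hD]
    constructor
    · intro hh
      have : y * h * y⁻¹ = h := congrArg Subtype.val hh
      calc y * h = (y * h * y⁻¹) * y := by group
        _ = h * y := by rw [this]
    · intro hh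
      apply Subtype.ext
      show y * h * y⁻¹ = h
      rw [hh]
      group
  have hcardD : Fintype.card (Function.fixedPoints f) = Nat.card D := by
    rw [Fintype.card_eq_nat_card]
    apply Nat.card_congr
    exact Equiv.subtypeEquivRight hfix
  rw [hcardD, Fintype.card_eq_nat_card, hcard] at hmod
  have hdvd : Nat.card D ∣ 8 := by
    rw [← hcard]
    exact Subgroup.card_subgroup_dvd_card D
  have hD1 : Nat.card D ≠ 1 := by
    intro h1
    have hsub : Subsingleton D := (Nat.card_eq_one_iff_unique.1 h1).1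
    have hzD : (⟨z, hz⟩ : ↥R) ∈ D := (hD _).2 hzy
    have h1D : (1 : ↥R) ∈ D := D.one_mem
    have : (⟨⟨z, hz⟩, hzD⟩ : D) = ⟨1, h1D⟩ := Subsingleton.elim _ _
    apply hz1
    have h2 := congrArg (fun w : D => ((w : ↥R) : GL (Fin 2) F)) this
    simpa using h2
  have hdiv : Nat.card D ∈ Nat.divisors 8 := Nat.mem_divisors.2 ⟨hdvd, by norm_num⟩
  have hd8 : Nat.divisors 8 = {1, 2, 4, 8} := by decide
  rw [hd8] at hdiv
  simp only [Finset.mem_insert, Finset.mem_singleton] at hdiv
  have hrp : r.Prime := Fact.out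
  have hD8 : Nat.card D = 8 := by
    rcases hdiv with h | h | h | h
    · exact absurd h hD1
    · exfalso
      rw [h] at hmod
      have h6 : r ∣ 6 := (Nat.modEq_iff_dvd' (by norm_num)).1 hmod.symm
      have hle := Nat.le_of_dvd (by norm_num) h6
      interval_cases r
      · omega
      · exact absurd hrp (by norm_num)
    · exfalso
      rw [h] at hmod
      have h6 : r ∣ 4 := (Nat.modEq_iff_dvd' (by norm_num)).1 hmod.symm
      have hle := Nat.le_of_dvd (by norm_num) h6
      omega
    · exact h
  have htop : D = ⊤ := by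
    apply Subgroup.eq_top_of_card_eq
    rw [hD8, hcard]
  intro h hh
  have : (⟨h, hh⟩ : ↥R) ∈ D := by rw [htop]; trivial
  exact (hD _).1 this

end Fixed


/-- Elements of prime order of PSL_2(p) and the normalizer of a quaternion subgroup. Here `T = PSL_2(F)` for the field `F` with `p` elements, `p ≥ 5` prime; `R` is a subgroup of GL_2(F) isomorphic to the quaternion group of order 8 (an absolutely irreducible 2-group of symplectic type), and `H` is the subgroup of matrices of determinant 1 normalizing `R` — a subgroup of type 2^{1+2}.O₂⁻(2), isomorphic modulo scalars to A₄ or S₄ (maximality is not assumed). Ω is the set of cosets of `H` in `T`, so an element of `T` of prime order `r` (a matrix `x` of determinant 1 with `x^r` scalar, `x` not scalar) fixes a point of Ω exactly when some conjugate of `x` by a matrix of determinant 1 normalizes `R`. Let `r` be a prime dividing the index of `H`. Then every element of `T` of order `r` fixes a point of Ω if and only if `r = 2` or `r = 3`. -/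
theorem result {F : Type*} [Field F] [Fintype F] {p : ℕ} [Fact p.Prime] [CharP F p] (hF : Fintype.card F = p) (hp : 5 ≤ p)
    (R : Subgroup (GL (Fin 2) F)) (hR : Nonempty (↥R ≃* QuaternionGroup 2))
    (r : ℕ) [Fact r.Prime]
    (hΩ : r ∣ (Cfsg.Geo.subgroupNormalizer R).relIndex (Cfsg.Geo.specialLinear (Fin 2) F)) :
    (∀ x ∈ Cfsg.Geo.specialLinear (Fin 2) F, (∃ z : F, ((x ^ r : GL (Fin 2) F) : Matrix (Fin 2) (Fin 2) F) = z • (1 : Matrix (Fin 2) (Fin 2) F)) →
      (∀ z : F, (x : Matrix (Fin 2) (Fin 2) F) ≠ z • (1 : Matrix (Fin 2) (Fin 2) F)) →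
      ∃ g ∈ Cfsg.Geo.specialLinear (Fin 2) F, g⁻¹ * x * g ∈ Cfsg.Geo.subgroupNormalizer R) ↔ (r = 2 ∨ r = 3) := by
  have hpne : ∀ n : ℕ, 0 < n → n < p → (n : F) ≠ 0 := by
    intro n h0 h1 hn
    have := (CharP.cast_eq_zero_iff F p n).1 hn
    exact absurd (Nat.le_of_dvd h0 this) (by omega)
  have h2 : (2 : F) ≠ 0 := by simpa using hpne 2 (by omega) (by omega)
  have h3 : (3 : F) ≠ 0 := by simpa using hpne 3 (by omega) (by omega)
  obtain ⟨t, ht⟩ : ∃ t : F, t * 2 = 1 := ⟨2⁻¹, inv_mul_cancel₀ h2⟩
  obtain ⟨i, j, hq⟩ := exists_quatData R hR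
  let I : Matrix (Fin 2) (Fin 2) F := (i : GL (Fin 2) F)
  let J : Matrix (Fin 2) (Fin 2) F := (j : GL (Fin 2) F)
  have hII : I * I = -1 := hq.hII
  have hJJ : J * J = -1 := hq.hJJ
  have hJI : J * I = -(I * J) := hq.hJI
  have hQ := quatRel_of_anti hII hJJ hJI
  have hIns : ∀ c : F, I ≠ c • (1 : Matrix (Fin 2) (Fin 2) F) := by
    intro c
    apply notScalar_of_sq h2 hII hJJ
    rw [hJI, neg_neg]
  have hJns : ∀ c : F, J ≠ c • (1 : Matrix (Fin 2) (Fin 2) F) := by
    intro c
    exact notScalar_of_sq h2 hJJ hII hJI c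
  have hKns : ∀ c : F, I * J ≠ c • (1 : Matrix (Fin 2) (Fin 2) F) := by
    intro c
    apply notScalar_of_sq h2 hQ.KK hII
    rw [hQ.KI, hQ.IK, neg_neg]
  obtain ⟨hIt, hId⟩ := trace_det_of_sq hIns hII
  obtain ⟨hJt, hJd⟩ := trace_det_of_sq hJns hJJ
  obtain ⟨hKt, hKd⟩ := trace_det_of_sq hKns hQ.KK
  have hdetSL : ∀ x ∈ Cfsg.Geo.specialLinear (Fin 2) F, ((x : GL (Fin 2) F) : Matrix (Fin 2) (Fin 2) F).det = 1 := by
    intro x hx
    have : Matrix.GeneralLinearGroup.det x = 1 := hx
    have h := congrArg Units.val this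
    simpa using h
  have hmemSL : ∀ x : GL (Fin 2) F, (x : Matrix (Fin 2) (Fin 2) F).det = 1 → x ∈ Cfsg.Geo.specialLinear (Fin 2) F := by
    intro x hx
    show Matrix.GeneralLinearGroup.det x = 1
    apply Units.ext
    simpa using hx
  have mkConj : ∀ (P A : Matrix (Fin 2) (Fin 2) F) (x a : GL (Fin 2) F), P.det = 1 → (x : Matrix (Fin 2) (Fin 2) F) = A →
      (a : Matrix (Fin 2) (Fin 2) F) = A → True := fun _ _ _ _ _ _ _ => trivial
  constructor
  · intro H
    by_contra hr
    push Not at hr
    have hrp : r.Prime := Fact.out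
    have hr5 : 5 ≤ r := by
      have hr2 := hrp.two_le
      by_contra hlt
      have : r = 2 ∨ r = 3 ∨ r = 4 := by omega
      rcases this with h | h | h
      · exact hr.1 h
      · exact hr.2 h
      · rw [h] at hrp; exact absurd hrp (by norm_num)
    have hdvd : r ∣ Nat.card (Cfsg.Geo.specialLinear (Fin 2) F) :=
      hΩ.trans (Subgroup.relIndex_dvd_card _ _)
    obtain ⟨x', hx'⟩ := exists_prime_orderOf_dvd_card' (G := Cfsg.Geo.specialLinear (Fin 2) F) r hdvd
    let x : GL (Fin 2) F := x'
    have hxmem : x ∈ Cfsg.Geo.specialLinear (Fin 2) F := x'.2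
    have hxo : orderOf x = r := by
      rw [← hx']
      exact Subgroup.orderOf_coe x'
    have hxr : x ^ r = 1 := by rw [← hxo]; exact pow_orderOf_eq_one x
    have hxns : ∀ c : F, (x : Matrix (Fin 2) (Fin 2) F) ≠ c • (1 : Matrix (Fin 2) (Fin 2) F) := by
      intro c hc
      have hd := hdetSL x hxmem
      rw [hc, Matrix.det_smul, Matrix.det_one, mul_one, Fintype.card_fin] at hd
      have hx2 : x ^ 2 = 1 := by
        apply Units.ext
        rw [Units.val_pow_eq_pow_val, hc, smul_pow, one_pow, hd]
        simp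
      have := orderOf_dvd_of_pow_eq_one hx2
      rw [hxo] at this
      have := Nat.le_of_dvd (by norm_num) this
      omega
    obtain ⟨g, hg, hy⟩ := H x hxmem ⟨1, by rw [hxr]; simp⟩ hxns
    set y := g⁻¹ * x * g with hydef
    have hyr : y ^ r = 1 := by
      rw [hydef, show g⁻¹ * x * g = g⁻¹ * x * g⁻¹⁻¹ by simp, conj_pow, hxr]
      simp
    have hiscal : (i * i : GL (Fin 2) F) ∈ R := R.mul_mem hq.hi hq.hi
    have hzv : ((i * i : GL (Fin 2) F) : Matrix (Fin 2) (Fin 2) F) = -1 := by
      rw [Units.val_mul]; exact hII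
    have hz1 : (i * i : GL (Fin 2) F) ≠ 1 := by
      intro h
      have h5 : (-1 : Matrix (Fin 2) (Fin 2) F) = 1 := by
        rw [← hzv, h]; rfl
      have h6 := congrFun (congrFun h5 0) 0
      simp at h6
      have h7 : (2 : F) = 0 := by linear_combination -h6
      exact h2 h7
    have hzy : y * (i * i) = (i * i) * y := by
      apply Units.ext
      simp only [Units.val_mul]
      rw [show ((i : GL (Fin 2) F) : Matrix (Fin 2) (Fin 2) F) * (i : GL (Fin 2) F) = -1 from hII]
      simp
    have hcomm := commute_of_normalizer hq.hcard hr5 hy hyr hiscal hz1 hzy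
    have hyI : (y : Matrix (Fin 2) (Fin 2) F) * I = I * (y : Matrix (Fin 2) (Fin 2) F) := by
      have := congrArg Units.val (hcomm i hq.hi)
      simpa only [Units.val_mul] using this
    have hyJ : (y : Matrix (Fin 2) (Fin 2) F) * J = J * (y : Matrix (Fin 2) (Fin 2) F) := by
      have := congrArg Units.val (hcomm j hq.hj)
      simpa only [Units.val_mul] using this
    obtain ⟨a, b, hab⟩ := commutant_two I _ hIns hyI.symm
    rw [hab] at hyJ
    simp only [Matrix.add_mul, Matrix.mul_add, Matrix.smul_mul, Matrix.mul_smul, Matrix.one_mul,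
      Matrix.mul_one] at hyJ
    rw [hJI] at hyJ
    have hb : b = 0 := by
      by_contra hb
      have h5 : (2 * b) • (I * J) = 0 := by
        rw [two_mul, add_smul]
        rw [smul_neg] at hyJ
        have h6 := add_left_cancel hyJ
        nth_rw 2 [h6]
        simp
      have h6 : I * J = 0 := (smul_eq_zero.1 h5).resolve_left (mul_ne_zero h2 hb)
      rw [h6] at hQ
      exact hKns 0 (by rw [h6]; simp)
    rw [hb] at hab
    have hys : (y : Matrix (Fin 2) (Fin 2) F) = a • 1 := by simpa using hab
    apply hxns a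
    have hxg : x = g * y * g⁻¹ := by rw [hydef]; group
    rw [hxg, Units.val_mul, Units.val_mul, hys]
    simp [Matrix.mul_smul, Matrix.smul_mul]
  · rintro (rfl | rfl)
    · intro x hx ⟨z, hz⟩ hxns
      have hxd := hdetSL x hx
      rw [Units.val_pow_eq_pow_val, sq] at hz
      have h4 := sq_eq_trace (x : Matrix (Fin 2) (Fin 2) F)
      rw [hxd, hz, one_smul] at h4
      have hxt : (x : Matrix (Fin 2) (Fin 2) F).trace = 0 := by
        by_contra ht0
        apply hxns ((x : Matrix (Fin 2) (Fin 2) F).trace⁻¹ * (z + 1))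
        have h5 : (x : Matrix (Fin 2) (Fin 2) F).trace • (x : Matrix (Fin 2) (Fin 2) F) = (z + 1) • (1 : Matrix (Fin 2) (Fin 2) F) := by
          rw [add_smul, one_smul, h4]
          abel
        rw [mul_smul, ← h5, smul_smul, inv_mul_cancel₀ ht0, one_smul]
      obtain ⟨P, hP, hPc⟩ := exists_conj_two_det_one h2 (x : Matrix (Fin 2) (Fin 2) F) I hxns hIns
        (by rw [hxt, hIt]) (by rw [hxd, hId])
        (by
          rw [hxt, hxd]
          intro h0
          have : (4 : F) = 0 := by linear_combination -h0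
          have h8 : (2 : F) * 2 = 0 := by linear_combination this
          exact mul_ne_zero h2 h2 h8)
      let g : GL (Fin 2) F := Matrix.GeneralLinearGroup.mkOfDetNeZero P (by rw [hP]; exact one_ne_zero)
      have hgv : (g : Matrix (Fin 2) (Fin 2) F) = P := rfl
      refine ⟨g, hmemSL g (by rw [hgv, hP]), ?_⟩
      have hgi : g⁻¹ * x * g = i := by
        have : x * g = g * i := by
          apply Units.ext
          rw [Units.val_mul, Units.val_mul, hgv]
          exact hPc
        rw [mul_assoc, this]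
        group
      rw [hgi]
      show i ∈ Subgroup.normalizer (R : Set (GL (Fin 2) F))
      apply Subgroup.le_normalizer
      exact hq.hi
    · intro x hx ⟨z, hz⟩ hxns
      have hxd := hdetSL x hx
      rw [Units.val_pow_eq_pow_val] at hz
      -- z² = 1
      have hz2 : z * z = 1 := by
        have h4 := congrArg Matrix.det hz
        rw [Matrix.det_pow, hxd, Matrix.det_smul] at h4
        simp at h4
        rw [← h4.symm, sq]
      have hz0 : z ≠ 0 := by
        rintro rfl
        simp at hz2
      -- y := z • x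
      set X : Matrix (Fin 2) (Fin 2) F := (x : Matrix (Fin 2) (Fin 2) F) with hX
      have hy3 : (z • X) * (z • X) * (z • X) = 1 := by
        have : X ^ 3 = X * X * X := by rw [pow_succ, pow_two]
        rw [this] at hz
        simp only [Matrix.smul_mul, Matrix.mul_smul, smul_smul]
        rw [hz, smul_smul]
        have h5 : z * (z * z) * z = 1 := by rw [hz2, mul_one, hz2]
        rw [h5, one_smul]
      have hyd : (z • X).det = 1 := by
        rw [Matrix.det_smul, hxd]
        simp [sq, hz2]
      have hyns : ∀ c : F, z • X ≠ c • (1 : Matrix (Fin 2) (Fin 2) F) := by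
        intro c hc
        apply hxns (z * c)
        have : z • (z • X) = (z * c) • (1 : Matrix (Fin 2) (Fin 2) F) := by rw [hc, smul_smul]
        rw [smul_smul, hz2, one_smul] at this
        exact this
      set W : Matrix (Fin 2) (Fin 2) F := z • X with hW
      clear_value W
      have h4 := sq_eq_trace W
      rw [hyd, one_smul] at h4
      have h6 : (W.trace ^ 2 - 1) • W = (1 + W.trace) • (1 : Matrix (Fin 2) (Fin 2) F) := by
        have h7 : W * W * W = W.trace • (W * W) - W := by
          calc W * W * W = (W.trace • W - 1) * W := by rw [h4]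
            _ = W.trace • (W * W) - W := by
              simp only [Matrix.sub_mul, Matrix.smul_mul, Matrix.one_mul]
        rw [hy3, h4] at h7
        have h8 : (W.trace ^ 2 - 1) • W = W.trace • (W.trace • W - 1) - W + W.trace • (1 : Matrix (Fin 2) (Fin 2) F) := by
          rw [smul_sub, smul_smul, sub_smul, one_smul, sq]
          abel
        rw [h8, ← h7, add_smul, one_smul]
      have htr2 : W.trace ^ 2 - 1 = 0 := by
        by_contra h8
        apply hyns ((W.trace ^ 2 - 1)⁻¹ * (1 + W.trace))
        rw [mul_smul, ← h6, smul_smul, inv_mul_cancel₀ h8, one_smul]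
      have htr : W.trace = -1 := by
        rw [htr2, zero_smul] at h6
        have := congrFun (congrFun h6 0) 0
        simp at this
        linear_combination -this
      -- The element `Y`.
      set Y : Matrix (Fin 2) (Fin 2) F := t • (-1 + I + J + I * J) with hY
      obtain ⟨hYt, hYd⟩ := hQ.Y_trace_det h2 hIt hJt hKt ht
      have hYns : ∀ c : F, Y ≠ c • (1 : Matrix (Fin 2) (Fin 2) F) := hQ.Y_notScalar h2 ht
      obtain ⟨P, hP, hPc⟩ := exists_conj_two_det_one h2 W Y hyns hYns
        (by rw [htr, hYt]) (by rw [hyd, hYd])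
        (by
          rw [htr, hyd]
          intro h0
          have : (3 : F) = 0 := by linear_combination -h0
          exact h3 this)
      let g : GL (Fin 2) F := Matrix.GeneralLinearGroup.mkOfDetNeZero P (by rw [hP]; exact one_ne_zero)
      have hgv : (g : Matrix (Fin 2) (Fin 2) F) = P := rfl
      refine ⟨g, hmemSL g (by rw [hgv, hP]), ?_⟩
      -- Y as element of GL
      let Yg : GL (Fin 2) F := Matrix.GeneralLinearGroup.mkOfDetNeZero Y (by rw [hYd]; exact one_ne_zero)
      have hYgv : (Yg : Matrix (Fin 2) (Fin 2) F) = Y := rfl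
      have hYi : Yg * i = (i * j) * Yg := by
        apply Units.ext
        simp only [Units.val_mul, hYgv]
        exact hQ.Y_I t
      have hYj : Yg * j = i * Yg := by
        apply Units.ext
        simp only [Units.val_mul, hYgv]
        exact hQ.Y_J t
      have hYN : Yg ∈ Cfsg.Geo.subgroupNormalizer R := by
        apply mem_normalizer_of_conj hq
        · rw [hYi]
          have : i * j * Yg * Yg⁻¹ = i * j := by group
          rw [this]
          exact R.mul_mem hq.hi hq.hj
        · rw [hYj]
          have : i * Yg * Yg⁻¹ = i := by group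
          rw [this]
          exact hq.hi
        · -- `Yg⁻¹ * i * Yg = j`
          have : Yg⁻¹ * i * Yg = j := by
            have e : i * Yg = Yg * j := hYj.symm
            rw [mul_assoc, e]
            group
          rw [this]
          exact hq.hj
        · -- `Yg⁻¹ * j * Yg = i⁻¹ * i * j ...`
          have e1 : Yg⁻¹ * i * Yg = j := by
            have e : i * Yg = Yg * j := hYj.symm
            rw [mul_assoc, e]
            group
          have e2 : Yg⁻¹ * (i * j) * Yg = i := by
            rw [mul_assoc, ← hYi]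
            group
          have : Yg⁻¹ * j * Yg = (Yg⁻¹ * i * Yg)⁻¹ * (Yg⁻¹ * (i * j) * Yg) := by group
          rw [this, e1, e2]
          -- `j⁻¹ * i ∈ R`
          exact R.mul_mem (R.inv_mem hq.hj) hq.hi
      -- scalar part
      let s : GL (Fin 2) F := Matrix.GeneralLinearGroup.mkOfDetNeZero (z • (1 : Matrix (Fin 2) (Fin 2) F)) (by
        rw [Matrix.det_smul]
        simp [hz0])
      have hsv : (s : Matrix (Fin 2) (Fin 2) F) = z • (1 : Matrix (Fin 2) (Fin 2) F) := rfl
      have hsN : s ∈ Cfsg.Geo.subgroupNormalizer R := scalar_mem_normalizer R s hsv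
      have hgx : g⁻¹ * x * g = s * Yg := by
        have : x * g = g * (s * Yg) := by
          apply Units.ext
          simp only [Units.val_mul, hgv, hsv, hYgv]
          rw [Matrix.smul_mul, Matrix.one_mul, Matrix.mul_smul, ← hPc, hW, Matrix.smul_mul, smul_smul, hz2,
            one_smul]
        rw [mul_assoc, this]
        group
      rw [hgx]
      exact Subgroup.mul_mem _ hsN hYN

end Cfsg.Agent.S5997
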